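import Cfsg.Statements.S0914
import Cfsg.Agent.Lib.BlockDefect

set_option autoImplicit false
open Cfsg

namespace Cfsg.Agent.S0914

/-- Let χ be an irreducible character of the finite group G, p a prime and M a maximal ideal of the algebraic integers containing p. Then p does not divide the integer (Nat.card G) / χ(1) if and only if the block of χ relative to M consists of χ alone. -/
theorem result {G : Type*} [Group G] [Finite G] (p : ℕ) [Fact p.Prime] (M : Ideal Cfsg.AlgInt) (hM : Cfsg.IsPModular p M) (χ : Cfsg.IrrCharacter G) : ¬ p ∣ Nat.card G / Cfsg.charDegree (χ : G → ℂ) ↔ Cfsg.blockOf M (χ : G → ℂ) = {χ} := by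
  haveI := Fintype.ofFinite G
  classical
  have hp : p.Prime := Fact.out
  have hd0 : charDegree (χ : G → ℂ) ≠ 0 := (CfsgLib.Block.charDegree_pos χ).ne'
  obtain ⟨c, hc⟩ := CfsgLib.Block.charDegree_dvd_card χ
  have hc0 : c ≠ 0 := by rintro rfl; simp at hc
  have hdiv : Nat.card G / charDegree (χ : G → ℂ) = c := by
    rw [hc, Nat.mul_div_cancel_left _ (Nat.pos_of_ne_zero hd0)]
  have hfac : (Nat.card G).factorization p =
      (charDegree (χ : G → ℂ)).factorization p + c.factorization p := by
    rw [hc, Nat.factorization_mul hd0 hc0, Finsupp.add_apply]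
  have hiff : ¬ p ∣ c ↔ c.factorization p = 0 :=
    ⟨Nat.factorization_eq_zero_of_not_dvd, fun h hd => by
      have := hp.factorization_pos_of_dvd hc0 hd; omega⟩
  rw [hdiv, hiff]
  constructor
  · intro h0
    refine Set.Subset.antisymm ?_ ?_
    · refine CfsgLib.Block.blockOf_subset_of_indVal_mem hM (A := {χ}) (fun g => ?_) rfl
      unfold CfsgLib.Block.coef
      rw [Finset.sum_eq_single χ]
      · simp only [CfsgLib.Block.indVal, Set.mem_singleton_iff, if_true, one_mul,
          ← mul_assoc, ← CfsgLib.Block.charDegree_cast χ.2.isCharacter']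
        rw [← div_eq_inv_mul]
        refine mul_mem (CfsgLib.Block.natCast_div_mem hM Nat.card_pos.ne' ?_)
          (CfsgLib.Block.isIntegral_mem hM ?_)
        · rw [hfac, h0, add_zero]
          exact Nat.ordProj_dvd _ p
        · exact (CfsgLib.Char.isCharacter_isIntegral χ.2.isCharacter' g).map
            (starRingEnd ℂ).toIntAlgHom
      · intro ψ _ hne
        simp [CfsgLib.Block.indVal, hne]
      · exact fun h => absurd (Finset.mem_univ _) h
    · rintro ψ rfl
      exact CfsgLib.Block.mem_blockOf_self hM _
  · intro hsing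
    have hB : IsPBlock M (blockOf M (χ : G → ℂ)) := CfsgLib.Block.isPBlock_blockOf χ
    obtain ⟨ψ, hψ, hm⟩ := CfsgLib.Block.exists_eq_blockMin hM hB
    have hψe : ψ = χ := by rw [hsing] at hψ; exact hψ
    have hS := CfsgLib.Block.factorization_sum_sq hM hB
    rw [← hm, hψe] at hS
    have hF : Finset.univ.filter (· ∈ blockOf M (χ : G → ℂ)) = {χ} := by
      ext φ; simp [hsing]
    rw [hF, Finset.sum_singleton, Nat.factorization_pow, Finsupp.smul_apply, smul_eq_mul] at hS
    omega

end Cfsg.Agent.S0914
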