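import Cfsg.Statements.S4691
import Cfsg.Agent.Lib.BlockPairBridge
import Cfsg.Agent.Lib.CoreTransfer

set_option autoImplicit false
open Cfsg
open CfsgLib.Block


namespace Cfsg.Agent.S4691

/-- Fix a prime p and a maximal ideal M of the algebraic integers containing p. A finite group G has a normal p-complement if and only if its principal p-block is nilpotent. -/
theorem result {G : Type*} [Group G] [Fintype G] (p : ℕ) [Fact p.Prime] (M : Ideal Cfsg.AlgInt) (hM : Cfsg.IsPModular p M) : Cfsg.HasNormalPComplement p G ↔ Cfsg.IsNilpotentBlock p M (Cfsg.principalBlock M G) := by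
  constructor
  · intro h
    obtain ⟨N, hN, hcop, k, hk⟩ := CfsgLib.Core.hasNormalPComplement_iff.1 h
    refine ⟨isPBlock_principal M, fun Q e hpair x hx _ hreg => ?_⟩
    have hQ : IsPGroup p Q := hpair.1.1
    have hxN : x ∈ N := by
      haveI := hN
      have h1 : orderOf (QuotientGroup.mk' N x) ∣ p ^ k := by
        rw [← hk, Subgroup.index_eq_card]
        exact orderOf_dvd_natCard _
      have h2 : orderOf (QuotientGroup.mk' N x) ∣ orderOf x := orderOf_map_dvd _ x
      have h3 : Nat.Coprime (p ^ k) (orderOf x) :=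
        (Fact.out : p.Prime).coprime_iff_not_dvd.2 hreg |>.pow_left k
      exact (QuotientGroup.eq_one_iff x).1
        (orderOf_eq_one_iff.1 (Nat.eq_one_of_dvd_coprimes h3 h1 h2))
    refine Subgroup.mem_centralizer_iff.2 fun q hq => ?_
    have hc : x * q * x⁻¹ * q⁻¹ ∈ N ⊓ Q := by
      refine ⟨?_, Q.mul_mem ((Subgroup.mem_normalizer_iff.1 hx q).1 hq) (Q.inv_mem hq)⟩
      have := N.mul_mem hxN (hN.conj_mem x⁻¹ (N.inv_mem hxN) q)
      simpa [mul_assoc] using this
    rw [CfsgLib.Core.sylow_inf_bot_of_coprime hQ hcop, Subgroup.mem_bot] at hc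
    calc q * x = 1⁻¹ * (x * q) := by
          rw [← hc]; group
      _ = x * q := by group
  · intro h
    refine CfsgLib.Core.hasNormalPComplement_of_local fun Q hQ g hg hcop => ?_
    refine h.2 Q _ ((isBrauerPairOf_iff hM).2 ⟨isPBlock_principal M, pairIn_principal hM hQ⟩) g hg
      ((stabilizesBlock_iff hM (isPBlock_principal M) g).2 ⟨mem_normalizer_centralizer hg, ?_⟩)
      ((Fact.out : p.Prime).coprime_iff_not_dvd.1 hcop.symm)
    exact cnj_eq_self_of_invBy (invBy_prinFn hM (le_refl (Subgroup.normalizer (Q : Set G)))) hg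

end Cfsg.Agent.S4691
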