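import Cfsg.Statements.S0947
import Cfsg.Agent.S4691
import Cfsg.Agent.Lib.BlockPrinSection
import Cfsg.Agent.Lib.BlockNilBij
import Cfsg.Agent.Lib.CoreTransfer
import Cfsg.Agent.Lib.CoreBasic

set_option autoImplicit false
open Cfsg
open CfsgLib.Block CfsgLib.Char
open scoped Classical


namespace Cfsg.Agent.S0947

/-- Let z ≠ 1 be a p-element of the finite group G with centralizer H, and fix a maximal ideal M of the algebraic integers containing p. (i) For every y ∈ H of order prime to p, the sum over ζ in the principal block of G of |ζ (z * y)|² equals the sum over χ in the principal block of H of |χ y|². (ii) If moreover H has a normal p-complement (its largest normal subgroup of order prime to p has p-power index), that common value is the largest power of p dividing the order of H. -/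
theorem result {G : Type*} [Group G] [Finite G] (p : ℕ) [Fact p.Prime] (M : Ideal Cfsg.AlgInt) (hM : Cfsg.IsPModular p M) (z : G) (hz : ∃ k : ℕ, orderOf z = p ^ k) (hz1 : z ≠ 1) (y : Subgroup.centralizer ({z} : Set G)) (hy : ¬ p ∣ orderOf y) : (∑ᶠ ζ ∈ Cfsg.principalBlock M G, ‖(ζ : G → ℂ) (z * (y : G))‖ ^ 2 = ∑ᶠ χ ∈ Cfsg.principalBlock M (Subgroup.centralizer ({z} : Set G)), ‖(χ : Subgroup.centralizer ({z} : Set G) → ℂ) y‖ ^ 2) ∧ ((∃ k : ℕ, (Cfsg.pPrimeCore p (Subgroup.centralizer ({z} : Set G))).index = p ^ k) → ∑ᶠ ζ ∈ Cfsg.principalBlock M G, ‖(ζ : G → ℂ) (z * (y : G))‖ ^ 2 = ((p ^ (Nat.card (Subgroup.centralizer ({z} : Set G))).factorization p : ℕ) : ℝ)) := by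
  haveI := Fintype.ofFinite G
  revert hy
  revert y
  set C := Subgroup.centralizer ({z} : Set G) with hC
  intro y hy
  have key : ∀ {K : Type _} [Group K] [Fintype K] (a : IrrCharacter K → ℂ)
      (S : Set (IrrCharacter K)), ((∑ᶠ χ ∈ S, ‖a χ‖ ^ 2 : ℝ) : ℂ) =
        ∑ χ : IrrCharacter K, indVal S χ * (a χ * (starRingEnd ℂ) (a χ)) := by
    intro K _ _ a S
    rw [finsum_mem_def, finsum_eq_sum_of_fintype, Complex.ofReal_sum]
    refine Finset.sum_congr rfl fun χ _ => ?_
    rw [Complex.mul_conj, Complex.normSq_eq_norm_sq, indVal, Set.indicator_apply]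
    split_ifs <;> simp
  have h1 : (∑ᶠ ζ ∈ Cfsg.principalBlock M G, ‖(ζ : G → ℂ) (z * (y : G))‖ ^ 2) =
      ∑ᶠ χ ∈ Cfsg.principalBlock M C, ‖(χ : C → ℂ) y‖ ^ 2 := by
    apply Complex.ofReal_injective
    rw [key (fun ζ : IrrCharacter G => (ζ : G → ℂ) (z * (y : G))),
      key (fun χ : IrrCharacter C => (χ : C → ℂ) y)]
    have h := block_sum_section (isPBlock_principal (G := G) M) hz y y hy hy hM
    rw [secSet_principal hM hz] at h
    simpa only [mul_assoc] using h
  refine ⟨h1, fun hk => ?_⟩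
  rw [h1]
  obtain ⟨k, hk⟩ := hk
  set K := Cfsg.pPrimeCore p C with hKdef
  haveI hKn : K.Normal := CfsgLib.Core.normal_pPrimeCore p
  have hcomp : Cfsg.HasNormalPComplement p C := CfsgLib.Core.hasNormalPComplement_iff.2
    ⟨K, hKn, CfsgLib.Core.coprime_card_pPrimeCore p, k, hk⟩
  have hnil := (Cfsg.Agent.S4691.result p M hM).1 hcomp
  have hb : Cfsg.IsPBlock M (Cfsg.principalBlock M C) := hnil.1
  have hdata := nilData hM (Nat.card C) le_rfl _ hnil
  have hl := blockRank_eq_one hM hdata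
  obtain ⟨χ₀, -, -, -, hreg⟩ := hdata
  have h1r : ¬ p ∣ orderOf (1 : C) := by simpa using hM.1.not_dvd_one
  have hconst : ∀ χ ∈ Cfsg.principalBlock M C, ∀ s : C, ¬ p ∣ orderOf s →
      (χ : C → ℂ) s = (χ : C → ℂ) 1 := by
    intro χ hχ s hs
    obtain ⟨n, hn⟩ := hreg χ hχ
    obtain ⟨m, hm⟩ := hreg _ (trivIrr_mem_principal (G := C) hM)
    have a1 : (1 : ℂ) = (m : ℂ) * (χ₀ : C → ℂ) s := eq_mul_of_regPart_eq hm hs
    have a2 : (1 : ℂ) = (m : ℂ) * (χ₀ : C → ℂ) 1 := eq_mul_of_regPart_eq hm h1r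
    have hm0 : (m : ℂ) ≠ 0 := left_ne_zero_of_mul (a1 ▸ one_ne_zero : (m : ℂ) * (χ₀ : C → ℂ) s ≠ 0)
    rw [eq_mul_of_regPart_eq hn hs, eq_mul_of_regPart_eq hn h1r,
      mul_left_cancel₀ hm0 (a1.symm.trans a2)]
  have hregK : ∀ s : C, ¬ p ∣ orderOf s ↔ s ∈ K := by
    intro s
    constructor
    · intro hs
      have h1 : orderOf (QuotientGroup.mk' K s) ∣ p ^ k := by
        rw [← hk, Subgroup.index_eq_card]
        exact orderOf_dvd_natCard _
      have h2 : orderOf (QuotientGroup.mk' K s) ∣ orderOf s := orderOf_map_dvd _ s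
      have h3 : Nat.Coprime (p ^ k) (orderOf s) :=
        (Fact.out : p.Prime).coprime_iff_not_dvd.2 hs |>.pow_left k
      exact (QuotientGroup.eq_one_iff s).1
        (orderOf_eq_one_iff.1 (Nat.eq_one_of_dvd_coprimes h3 h1 h2))
    · intro hs hd
      have h1 : orderOf s ∣ Nat.card K := by
        rw [← Subgroup.orderOf_mk s hs]
        exact orderOf_dvd_natCard _
      exact CfsgLib.Core.not_dvd_card_pPrimeCore p (hd.trans h1)
  apply Complex.ofReal_injective
  rw [key (fun χ : IrrCharacter C => (χ : C → ℂ) y)]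
  have hnorm := card_mul_blockRank hM hb
  rw [hl, Nat.cast_one, mul_one] at hnorm
  have hs : ∀ s : C, ¬ p ∣ orderOf s → ∀ χ : IrrCharacter C,
      indVal (Cfsg.principalBlock M C) χ * ((χ : C → ℂ) s * (starRingEnd ℂ) ((χ : C → ℂ) s)) =
      indVal (Cfsg.principalBlock M C) χ * ((χ : C → ℂ) y * (starRingEnd ℂ) ((χ : C → ℂ) y)) := by
    intro s hs χ
    by_cases hχ : χ ∈ Cfsg.principalBlock M C
    · rw [hconst χ hχ s hs, hconst χ hχ y hy]
    · simp [indVal, hχ]
  simp only [Finset.mul_sum] at hnorm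
  rw [Finset.sum_comm, Finset.sum_congr rfl fun s hs' => Finset.sum_congr rfl fun χ _ =>
    hs s (Finset.mem_filter.1 hs').2 χ, Finset.sum_const, nsmul_eq_mul] at hnorm
  have hcard : (Finset.univ.filter fun s : C => ¬ p ∣ orderOf s).card = Nat.card K := by
    rw [Nat.card_eq_fintype_card, Fintype.card_subtype]
    exact congrArg Finset.card (Finset.filter_congr fun s _ => hregK s)
  have hCK : Nat.card C = Nat.card K * p ^ k := by rw [← hk, Subgroup.card_mul_index]
  rw [hcard] at hnorm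
  have hfac : (Nat.card C).factorization p = k := by
    rw [hCK, Nat.factorization_mul Nat.card_pos.ne' (pow_ne_zero _ hM.1.ne_zero),
      Finsupp.add_apply, hM.1.factorization_pow, Finsupp.single_eq_same,
      Nat.factorization_eq_zero_of_not_dvd (CfsgLib.Core.not_dvd_card_pPrimeCore p), zero_add]
  rw [hfac]
  push_cast
  refine mul_left_cancel₀ (natCard_ne_zero K) ?_
  rw [← hnorm, hCK]
  push_cast
  ring

end Cfsg.Agent.S0947
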