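import Cfsg.Statements.S0173
import Cfsg.Agent.Lib.CharPerm

set_option autoImplicit false
open Cfsg

namespace Cfsg.Agent.S0173

/-- Brauer's permutation lemma for a single automorphism: the number of conjugacy classes mapped to themselves equals the number of irreducible complex characters χ with χ ∘ α = χ. -/
theorem result {G : Type*} [Group G] [Finite G] (α : G ≃* G) : Nat.card {C : ConjClasses G // ConjClasses.map α.toMonoidHom C = C} = Nat.card {χ : Cfsg.IrrCharacter G // (χ : G → ℂ) ∘ α = (χ : G → ℂ)} := by
  classical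
  let σ : Cfsg.IrrCharacter G → Cfsg.IrrCharacter G := fun χ =>
    ⟨(χ : G → ℂ) ∘ α, CfsgLib.Char.isIrrCharacter_comp_equiv χ.2 α⟩
  let τ : ConjClasses G → ConjClasses G := ConjClasses.map α.symm.toMonoidHom
  have h := CfsgLib.Char.brauer_permutation σ τ
    (fun C => by
      obtain ⟨g, rfl⟩ := ConjClasses.mk_surjective C
      refine ⟨ConjClasses.mk (α g), ?_⟩
      show ConjClasses.mk (α.symm (α g)) = ConjClasses.mk g
      rw [α.symm_apply_apply])
    (fun χ g g' h => by
      show (χ : G → ℂ) (α g') = (χ : G → ℂ) g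
      have hc : IsConj g' (α.symm g) := ConjClasses.mk_eq_mk_iff_isConj.mp h
      have hc2 : IsConj (α g') g := by
        simpa using α.toMonoidHom.map_isConj hc
      exact CfsgLib.Char.char_eq_of_isConj
        (CfsgLib.Char.isCharacter_classFunction χ.2.isCharacter') hc2)
  have e1 : Nat.card {χ : Cfsg.IrrCharacter G // σ χ = χ} =
      Nat.card {χ : Cfsg.IrrCharacter G // (χ : G → ℂ) ∘ α = (χ : G → ℂ)} :=
    Nat.card_congr (Equiv.subtypeEquivRight fun χ => Subtype.ext_iff)
  rw [← e1, h]
  refine Nat.card_congr (Equiv.subtypeEquivRight fun C => ?_)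
  obtain ⟨g, rfl⟩ := ConjClasses.mk_surjective C
  show ConjClasses.mk (α g) = ConjClasses.mk g ↔ ConjClasses.mk (α.symm g) = ConjClasses.mk g
  simp only [ConjClasses.mk_eq_mk_iff_isConj]
  constructor
  · intro e
    have := (α.symm.toMonoidHom.map_isConj e).symm
    simpa using this
  · intro e
    have := (α.toMonoidHom.map_isConj e).symm
    simpa using this

end Cfsg.Agent.S0173
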