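import Cfsg.Statements.S2330
import Cfsg.Agent.Lib.ClassicalCompanionTwo

set_option autoImplicit false
open Cfsg

namespace Cfsg.Agent.S2330

/-- Over a finite field with q elements, the general linear group GL₂ has exactly q² − 1 conjugacy classes. -/
theorem result {F : Type*} [Field F] [Fintype F] :
    Nat.card (ConjClasses (Matrix.GeneralLinearGroup (Fin 2) F)) = Fintype.card F ^ 2 - 1 := by
  classical
  let G := Matrix.GeneralLinearGroup (Fin 2) F
  let sc : Fˣ → G := fun u => Matrix.GeneralLinearGroup.mkOfDetNeZero !![(u : F), 0; 0, (u : F)] (by simp [Matrix.det_fin_two])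
  let cm : F × Fˣ → G := fun p => Matrix.GeneralLinearGroup.mkOfDetNeZero !![0, -(p.2 : F); 1, p.1] (by simp [Matrix.det_fin_two])
  have hsc : ∀ u, (sc u : Matrix (Fin 2) (Fin 2) F) = !![(u : F), 0; 0, (u : F)] := fun u => rfl
  have hcm : ∀ p, (cm p : Matrix (Fin 2) (Fin 2) F) = !![0, -(p.2 : F); 1, p.1] := fun p => rfl
  let f : Fˣ ⊕ F × Fˣ → ConjClasses G := Sum.elim (fun u => ConjClasses.mk (sc u)) (fun p => ConjClasses.mk (cm p))
  have hinv : ∀ a b : G, IsConj a b → ((a : Matrix (Fin 2) (Fin 2) F).trace = (b : Matrix (Fin 2) (Fin 2) F).trace ∧ (a : Matrix (Fin 2) (Fin 2) F).det = (b : Matrix (Fin 2) (Fin 2) F).det) := by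
    rintro a b h
    obtain ⟨c, rfl⟩ := isConj_iff.1 h
    refine ⟨?_, ?_⟩
    · rw [Units.val_mul, Units.val_mul, Matrix.trace_mul_cycle, ← Units.val_mul c⁻¹, inv_mul_cancel, Units.val_one, one_mul]
    · rw [Units.val_mul, Units.val_mul, Matrix.det_mul, Matrix.det_mul, mul_right_comm, ← Matrix.det_mul, ← Units.val_mul c, mul_inv_cancel, Units.val_one, Matrix.det_one, one_mul]
  have hscal : ∀ u (b : G), IsConj (sc u) b → (b : Matrix (Fin 2) (Fin 2) F) = !![(u : F), 0; 0, (u : F)] := by
    intro u b h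
    obtain ⟨c, rfl⟩ := isConj_iff.1 h
    have e : !![(u : F), 0; 0, (u : F)] = (u : F) • (1 : Matrix (Fin 2) (Fin 2) F) := by
      ext i j; fin_cases i <;> fin_cases j <;> simp
    rw [Units.val_mul, Units.val_mul, hsc, e, Matrix.mul_smul, mul_one, Matrix.smul_mul, ← Units.val_mul c, mul_inv_cancel, Units.val_one]
  have hf : Function.Bijective f := by
    constructor
    · rintro (u | p) (v | q) e <;> simp only [f, Sum.elim_inl, Sum.elim_inr, ConjClasses.mk_eq_mk_iff_isConj] at e
      · have := congrFun (congrFun (hscal u _ e) 0) 0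
        rw [hsc] at this
        rw [show u = v from Units.ext (by simpa using this.symm)]
      · have := congrFun (congrFun (hscal u _ e) 1) 0
        rw [hcm] at this
        simp at this
      · have := congrFun (congrFun (hscal v _ e.symm) 1) 0
        rw [hcm] at this
        simp at this
      · obtain ⟨ht, hd⟩ := hinv _ _ e
        rw [hcm, hcm] at ht hd
        simp [Matrix.trace_fin_two, Matrix.det_fin_two] at ht hd
        rw [Prod.ext ht (Units.ext hd)]
    · intro C
      obtain ⟨g, rfl⟩ := ConjClasses.mk_surjective C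
      by_cases h : CfsgLib.CompanionTwo.IsScalarTwo (g : Matrix (Fin 2) (Fin 2) F)
      · have hd := (Matrix.GeneralLinearGroup.det g).ne_zero
        rw [Matrix.GeneralLinearGroup.val_det_apply, Matrix.det_fin_two, h.1, zero_mul, sub_zero] at hd
        refine ⟨Sum.inl (Units.mk0 _ (left_ne_zero_of_mul hd)), ?_⟩
        refine congrArg ConjClasses.mk (Units.ext ?_)
        rw [hsc]
        ext i j
        fin_cases i <;> fin_cases j <;> simp [h.1, h.2.1, h.2.2]
      · obtain ⟨P, hP, hMP⟩ := CfsgLib.CompanionTwo.exists_frame _ h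
        refine ⟨Sum.inr ((g : Matrix (Fin 2) (Fin 2) F) 0 0 + (g : Matrix (Fin 2) (Fin 2) F) 1 1, Matrix.GeneralLinearGroup.det g), ?_⟩
        refine ConjClasses.mk_eq_mk_iff_isConj.2 (isConj_iff.2 ⟨Matrix.GeneralLinearGroup.mkOfDetNeZero P hP, ?_⟩)
        rw [mul_inv_eq_iff_eq_mul]
        exact Units.ext hMP.symm
  rw [← Nat.card_congr (Equiv.ofBijective f hf), Nat.card_sum, Nat.card_prod, Nat.card_units, Nat.card_eq_fintype_card]
  have hq : 1 ≤ Fintype.card F := Fintype.card_pos
  obtain ⟨k, hk⟩ : ∃ k, Fintype.card F = k + 1 := ⟨Fintype.card F - 1, by omega⟩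
  rw [hk, Nat.add_sub_cancel]
  have : (k + 1) ^ 2 = k + (k + 1) * k + 1 := by ring
  omega

end Cfsg.Agent.S2330
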