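import Cfsg.Statements.S1282
import Cfsg.Agent.Lib.LocalCoprimeGen

set_option autoImplicit false
open Cfsg
open scoped commutatorElement Pointwise

namespace Cfsg.Agent.S1282

/-- Let A be an elementary abelian p-subgroup of rank at least 3 of the finite group G, q ≠ p a prime, and Q₁, Q₂ q-subgroups normalized by A with D = Q₁ ∩ Q₂ different from both. Then there is a non-identity a ∈ A such that, for i = 1 and i = 2, N_{Q_i}(D) ∩ C_G(a) is not contained in D. -/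
theorem result {G : Type*} [Group G] [Finite G] (p : ℕ) [Fact p.Prime] (A : Subgroup G) (hA : Cfsg.IsElementaryAbelian p A) (hA3 : p ^ 3 ≤ Nat.card ↥A) (q : ℕ) [Fact q.Prime] (hqp : q ≠ p) (Q₁ Q₂ : Subgroup G) (h₁ : IsPGroup q ↥Q₁) (h₂ : IsPGroup q ↥Q₂) (hA₁ : A ≤ Subgroup.normalizer (Q₁ : Set G)) (hA₂ : A ≤ Subgroup.normalizer (Q₂ : Set G)) (hD₁ : Q₁ ⊓ Q₂ ≠ Q₁) (hD₂ : Q₁ ⊓ Q₂ ≠ Q₂) : ∃ a ∈ A, a ≠ 1 ∧ ¬ (Subgroup.normalizer ((Q₁ ⊓ Q₂ : Subgroup G) : Set G) ⊓ Q₁ ⊓ Subgroup.centralizer {a} ≤ Q₁ ⊓ Q₂) ∧ ¬ (Subgroup.normalizer ((Q₁ ⊓ Q₂ : Subgroup G) : Set G) ⊓ Q₂ ⊓ Subgroup.centralizer {a} ≤ Q₁ ⊓ Q₂) := by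
  have hp : Fact p.Prime := inferInstance
  haveI := hA.1
  set D := Q₁ ⊓ Q₂ with hD
  have hAD : A ≤ Subgroup.normalizer (D : Set G) := CfsgLib.Core.le_normalizer_inf hA₁ hA₂
  have key : ∀ Q : Subgroup G, IsPGroup q ↥Q → A ≤ Subgroup.normalizer (Q : Set G) → D < Q →
      ∃ B ∈ CfsgLib.Core.Cocyclic A,
        ¬ Subgroup.normalizer (D : Set G) ⊓ Q ⊓ Subgroup.centralizer (B : Set G) ≤ D := by
    intro Q hQ hAQ hlt
    by_contra hne
    have hlt' := CfsgLib.Local.lt_inf_normalizer hQ hlt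
    refine not_le_of_gt hlt' ?_
    have hAN : A ≤ Subgroup.normalizer ((Subgroup.normalizer (D : Set G) : Subgroup G) : Set G) :=
      hAD.trans Subgroup.le_normalizer
    rw [inf_comm]
    refine (CfsgLib.Core.generated_by_cocyclic (CfsgLib.Core.le_normalizer_inf hAN hAQ)
      (CfsgLib.Local.CoprimeGen.coprime_of_not_dvd hA (fun hd => ?_))).ge.trans
        (iSup₂_le fun B hB => ?_)
    · obtain ⟨k, hk⟩ := IsPGroup.iff_card.mp (hQ.to_le (inf_le_right :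
        Subgroup.normalizer (D : Set G) ⊓ Q ≤ Q))
      rw [hk] at hd
      exact hqp ((Nat.prime_dvd_prime_iff_eq hp.out (Fact.out : q.Prime)).mp
        (hp.out.dvd_of_dvd_pow hd)).symm
    · by_contra hh
      exact hne ⟨B, hB, hh⟩
  obtain ⟨B₁, hB₁, hn₁⟩ := key Q₁ h₁ hA₁ (lt_of_le_of_ne inf_le_left hD₁)
  obtain ⟨B₂, hB₂, hn₂⟩ := key Q₂ h₂ hA₂ (lt_of_le_of_ne inf_le_right hD₂)
  have hc : ∀ B ∈ CfsgLib.Core.Cocyclic A, Nat.card ↥A ≤ Nat.card ↥B * p := by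
    intro B hB
    rcases CfsgLib.Local.CoprimeGen.card_le_of_cocyclic hA hB with h | h <;> rw [h]
    exact Nat.le_mul_of_pos_right _ hp.out.pos
  have hne : B₁ ⊓ B₂ ≠ ⊥ := by
    intro h
    have h1 := CfsgLib.Core.card_sup_mul_card_inf (A := B₁) (K := B₂) (fun x hx => by
      rw [Subgroup.mem_normalizer_iff]
      intro y
      constructor
      · intro hy
        rw [show x * y = y * x from congrArg Subtype.val
          (mul_comm' (⟨x, hB₁.1 hx⟩ : ↥A) ⟨y, hB₂.1 hy⟩), mul_inv_cancel_right]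
        exact hy
      · intro hy
        have hxc : x⁻¹ * (x * y * x⁻¹) = (x * y * x⁻¹) * x⁻¹ :=
          congrArg Subtype.val (mul_comm' (⟨x⁻¹, inv_mem (hB₁.1 hx)⟩ : ↥A) ⟨_, hB₂.1 hy⟩)
        have : y = x * y * x⁻¹ := by
          calc y = x⁻¹ * (x * y * x⁻¹) * x := by group
            _ = _ := by rw [hxc]; group
        rwa [this])
    rw [h, Subgroup.card_bot, mul_one] at h1
    have h2 : Nat.card ↥(B₁ ⊔ B₂) ≤ Nat.card ↥A := Subgroup.card_le_of_le (sup_le hB₁.1 hB₂.1)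
    have h3 : Nat.card ↥A * Nat.card ↥A ≤ Nat.card ↥A * (p * p) := by
      calc Nat.card ↥A * Nat.card ↥A ≤ (Nat.card ↥B₁ * p) * (Nat.card ↥B₂ * p) :=
            Nat.mul_le_mul (hc _ hB₁) (hc _ hB₂)
        _ = Nat.card ↥(B₁ ⊔ B₂) * (p * p) := by rw [h1]; ring
        _ ≤ _ := Nat.mul_le_mul_right _ h2
    have h4 := Nat.le_of_mul_le_mul_left h3 Nat.card_pos
    have h5 : p * p < p ^ 3 := by
      calc p * p = p ^ 2 := (sq p).symm
        _ < p ^ 3 := Nat.pow_lt_pow_right hp.out.one_lt (by norm_num)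
    omega
  obtain ⟨⟨a, ha⟩, hane⟩ := Subgroup.ne_bot_iff_exists_ne_one.mp hne
  obtain ⟨ha1, ha2⟩ := Subgroup.mem_inf.mp ha
  refine ⟨a, hB₁.1 ha1, fun h => hane (Subtype.ext h), fun hh => hn₁ ?_, fun hh => hn₂ ?_⟩
  · exact le_trans (inf_le_inf_left _ (Subgroup.centralizer_le (by simpa using ha1))) hh
  · exact le_trans (inf_le_inf_left _ (Subgroup.centralizer_le (by simpa using ha2))) hh


end Cfsg.Agent.S1282
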