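import Cfsg.Statements.S1465
import Cfsg.Agent.Lib.OddStable

set_option autoImplicit false
open Cfsg

namespace Cfsg.Agent.S1465

/-- Let p be an odd prime, G a solvable group of odd order, P a normal p-subgroup of G, and X the subgroup generated by a family of abelian p-subgroups of G each normalized by P. Then the image of X in G/C_G(P) lies in O_p(G/C_G(P)); and if O_{p'}(G) = 1 and O_p(G) ∩ C_G(P) ≤ P then X ≤ O_p(G). -/
theorem result {G : Type*} [Group G] [Finite G] [Group.IsSolvable G] (hodd : Odd (Nat.card G)) (p : ℕ) [Fact p.Prime] (hp : p ≠ 2) (P : Subgroup G) [P.Normal] (hP : IsPGroup p P)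
    (S : Set (Subgroup G)) (hS : ∀ B ∈ S, IsMulCommutative B ∧ IsPGroup p B ∧ P ≤ Subgroup.normalizer (B : Set G)) :
    (sSup S).map (QuotientGroup.mk' (Subgroup.centralizer (P : Set G))) ≤ Cfsg.pCore p (G ⧸ Subgroup.centralizer (P : Set G)) ∧
      (Cfsg.pPrimeCore p G = ⊥ → Cfsg.pCore p G ⊓ Subgroup.centralizer (P : Set G) ≤ P → sSup S ≤ Cfsg.pCore p G) := by
  have h1 : ∀ B ∈ S, B ≤ (Cfsg.pCore p (G ⧸ Subgroup.centralizer (P : Set G))).comap
      (QuotientGroup.mk' (Subgroup.centralizer (P : Set G))) := by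
    intro B hB b hb
    obtain ⟨hBc, -, hBn⟩ := hS B hB
    refine CfsgLib.OddStable.quad_mem hodd hp hP ?_
    have hz : Subgroup.zpowers b ≤ B := Subgroup.zpowers_le.2 hb
    have hle : ⁅P, Subgroup.zpowers b⁆ ≤ B := Subgroup.commutator_le.2 fun x hx y hy =>
      mul_mem ((Subgroup.mem_normalizer_iff.1 (hBn hx) y).1 (hz hy)) (inv_mem (hz hy))
    rw [Subgroup.commutator_eq_bot_iff_le_centralizer]
    intro x hx
    rw [Subgroup.mem_centralizer_iff]
    exact fun y hy => congrArg Subtype.val (hBc.is_comm.comm ⟨y, hz hy⟩ ⟨x, hle hx⟩)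
  refine ⟨Subgroup.map_le_iff_le_comap.2 (sSup_le h1), fun hp' hOp => (sSup_le h1).trans ?_⟩
  set C := Subgroup.centralizer (P : Set G) with hC
  have hpC : Cfsg.pPrimeCore p C = ⊥ := by
    apply Subgroup.map_injective C.subtype_injective
    rw [Subgroup.map_bot, eq_bot_iff, ← hp']
    exact CfsgLib.Core.pPrimeCore_map_subtype_le inferInstance
  have hcen := CfsgLib.Core.centralizer_pCore_le (G := C) hpC
  have htop : Subgroup.centralizer (Cfsg.pCore p C : Set C) = ⊤ := by
    rw [eq_top_iff]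
    intro c _
    rw [Subgroup.mem_centralizer_iff]
    intro y hy
    have hyG : (y : G) ∈ Cfsg.pCore p G :=
      CfsgLib.Core.pCore_map_subtype_le (inferInstanceAs C.Normal) ⟨y, hy, rfl⟩
    have hyP : (y : G) ∈ P := hOp ⟨hyG, y.2⟩
    exact Subtype.ext ((Subgroup.mem_centralizer_iff.1 c.2 _ hyP))
  have hCp : IsPGroup p C := by
    have h : IsPGroup p (⊤ : Subgroup C) := (CfsgLib.Core.isPGroup_pCore p).to_le (htop ▸ hcen)
    exact h.of_equiv Subgroup.topEquiv
  haveI : (Cfsg.pCore p (G ⧸ C)).Normal := CfsgLib.Core.normal_pCore p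
  exact CfsgLib.Core.le_pCore (Subgroup.Normal.comap inferInstance _)
    ((CfsgLib.Core.isPGroup_pCore p).comap_of_ker_isPGroup _ (by rw [QuotientGroup.ker_mk']; exact hCp))

end Cfsg.Agent.S1465
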