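import Cfsg.Statements.S0001
import Cfsg.Agent.Lib.CoreSZ

set_option autoImplicit false
open Pointwise
open Cfsg

namespace Cfsg.Agent.S0001

/-- Conjugacy half of the Schur–Zassenhaus Theorem, under a solvability assumption on the normal Hall subgroup or on its quotient. -/
theorem result {G : Type*} [Group G] [Finite G] (N : Subgroup G) [N.Normal]
    (hN : (Nat.card N).Coprime N.index) (hsolv : Group.IsSolvable N ∨ Group.IsSolvable (G ⧸ N))
    (H K : Subgroup G) (hH : Subgroup.IsComplement' N H) (hK : Subgroup.IsComplement' N K) :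
    ∃ g : G, MulAut.conj g • H = K := by
  have hHc := (CfsgLib.Core.isComplement'_iff_card_eq_index hN).mp hH
  have hKc := (CfsgLib.Core.isComplement'_iff_card_eq_index hN).mp hK
  have hsH : Group.IsSolvable N ∨ Group.IsSolvable H := by
    refine hsolv.imp_right fun h => ?_
    haveI := h
    refine Group.isSolvable_of_isSolvable_injective (G' := G ⧸ N)
      (f := (QuotientGroup.mk' N).comp H.subtype) ?_
    rw [← MonoidHom.ker_eq_bot_iff, ← MonoidHom.comap_ker, QuotientGroup.ker_mk']
    exact Subgroup.subgroupOf_eq_bot.mpr hH.disjoint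
  obtain ⟨g, -, hg⟩ := CfsgLib.Core.sz_conj hN hHc hKc hsH
  exact ⟨g, hg⟩

end Cfsg.Agent.S0001
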