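import Cfsg.Statements.S0003
import Cfsg.Agent.Lib.CoreCoprime

set_option autoImplicit false
open Cfsg

namespace Cfsg.Agent.S0003

/-- Hall's Theorem, existence: a finite solvable group of order m * n with m and n coprime has a subgroup of order m. -/
theorem result {G : Type*} [Group G] [Finite G] [Group.IsSolvable G] (m n : ℕ)
    (hG : Nat.card G = m * n) (hmn : m.Coprime n) : ∃ H : Subgroup G, Nat.card H = m := by
  obtain ⟨H, h1, h2⟩ := CfsgLib.Core.exists_isHall (G := G) {p | p ∣ m}
  refine ⟨H, Nat.dvd_antisymm ?_ ?_⟩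
  · refine (Nat.Coprime.dvd_of_dvd_mul_right (Nat.coprime_of_dvd fun p hp ha hb => ?_)
      (hG ▸ H.card_subgroup_dvd_card))
    exact hp.not_dvd_one (hmn ▸ Nat.dvd_gcd (h1 p hp ha) hb)
  · refine (Nat.Coprime.dvd_of_dvd_mul_right (Nat.coprime_of_dvd fun p hp ha hb => ?_)
      (H.card_mul_index.trans hG ▸ dvd_mul_right m n))
    exact h2 p hp hb ha

end Cfsg.Agent.S0003
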