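import Cfsg.Statements.S0004
import Cfsg.Agent.Lib.CoreCoprime

set_option autoImplicit false
open Pointwise
open Cfsg

namespace Cfsg.Agent.S0004

/-- Hall's Theorem, conjugacy: in a finite solvable group of order m * n with m and n coprime, any two subgroups of order m are conjugate. -/
theorem result {G : Type*} [Group G] [Finite G] [Group.IsSolvable G] (m n : ℕ)
    (hG : Nat.card G = m * n) (hmn : m.Coprime n) (H K : Subgroup G)
    (hH : Nat.card H = m) (hK : Nat.card K = m) : ∃ g : G, MulAut.conj g • H = K := by
  have key : ∀ L : Subgroup G, Nat.card L = m → CfsgLib.Core.IsHall {p | p ∣ m} L := by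
    intro L hL
    refine ⟨fun p _ hd => hL ▸ hd, fun p hp hd hm => ?_⟩
    have h := L.card_mul_index.trans hG
    rw [hL] at h
    rw [Nat.eq_of_mul_eq_mul_left (hL ▸ Nat.card_pos) h] at hd
    exact hp.not_dvd_one (hmn ▸ Nat.dvd_gcd hm hd)
  exact CfsgLib.Core.isHall_conj (key H hH) (key K hK)

end Cfsg.Agent.S0004
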