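import Cfsg.Statements.S0007
import Cfsg.Agent.Lib.CoreBasic

set_option autoImplicit false
open Cfsg

namespace Cfsg.Agent.S0007

/-- Subgroups of coprime index: the intersection has index equal to the product of the indices, and every element is a product of an element of the first subgroup and an element of the second. -/
theorem result {G : Type*} [Group G] [Finite G] (H K : Subgroup G)
    (h : H.index.Coprime K.index) :
    (H ⊓ K).index = H.index * K.index ∧ ∀ g : G, ∃ x ∈ H, ∃ y ∈ K, g = x * y := by
  have h1 : H.index ∣ (H ⊓ K).index := Subgroup.index_dvd_of_le inf_le_left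
  have h2 : K.index ∣ (H ⊓ K).index := Subgroup.index_dvd_of_le inf_le_right
  have heq : (H ⊓ K).index = H.index * K.index :=
    le_antisymm (Subgroup.index_inf_le (H := H) (K := K))
      (Nat.le_of_dvd (Nat.pos_of_ne_zero Subgroup.index_ne_zero_of_finite)
        (h.mul_dvd_of_dvd_of_dvd h1 h2))
  refine ⟨heq, fun g => ?_⟩
  classical
  have hrel : H.relIndex K = H.index := by
    have := Subgroup.relIndex_mul_index (inf_le_right : H ⊓ K ≤ K)
    rw [Subgroup.inf_relIndex_right, heq] at this
    exact Nat.eq_of_mul_eq_mul_right (Nat.pos_of_ne_zero Subgroup.index_ne_zero_of_finite) this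
  let f : K ⧸ H.subgroupOf K → G ⧸ H :=
    Quotient.map' (fun k => (k : G)) (fun a b hab => by
      rw [QuotientGroup.leftRel_apply] at hab ⊢
      simpa [Subgroup.mem_subgroupOf] using hab)
  have hinj : Function.Injective f := by
    rintro ⟨a⟩ ⟨b⟩ hab
    have := QuotientGroup.eq.mp hab
    exact QuotientGroup.eq.mpr (by simpa [Subgroup.mem_subgroupOf] using this)
  have hbij : Function.Bijective f := (Nat.bijective_iff_injective_and_card f).mpr ⟨hinj, hrel⟩
  obtain ⟨⟨k⟩, hk⟩ := hbij.2 (g⁻¹ : G)
  have := QuotientGroup.eq.mp hk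
  refine ⟨((k : G)⁻¹ * g⁻¹)⁻¹, inv_mem this, (k : G)⁻¹, inv_mem k.2, by group⟩

end Cfsg.Agent.S0007
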