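import Cfsg.Statements.S0015
import Cfsg.Agent.Lib.CorePGroup

set_option autoImplicit false
open Cfsg

namespace Cfsg.Agent.S0015

/-- In a finite nilpotent group, an abelian normal subgroup that is maximal among abelian normal subgroups equals its own centralizer. -/
theorem result {G : Type*} [Group G] [Finite G] [Group.IsNilpotent G]
    (N : Subgroup G) [N.Normal] [IsMulCommutative N]
    (hmax : ∀ M : Subgroup G, M.Normal → IsMulCommutative M → N ≤ M → M = N) :
    Subgroup.centralizer (N : Set G) = N := by
  set C := Subgroup.centralizer (N : Set G) with hC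
  have hNC : N ≤ C := Subgroup.le_centralizer_iff_isMulCommutative.mpr inferInstance
  by_contra hne
  have hCb : C.map (QuotientGroup.mk' N) ≠ ⊥ := by
    rw [ne_eq, Subgroup.map_eq_bot_iff, QuotientGroup.ker_mk']
    exact fun h => hne (le_antisymm h hNC)
  haveI : (C.map (QuotientGroup.mk' N)).Normal :=
    Subgroup.Normal.map inferInstance _ (QuotientGroup.mk'_surjective N)
  obtain ⟨⟨y, hy⟩, hy1⟩ := (Subgroup.ne_bot_iff_exists_ne_one).mp
    (CfsgLib.Core.nilpotent_inf_center_ne_bot hCb)
  obtain ⟨x, hx, rfl⟩ := Subgroup.mem_map.mp hy.1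
  have hxN : x ∉ N := fun h => hy1 (Subtype.ext ((QuotientGroup.eq_one_iff x).mpr h))
  set M := N ⊔ Subgroup.zpowers x with hM
  have hMn : M.Normal := by
    have h1 : M = (Subgroup.zpowers (QuotientGroup.mk' N x)).comap (QuotientGroup.mk' N) := by
      rw [← MonoidHom.map_zpowers, CfsgLib.Core.comap_mk'_map, sup_comm]
    rw [h1]
    haveI : (Subgroup.zpowers (QuotientGroup.mk' N x)).Normal := by
      refine ⟨fun z hz g => ?_⟩
      have hz' : z ∈ Subgroup.center (G ⧸ N) := Subgroup.zpowers_le.mpr hy.2 hz
      rwa [Subgroup.mem_center_iff.mp hz' g, mul_inv_cancel_right]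
    exact Subgroup.Normal.comap inferInstance _
  have hMc : IsMulCommutative M := by
    rw [← Subgroup.le_centralizer_iff_isMulCommutative]
    refine sup_le ?_ (Subgroup.zpowers_le.mpr ?_)
    · rw [Subgroup.le_centralizer_iff]
      exact sup_le hNC (Subgroup.zpowers_le.mpr hx)
    · rw [Subgroup.mem_centralizer_iff]
      intro m hm
      obtain ⟨n, hn, z, hz, rfl⟩ := Subgroup.mem_sup_of_normal_left.mp hm
      obtain ⟨i, rfl⟩ := Subgroup.mem_zpowers_iff.mp hz
      exact (Commute.mul_left (Subgroup.mem_centralizer_iff.mp hx n hn)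
        ((Commute.refl x).zpow_left i)).eq
  have := hmax M hMn hMc le_sup_left
  exact hxN (this ▸ Subgroup.mem_sup_right (Subgroup.mem_zpowers x))

end Cfsg.Agent.S0015
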