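import Cfsg.Statements.S0018
import Cfsg.Agent.Lib.CoreLayer

set_option autoImplicit false
open Cfsg

namespace Cfsg.Agent.S0018

/-- A finite solvable group whose Sylow p-subgroups are abelian has p-length one: a Sylow p-subgroup together with the largest normal subgroup of order prime to p generates a normal subgroup. -/
theorem result {G : Type*} [Group G] [Finite G] [Group.IsSolvable G]
    (p : ℕ) [Fact p.Prime] (P : Sylow p G) (hP : IsMulCommutative P) :
    ((P : Subgroup G) ⊔ Cfsg.pPrimeCore p G).Normal := by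
  set O := Cfsg.pPrimeCore p G with hO
  haveI : O.Normal := CfsgLib.Core.normal_pPrimeCore p
  let π := QuotientGroup.mk' O
  have hπ : Function.Surjective π := QuotientGroup.mk'_surjective O
  let Q := P.mapSurjective hπ
  have hO1 : Cfsg.pPrimeCore p (G ⧸ O) = ⊥ := CfsgLib.Core.pPrimeCore_quotient_pPrimeCore p
  have hF := CfsgLib.Core.fittingSubgroup_eq_pCore_of_pPrimeCore_eq_bot hO1
  have hle : Cfsg.pCore p (G ⧸ O) ≤ Q := CfsgLib.Core.pCore_le_sylow Q
  haveI hQc : IsMulCommutative (Q : Subgroup (G ⧸ O)) := by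
    haveI := hP
    rw [Sylow.coe_mapSurjective]
    infer_instance
  have hQF : (Q : Subgroup (G ⧸ O)) ≤ Cfsg.fittingSubgroup (G ⧸ O) := by
    refine le_trans ?_ CfsgLib.Core.centralizer_fitting_le
    intro x hx
    rw [Subgroup.mem_centralizer_iff]
    intro y hy
    rw [hF] at hy
    exact congrArg Subtype.val (mul_comm' (⟨y, hle hy⟩ : (Q : Subgroup (G ⧸ O))) ⟨x, hx⟩)
  rw [hF] at hQF
  have heq : (Q : Subgroup (G ⧸ O)) = Cfsg.pCore p (G ⧸ O) := le_antisymm hQF hle
  have h1 : (P : Subgroup G) ⊔ O = (Q : Subgroup (G ⧸ O)).comap π := by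
    rw [Sylow.coe_mapSurjective, Subgroup.comap_map_eq, QuotientGroup.ker_mk']
  rw [h1, heq]
  exact (CfsgLib.Core.normal_pCore p).comap π

end Cfsg.Agent.S0018
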