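import Cfsg.Statements.S0021
import Cfsg.Agent.Lib.CoreThree

set_option autoImplicit false
open Pointwise
open Cfsg
open scoped Pointwise

namespace Cfsg.Agent.S0021

/-- A finite group with a family of pairwise permuting Sylow subgroups, one for each prime, is solvable (this direction rests on Burnside's two-prime Theorem). -/
theorem result {G : Type*} [Group G] [Finite G]
    (S : (p : Nat.Primes) → Sylow (p : ℕ) G)
    (hS : ∀ p q : Nat.Primes, (S p : Set G) * (S q : Set G) = (S q : Set G) * (S p : Set G)) :
    Group.IsSolvable G := by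
  classical
  set n := Nat.card G with hn
  refine CfsgLib.Core.solvable_of_complements _ G le_rfl fun p hp => ?_
  -- products over sets of primes
  have key : ∀ T : Finset Nat.Primes,
      Nat.card ↥(T.sup fun r => (S r : Subgroup G)) = ∏ r ∈ T, (r : ℕ) ^ n.factorization r ∧
      ∀ q : Nat.Primes, ∀ x ∈ (S q : Subgroup G), ∀ y ∈ T.sup (fun r => (S r : Subgroup G)),
        ∃ y' ∈ T.sup (fun r => (S r : Subgroup G)), ∃ x' ∈ (S q : Subgroup G), x * y = y' * x' := by
    intro T
    induction T using Finset.induction with
    | empty =>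
      refine ⟨by simp, fun q x hx y hy => ⟨1, one_mem _, x, hx, ?_⟩⟩
      simp only [Finset.sup_empty, Subgroup.mem_bot] at hy
      rw [hy]; group
    | insert a T ha ih =>
      obtain ⟨hc, hperm⟩ := ih
      set A := T.sup fun r => (S r : Subgroup G) with hA
      have hswap : ∀ r q : Nat.Primes, ∀ x ∈ (S q : Subgroup G), ∀ y ∈ (S r : Subgroup G),
          ∃ y' ∈ (S r : Subgroup G), ∃ x' ∈ (S q : Subgroup G), x * y = y' * x' := by
        intro r q x hx y hy
        obtain ⟨y', hy', x', hx', he⟩ : x * y ∈ (S r : Set G) * (S q : Set G) :=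
          hS q r ▸ Set.mul_mem_mul hx hy
        exact ⟨y', hy', x', hx', he.symm⟩
      have hmem : ∀ z, z ∈ (insert a T).sup (fun r => (S r : Subgroup G)) →
          ∃ u ∈ A, ∃ v ∈ (S a : Subgroup G), z = u * v := by
        intro z hz
        rw [Finset.sup_insert, sup_comm] at hz
        exact CfsgLib.Core.exists_eq_mul_of_permute (fun b hb u hu => hperm a b hb u hu) hz
      refine ⟨?_, ?_⟩
      · set R := (insert a T).sup fun r => (S r : Subgroup G)
        have hAR : A ≤ R := Finset.sup_mono (Finset.subset_insert a T)
        have hSR : (S a : Subgroup G) ≤ R :=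
          Finset.le_sup (f := fun r => (S r : Subgroup G)) (Finset.mem_insert_self a T)
        have hSc : Nat.card (S a) = (a : ℕ) ^ n.factorization a := by
          haveI := Fact.mk a.2
          exact Sylow.card_eq_multiplicity (S a)
        have h1 := CfsgLib.Core.card_mul_card_inf_of_eq_mul hSR hAR fun z hz => hmem z hz
        have hbot : (S a : Subgroup G) ⊓ A = ⊥ := CfsgLib.Core.inf_eq_bot_of_coprime (by
          rw [hSc, hc]
          exact Nat.Coprime.prod_right fun r hr =>
            CfsgLib.Core.coprime_prime_pow a.2 r.2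
              (fun e => ha (by rwa [Subtype.ext e])) _ _)
        rw [hbot, Subgroup.card_bot, mul_one, hSc, hc] at h1
        rw [Finset.prod_insert ha, h1]
      · intro q x hx y hy
        obtain ⟨u, hu, v, hv, rfl⟩ := hmem y hy
        obtain ⟨u', hu', x', hx', he⟩ := hperm q x hx u hu
        obtain ⟨v', hv', x'', hx'', he'⟩ := hswap a q x' hx' v hv
        refine ⟨u' * v', ?_, x'', hx'', ?_⟩
        · rw [Finset.sup_insert]
          exact Subgroup.mul_mem _ (Subgroup.mem_sup_right hu') (Subgroup.mem_sup_left hv')
        · calc x * (u * v) = (x * u) * v := by group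
            _ = u' * (x' * v) := by rw [he]; group
            _ = _ := by rw [he']; group
  set T : Finset Nat.Primes := (n.primeFactors.erase p).subtype Nat.Prime
  obtain ⟨hc, -⟩ := key T
  refine ⟨T.sup fun r => (S r : Subgroup G), ?_⟩
  have hprod : (∏ r ∈ T, (r : ℕ) ^ n.factorization r) = ∏ r ∈ n.primeFactors.erase p, r ^ n.factorization r :=
    Finset.prod_subtype_of_mem (fun r => r ^ n.factorization r)
      fun r hr => Nat.prime_of_mem_primeFactors (Finset.mem_of_mem_erase hr)
  have htot : p ^ n.factorization p * ∏ r ∈ n.primeFactors.erase p, r ^ n.factorization r = n := by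
    by_cases hp' : p ∈ n.primeFactors
    · rw [Finset.mul_prod_erase _ (fun r => r ^ n.factorization r) hp']
      exact Nat.prod_factorization_pow_eq_self (Nat.card_pos (α := G)).ne'
    · rw [Finset.erase_eq_of_notMem hp', Nat.factorization_eq_zero_of_not_dvd fun hd =>
        hp' (Nat.mem_primeFactors.mpr ⟨hp, hd, Nat.card_pos.ne'⟩), pow_zero, one_mul]
      exact Nat.prod_factorization_pow_eq_self (Nat.card_pos (α := G)).ne'
  have hidx := (T.sup fun r => (S r : Subgroup G)).card_mul_index
  rw [hc, hprod, ← hn] at hidx
  refine Nat.eq_of_mul_eq_mul_left ?_ (hidx.trans (htot.symm.trans (mul_comm _ _)))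
  exact Finset.prod_pos fun r hr => pow_pos
    (Nat.prime_of_mem_primeFactors (Finset.mem_of_mem_erase hr)).pos _

end Cfsg.Agent.S0021
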