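import Cfsg.Statements.S0031
import Cfsg.Agent.Lib.CoreBasic

set_option autoImplicit false
open Cfsg
open scoped Pointwise

namespace Cfsg.Agent.S0031

/-- A fixed-point-free automorphism of a finite group maps some Sylow p-subgroup to itself. -/
theorem result {G : Type*} [Group G] [Finite G] (φ : G ≃* G)
    (hφ : MonoidHom.FixedPointFree (φ : G →* G)) (p : ℕ) [Fact p.Prime] :
    ∃ P : Sylow p G, (P : Subgroup G).map (φ : G →* G) = P := by
  obtain ⟨P⟩ : Nonempty (Sylow p G) := inferInstance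
  obtain ⟨g, hg⟩ := MulAction.exists_smul_eq G P (P.mapSurjective (f := φ.toMonoidHom) φ.surjective)
  have hinj : Function.Injective fun y : G => (φ y)⁻¹ * y := by
    intro a b h
    have h' : (φ a)⁻¹ * a = (φ b)⁻¹ * b := h
    have : φ (a * b⁻¹) = a * b⁻¹ := by
      rw [map_mul, map_inv]
      calc φ a * (φ b)⁻¹ = φ a * ((φ b)⁻¹ * b) * b⁻¹ := by group
        _ = a * b⁻¹ := by rw [← h']; group
    exact mul_inv_eq_one.mp (hφ _ this)
  obtain ⟨y, hy⟩ := (Finite.injective_iff_surjective.mp hinj) g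
  have hy' : (φ y)⁻¹ * y = g := hy
  have hgP : MulAut.conj g • (P : Subgroup G) = (P : Subgroup G).map φ.toMonoidHom := by
    rw [← Sylow.coe_mapSurjective φ.surjective P, ← hg]
    rfl
  refine ⟨y • P, ?_⟩
  show (MulAut.conj y • (P : Subgroup G)).map φ.toMonoidHom = MulAut.conj y • (P : Subgroup G)
  rw [CfsgLib.Core.map_conj_smul, ← hgP, CfsgLib.Core.conj_smul_conj_smul]
  congr 2
  show φ y * g = y
  rw [← hy', mul_inv_cancel_left]

end Cfsg.Agent.S0031
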