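import Cfsg.Statements.S0032
import Cfsg.Agent.Lib.CoreBasic

set_option autoImplicit false
open Cfsg

namespace Cfsg.Agent.S0032

/-- If an automorphism of a finite group fixes only the identity and maps a normal subgroup N into itself, then the only cosets of N it fixes are those in N: a fixed coset xN forces x ∈ N. -/
theorem result {G : Type*} [Group G] [Finite G] (φ : G ≃* G)
    (hφ : MonoidHom.FixedPointFree (φ : G →* G)) (N : Subgroup G) [N.Normal] (hN : ∀ n ∈ N, φ n ∈ N)
    (x : G) (hx : (φ x)⁻¹ * x ∈ N) : x ∈ N := by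
  let F : N → N := fun n => ⟨(φ (n : G))⁻¹ * n, N.mul_mem (N.inv_mem (hN _ n.2)) n.2⟩
  have hinj : Function.Injective F := by
    intro a b h
    have h' : (φ (a : G))⁻¹ * a = (φ (b : G))⁻¹ * b := congrArg Subtype.val h
    refine Subtype.ext ?_
    have : φ ((a : G) * (b : G)⁻¹) = (a : G) * (b : G)⁻¹ := by
      rw [map_mul, map_inv]
      calc φ (a : G) * (φ (b : G))⁻¹ = φ (a : G) * ((φ (b : G))⁻¹ * b) * (b : G)⁻¹ := by group
        _ = (a : G) * (b : G)⁻¹ := by rw [← h']; group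
    exact mul_inv_eq_one.mp (hφ _ this)
  obtain ⟨n, hn⟩ := (Finite.injective_iff_surjective.mp hinj) ⟨_, hx⟩
  have hn' : (φ (n : G))⁻¹ * n = (φ x)⁻¹ * x := congrArg Subtype.val hn
  have : φ (x * (n : G)⁻¹) = x * (n : G)⁻¹ := by
    rw [map_mul, map_inv]
    calc φ x * (φ (n : G))⁻¹ = φ x * ((φ (n : G))⁻¹ * n) * (n : G)⁻¹ := by group
      _ = x * (n : G)⁻¹ := by rw [hn']; group
  rw [mul_inv_eq_one.mp (hφ _ this)]
  exact n.2

end Cfsg.Agent.S0032
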