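import Cfsg.Statements.S0034
import Cfsg.Agent.Lib.CoreFrobenius

set_option autoImplicit false
open Cfsg

namespace Cfsg.Agent.S0034

/-- For a Frobenius complement H, the set of elements lying in no conjugate of H, together with 1, has exactly as many elements as the index of H, and that index is congruent to 1 modulo the order of H. -/
theorem result {G : Type*} [Group G] [Finite G] (H : Subgroup G) (hH : Cfsg.IsFrobeniusComplement H) :
    Nat.card (Cfsg.frobeniusKernel H) = H.index ∧ H.index % Nat.card H = 1 % Nat.card H := by
  obtain ⟨K, -, hKset, -, -, hcard⟩ := CfsgLib.Core.exists_kernel hH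
  refine ⟨?_, ?_⟩
  · rw [← hKset]; exact hcard
  · have h := CfsgLib.Core.card_dvd_index_sub_one hH
    have hpos : 0 < H.index := Nat.pos_of_ne_zero Subgroup.index_ne_zero_of_finite
    exact ((Nat.modEq_iff_dvd' hpos).mpr h).symm

end Cfsg.Agent.S0034
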