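import Cfsg.Statements.S0037
import Cfsg.Agent.Lib.CoreFrobenius

set_option autoImplicit false
open Pointwise
open Cfsg
open scoped Pointwise

namespace Cfsg.Agent.S0037

/-- Of two Frobenius complements in one finite group, the one of smaller (or equal) order is conjugate to a subgroup of the other. -/
theorem result {G : Type*} [Group G] [Finite G] (H H₀ : Subgroup G)
    (hH : Cfsg.IsFrobeniusComplement H) (hH₀ : Cfsg.IsFrobeniusComplement H₀) (hle : Nat.card H₀ ≤ Nat.card H) :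
    ∃ g : G, MulAut.conj g • H₀ ≤ H := by
  have hle' := hle
  obtain ⟨K, hKn, hKset, hKH, -, hcard⟩ := CfsgLib.Core.exists_kernel hH
  haveI := hKn
  rcases CfsgLib.Core.le_conj_or_normal_le_kernel hH hKset H₀ with ⟨g, hg⟩ | ⟨N, hN, hN0, hle⟩
  · refine ⟨g⁻¹, ?_⟩
    have := CfsgLib.Core.conj_smul_le_conj_smul (g := g⁻¹) |>.mpr hg
    rwa [CfsgLib.Core.conj_smul_conj_smul, inv_mul_cancel, CfsgLib.Core.conj_one_smul] at this
  exfalso
  set M := K ⊓ H₀ with hM
  have hNM : N.map H₀.subtype ≤ M := le_inf hle (Subgroup.map_subtype_le N)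
  have hM0 : M ≠ ⊥ := fun e => hN0 ((Subgroup.map_eq_bot_iff_of_injective _ Subtype.coe_injective).mp
    (le_bot_iff.mp (e ▸ hNM)))
  have hMn : H₀ ≤ Subgroup.normalizer (M : Set G) := CfsgLib.Core.le_normalizer_iff_forall.mpr
    fun a ha x hx => ⟨hKn.conj_mem x hx.1 a,
      H₀.mul_mem (H₀.mul_mem ha hx.2) (H₀.inv_mem ha)⟩
  obtain ⟨q, hq, hqd⟩ := Nat.exists_prime_and_dvd
    (fun e => hM0 (Subgroup.eq_bot_of_card_eq _ e) : Nat.card M ≠ 1)
  haveI := Fact.mk hq
  obtain ⟨Q⟩ : Nonempty (Sylow q M) := inferInstance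
  set Q' := (Q : Subgroup M).map M.subtype with hQ'
  have hQM : Q' ≤ M := Subgroup.map_subtype_le _
  have hQ0 : Q' ≠ ⊥ := by
    rw [hQ', Ne, Subgroup.map_eq_bot_iff_of_injective _ Subtype.coe_injective]
    exact Q.ne_bot_of_dvd_card hqd
  -- `Q'` is a Sylow subgroup of `G`
  have hqK : ¬ q ∣ K.index := fun h => by
    have h1 : q ∣ Nat.card H := by
      have e : K.index * Nat.card K = Nat.card H * Nat.card K := by
        rw [mul_comm, Subgroup.card_mul_index, hcard, Subgroup.card_mul_index]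
      rwa [Nat.eq_of_mul_eq_mul_right Nat.card_pos e] at h
    have h2 : q ∣ H.index := hcard ▸ hqd.trans (Subgroup.card_dvd_of_le inf_le_left)
    exact hq.not_dvd_one ((CfsgLib.Core.coprime_card_index hH).gcd_eq_one ▸ Nat.dvd_gcd h1 h2)
  have hqH₀ : ¬ q ∣ H₀.index := fun h => hq.not_dvd_one
    ((CfsgLib.Core.coprime_card_index hH₀).gcd_eq_one ▸
      Nat.dvd_gcd (hqd.trans (Subgroup.card_dvd_of_le inf_le_right)) h)
  have hqM : ¬ q ∣ M.index := by
    rw [← Subgroup.relIndex_mul_index (inf_le_right : M ≤ H₀)]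
    refine Nat.Prime.not_dvd_mul hq (fun h => hqK (h.trans ?_)) hqH₀
    rw [Subgroup.inf_relIndex_right]
    exact Subgroup.relIndex_dvd_index_of_normal K H₀
  have hQi : ¬ q ∣ Q'.index := by
    rw [hQ', Subgroup.index_map_subtype]
    exact Nat.Prime.not_dvd_mul hq Q.not_dvd_index hqM
  set S : Sylow q G := (Q.2.map M.subtype).toSylow hQi with hS
  -- Frattini
  have hQK : Q' ≤ K := hQM.trans inf_le_left
  have hfr : Subgroup.normalizer (Q' : Set G) ⊔ K = ⊤ := by
    have hSK : (S : Subgroup G) ≤ K := hQK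
    have := Sylow.normalizer_sup_eq_top (S.subtype hSK)
    rw [Sylow.coe_subtype, Subgroup.map_subgroupOf_eq_of_le hSK] at this
    exact this
  have hnorm : Subgroup.normalizer (Q' : Set G) ≤ H₀ := by
    intro g hg
    by_contra hgH
    obtain ⟨x, hx, hx1⟩ := (Subgroup.bot_or_exists_ne_one _).resolve_left hQ0
    refine hx1 (CfsgLib.Core.malnormal_of_isFrobeniusComplement hH₀ g hgH x (hQM hx).2 ?_)
    exact (hQM ((Subgroup.mem_normalizer_iff.mp hg x).mp hx)).2
  have htop : H₀ ⊔ K = ⊤ := top_le_iff.mp (hfr ▸ sup_le_sup_right hnorm K)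
  have hprod := CfsgLib.Core.card_sup_mul_card_inf (A := H₀) (K := K)
    (by rw [Subgroup.normalizer_eq_top (H := K)]; exact le_top)
  rw [htop, Subgroup.card_top, ← Subgroup.card_mul_index H, ← hcard, inf_comm, ← hM] at hprod
  have h2 : 2 ≤ Nat.card M := (Subgroup.one_lt_card_iff_ne_bot M).mpr hM0
  have hpos : 0 < Nat.card K := Nat.card_pos
  have hpos' : 0 < Nat.card H := Nat.card_pos
  have h3 : Nat.card H₀ * Nat.card K ≤ Nat.card H * Nat.card K := Nat.mul_le_mul_right _ hle'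
  have h4 : Nat.card H * Nat.card K * 2 ≤ Nat.card H * Nat.card K * Nat.card M :=
    Nat.mul_le_mul_left _ h2
  have h5 : 0 < Nat.card H * Nat.card K := Nat.mul_pos hpos' hpos
  omega

end Cfsg.Agent.S0037
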