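import Cfsg.Statements.S0038
import Cfsg.Agent.S0037
import Cfsg.Agent.Lib.CoreFpf

set_option autoImplicit false
open Pointwise
open Cfsg
open scoped Pointwise

namespace Cfsg.Agent.S0038

/-- A Frobenius complement contained in another one (up to conjugation) equals it. -/
theorem eq_of {G : Type*} [Group G] [Finite G] {H H₀ : Subgroup G}
    (hH : Cfsg.IsFrobeniusComplement H) (hH₀ : Cfsg.IsFrobeniusComplement H₀) {g : G}
    (hg : MulAut.conj g • H₀ ≤ H) : MulAut.conj g • H₀ = H := by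
  set A := MulAut.conj g • H₀ with hA
  have hAF : Cfsg.IsFrobeniusComplement A :=
    CfsgLib.Core.isFrobeniusComplement_conj_smul hH₀ g
  clear_value A
  refine le_antisymm hg fun h hh => ?_
  by_contra hhA
  obtain ⟨K, hKn, -, hKH, -, hKc⟩ := CfsgLib.Core.exists_kernel hH
  obtain ⟨K₀, hK₀n, -, hK₀A, hK₀top, hK₀c⟩ := CfsgLib.Core.exists_kernel hAF
  haveI := hKn
  haveI := hK₀n
  set M := K₀ ⊓ H with hM
  have hM0 : M ≠ ⊥ := by
    intro e
    apply hhA
    have h' : h ∈ K₀ ⊔ A := hK₀top ▸ Subgroup.mem_top h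
    rw [← SetLike.mem_coe, Subgroup.normal_mul] at h'
    obtain ⟨k, hk, a, ha, hka⟩ := h'
    have hkM : k ∈ M := ⟨hk, by
      have : k = h * a⁻¹ := eq_mul_inv_of_mul_eq hka
      rw [this]
      exact H.mul_mem hh (H.inv_mem (hg ha))⟩
    rw [e, Subgroup.mem_bot] at hkM
    rw [← hka, hkM]
    simpa using ha
  obtain ⟨p, hp, hpd⟩ := Nat.exists_prime_and_dvd
    (fun e => hAF.1 (Subgroup.eq_bot_of_card_eq _ e) : Nat.card A ≠ 1)
  haveI := Fact.mk hp
  obtain ⟨⟨b, hb⟩, hbo⟩ := exists_prime_orderOf_dvd_card' (G := A) p hpd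
  replace hbo : orderOf b = p := (Subgroup.orderOf_coe ⟨b, hb⟩).trans hbo
  have hb1 : b ≠ 1 := by
    intro e
    rw [e, orderOf_one] at hbo
    exact hp.ne_one hbo.symm
  have hbM : Subgroup.zpowers b ≤ Subgroup.normalizer (M : Set G) := by
    rw [Subgroup.zpowers_le]
    exact CfsgLib.Core.le_normalizer_inf
      (by rw [Subgroup.normalizer_eq_top (H := K₀)]; exact le_top) Subgroup.le_normalizer (hg hb)
  have hMd : Nat.card M ∣ A.index := hK₀c ▸ Subgroup.card_dvd_of_le inf_le_left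
  have hcop : (Nat.card (Subgroup.zpowers b)).Coprime (Nat.card M) :=
    ((CfsgLib.Core.coprime_card_index hAF).coprime_dvd_left
      (Subgroup.card_dvd_of_le (Subgroup.zpowers_le.mpr hb))).coprime_dvd_right hMd
  obtain ⟨q, hq, hqd⟩ := Nat.exists_prime_and_dvd
    (fun e => hM0 (Subgroup.eq_bot_of_card_eq _ e) : Nat.card M ≠ 1)
  haveI := Fact.mk hq
  haveI : IsMulCommutative (Subgroup.zpowers b) := inferInstance
  obtain ⟨R, hR⟩ := CfsgLib.Core.exists_invariant_sylow q hbM hcop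
    (Or.inl (open scoped IsMulCommutative in inferInstance))
  set Q := (R : Subgroup M).map M.subtype with hQ
  have hQM : Q ≤ M := Subgroup.map_subtype_le _
  have hQ0 : Q ≠ ⊥ := by
    rw [hQ, Ne, Subgroup.map_eq_bot_iff_of_injective _ Subtype.coe_injective]
    exact R.ne_bot_of_dvd_card hqd
  have hle : Q ⊔ Subgroup.zpowers b ≤ H :=
    sup_le (hQM.trans inf_le_right) (Subgroup.zpowers_le.mpr (hg hb))
  have hK0 : K = ⊥ := CfsgLib.Core.eq_bot_of_fpf hp hbo (R.2.map M.subtype) hQ0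
    (hR (Subgroup.mem_zpowers b))
    (by rw [Subgroup.normalizer_eq_top (H := K)]; exact le_top)
    (fun x hx hxb => CfsgLib.Core.eq_one_of_commute_kernel hAF hK₀A hb hb1 (hQM hx).1 hxb.symm)
    (fun y hy hy1 v hv hc => CfsgLib.Core.eq_one_of_commute_kernel hH hKH (hle hy) hy1 hv hc)
  rw [hK0, Subgroup.card_bot] at hKc
  exact hH.2.1 (Subgroup.index_eq_one.mp hKc.symm)

/-- All Frobenius complements of a finite group are conjugate to one another. -/
theorem result {G : Type*} [Group G] [Finite G] (H H₀ : Subgroup G)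
    (hH : Cfsg.IsFrobeniusComplement H) (hH₀ : Cfsg.IsFrobeniusComplement H₀) :
    ∃ g : G, MulAut.conj g • H₀ = H := by
  rcases le_total (Nat.card H₀) (Nat.card H) with hle | hle
  · obtain ⟨g, hg⟩ := Cfsg.Agent.S0037.result H H₀ hH hH₀ hle
    refine ⟨g, eq_of hH hH₀ hg⟩
  · obtain ⟨g, hg⟩ := Cfsg.Agent.S0037.result H₀ H hH₀ hH hle
    refine ⟨g⁻¹, ?_⟩
    rw [← eq_of hH₀ hH hg, CfsgLib.Core.conj_smul_conj_smul, inv_mul_cancel,
      CfsgLib.Core.conj_one_smul]

end Cfsg.Agent.S0038
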