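import Cfsg.Statements.S0040
import Cfsg.Agent.Lib.CoreFpfComplement

set_option autoImplicit false
open Cfsg

namespace Cfsg.Agent.S0040

/-- Sylow subgroups of Frobenius complements: if H complements a nontrivial normal subgroup K and every nonidentity element of H has trivial centraliser in K, then each Sylow subgroup of H is cyclic or isomorphic to a generalized quaternion group. -/
theorem result {G : Type*} [Group G] [Finite G] (K H : Subgroup G) [K.Normal]
    (hc : Subgroup.IsComplement' K H) (hK : K ≠ ⊥) (hfpf : ∀ h ∈ H, h ≠ 1 → K ⊓ Subgroup.centralizer {h} = ⊥)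
    (p : ℕ) [Fact p.Prime] (P : Sylow p H) :
    IsCyclic P ∨ ∃ n : ℕ, Nonempty (P ≃* QuaternionGroup (2 ^ n)) := by
  set Q : Subgroup G := (P : Subgroup H).map H.subtype with hQ
  set e : ↥(P : Subgroup H) ≃* ↥Q :=
    (P : Subgroup H).equivMapOfInjective H.subtype H.subtype_injective
  have hQp : IsPGroup p Q := P.isPGroup'.map H.subtype
  have hle : Q ≤ Subgroup.normalizer (K : Set G) := fun x _ => by
    rw [Subgroup.normalizer_eq_top]; trivial
  rcases CfsgLib.Core.cyclic_or_quaternion_of_fpf hQp hle hK (fun a ha ha1 v hv hav => by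
    have hm : v ∈ K ⊓ Subgroup.centralizer {a} :=
      ⟨hv, Subgroup.mem_centralizer_singleton_iff.2 hav.symm⟩
    rw [hfpf a (Subgroup.map_subtype_le _ ha) ha1] at hm
    exact Subgroup.mem_bot.1 hm) with h | ⟨-, n, ⟨f⟩⟩
  · exact Or.inl (e.isCyclic.2 h)
  · exact Or.inr ⟨n, ⟨e.trans f⟩⟩

end Cfsg.Agent.S0040
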