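import Cfsg.Statements.S0041
import Cfsg.Agent.Lib.CoreFpf
import Cfsg.Agent.Lib.CharBurnside

set_option autoImplicit false
open Cfsg

namespace Cfsg.Agent.S0041

/-- A group acting on a nontrivial abelian group so that no nonidentity element has a nonidentity fixed point is cyclic, provided it is abelian or its order is a product of two (possibly equal) primes. -/
theorem result {G : Type*} [Group G] [Finite G] (A V : Subgroup G) [IsMulCommutative V]
    (hV : V ≠ ⊥) (hAV : A ≤ Subgroup.normalizer (V : Set G)) (hfpf : ∀ a ∈ A, a ≠ 1 → V ⊓ Subgroup.centralizer {a} = ⊥)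
    (hA : IsMulCommutative A ∨ ∃ p q : ℕ, p.Prime ∧ q.Prime ∧ Nat.card A = p * q) : IsCyclic A := by
  have hfree : ∀ a ∈ A, a ≠ 1 → ∀ v ∈ V, a * v = v * a → v = 1 := by
    intro a ha h1 v hv hav
    have : v ∈ V ⊓ Subgroup.centralizer {a} :=
      ⟨hv, Subgroup.mem_centralizer_singleton_iff.mpr hav.symm⟩
    rwa [hfpf a ha h1, Subgroup.mem_bot] at this
  have hab : IsMulCommutative A → IsCyclic A := by
    intro hc
    haveI := hc
    by_contra hcyc
    apply hV
    rw [← CfsgLib.Core.generated_by_centralizers hcyc hAV (CfsgLib.Core.coprime_of_fpf hAV hfree),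
      eq_bot_iff]
    exact iSup₂_le fun a ha => (hfpf a ha.1 ha.2).le
  rcases hA with hc | ⟨p, q, hp, hq, hpq⟩
  · exact hab hc
  by_cases hc : IsMulCommutative A
  · exact hab hc
  exfalso
  apply hV
  haveI : Nontrivial A := Finite.one_lt_card_iff_nontrivial.mp
    (by rw [hpq]; exact lt_of_lt_of_le hp.one_lt (Nat.le_mul_of_pos_right _ hq.pos))
  haveI : Group.IsSolvable A :=
    CfsgLib.Char.burnside_pq hp hq _ A 1 1 rfl (by rw [hpq, pow_one, pow_one])
  obtain ⟨Q, hQn, hQ0, -, hmin⟩ := CfsgLib.Core.exists_minimal_normal_le (G := A) (N := ⊤) top_ne_bot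
  haveI := hQn
  have hQc : IsMulCommutative Q := CfsgLib.Core.isMulCommutative_of_minimal_normal hmin
  have hQtop : Q ≠ ⊤ := by
    rintro rfl
    exact hc ⟨⟨fun a b => congrArg Subtype.val
      (hQc.is_comm.comm (⟨a, Subgroup.mem_top a⟩ : (⊤ : Subgroup A)) ⟨b, Subgroup.mem_top b⟩)⟩⟩
  -- `Q` and `A / Q` have prime order
  have hQp : (Nat.card Q).Prime ∧ (Q.index).Prime := by
    have hm := Q.card_mul_index
    rw [hpq] at hm
    have h1 : Nat.card Q ≠ 1 := fun e => hQ0 (Subgroup.eq_bot_of_card_eq _ e)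
    have h2 : Q.index ≠ 1 := fun e => hQtop (Subgroup.index_eq_one.mp e)
    obtain ⟨r, hr, hrd⟩ := Nat.exists_prime_and_dvd h1
    obtain ⟨r', hr', hrd'⟩ := Nat.exists_prime_and_dvd h2
    obtain ⟨a, ha⟩ := hrd
    obtain ⟨b, hb⟩ := hrd'
    have e : r * a * (r' * b) = p * q := by rw [← ha, ← hb, hm]
    have hab' : a * b = 1 := by
      have h := congrArg (fun n => n.primeFactorsList.length) e
      have ha0 : a ≠ 0 := by
        rintro rfl
        rw [mul_zero] at ha
        exact Nat.card_pos.ne' ha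
      have hb0 : b ≠ 0 := by
        rintro rfl
        rw [mul_zero] at hb
        exact Subgroup.index_ne_zero_of_finite hb
      rw [(Nat.perm_primeFactorsList_mul (mul_ne_zero hr.ne_zero ha0)
          (mul_ne_zero hr'.ne_zero hb0)).length_eq, List.length_append,
        (Nat.perm_primeFactorsList_mul hr.ne_zero ha0).length_eq, List.length_append,
        (Nat.perm_primeFactorsList_mul hr'.ne_zero hb0).length_eq, List.length_append,
        (Nat.perm_primeFactorsList_mul hp.ne_zero hq.ne_zero).length_eq, List.length_append,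
        Nat.primeFactorsList_prime hr, Nat.primeFactorsList_prime hr',
        Nat.primeFactorsList_prime hp, Nat.primeFactorsList_prime hq] at h
      simp only [List.length_cons, List.length_nil] at h
      have h3 : a.primeFactorsList.length = 0 ∧ b.primeFactorsList.length = 0 := by omega
      have := (Nat.primeFactorsList_eq_nil a).mp (List.length_eq_zero_iff.mp h3.1)
      have := (Nat.primeFactorsList_eq_nil b).mp (List.length_eq_zero_iff.mp h3.2)
      simp_all
    obtain ⟨rfl, rfl⟩ := mul_eq_one.mp hab'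
    rw [mul_one] at ha hb
    exact ⟨ha ▸ hr, hb ▸ hr'⟩
  obtain ⟨hcQ, hiQ⟩ := hQp
  haveI := Fact.mk hiQ
  obtain ⟨b, hbo⟩ := exists_prime_orderOf_dvd_card' (G := A) Q.index Q.index_dvd_card
  have hle : Q.map A.subtype ⊔ Subgroup.zpowers (b : G) ≤ A :=
    sup_le (Subgroup.map_subtype_le _) (Subgroup.zpowers_le.mpr b.2)
  refine CfsgLib.Core.eq_bot_of_fpf_abelian (Q := Q.map A.subtype) hiQ
    ((Subgroup.orderOf_coe b).trans hbo) ?_ ((Subgroup.map_subtype_le _).trans hAV) (hAV b.2) ?_ ?_
    fun g hg => hfree g (hle hg)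
  · rw [Ne, Subgroup.map_eq_bot_iff_of_injective _ Subtype.coe_injective]; exact hQ0
  · refine Subgroup.le_normalizer_map _ ⟨b, ?_, rfl⟩
    rw [Subgroup.normalizer_eq_top (H := Q)]; exact Subgroup.mem_top b
  · rintro _ ⟨x, hx, rfl⟩ hxb
    have hxb' : x * b = b * x := Subtype.ext hxb
    by_contra hx1
    have hx1' : x ≠ 1 := fun e => hx1 (by rw [e]; rfl)
    have hQz : Subgroup.zpowers x = Q := by
      refine CfsgLib.Core.eq_of_le_of_card_le (Subgroup.zpowers_le.mpr hx) ?_
      rw [Nat.card_zpowers]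
      have hd : orderOf x ∣ Nat.card Q := Subgroup.orderOf_dvd_natCard _ hx
      rcases (Nat.dvd_prime hcQ).mp hd with e | e
      · exact absurd (orderOf_eq_one_iff.mp e) hx1'
      · exact e.ge
    -- then `Q ⊔ ⟨b⟩` is abelian of full order
    apply hc
    set B : Subgroup A := Subgroup.closure {x, b} with hB
    haveI : IsMulCommutative B := Subgroup.isMulCommutative_closure (by
      rintro u (rfl | rfl) w (rfl | rfl) <;> first | rfl | exact hxb' | exact hxb'.symm)
    have hBtop : B = ⊤ := by
      have h1 : Q ≤ B := hQz ▸ Subgroup.zpowers_le.mpr (Subgroup.subset_closure (by simp))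
      have hbB : b ∈ B := Subgroup.subset_closure (by simp)
      have hbQ : b ∉ Q := by
        intro hbQ
        have h2 : orderOf b ∣ Nat.card Q := Subgroup.orderOf_dvd_natCard _ hbQ
        rw [hbo] at h2
        have h3 : Q.index = Nat.card Q := (Nat.prime_dvd_prime_iff_eq hiQ hcQ).mp h2
        have hsq : Nat.card A = Nat.card Q ^ 2 := by rw [← Q.card_mul_index, h3, pow_two]
        haveI := Fact.mk hcQ
        exact hc (IsPGroup.isMulCommutative_of_card_eq_prime_sq hsq)
      rcases (Nat.dvd_prime hiQ).mp (Subgroup.index_dvd_of_le h1) with e | e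
      · exact Subgroup.index_eq_one.mp e
      · exfalso
        apply hbQ
        rw [show Q = B from CfsgLib.Core.eq_of_le_of_card_le h1 (le_of_eq (by
          apply Nat.eq_of_mul_eq_mul_right hiQ.pos
          rw [Q.card_mul_index]
          conv_lhs => rw [← e]
          exact B.card_mul_index))]
        exact hbB
    exact ⟨⟨fun u w => congrArg Subtype.val
      (mul_comm' (⟨u, hBtop ▸ Subgroup.mem_top u⟩ : B) ⟨w, hBtop ▸ Subgroup.mem_top w⟩)⟩⟩

end Cfsg.Agent.S0041
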