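import Cfsg.Statements.S0042
import Cfsg.Agent.Lib.CoreThompsonFpf
import Cfsg.Agent.Lib.CoreFrobenius

set_option autoImplicit false
open Cfsg

namespace Cfsg.Agent.S0042

/-- In a finite Frobenius group, the Frobenius kernel is (the carrier of) a normal subgroup which is nilpotent. -/
theorem result {G : Type*} [Group G] [Finite G] (H : Subgroup G) (hH : Cfsg.IsFrobeniusComplement H) :
    ∃ N : Subgroup G, (N : Set G) = Cfsg.frobeniusKernel H ∧ N.Normal ∧ Group.IsNilpotent N := by
  obtain ⟨N, hN, hNset, hNH, -, -⟩ := CfsgLib.Core.exists_kernel hH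
  haveI := hN
  refine ⟨N, hNset, hN, ?_⟩
  obtain ⟨r, hr, hrd⟩ := Nat.exists_prime_and_dvd
    (fun e => hH.1 (Subgroup.eq_bot_of_card_eq _ e) : Nat.card H ≠ 1)
  haveI := Fact.mk hr
  obtain ⟨⟨h, hh⟩, hho⟩ := exists_prime_orderOf_dvd_card' (G := H) r hrd
  replace hho : orderOf h = r := (Subgroup.orderOf_coe ⟨h, hh⟩).trans hho
  have h1 : h ≠ 1 := by
    intro e
    rw [e, orderOf_one] at hho
    exact hr.ne_one hho.symm
  let φ : MulAut N := MulAut.conjNormal h
  refine CfsgLib.Core.isNilpotent_of_fpf_prime hr _ N le_rfl φ ?_ fun x hx => ?_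
  · show (MulAut.conjNormal h : MulAut N) ^ r = 1
    rw [← map_pow, ← hho, pow_orderOf_eq_one, map_one]
  · refine Subtype.ext (CfsgLib.Core.eq_one_of_commute_kernel hH hNH hh h1 x.2 ?_)
    have hx' : h * (x : G) * h⁻¹ = x := by
      rw [← MulAut.conjNormal_apply]
      exact congrArg Subtype.val hx
    calc h * (x : G) = h * x * h⁻¹ * h := by group
      _ = x * h := by rw [hx']

end Cfsg.Agent.S0042
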