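import Cfsg.Statements.S0046
import Cfsg.Agent.Lib.CoreTransfer
import Cfsg.Agent.Lib.CharCN3

set_option autoImplicit false
open Cfsg

namespace Cfsg.Agent.S0046

universe u

theorem aux : ∀ (n : ℕ) (G : Type u) [Group G] [Finite G], Nat.card G ≤ n →
    (∀ M : Subgroup G, IsCoatom M → Group.IsNilpotent M) → Group.IsSolvable G := by
  intro n
  induction n with
  | zero => intro G _ _ h; exact absurd h (by simp [Nat.card_pos.ne'])
  | succ n ih =>
    intro G _ _ hn h
    have hproper : ∀ H : Subgroup G, H ≠ ⊤ → Group.IsNilpotent H := fun H hH => by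
      obtain ⟨M, hM, hHM⟩ := (eq_top_or_exists_le_coatom H).resolve_left hH
      haveI := h M hM
      exact Group.nilpotent_of_mulEquiv (Subgroup.subgroupOfEquivOfLe hHM)
    by_cases hN : ∃ N : Subgroup G, N.Normal ∧ N ≠ ⊥ ∧ N ≠ ⊤
    · obtain ⟨N, hNn, hN0, hN1⟩ := hN
      haveI := hNn
      haveI := hproper N hN1
      haveI : Group.IsSolvable (G ⧸ N) := by
        refine ih (G ⧸ N) ?_ fun M hM => ?_
        · have h1 : 1 < Nat.card N := (Subgroup.one_lt_card_iff_ne_bot N).2 hN0
          have h2 := Subgroup.card_eq_card_quotient_mul_card_subgroup N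
          have h3 : 0 < Nat.card (G ⧸ N) := Nat.card_pos
          nlinarith
        · have hne : M.comap (QuotientGroup.mk' N) ≠ ⊤ := fun e => hM.1 (by
            rw [← Subgroup.map_comap_eq_self_of_surjective (QuotientGroup.mk'_surjective N) M, e,
              Subgroup.map_top_of_surjective _ (QuotientGroup.mk'_surjective N)])
          haveI := hproper _ hne
          refine Group.nilpotent_of_surjective (((QuotientGroup.mk' N).domRestrict (M.comap (QuotientGroup.mk' N))).codRestrict M
            fun x => x.2) fun y => ?_
          obtain ⟨x, hx⟩ := QuotientGroup.mk'_surjective N (y : G ⧸ N)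
          exact ⟨⟨x, by rw [Subgroup.mem_comap, hx]; exact y.2⟩, Subtype.ext hx⟩
      exact Group.isSolvable_of_ker_le_range N.subtype (QuotientGroup.mk' N)
        (by rw [QuotientGroup.ker_mk', Subgroup.range_subtype])
    · push Not at hN
      by_cases hcard : Nat.card G = 1
      · haveI := (Nat.card_eq_one_iff_unique.1 hcard).1
        exact Group.isSolvable_of_comm fun a b => Subsingleton.elim _ _
      obtain ⟨p, hp, hpd⟩ := Nat.exists_prime_and_dvd hcard
      haveI := Fact.mk hp
      by_cases hab : ∀ a b : G, a * b = b * a
      · exact Group.isSolvable_of_comm hab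
      have hnpc : Cfsg.HasNormalPComplement p G := by
        refine CfsgLib.Core.hasNormalPComplement_of_local fun Q hQ g hg hcop => ?_
        rcases eq_or_ne Q ⊥ with rfl | hQ0
        · rw [Subgroup.mem_centralizer_iff]
          intro q hq
          rw [SetLike.mem_coe, Subgroup.mem_bot] at hq
          simp [hq]
        by_cases hQ1 : Subgroup.normalizer (Q : Set G) = ⊤
        · exfalso
          haveI := Subgroup.normalizer_eq_top_iff.1 hQ1
          have hQt : Q = ⊤ := hN Q inferInstance hQ0
          subst hQt
          haveI : Nontrivial (⊤ : Subgroup G) := (Subgroup.nontrivial_iff_ne_bot _).2 hQ0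
          haveI := hQ.center_nontrivial
          obtain ⟨⟨z, hz⟩, hz1⟩ := exists_ne (1 : Subgroup.center (⊤ : Subgroup G))
          have hzc : (z : G) ∈ Subgroup.center G := Subgroup.mem_center_iff.2 fun w =>
            congrArg Subtype.val (Subgroup.mem_center_iff.1 hz ⟨w, Subgroup.mem_top w⟩)
          have hc0 : Subgroup.center G ≠ ⊥ := fun e => by
            rw [e, Subgroup.mem_bot] at hzc
            exact hz1 (Subtype.ext (Subtype.ext hzc))
          have hc1 := hN (Subgroup.center G) inferInstance hc0
          exact hab fun a b => (Subgroup.mem_center_iff.1 (hc1 ▸ Subgroup.mem_top b : b ∈ Subgroup.center G) a)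
        · haveI := hproper _ hQ1
          have hn1 : Cfsg.HasNormalPComplement p (Subgroup.normalizer (Q : Set G)) := by
            refine CfsgLib.Core.hasNormalPComplement_of_local fun R hR w hw hwc => ?_
            rw [Subgroup.mem_centralizer_iff]
            intro r hr
            obtain ⟨j, hj⟩ := IsPGroup.iff_orderOf.1 hR ⟨r, hr⟩
            rw [Subgroup.orderOf_mk] at hj
            exact CfsgLib.CN.commute_of_coprime_orderOf r w (hj ▸ hwc.symm.pow_left j)
          have h1 := CfsgLib.Core.centralizes_of_hasNormalPComplement hn1
            (Q := Q.subgroupOf (Subgroup.normalizer (Q : Set G))) (g := ⟨g, hg⟩) (hQ.comap_subtype)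
            (by
              rw [Subgroup.mem_normalizer_iff]
              intro q
              exact Subgroup.mem_normalizer_iff.mp hg q)
            (by rwa [Subgroup.orderOf_mk])
          rw [Subgroup.mem_centralizer_iff] at h1 ⊢
          intro q hq
          exact congrArg Subtype.val (h1 ⟨q, Subgroup.le_normalizer hq⟩ hq)
      obtain ⟨P, K, hKn, hK⟩ := hnpc
      have hK0 : K = ⊥ := by
        by_contra hK0
        have hKt := hN K hKn hK0
        subst hKt
        have h1 : Nat.card (P : Subgroup G) = 1 := by
          rw [← hK.symm.index_eq_card, Subgroup.index_top]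
        have h2 := P.dvd_card_of_dvd_card hpd
        rw [h1] at h2
        exact hp.not_dvd_one h2
      have h1 : (P : Subgroup G) = ⊤ := by
        have := hK.sup_eq_top
        rwa [hK0, bot_sup_eq] at this
      haveI : Group.IsNilpotent G := by
        haveI := P.2.isNilpotent
        haveI : Group.IsNilpotent (⊤ : Subgroup G) := h1 ▸ inferInstance
        exact Group.nilpotent_of_mulEquiv Subgroup.topEquiv
      infer_instance

/-- Schmidt's Theorem on minimal non-nilpotent groups: a finite group in which every maximal subgroup is nilpotent is solvable. -/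
theorem result {G : Type*} [Group G] [Finite G]
    (h : ∀ M : Subgroup G, IsCoatom M → Group.IsNilpotent M) : Group.IsSolvable G := by
  exact aux _ G le_rfl h

end Cfsg.Agent.S0046
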