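import Cfsg.Statements.S0049
import Cfsg.Agent.Lib.CorePGroup

set_option autoImplicit false
open Cfsg

namespace Cfsg.Agent.S0049

/-- A prime divisor of the order of a finite group also divides the index of the Frattini subgroup. -/
theorem result {G : Type*} [Group G] [Finite G] (p : ℕ) (hp : p.Prime) (hdvd : p ∣ Nat.card G) :
    p ∣ (frattini G).index := by
  haveI := Fact.mk hp
  by_contra hcon
  haveI : Group.IsNilpotent (frattini G) := frattini_nilpotent
  have hpd : p ∣ Nat.card (frattini G) := by
    rw [← (frattini G).card_mul_index] at hdvd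
    exact (hp.dvd_mul.mp hdvd).resolve_right hcon
  let P : Sylow p (frattini G) := default
  haveI hPn : ((P : Subgroup (frattini G)).map (frattini G).subtype).Normal :=
    CfsgLib.Core.map_subtype_normal_of_characteristic inferInstance
      (CfsgLib.Core.pCore_eq_sylow_of_nilpotent P ▸ CfsgLib.Core.characteristic_pCore p)
  set N := (P : Subgroup (frattini G)).map (frattini G).subtype with hN
  have hcop : (Nat.card N).Coprime N.index := by
    obtain ⟨k, hk⟩ := IsPGroup.iff_card.mp (P.isPGroup'.map (frattini G).subtype)
    rw [hk]
    refine (hp.coprime_iff_not_dvd.mpr ?_).pow_left k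
    rw [← Subgroup.relIndex_mul_index (Subgroup.map_subtype_le (P : Subgroup (frattini G)))]
    intro hd
    rcases hp.dvd_mul.mp hd with h | h
    · rw [Subgroup.relIndex, Subgroup.subgroupOf,
        Subgroup.comap_map_eq_self_of_injective (frattini G).subtype_injective] at h
      exact P.not_dvd_index h
    · exact hcon h
  obtain ⟨H, hH⟩ := Subgroup.exists_right_complement'_of_coprime hcop
  have htop : H = ⊤ := frattini_nongenerating (top_le_iff.mp
    (hH.symm.sup_eq_top ▸ sup_le_sup_left (Subgroup.map_subtype_le _) H))
  subst htop
  rw [Subgroup.isComplement'_top_right] at hH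
  exact P.ne_bot_of_dvd_card hpd
    ((Subgroup.map_eq_bot_iff_of_injective _ (frattini G).subtype_injective).mp hH)

end Cfsg.Agent.S0049
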