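import Cfsg.Statements.S0050
import Cfsg.Agent.Lib.CoreHall

set_option autoImplicit false
open Cfsg

namespace Cfsg.Agent.S0050

/-- Frattini argument for Hall subgroups: if L is a solvable normal subgroup and H a subgroup of L of order coprime to its index in L, then L together with the normaliser of H generates the whole group. -/
theorem result {G : Type*} [Group G] [Finite G] (L : Subgroup G) [L.Normal] (hL : Group.IsSolvable L)
    (H : Subgroup G) (hHL : H ≤ L) (hHall : (Nat.card H).Coprime (H.relIndex L)) :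
    L ⊔ Subgroup.normalizer (H : Set G) = ⊤ := by
  set π : Set ℕ := {r | r ∣ Nat.card H} with hπ
  have hH : CfsgLib.Core.IsHallIn π H L := ⟨hHL, fun r _ hr => hr,
    fun r hr hdvd hmem => hr.not_dvd_one (hHall ▸ Nat.dvd_gcd hmem hdvd)⟩
  refine eq_top_iff.2 fun g _ => ?_
  have hgH := hH.conj_smul g
  rw [CfsgLib.Core.conj_smul_of_normal g L] at hgH
  obtain ⟨m, hm, hmH⟩ := CfsgLib.Core.isHallIn_conj hL hgH hH
  rw [CfsgLib.Core.conj_smul_conj_smul, CfsgLib.Core.conj_smul_eq_self_iff] at hmH
  rw [show g = m⁻¹ * (m * g) by group]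
  exact mul_mem (Subgroup.mem_sup_left (inv_mem hm)) (Subgroup.mem_sup_right hmH)

end Cfsg.Agent.S0050
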