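import Cfsg.Statements.S0053
import Cfsg.Agent.Lib.CoreBasic

set_option autoImplicit false
open Cfsg

namespace Cfsg.Agent.S0053

/-- An abelian minimal normal subgroup N of a finite group is complemented exactly when N is not inside the Frattini subgroup. -/
theorem result {G : Type*} [Group G] [Finite G]
    (N : Subgroup G) [N.Normal] [IsMulCommutative N] (hN : N ≠ ⊥)
    (hmin : ∀ M : Subgroup G, M.Normal → M ≤ N → M = ⊥ ∨ M = N) :
    (∃ H : Subgroup G, Subgroup.IsComplement' N H) ↔ ¬ N ≤ frattini G := by
  constructor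
  · rintro ⟨H, hH⟩ hle
    have h1 : H ⊔ frattini G = ⊤ := by
      refine top_le_iff.mp ?_
      rw [← hH.symm.sup_eq_top]
      exact sup_le_sup_left hle H
    have h2 := frattini_nongenerating h1
    subst h2
    exact hN (Subgroup.isComplement'_top_right.mp hH)
  · intro hnot
    have hex : ∃ M : Subgroup G, IsCoatom M ∧ ¬ N ≤ M := by
      by_contra hcon
      push Not at hcon
      apply hnot
      rw [frattini, Order.radical]
      exact le_iInf₂ hcon
    obtain ⟨M, hM, hNM⟩ := hex
    refine ⟨M, ?_⟩
    have hsup : N ⊔ M = ⊤ := hM.2 _ (lt_of_le_of_ne le_sup_right fun h => hNM (h ▸ le_sup_left))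
    have hnorm : (N ⊓ M).Normal := by
      rw [← Subgroup.normalizer_eq_top_iff, eq_top_iff, ← hsup]
      apply sup_le
      · refine le_trans ?_ (Subgroup.centralizer_le_normalizer ((N ⊓ M : Subgroup G) : Set G))
        intro x hx
        exact Subgroup.mem_centralizer_iff.mpr fun y hy =>
          congrArg Subtype.val (mul_comm' (⟨y, hy.1⟩ : N) ⟨x, hx⟩)
      · exact CfsgLib.Core.le_normalizer_iff_forall.mpr fun a ha x hx =>
          ⟨‹N.Normal›.conj_mem x hx.1 a, M.mul_mem (M.mul_mem ha hx.2) (M.inv_mem ha)⟩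
    rcases hmin _ hnorm inf_le_left with h | h
    · exact Subgroup.isComplement'_of_disjoint_and_mul_eq_univ (disjoint_iff.mpr h)
        (by rw [← Subgroup.normal_mul N M, hsup]; rfl)
    · exact absurd (h ▸ inf_le_right) hNM

end Cfsg.Agent.S0053
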