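import Cfsg.Statements.S0054
import Cfsg.Agent.Lib.CorePrimitive
import Cfsg.Agent.Lib.CorePGroup

set_option autoImplicit false
open Cfsg

namespace Cfsg.Agent.S0054

/-- A regular normal subgroup of a finite 2-transitive group is elementary abelian: it is commutative and all its elements have order dividing one prime. -/
theorem result {G : Type*} [Group G] [Finite G]
    {X : Type*} [Nonempty X] [MulAction G X] (h2 : MulAction.IsMultiplyPretransitive G X 2)
    (N : Subgroup G) [N.Normal] (htrans : MulAction.IsPretransitive N X) (hreg : ∀ x : X, MulAction.stabilizer N x = ⊥) :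
    IsMulCommutative N ∧ ∃ p : ℕ, p.Prime ∧ ∀ n ∈ N, n ^ p = 1 := by
  haveI := h2
  by_cases hN : N = ⊥
  · subst hN
    exact ⟨⟨⟨fun a b => Subsingleton.elim _ _⟩⟩, 2, Nat.prime_two, fun n hn => by rw [Subgroup.mem_bot.1 hn, one_pow]⟩
  obtain ⟨x⟩ := ‹Nonempty X›
  have hinj : ∀ a b : N, a • x = b • x → a = b := fun a b h => by
    have h1 : b⁻¹ * a ∈ MulAction.stabilizer N x := by
      rw [MulAction.mem_stabilizer_iff, mul_smul, h, inv_smul_smul]
    rw [hreg x, Subgroup.mem_bot] at h1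
    exact (inv_mul_eq_one.1 h1).symm
  have hne : ∀ a ∈ N, a ≠ 1 → a • x ≠ x := fun a ha ha1 h =>
    ha1 (congrArg Subtype.val (hinj ⟨a, ha⟩ 1 (by rw [one_smul]; exact h)))
  have hconj : ∀ a ∈ N, a ≠ 1 → ∀ b ∈ N, b ≠ 1 → ∃ g : G, g * a * g⁻¹ = b := by
    intro a ha ha1 b hb hb1
    obtain ⟨g, hgx, hga⟩ := MulAction.is_two_pretransitive_iff.1 h2 (hne a ha ha1).symm (hne b hb hb1).symm
    refine ⟨g, congrArg Subtype.val (hinj ⟨g * a * g⁻¹, (inferInstance : N.Normal).conj_mem a ha g⟩ ⟨b, hb⟩ ?_)⟩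
    show (g * a * g⁻¹) • x = b • x
    rw [mul_smul, mul_smul, inv_smul_eq_iff.2 hgx.symm, hga]
  have h1 : 1 < Nat.card N := (Subgroup.one_lt_card_iff_ne_bot N).2 hN
  obtain ⟨p, hp, hpd⟩ := Nat.exists_prime_and_dvd (show Nat.card N ≠ 1 by omega)
  haveI := Fact.mk hp
  obtain ⟨a, ha⟩ := exists_prime_orderOf_dvd_card' (G := N) p hpd
  have ha1 : (a : G) ≠ 1 := fun e => by
    rw [← Subgroup.orderOf_coe, e, orderOf_one] at ha
    exact hp.ne_one ha.symm
  have hpow : ∀ n ∈ N, n ^ p = 1 := fun n hn => by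
    rcases eq_or_ne n 1 with rfl | hn1
    · exact one_pow _
    obtain ⟨g, rfl⟩ := hconj a a.2 ha1 n hn hn1
    rw [conj_pow, ← ha, ← Subgroup.orderOf_coe, pow_orderOf_eq_one, mul_one, mul_inv_cancel]
  have hpg : IsPGroup p N := fun m => ⟨1, Subtype.ext (by rw [pow_one]; exact hpow m m.2)⟩
  haveI : Nontrivial N := (Subgroup.nontrivial_iff_ne_bot N).2 hN
  haveI := hpg.center_nontrivial
  obtain ⟨⟨z, hz⟩, hz1⟩ := exists_ne (1 : Subgroup.center N)
  have hz1' : (z : G) ≠ 1 := fun e => hz1 (Subtype.ext (Subtype.ext e))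
  refine ⟨⟨⟨fun u v => ?_⟩⟩, p, hp, hpow⟩
  rcases eq_or_ne (u : G) 1 with e | e
  · rw [show u = 1 from Subtype.ext e, one_mul, mul_one]
  obtain ⟨g, hg⟩ := hconj z z.2 hz1' u u.2 e
  have hgv : g⁻¹ * v * g ∈ N := by simpa using (inferInstance : N.Normal).conj_mem v v.2 g⁻¹
  have hc : g⁻¹ * v * g * z = z * (g⁻¹ * v * g) := congrArg Subtype.val (Subgroup.mem_center_iff.1 hz ⟨_, hgv⟩)
  refine Subtype.ext ?_
  show (u : G) * v = v * u
  rw [← hg]
  calc g * z * g⁻¹ * v = g * (z * (g⁻¹ * v * g)) * g⁻¹ := by group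
    _ = g * (g⁻¹ * v * g * z) * g⁻¹ := by rw [hc]
    _ = v * (g * z * g⁻¹) := by group

end Cfsg.Agent.S0054
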