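import Cfsg.Statements.S0060
import Cfsg.Agent.Lib.CoreFitting

set_option autoImplicit false
open Pointwise
open Cfsg

namespace Cfsg.Agent.S0060

/-- Brodkey's Theorem: in a finite group with abelian Sylow p-subgroups and no nontrivial normal p-subgroup, some conjugate of a Sylow p-subgroup meets it trivially. -/
theorem result {G : Type*} [Group G] [Finite G] (p : ℕ) [Fact p.Prime]
    (S : Sylow p G) (hS : IsMulCommutative S) (hOp : Cfsg.pCore p G = ⊥) :
    ∃ g : G, (S : Subgroup G) ⊓ MulAut.conj g • (S : Subgroup G) = ⊥ := by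
  classical
  have hab : ∀ T : Sylow p G, ∀ x ∈ (T : Subgroup G), ∀ y ∈ (T : Subgroup G), x * y = y * x := by
    intro T x hx y hy
    haveI := hS
    obtain ⟨g, rfl⟩ := MulAction.exists_smul_eq G S T
    rw [Sylow.coe_subgroup_smul, Subgroup.mem_pointwise_smul_iff_inv_smul_mem] at hx hy
    have h := (Subgroup.mem_centralizer_iff.1 ((S : Subgroup G).le_centralizer hy) _ hx)
    rw [← MulDistribMulAction.smul_mul, ← MulDistribMulAction.smul_mul] at h
    exact (MulAction.injective (MulAut.conj g)⁻¹) h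
  obtain ⟨⟨P, Q⟩, -, hmin⟩ := Set.exists_min_image (Set.univ : Set (Sylow p G × Sylow p G))
    (fun x => Nat.card ((x.1 : Subgroup G) ⊓ x.2 : Subgroup G)) (Set.toFinite _) ⟨(S, S), trivial⟩
  set D := (P : Subgroup G) ⊓ Q with hD
  set C := Subgroup.centralizer (D : Set G) with hC
  have hleC : ∀ T : Sylow p G, D ≤ T → (T : Subgroup G) ≤ C := fun T hT x hx =>
    Subgroup.mem_centralizer_iff.2 fun y hy => hab T y (hT hy) x hx
  have hPC := hleC P inf_le_left
  have hQC := hleC Q inf_le_right
  have hall : ∀ T : Sylow p G, D ≤ T := by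
    intro T
    have hTp : IsPGroup p ((T : Subgroup G).subgroupOf C) := T.2.comap_of_injective C.subtype C.subtype_injective
    obtain ⟨R, hR⟩ := hTp.exists_le_sylow
    obtain ⟨c, hc⟩ := MulAction.exists_smul_eq C R (P.subtype hPC)
    -- the conjugate `c • T` meets `C` inside `P`
    have hle : (((c : G) • T : Sylow p G) : Subgroup G) ⊓ (Q : Subgroup G) ≤ D := by
      refine le_inf (fun x hx => ?_) inf_le_right
      have hxC : x ∈ C := hQC hx.2
      have h1 : x ∈ (((c : G) • T : Sylow p G) : Subgroup G) := hx.1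
      rw [Sylow.coe_subgroup_smul, Subgroup.mem_pointwise_smul_iff_inv_smul_mem] at h1
      have h2 : c⁻¹ * ⟨x, hxC⟩ * c ∈ (R : Subgroup C) := by
        refine hR ?_
        rw [Subgroup.mem_subgroupOf]
        simpa [MulAut.smul_def] using h1
      have h3 : (⟨x, hxC⟩ : C) ∈ ((c • R : Sylow p C) : Subgroup C) := by
        rw [Sylow.coe_subgroup_smul, Subgroup.mem_pointwise_smul_iff_inv_smul_mem]
        simpa [MulAut.smul_def] using h2
      rw [hc] at h3
      exact h3
    have heq := CfsgLib.Core.eq_of_le_of_card_le hle (hmin ((c : G) • T, Q) trivial)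
    intro d hd
    have h1 : d ∈ (((c : G) • T : Sylow p G) : Subgroup G) := (heq.ge hd).1
    rw [Sylow.coe_subgroup_smul, Subgroup.mem_pointwise_smul_iff_inv_smul_mem] at h1
    have h2 : (c : G) * d = d * c := (Subgroup.mem_centralizer_iff.1 c.2 d hd).symm
    have h1' : (c : G)⁻¹ * d * (c : G) ∈ (T : Subgroup G) := by simpa [MulAut.smul_def] using h1
    rwa [mul_assoc, ← h2, inv_mul_cancel_left] at h1'
  have hD1 : D = ⊥ := by
    have hle : D ≤ (S : Subgroup G).normalCore := fun d hd g => by
      have h1 := hall (g⁻¹ • S) hd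
      rw [Sylow.coe_subgroup_smul, Subgroup.mem_pointwise_smul_iff_inv_smul_mem] at h1
      simpa [MulAut.smul_def] using h1
    exact le_bot_iff.1 ((hle.trans (CfsgLib.Core.le_pCore inferInstance
      (S.2.to_le (Subgroup.normalCore_le _)))).trans hOp.le)
  obtain ⟨a, ha⟩ := MulAction.exists_smul_eq G S P
  obtain ⟨b, hb⟩ := MulAction.exists_smul_eq G S Q
  refine ⟨a⁻¹ * b, ?_⟩
  have h := congrArg (fun H : Subgroup G => MulAut.conj a⁻¹ • H) hD1
  simp only [hD, Subgroup.smul_inf, Subgroup.smul_bot] at h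
  rw [← ha, ← hb, Sylow.coe_subgroup_smul, Sylow.coe_subgroup_smul, smul_smul, smul_smul, ← map_mul, ← map_mul,
    inv_mul_cancel, map_one, one_smul] at h
  exact h

end Cfsg.Agent.S0060
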