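import Cfsg.Statements.S0063
import Cfsg.Agent.Lib.CorePGroup

set_option autoImplicit false
open Cfsg

namespace Cfsg.Agent.S0063

/-- A finite group of prime-power order p ^ m with m > 1 is nilpotent of class at most m - 1. -/
theorem result {G : Type*} [Group G] [Finite G] (p m : ℕ) [Fact p.Prime]
    (hG : Nat.card G = p ^ m) (hm : 1 < m) : Group.nilpotencyClass G ≤ m - 1 := by
  have hp := (Fact.out : p.Prime)
  revert G
  induction m using Nat.strong_induction_on with
  | _ m ih =>
  intro G _ _ hG
  have hPG : IsPGroup p G := IsPGroup.iff_card.mpr ⟨m, hG⟩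
  haveI := hPG.isNilpotent
  by_cases hab : IsMulCommutative G
  · have : Group.nilpotencyClass G ≤ 1 := Group.IsNilpotent.nilpotencyClass_le_one_iff.mpr hab
    omega
  haveI : Nontrivial G := Finite.one_lt_card_iff_nontrivial.mp
    (hG ▸ Nat.one_lt_pow (by omega) hp.one_lt)
  obtain ⟨j, hj⟩ := IsPGroup.iff_card.mp (hPG.to_quotient (Subgroup.center G))
  have hj2 : 2 ≤ j := by
    by_contra hcon
    haveI : IsCyclic (G ⧸ Subgroup.center G) := by
      interval_cases j
      · haveI := (Nat.card_eq_one_iff_unique.mp (show Nat.card (G ⧸ Subgroup.center G) = 1 by simpa using hj)).1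
        infer_instance
      · exact isCyclic_of_prime_card (p := p) (by simpa using hj)
    letI := commGroupOfCyclicCenterQuotient (QuotientGroup.mk' (Subgroup.center G))
      (QuotientGroup.ker_mk' _).le
    exact hab ⟨⟨mul_comm⟩⟩
  have hlt : j < m := by
    have h1 : Nat.card (G ⧸ Subgroup.center G) < Nat.card G := by
      rw [← Subgroup.index_eq_card, ← (Subgroup.center G).card_mul_index]
      exact lt_mul_of_one_lt_left (Nat.pos_of_ne_zero Subgroup.index_ne_zero_of_finite)
        ((Subgroup.one_lt_card_iff_ne_bot _).mpr (Group.IsNilpotent.center_ne_bot (G := G)))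
    rw [hj, hG] at h1
    exact (Nat.pow_lt_pow_iff_right hp.one_lt).mp h1
  have := ih j hlt (by omega) (G := G ⧸ Subgroup.center G) hj
  rw [nilpotencyClass_eq_quotient_center_plus_one]
  omega

end Cfsg.Agent.S0063
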