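import Cfsg.Statements.S0064
import Cfsg.Agent.Lib.CoreSubnormal

set_option autoImplicit false
open Cfsg

open scoped Pointwise

namespace Cfsg.Agent.S0064

/-- A finite group is nilpotent exactly when each of its subgroups is subnormal. -/
theorem result {G : Type*} [Group G] [Finite G] :
    Group.IsNilpotent G ↔ ∀ H : Subgroup G, H.IsSubnormal := by
  constructor
  · intro h A
    exact CfsgLib.Core.isSubnormal_of_isNilpotent A
  · intro h
    refine CfsgLib.Core.isNilpotent_iff_sylow_normal.mpr fun p hp P => ?_
    by_contra hn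
    obtain ⟨x, hx1, hx2⟩ := CfsgLib.Core.exists_conj_ne_le_normalizer (h P) hn
    refine hx1 ?_
    have hP : IsPGroup p ↥(MulAut.conj x • (P : Subgroup G)) :=
      P.2.of_equiv (Subgroup.equivSMul (MulAut.conj x) (P : Subgroup G))
    have h1 : IsPGroup p ↥(MulAut.conj x • (P : Subgroup G) ⊔ (P : Subgroup G)) :=
      hP.to_sup_of_normal_right' P.2 hx2
    have h2 := P.3 h1 le_sup_right
    exact CfsgLib.Core.eq_of_le_of_card_le (le_sup_left.trans h2.le)
      (CfsgLib.Core.card_conj_smul x _).ge

end Cfsg.Agent.S0064
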