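import Cfsg.Statements.S0068
import Cfsg.Agent.Lib.CoreBasic

set_option autoImplicit false
open Cfsg

namespace Cfsg.Agent.S0068

/-- Frobenius complements of even order: if H complements a nontrivial normal subgroup K, each nonidentity element of H has trivial centraliser in K, and H has even order, then H contains a unique involution s, K is abelian, and s inverts every element of K. -/
theorem result {G : Type*} [Group G] [Finite G] (K H : Subgroup G) [K.Normal]
    (hc : Subgroup.IsComplement' K H) (hK : K ≠ ⊥) (hfpf : ∀ h ∈ H, h ≠ 1 → K ⊓ Subgroup.centralizer {h} = ⊥)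
    (heven : 2 ∣ Nat.card H) :
    (∃ s ∈ H, orderOf s = 2 ∧ (∀ t ∈ H, orderOf t = 2 → t = s) ∧ ∀ k ∈ K, s * k * s⁻¹ = k⁻¹) ∧ IsMulCommutative K := by
  have hcomm : ∀ h ∈ H, h ≠ 1 → ∀ k ∈ K, h * k = k * h → k = 1 := by
    intro h hh h1 k hk hkh
    have : k ∈ K ⊓ Subgroup.centralizer {h} :=
      ⟨hk, Subgroup.mem_centralizer_singleton_iff.mpr hkh.symm⟩
    rwa [hfpf h hh h1, Subgroup.mem_bot] at this
  have inv_of : ∀ t ∈ H, orderOf t = 2 → ∀ k ∈ K, t * k * t⁻¹ = k⁻¹ := by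
    intro t ht hto
    have ht2 : t * t = 1 := by rw [← pow_two, ← hto, pow_orderOf_eq_one]
    have ht1 : t ≠ 1 := by
      intro e
      rw [e, orderOf_one] at hto
      exact absurd hto (by decide)
    let F : K → K := fun k => ⟨(k : G)⁻¹ * (t * k * t⁻¹),
      K.mul_mem (K.inv_mem k.2) (‹K.Normal›.conj_mem _ k.2 t)⟩
    have hinj : Function.Injective F := by
      intro a b h
      have h' : (a : G)⁻¹ * (t * a * t⁻¹) = (b : G)⁻¹ * (t * b * t⁻¹) := congrArg Subtype.val h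
      refine Subtype.ext (mul_inv_eq_one.mp (hcomm t ht ht1 _ (K.mul_mem a.2 (K.inv_mem b.2)) ?_))
      calc t * ((a : G) * (b : G)⁻¹)
          = (a : G) * ((a : G)⁻¹ * (t * a * t⁻¹)) * (t * (b : G)⁻¹ * t⁻¹) * t := by group
        _ = (a : G) * (b : G)⁻¹ * t := by rw [h']; group
    intro y hy
    obtain ⟨k, hk⟩ := (Finite.injective_iff_surjective.mp hinj) ⟨y, hy⟩
    have hk' : (k : G)⁻¹ * (t * k * t⁻¹) = y := congrArg Subtype.val hk
    have htinv : t⁻¹ = t := inv_eq_of_mul_eq_one_right ht2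
    rw [← hk', htinv]
    calc t * ((k : G)⁻¹ * (t * k * t)) * t
        = t * (k : G)⁻¹ * t * k * (t * t) := by group
      _ = ((k : G)⁻¹ * (t * k * t))⁻¹ := by
        rw [ht2, mul_one, mul_inv_rev, mul_inv_rev, mul_inv_rev, htinv, inv_inv]; group
  obtain ⟨⟨s, hs⟩, hso⟩ := exists_prime_orderOf_dvd_card' (G := H) 2 heven
  replace hso : orderOf s = 2 := (Subgroup.orderOf_coe ⟨s, hs⟩).trans hso
  have hsinv := inv_of s hs hso
  refine ⟨⟨s, hs, hso, fun t ht hto => ?_, hsinv⟩, ?_⟩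
  · by_contra hne
    have htinv := inv_of t ht hto
    have hts : t⁻¹ * s ≠ 1 := fun e => hne (inv_mul_eq_one.mp e)
    apply hK
    rw [eq_bot_iff]
    intro k hk
    refine Subgroup.mem_bot.mpr (hcomm _ (H.mul_mem (H.inv_mem ht) hs) hts k hk ?_)
    calc t⁻¹ * s * k = t⁻¹ * (s * k * s⁻¹) * s := by group
      _ = t⁻¹ * (t * k * t⁻¹) * s := by rw [hsinv k hk, htinv k hk]
      _ = k * (t⁻¹ * s) := by group
  · refine ⟨⟨fun a b => Subtype.ext ?_⟩⟩
    show (a : G) * b = b * a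
    have h1 := hsinv _ (K.mul_mem (K.inv_mem b.2) (K.inv_mem a.2))
    calc (a : G) * b = ((b : G)⁻¹ * (a : G)⁻¹)⁻¹ := by group
      _ = (s * (b : G) * s⁻¹)⁻¹ * (s * (a : G) * s⁻¹)⁻¹ := by rw [← h1]; group
      _ = b * a := by rw [hsinv _ b.2, hsinv _ a.2, inv_inv, inv_inv]

end Cfsg.Agent.S0068
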