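import Cfsg.Statements.S0069
import Cfsg.Agent.Lib.CoreFpfComplement
import Cfsg.Agent.Lib.CoreFpf
import Cfsg.Agent.Lib.CoreOmega
import Cfsg.Agent.Lib.CoreEqTop
import Cfsg.Agent.S0068
import Mathlib.GroupTheory.SpecificGroups.ZGroup

set_option autoImplicit false
set_option maxHeartbeats 400000
open Cfsg
open scoped commutatorElement

namespace Cfsg.Agent.S0069

/-- A Frobenius complement has nontrivial centre: if H ≠ 1 complements a nontrivial normal subgroup K and every nonidentity element of H has trivial centraliser in K, then the centre of H is nontrivial. -/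
theorem result {G : Type*} [Group G] [Finite G] (K H : Subgroup G) [K.Normal]
    (hc : Subgroup.IsComplement' K H) (hK : K ≠ ⊥) (hH : H ≠ ⊥) (hfpf : ∀ h ∈ H, h ≠ 1 → K ⊓ Subgroup.centralizer {h} = ⊥) :
    Subgroup.center H ≠ ⊥ := by
  classical
  have hfree : ∀ a ∈ H, a ≠ 1 → ∀ v ∈ K, a * v = v * a → v = 1 := fun a ha ha1 v hv h =>
    Subgroup.mem_bot.1 ((hfpf a ha ha1).le ⟨hv, Subgroup.mem_centralizer_singleton_iff.2 h.symm⟩)
  have hHK : ∀ U : Subgroup G, U ≤ Subgroup.normalizer (K : Set G) := fun U => by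
    rw [Subgroup.normalizer_eq_top_iff.2 inferInstance]; exact le_top
  haveI : Nontrivial H := (Subgroup.nontrivial_iff_ne_bot H).2 hH
  intro hZ
  by_cases heven : 2 ∣ Nat.card H
  · obtain ⟨⟨s, hsH, hs2, huniq, -⟩, -⟩ := Cfsg.Agent.S0068.result K H hc hK hfpf heven
    have hsc : (⟨s, hsH⟩ : H) ∈ Subgroup.center H := Subgroup.mem_center_iff.2 fun x => Subtype.ext (by
      show (x : G) * s = s * x
      have h1 := huniq ((x : G) * s * (x : G)⁻¹) (mul_mem (mul_mem x.2 hsH) (inv_mem x.2)) (by
        rw [← hs2]; exact (MulAut.conj (x : G)).orderOf_eq s)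
      calc (x : G) * s = (x : G) * s * (x : G)⁻¹ * x := by group
        _ = s * x := by rw [h1])
    rw [hZ, Subgroup.mem_bot] at hsc
    have : s = 1 := congrArg Subtype.val hsc
    rw [this, orderOf_one] at hs2
    exact absurd hs2 (by norm_num)
  haveI hZgr : IsZGroup H := by
    refine ⟨fun p hp P => ?_⟩
    haveI := Fact.mk hp
    by_cases hpH : p ∣ Nat.card H
    · rcases CfsgLib.Core.cyclic_or_quaternion_of_fpf (P := (P : Subgroup H).map H.subtype) (P.2.map H.subtype)
        (hHK _) hK (fun a ha => hfree a (Subgroup.map_subtype_le _ ha)) with h | ⟨rfl, -⟩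
      · exact ((P : Subgroup H).equivMapOfInjective _ H.subtype_injective).isCyclic.2 h
      · exact absurd hpH heven
    · have : Nat.card (P : Subgroup H) = 1 := by
        rw [P.card_eq_multiplicity, Nat.factorization_eq_zero_of_not_dvd hpH, pow_zero]
      haveI : Subsingleton (P : Subgroup H) := (Nat.card_eq_one_iff_unique.1 this).1
      exact isCyclic_of_subsingleton
  set N := commutator H with hNdef
  haveI hNc : IsCyclic N := IsZGroup.isCyclic_commutator H
  have hcop := IsZGroup.coprime_commutator_index H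
  -- subgroups of `N` are determined by their orders
  have hsame : ∀ y z : H, y ∈ N → z ∈ N → orderOf z = orderOf y → z ∈ Subgroup.zpowers y := by
    intro y z hy hz ho
    haveI := Fintype.ofFinite N
    have h1 : Subgroup.zpowers (⟨z, hz⟩ : N) = Subgroup.zpowers (⟨y, hy⟩ : N) := by
      set n := orderOf y
      have key : ∀ w : N, orderOf w = n → ((Subgroup.zpowers w : Subgroup N) : Set N) = {u : N | u ^ n = 1} := by
        intro w hw
        refine Set.eq_of_subset_of_ncard_le (fun u hu => ?_) ?_ (Set.toFinite _)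
        · exact orderOf_dvd_iff_pow_eq_one.1 (hw ▸ orderOf_dvd_of_mem_zpowers hu)
        · rw [← Nat.card_coe_set_eq ((Subgroup.zpowers w : Subgroup N) : Set N)]
          refine le_trans ?_ (le_of_eq (Nat.card_zpowers w).symm)
          rw [hw, Set.ncard_eq_toFinset_card', Set.toFinset_setOf]
          exact IsCyclic.card_pow_eq_one_le (hw ▸ orderOf_pos w)
      refine SetLike.coe_injective ((key _ ?_).trans (key _ ?_).symm)
      · rw [Subgroup.orderOf_mk, ho]
      · rw [Subgroup.orderOf_mk]
    obtain ⟨i, hi⟩ := Subgroup.mem_zpowers_iff.1 (h1.le (Subgroup.mem_zpowers _))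
    exact ⟨i, congrArg Subtype.val hi⟩
  have hzn : ∀ y ∈ N, ∀ c : H, c ∈ Subgroup.normalizer ((Subgroup.zpowers y : Subgroup H) : Set H) := by
    intro y hy c
    have h1 : (Subgroup.zpowers y).map (MulAut.conj c).toMonoidHom = Subgroup.zpowers y := by
      refine CfsgLib.Core.eq_of_le_of_card_le ?_
        (by rw [Subgroup.card_map_of_injective (MulAut.conj c).injective])
      rw [MonoidHom.map_zpowers, Subgroup.zpowers_le]
      exact hsame y _ hy ((inferInstance : N.Normal).conj_mem y hy c) ((MulAut.conj c).orderOf_eq y)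
    refine Subgroup.mem_normalizer_iff.2 fun w => ?_
    conv_rhs => rw [← h1]
    exact (Subgroup.mem_map_iff_mem (f := (MulAut.conj c).toMonoidHom) (MulAut.conj c).injective).symm
  obtain ⟨T, hT⟩ := Subgroup.exists_right_complement'_of_coprime hcop
  have hTcard : Nat.card T = N.index := hT.symm.index_eq_card.symm
  have hTab : ∀ a ∈ T, ∀ b ∈ T, a * b = b * a := by
    intro a ha b hb
    have h1 : ⁅a, b⁆ ∈ N ⊓ T :=
      ⟨Subgroup.commutator_mem_commutator (Subgroup.mem_top a) (Subgroup.mem_top b),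
        show ⁅a, b⁆ ∈ T from mul_mem (mul_mem (mul_mem ha hb) (inv_mem ha)) (inv_mem hb)⟩
    rw [disjoint_iff.1 hT.disjoint, Subgroup.mem_bot] at h1
    exact commutatorElement_eq_one_iff_mul_comm.1 h1
  obtain ⟨q, hq, hqT⟩ := Nat.exists_prime_and_dvd (show N.index ≠ 1 from fun e =>
    (IsZGroup.commutator_lt (G := H)).ne (Subgroup.index_eq_one.1 e))
  rw [← hTcard] at hqT
  haveI := Fact.mk hq
  obtain ⟨⟨c, hcT⟩, hco⟩ := exists_prime_orderOf_dvd_card' (G := T) q hqT
  rw [Subgroup.orderOf_mk] at hco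
  -- `c` centralizes the derived subgroup
  have hcN : N ≤ Subgroup.centralizer {c} := by
    intro y hy
    refine CfsgLib.Core.mem_of_prime_power_zpowers_mem _ fun r z hz hr ⟨b, hb⟩ => ?_
    haveI := Fact.mk hr
    have hzN : z ∈ N := (Subgroup.zpowers_le.2 hy) hz
    rcases Nat.eq_zero_or_pos b with rfl | hb0
    · rw [pow_zero, orderOf_eq_one_iff] at hb
      rw [hb]; exact one_mem _
    have hrN : r ∣ Nat.card N := by
      have : orderOf (⟨z, hzN⟩ : N) ∣ Nat.card N := orderOf_dvd_natCard _
      rw [Subgroup.orderOf_mk, hb] at this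
      exact (dvd_pow_self r hb0.ne').trans this
    have hr2 : r ≠ 2 := fun e => heven (e ▸ hrN.trans (Subgroup.card_subgroup_dvd_card N))
    have hqr : q ≠ r := fun e => hq.ne_one (Nat.dvd_one.1 (hcop ▸ Nat.dvd_gcd (e ▸ hrN) (hTcard ▸ hqT)))
    have hfix : ∀ x ∈ Subgroup.zpowers z, x ^ r = 1 → c * x * c⁻¹ = x := by
      intro x hx hxr
      rcases eq_or_ne x 1 with rfl | hx1
      · group
      have hxo : orderOf x = r := orderOf_eq_prime hxr hx1
      have hxN : x ∈ N := (Subgroup.zpowers_le.2 hzN) hx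
      by_contra hne
      refine hK (CfsgLib.Core.eq_bot_of_fpf (Q := (Subgroup.zpowers x).map H.subtype) (b := (c : G)) (p := q) (q := r)
        hq (by rw [Subgroup.orderOf_coe, hco]) ((IsPGroup.of_card (n := 1) (by
          rw [Nat.card_zpowers, hxo, pow_one])).map H.subtype) ?_ ?_ (hHK _) ?_ ?_)
      · rw [Ne, Subgroup.map_eq_bot_iff_of_injective _ H.subtype_injective, Subgroup.zpowers_eq_bot]
        exact hx1
      · exact Subgroup.le_normalizer_map H.subtype ⟨c, hzn x hxN c, rfl⟩
      · rintro _ ⟨w, hw, rfl⟩ hcomm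
        have hcomm' : w * c = c * w := Subtype.ext hcomm
        by_contra hw1
        have hw1' : w ≠ 1 := fun e => hw1 (by rw [e]; rfl)
        have heq : Subgroup.zpowers w = Subgroup.zpowers x :=
          CfsgLib.Core.eq_of_le_of_card_le (Subgroup.zpowers_le.2 hw) (by
            have hwr : w ^ r = 1 := orderOf_dvd_iff_pow_eq_one.1 (hxo ▸ orderOf_dvd_of_mem_zpowers hw)
            rw [Nat.card_zpowers, Nat.card_zpowers, hxo, orderOf_eq_prime hwr hw1'])
        obtain ⟨i, hi⟩ := Subgroup.mem_zpowers_iff.1 (heq.ge (Subgroup.mem_zpowers x))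
        refine hne (mul_inv_eq_iff_eq_mul.2 ?_)
        rw [← hi]
        exact ((Commute.zpow_left (show Commute w c from hcomm') i).eq).symm
      · intro g hg hg1
        refine hfree g ?_ hg1
        exact (sup_le (Subgroup.map_subtype_le _) (Subgroup.zpowers_le.2 c.2) :
          (Subgroup.zpowers x).map H.subtype ⊔ Subgroup.zpowers (c : G) ≤ H) hg
    have h := CfsgLib.Core.mem_centralizer_of_fixes_omega (p := r) (Q := Subgroup.zpowers z) (g := c)
      (IsPGroup.of_card (by rw [Nat.card_zpowers, hb])) (hzn z hzN c)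
      (by rw [hco]; exact (Nat.coprime_primes hq hr).2 hqr)
      (fun x hx hor => hor.elim (hfix x hx) (fun h => absurd h.1 hr2))
    rw [Subgroup.mem_centralizer_singleton_iff]
    exact Subgroup.mem_centralizer_iff.1 h z (Subgroup.mem_zpowers z)
  have hcz : c ∈ Subgroup.center H := Subgroup.mem_center_iff.2 fun x => by
    have h1 : N ⊔ T ≤ Subgroup.centralizer {c} :=
      sup_le hcN fun t ht => Subgroup.mem_centralizer_singleton_iff.2 (hTab t ht c hcT)
    exact Subgroup.mem_centralizer_singleton_iff.1 (h1 (hT.sup_eq_top.ge (Subgroup.mem_top x)))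
  rw [hZ, Subgroup.mem_bot] at hcz
  rw [hcz, orderOf_one] at hco
  exact hq.ne_one hco.symm

end Cfsg.Agent.S0069
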