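import Cfsg.Statements.S0070
import Cfsg.Agent.Lib.CoreFitting
import Cfsg.Agent.Lib.CorePGroup

set_option autoImplicit false
open Cfsg

namespace Cfsg.Agent.S0070

/-- The Fitting subgroup commutes with passing to the Frattini quotient: the Fitting subgroup of G modulo its Frattini subgroup is the image of the Fitting subgroup of G. -/
theorem result {G : Type*} [Group G] [Finite G] :
    Cfsg.fittingSubgroup (G ⧸ frattini G) = (Cfsg.fittingSubgroup G).map (QuotientGroup.mk' (frattini G)) := by
  let π := QuotientGroup.mk' (frattini G)
  have hπ : Function.Surjective π := QuotientGroup.mk'_surjective _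
  haveI hFn := CfsgLib.Core.normal_fittingSubgroup (G := G)
  haveI hFnil := CfsgLib.Core.isNilpotent_fittingSubgroup (G := G)
  haveI hQn := CfsgLib.Core.normal_fittingSubgroup (G := G ⧸ frattini G)
  haveI hQnil := CfsgLib.Core.isNilpotent_fittingSubgroup (G := G ⧸ frattini G)
  refine le_antisymm ?_ ?_
  · set B := (Cfsg.fittingSubgroup (G ⧸ frattini G)).comap π with hB
    haveI hBn : B.Normal := hQn.comap π
    have hle : frattini G ≤ B := by
      intro x hx
      show π x ∈ Cfsg.fittingSubgroup (G ⧸ frattini G)
      rw [show π x = 1 from (QuotientGroup.eq_one_iff x).mpr hx]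
      exact one_mem _
    haveI : ((frattini G).subgroupOf B).Normal := inferInstance
    have e : Group.IsNilpotent (↥B ⧸ (frattini G).subgroupOf B) := by
      have hmap : B.map π = Cfsg.fittingSubgroup (G ⧸ frattini G) :=
        Subgroup.map_comap_eq_self_of_surjective hπ _
      let f : B →* Cfsg.fittingSubgroup (G ⧸ frattini G) :=
        (π.comp B.subtype).codRestrict _ fun x => x.2
      have hf : f.ker = (frattini G).subgroupOf B := by
        ext x
        rw [MonoidHom.mem_ker, Subgroup.mem_subgroupOf, ← QuotientGroup.eq_one_iff,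
          Subtype.ext_iff]
        rfl
      have hsurj : Function.Surjective f := by
        rintro ⟨y, hy⟩
        obtain ⟨x, rfl⟩ := hπ y
        exact ⟨⟨x, hy⟩, rfl⟩
      exact Group.nilpotent_of_mulEquiv
        ((QuotientGroup.quotientMulEquivOfEq hf.symm).trans
          (QuotientGroup.quotientKerEquivOfSurjective f hsurj)).symm
    have hnil := CfsgLib.Core.isNilpotent_of_mod_frattini hle le_rfl e
    calc Cfsg.fittingSubgroup (G ⧸ frattini G) = B.map π :=
          (Subgroup.map_comap_eq_self_of_surjective hπ _).symm
      _ ≤ _ := Subgroup.map_mono (CfsgLib.Core.le_fittingSubgroup hBn hnil)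
  · exact CfsgLib.Core.le_fittingSubgroup (hFn.map π hπ)
      (Group.nilpotent_of_surjective (π.subgroupMap (Cfsg.fittingSubgroup G))
        (π.subgroupMap_surjective _))

end Cfsg.Agent.S0070
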