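import Cfsg.Statements.S0072
import Cfsg.Agent.Lib.CoreTransfer

set_option autoImplicit false
open Cfsg

namespace Cfsg.Agent.S0072

/-- A finite group has a normal p-complement if and only if every p-local subgroup (normalizer of a nontrivial p-subgroup) has one. -/
theorem result {G : Type*} [Group G] [Finite G] (p : ℕ) [Fact p.Prime] : Cfsg.HasNormalPComplement p G ↔ ∀ Q : Subgroup G, IsPGroup p Q → Q ≠ ⊥ → Cfsg.HasNormalPComplement p (Subgroup.normalizer (Q : Set G)) := by
  refine ⟨fun h Q _ _ => CfsgLib.Core.hasNormalPComplement_subgroup h _, fun h => ?_⟩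
  refine CfsgLib.Core.hasNormalPComplement_of_local fun Q hQ g hg hcop => ?_
  rcases eq_or_ne Q ⊥ with rfl | hQ0
  · rw [Subgroup.mem_centralizer_iff]
    intro q hq
    rw [SetLike.mem_coe, Subgroup.mem_bot] at hq
    simp [hq]
  · have h1 := CfsgLib.Core.centralizes_of_hasNormalPComplement (h Q hQ hQ0)
      (Q := Q.subgroupOf (Subgroup.normalizer (Q : Set G))) (g := ⟨g, hg⟩)
      (hQ.comap_subtype)
      (by
        rw [Subgroup.mem_normalizer_iff]
        intro q
        exact Subgroup.mem_normalizer_iff.mp hg q)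
      (by rwa [Subgroup.orderOf_mk])
    rw [Subgroup.mem_centralizer_iff] at h1 ⊢
    intro q hq
    exact congrArg Subtype.val (h1 ⟨q, Subgroup.le_normalizer hq⟩ hq)

end Cfsg.Agent.S0072
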