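import Cfsg.Statements.S0073
import Cfsg.Agent.Lib.TransferMore

set_option autoImplicit false
open Cfsg

namespace Cfsg.Agent.S0073

/-- For a finite non-abelian simple group, either the cube of the least prime divisor of the order divides the order, or 12 does. -/
theorem result {G : Type*} [Group G] [Finite G] [IsSimpleGroup G] (hG : ∃ x y : G, x * y ≠ y * x) : (Nat.card G).minFac ^ 3 ∣ Nat.card G ∨ 12 ∣ Nat.card G := by
  exact CfsgLib.Transfer.minFac_cube_or_twelve hG

end Cfsg.Agent.S0073
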