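import Cfsg.Statements.S0113
import Cfsg.Agent.Lib.TransferMaximalClass

set_option autoImplicit false
open Cfsg

namespace Cfsg.Agent.S0113

/-- A 2-group of maximal class contains a cyclic subgroup of index 2. -/
theorem result {X : Type*} [Group X] [Finite X] (n : ℕ) (hn : 3 ≤ n) (hX : Nat.card X = 2 ^ n) (hc : Group.nilpotencyClass X = n - 1) : ∃ C : Subgroup X, IsCyclic C ∧ C.index = 2 := by
  haveI : Fact (Nat.Prime 2) := ⟨Nat.prime_two⟩
  exact (CfsgLib.Transfer.two_maximal_class n (by omega) hX
    (CfsgLib.Transfer.card_commutator_of_maximal_class n hn hX hc).1).2.1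

end Cfsg.Agent.S0113
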