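import Cfsg.Statements.S0115
import Cfsg.Agent.Lib.TransferMaximalClass

set_option autoImplicit false
open Cfsg

namespace Cfsg.Agent.S0115

/-- A 2-group of order 2^n, n ≥ 3, is of maximal class exactly when its commutator quotient is a Klein four-group. -/
theorem result {X : Type*} [Group X] [Finite X] (n : ℕ) (hn : 3 ≤ n) (hX : Nat.card X = 2 ^ n) : Group.nilpotencyClass X = n - 1 ↔ IsKleinFour (X ⧸ commutator X) := by
  haveI : Fact (Nat.Prime 2) := ⟨Nat.prime_two⟩
  constructor
  · intro hc
    obtain ⟨hidx, hnc⟩ := CfsgLib.Transfer.card_commutator_of_maximal_class n hn hX hc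
    have h4 : Nat.card (X ⧸ commutator X) = 4 := by
      rw [← Subgroup.index_eq_card, hidx]
      norm_num
    refine ⟨h4, ?_⟩
    haveI : Nontrivial (X ⧸ commutator X) := Finite.one_lt_card_iff_nontrivial.mp (by rw [h4]; norm_num)
    refine (Monoid.exponent_eq_prime_iff Nat.prime_two).mpr fun g hg => ?_
    have hd : orderOf g ∣ 2 ^ 2 := by
      have := orderOf_dvd_natCard g
      rw [h4] at this
      exact this
    obtain ⟨k, hk, hk'⟩ := (Nat.dvd_prime_pow Nat.prime_two).mp hd
    interval_cases k
    · exact absurd (orderOf_eq_one_iff.mp hk') hg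
    · exact hk'
    · exact absurd (isCyclic_of_orderOf_eq_card g (by rw [hk', h4]; norm_num)) hnc
  · intro h
    refine (CfsgLib.Transfer.two_maximal_class n (by omega) hX ?_).1
    rw [Subgroup.index_eq_card]
    exact h.card_four

end Cfsg.Agent.S0115
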