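import Cfsg.Statements.S0118
import Cfsg.Agent.Lib.QuadPairQdZJ

set_option autoImplicit false
open Cfsg

namespace Cfsg.Agent.S0118

/-- Glauberman's ZJ-Theorem, in the case of groups with no section isomorphic to SL(2,p), p odd: conjugation of subsets of a Sylow p-subgroup P inside P is always induced from the normalizer of Z(J(P)). -/
theorem result {G : Type*} [Group G] [Finite G] {p : ℕ} [Fact p.Prime] (hp : p ≠ 2) (hfree : ¬ ∃ (H K : Subgroup G) (hK : (K.subgroupOf H).Normal), Nonempty ((H ⧸ K.subgroupOf H) ≃* Matrix.SpecialLinearGroup (Fin 2) (ZMod p))) (P : Sylow p G) (A : Set G) (hA : A ⊆ (P : Set G)) (g : G) (hAg : (fun a => g⁻¹ * a * g) '' A ⊆ (P : Set G)) : ∃ n ∈ Subgroup.normalizer (Cfsg.centerThompsonOf p (P : Subgroup G) : Set G), ∀ a ∈ A, n⁻¹ * a * n = g⁻¹ * a * g := by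
  have hfree' : ¬ Cfsg.Involves (Matrix.SpecialLinearGroup (Fin 2) (ZMod p)) G :=
    fun ⟨K, R, hR, h⟩ => hfree ⟨K, R, hR, h⟩
  have hg := CfsgLib.Stable.goal_self
    (CfsgLib.Stable.localData_zsub hp (G₀ := G) (e := p) (Or.inr rfl) fun hX _ =>
      CfsgLib.Stable.stab_of_normalizerPStable
        (CfsgLib.QuadPair.normalizerPStable_of_slFree hp hfree' hX)) P (P : Subgroup G)
    (CfsgLib.Stable.sclosed_self _) False.elim
  obtain ⟨-, hA'⟩ := CfsgLib.Stable.controls_of_ctrl hg A hA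
  obtain ⟨x, hx, hxe⟩ := hA' g⁻¹ (by simpa using hAg)
  refine ⟨x⁻¹, ?_, fun a ha => ?_⟩
  · rw [CfsgLib.Stable.centerThompsonOf_eq]
    exact inv_mem hx
  · simpa using (hxe a ha).symm

end Cfsg.Agent.S0118
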