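import Cfsg.Statements.S0155
import Cfsg.Agent.Lib.CharBasic

set_option autoImplicit false
open Cfsg

namespace Cfsg.Agent.S0155

/-- The character of the left regular representation of a finite group takes the value |G| at the identity and 0 at every other element. -/
theorem result {G : Type*} [Group G] [Fintype G] [DecidableEq G] (g : G) : (Representation.leftRegular ℂ G).character g = if g = 1 then (Nat.card G : ℂ) else 0 := by
  classical
  show LinearMap.trace ℂ _ (Representation.leftRegular ℂ G g) = _
  rw [LinearMap.trace_eq_matrix_trace ℂ (MonoidAlgebra.basis G ℂ), Matrix.trace]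
  have h : ∀ i : G, Matrix.diag (LinearMap.toMatrix (MonoidAlgebra.basis G ℂ) (MonoidAlgebra.basis G ℂ)
      (Representation.leftRegular ℂ G g)) i = if g = 1 then (1 : ℂ) else 0 := fun i => by
    simp [LinearMap.toMatrix_apply, MonoidAlgebra.basis, Finsupp.single_apply]
  rw [Finset.sum_congr rfl fun i _ => h i]
  split_ifs <;> simp [Nat.card_eq_fintype_card]

end Cfsg.Agent.S0155
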