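import Cfsg.Statements.S0167
import Cfsg.Agent.Lib.CharMult

set_option autoImplicit false
open Cfsg

namespace Cfsg.Agent.S0167

/-- An element g of a finite group is a commutator if and only if the sum over the irreducible characters χ of χ g / χ 1 is nonzero. -/
theorem result {G : Type*} [Group G] [Finite G] (g : G) : (∃ a b : G, g = a * b * a⁻¹ * b⁻¹) ↔ ∑ᶠ χ : Cfsg.IrrCharacter G, (χ : G → ℂ) g / (χ : G → ℂ) 1 ≠ 0 := by
  classical
  haveI := Fintype.ofFinite G
  rw [finsum_eq_sum_of_fintype]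
  have h := CfsgLib.Char.count_commutator g
  constructor
  · rintro ⟨a, b, rfl⟩ he
    rw [he, mul_zero] at h
    have hne : Nonempty {p : G × G // p.1 * p.2 * p.1⁻¹ * p.2⁻¹ = a * b * a⁻¹ * b⁻¹} :=
      ⟨⟨(a, b), rfl⟩⟩
    exact Nat.card_pos.ne' (Nat.cast_eq_zero.mp h)
  · intro hs
    by_contra hne
    haveI : IsEmpty {p : G × G // p.1 * p.2 * p.1⁻¹ * p.2⁻¹ = g} :=
      ⟨fun p => hne ⟨p.1.1, p.1.2, p.2.symm⟩⟩
    rw [Nat.card_of_isEmpty, Nat.cast_zero, eq_comm, mul_eq_zero] at h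
    exact hs (h.resolve_left (CfsgLib.Char.natCard_ne_zero G))

end Cfsg.Agent.S0167
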