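import Cfsg.Statements.S0168
import Cfsg.Agent.Lib.CharBasic

set_option autoImplicit false
open Cfsg

namespace Cfsg.Agent.S0168

/-- The Burnside–Brauer Theorem. Let χ be the character of a faithful complex representation of a finite group, taking m distinct values. Then every irreducible character has nonzero inner product with χ ^ i for some i < m. -/
theorem result {G : Type*} [Group G] [Fintype G] {V : Type*} [AddCommGroup V] [Module ℂ V] [FiniteDimensional ℂ V] (ρ : Representation ℂ G V) (hfaithful : Function.Injective ρ) (ψ : G → ℂ) (hψ : Cfsg.IsIrrCharacter G ψ) : ∃ i : ℕ, i < Nat.card (Set.range ρ.character) ∧ Cfsg.classInner (fun g => ρ.character g ^ i) ψ ≠ 0 := by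
  classical
  by_contra hcon
  push Not at hcon
  set vals := Finset.univ.image ρ.character with hvals
  have hcard : vals.card = Nat.card (Set.range ρ.character) := by
    rw [Nat.card_eq_fintype_card, ← Set.toFinset_card]
    congr 1
    ext a
    simp [hvals]
  set a₀ := ρ.character 1 with ha₀
  let P : Polynomial ℂ := ∏ a ∈ vals.erase a₀, (Polynomial.X - Polynomial.C a)
  have hP0 : P.eval a₀ ≠ 0 := by
    simp only [P, Polynomial.eval_prod, Polynomial.eval_sub, Polynomial.eval_X, Polynomial.eval_C]
    exact Finset.prod_ne_zero_iff.mpr fun a ha => sub_ne_zero.mpr (Finset.ne_of_mem_erase ha).symm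
  have hPa : ∀ g, ρ.character g ≠ a₀ → P.eval (ρ.character g) = 0 := fun g hg => by
    simp only [P, Polynomial.eval_prod, Polynomial.eval_sub, Polynomial.eval_X, Polynomial.eval_C]
    exact Finset.prod_eq_zero
      (Finset.mem_erase.mpr ⟨hg, Finset.mem_image_of_mem _ (Finset.mem_univ g)⟩) (sub_self _)
  have hdeg : P.natDegree < Nat.card (Set.range ρ.character) := by
    rw [← hcard, Polynomial.natDegree_prod_of_monic _ _ fun a _ => Polynomial.monic_X_sub_C a]
    simp only [Polynomial.natDegree_X_sub_C, Finset.sum_const, smul_eq_mul, mul_one]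
    exact Finset.card_erase_lt_of_mem (Finset.mem_image_of_mem _ (Finset.mem_univ 1))
  have hzero : Cfsg.classInner (fun g => P.eval (ρ.character g)) ψ = 0 := by
    have e : (fun g => P.eval (ρ.character g)) =
        ∑ i ∈ Finset.range (P.natDegree + 1), P.coeff i • fun g => ρ.character g ^ i := by
      funext g
      rw [Polynomial.eval_eq_sum_range, Finset.sum_apply]
      rfl
    rw [e, CfsgLib.Char.inner_sum_left]
    refine Finset.sum_eq_zero fun i hi => ?_
    rw [CfsgLib.Char.inner_smul_left, hcon i (by have := Finset.mem_range.mp hi; omega), mul_zero]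
  rw [Cfsg.classInner, Finset.sum_eq_single (1 : G)] at hzero
  · simp only [← ha₀, mul_eq_zero, inv_eq_zero, map_eq_zero] at hzero
    rcases hzero with h | h | h
    · exact CfsgLib.Char.natCard_ne_zero G h
    · exact hP0 h
    · exact CfsgLib.Char.irr_apply_one_ne_zero hψ h
  · intro g _ hg
    rw [hPa g fun e => hg (hfaithful ?_), zero_mul]
    rw [map_one]
    exact (CfsgLib.Char.rep_char_eq_finrank_iff ρ g).mp (e.trans ρ.char_one)
  · exact fun h => absurd (Finset.mem_univ _) h

end Cfsg.Agent.S0168
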