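import Cfsg.Statements.S0169
import Cfsg.Agent.Lib.CharDegree
import Cfsg.Agent.Lib.CharLinear

set_option autoImplicit false
open Cfsg

namespace Cfsg.Agent.S0169

/-- Itô's Theorem on character degrees: the degree of an irreducible complex representation of a finite group divides the index of any abelian normal subgroup. -/
theorem result {G : Type*} [Group G] [Finite G] {V : Type*} [AddCommGroup V] [Module ℂ V] [FiniteDimensional ℂ V] (ρ : Representation ℂ G V) [ρ.IsIrreducible] (H : Subgroup G) [H.Normal] (hH : ∀ a ∈ H, ∀ b ∈ H, a * b = b * a) : Module.finrank ℂ V ∣ H.index := by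
  haveI := Fintype.ofFinite G
  haveI : Fintype H := Fintype.ofFinite _
  have hχ : IsIrrCharacter G ρ.character := CfsgLib.Char.isIrrCharacter_rep ρ
  obtain ⟨θ, hθ, hcon⟩ := CfsgLib.Char.exists_irr_under (H := H) hχ
  obtain ⟨k, hk, hdvd⟩ := CfsgLib.Char.degree_ratio hχ hθ hcon
  rw [CfsgLib.Char.irr_degree_one_of_comm
    (fun a b => Subtype.ext (hH a a.2 b b.2)) hθ, mul_one, Representation.char_one] at hk
  have : Module.finrank ℂ V = k := by exact_mod_cast hk
  rw [this]
  exact hdvd

end Cfsg.Agent.S0169
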