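import Cfsg.Statements.S0170
import Cfsg.Agent.Lib.CharCohUnion
import Cfsg.Agent.S0150

set_option autoImplicit false
open Cfsg

namespace Cfsg.Agent.S0170

/-- Exceptional characters. Let S be a subset of a finite group contained in its normalizer N and meeting its conjugates by elements outside N only in the identity. Given n ≥ 2 distinct irreducible characters of N of equal degree that vanish on N away from S, there exist a sign ε and n distinct irreducible characters θ_i of G such that inducing χ_i − χ_j to G gives ε (θ_i − θ_j) for all i, j. -/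
theorem result {G : Type*} [Group G] [Fintype G] (S : Set G) (hSN : S ⊆ Subgroup.normalizer S) (hTI : ∀ g : G, g ∉ Subgroup.normalizer S → ∀ s ∈ S, g * s * g⁻¹ ∈ S → s = 1) (n : ℕ) (hn : 2 ≤ n) (χ : Fin n → (Subgroup.normalizer S → ℂ)) (hirr : ∀ i, Cfsg.IsIrrCharacter (Subgroup.normalizer S) (χ i)) (hinj : Function.Injective χ) (hvan : ∀ i, ∀ x : Subgroup.normalizer S, (x : G) ∉ S → χ i x = 0) (hdeg : ∀ i j, χ i 1 = χ j 1) : ∃ ε : ℂ, (ε = 1 ∨ ε = -1) ∧ ∃ θ : Fin n → (G → ℂ), (∀ i, Cfsg.IsIrrCharacter G (θ i)) ∧ Function.Injective θ ∧ ∀ i j, Cfsg.indFun (Subgroup.normalizer S) (χ i) - Cfsg.indFun (Subgroup.normalizer S) (χ j) = ε • (θ i - θ j) := by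
  classical
  haveI : Fintype (Subgroup.normalizer S) := Fintype.ofFinite _
  let i₀ : Fin n := ⟨0, by omega⟩
  have hcl : ∀ i, IsClassFunction (Subgroup.normalizer S) (χ i - χ i₀) := fun i g x => by
    simp [CfsgLib.Char.isCharacter_classFunction (hirr i).isCharacter' g x,
      CfsgLib.Char.isCharacter_classFunction (hirr i₀).isCharacter' g x]
  have hv : ∀ i, ∀ x : Subgroup.normalizer S, (x : G) ∉ S → (χ i - χ i₀) x = 0 := fun i x hx => by
    simp [hvan i x hx, hvan i₀ x hx]
  have h1 : ∀ i, (χ i - χ i₀) 1 = 0 := fun i => by simp [hdeg i i₀]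
  have hinner : ∀ i j, classInner (indFun (Subgroup.normalizer S) (χ i - χ i₀)) (indFun (Subgroup.normalizer S) (χ j - χ i₀)) =
      classInner (χ i - χ i₀) (χ j - χ i₀) := fun i j =>
    Cfsg.Agent.S0150.result S hTI hSN _ _ (hcl i) (hcl j) (hv i) (hv j) (h1 i)
  obtain ⟨ε, μ, hε, hμ, hμ0, hinj, hτ⟩ := CfsgLib.Char.exists_common_constituent
    (fun i => indFun (Subgroup.normalizer S) (χ i - χ i₀)) i₀
    (by simp only [sub_self]; exact CfsgLib.Char.indFun_zero)
    (fun i => CfsgLib.Char.isGenChar_indFun (CfsgLib.Char.isGenChar_sub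
      (CfsgLib.Char.isGenChar_of_isCharacter (hirr i).isCharacter')
      (CfsgLib.Char.isGenChar_of_isCharacter (hirr i₀).isCharacter')))
    (fun i => by rw [CfsgLib.Char.indFun_one_apply, h1, mul_zero])
    (fun i hi => by
      have hne : χ i ≠ χ i₀ := fun e => hi (hinj e)
      rw [hinner, CfsgLib.Char.inner_sub_left, CfsgLib.Char.inner_sub_right,
        CfsgLib.Char.inner_sub_right, CfsgLib.Char.irr_inner_self (hirr i),
        CfsgLib.Char.irr_inner_self (hirr i₀), CfsgLib.Char.irr_inner_ne (hirr i) (hirr i₀) hne,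
        CfsgLib.Char.irr_inner_ne (hirr i₀) (hirr i) hne.symm]
      norm_num)
    (fun i j hi hj hij => by
      rw [hinner, CfsgLib.Char.inner_sub_left, CfsgLib.Char.inner_sub_right,
        CfsgLib.Char.inner_sub_right, CfsgLib.Char.irr_inner_self (hirr i₀),
        CfsgLib.Char.irr_inner_ne (hirr i) (hirr j) (fun e => hij (hinj e)),
        CfsgLib.Char.irr_inner_ne (hirr i) (hirr i₀) (fun e => hi (hinj e)),
        CfsgLib.Char.irr_inner_ne (hirr i₀) (hirr j) (fun e => hj (hinj e).symm)]
      norm_num)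
    (fun _ => 1) (fun _ => 1) CfsgLib.Char.isIrrCharacter_one CfsgLib.Char.isIrrCharacter_one
  refine ⟨(ε : ℂ), by rcases hε with e | e <;> simp [e], μ, fun i => ?_, fun i j => hinj i j,
    fun i j => ?_⟩
  · rcases eq_or_ne i i₀ with e | e
    · rw [e]; exact hμ0
    · exact hμ i e
  · rw [← CfsgLib.Char.indFun_sub, show χ i - χ j = (χ i - χ i₀) - (χ j - χ i₀) by abel,
      CfsgLib.Char.indFun_sub, show indFun (Subgroup.normalizer S) (χ i - χ i₀) = _ from hτ i,
      show indFun (Subgroup.normalizer S) (χ j - χ i₀) = _ from hτ j, ← smul_sub, sub_sub_sub_cancel_right,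
      Int.cast_smul_eq_zsmul ℂ]

end Cfsg.Agent.S0170
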