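import Cfsg.Statements.S0178
import Cfsg.Agent.Lib.CharLinear

set_option autoImplicit false
open Cfsg

namespace Cfsg.Agent.S0178

/-- The degree of an irreducible complex representation of a finite group is at most the index of any abelian subgroup. -/
theorem result {G : Type*} [Group G] [Finite G] {V : Type*} [AddCommGroup V] [Module ℂ V] [FiniteDimensional ℂ V] (ρ : Representation ℂ G V) [ρ.IsIrreducible] (A : Subgroup G) (hA : ∀ a ∈ A, ∀ b ∈ A, a * b = b * a) : Module.finrank ℂ V ≤ A.index := by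
  classical
  haveI := Fintype.ofFinite G
  haveI : Fintype A := Fintype.ofFinite _
  have hχ := CfsgLib.Char.isIrrCharacter_rep ρ
  obtain ⟨θ, hθ, hcon⟩ := CfsgLib.Char.exists_constituent
    (CfsgLib.Char.isCharacter_restrict hχ.isCharacter' A)
    (fun e => CfsgLib.Char.irr_apply_one_ne_zero hχ (congrFun e 1))
  rw [← CfsgLib.Char.frobenius_right θ _
    (CfsgLib.Char.isCharacter_classFunction hχ.isCharacter')] at hcon
  have hI := CfsgLib.Char.isCharacter_indFun (G := G) hθ.isCharacter'
  have hexp := congrFun (CfsgLib.Char.classFunction_eq_sum (Cfsg.indFun A θ)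
    (CfsgLib.Char.indFun_classFunction θ)) 1
  rw [CfsgLib.Char.indFun_one_apply, CfsgLib.Char.irr_degree_one_of_comm
    (fun a b => Subtype.ext (hA a a.2 b b.2)) hθ, mul_one, Finset.sum_apply] at hexp
  have hn : ∀ χ : Cfsg.IrrCharacter G, ∃ n m : ℕ,
      Cfsg.classInner (Cfsg.indFun A θ) χ = n ∧ (χ : G → ℂ) 1 = m := fun χ => by
    obtain ⟨n, hn⟩ := CfsgLib.Char.inner_character_nat hI χ.2.isCharacter'
    obtain ⟨m, hm⟩ := CfsgLib.Char.exists_degree χ.2.isCharacter'
    exact ⟨n, m, hn, hm⟩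
  choose n m hn hm using hn
  simp only [Pi.smul_apply, smul_eq_mul, hn, hm, ← Nat.cast_mul, ← Nat.cast_sum,
    Nat.cast_inj] at hexp
  let χ₀ : Cfsg.IrrCharacter G := ⟨ρ.character, hχ⟩
  have h1 : Module.finrank ℂ V = m χ₀ := by
    have := hm χ₀
    simp only [χ₀] at this
    rw [ρ.char_one] at this
    exact_mod_cast this
  have h2 : 0 < n χ₀ := Nat.pos_of_ne_zero fun e => hcon (by
    rw [CfsgLib.Char.inner_comm_of_isCharacter hχ.isCharacter' hI]
    have := hn χ₀
    rw [e, Nat.cast_zero] at this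
    exact this)
  rw [hexp, h1]
  exact le_trans (Nat.le_mul_of_pos_left _ h2)
    (Finset.single_le_sum (f := fun χ => n χ * m χ) (fun _ _ => Nat.zero_le _) (Finset.mem_univ χ₀))

end Cfsg.Agent.S0178
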