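import Cfsg.Statements.S0181
import Cfsg.Agent.Lib.CharLinear
import Cfsg.Agent.Lib.CharPerm

set_option autoImplicit false
open Cfsg
open scoped ComplexConjugate

namespace Cfsg.Agent.S0181

/-- Let H be a normal subgroup of a finite group G and ρ an irreducible complex representation whose kernel does not contain H. If g commutes with no non-identity element of H, then the character of ρ vanishes at g. -/
theorem result {G : Type*} [Group G] [Finite G] {V : Type*} [AddCommGroup V] [Module ℂ V] [FiniteDimensional ℂ V] (ρ : Representation ℂ G V) [ρ.IsIrreducible] (H : Subgroup G) [H.Normal] (hker : ∃ h ∈ H, ρ h ≠ LinearMap.id) (g : G) (hg : ∀ h ∈ H, h * g = g * h → h = 1) : ρ.character g = 0 := by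
  classical
  haveI := Fintype.ofFinite G
  haveI : Fintype (G ⧸ H) := Fintype.ofFinite _
  let f := QuotientGroup.mk' H
  have hf : Function.Surjective f := QuotientGroup.mk'_surjective H
  have hkerf : f.ker = H := QuotientGroup.ker_mk' H
  let χ₀ : Cfsg.IrrCharacter G := ⟨ρ.character, CfsgLib.Char.isIrrCharacter_rep ρ⟩
  by_contra hne
  have hall := CfsgLib.Char.column_orth_conj (IsConj.refl g)
  have hquot := CfsgLib.Char.column_orth_conj (IsConj.refl (f g))
  have hre : ∀ z : ℂ, z * conj z = ((‖z‖ ^ 2 : ℝ) : ℂ) := fun z => by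
    rw [Complex.mul_conj, Complex.normSq_eq_norm_sq]
  simp only [hre, ← Complex.ofReal_sum, ← Complex.ofReal_natCast, Complex.ofReal_inj] at hall hquot
  rw [← Equiv.sum_comp (CfsgLib.Char.inflateEquiv f hf).symm] at hquot
  have hval : ∀ χ : {χ : Cfsg.IrrCharacter G // ∀ k ∈ f.ker, (χ : G → ℂ) k = (χ : G → ℂ) 1},
      (((CfsgLib.Char.inflateEquiv f hf).symm χ : Cfsg.IrrCharacter (G ⧸ H)) : G ⧸ H → ℂ) (f g) =
        (χ.1 : G → ℂ) g := fun χ => by
    have h := (CfsgLib.Char.inflateEquiv f hf).apply_symm_apply χ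
    exact congrFun (congrArg Subtype.val (congrArg Subtype.val h)) g
  simp only [hval] at hquot
  have hle : Nat.card (Subgroup.centralizer ({g} : Set G)) ≤
      Nat.card (Subgroup.centralizer ({f g} : Set (G ⧸ H))) := by
    refine Nat.card_le_card_of_injective
      (fun c => ⟨f c.1, Subgroup.mem_centralizer_singleton_iff.mpr (by
        rw [← map_mul, ← map_mul, Subgroup.mem_centralizer_singleton_iff.mp c.2])⟩) ?_
    intro a b hab
    have h1 : f a.1 = f b.1 := congrArg Subtype.val hab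
    have h2 : a.1⁻¹ * b.1 ∈ H := QuotientGroup.eq.mp h1
    have h3 : a.1⁻¹ * b.1 = 1 := hg _ h2 (Subgroup.mem_centralizer_singleton_iff.mp
      ((Subgroup.centralizer ({g} : Set G)).mul_mem
        ((Subgroup.centralizer ({g} : Set G)).inv_mem a.2) b.2))
    exact Subtype.ext (inv_mul_eq_one.mp h3)
  have hmem : χ₀ ∉ (Finset.univ.filter fun χ : Cfsg.IrrCharacter G =>
      ∀ k ∈ f.ker, (χ : G → ℂ) k = (χ : G → ℂ) 1) := fun h => by
    obtain ⟨x, hx, hρx⟩ := hker
    refine hρx ((CfsgLib.Char.rep_char_eq_finrank_iff ρ x).mp ?_)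
    rw [← ρ.char_one]
    exact (Finset.mem_filter.mp h).2 x (hkerf.symm ▸ hx)
  have hsub : ∑ χ ∈ (Finset.univ.filter fun χ : Cfsg.IrrCharacter G =>
      ∀ k ∈ f.ker, (χ : G → ℂ) k = (χ : G → ℂ) 1), ‖(χ : G → ℂ) g‖ ^ 2 + ‖ρ.character g‖ ^ 2 ≤
      ∑ χ : Cfsg.IrrCharacter G, ‖(χ : G → ℂ) g‖ ^ 2 := by
    rw [add_comm, ← Finset.sum_insert (f := fun χ : Cfsg.IrrCharacter G => ‖(χ : G → ℂ) g‖ ^ 2) hmem]
    exact Finset.sum_le_sum_of_subset_of_nonneg (Finset.subset_univ _) fun _ _ _ => by positivity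
  rw [Finset.sum_subtype (Finset.univ.filter fun χ : Cfsg.IrrCharacter G =>
      ∀ k ∈ f.ker, (χ : G → ℂ) k = (χ : G → ℂ) 1)
      (p := fun χ : Cfsg.IrrCharacter G => ∀ k ∈ f.ker, (χ : G → ℂ) k = (χ : G → ℂ) 1) (by simp)]
    at hsub
  have hpos : 0 < ‖ρ.character g‖ ^ 2 := by
    have := norm_pos_iff.mpr hne
    positivity
  have hle' : (Nat.card (Subgroup.centralizer ({g} : Set G)) : ℝ) ≤
      (Nat.card (Subgroup.centralizer ({f g} : Set (G ⧸ H))) : ℝ) := by exact_mod_cast hle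
  linarith

end Cfsg.Agent.S0181
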