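import Cfsg.Statements.S0186
import Cfsg.Agent.Lib.CharLinear
import Cfsg.Agent.Lib.CharBurnside

set_option autoImplicit false
open Cfsg

namespace Cfsg.Agent.S0186

/-- Let G be a finite simple group of order n and p a prime dividing n. If G has more than n / p^2 conjugacy classes, then every Sylow p-subgroup of G is abelian. -/
theorem result {G : Type*} [Group G] [Finite G] [IsSimpleGroup G] (p : ℕ) [Fact p.Prime] (hp : p ∣ Nat.card G) (hmany : Nat.card G < p ^ 2 * Nat.card (ConjClasses G)) (P : Sylow p G) (a b : G) (ha : a ∈ P) (hb : b ∈ P) : a * b = b * a := by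
  classical
  by_contra hne
  haveI := Fintype.ofFinite G
  haveI : Fintype (P : Subgroup G) := Fintype.ofFinite _
  have hna : ¬ ∀ a b : G, a * b = b * a := fun h => hne (h a b)
  let one : Cfsg.IrrCharacter G := ⟨fun _ => 1, CfsgLib.Char.isIrrCharacter_one⟩
  have hdeg : ∀ χ : Cfsg.IrrCharacter G, χ ≠ one → ∃ d : ℕ, p ≤ d ∧ (χ : G → ℂ) 1 = d := by
    intro χ hχ
    obtain ⟨d, hd⟩ := CfsgLib.Char.exists_degree χ.2.isCharacter'
    refine ⟨d, ?_, hd⟩
    by_contra hlt
    push Not at hlt
    obtain ⟨n, ρ, hρ, he⟩ := χ.2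
    haveI := hρ
    have hres := CfsgLib.Char.isCharacter_restrict χ.2.isCharacter' (P : Subgroup G)
    have hexp := CfsgLib.Char.classFunction_eq_sum _
      (CfsgLib.Char.isCharacter_classFunction hres)
    have hlin : ∀ θ : Cfsg.IrrCharacter (P : Subgroup G),
        Cfsg.classInner (fun x : (P : Subgroup G) => (χ : G → ℂ) x) θ ≠ 0 →
          (θ : ↥(P : Subgroup G) → ℂ) 1 = 1 := by
      intro θ hθ
      obtain ⟨m, σ, hσ, hse⟩ := θ.2
      haveI := hσ
      obtain ⟨c, hc⟩ := (IsPGroup.iff_card.mp P.2)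
      have hdvd := CfsgLib.Char.degree_dvd_card σ
      rw [hc] at hdvd
      obtain ⟨i, -, hi⟩ := (Nat.dvd_prime_pow (Fact.out : p.Prime)).mp hdvd
      have hle : Module.finrank ℂ (Fin m → ℂ) ≤ d := by
        have h1 := congrFun hexp 1
        rw [Finset.sum_apply] at h1
        have hn : ∀ φ : Cfsg.IrrCharacter (P : Subgroup G), ∃ k l : ℕ,
            Cfsg.classInner (fun x : (P : Subgroup G) => (χ : G → ℂ) x) φ = k ∧
              (φ : ↥(P : Subgroup G) → ℂ) 1 = l := fun φ => by
          obtain ⟨k, hk⟩ := CfsgLib.Char.inner_character_nat hres φ.2.isCharacter'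
          obtain ⟨l, hl⟩ := CfsgLib.Char.exists_degree φ.2.isCharacter'
          exact ⟨k, l, hk, hl⟩
        choose k l hk hl using hn
        simp only [Pi.smul_apply, smul_eq_mul, hk, hl, OneMemClass.coe_one, hd, ← Nat.cast_mul,
          ← Nat.cast_sum, Nat.cast_inj] at h1
        have h2 : Module.finrank ℂ (Fin m → ℂ) = l θ := by
          have h3 := hl θ
          rw [← hse, σ.char_one] at h3
          exact_mod_cast h3
        have h4 : 0 < k θ := Nat.pos_of_ne_zero fun e => hθ (by rw [hk θ, e, Nat.cast_zero])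
        rw [h1, h2]
        exact le_trans (Nat.le_mul_of_pos_left _ h4)
          (Finset.single_le_sum (f := fun φ => k φ * l φ) (fun _ _ => Nat.zero_le _)
            (Finset.mem_univ θ))
      rcases Nat.eq_zero_or_pos i with rfl | hipos
      · rw [← hse, σ.char_one, hi, pow_zero, Nat.cast_one]
      · exfalso
        have : p ≤ p ^ i := Nat.le_self_pow hipos.ne' p
        omega
    set c : (P : Subgroup G) := ⟨a, ha⟩ * ⟨b, hb⟩ * ⟨a, ha⟩⁻¹ * ⟨b, hb⟩⁻¹ with hcdef
    have hc1 : (c : G) ≠ 1 := fun e => hne (by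
      simp only [hcdef, Subgroup.coe_mul, Subgroup.coe_inv] at e
      calc a * b = (a * b * a⁻¹ * b⁻¹) * (b * a) := by group
        _ = b * a := by rw [e, one_mul])
    have hχc : (χ : G → ℂ) c = (χ : G → ℂ) 1 := by
      have e1 := congrFun hexp c
      have e2 := congrFun hexp 1
      simp only [OneMemClass.coe_one] at e2
      rw [e1, e2, Finset.sum_apply, Finset.sum_apply]
      refine Finset.sum_congr rfl fun θ _ => ?_
      by_cases hθ : Cfsg.classInner (fun x : (P : Subgroup G) => (χ : G → ℂ) x) θ = 0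
      · simp [hθ]
      obtain ⟨f, hf⟩ := CfsgLib.Char.exists_hom_of_degree_one θ.2.isCharacter' (hlin θ hθ)
      simp only [Pi.smul_apply, hf, hcdef, smul_eq_mul, map_mul, map_inv, map_one]
      congr 2
      rw [mul_right_comm (f ⟨a, ha⟩), mul_inv_cancel, one_mul, mul_inv_cancel]
    rw [← he] at hχc
    have hid := (CfsgLib.Char.char_eq_one_iff ρ (c : G)).mp hχc
    exact CfsgLib.Char.simple_no_scalar hna ρ
      (fun e => hχ (Subtype.ext (he.symm.trans e))) hc1 1 (by rw [hid, one_smul]; rfl)
  choose! d hdp hd using hdeg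
  have hsum := CfsgLib.Char.sum_degree_sq (G := G)
  rw [← Finset.add_sum_erase _ _ (Finset.mem_univ one)] at hsum
  have hN : Nat.card G = 1 + ∑ χ ∈ Finset.univ.erase one, d χ ^ 2 := by
    rw [Finset.sum_congr rfl (g := fun χ => ((d χ ^ 2 : ℕ) : ℂ))
      (fun χ hχ => by rw [hd χ (Finset.ne_of_mem_erase hχ), Nat.cast_pow])] at hsum
    simp only [one, one_pow] at hsum
    exact_mod_cast hsum.symm
  have hk : 1 + (Nat.card (ConjClasses G) - 1) * p ^ 2 ≤ Nat.card G := by
    rw [hN]
    refine Nat.add_le_add_left ?_ 1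
    rw [← CfsgLib.Char.card_irrCharacter, Nat.card_eq_fintype_card,
      ← Finset.card_univ, ← Finset.card_erase_of_mem (Finset.mem_univ one),
      ← smul_eq_mul (Finset.card _), ← Finset.sum_const]
    exact Finset.sum_le_sum fun χ hχ => Nat.pow_le_pow_left (hdp χ (Finset.ne_of_mem_erase hχ)) 2
  obtain ⟨m, hm⟩ : p ^ 2 ∣ Nat.card G := by
    obtain ⟨e, he⟩ := IsPGroup.iff_card.mp P.2
    have h2 : 2 ≤ e := by
      by_contra h
      push Not at h
      have hcyc : IsCyclic (P : Subgroup G) := by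
        interval_cases e
        · rw [pow_zero] at he
          haveI : Subsingleton (P : Subgroup G) := (Nat.card_eq_one_iff_unique.mp he).1
          infer_instance
        · rw [pow_one] at he
          exact isCyclic_of_prime_card he
      haveI := hcyc
      letI := IsCyclic.commGroup (α := (P : Subgroup G))
      exact hne (congrArg Subtype.val (mul_comm (⟨a, ha⟩ : (P : Subgroup G)) ⟨b, hb⟩))
    exact (pow_dvd_pow p h2).trans (he ▸ (P : Subgroup G).card_subgroup_dvd_card)
  rw [hm] at hk hmany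
  have h1 : m < Nat.card (ConjClasses G) := Nat.lt_of_mul_lt_mul_left hmany
  have h2 : m * p ^ 2 ≤ (Nat.card (ConjClasses G) - 1) * p ^ 2 :=
    Nat.mul_le_mul_right _ (by omega)
  rw [mul_comm (p ^ 2) m] at hk
  omega

end Cfsg.Agent.S0186
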