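import Cfsg.Statements.S0188
import Cfsg.Agent.Lib.CharLinear

set_option autoImplicit false
open Cfsg

namespace Cfsg.Agent.S0188

/-- The irreducible complex characters of G × H are precisely the functions (g, h) ↦ φ g * ψ h with φ, ψ irreducible characters of G and H. -/
theorem result {G : Type*} [Group G] [Finite G] {H : Type*} [Group H] [Finite H] (θ : G × H → ℂ) : Cfsg.IsIrrCharacter (G × H) θ ↔ ∃ (φ : G → ℂ) (ψ : H → ℂ), Cfsg.IsIrrCharacter G φ ∧ Cfsg.IsIrrCharacter H ψ ∧ θ = fun x => φ x.1 * ψ x.2 := by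
  classical
  haveI := Fintype.ofFinite G
  haveI := Fintype.ofFinite H
  have hprod : ∀ (φ : G → ℂ) (ψ : H → ℂ), Cfsg.IsIrrCharacter G φ → Cfsg.IsIrrCharacter H ψ →
      Cfsg.IsIrrCharacter (G × H) fun x => φ x.1 * ψ x.2 := by
    intro φ ψ hφ hψ
    refine CfsgLib.Char.isIrr_of_inner_self_one
      (CfsgLib.Char.isCharacter_mul (CfsgLib.Char.isCharacter_comp hφ.isCharacter' (MonoidHom.fst G H))
        (CfsgLib.Char.isCharacter_comp hψ.isCharacter' (MonoidHom.snd G H))) ?_
    calc Cfsg.classInner (fun x : G × H => φ x.1 * ψ x.2) (fun x => φ x.1 * ψ x.2)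
        = Cfsg.classInner φ φ * Cfsg.classInner ψ ψ := by
          simp only [Cfsg.classInner, Nat.card_prod, Nat.cast_mul, mul_inv, Fintype.sum_prod_type,
            Finset.mul_sum, Finset.sum_mul, map_mul]
          rw [Finset.sum_comm]
          refine Finset.sum_congr rfl fun h _ => Finset.sum_congr rfl fun g _ => ?_
          ring
      _ = 1 := by rw [CfsgLib.Char.irr_inner_self hφ, CfsgLib.Char.irr_inner_self hψ, one_mul]
  constructor
  · intro hθ
    have hcl := CfsgLib.Char.isCharacter_classFunction hθ.isCharacter'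
    by_contra hcon
    push Not at hcon
    have horth : ∀ φ ψ, Cfsg.IsIrrCharacter G φ → Cfsg.IsIrrCharacter H ψ →
        Cfsg.classInner θ (fun x => φ x.1 * ψ x.2) = 0 := fun φ ψ hφ hψ =>
      CfsgLib.Char.irr_inner_ne hθ (hprod φ ψ hφ hψ) (hcon φ ψ hφ hψ)
    have h0 : ∀ φ, Cfsg.IsIrrCharacter G φ →
        (fun h => Cfsg.classInner (fun g => θ (g, h)) φ) = 0 := fun φ hφ => by
      refine CfsgLib.Char.classFunction_eq_zero (fun h y => ?_) fun ψ hψ => ?_
      · refine congrArg (fun F => Cfsg.classInner F φ) (funext fun g => ?_)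
        simpa using hcl (g, h) (1, y)
      · rw [← horth φ ψ hφ hψ]
        simp only [Cfsg.classInner, Nat.card_prod, Nat.cast_mul, mul_inv, Fintype.sum_prod_type,
          Finset.mul_sum, Finset.sum_mul, map_mul]
        rw [Finset.sum_comm]
        refine Finset.sum_congr rfl fun g _ => Finset.sum_congr rfl fun h _ => ?_
        ring
    have hθ0 : θ = 0 := by
      funext x
      have h := CfsgLib.Char.classFunction_eq_zero (f := fun g => θ (g, x.2))
        (fun g y => by simpa using hcl (g, x.2) (y, 1))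
        (fun φ hφ => congrFun (h0 φ hφ) x.2)
      simpa using congrFun h x.1
    exact CfsgLib.Char.irr_apply_one_ne_zero hθ (congrFun hθ0 1)
  · rintro ⟨φ, ψ, hφ, hψ, rfl⟩
    exact hprod φ ψ hφ hψ

end Cfsg.Agent.S0188
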