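import Cfsg.Statements.S0189
import Cfsg.Agent.Lib.CharBasic

set_option autoImplicit false
open Cfsg

namespace Cfsg.Agent.S0189

/-- If a complex character of a finite group vanishes at every non-identity element of a Sylow p-subgroup P, then |P| divides its degree. -/
theorem result {G : Type*} [Group G] [Finite G] (p : ℕ) [Fact p.Prime] (P : Sylow p G) (χ : G → ℂ) (hχ : Cfsg.IsCharacter G χ) (hvan : ∀ g : G, g ∈ P → g ≠ 1 → χ g = 0) : ∃ k : ℕ, χ 1 = (Nat.card P : ℂ) * k := by
  classical
  haveI := Fintype.ofFinite G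
  haveI : Fintype (P : Subgroup G) := Fintype.ofFinite _
  obtain ⟨k, hk⟩ := CfsgLib.Char.inner_character_nat
    (CfsgLib.Char.isCharacter_restrict hχ (P : Subgroup G)) CfsgLib.Char.isCharacter_one
  refine ⟨k, ?_⟩
  rw [← hk, Cfsg.classInner, Finset.sum_eq_single (1 : (P : Subgroup G))]
  · simp only [OneMemClass.coe_one, map_one, mul_one]
    have hne : (Nat.card P : ℂ) ≠ 0 := CfsgLib.Char.natCard_ne_zero (P : Subgroup G)
    exact (mul_inv_cancel_left₀ hne _).symm
  · intro b _ hb
    rw [hvan b b.2 (fun e => hb (Subtype.ext e)), zero_mul]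
  · exact fun h => absurd (Finset.mem_univ _) h

end Cfsg.Agent.S0189
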