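import Cfsg.Statements.S0191
import Cfsg.Agent.Lib.CharGalois

set_option autoImplicit false
open Cfsg

namespace Cfsg.Agent.S0191

/-- An irreducible complex representation of a finite group of degree greater than 1 has a character that vanishes somewhere. -/
theorem result {G : Type*} [Group G] [Finite G] {V : Type*} [AddCommGroup V] [Module ℂ V] [FiniteDimensional ℂ V] (ρ : Representation ℂ G V) [ρ.IsIrreducible] (hdeg : 1 < Module.finrank ℂ V) : ∃ g : G, ρ.character g = 0 := by
  exact CfsgLib.Char.exists_zero_of_nonlinear (CfsgLib.Char.isIrrCharacter_rep ρ) (by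
    rw [ρ.char_one]
    exact_mod_cast hdeg.ne')

end Cfsg.Agent.S0191
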