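import Cfsg.Statements.S0192
import Cfsg.Agent.Lib.CharBasic

set_option autoImplicit false
open Cfsg

namespace Cfsg.Agent.S0192

/-- Brauer's generation criterion. Let G be a finite simple group, H₁ and H₂ subgroups, and χ a non-principal irreducible character. If the multiplicity of the principal character in χ restricted to H₁ ⊓ H₂ is less than the sum of the corresponding multiplicities for H₁ and H₂, then H₁ and H₂ do not generate G. -/
theorem result {G : Type*} [Group G] [Fintype G] [IsSimpleGroup G] (H₁ H₂ : Subgroup G) [Fintype H₁] [Fintype H₂] [Fintype ↥(H₁ ⊓ H₂)] (χ : G → ℂ) (hχ : Cfsg.IsIrrCharacter G χ) (hχ1 : χ ≠ fun _ => 1) (hlt : (Cfsg.classInner (fun x : ↥(H₁ ⊓ H₂) => χ x) (fun _ => 1)).re < (Cfsg.classInner (fun x : H₁ => χ x) (fun _ => 1)).re + (Cfsg.classInner (fun x : H₂ => χ x) (fun _ => 1)).re) : H₁ ⊔ H₂ ≠ ⊤ := by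
  classical
  obtain ⟨n, ρ, hρ, rfl⟩ := hχ
  haveI := hρ
  intro htop
  have hkey : ∀ (K : Subgroup G) [Fintype K],
      (Cfsg.classInner (fun x : K => ρ.character x) (fun _ => 1)).re =
        Module.finrank ℂ (Representation.invariants (ρ.comp K.subtype : Representation ℂ K _)) := by
    intro K _
    letI := CfsgLib.Char.invertibleNatCard K
    have h := Representation.card_inv_mul_sum_char_eq_finrank (ρ.comp K.subtype : Representation ℂ K _)
    simp only [Cfsg.classInner, map_one, mul_one]
    rw [show (fun x : K => ρ.character x) = Representation.character (ρ.comp K.subtype : Representation ℂ K _) from rfl, h,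
      Complex.natCast_re]
  rw [hkey, hkey, hkey] at hlt
  set A := Representation.invariants (ρ.comp H₁.subtype : Representation ℂ H₁ _)
  set B := Representation.invariants (ρ.comp H₂.subtype : Representation ℂ H₂ _)
  have hAB : A ⊓ B = ⊥ := by
    rcases CfsgLib.Char.subrep_eq_bot_or_eq_top ρ
      (Representation.invariants ρ) (fun g v hv => by rw [hv g]; exact hv) with h | h
    · rw [eq_bot_iff, ← h]
      intro v hv g
      let S : Subgroup G :=
        { carrier := {x | ρ x v = v}
          one_mem' := by simp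
          mul_mem' := fun {a b} (ha : ρ a v = v) (hb : ρ b v = v) =>
            show ρ (a * b) v = v by rw [map_mul, Module.End.mul_apply, hb, ha]
          inv_mem' := fun {a} (ha : ρ a v = v) =>
            show ρ a⁻¹ v = v by
              conv_lhs => rw [← ha]
              exact ρ.inv_self_apply a v }
      have hle : H₁ ⊔ H₂ ≤ S := sup_le (fun x hx => hv.1 ⟨x, hx⟩) (fun x hx => hv.2 ⟨x, hx⟩)
      exact hle (htop ▸ Subgroup.mem_top g)
    · exfalso
      have hid : ∀ g, ρ g = 1 := fun g => LinearMap.ext fun v =>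
        (h ▸ Submodule.mem_top : v ∈ Representation.invariants ρ) g
      have hd : ∀ g, ρ.character g = (Module.finrank ℂ (Fin n → ℂ) : ℂ) := fun g => by
        show LinearMap.trace ℂ _ (ρ g) = _
        rw [hid, LinearMap.trace_one]
      have h2 := CfsgLib.Char.irr_inner_self (CfsgLib.Char.isIrrCharacter_rep ρ)
      simp only [Cfsg.classInner, hd, Complex.conj_natCast, Finset.sum_const, nsmul_eq_mul,
        Finset.card_univ, ← Nat.card_eq_fintype_card, ← mul_assoc,
        inv_mul_cancel₀ (CfsgLib.Char.natCard_ne_zero G), one_mul] at h2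
      have h4 : Module.finrank ℂ (Fin n → ℂ) = 1 :=
        Nat.eq_one_of_mul_eq_one_left (by exact_mod_cast h2)
      exact hχ1 (funext fun g => by rw [hd g, h4, Nat.cast_one])
  have hle : A ⊔ B ≤ Representation.invariants (ρ.comp (H₁ ⊓ H₂).subtype : Representation ℂ ↥(H₁ ⊓ H₂) _) :=
    sup_le (fun v hv x => hv ⟨x.1, x.2.1⟩) (fun v hv x => hv ⟨x.1, x.2.2⟩)
  have hdim := Submodule.finrank_sup_add_finrank_inf_eq A B
  rw [hAB, finrank_bot, add_zero] at hdim
  have h1 : Module.finrank ℂ A + Module.finrank ℂ B ≤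
      Module.finrank ℂ (Representation.invariants (ρ.comp (H₁ ⊓ H₂).subtype : Representation ℂ ↥(H₁ ⊓ H₂) _)) :=
    hdim ▸ Submodule.finrank_mono hle
  have h2 : ((Module.finrank ℂ A + Module.finrank ℂ B : ℕ) : ℝ) ≤
      (Module.finrank ℂ (Representation.invariants (ρ.comp (H₁ ⊓ H₂).subtype : Representation ℂ ↥(H₁ ⊓ H₂) _)) : ℝ) := by
    exact_mod_cast h1
  push_cast at h2
  linarith

end Cfsg.Agent.S0192
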