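import Cfsg.Statements.S0196
import Mathlib.Algebra.BigOperators.Ring.Finset
import Mathlib.GroupTheory.GroupAction.Quotient
import Mathlib.SetTheory.Cardinal.Finite
import Cfsg.Agent.S0195

set_option autoImplicit false
open Cfsg

namespace Cfsg.Agent.S0196

/-- Let A be a subgroup of a finite group G that equals the centralizer of each of its non-identity elements, and let N be its normalizer. Then the index of A in N divides |A| − 1 (N/A permutes the non-identity elements of A in orbits of full length). -/
theorem result {G : Type*} [Group G] [Finite G] (A : Subgroup G) (hA : ∀ x ∈ A, x ≠ 1 → Subgroup.centralizer ({x} : Set G) = A) : (A.subgroupOf (Subgroup.normalizer (A : Set G))).index ∣ Nat.card A - 1 := by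
  classical
  haveI := Fintype.ofFinite G
  set N := Subgroup.normalizer (A : Set G) with hN
  let X := {a : A // a ≠ 1}
  let sm : N → X → X := fun n a =>
    ⟨⟨(n : G) * (a.1 : G) * (n : G)⁻¹, (Subgroup.mem_normalizer_iff.mp n.2 _).mp a.1.2⟩, fun e =>
      a.2 (Subtype.ext (by
        have e' : (n : G) * (a.1 : G) * (n : G)⁻¹ = 1 := congrArg Subtype.val e
        exact conj_eq_one_iff.mp e'))⟩
  letI act : MulAction N X :=
    { smul := sm
      one_smul := fun a => Subtype.ext (Subtype.ext (by
        show ((1 : N) : G) * (a.1 : G) * ((1 : N) : G)⁻¹ = a.1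
        simp))
      mul_smul := fun m n a => Subtype.ext (Subtype.ext (by
        show ((m * n : N) : G) * (a.1 : G) * ((m * n : N) : G)⁻¹ =
          (m : G) * ((n : G) * (a.1 : G) * (n : G)⁻¹) * (m : G)⁻¹
        simp [mul_assoc])) }
  have hstab : ∀ a : X, MulAction.stabilizer N a = A.subgroupOf N := by
    intro a
    ext n
    rw [MulAction.mem_stabilizer_iff, Subgroup.mem_subgroupOf]
    have ha : ((a.1 : G)) ≠ 1 := fun e => a.2 (Subtype.ext e)
    constructor
    · intro h
      have h' : (n : G) * (a.1 : G) * (n : G)⁻¹ = a.1 :=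
        congrArg Subtype.val (congrArg Subtype.val h)
      rw [← hA _ a.1.2 ha, Subgroup.mem_centralizer_singleton_iff]
      exact mul_inv_eq_iff_eq_mul.mp h'
    · intro h
      rw [← hA _ a.1.2 ha, Subgroup.mem_centralizer_singleton_iff] at h
      exact Subtype.ext (Subtype.ext (mul_inv_eq_iff_eq_mul.mpr h))
  haveI : Fintype (Quotient (MulAction.orbitRel N X)) := Fintype.ofFinite _
  have hcard : Nat.card X = Nat.card A - 1 := by
    rw [Nat.card_eq_fintype_card, Fintype.card_subtype_compl, Fintype.card_subtype_eq,
      Nat.card_eq_fintype_card]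
  rw [← hcard, Nat.card_congr (MulAction.selfEquivSigmaOrbits N X), Nat.card_sigma]
  refine Finset.dvd_sum fun q _ => dvd_of_eq ?_
  rw [Nat.card_congr (MulAction.orbitEquivQuotientStabilizer N _), ← Subgroup.index_eq_card, hstab]

end Cfsg.Agent.S0196
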