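import Cfsg.Statements.S0200
import Cfsg.Agent.Lib.CoreSubnormal
import Cfsg.Agent.Lib.InvolDihedral

set_option autoImplicit false
open Cfsg

namespace Cfsg.Agent.S0200

/-- An involution lying in no normal 2-subgroup of a finite group inverts a nontrivial element of odd order (a consequence of the Baer–Suzuki Theorem). -/
theorem result {G : Type*} [Group G] [Finite G] (t : G) (ht : orderOf t = 2) (hO : ∀ N : Subgroup G, N.Normal → IsPGroup 2 N → t ∉ N) : ∃ h : G, h ≠ 1 ∧ Odd (orderOf h) ∧ t * h * t⁻¹ = h⁻¹ := by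
  haveI : Fact (Nat.Prime 2) := ⟨Nat.prime_two⟩
  obtain ⟨g, hg⟩ : ∃ g : G, ¬ IsPGroup 2 (Subgroup.closure ({t, g * t * g⁻¹} : Set G)) := by
    by_contra hcon
    push Not at hcon
    exact hO _ (CfsgLib.Core.normal_pCore 2) (CfsgLib.Core.isPGroup_pCore 2) (CfsgLib.Core.baer_suzuki hcon)
  have hu : orderOf (g * t * g⁻¹) = 2 := by rw [CfsgLib.Invol.orderOf_conj]; exact ht
  set w := t * (g * t * g⁻¹) with hw
  set e := (orderOf w).factorization 2
  refine ⟨w ^ 2 ^ e, fun h1 => hg ?_, ?_, ?_⟩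
  · obtain ⟨a, -, ha⟩ := (Nat.dvd_prime_pow Nat.prime_two).1 (orderOf_dvd_of_pow_eq_one h1)
    exact CfsgLib.Invol.isPGroup_closure_pair ht hu (a := a) (by rw [← hw, ha])
  · rw [orderOf_pow' w (pow_ne_zero _ two_ne_zero), Nat.gcd_eq_right (Nat.ordProj_dvd _ _)]
    rw [← Nat.not_even_iff_odd, even_iff_two_dvd]
    exact Nat.not_dvd_ordCompl Nat.prime_two (orderOf_pos w).ne'
  · have h2 : t * w * t⁻¹ = w⁻¹ := by
      rw [hw, mul_inv_rev, CfsgLib.Invol.inv_of_orderOf_two ht, CfsgLib.Invol.inv_of_orderOf_two hu,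
        ← mul_assoc, CfsgLib.Invol.mul_self_of_orderOf_two ht, one_mul]
    rw [← inv_pow, ← h2, conj_pow]

end Cfsg.Agent.S0200
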