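import Cfsg.Statements.S0203
import Mathlib
import Cfsg.Agent.Lib.InvolKlein

set_option autoImplicit false
open Cfsg

namespace Cfsg.Agent.S0203

/-- If a Sylow 2-subgroup P of a finite group G is a Klein four-group, then G has three classes of involutions if and only if P has a normal complement in G. -/
theorem result {G : Type*} [Group G] [Finite G] (P : Sylow 2 G) (hP : IsKleinFour (P : Subgroup G)) : Nat.card {C : ConjClasses G // ∃ t : G, orderOf t = 2 ∧ ConjClasses.mk t = C} = 3 ↔ ∃ N : Subgroup G, N.Normal ∧ Subgroup.IsComplement' N (P : Subgroup G) := by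
  classical
  haveI : Fact (Nat.Prime 2) := ⟨Nat.prime_two⟩
  haveI hc : IsMulCommutative (P : Subgroup G) := IsKleinFour.isMulCommutative
  constructor
  · intro h3
    rcases CfsgLib.Invol.klein_fusion_dichotomy P hP with h | h
    · rw [(CfsgLib.Invol.klein_card_classes P hP).1 h] at h3; omega
    have hNC : Subgroup.normalizer ((P : Subgroup G) : Set G) ≤ Subgroup.centralizer ((P : Subgroup G) : Set G) := by
      intro n hn
      rw [Subgroup.mem_centralizer_iff]
      intro z hz
      have := h z hz _ ((Subgroup.mem_normalizer_iff.mp hn z).mp hz) (isConj_iff.mpr ⟨n, rfl⟩)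
      exact (eq_mul_inv_iff_mul_eq.mp this)
    exact ⟨_, MonoidHom.normal_ker _, MonoidHom.ker_transferSylow_isComplement' P hNC⟩
  · rintro ⟨N, hN, hcomp⟩
    refine (CfsgLib.Invol.klein_card_classes P hP).2 fun a ha b hb hab => ?_
    obtain ⟨g, hg⟩ := isConj_iff.mp hab
    set π := QuotientGroup.mk' N with hπ
    obtain ⟨⟨⟨m, hm⟩, ⟨q, hq⟩⟩, hmq⟩ := hcomp.2 g
    simp only at hmq
    have hpm : π m = 1 := (QuotientGroup.eq_one_iff m).mpr hm
    have e : q * a = a * q := congrArg Subtype.val (hc.is_comm.comm (⟨q, hq⟩ : (P : Subgroup G)) ⟨a, ha⟩)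
    have h1 : π b = π a := by
      rw [← hg, ← hmq]
      simp only [map_mul, map_inv, hpm, one_mul]
      rw [← map_mul π q a, e, map_mul, mul_inv_cancel_right]
    have h2 : a⁻¹ * b ∈ N := QuotientGroup.eq.mp h1.symm
    have h3 := hcomp.disjoint.le_bot ⟨h2, (P : Subgroup G).mul_mem ((P : Subgroup G).inv_mem ha) hb⟩
    rw [Subgroup.mem_bot, inv_mul_eq_one] at h3
    exact h3

end Cfsg.Agent.S0203
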