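import Cfsg.Statements.S0206
import Cfsg.Agent.Lib.InvolDihedral

set_option autoImplicit false
open Cfsg

namespace Cfsg.Agent.S0206

/-- Two distinct involutions x, y of a finite group generate a subgroup isomorphic to the dihedral group of order 2·|xy|. -/
theorem result {G : Type*} [Group G] [Finite G] (x y : G) (hx : orderOf x = 2) (hy : orderOf y = 2) (hxy : x ≠ y) : Nonempty (↥(Subgroup.closure ({x, y} : Set G)) ≃* DihedralGroup (orderOf (x * y))) := by
  have hinv := CfsgLib.Invol.inverts_mul hx hy
  have hn : 0 < orderOf (x * y) := orderOf_pos _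
  haveI : NeZero (orderOf (x * y)) := ⟨hn.ne'⟩
  let f : ZMod (orderOf (x * y)) → G := fun i => (x * y) ^ (i.cast : ℤ)
  have hadd : ∀ i j, f (i + j) = f i * f j := fun i j => by
    simp only [f, ← zpow_add]
    rw [zpow_eq_zpow_iff_modEq, ← ZMod.intCast_eq_intCast_iff]
    push_cast [ZMod.intCast_zmod_cast]
    rfl
  have hneg : ∀ i, f (-i) = (f i)⁻¹ := fun i => by
    simp only [f, ← zpow_neg]
    rw [zpow_eq_zpow_iff_modEq, ← ZMod.intCast_eq_intCast_iff]
    push_cast [ZMod.intCast_zmod_cast]
    rfl
  have hcomm : ∀ i, x * f i = f (-i) * x := fun i => by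
    rw [hneg]; simp only [f, ← zpow_neg]; exact CfsgLib.Invol.zpow_mul_comm_of_inverts hinv _
  have hzero : f 0 = 1 := by
    have := hadd 0 0; rw [add_zero] at this; exact left_eq_mul.mp this
  let F : DihedralGroup (orderOf (x * y)) → G
    | .r i => f i
    | .sr i => x * f i
  have hxx := CfsgLib.Invol.mul_self_of_orderOf_two hx
  let φ : DihedralGroup (orderOf (x * y)) →* G :=
    MonoidHom.mk' F (fun a b => by
      rcases a with i | i <;> rcases b with j | j <;>
        simp only [F, DihedralGroup.r_mul_r, DihedralGroup.r_mul_sr, DihedralGroup.sr_mul_r,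
          DihedralGroup.sr_mul_sr]
      · exact hadd i j
      · rw [← mul_assoc, show f i * x = x * f (-i) by rw [hcomm, neg_neg], mul_assoc, ← hadd,
          neg_add_eq_sub]
      · rw [mul_assoc, ← hadd]
      · rw [hcomm i, mul_assoc, ← mul_assoc x, hxx, one_mul, ← hadd, neg_add_eq_sub])
  have hnot := CfsgLib.Invol.notMem_zpowers_mul hx hy hxy
  have hinj : Function.Injective φ := by
    rw [injective_iff_map_eq_one]
    rintro (i | i) h
    · change f i = 1 at h
      simp only [f] at h
      rw [← orderOf_dvd_iff_zpow_eq_one, ← ZMod.intCast_zmod_eq_zero_iff_dvd,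
        ZMod.intCast_zmod_cast] at h
      rw [h, DihedralGroup.one_def]
    · exact absurd (Subgroup.mem_zpowers_iff.mpr ⟨-(i.cast : ℤ), by
        change x * f i = 1 at h
        rw [zpow_neg]; exact (eq_inv_of_mul_eq_one_left h).symm⟩) hnot
  have hrange : φ.range = Subgroup.closure ({x, y} : Set G) := by
    refine le_antisymm ?_ ((Subgroup.closure_le _).mpr ?_)
    · rintro _ ⟨i | i, rfl⟩
      · exact zpow_mem (mul_mem (Subgroup.subset_closure (by simp)) (Subgroup.subset_closure (by simp))) _
      · exact mul_mem (Subgroup.subset_closure (by simp))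
          (zpow_mem (mul_mem (Subgroup.subset_closure (by simp)) (Subgroup.subset_closure (by simp))) _)
    · rintro z (rfl | rfl)
      · exact ⟨.sr 0, by change z * f 0 = z; rw [hzero, mul_one]⟩
      · refine ⟨.sr 1, ?_⟩
        change x * f 1 = z
        have h1 : f 1 = (x * z) ^ (1 : ℤ) := by
          simp only [f]
          rw [zpow_eq_zpow_iff_modEq, ← ZMod.intCast_eq_intCast_iff]
          push_cast [ZMod.intCast_zmod_cast]
          rfl
        rw [h1, zpow_one, ← mul_assoc, hxx, one_mul]
  exact ⟨((φ.ofInjective hinj).trans (MulEquiv.subgroupCongr hrange)).symm⟩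

end Cfsg.Agent.S0206
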