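import Cfsg.Statements.S0208
import Cfsg.Agent.Lib.InvolDihedral

set_option autoImplicit false
open Cfsg

namespace Cfsg.Agent.S0208

/-- If x, y are involutions and xy has odd order, then some element of the subgroup generated by x and y conjugates x to y. -/
theorem result {G : Type*} [Group G] [Finite G] (x y : G) (hx : orderOf x = 2) (hy : orderOf y = 2) (hodd : Odd (orderOf (x * y))) : ∃ d ∈ Subgroup.closure ({x, y} : Set G), d * x * d⁻¹ = y := by
  obtain ⟨j, hj⟩ := hodd
  refine ⟨(x * y) ^ (j : ℤ), (CfsgLib.Invol.mem_closure_pair_iff hx hy).mpr ⟨j, Or.inl rfl⟩, ?_⟩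
  rw [CfsgLib.Invol.conj_zpow_self hx hy]
  have h1 : (x * y) ^ (2 * (j : ℤ) + 1) = 1 := by
    rw [show (2 * (j : ℤ) + 1) = ((orderOf (x * y) : ℕ) : ℤ) by rw [hj]; push_cast; ring,
      zpow_natCast, pow_orderOf_eq_one]
  rw [zpow_add_one, mul_eq_one_iff_eq_inv] at h1
  rw [h1, mul_inv_rev, CfsgLib.Invol.inv_of_orderOf_two hx, CfsgLib.Invol.inv_of_orderOf_two hy,
    mul_assoc, CfsgLib.Invol.mul_self_of_orderOf_two hx, mul_one]

end Cfsg.Agent.S0208
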