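import Cfsg.Statements.S0210
import Cfsg.Agent.Lib.InvolDihedral

set_option autoImplicit false
open Cfsg

namespace Cfsg.Agent.S0210

/-- If x, y are involutions whose product has even order, no element of the subgroup generated by x and y conjugates x to y. -/
theorem result {G : Type*} [Group G] [Finite G] (x y : G) (hx : orderOf x = 2) (hy : orderOf y = 2) (heven : Even (orderOf (x * y))) (d : G) (hd : d ∈ Subgroup.closure ({x, y} : Set G)) : d * x * d⁻¹ ≠ y := by
  intro hc
  obtain ⟨k, hk | hk⟩ := (CfsgLib.Invol.mem_closure_pair_iff hx hy).mp hd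
  all_goals
    obtain ⟨i, hi⟩ : ∃ i : ℤ, d * x * d⁻¹ = (x * y) ^ (2 * i) * x := by
      refine ⟨k, ?_⟩
      subst hk
      rw [← CfsgLib.Invol.conj_zpow_self hx hy]
      all_goals (first | rfl | group)
    rw [hc] at hi
    have h1 : (x * y) ^ (2 * i + 1) = 1 := by
      have h2 : y = (x * y) ^ (-1 : ℤ) * x := by
        rw [zpow_neg_one, mul_inv_rev, CfsgLib.Invol.inv_of_orderOf_two hx,
          CfsgLib.Invol.inv_of_orderOf_two hy, mul_assoc, CfsgLib.Invol.mul_self_of_orderOf_two hx, mul_one]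
      have h3 := mul_right_cancel (hi.symm.trans h2)
      rw [zpow_add_one, h3, zpow_neg_one, inv_mul_cancel]
    obtain ⟨c, hn⟩ := heven
    obtain ⟨e, he⟩ := orderOf_dvd_iff_zpow_eq_one.mpr h1
    rw [hn] at he
    push_cast at he
    have : (2 : ℤ) ∣ 2 * i + 1 := ⟨(c : ℤ) * e, by rw [he]; ring⟩
    omega

end Cfsg.Agent.S0210
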