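import Cfsg.Statements.S0211
import Cfsg.Agent.Lib.InvolDihedral

set_option autoImplicit false
open Cfsg

namespace Cfsg.Agent.S0211

/-- Let x, y be involutions with xy of even order n and z = (xy)^(n/2). Then xz is conjugate to x by an element of the subgroup generated by x, y if and only if 4 divides n. -/
theorem result {G : Type*} [Group G] [Finite G] (x y : G) (hx : orderOf x = 2) (hy : orderOf y = 2) (heven : Even (orderOf (x * y))) : (∃ d ∈ Subgroup.closure ({x, y} : Set G), d * x * d⁻¹ = x * (x * y) ^ (orderOf (x * y) / 2)) ↔ 4 ∣ orderOf (x * y) := by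
  obtain ⟨m, hm⟩ := heven
  have hdiv : orderOf (x * y) / 2 = m := by omega
  have hinv := CfsgLib.Invol.inverts_mul hx hy
  rw [hdiv]
  have hright : x * (x * y) ^ m = (x * y) ^ (-(m : ℤ)) * x := by
    rw [← zpow_natCast, CfsgLib.Invol.zpow_mul_comm_of_inverts hinv]
  rw [hright]
  constructor
  · rintro ⟨d, hd, hd2⟩
    obtain ⟨i, hi⟩ : ∃ i : ℤ, d * x * d⁻¹ = (x * y) ^ (2 * i) * x := by
      obtain ⟨k, hk | hk⟩ := (CfsgLib.Invol.mem_closure_pair_iff hx hy).mp hd
      all_goals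
        refine ⟨k, ?_⟩
        subst hk
        rw [← CfsgLib.Invol.conj_zpow_self hx hy]
        all_goals (first | rfl | group)
    have h3 := mul_right_cancel (hd2.symm.trans hi)
    have h1 : (x * y) ^ (2 * i + (m : ℤ)) = 1 := by
      rw [zpow_add, ← h3, ← zpow_add, neg_add_cancel, zpow_zero]
    obtain ⟨e, he⟩ := orderOf_dvd_iff_zpow_eq_one.mpr h1
    rw [hm] at he ⊢
    push_cast at he
    have h4 : (2 : ℤ) ∣ (m : ℤ) := ⟨(m : ℤ) * e - i, by linarith⟩
    omega
  · intro h4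
    rw [hm] at h4
    obtain ⟨l, hl⟩ : ∃ l, m = 2 * l := ⟨m / 2, by omega⟩
    refine ⟨(x * y) ^ (-(l : ℤ)), (CfsgLib.Invol.mem_closure_pair_iff hx hy).mpr ⟨_, Or.inl rfl⟩, ?_⟩
    rw [CfsgLib.Invol.conj_zpow_self hx hy]
    congr 2
    omega

end Cfsg.Agent.S0211
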