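import Cfsg.Statements.S0238
import Cfsg.Agent.Lib.InvolDihedral

set_option autoImplicit false
open Cfsg

namespace Cfsg.Agent.S0238

/-- For every x in a finite group G, the number c of ordered pairs (u, v) of involutions with uv = x is at most |C_G(x)|; c = 0 when x is not conjugate to x⁻¹; and c + 2 ≤ |C_G(x)| when x is an involution. -/
theorem result {G : Type*} [Group G] [Finite G] (x : G) : Nat.card {p : G × G // orderOf p.1 = 2 ∧ orderOf p.2 = 2 ∧ p.1 * p.2 = x} ≤ Nat.card (Subgroup.centralizer ({x} : Set G)) ∧ (¬ IsConj x x⁻¹ → Nat.card {p : G × G // orderOf p.1 = 2 ∧ orderOf p.2 = 2 ∧ p.1 * p.2 = x} = 0) ∧ (orderOf x = 2 → Nat.card {p : G × G // orderOf p.1 = 2 ∧ orderOf p.2 = 2 ∧ p.1 * p.2 = x} + 2 ≤ Nat.card (Subgroup.centralizer ({x} : Set G))) := by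
  classical
  have key : ∀ u v : G, orderOf u = 2 → orderOf v = 2 → u * v = x → u * x * u⁻¹ = x⁻¹ := by
    rintro u v hu hv rfl
    exact CfsgLib.Invol.inverts_mul hu hv
  have inj : ∀ p q : {p : G × G // orderOf p.1 = 2 ∧ orderOf p.2 = 2 ∧ p.1 * p.2 = x},
      p.1.1 = q.1.1 → p = q := by
    rintro ⟨⟨u, v⟩, hu, hv, he⟩ ⟨⟨u', v'⟩, hu', hv', he'⟩ (h : u = u')
    subst h
    exact Subtype.ext (Prod.ext rfl (mul_left_cancel (he.trans he'.symm)))
  have h0 : ¬ IsConj x x⁻¹ →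
      Nat.card {p : G × G // orderOf p.1 = 2 ∧ orderOf p.2 = 2 ∧ p.1 * p.2 = x} = 0 := by
    intro h
    haveI : IsEmpty {p : G × G // orderOf p.1 = 2 ∧ orderOf p.2 = 2 ∧ p.1 * p.2 = x} :=
      ⟨fun p => h (isConj_iff.mpr ⟨p.1.1, key _ _ p.2.1 p.2.2.1 p.2.2.2⟩)⟩
    exact Nat.card_of_isEmpty
  refine ⟨?_, h0, fun hx => ?_⟩
  · by_cases hr : IsConj x x⁻¹
    · rw [← CfsgLib.Invol.card_transporter hr]
      exact Nat.card_le_card_of_injective
        (fun p => (⟨p.1.1, key _ _ p.2.1 p.2.2.1 p.2.2.2⟩ : {g : G // g * x * g⁻¹ = x⁻¹}))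
        (fun p q h => inj p q (congrArg Subtype.val h))
    · rw [h0 hr]; exact Nat.zero_le _
  · have hxi := CfsgLib.Invol.inv_of_orderOf_two hx
    let f : {p : G × G // orderOf p.1 = 2 ∧ orderOf p.2 = 2 ∧ p.1 * p.2 = x} → G := fun p => p.1.1
    have hfinj : Function.Injective f := fun p q h => inj p q h
    have hsub : Set.range f ∪ {1, x} ⊆ (Subgroup.centralizer ({x} : Set G) : Set G) := by
      rintro g (⟨p, rfl⟩ | rfl | rfl)
      · rw [SetLike.mem_coe, CfsgLib.Invol.mem_centralizer_singleton_conj]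
        exact (key _ _ p.2.1 p.2.2.1 p.2.2.2).trans hxi
      · exact one_mem _
      · exact CfsgLib.Invol.mem_centralizer_singleton.mpr rfl
    have hdisj : Disjoint (Set.range f) {1, x} := by
      rw [Set.disjoint_left]
      rintro g ⟨⟨⟨u, v⟩, hu, hv, he⟩, rfl⟩ (h | h)
      · exact CfsgLib.Invol.ne_one_of_orderOf_two hu h
      · change u = x at h
        exact CfsgLib.Invol.ne_one_of_orderOf_two hv (mul_eq_left.mp (he.trans h.symm))
    have := Set.ncard_le_ncard hsub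
    rw [Set.ncard_union_eq hdisj, Set.ncard_pair (CfsgLib.Invol.ne_one_of_orderOf_two hx).symm,
      Set.ncard_range_of_injective hfinj, ← Nat.card_coe_set_eq] at this
    exact this

end Cfsg.Agent.S0238
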