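import Cfsg.Statements.S0212
import Mathlib
import Cfsg.Agent.Lib.InvolCount
import Cfsg.Agent.Lib.PermSimple
import Cfsg.Agent.S0238

set_option autoImplicit false
open Cfsg

namespace Cfsg.Agent.S0212

/-- The Brauer–Fowler bound: if G is a finite simple group and t an involution of G whose centralizer has order n, then |G| ≤ (2n^2)!. -/
theorem result {G : Type*} [Group G] [Finite G] [IsSimpleGroup G] (t : G) (ht : orderOf t = 2) : Nat.card G ≤ Nat.factorial (2 * (Nat.card (Subgroup.centralizer ({t} : Set G))) ^ 2) := by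
  classical
  haveI := Fintype.ofFinite G
  set c := Nat.card (Subgroup.centralizer ({t} : Set G)) with hc
  have hc0 : 0 < c := Nat.card_pos
  by_cases hG : IsMulCommutative G
  · haveI := hG
    have hn : (Subgroup.zpowers t).Normal := ⟨fun z hz g => by rwa [hG.is_comm.comm g z, mul_inv_cancel_right]⟩
    have htop : Subgroup.zpowers t = ⊤ := hn.eq_bot_or_eq_top.resolve_left fun h =>
      CfsgLib.Invol.ne_one_of_orderOf_two ht (Subgroup.zpowers_eq_bot.mp h)
    rw [← Subgroup.card_top (G := G), ← htop, Nat.card_zpowers, ht]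
    calc 2 = Nat.factorial 2 := rfl
      _ ≤ _ := Nat.factorial_le (by nlinarith)
  obtain ⟨H, hH, hmax⟩ := CfsgLib.Invol.exists_max_proper (G := G)
  refine (CfsgLib.Perm.card_le_factorial_index H hH).trans (Nat.factorial_le ?_)
  by_contra hlt
  rw [not_le] at hlt
  have hg := H.index_mul_card
  set g := Nat.card G with hgdef
  set d := H.index
  set h := Nat.card H
  set n := Nat.card {u : G // orderOf u = 2} with hn
  -- the class of t consists of involutions
  have hn1 : g ≤ n * c := by
    rw [hgdef, ← CfsgLib.Invol.card_isConj_mul_card_centralizer t]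
    refine Nat.mul_le_mul_right _ (Nat.card_le_card_of_injective
      (fun u => (⟨u.1, (CfsgLib.Invol.isConj_orderOf_eq u.2).symm.trans ht⟩ : {u : G // orderOf u = 2}))
      (fun a b hab => Subtype.ext (congrArg Subtype.val hab :)))
  have hC : ∀ x : G, x ≠ 1 → Nat.card (Subgroup.centralizer ({x} : Set G)) ≤ h := fun x hx =>
    hmax _ (CfsgLib.Perm.centralizer_ne_top_of_simple hG hx)
  have hsum : n * n ≤ n + g * h := by
    rw [hn, CfsgLib.Invol.card_involutions_sq, ← Finset.add_sum_erase _ _ (Finset.mem_univ (1 : G)),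
      CfsgLib.Invol.card_pairs_one]
    refine Nat.add_le_add_left ((Finset.sum_le_card_nsmul _ _ h fun x hx => ?_).trans ?_) _
    · exact ((Cfsg.Agent.S0238.result x).1).trans (hC x (Finset.ne_of_mem_erase hx))
    · rw [smul_eq_mul, hgdef, Nat.card_eq_fintype_card]
      exact Nat.mul_le_mul_right _ (Finset.card_le_univ _)
  have h2 : g * h * (2 * c ^ 2) < g * g := by
    have : 0 < g := Nat.card_pos
    have hh : 0 < h := Nat.card_pos
    nlinarith [Nat.mul_lt_mul_of_pos_left hlt (Nat.mul_pos this hh)]
  have h3 : g * g ≤ n * n * c ^ 2 := by nlinarith [Nat.mul_le_mul hn1 hn1]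
  have hn2 : n ≤ 1 := by
    by_contra hn2
    rw [not_le] at hn2
    have h4 : n * n * c ^ 2 ≤ n * c^2 + g * h * c ^ 2 := by nlinarith [Nat.mul_le_mul_right (c ^ 2) hsum]
    nlinarith [Nat.mul_le_mul_right (c ^ 2) (Nat.mul_le_mul_left n (show 2 ≤ n from hn2))]
  have h5 : g ≤ c := hn1.trans (by nlinarith)
  have h6 := hC t (CfsgLib.Invol.ne_one_of_orderOf_two ht)
  have h7 := CfsgLib.Perm.five_le_index hG H hH
  have hh : 0 < h := Nat.card_pos
  nlinarith

end Cfsg.Agent.S0212
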