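import Cfsg.Statements.S0213
import Mathlib
import Cfsg.Agent.Lib.InvolDihedral

set_option autoImplicit false
open Cfsg

namespace Cfsg.Agent.S0213

/-- Thompson Order Formula, two-class case: if every involution of the finite group G is conjugate to exactly one of the non-conjugate involutions x₁, x₂, and nᵢ is the number of pairs (u, v) with u conjugate to x₁, v conjugate to x₂ and xᵢ in the cyclic group generated by uv, then |G| = |C(x₂)| n₁ + |C(x₁)| n₂. -/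
theorem result {G : Type*} [Group G] [Finite G] (x₁ x₂ : G) (h₁ : orderOf x₁ = 2) (h₂ : orderOf x₂ = 2) (hnc : ¬ IsConj x₁ x₂) (hall : ∀ t : G, orderOf t = 2 → IsConj x₁ t ∨ IsConj x₂ t) : Nat.card G = Nat.card (Subgroup.centralizer ({x₂} : Set G)) * Nat.card {p : G × G // IsConj x₁ p.1 ∧ IsConj x₂ p.2 ∧ x₁ ∈ Subgroup.zpowers (p.1 * p.2)} + Nat.card (Subgroup.centralizer ({x₁} : Set G)) * Nat.card {p : G × G // IsConj x₁ p.1 ∧ IsConj x₂ p.2 ∧ x₂ ∈ Subgroup.zpowers (p.1 * p.2)} := by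
  classical
  haveI := Fintype.ofFinite G
  -- uniqueness of the involution of a cyclic group
  have uniq : ∀ r a b : G, a ∈ Subgroup.zpowers r → b ∈ Subgroup.zpowers r → orderOf a = 2 →
      orderOf b = 2 → a = b := by
    intro r a b ha hb ha2 hb2
    haveI : IsCyclic (Subgroup.zpowers r) := inferInstance
    haveI := Fintype.ofFinite (Subgroup.zpowers r)
    have h1 := IsCyclic.card_orderOf_eq_totient (α := Subgroup.zpowers r) (d := 2)
      (by rw [← Nat.card_eq_fintype_card, ← ha2]; exact Subgroup.orderOf_dvd_natCard _ ha)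
    have h2 : Nat.totient 2 = 1 := by decide
    rw [h2, Finset.card_eq_one] at h1
    obtain ⟨c, hc⟩ := h1
    have hA : (⟨a, ha⟩ : Subgroup.zpowers r) = c := Finset.mem_singleton.mp (hc ▸ Finset.mem_filter.mpr
      ⟨Finset.mem_univ _, by rw [Subgroup.orderOf_mk]; exact ha2⟩)
    have hB : (⟨b, hb⟩ : Subgroup.zpowers r) = c := Finset.mem_singleton.mp (hc ▸ Finset.mem_filter.mpr
      ⟨Finset.mem_univ _, by rw [Subgroup.orderOf_mk]; exact hb2⟩)
    exact congrArg Subtype.val (hA.trans hB.symm)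
  have ord : ∀ {x y : G}, IsConj x y → orderOf x = orderOf y := CfsgLib.Invol.isConj_orderOf_eq
  have exu : ∀ p : {p : G × G // IsConj x₁ p.1 ∧ IsConj x₂ p.2},
      ∃ z : G, orderOf z = 2 ∧ z ∈ Subgroup.zpowers (p.1.1 * p.1.2) := by
    rintro ⟨⟨u, v⟩, hu, hv⟩
    have hev := CfsgLib.Invol.even_orderOf_mul_of_not_isConj ((ord hu).symm.trans h₁)
      ((ord hv).symm.trans h₂) (fun h => hnc (hu.trans (h.trans hv.symm)))
    exact ⟨_, (CfsgLib.Invol.central_involution ((ord hu).symm.trans h₁)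
      ((ord hv).symm.trans h₂) hev).1, Subgroup.npow_mem_zpowers _ _⟩
  -- pairs whose involution is conjugate to x
  have fib : ∀ x : G, orderOf x = 2 →
      Nat.card {p : {p : G × G // IsConj x₁ p.1 ∧ IsConj x₂ p.2} //
        ∃ z, IsConj x z ∧ z ∈ Subgroup.zpowers (p.1.1 * p.1.2)} =
      Nat.card {z : G // IsConj x z} *
        Nat.card {p : G × G // IsConj x₁ p.1 ∧ IsConj x₂ p.2 ∧ x ∈ Subgroup.zpowers (p.1 * p.2)} := by
    intro x hx
    have e1 : {p : {p : G × G // IsConj x₁ p.1 ∧ IsConj x₂ p.2} //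
        ∃ z, IsConj x z ∧ z ∈ Subgroup.zpowers (p.1.1 * p.1.2)} ≃
        Σ z : {z : G // IsConj x z},
          {p : G × G // IsConj x₁ p.1 ∧ IsConj x₂ p.2 ∧ z.1 ∈ Subgroup.zpowers (p.1 * p.2)} := by
      refine (Equiv.ofBijective (fun s => (⟨⟨s.2.1, s.2.2.1, s.2.2.2.1⟩, ⟨s.1.1, s.1.2, s.2.2.2.2⟩⟩ :
        {p : {p : G × G // IsConj x₁ p.1 ∧ IsConj x₂ p.2} //
          ∃ z, IsConj x z ∧ z ∈ Subgroup.zpowers (p.1.1 * p.1.2)})) ⟨?_, ?_⟩).symm
      · rintro ⟨⟨z, hz⟩, ⟨p, hp⟩⟩ ⟨⟨w, hw⟩, ⟨q, hq⟩⟩ h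
        have hpq : p = q := congrArg (fun s => s.1.1) h
        subst hpq
        obtain rfl := uniq _ z w hp.2.2 hq.2.2 ((ord hz).symm.trans hx) ((ord hw).symm.trans hx)
        rfl
      · rintro ⟨⟨p, hp⟩, z, hz, hzm⟩
        exact ⟨⟨⟨z, hz⟩, ⟨p, hp.1, hp.2, hzm⟩⟩, rfl⟩
    rw [Nat.card_congr e1, Nat.card_sigma, Finset.sum_const_nat (m := Nat.card
      {p : G × G // IsConj x₁ p.1 ∧ IsConj x₂ p.2 ∧ x ∈ Subgroup.zpowers (p.1 * p.2)}),
      Finset.card_univ, ← Nat.card_eq_fintype_card]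
    rintro ⟨z, hz⟩ -
    obtain ⟨g, rfl⟩ := isConj_iff.mp hz
    refine (Nat.card_congr (((MulAut.conj g).toEquiv.prodCongr (MulAut.conj g).toEquiv).subtypeEquiv
      fun p => ?_)).symm
    have hc : ∀ a b : G, IsConj a b ↔ IsConj a (g * b * g⁻¹) := fun a b =>
      ⟨fun h => h.trans (isConj_iff.mpr ⟨g, rfl⟩), fun h => h.trans (isConj_iff.mpr ⟨g, rfl⟩ : IsConj b (g * b * g⁻¹)).symm⟩
    have hmap : (Subgroup.zpowers (p.1 * p.2)).map (MulAut.conj g).toMonoidHom =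
        Subgroup.zpowers ((g * p.1 * g⁻¹) * (g * p.2 * g⁻¹)) := by
      rw [MonoidHom.map_zpowers]
      congr 1
      simp [mul_assoc]
    refine and_congr (hc _ _) (and_congr (hc _ _) ?_)
    rw [show (((MulAut.conj g).toEquiv.prodCongr (MulAut.conj g).toEquiv) p).1 = g * p.1 * g⁻¹ from rfl,
      show (((MulAut.conj g).toEquiv.prodCongr (MulAut.conj g).toEquiv) p).2 = g * p.2 * g⁻¹ from rfl,
      ← hmap]
    exact (Subgroup.mem_map_iff_mem (MulAut.conj g).injective).symm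
  have htot : Nat.card {z : G // IsConj x₁ z} * Nat.card {z : G // IsConj x₂ z} =
      Nat.card {p : {p : G × G // IsConj x₁ p.1 ∧ IsConj x₂ p.2} //
        ∃ z, IsConj x₁ z ∧ z ∈ Subgroup.zpowers (p.1.1 * p.1.2)} +
      Nat.card {p : {p : G × G // IsConj x₁ p.1 ∧ IsConj x₂ p.2} //
        ∃ z, IsConj x₂ z ∧ z ∈ Subgroup.zpowers (p.1.1 * p.1.2)} := by
    rw [← Nat.card_prod, ← Nat.card_congr Equiv.subtypeProdEquivProd,
      ← Nat.card_congr (Equiv.sumCompl (fun p : {p : G × G // IsConj x₁ p.1 ∧ IsConj x₂ p.2} =>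
        ∃ z, IsConj x₁ z ∧ z ∈ Subgroup.zpowers (p.1.1 * p.1.2))), Nat.card_sum]
    congr 1
    refine Nat.card_congr (Equiv.subtypeEquivRight fun p => ⟨fun h => ?_, ?_⟩)
    · obtain ⟨z, hz, hzm⟩ := exu p
      rcases hall z hz with h' | h'
      · exact absurd ⟨z, h', hzm⟩ h
      · exact ⟨z, h', hzm⟩
    · rintro ⟨z, hz, hzm⟩ ⟨w, hw, hwm⟩
      obtain rfl := uniq _ z w hzm hwm ((ord hz).symm.trans h₂) ((ord hw).symm.trans h₁)
      exact hnc (hw.trans hz.symm)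
  rw [fib x₁ h₁, fib x₂ h₂] at htot
  have g₁ := CfsgLib.Invol.card_isConj_mul_card_centralizer x₁
  have g₂ := CfsgLib.Invol.card_isConj_mul_card_centralizer x₂
  set K₁ := Nat.card {z : G // IsConj x₁ z}
  set K₂ := Nat.card {z : G // IsConj x₂ z}
  set C₁ := Nat.card (Subgroup.centralizer ({x₁} : Set G))
  set C₂ := Nat.card (Subgroup.centralizer ({x₂} : Set G))
  set N₁ := Nat.card {p : G × G // IsConj x₁ p.1 ∧ IsConj x₂ p.2 ∧ x₁ ∈ Subgroup.zpowers (p.1 * p.2)}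
  set N₂ := Nat.card {p : G × G // IsConj x₁ p.1 ∧ IsConj x₂ p.2 ∧ x₂ ∈ Subgroup.zpowers (p.1 * p.2)}
  have hg : 0 < Nat.card G := Nat.card_pos
  refine Nat.eq_of_mul_eq_mul_left hg ?_
  calc Nat.card G * Nat.card G = (K₁ * C₁) * (K₂ * C₂) := by rw [g₁, g₂]
    _ = C₁ * C₂ * (K₁ * K₂) := by ring
    _ = (K₁ * C₁) * (C₂ * N₁) + (K₂ * C₂) * (C₁ * N₂) := by rw [htot]; ring
    _ = Nat.card G * (C₂ * N₁ + C₁ * N₂) := by rw [g₁, g₂]; ring

end Cfsg.Agent.S0213
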