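import Cfsg.Statements.S0216
import Cfsg.Agent.Lib.InvolDihedral

set_option autoImplicit false
open Cfsg

namespace Cfsg.Agent.S0216

/-- For an involution u in a Sylow 2-subgroup P of a finite group G, the following are equivalent: no G-conjugate of u other than u lies in P; every commutator of u with an element of G has odd order. -/
theorem result {G : Type*} [Group G] [Finite G] (P : Sylow 2 G) (u : G) (hu : orderOf u = 2) (huP : u ∈ P) : (∀ g : G, g * u * g⁻¹ ∈ P → g * u * g⁻¹ = u) ↔ (∀ g : G, Odd (orderOf (u * g * u⁻¹ * g⁻¹))) := by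
  haveI : Fact (Nat.Prime 2) := ⟨Nat.prime_two⟩
  have huu := CfsgLib.Invol.inv_of_orderOf_two hu
  have hv : ∀ g : G, orderOf (g * u * g⁻¹) = 2 := fun g => by rw [CfsgLib.Invol.orderOf_conj]; exact hu
  have hrw : ∀ g : G, u * g * u⁻¹ * g⁻¹ = u * (g * u * g⁻¹) := fun g => by rw [huu]; group
  constructor
  · intro h g
    rw [hrw, ← Nat.not_even_iff_odd]
    intro hev
    obtain ⟨v, hv1, hv2⟩ := CfsgLib.Invol.exists_conj_two_power hu (hv g)
    have hvo : orderOf v = 2 := by rw [← CfsgLib.Invol.isConj_orderOf_eq hv1]; exact hv g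
    obtain ⟨Q, hQu, hQv⟩ := CfsgLib.Invol.exists_sylow_mem_pair
      (CfsgLib.Invol.isPGroup_closure_pair hu hvo hv2)
      (Subgroup.subset_closure (show u ∈ ({u, v} : Set G) by simp))
      (Subgroup.subset_closure (show v ∈ ({u, v} : Set G) by simp))
    obtain ⟨k, hk⟩ := MulAction.exists_smul_eq G Q P
    have hmem : ∀ z : G, z ∈ Q → k * z * k⁻¹ ∈ P := fun z hz => by
      rw [← hk]
      exact ⟨z, hz, rfl⟩
    obtain ⟨c, hc⟩ := isConj_iff.mp hv1
    have e1 := h k (hmem u hQu)
    have e2 := h (k * c * g) (by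
      have := hmem v hQv
      rw [← hc] at this
      convert this using 1
      group)
    rw [show k * c * g * u * (k * c * g)⁻¹ = k * (c * (g * u * g⁻¹) * c⁻¹) * k⁻¹ by group, hc] at e2
    have huv : u = v := mul_left_cancel (mul_right_cancel (e1.trans e2.symm))
    rw [← huv, CfsgLib.Invol.mul_self_of_orderOf_two hu, orderOf_one] at hv2
    have h0 : 0 < (orderOf (u * (g * u * g⁻¹))).factorization 2 :=
      Nat.prime_two.factorization_pos_of_dvd (orderOf_pos _).ne' hev.two_dvd
    have := Nat.one_lt_two_pow h0.ne'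
    omega
  · intro h g hg
    have h1 := h g
    rw [hrw] at h1
    obtain ⟨a, ha⟩ := P.isPGroup'.exists_card_eq
    have h2 : orderOf (u * (g * u * g⁻¹)) ∣ 2 ^ a := by
      rw [← ha]
      exact (Subgroup.orderOf_mk _ (P.toSubgroup.mul_mem huP hg)) ▸ orderOf_dvd_natCard _
    have h3 := Nat.eq_one_of_dvd_coprimes (Nat.Coprime.pow_right a (Nat.coprime_two_right.mpr h1)) dvd_rfl h2
    rw [orderOf_eq_one_iff, mul_eq_one_iff_eq_inv', huu] at h3
    exact h3

end Cfsg.Agent.S0216
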