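import Cfsg.Statements.S0218
import Mathlib

set_option autoImplicit false
open Cfsg

namespace Cfsg.Agent.S0218

/-- The generalized quaternion group of order 2^(n+3) contains exactly one element of order 2. -/
theorem result (n : ℕ) : Nat.card {x : QuaternionGroup (2 ^ (n + 1)) // orderOf x = 2} = 1 := by
  rw [Nat.card_eq_one_iff_unique]
  have hn : 0 < 2 ^ (n + 1) := by positivity
  haveI : NeZero (2 ^ (n + 1)) := ⟨hn.ne'⟩
  have ha : orderOf (QuaternionGroup.a (2 ^ (n + 1) : ℕ) : QuaternionGroup (2 ^ (n + 1))) = 2 := by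
    have hval : ((2 ^ (n + 1) : ℕ) : ZMod (2 * 2 ^ (n + 1))).val = 2 ^ (n + 1) :=
      ZMod.val_cast_of_lt (by omega)
    rw [QuaternionGroup.orderOf_a, hval, Nat.gcd_mul_left_left]
    exact Nat.mul_div_cancel _ hn
  refine ⟨⟨?_⟩, ⟨_, ha⟩⟩
  suffices key : ∀ x : QuaternionGroup (2 ^ (n + 1)), orderOf x = 2 →
      x = QuaternionGroup.a (2 ^ (n + 1) : ℕ) from fun p q => Subtype.ext ((key _ p.2).trans (key _ q.2).symm)
  rintro (i | i) hi
  · have hs := pow_orderOf_eq_one (QuaternionGroup.a i : QuaternionGroup (2 ^ (n + 1)))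
    rw [hi, pow_two, QuaternionGroup.a_mul_a, QuaternionGroup.one_def] at hs
    injection hs with hs
    have hne : i ≠ 0 := by
      rintro rfl
      rw [← QuaternionGroup.one_def, orderOf_one] at hi
      omega
    congr 1
    obtain ⟨v, hv, rfl⟩ : ∃ v : ℕ, v < 2 * 2 ^ (n + 1) ∧ (v : ZMod (2 * 2 ^ (n + 1))) = i :=
      ⟨i.val, i.val_lt, ZMod.natCast_zmod_val i⟩
    rw [← Nat.cast_add, ZMod.natCast_eq_zero_iff] at hs
    obtain ⟨c, hc⟩ := hs
    have hv0 : v ≠ 0 := fun h => hne (by simp [h])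
    congr 1
    rcases Nat.lt_trichotomy c 1 with h | h | h
    · interval_cases c; omega
    · subst h; omega
    · have := Nat.mul_le_mul_left (2 * 2 ^ (n + 1)) h
      omega
  · rw [QuaternionGroup.orderOf_xa] at hi
    omega

end Cfsg.Agent.S0218
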