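import Cfsg.Statements.S0219
import Mathlib

set_option autoImplicit false
open Cfsg

namespace Cfsg.Agent.S0219

/-- If a finite group has even order and a cyclic Sylow 2-subgroup, then it has a subgroup of index 2 (consider the parity of permutations in the regular representation). -/
theorem result {G : Type*} [Group G] [Finite G] (heven : Even (Nat.card G)) (T : Sylow 2 G) (hT : IsCyclic (T : Subgroup G)) : ∃ H : Subgroup G, H.index = 2 := by
  haveI : Fact (Nat.Prime 2) := ⟨Nat.prime_two⟩
  have hmin : (Nat.card G).minFac = 2 := Nat.minFac_eq_two_iff _ |>.mpr heven.two_dvd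
  have hc := hT.isComplement' hmin
  set f := MonoidHom.transferSylow T (hT.normalizer_le_centralizer hmin)
  have hr : Nat.card f.range = Nat.card T := by
    rw [← Subgroup.index_ker]; exact hc.symm.index_eq_card
  have hsurj : Function.Surjective f :=
    MonoidHom.range_eq_top.mp (Subgroup.eq_top_of_card_eq _ hr)
  obtain ⟨a, ha⟩ := T.isPGroup'.exists_card_eq
  have ha0 : a ≠ 0 := by
    rintro rfl
    exact T.ne_bot_of_dvd_card heven.two_dvd (Subgroup.card_eq_one.mp (by rw [ha, pow_zero]))
  obtain ⟨K, hK⟩ := Sylow.exists_subgroup_card_pow_prime (G := (T : Subgroup G)) 2 (n := a - 1)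
    (by rw [ha]; exact pow_dvd_pow 2 (Nat.sub_le a 1))
  refine ⟨K.comap f, ?_⟩
  rw [K.index_comap_of_surjective hsurj]
  have h := K.index_mul_card
  rw [hK, ha] at h
  nth_rw 2 [show a = a - 1 + 1 by omega] at h
  rw [pow_succ', mul_left_inj' (by positivity)] at h
  exact h

end Cfsg.Agent.S0219
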