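import Cfsg.Statements.S0220
import Mathlib
import Cfsg.Agent.Lib.InvolSylow
import Cfsg.Agent.S0219

set_option autoImplicit false
open Cfsg

namespace Cfsg.Agent.S0220

/-- If x is an involution of a finite group G and a Sylow 2-subgroup of the centralizer of x is cyclic, then G has a subgroup of index 2; in particular G is not simple unless it has order 2. -/
theorem result {G : Type*} [Group G] [Finite G] (x : G) (hx : orderOf x = 2) (S : Sylow 2 ↥(Subgroup.centralizer ({x} : Set G))) (hS : IsCyclic (S : Subgroup ↥(Subgroup.centralizer ({x} : Set G)))) : ∃ H : Subgroup G, H.index = 2 := by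
  haveI : Fact (Nat.Prime 2) := ⟨Nat.prime_two⟩
  set S' : Subgroup G := (S : Subgroup (Subgroup.centralizer ({x} : Set G))).map (Subgroup.centralizer ({x} : Set G)).subtype with hS'
  haveI := hS
  haveI : IsCyclic S' :=
    isCyclic_of_surjective ((S : Subgroup (Subgroup.centralizer ({x} : Set G))).equivMapOfInjective (Subgroup.centralizer ({x} : Set G)).subtype (Subgroup.centralizer ({x} : Set G)).subtype_injective).toMonoidHom
      (MulEquiv.surjective _)
  have hxC : x ∈ (Subgroup.centralizer ({x} : Set G)) := CfsgLib.Invol.mem_centralizer_singleton.mpr rfl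
  -- x lies in every Sylow 2-subgroup of its centraliser
  have hxS : x ∈ S' := by
    have hxC' : (⟨x, hxC⟩ : (Subgroup.centralizer ({x} : Set G))) ∈ (S : Subgroup (Subgroup.centralizer ({x} : Set G))) := by
      obtain ⟨g, hg⟩ := CfsgLib.Invol.exists_conj_mem_sylow_two S (x := (⟨x, hxC⟩ : (Subgroup.centralizer ({x} : Set G))))
        (by rw [Subgroup.orderOf_mk]; exact hx)
      have hgx := CfsgLib.Invol.mem_centralizer_singleton_conj.mp g.2
      have he : g * ⟨x, hxC⟩ * g⁻¹ = (⟨x, hxC⟩ : (Subgroup.centralizer ({x} : Set G))) := Subtype.ext (by simp [hgx])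
      rwa [he] at hg
    exact ⟨_, hxC', rfl⟩
  have hS'p : IsPGroup 2 S' := S.isPGroup'.map (Subgroup.centralizer ({x} : Set G)).subtype
  obtain ⟨P, hP⟩ := hS'p.exists_le_sylow
  have hmax : ∀ K : Subgroup G, S' ≤ K → K ≤ (Subgroup.centralizer ({x} : Set G)) → IsPGroup 2 K → K = S' := by
    intro K h1 h2 h3
    have h4 : (K.subgroupOf (Subgroup.centralizer ({x} : Set G))) = (S : Subgroup (Subgroup.centralizer ({x} : Set G))) :=
      S.3 (h3.comap_subtype) (fun z hz => h1 ⟨z, hz, rfl⟩)
    rw [hS', ← h4, Subgroup.map_subgroupOf_eq_of_le h2]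
  by_cases heq : S' = (P : Subgroup G)
  · exact Cfsg.Agent.S0219.result (even_iff_two_dvd.mpr (hx ▸ orderOf_dvd_natCard x)) P (heq ▸ inferInstance)
  · exfalso
    haveI : Finite (P : Subgroup G) := inferInstance
    have hnil : Group.IsNilpotent (P : Subgroup G) := P.isPGroup'.isNilpotent
    have hlt : S'.subgroupOf P < ⊤ := by
      refine lt_top_iff_ne_top.mpr fun h => heq (le_antisymm hP ?_)
      rwa [Subgroup.subgroupOf_eq_top] at h
    obtain ⟨y, hy1, hy2⟩ := SetLike.exists_of_lt ((Group.normalizerCondition_of_isNilpotent (G := (P : Subgroup G))) _ hlt)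
    have hnorm : (y : G) ∈ Subgroup.normalizer (S' : Set G) := by
      rw [Subgroup.mem_normalizer_iff]
      intro z
      constructor
      · intro hz
        have := (Subgroup.mem_normalizer_iff.mp hy1 ⟨z, hP hz⟩).mp hz
        exact this
      · intro hz
        have hzP : z ∈ (P : Subgroup G) := by
          have := mul_mem (mul_mem (inv_mem y.2) (hP hz)) y.2
          simpa [mul_assoc] using this
        exact (Subgroup.mem_normalizer_iff.mp hy1 ⟨z, hzP⟩).mpr hz
    -- the cyclic group S' has a unique involution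
    have hyx : (y : G) * x * (y : G)⁻¹ = x := by
      have h1 := (Subgroup.mem_normalizer_iff.mp hnorm x).mp hxS
      have hev : 2 ∣ Nat.card S' := by
        have := orderOf_dvd_natCard (⟨x, hxS⟩ : S')
        rwa [Subgroup.orderOf_mk, hx] at this
      haveI := Fintype.ofFinite S'
      have hu := IsCyclic.card_orderOf_eq_totient (α := S') (d := 2) (by rwa [← Nat.card_eq_fintype_card])
      rw [Nat.totient_two, Finset.card_eq_one] at hu
      obtain ⟨w, hw⟩ := hu
      have e1 : (⟨x, hxS⟩ : S') = w := by
        have : (⟨x, hxS⟩ : S') ∈ ({w} : Finset S') := by rw [← hw]; simp [Subgroup.orderOf_mk, hx]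
        simpa using this
      have e2 : (⟨_, h1⟩ : S') = w := by
        have : (⟨_, h1⟩ : S') ∈ ({w} : Finset S') := by
          rw [← hw]; simp [Subgroup.orderOf_mk, CfsgLib.Invol.orderOf_conj, hx]
        simpa using this
      exact congrArg Subtype.val (e2.trans e1.symm)
    have hyC : (y : G) ∈ (Subgroup.centralizer ({x} : Set G)) := CfsgLib.Invol.mem_centralizer_singleton_conj.mpr hyx
    have hS'C : S' ≤ (Subgroup.centralizer ({x} : Set G)) := Subgroup.map_subtype_le _
    have := hmax ((P : Subgroup G) ⊓ (Subgroup.centralizer ({x} : Set G))) (le_inf hP hS'C) inf_le_right (P.isPGroup'.to_le inf_le_left)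
    exact hy2 (show (y : G) ∈ S' from this ▸ ⟨y.2, hyC⟩)

end Cfsg.Agent.S0220
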