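import Cfsg.Statements.S0221
import Cfsg.Agent.Lib.TransferApps
import Cfsg.Agent.Lib.InvolSylow
import Cfsg.Agent.Lib.CorePGroup

set_option autoImplicit false
open Cfsg

namespace Cfsg.Agent.S0221

/-- A commuting pair of elementary abelian subgroups of exponent two. -/
theorem sup_elem {S : Type*} [Group S] {K L : Subgroup S} (hK : ∀ k ∈ K, k ^ 2 = 1) (hL : ∀ l ∈ L, l ^ 2 = 1)
    (hc : ∀ k ∈ K, ∀ l ∈ L, k * l = l * k) :
    ∀ y ∈ K ⊔ L, y ^ 2 = 1 ∧ ∃ k ∈ K, ∃ l ∈ L, y = k * l := by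
  intro y hy
  have hn : K ≤ Subgroup.normalizer (L : Set S) := fun k hk => by
    rw [Subgroup.mem_normalizer_iff]
    intro a
    constructor <;> intro ha
    · rwa [hc k hk a ha, mul_inv_cancel_right]
    · have e := hc k hk _ ha
      rw [inv_mul_cancel_right] at e
      rwa [mul_left_cancel e] at ha
  have hy' : y ∈ ((K ⊔ L : Subgroup S) : Set S) := hy
  rw [Subgroup.coe_mul_of_left_le_normalizer_right K L hn] at hy'
  obtain ⟨k, hk, l, hl, rfl⟩ := hy'
  refine ⟨?_, k, hk, l, hl, rfl⟩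
  show (k * l) ^ 2 = 1
  rw [(show Commute k l from hc k hk l hl).mul_pow, hK k hk, hL l hl, one_mul]

theorem inv_eq_of_sq {S : Type*} [Group S] {a : S} (h : a ^ 2 = 1) : a⁻¹ = a := by
  rw [inv_eq_iff_mul_eq_one, ← sq, h]

theorem comm_of_sq {S : Type*} [Group S] {K : Subgroup S} (hK : ∀ k ∈ K, k ^ 2 = 1) :
    ∀ a ∈ K, ∀ b ∈ K, a * b = b * a := by
  intro a ha b hb
  rw [← inv_eq_of_sq (hK _ (K.mul_mem ha hb)), mul_inv_rev, inv_eq_of_sq (hK a ha), inv_eq_of_sq (hK b hb)]

theorem pow_mem_pair {S : Type*} [Group S] {z a : S} (hz : z ^ 2 = 1) (ha : a ∈ Subgroup.zpowers z) :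
    a = 1 ∨ a = z := by
  obtain ⟨i, rfl⟩ := ha
  simp only
  rcases Int.even_or_odd i with ⟨j, rfl⟩ | ⟨j, rfl⟩
  · exact Or.inl (by rw [← two_mul, zpow_mul, zpow_ofNat, hz, one_zpow])
  · exact Or.inr (by rw [zpow_add, zpow_mul, zpow_ofNat, hz, one_zpow, one_mul, zpow_one])

/-- A two group of rank three has a central involution and a normal four group through it. -/
theorem exists_pair {S : Type*} [Group S] [Finite S] (hS : IsPGroup 2 S) (E : Subgroup S)
    (hE : Nat.card E = 8) (hE2 : ∀ e ∈ E, e ^ 2 = 1) :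
    ∃ z e : S, z ∈ Subgroup.center S ∧ z ^ 2 = 1 ∧ z ≠ 1 ∧ e ^ 2 = 1 ∧ e ∉ Subgroup.zpowers z ∧
      ∀ s : S, s * e * s⁻¹ = e ∨ s * e * s⁻¹ = z * e := by
  classical
  haveI : Fact (Nat.Prime 2) := ⟨Nat.prime_two⟩
  haveI : Nontrivial S := by
    haveI : Nontrivial E := Finite.one_lt_card_iff_nontrivial.mp (by omega)
    exact E.subtype_injective.nontrivial
  haveI := hS.center_nontrivial
  obtain ⟨j, hj0, hj⟩ := (IsPGroup.nontrivial_iff_card (hS.to_subgroup (Subgroup.center S))).1 inferInstance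
  obtain ⟨z, hz⟩ := exists_prime_orderOf_dvd_card' (G := Subgroup.center S) 2 (hj ▸ dvd_pow_self 2 hj0.ne')
  have hz2 : (z : S) ^ 2 = 1 := by rw [← hz, ← Subgroup.orderOf_coe]; exact pow_orderOf_eq_one _
  have hz1 : (z : S) ≠ 1 := fun e => by rw [← Subgroup.orderOf_coe, e, orderOf_one] at hz; omega
  refine ⟨z, ?_⟩
  have hzc : ∀ s : S, s * (z : S) = z * s := fun s => Subgroup.mem_center_iff.mp z.2 s
  have fromV : ∀ V : Subgroup S, V.Normal → (∀ v ∈ V, v ^ 2 = 1) → ¬ V ≤ Subgroup.zpowers (z : S) →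
      ∃ e : S, (z : S) ∈ Subgroup.center S ∧ (z : S) ^ 2 = 1 ∧ (z : S) ≠ 1 ∧ e ^ 2 = 1 ∧ e ∉ Subgroup.zpowers (z : S) ∧
        ∀ s : S, s * e * s⁻¹ = e ∨ s * e * s⁻¹ = z * e := by
    intro V hV hV2 hne
    haveI hZn : (Subgroup.zpowers (z : S)).Normal := ⟨fun a ha s => by
      obtain ⟨i, rfl⟩ := ha
      simp only
      rw [show s * (z : S) ^ i = (z : S) ^ i * s from (Commute.zpow_right (hzc s) i).eq, mul_inv_cancel_right]
      exact ⟨i, rfl⟩⟩
    let π := QuotientGroup.mk' (Subgroup.zpowers (z : S))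
    haveI : (V.map π).Normal := hV.map π (QuotientGroup.mk'_surjective _)
    haveI : Group.IsNilpotent (S ⧸ Subgroup.zpowers (z : S)) := (hS.to_quotient _).isNilpotent
    have hb := CfsgLib.Core.nilpotent_inf_center_ne_bot (N := V.map π) (fun hb => hne (by
      rwa [Subgroup.map_eq_bot_iff, QuotientGroup.ker_mk'] at hb))
    obtain ⟨w, hw, hw1⟩ := (Subgroup.bot_or_exists_ne_one _).resolve_left hb
    obtain ⟨e, heV, rfl⟩ := hw.1
    have he : e ∉ Subgroup.zpowers (z : S) := fun h => hw1 ((QuotientGroup.eq_one_iff e).mpr h)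
    refine ⟨e, z.2, hz2, hz1, hV2 e heV, he, fun s => ?_⟩
    have hcom : s * e * s⁻¹ * e⁻¹ ∈ Subgroup.zpowers (z : S) := by
      refine (QuotientGroup.eq_one_iff _).mp ?_
      show π (s * e * s⁻¹ * e⁻¹) = 1
      rw [map_mul, map_mul, map_mul, map_inv, map_inv, Subgroup.mem_center_iff.mp hw.2 (π s)]
      group
    rcases pow_mem_pair hz2 hcom with h | h
    · exact Or.inl (mul_inv_eq_one.mp h)
    · exact Or.inr (mul_inv_eq_iff_eq_mul.mp h)
  -- a maximal normal abelian subgroup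
  obtain ⟨W, hW⟩ := (Set.toFinite {W : Subgroup S | W.Normal ∧ IsMulCommutative W}).exists_maximal
    ⟨⊥, inferInstance, inferInstance⟩
  obtain ⟨⟨hWn, hWc⟩, hWmax⟩ := hW
  haveI := hWn
  have hWcomm : ∀ a ∈ W, ∀ b ∈ W, a * b = b * a := fun a ha b hb =>
    congrArg Subtype.val (hWc.is_comm.comm (⟨a, ha⟩ : W) ⟨b, hb⟩)
  -- it is self-centralizing
  have hCW : Subgroup.centralizer (W : Set S) ≤ W := by
    by_contra hne
    set C := Subgroup.centralizer (W : Set S) with hC
    haveI : C.Normal := Subgroup.normal_centralizer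
    let π := QuotientGroup.mk' W
    haveI : (C.map π).Normal := Subgroup.Normal.map inferInstance π (QuotientGroup.mk'_surjective _)
    haveI : Group.IsNilpotent (S ⧸ W) := (hS.to_quotient _).isNilpotent
    have hb := CfsgLib.Core.nilpotent_inf_center_ne_bot (N := C.map π) (fun hb => hne (by
      rwa [Subgroup.map_eq_bot_iff, QuotientGroup.ker_mk'] at hb))
    obtain ⟨w, hw, hw1⟩ := (Subgroup.bot_or_exists_ne_one _).resolve_left hb
    obtain ⟨c, hcC, rfl⟩ := hw.1
    set W' := W ⊔ Subgroup.zpowers c with hW'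
    have hcl : W' = Subgroup.closure ((W : Set S) ∪ {c}) := by
      rw [Subgroup.closure_union, Subgroup.closure_eq, ← Subgroup.zpowers_eq_closure]
    have hW'c : IsMulCommutative W' := by
      rw [hcl]
      refine Subgroup.isMulCommutative_closure ?_
      intro a ha b hb
      rcases ha with ha | ha <;> rcases hb with hb | hb
      · exact hWcomm a ha b hb
      · rw [Set.mem_singleton_iff.mp hb]; exact Subgroup.mem_centralizer_iff.mp hcC a ha
      · rw [Set.mem_singleton_iff.mp ha]; exact (Subgroup.mem_centralizer_iff.mp hcC b hb).symm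
      · rw [Set.mem_singleton_iff.mp ha, Set.mem_singleton_iff.mp hb]
    have hW'n : W'.Normal := by
      refine ⟨fun a ha s => ?_⟩
      have hle : W' ≤ W'.comap (MulAut.conj s).toMonoidHom := by
        refine sup_le (fun x hx => Subgroup.mem_sup_left (hWn.conj_mem x hx s)) (Subgroup.zpowers_le.mpr ?_)
        show s * c * s⁻¹ ∈ W'
        have hm : s * c * s⁻¹ * c⁻¹ ∈ W := by
          refine (QuotientGroup.eq_one_iff _).mp ?_
          show π (s * c * s⁻¹ * c⁻¹) = 1
          rw [map_mul, map_mul, map_mul, map_inv, map_inv, Subgroup.mem_center_iff.mp hw.2 (π s)]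
          group
        have := W'.mul_mem (Subgroup.mem_sup_left hm : _ ∈ W') (Subgroup.mem_sup_right (Subgroup.mem_zpowers c) : c ∈ W')
        rwa [inv_mul_cancel_right] at this
      exact hle ha
    have hcW : c ∈ W := (hWmax ⟨hW'n, hW'c⟩ le_sup_left) (Subgroup.mem_sup_right (Subgroup.mem_zpowers c))
    exact hw1 ((QuotientGroup.eq_one_iff c).mpr hcW)
  have hzW : (z : S) ∈ W := hCW (Subgroup.mem_centralizer_iff.mpr fun a _ => hzc a)
  let V : Subgroup S :=
    { carrier := {v | v ∈ W ∧ v ^ 2 = 1}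
      mul_mem' := fun {a b} ha hb => ⟨W.mul_mem ha.1 hb.1, by
        rw [(show Commute a b from hWcomm a ha.1 b hb.1).mul_pow, ha.2, hb.2, one_mul]⟩
      one_mem' := ⟨W.one_mem, one_pow 2⟩
      inv_mem' := fun {a} ha => ⟨W.inv_mem ha.1, by rw [inv_pow, ha.2, inv_one]⟩ }
  by_cases hV : V ≤ Subgroup.zpowers (z : S)
  swap
  · exact fromV V ⟨fun a ha s => ⟨hWn.conj_mem a ha.1 s, by rw [conj_pow, ha.2, mul_one, mul_inv_cancel]⟩⟩
      (fun v hv => hv.2) hV
  -- the remaining case: one involution in the maximal normal abelian subgroup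
  haveI : IsMulCommutative W := hWc
  haveI hWcy : IsCyclic W := by
    letI : CommGroup W := { (inferInstance : Group W) with mul_comm := hWc.is_comm.comm }
    obtain ⟨k, hk⟩ : ∃ k, Monoid.exponent W = 2 ^ k := by
      obtain ⟨N, hN⟩ := IsPGroup.iff_card.mp (hS.to_subgroup W)
      obtain ⟨k, -, hk⟩ := (Nat.dvd_prime_pow Nat.prime_two).mp (hN ▸ Group.exponent_dvd_nat_card (G := W))
      exact ⟨k, hk⟩
    have hker : Nat.card (powMonoidHom 2 : W →* W).ker ≤ 2 := by
      refine (Nat.card_le_card_of_injective (fun v : (powMonoidHom 2 : W →* W).ker =>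
        (⟨((v.1 : W) : S), hV ⟨v.1.2, by simpa using congrArg Subtype.val (MonoidHom.mem_ker.mp v.2)⟩⟩ : Subgroup.zpowers (z : S)))
        (fun a b h => by simp only [Subtype.mk.injEq] at h; exact Subtype.ext (Subtype.ext h))).trans ?_
      rw [Nat.card_zpowers, Subgroup.orderOf_coe, hz]
    have hle : ∀ i, Nat.card (powMonoidHom (2 ^ i) : W →* W).ker ≤ 2 ^ i := by
      intro i
      induction i with
      | zero =>
        rw [pow_zero]
        refine (Subgroup.card_eq_one.mpr ?_).le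
        ext v; simp
      | succ i ih =>
        let f : (powMonoidHom (2 ^ (i + 1)) : W →* W).ker →* (powMonoidHom (2 ^ i) : W →* W).ker :=
          ((powMonoidHom 2 : W →* W).comp (Subgroup.subtype _)).codRestrict _ (fun v => by
            show ((v : W) ^ 2) ^ 2 ^ i = 1
            rw [← pow_mul, ← pow_succ']; exact v.2)
        have hfk : Nat.card f.ker ≤ 2 := (Nat.card_le_card_of_injective
          (fun v : f.ker => (⟨(v.1 : W), congrArg Subtype.val (MonoidHom.mem_ker.mp v.2)⟩ : (powMonoidHom 2 : W →* W).ker))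
          (fun a b h => by have := congrArg Subtype.val h; exact Subtype.ext (Subtype.ext this))).trans hker
        rw [← f.ker.card_mul_index, Subgroup.index_ker]
        exact (Nat.mul_le_mul hfk ((Subgroup.card_le_card_group _).trans ih)).trans (le_of_eq (pow_succ' 2 i).symm)
    refine IsCyclic.iff_exponent_eq_card.mpr (le_antisymm (Nat.le_of_dvd Nat.card_pos Group.exponent_dvd_nat_card) ?_)
    rw [hk]
    refine le_trans (le_of_eq ?_) (hle k)
    rw [show (powMonoidHom (2 ^ k) : W →* W).ker = ⊤ from eq_top_iff.mpr fun v _ =>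
      MonoidHom.mem_ker.mpr (hk ▸ Monoid.pow_exponent_eq_one v), Subgroup.card_top]
  obtain ⟨w, hw⟩ := hWcy.exists_generator
  have hgen : ∀ a ∈ W, ∃ i : ℤ, (w : S) ^ i = a := fun a ha => by
    obtain ⟨i, hi⟩ := hw ⟨a, ha⟩
    exact ⟨i, congrArg Subtype.val hi⟩
  obtain ⟨n, hn⟩ := IsPGroup.iff_orderOf.mp hS (w : S)
  have hk : ∀ a : S, ∃ k : ℤ, (w : S) ^ k = a * w * a⁻¹ := fun a => hgen _ (hWn.conj_mem _ w.2 a)
  have hact : ∀ (a : S) (k i : ℤ), (w : S) ^ k = a * w * a⁻¹ → a * (w : S) ^ i * a⁻¹ = (w : S) ^ (k * i) :=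
    fun a k i h => by rw [← conj_zpow, ← h, zpow_mul]
  have hfix : ∀ (a : S) (k : ℤ), (w : S) ^ k = a * w * a⁻¹ → ((2 : ℤ) ^ n ∣ k - 1) → a ∈ W := by
    intro a k h hd
    refine hCW (Subgroup.mem_centralizer_iff.mpr fun b hb => ?_)
    obtain ⟨i, rfl⟩ := hgen b hb
    have he : (w : S) ^ k = w := by
      conv_rhs => rw [← zpow_one (w : S)]
      rw [zpow_eq_zpow_iff_modEq, hn, Int.modEq_iff_dvd]
      obtain ⟨c, hc⟩ := hd
      exact ⟨-c, by push_cast; linarith [hc]⟩
    have := hact a k i h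
    rw [zpow_mul, he] at this
    exact (mul_inv_eq_iff_eq_mul.mp this).symm
  -- two elements of `E` independent modulo `W`
  have hEW : ∀ v ∈ E, v ∈ W → v ∈ Subgroup.zpowers (z : S) := fun v hv hv' => hV ⟨hv', hE2 v hv⟩
  have hz2c : Nat.card (Subgroup.zpowers (z : S)) = 2 := by rw [Nat.card_zpowers, Subgroup.orderOf_coe, hz]
  obtain ⟨a, haE, haW⟩ : ∃ a ∈ E, a ∉ W := by
    by_contra hne
    push Not at hne
    have := Subgroup.card_le_of_le (show E ≤ Subgroup.zpowers (z : S) from fun v hv => hEW v hv (hne v hv))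
    omega
  set A := Subgroup.zpowers (z : S) ⊔ Subgroup.zpowers a with hA
  have ha2 := hE2 a haE
  have hsup := sup_elem (K := Subgroup.zpowers (z : S)) (L := Subgroup.zpowers a)
    (fun k hk => by rcases pow_mem_pair hz2 hk with rfl | rfl <;> simp [hz2])
    (fun k hk => by rcases pow_mem_pair ha2 hk with rfl | rfl <;> simp [ha2])
    (fun k hk l hl => by
      rcases pow_mem_pair hz2 hk with rfl | rfl <;> [simp; exact (hzc l).symm])
  have hA4 : Nat.card A ≤ 4 := by
    let φ : Subgroup.zpowers (z : S) × Subgroup.zpowers a → A := fun x =>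
      ⟨x.1 * x.2, A.mul_mem (Subgroup.mem_sup_left x.1.2) (Subgroup.mem_sup_right x.2.2)⟩
    have hφ : Function.Surjective φ := fun y => by
      obtain ⟨-, k, hk, l, hl, e⟩ := hsup y y.2
      exact ⟨(⟨k, hk⟩, ⟨l, hl⟩), Subtype.ext e.symm⟩
    refine (Nat.card_le_card_of_surjective φ hφ).trans ?_
    rw [Nat.card_prod, hz2c, Nat.card_zpowers]
    have := Nat.le_of_dvd two_pos (orderOf_dvd_of_pow_eq_one ha2)
    omega
  obtain ⟨b, hbE, hbA⟩ : ∃ b ∈ E, b ∉ A := by
    by_contra hne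
    push Not at hne
    have := Subgroup.card_le_of_le (show E ≤ A from hne)
    omega
  have hb2 := hE2 b hbE
  have hbW : b ∉ W := fun h => hbA (Subgroup.mem_sup_left (hEW b hbE h))
  have habW : a * b ∉ W := fun h => hbA (by
    have e : b = a⁻¹ * (a * b) := by group
    rw [e]
    exact A.mul_mem (A.inv_mem (Subgroup.mem_sup_right (Subgroup.mem_zpowers a)))
      (Subgroup.mem_sup_left (hEW _ (E.mul_mem haE hbE) h)))
  have hsq : ∀ (t : S) (k : ℤ), t ^ 2 = 1 → (w : S) ^ k = t * w * t⁻¹ → (2 : ℤ) ^ n ∣ k * k - 1 := by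
    intro t k ht hk
    have h2 : (w : S) ^ (k * k) = (w : S) ^ (1 : ℤ) := by
      rw [← hact t k k hk, hk, inv_eq_of_sq ht, zpow_one,
        show t * (t * (w : S) * t) * t = (t * t) * w * (t * t) by group, ← sq, ht, one_mul, mul_one]
    rw [zpow_eq_zpow_iff_modEq, hn, Int.modEq_iff_dvd] at h2
    obtain ⟨c, hc⟩ := h2
    exact ⟨-c, by push_cast at hc; linarith [hc]⟩
  obtain ⟨k₁, hk₁⟩ := hk a
  obtain ⟨k₂, hk₂⟩ := hk b
  have hk₃ : (w : S) ^ (k₁ * k₂) = a * b * w * (a * b)⁻¹ := by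
    rw [← hact a k₁ k₂ hk₁, hk₂]; group
  have hab2 := hE2 _ (E.mul_mem haE hbE)
  have hodd : ∀ k : ℤ, n ≠ 0 → (2 : ℤ) ^ n ∣ k * k - 1 → Odd k := by
    intro k hn0 hd
    rw [← Int.not_even_iff_odd]
    rintro ⟨c, rfl⟩
    have h2 : (2 : ℤ) ∣ (c + c) * (c + c) - 1 := (dvd_pow_self 2 hn0).trans hd
    obtain ⟨d, hd⟩ := h2
    have : (2 : ℤ) * (2 * c * c - d) = 1 := by linarith
    omega
  obtain ⟨m, hm⟩ : ∃ m, n = m + 3 := by
    refine ⟨n - 3, ?_⟩
    by_contra hlt
    have hn2 : n ≤ 2 := by omega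
    have ho : ∀ k : ℤ, ((2 : ℤ) ^ n ∣ k * k - 1) → (2 : ℤ) ^ n ∣ k - 1 ∨ (2 : ℤ) ^ n ∣ k + 1 := by
      intro k hd
      rcases (show n = 0 ∨ n = 1 ∨ n = 2 by omega) with h | h | h
      · rw [h]; exact Or.inl (one_dvd _)
      all_goals
        obtain ⟨c, rfl⟩ := hodd k (by omega) hd
        rw [h]
        norm_num
        try omega
    rcases ho k₁ (hsq a k₁ ha2 hk₁) with h1 | h1
    · exact haW (hfix a k₁ hk₁ h1)
    rcases ho k₂ (hsq b k₂ hb2 hk₂) with h2 | h2
    · exact hbW (hfix b k₂ hk₂ h2)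
    refine habW (hfix (a * b) (k₁ * k₂) hk₃ ?_)
    rw [show k₁ * k₂ - 1 = (k₁ + 1) * k₂ - (k₂ + 1) by ring]
    exact dvd_sub (h1.mul_right _) h2
  subst hm
  have hcases : ∀ k : ℤ, (2 : ℤ) ^ (m + 3) ∣ k * k - 1 → (2 : ℤ) ^ (m + 2) ∣ k - 1 ∨ (2 : ℤ) ^ (m + 2) ∣ k + 1 := by
    intro k hd
    obtain ⟨c, rfl⟩ := hodd k (by omega) hd
    have h4 : (2 : ℤ) ^ (m + 1) ∣ c * (c + 1) := by
      obtain ⟨d, hd⟩ := hd
      refine ⟨d, ?_⟩
      rw [pow_succ, pow_succ, pow_succ] at hd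
      rw [pow_succ]
      linarith [hd]
    have hpow : (2 : ℤ) ^ (m + 2) = 2 * 2 ^ (m + 1) := by ring
    rcases Int.even_or_odd c with hc | hc
    · left
      have hco : IsCoprime ((2 : ℤ) ^ (m + 1)) (c + 1) := by
        refine IsCoprime.pow_left ?_
        rw [Int.isCoprime_iff_gcd_eq_one]
        exact (Int.prime_two.coprime_iff_not_dvd.mpr (fun h => by
          obtain ⟨u, hu⟩ := hc; omega)) |> Int.isCoprime_iff_gcd_eq_one.mp
      rw [hpow, show 2 * c + 1 - 1 = 2 * c by ring]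
      exact mul_dvd_mul_left _ (hco.dvd_of_dvd_mul_right h4)
    · right
      have hco : IsCoprime ((2 : ℤ) ^ (m + 1)) c := by
        refine IsCoprime.pow_left ?_
        exact Int.prime_two.coprime_iff_not_dvd.mpr (fun h => by obtain ⟨u, hu⟩ := hc; omega)
      rw [hpow, show 2 * c + 1 + 1 = 2 * (c + 1) by ring]
      exact mul_dvd_mul_left _ (hco.dvd_of_dvd_mul_left h4)
  obtain ⟨t, k, ht2, htW, hkt, hkd⟩ : ∃ (t : S) (k : ℤ), t ^ 2 = 1 ∧ t ∉ W ∧ (w : S) ^ k = t * w * t⁻¹ ∧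
      (2 : ℤ) ^ (m + 2) ∣ k - 1 := by
    rcases hcases k₁ (hsq a k₁ ha2 hk₁) with h1 | h1
    · exact ⟨a, k₁, ha2, haW, hk₁, h1⟩
    rcases hcases k₂ (hsq b k₂ hb2 hk₂) with h2 | h2
    · exact ⟨b, k₂, hb2, hbW, hk₂, h2⟩
    refine ⟨a * b, k₁ * k₂, hab2, habW, hk₃, ?_⟩
    rw [show k₁ * k₂ - 1 = (k₁ + 1) * k₂ - (k₂ + 1) by ring]
    exact dvd_sub (h1.mul_right _) h2
  refine ⟨t, z.2, hz2, hz1, ht2, fun h => ?_, fun s => ?_⟩
  · rcases pow_mem_pair hz2 h with e | e
    · exact htW (e ▸ W.one_mem)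
    · exact htW (e ▸ hzW)
  -- conjugates of `t` differ from it by an element of `W`
  obtain ⟨l, hl⟩ := hk s
  obtain ⟨l', hl'⟩ := hk s⁻¹
  have hll : (2 : ℤ) ^ (m + 3) ∣ l * l' - 1 := by
    have h2 : (w : S) ^ (l * l') = (w : S) ^ (1 : ℤ) := by
      rw [← hact s l l' hl, hl', zpow_one]; group
    rw [zpow_eq_zpow_iff_modEq, hn, Int.modEq_iff_dvd] at h2
    obtain ⟨c, hc⟩ := h2
    exact ⟨-c, by push_cast at hc; linarith [hc]⟩
  have hxW : s * t * s⁻¹ * t⁻¹ ∈ W := by
    refine hfix _ ((l * l') * (k * k)) ?_ ?_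
    · rw [inv_eq_of_sq ht2, show l * l' * (k * k) = l * (k * (l' * k)) by ring, ← hact s l _ hl,
        ← hact t k _ hkt, ← hact s⁻¹ l' k hl', hkt, inv_eq_of_sq ht2]
      simp only [mul_inv_rev, inv_inv, inv_eq_of_sq ht2, mul_assoc]
    · rw [show l * l' * (k * k) - 1 = (l * l' - 1) * (k * k) + (k * k - 1) by ring]
      exact dvd_add (hll.mul_right _) (hsq t k ht2 hkt)
  set d := s * t * s⁻¹ * t⁻¹ with hd
  have hdt : s * t * s⁻¹ = d * t := by rw [hd, inv_mul_cancel_right]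
  have hdd : (d * t) ^ 2 = 1 := by rw [← hdt, conj_pow, ht2, mul_one, mul_inv_cancel]
  obtain ⟨i, hi⟩ := hgen d hxW
  have hone : (w : S) ^ (i * (k + 1)) = 1 := by
    rw [show i * (k + 1) = i + k * i by ring, zpow_add, ← hact t k i hkt, hi, inv_eq_of_sq ht2, ← hdd, sq]
    group
  have hd2 : d ^ 2 = 1 := by
    rw [← hi, ← zpow_natCast, ← zpow_mul, ← orderOf_dvd_iff_zpow_eq_one, hn]
    rw [← orderOf_dvd_iff_zpow_eq_one, hn] at hone
    obtain ⟨c, hc⟩ := hkd
    have hco : IsCoprime ((2 : ℤ) ^ (m + 3)) (2 ^ (m + 1) * c + 1) := by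
      refine IsCoprime.pow_left ?_
      refine Int.prime_two.coprime_iff_not_dvd.mpr (fun h => ?_)
      rw [pow_succ] at h
      obtain ⟨u, hu⟩ := h
      have : (2 : ℤ) * (u - 2 ^ m * c) = 1 := by linarith
      omega
    push_cast at hone ⊢
    refine hco.dvd_of_dvd_mul_right ?_
    rw [show i * 2 * (2 ^ (m + 1) * c + 1) = i * (k + 1) by
      rw [show k = 2 ^ (m + 2) * c + 1 by linarith]; ring]
    exact hone
  rcases pow_mem_pair hz2 (hV ⟨hxW, hd2⟩) with h | h
  · exact Or.inl (by rw [hdt, h, one_mul])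
  · exact Or.inr (by rw [hdt, h])

/-- An order eight elementary abelian subgroup commuting with a given involution. -/
theorem centralizing {S : Type*} [Group S] [Finite S] (hS : IsPGroup 2 S) (E : Subgroup S)
    (hE : Nat.card E = 8) (hE2 : ∀ e ∈ E, e ^ 2 = 1) :
    ∃ C : Subgroup S, C.index ≤ 2 ∧ ∀ x ∈ C, x ^ 2 = 1 →
      ∃ F : Subgroup S, Nat.card F = 8 ∧ (∀ f ∈ F, f ^ 2 = 1) ∧ ∀ f ∈ F, f * x = x * f := by
  classical
  haveI : Fact (Nat.Prime 2) := ⟨Nat.prime_two⟩
  obtain ⟨z, e, hz, hz2, hz1, he2, hez, hconj⟩ := exists_pair hS E hE hE2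
  have hzc : ∀ s : S, s * z = z * s := fun s => Subgroup.mem_center_iff.mp hz s
  set C := Subgroup.centralizer ({e} : Set S) with hC
  have hCmem : ∀ s, s ∈ C ↔ s * e * s⁻¹ = e := fun s => by
    rw [hC, Subgroup.mem_centralizer_singleton_iff, mul_inv_eq_iff_eq_mul]
  have hCi : C.index ≤ 2 := by
    rw [Subgroup.index_eq_card]
    have hwd : ∀ a b : S, a⁻¹ * b ∈ C → (a * e * a⁻¹ = e ↔ b * e * b⁻¹ = e) := by
      intro a b h
      have hb : b * e * b⁻¹ = a * e * a⁻¹ := by
        have := (hCmem _).mp h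
        calc b * e * b⁻¹ = a * (a⁻¹ * b * e * (a⁻¹ * b)⁻¹) * a⁻¹ := by group
          _ = a * e * a⁻¹ := by rw [this]
      rw [hb]
    let f : S ⧸ C → Prop := fun q => Quotient.liftOn' q (fun a => a * e * a⁻¹ = e) fun a b h =>
      propext (hwd a b (QuotientGroup.leftRel_apply.mp h))
    refine (Nat.card_le_card_of_injective f ?_).trans (by simp)
    intro p q
    induction p using QuotientGroup.induction_on with
    | _ a =>
      induction q using QuotientGroup.induction_on with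
      | _ b =>
        intro h
        have h' : (a * e * a⁻¹ = e) = (b * e * b⁻¹ = e) := h
        have hb : b * e * b⁻¹ = a * e * a⁻¹ := by
          rcases hconj a with ha | ha <;> rcases hconj b with hb | hb
          · rw [ha, hb]
          · rw [(h' ▸ ha : b * e * b⁻¹ = e), ha]
          · rw [(h'.symm ▸ hb : a * e * a⁻¹ = e), hb]
          · rw [ha, hb]
        refine QuotientGroup.eq.mpr ((hCmem _).mpr ?_)
        calc a⁻¹ * b * e * (a⁻¹ * b)⁻¹ = a⁻¹ * (b * e * b⁻¹) * a := by group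
          _ = a⁻¹ * (a * e * a⁻¹) * a := by rw [hb]
          _ = e := by group
  refine ⟨C, hCi, fun x hx hx2 => ?_⟩
  set U := Subgroup.zpowers z ⊔ Subgroup.zpowers e with hU
  have hUs := sup_elem (K := Subgroup.zpowers z) (L := Subgroup.zpowers e)
    (fun k hk => by rcases pow_mem_pair hz2 hk with rfl | rfl <;> simp [hz2])
    (fun k hk => by rcases pow_mem_pair he2 hk with rfl | rfl <;> simp [he2])
    (fun k hk l hl => by
      rcases pow_mem_pair hz2 hk with rfl | rfl <;> [simp; exact (hzc l).symm])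
  have hUC : ∀ u ∈ U, ∀ c ∈ C, u * c = c * u := by
    intro u hu c hc
    have hle : U ≤ Subgroup.centralizer ({c} : Set S) := sup_le
      (Subgroup.zpowers_le.mpr (Subgroup.mem_centralizer_singleton_iff.mpr (hzc c).symm))
      (Subgroup.zpowers_le.mpr (Subgroup.mem_centralizer_singleton_iff.mpr
        (Subgroup.mem_centralizer_singleton_iff.mp hc).symm))
    exact Subgroup.mem_centralizer_singleton_iff.mp (hle hu)
  have hU4 : 4 ≤ Nat.card U ∧ Nat.card U ≤ 4 := by
    let φ : Subgroup.zpowers z × Subgroup.zpowers e → U := fun y =>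
      ⟨y.1 * y.2, U.mul_mem (Subgroup.mem_sup_left y.1.2) (Subgroup.mem_sup_right y.2.2)⟩
    have hzo : orderOf z = 2 := orderOf_eq_prime hz2 hz1
    have heo : orderOf e = 2 := orderOf_eq_prime he2 (fun h => hez (h ▸ one_mem _))
    have hc : Nat.card (Subgroup.zpowers z × Subgroup.zpowers e) = 4 := by
      rw [Nat.card_prod, Nat.card_zpowers, Nat.card_zpowers, hzo, heo]
    have hφ : Function.Bijective φ := by
      refine ⟨fun y₁ y₂ h => Subgroup.mul_injective_of_disjoint ?_ (congrArg Subtype.val h), fun y => ?_⟩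
      · rw [Subgroup.disjoint_def]
        intro a ha ha'
        rcases pow_mem_pair he2 ha' with rfl | rfl
        · rfl
        · exact absurd ha hez
      · obtain ⟨-, k, hk, l, hl, e'⟩ := hUs y y.2
        exact ⟨(⟨k, hk⟩, ⟨l, hl⟩), Subtype.ext e'.symm⟩
    rw [← Nat.card_eq_of_bijective φ hφ, hc]; simp
  have hU2 : ∀ u ∈ U, u ^ 2 = 1 := fun u hu => (hUs u hu).1
  have hUleC : U ≤ C := fun u hu => (hCmem u).mpr (by
    rw [hUC u hu e ((hCmem e).mpr (by group)), mul_inv_cancel_right])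
  by_cases hxU : x ∈ U
  · -- an elementary subgroup of order eight inside the centralizer of `U`
    set F := U ⊔ (E ⊓ C) with hF
    have hFs := sup_elem (K := U) (L := E ⊓ C) hU2 (fun v hv => hE2 v hv.1) (fun u hu v hv => hUC u hu v hv.2)
    have hlt : U < F := by
      rw [lt_iff_le_and_ne]
      refine ⟨le_sup_left, fun h => ?_⟩
      have hle : E ⊓ C ≤ U := h ▸ le_sup_right
      have h1 := Subgroup.card_mul_index (C.subgroupOf E)
      rw [show (C.subgroupOf E).index = C.relIndex E from rfl, hE,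
        show Nat.card (C.subgroupOf E) = Nat.card (E ⊓ C : Subgroup S) by
          rw [← Subgroup.inf_subgroupOf_left, Nat.card_congr (Subgroup.subgroupOfEquivOfLe inf_le_left).toEquiv]] at h1
      have hr : C.relIndex E ≤ 2 := (Subgroup.relIndex_le_of_le_right le_top
        (by rw [Subgroup.relIndex_top_right]; exact Subgroup.index_ne_zero_of_finite)).trans
        (by rw [Subgroup.relIndex_top_right]; exact hCi)
      have h2 := Subgroup.card_le_of_le hle
      have heq : E ⊓ C = U := Subgroup.eq_of_le_of_card_ge hle (by nlinarith [hU4.2])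
      have heE : e ∈ E := (heq ▸ (Subgroup.mem_sup_right (Subgroup.mem_zpowers e)) : e ∈ E ⊓ C).1
      have hEC : E ≤ C := fun v hv => (hCmem v).mpr (by rw [comm_of_sq hE2 v hv e heE, mul_inv_cancel_right])
      rw [inf_eq_left.mpr hEC] at heq
      rw [heq] at hE
      omega
    have hcard : 4 < Nat.card F := lt_of_le_of_lt hU4.1 (by
      have h1 := Subgroup.card_le_of_le hlt.le
      rcases h1.lt_or_eq with h | h
      · exact h
      · exact absurd (Subgroup.eq_of_le_of_card_ge hlt.le h.ge) hlt.ne)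
    obtain ⟨j, hj⟩ := IsPGroup.iff_card.mp (hS.to_subgroup F)
    have h3 : 3 ≤ j := by
      by_contra hlt3
      have := Nat.pow_le_pow_right (n := 2) two_pos (show j ≤ 2 by omega)
      omega
    obtain ⟨F₀, hF₀⟩ := Sylow.exists_subgroup_card_pow_prime (G := F) 2 (n := 3) (hj ▸ pow_dvd_pow 2 h3)
    refine ⟨F₀.map F.subtype, by rw [Subgroup.card_map_of_injective F.subtype_injective, hF₀]; norm_num, ?_, ?_⟩
    · rintro _ ⟨f, -, rfl⟩; exact (hFs f f.2).1
    · rintro _ ⟨f, -, rfl⟩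
      have hle : F ≤ Subgroup.centralizer ({x} : Set S) := sup_le
        (fun u hu => Subgroup.mem_centralizer_singleton_iff.mpr (hUC u hu x hx))
        (fun v hv => Subgroup.mem_centralizer_singleton_iff.mpr (hUC x hxU v hv.2).symm)
      exact Subgroup.mem_centralizer_singleton_iff.mp (hle f.2)
  · set F := U ⊔ Subgroup.zpowers x with hF
    have hxo : orderOf x = 2 := orderOf_eq_prime hx2 (fun h => hxU (h ▸ one_mem _))
    have hFs := sup_elem (K := U) (L := Subgroup.zpowers x) hU2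
      (fun v hv => by rcases pow_mem_pair hx2 hv with rfl | rfl <;> simp [hx2])
      (fun u hu v hv => hUC u hu v (Subgroup.zpowers_le.mpr hx hv))
    let φ : U × Subgroup.zpowers x → F := fun y =>
      ⟨y.1 * y.2, F.mul_mem (Subgroup.mem_sup_left y.1.2) (Subgroup.mem_sup_right y.2.2)⟩
    have hφ : Function.Bijective φ := by
      refine ⟨fun y₁ y₂ h => Subgroup.mul_injective_of_disjoint ?_ (congrArg Subtype.val h), fun y => ?_⟩
      · rw [Subgroup.disjoint_def]
        intro a ha ha'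
        rcases pow_mem_pair hx2 ha' with rfl | rfl
        · rfl
        · exact absurd ha hxU
      · obtain ⟨-, k, hk, l, hl, e'⟩ := hFs y y.2
        exact ⟨(⟨k, hk⟩, ⟨l, hl⟩), Subtype.ext e'.symm⟩
    refine ⟨F, ?_, fun f hf => (hFs f hf).1, fun f hf => ?_⟩
    · rw [← Nat.card_eq_of_bijective φ hφ, Nat.card_prod, Nat.card_zpowers, hxo]; omega
    · exact comm_of_sq (fun f hf => (hFs f hf).1) f hf x (Subgroup.mem_sup_right (Subgroup.mem_zpowers x))

/-- Let G be a finite group with no subgroup of index 2 whose 2-rank is at least 3 (it contains an elementary abelian subgroup of order 8). Then the centralizer of every involution of G also contains an elementary abelian subgroup of order 8. -/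
theorem result {G : Type*} [Group G] [Finite G] (hno : ∀ H : Subgroup G, H.index ≠ 2) (hrank : ∃ E : Subgroup G, Nat.card E = 8 ∧ ∀ e ∈ E, e ^ 2 = 1) (x : G) (hx : orderOf x = 2) : ∃ E : Subgroup G, E ≤ Subgroup.centralizer ({x} : Set G) ∧ Nat.card E = 8 ∧ ∀ e ∈ E, e ^ 2 = 1 := by
  classical
  haveI : Fact (Nat.Prime 2) := ⟨Nat.prime_two⟩
  obtain ⟨E, hE, hE2⟩ := hrank
  obtain ⟨P, hP⟩ := (IsPGroup.of_card (p := 2) (n := 3) (G := E) (by rw [hE]; norm_num)).exists_le_sylow
  obtain ⟨C, hCi, hC⟩ := centralizing P.isPGroup' (E.subgroupOf (P : Subgroup G))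
    (by rw [Nat.card_congr (Subgroup.subgroupOfEquivOfLe hP).toEquiv, hE])
    (fun e he => Subtype.ext (by simpa using hE2 _ he))
  obtain ⟨g₀, hg₀⟩ := CfsgLib.Invol.exists_conj_mem_sylow_two P hx
  have hkey : ∃ g : G, ∃ h : g * x * g⁻¹ ∈ (P : Subgroup G), (⟨_, h⟩ : (P : Subgroup G)) ∈ C := by
    by_cases hin : (⟨_, hg₀⟩ : (P : Subgroup G)) ∈ C
    · exact ⟨g₀, hg₀, hin⟩
    have hCi2 : C.index = 2 := by
      have h1 : C.index ≠ 1 := fun h => hin (by rw [Subgroup.index_eq_one.mp h]; exact Subgroup.mem_top _)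
      have h0 : C.index ≠ 0 := Subgroup.index_ne_zero_of_finite
      omega
    rcases CfsgLib.Transfer.thompson_transfer P (C.map (P : Subgroup G).subtype) (Subgroup.map_subtype_le _)
      (by rw [Subgroup.relIndex, Subgroup.subgroupOf, Subgroup.comap_map_eq_self_of_injective (Subgroup.subtype_injective _)]; exact hCi2)
      (g₀ * x * g₀⁻¹) (by rw [CfsgLib.Invol.orderOf_conj]; exact hx) hg₀
      (by rintro ⟨a, ha, hax⟩; have e : a = ⟨_, hg₀⟩ := Subtype.ext hax; exact hin (e ▸ ha)) with ⟨M, -, hM, -⟩ | ⟨g, hg⟩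
    · exact absurd hM (hno M)
    · obtain ⟨a, ha, hax⟩ := hg
      have e : (a : G) = g * g₀ * x * (g * g₀)⁻¹ :=
        (show (a : G) = g * (g₀ * x * g₀⁻¹) * g⁻¹ from hax).trans (by group)
      have hm : g * g₀ * x * (g * g₀)⁻¹ ∈ (P : Subgroup G) := e ▸ a.2
      have e' : a = ⟨_, hm⟩ := Subtype.ext e
      exact ⟨g * g₀, hm, e' ▸ ha⟩
  obtain ⟨g, hmem, hgC⟩ := hkey
  obtain ⟨F, hF, hF2, hFc⟩ := hC _ hgC (Subtype.ext (by
    show (g * x * g⁻¹) ^ 2 = 1
    rw [conj_pow, ← hx, pow_orderOf_eq_one, mul_one, mul_inv_cancel]))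
  refine ⟨(F.map (P : Subgroup G).subtype).map (MulAut.conj g⁻¹).toMonoidHom, ?_, ?_, ?_⟩
  · rintro _ ⟨_, ⟨f, hf, rfl⟩, rfl⟩
    refine Subgroup.mem_centralizer_singleton_iff.mpr ?_
    have h : (f : G) * (g * x * g⁻¹) = g * x * g⁻¹ * f := congrArg Subtype.val (hFc f hf)
    simp only [MulEquiv.coe_toMonoidHom, MulAut.conj_apply, inv_inv, Subgroup.coe_subtype]
    calc g⁻¹ * (f : G) * g * x = g⁻¹ * ((f : G) * (g * x * g⁻¹)) * g := by group
      _ = g⁻¹ * (g * x * g⁻¹ * f) * g := by rw [h]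
      _ = x * (g⁻¹ * (f : G) * g) := by group
  · rw [Subgroup.card_map_of_injective (MulAut.conj g⁻¹).injective,
      Subgroup.card_map_of_injective (Subgroup.subtype_injective _), hF]
  · rintro _ ⟨_, ⟨f, hf, rfl⟩, rfl⟩
    rw [← map_pow, ← map_pow, hF2 f hf, map_one, map_one]

end Cfsg.Agent.S0221
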