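import Cfsg.Statements.S0225
import Cfsg.Agent.Lib.ZStarCorollaries
import Cfsg.Agent.Lib.InvolSylow
import Mathlib.GroupTheory.SpecificGroups.KleinFour

set_option autoImplicit false
open Cfsg

namespace Cfsg.Agent.S0225

/-- If a finite group G has even order but contains no Klein four-subgroup (2-rank 1), then some involution z of G is central modulo a normal subgroup of odd order: there is a normal subgroup N of odd order containing every commutator z g z⁻¹ g⁻¹. -/
theorem result {G : Type*} [Group G] [Finite G] (heven : Even (Nat.card G)) (hrank : ∀ E : Subgroup G, ¬ IsKleinFour E) : ∃ z : G, orderOf z = 2 ∧ ∃ N : Subgroup G, N.Normal ∧ Odd (Nat.card N) ∧ ∀ g : G, z * g * z⁻¹ * g⁻¹ ∈ N := by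
  classical
  haveI : Fact (Nat.Prime 2) := ⟨Nat.prime_two⟩
  obtain ⟨P⟩ : Nonempty (Sylow 2 G) := inferInstance
  have hP0 : (P : Subgroup G) ≠ ⊥ := P.ne_bot_of_dvd_card (even_iff_two_dvd.mp heven)
  haveI : Nontrivial (P : Subgroup G) := (Subgroup.nontrivial_iff_ne_bot _).mpr hP0
  haveI := P.2.center_nontrivial
  obtain ⟨k, hk0, hk⟩ := (IsPGroup.nontrivial_iff_card (P.2.to_subgroup (Subgroup.center (P : Subgroup G)))).1 inferInstance
  obtain ⟨⟨⟨c, hcP⟩, hcc⟩, hco⟩ :=
    exists_prime_orderOf_dvd_card' 2 (G := Subgroup.center (P : Subgroup G)) (hk ▸ dvd_pow_self 2 hk0.ne')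
  simp only [Subgroup.orderOf_mk] at hco
  have huniq : ∀ w ∈ (P : Subgroup G), orderOf w = 2 → w = c := by
    intro w hw hwo
    by_contra hne
    have hwc : w * c = c * w := congrArg Subtype.val (Subgroup.mem_center_iff.mp hcc ⟨w, hw⟩)
    have hcc2 := CfsgLib.Invol.mul_self_of_orderOf_two hco
    have hww := CfsgLib.Invol.mul_self_of_orderOf_two hwo
    have hsq : (c * w) * (c * w) = 1 := by
      calc (c * w) * (c * w) = c * (w * c) * w := by group
        _ = (c * c) * (w * w) := by rw [hwc]; group
        _ = 1 := by rw [hcc2, hww, one_mul]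
    have p1 : c * (c * w) = w := by rw [← mul_assoc, hcc2, one_mul]
    have p2 : w * (c * w) = c := by rw [← mul_assoc, hwc, mul_assoc, hww, mul_one]
    have p3 : c * w * c = w := by rw [mul_assoc, hwc, p1]
    have p4 : c * w * w = c := by rw [mul_assoc, hww, mul_one]
    let E : Subgroup G :=
      { carrier := {1, c, w, c * w}
        one_mem' := by simp
        mul_mem' := by
          intro a b ha hb
          simp only [Set.mem_insert_iff, Set.mem_singleton_iff] at ha hb ⊢
          rcases ha with rfl | rfl | rfl | rfl <;> rcases hb with rfl | rfl | rfl | rfl <;>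
            simp [hcc2, hww, hwc, hsq, p1, p2, p3, p4]
        inv_mem' := by
          intro a ha
          simp only [Set.mem_insert_iff, Set.mem_singleton_iff] at ha ⊢
          rcases ha with rfl | rfl | rfl | rfl
          · simp
          · exact Or.inr (Or.inl (CfsgLib.Invol.inv_of_orderOf_two hco))
          · exact Or.inr (Or.inr (Or.inl (CfsgLib.Invol.inv_of_orderOf_two hwo)))
          · exact Or.inr (Or.inr (Or.inr (inv_eq_of_mul_eq_one_left hsq))) }
    refine hrank E ⟨?_, ?_⟩
    · have h1c := CfsgLib.Invol.ne_one_of_orderOf_two hco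
      have h1w := CfsgLib.Invol.ne_one_of_orderOf_two hwo
      have hcw : c * w ≠ 1 := fun e => hne (by
        rw [eq_inv_of_mul_eq_one_right e, CfsgLib.Invol.inv_of_orderOf_two hco])
      show Nat.card ({1, c, w, c * w} : Set G) = 4
      rw [Nat.card_coe_set_eq]
      have e1 : c * w ≠ c := fun e => h1w (mul_eq_left.mp e)
      have e2 : c * w ≠ w := fun e => h1c (mul_eq_right.mp e)
      rw [Set.ncard_insert_of_notMem (by simp [h1c.symm, h1w.symm, hcw.symm]),
        Set.ncard_insert_of_notMem (by simp [Ne.symm hne, e1.symm]),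
        Set.ncard_insert_of_notMem (by simp [e2.symm]), Set.ncard_singleton]
    · have hall : ∀ a : E, a ^ 2 = 1 := by
        rintro ⟨a, ha⟩
        apply Subtype.ext
        show a ^ 2 = 1
        rw [pow_two]
        rcases ha with rfl | rfl | rfl | rfl
        · exact one_mul 1
        · exact hcc2
        · exact hww
        · exact hsq
      haveI : Nontrivial E := ⟨⟨c, Or.inr (Or.inl rfl)⟩, 1, fun e =>
        CfsgLib.Invol.ne_one_of_orderOf_two hco (congrArg Subtype.val e)⟩
      refine (Nat.prime_two.eq_one_or_self_of_dvd _ (Monoid.exponent_dvd_of_forall_pow_eq_one hall)).resolve_left ?_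
      rw [Monoid.exp_eq_one_iff]
      exact not_subsingleton E
  have hz := CfsgLib.ZStar.inZStar_of_iso (CfsgLib.ZStar.iso_of_unique P hcP hco huniq)
  refine ⟨c, hco, Cfsg.pPrimeCore 2 G, CfsgLib.Core.normal_pPrimeCore 2, CfsgLib.Core.odd_card_pPrimeCore_two, fun g => ?_⟩
  have := (Cfsg.pPrimeCore 2 G).inv_mem (hz g)
  simpa [mul_assoc] using this

end Cfsg.Agent.S0225
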