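import Cfsg.Statements.S0226
import Mathlib

set_option autoImplicit false
open Cfsg

namespace Cfsg.Agent.S0226

/-- A finite group of even order has an odd number of involutions. -/
theorem result {G : Type*} [Group G] [Finite G] (heven : Even (Nat.card G)) : Odd (Nat.card {t : G // orderOf t = 2}) := by
  classical
  haveI := Fintype.ofFinite G
  rw [Nat.card_eq_fintype_card, Fintype.card_subtype]
  rw [Nat.card_eq_fintype_card] at heven
  have h0 : ∑ g : G with g⁻¹ ≠ g, (1 : ZMod 2) = 0 := by
    refine Finset.sum_involution (fun g _ => g⁻¹) (fun _ _ => by decide) ?_ ?_ ?_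
    · intro g hg _; exact (Finset.mem_filter.mp hg).2
    · intro g hg; simp only [Finset.mem_filter, Finset.mem_univ, true_and, inv_inv] at hg ⊢; exact fun h => hg h.symm
    · intro g hg; exact inv_inv g
  have hA : Even (Finset.card ({g : G | g⁻¹ ≠ g} : Finset G)) := by
    rw [Finset.sum_const, nsmul_eq_mul, mul_one] at h0
    exact even_iff_two_dvd.mpr ((ZMod.natCast_eq_zero_iff _ 2).mp h0)
  have h1 : ({g : G | g⁻¹ = g} : Finset G) = insert 1 ({g : G | orderOf g = 2} : Finset G) := by
    ext g
    simp only [Finset.mem_filter, Finset.mem_univ, true_and, Finset.mem_insert]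
    constructor
    · intro hg
      by_cases hg1 : g = 1
      · exact Or.inl hg1
      · right
        refine orderOf_eq_prime (p := 2) ?_ hg1
        rw [pow_two]; nth_rw 1 [← hg]; exact inv_mul_cancel g
    · rintro (rfl | hg)
      · simp
      · have := pow_orderOf_eq_one g
        rw [hg, pow_two] at this
        exact inv_eq_of_mul_eq_one_right this
  have h2 := Finset.card_filter_add_card_filter_not (s := (Finset.univ : Finset G)) (fun g => g⁻¹ = g)
  rw [h1, Finset.card_insert_of_notMem (by simp), Finset.card_univ] at h2
  obtain ⟨a, ha⟩ := hA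
  obtain ⟨b, hb⟩ := heven
  simp only [ne_eq] at ha
  rw [Nat.odd_iff]
  omega

end Cfsg.Agent.S0226
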