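import Cfsg.Statements.S0228
import Mathlib

set_option autoImplicit false
open Cfsg

namespace Cfsg.Agent.S0228

/-- A group of order 12 in which no involution is central is isomorphic to the alternating group on four letters. -/
theorem result {G : Type*} [Group G] [Finite G] (hG : Nat.card G = 12) (hz : ∀ z : G, orderOf z = 2 → z ∉ Subgroup.center G) : Nonempty (G ≃* alternatingGroup (Fin 4)) := by
  classical
  haveI : Fact (Nat.Prime 3) := ⟨by norm_num⟩
  haveI : Fact (Nat.Prime 2) := ⟨Nat.prime_two⟩
  obtain ⟨P⟩ : Nonempty (Sylow 3 G) := inferInstance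
  have hPc : Nat.card P = 3 := by
    rw [P.card_eq_multiplicity, hG, ← Nat.multiplicity_eq_factorization (by norm_num) (by norm_num), multiplicity_eq_of_dvd_of_not_dvd (k := 1) (by norm_num) (by norm_num), pow_one]
  have hnn : ¬ (P : Subgroup G).Normal := by
    intro hn
    haveI : IsCyclic (P : Subgroup G) := isCyclic_of_prime_card (p := 3) hPc
    obtain ⟨x, hx⟩ := IsCyclic.exists_ofOrder_eq_natCard (α := (P : Subgroup G))
    rw [hPc] at hx
    obtain ⟨Q⟩ : Nonempty (Sylow 2 G) := inferInstance
    have hQc : Nat.card Q = 2 ^ 2 := by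
      rw [Q.card_eq_multiplicity, hG, ← Nat.multiplicity_eq_factorization (by norm_num) (by norm_num), multiplicity_eq_of_dvd_of_not_dvd (k := 2) (by norm_num) (by norm_num)]
    have hQcomm := (IsPGroup.isMulCommutative_of_card_eq_prime_sq hQc).is_comm.comm
    -- some involution in Q centralises P
    obtain ⟨t, htQ, ht, htc⟩ : ∃ t ∈ (Q : Subgroup G), orderOf t = 2 ∧ ∀ p ∈ (P : Subgroup G), t * p = p * t := by
      set f := Subgroup.normalizerMonoidHom (P : Subgroup G)
      haveI : IsCyclic (P : Subgroup G) := isCyclic_of_prime_card (p := 3) hPc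
      have hAut : Nat.card (MulAut (P : Subgroup G)) = 2 := by
        rw [IsCyclic.card_mulAut, hPc]; rfl
      let r : (Q : Subgroup G) →* MulAut (P : Subgroup G) :=
        f.comp (Subgroup.inclusion (show (Q : Subgroup G) ≤ Subgroup.normalizer ((P : Subgroup G) : Set G) by
          rw [Subgroup.normalizer_eq_top_iff.mpr hn]; exact le_top))
      have hk : 2 ≤ Nat.card r.ker := by
        have h1 := r.ker.card_mul_index
        rw [Subgroup.index_ker, hQc] at h1
        have h2 : Nat.card r.range ≤ 2 := (Subgroup.card_le_card_group r.range).trans hAut.le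
        interval_cases Nat.card r.range <;> omega
      have hev : Even (Nat.card r.ker) := by
        have h1 := Subgroup.card_subgroup_dvd_card r.ker
        rw [hQc] at h1
        obtain ⟨i, hi, he⟩ := (Nat.dvd_prime_pow Nat.prime_two).mp h1
        rw [he]; exact Nat.even_pow.mpr ⟨even_two, by rintro rfl; rw [he] at hk; omega⟩
      obtain ⟨t, ht⟩ := exists_prime_orderOf_dvd_card' (G := r.ker) 2 hev.two_dvd
      refine ⟨t.1.1, t.1.2, ?_, fun p hp => ?_⟩
      · rw [orderOf_submonoid, orderOf_submonoid]; exact ht
      · have h3 := DFunLike.congr_fun t.2 (⟨p, hp⟩ : (P : Subgroup G))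
        have h4 := congrArg Subtype.val h3
        exact mul_inv_eq_iff_eq_mul.mp h4
    apply hz t ht
    -- C(t) contains P and Q
    have hle : (P : Subgroup G) ⊔ (Q : Subgroup G) ≤ Subgroup.centralizer ({t} : Set G) := by
      refine sup_le (fun p hp => ?_) (fun q hq => ?_)
      · rw [Subgroup.mem_centralizer_iff]; rintro _ rfl; exact htc p hp
      · rw [Subgroup.mem_centralizer_iff]; rintro _ rfl
        exact congrArg Subtype.val (hQcomm ⟨_, htQ⟩ ⟨q, hq⟩)
    have htop : Subgroup.centralizer ({t} : Set G) = ⊤ := by
      apply Subgroup.eq_top_of_card_eq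
      have h3 := Subgroup.card_dvd_of_le (le_sup_left.trans hle)
      have h4 := Subgroup.card_dvd_of_le (le_sup_right.trans hle)
      rw [hPc] at h3; rw [hQc] at h4
      have h5 : Nat.card G ∣ Nat.card (Subgroup.centralizer ({t} : Set G)) := by
        rw [hG]; exact Nat.Coprime.mul_dvd_of_dvd_of_dvd (by norm_num : Nat.Coprime 3 4) h3 h4
      exact Nat.dvd_antisymm (Subgroup.card_subgroup_dvd_card _) h5
    rw [Subgroup.mem_center_iff]
    intro g
    have : g ∈ Subgroup.centralizer ({t} : Set G) := htop ▸ Subgroup.mem_top g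
    exact (Subgroup.mem_centralizer_iff.mp this t rfl).symm
  have hn3 : Nat.card (Sylow 3 G) = 4 := by
    have h1 := card_sylow_modEq_one 3 G
    have h2 := P.card_dvd_index
    have h3 := (P : Subgroup G).index_mul_card
    rw [hG, hPc] at h3
    have h4 : (P : Subgroup G).index = 4 := by omega
    rw [h4] at h2
    have h5 : Nat.card (Sylow 3 G) ∈ Nat.divisors 4 := Nat.mem_divisors.mpr ⟨h2, by norm_num⟩
    rw [show Nat.divisors 4 = {1, 2, 4} by decide] at h5
    simp only [Finset.mem_insert, Finset.mem_singleton] at h5
    rcases h5 with h5 | h5 | h5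
    · exfalso
      apply hnn
      haveI := (Nat.card_eq_one_iff_unique.mp h5).1
      exact Sylow.normal_of_subsingleton P
    · rw [h5] at h1; exact absurd h1 (by decide)
    · exact h5
  let e := (Finite.equivFinOfCardEq hn3).permCongrHom
  let φ : G →* Equiv.Perm (Fin 4) := e.toMonoidHom.comp (MulAction.toPermHom G (Sylow 3 G))
  have hker : φ.ker = ⊥ := by
    have hle : φ.ker ≤ (P : Subgroup G) := by
      have hNP : Subgroup.normalizer ((P : Subgroup G) : Set G) = P := by
        apply (Subgroup.eq_of_le_of_card_ge Subgroup.le_normalizer ?_).symm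
        have h := (Subgroup.normalizer ((P : Subgroup G) : Set G)).index_mul_card
        have h9 : (Subgroup.normalizer ((P : Subgroup G) : Set G)).index = 4 := P.card_eq_index_normalizer.symm.trans hn3
        rw [h9, hG] at h
        rw [hPc]; omega
      intro g hg
      rw [← hNP]
      apply Sylow.smul_eq_iff_mem_normalizer.mp
      have : MulAction.toPermHom G (Sylow 3 G) g = 1 := by
        apply e.injective; rw [map_one]; exact hg
      exact Equiv.ext_iff.mp this P
    by_contra hne
    apply hnn
    have : φ.ker = (P : Subgroup G) := by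
      apply Subgroup.eq_of_le_of_card_ge hle
      have hd := Subgroup.card_dvd_of_le hle
      rw [hPc] at hd ⊢
      rcases (Nat.dvd_prime (by norm_num)).mp hd with h | h
      · exact absurd (Subgroup.card_eq_one.mp h) hne
      · omega
    rw [← this]; infer_instance
  have hinj : Function.Injective φ := (MonoidHom.ker_eq_bot_iff φ).mp hker
  have hidx : φ.range.index = 2 := by
    have h := φ.range.index_mul_card
    rw [← Nat.card_congr (φ.ofInjective hinj).toEquiv, hG, Nat.card_perm, Nat.card_fin] at h
    norm_num [Nat.factorial] at h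
    omega
  exact ⟨(φ.ofInjective hinj).trans (MulEquiv.subgroupCongr (Equiv.Perm.eq_alternatingGroup_of_index_eq_two hidx))⟩

end Cfsg.Agent.S0228
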