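import Cfsg.Statements.S0229
import Cfsg.Agent.Lib.InvolDihedral

set_option autoImplicit false
open Cfsg

namespace Cfsg.Agent.S0229

/-- Let t be an involution of a Sylow 2-subgroup S of a finite group G, conjugate in G to no other element of S, and let s be an involution of G not conjugate to t. Then the order of st is twice an odd number. -/
theorem result {G : Type*} [Group G] [Finite G] (S : Sylow 2 G) (t : G) (ht : orderOf t = 2) (htS : t ∈ S) (hiso : ∀ g : G, g * t * g⁻¹ ∈ S → g * t * g⁻¹ = t) (s : G) (hs : orderOf s = 2) (hns : ¬ IsConj s t) : orderOf (s * t) % 4 = 2 := by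
  haveI : Fact (Nat.Prime 2) := ⟨Nat.prime_two⟩
  have hev := CfsgLib.Invol.even_orderOf_mul_of_not_isConj hs ht hns
  have hev' : orderOf (t * s) = orderOf (s * t) := by
    rw [← CfsgLib.Invol.orderOf_conj t (s * t), CfsgLib.Invol.inv_of_orderOf_two ht]
    congr 1
    rw [mul_assoc, mul_assoc, CfsgLib.Invol.mul_self_of_orderOf_two ht, mul_one]
  by_contra hne
  have h4 : 4 ∣ orderOf (t * s) := by
    have := hev.two_dvd; omega
  obtain ⟨v, hv1, hv2⟩ := CfsgLib.Invol.exists_conj_two_power ht hs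
  have hvo : orderOf v = 2 := by rw [← CfsgLib.Invol.isConj_orderOf_eq hv1]; exact hs
  have ha : 2 ≤ (orderOf (t * s)).factorization 2 :=
    (Nat.Prime.pow_dvd_iff_le_factorization Nat.prime_two (orderOf_pos _).ne').mp h4
  set a := (orderOf (t * s)).factorization 2
  have hev2 : Even (orderOf (t * v)) := by rw [hv2]; exact Nat.even_pow.mpr ⟨even_two, by omega⟩
  obtain ⟨hz, hzt, -⟩ := CfsgLib.Invol.central_involution ht hvo hev2
  set z := (t * v) ^ (orderOf (t * v) / 2) with hzdef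
  obtain ⟨j, hj⟩ : ∃ j : ℕ, orderOf (t * v) = 4 * j := by
    obtain ⟨b, hb⟩ := Nat.exists_eq_add_of_le ha
    exact ⟨2 ^ b, by rw [hv2, hb, pow_add]; norm_num⟩
  have hconj : ((t * v) ^ (-(j : ℤ))) * t * ((t * v) ^ (-(j : ℤ)))⁻¹ = z * t := by
    rw [CfsgLib.Invol.conj_zpow_self ht hvo]
    congr 1
    have hz' : z = (t * v) ^ (2 * (j : ℤ)) := by
      rw [hzdef, hj, show 4 * j / 2 = 2 * j by omega, ← zpow_natCast]; push_cast; rfl
    rw [mul_neg, zpow_neg, ← hz', CfsgLib.Invol.inv_of_orderOf_two hz]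
  obtain ⟨Q, hQt, hQv⟩ := CfsgLib.Invol.exists_sylow_mem_pair
      (CfsgLib.Invol.isPGroup_closure_pair ht hvo hv2)
      (Subgroup.subset_closure (show t ∈ ({t, v} : Set G) by simp))
      (Subgroup.subset_closure (show v ∈ ({t, v} : Set G) by simp))
  have hQz : z * t ∈ Q := Q.toSubgroup.mul_mem (Q.toSubgroup.pow_mem (Q.toSubgroup.mul_mem hQt hQv) _) hQt
  obtain ⟨k, hk⟩ := MulAction.exists_smul_eq G Q S
  have hmem : ∀ w : G, w ∈ Q → k * w * k⁻¹ ∈ S := fun w hw => by
    rw [← hk]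
    exact ⟨w, hw, rfl⟩
  have e1 := hiso k (hmem t hQt)
  have e2 := hiso (k * (t * v) ^ (-(j : ℤ))) (by
    have := hmem _ hQz
    rw [← hconj] at this
    convert this using 1
    group)
  rw [show k * (t * v) ^ (-(j : ℤ)) * t * (k * (t * v) ^ (-(j : ℤ)))⁻¹
      = k * ((t * v) ^ (-(j : ℤ)) * t * ((t * v) ^ (-(j : ℤ)))⁻¹) * k⁻¹ by group, hconj] at e2
  have he := mul_left_cancel (mul_right_cancel (e1.trans e2.symm))
  exact CfsgLib.Invol.ne_one_of_orderOf_two hz (right_eq_mul.mp he)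

end Cfsg.Agent.S0229
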