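import Cfsg.Statements.S0230
import Mathlib
import Cfsg.Agent.Lib.InvolDihedral

set_option autoImplicit false
open Cfsg

namespace Cfsg.Agent.S0230

/-- Let G be a finite group with two non-conjugate involutions, and let t be an involution whose centralizer has maximal order among centralizers of involutions. Then |G| < |C_G(t)|^3. -/
theorem result {G : Type*} [Group G] [Finite G] (s t : G) (hs : orderOf s = 2) (ht : orderOf t = 2) (hnc : ¬ IsConj s t) (hmax : ∀ u : G, orderOf u = 2 → Nat.card (Subgroup.centralizer ({u} : Set G)) ≤ Nat.card (Subgroup.centralizer ({t} : Set G))) : Nat.card G < Nat.card (Subgroup.centralizer ({t} : Set G)) ^ 3 := by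
  classical
  haveI := Fintype.ofFinite G
  set c := Nat.card (Subgroup.centralizer ({t} : Set G)) with hc
  have hc0 : 0 < c := Nat.card_pos
  set I := (Finset.univ.filter fun z : G => orderOf z = 2 ∧ z ∈ Subgroup.centralizer ({t} : Set G))
  have hsub : Finset.univ.filter (fun u : G => IsConj s u) ⊆
      I.biUnion (fun z => Finset.univ.filter (fun u => u ∈ Subgroup.centralizer ({z} : Set G))) := by
    intro u hu
    simp only [Finset.mem_filter, Finset.mem_univ, true_and] at hu
    have ho := (CfsgLib.Invol.isConj_orderOf_eq hu).symm.trans hs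
    have hev := CfsgLib.Invol.even_orderOf_mul_of_not_isConj ho ht (fun h => hnc (hu.trans h))
    obtain ⟨hz, hzu, hzv⟩ := CfsgLib.Invol.central_involution ho ht hev
    simp only [Finset.mem_biUnion, I, Finset.mem_filter, Finset.mem_univ, true_and]
    exact ⟨_, ⟨hz, CfsgLib.Invol.mem_centralizer_singleton.mpr hzv.eq⟩,
      CfsgLib.Invol.mem_centralizer_singleton.mpr hzu.symm.eq⟩
  have hIc : I.card < c := by
    rw [hc, Nat.card_eq_fintype_card, Fintype.card_subtype]
    refine Finset.card_lt_card ⟨fun z hz => ?_, fun h => ?_⟩
    · simp only [I, Finset.mem_filter, Finset.mem_univ, true_and] at hz ⊢; exact hz.2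
    · have := h (show (1 : G) ∈ _ by simp)
      simp [I] at this
  have hcard : Nat.card {u : G // IsConj s u} ≤ I.card * c := by
    rw [Nat.card_eq_fintype_card, Fintype.card_subtype]
    refine (Finset.card_le_card hsub).trans (Finset.card_biUnion_le_card_mul _ _ _ fun z hz => ?_)
    simp only [I, Finset.mem_filter, Finset.mem_univ, true_and] at hz
    have := hmax z hz.1
    rw [Nat.card_eq_fintype_card, Fintype.card_subtype] at this
    exact this
  have hmul := CfsgLib.Invol.card_isConj_mul_card_centralizer s
  have hsc := hmax s hs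
  calc Nat.card G = _ := hmul.symm
    _ ≤ (I.card * c) * c := Nat.mul_le_mul hcard hsc
    _ < c ^ 3 := by
      rw [show c ^ 3 = c * (c * c) by ring, mul_assoc]
      exact Nat.mul_lt_mul_of_pos_right hIc (Nat.mul_pos hc0 hc0)

end Cfsg.Agent.S0230
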