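import Cfsg.Statements.S0231
import Mathlib
import Cfsg.Agent.Lib.InvolSylow

set_option autoImplicit false
open scoped Pointwise
open Cfsg

namespace Cfsg.Agent.S0231

/-- Let T be a Sylow 2-subgroup of the finite group G which is not normal and which intersects every other Sylow 2-subgroup trivially. Then G has a single conjugacy class of involutions. -/
theorem result {G : Type*} [Group G] [Finite G] (T : Sylow 2 G) (hnn : ¬ (T : Subgroup G).Normal) (hTI : ∀ g : G, MulAut.conj g • (T : Subgroup G) ≠ T → MulAut.conj g • (T : Subgroup G) ⊓ T = ⊥) (s t : G) (hs : orderOf s = 2) (ht : orderOf t = 2) : IsConj s t := by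
  haveI : Fact (Nat.Prime 2) := ⟨Nat.prime_two⟩
  by_contra hnc
  have hTI2 : ∀ A B : Sylow 2 G, ∀ z : G, z ∈ A → z ∈ B → z ≠ 1 → A = B := by
    intro A B z hA hB hz
    obtain ⟨a, ha⟩ := MulAction.exists_smul_eq G A T
    have h1 := CfsgLib.Invol.conj_mem_of_smul_eq ha hA
    have h2 : a * z * a⁻¹ ∈ (a • B : Sylow 2 G) := ⟨z, hB, rfl⟩
    obtain ⟨b, hb⟩ := MulAction.exists_smul_eq G T (a • B)
    by_cases hbT : MulAut.conj b • (T : Subgroup G) = T
    · have : b • T = T := Sylow.ext hbT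
      rw [this, ← ha] at hb
      exact smul_left_cancel a hb
    · exfalso
      have h3 := hTI b hbT
      have h4 : a * z * a⁻¹ ∈ MulAut.conj b • (T : Subgroup G) ⊓ T := ⟨by rw [← hb] at h2; exact h2, h1⟩
      rw [h3, Subgroup.mem_bot] at h4
      exact hz (by simpa using h4)
  have key : ∀ u v : G, orderOf u = 2 → orderOf v = 2 → ¬ IsConj u v → ∀ A : Sylow 2 G, u ∈ A → v ∈ A := by
    intro u v hu hv huv A hA
    have hev := CfsgLib.Invol.even_orderOf_mul_of_not_isConj hu hv huv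
    obtain ⟨hz, hzu, hzv⟩ := CfsgLib.Invol.central_involution hu hv hev
    obtain ⟨B, hBz, hBu⟩ := CfsgLib.Invol.mem_sylow_of_commute hz hu hzu
    obtain ⟨C, hCz, hCv⟩ := CfsgLib.Invol.mem_sylow_of_commute hz hv hzv
    rw [hTI2 A B u hA hBu (CfsgLib.Invol.ne_one_of_orderOf_two hu),
      hTI2 B C _ hBz hCz (CfsgLib.Invol.ne_one_of_orderOf_two hz)]
    exact hCv
  -- pick a Sylow containing s
  have hzp : IsPGroup 2 (Subgroup.zpowers s) := IsPGroup.of_card (n := 1) (by rw [Nat.card_zpowers, hs, pow_one])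
  obtain ⟨A, hA'⟩ := hzp.exists_le_sylow
  have hA : s ∈ A := hA' (Subgroup.mem_zpowers s)
  have htA := key s t hs ht hnc A hA
  have hfix : ∀ g : G, g • A = A := by
    intro g
    have hs' : orderOf (g * s * g⁻¹) = 2 := by rw [CfsgLib.Invol.orderOf_conj]; exact hs
    have h1 : g * s * g⁻¹ ∈ (g • A : Sylow 2 G) := ⟨s, hA, rfl⟩
    have h2 : t ∈ (g • A : Sylow 2 G) := key _ t hs' ht
      (fun h => hnc ((isConj_iff.mpr ⟨g, rfl⟩).trans h)) _ h1
    exact hTI2 _ _ t h2 htA (CfsgLib.Invol.ne_one_of_orderOf_two ht)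
  apply hnn
  obtain ⟨b, hb⟩ := MulAction.exists_smul_eq G A T
  have : T = A := by rw [← hb, hfix]
  rw [this, ← Subgroup.normalizer_eq_top_iff, eq_top_iff]
  exact fun g _ => Sylow.smul_eq_iff_mem_normalizer.mp (hfix g)

end Cfsg.Agent.S0231
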