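import Cfsg.Statements.S0233
import Mathlib
import Cfsg.Agent.Lib.InvolCount
import Cfsg.Agent.S0238

set_option autoImplicit false
open Cfsg

namespace Cfsg.Agent.S0233

/-- Let G be a finite group of even order with exactly n involutions whose centre has odd order, and put a = |G|/n. Then G has a proper subgroup H with |G : H| = 2 or |G : H| < a(a+1)/2; over ℕ the latter reads 2·|G:H|·n² < |G|·(|G| + n). -/
theorem result {G : Type*} [Group G] [Finite G] (heven : Even (Nat.card G)) (hZ : Odd (Nat.card (Subgroup.center G))) : ∃ H : Subgroup G, H ≠ ⊤ ∧ (H.index = 2 ∨ 2 * H.index * (Nat.card {t : G // orderOf t = 2}) ^ 2 < Nat.card G * (Nat.card G + Nat.card {t : G // orderOf t = 2})) := by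
  classical
  haveI := Fintype.ofFinite G
  obtain ⟨t, ht⟩ := CfsgLib.Invol.exists_orderOf_two_of_even heven
  haveI : Nontrivial G := ⟨⟨t, 1, CfsgLib.Invol.ne_one_of_orderOf_two ht⟩⟩
  by_cases h2 : ∃ H : Subgroup G, H ≠ ⊤ ∧ H.index = 2
  · obtain ⟨H, hH, h⟩ := h2; exact ⟨H, hH, Or.inl h⟩
  obtain ⟨H, hH, hmax⟩ := CfsgLib.Invol.exists_max_proper (G := G)
  refine ⟨H, hH, Or.inr ?_⟩
  have hg := H.index_mul_card
  set g := Nat.card G with hgdef
  set e := H.index with he
  set n := Nat.card {u : G // orderOf u = 2} with hn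
  have he0 : 0 < e := Nat.pos_of_ne_zero Subgroup.index_ne_zero_of_finite
  have hprop : ∀ K : Subgroup G, K ≠ ⊤ → e * Nat.card K ≤ g := fun K hK =>
    hg ▸ Nat.mul_le_mul_left e (hmax K hK)
  set pr := fun x : G => Nat.card {p : G × G // orderOf p.1 = 2 ∧ orderOf p.2 = 2 ∧ p.1 * p.2 = x}
  have key : ∀ x : G, 2 * e * pr x + (if orderOf x = 2 then 4 * e else 0) ≤
      g + (if orderOf x = 2 then g else 0) + (if x = 1 then 2 * e * n else 0) := by
    intro x
    by_cases hx1 : x = 1
    · subst hx1
      have hp1 : pr 1 = n := CfsgLib.Invol.card_pairs_one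
      simp [hp1]
    have hS := Cfsg.Agent.S0238.result x
    by_cases hx : orderOf x = 2
    · simp only [hx, hx1, if_true, if_false, add_zero]
      have hCtop : Subgroup.centralizer ({x} : Set G) ≠ ⊤ := by
        intro htop
        have hxZ : x ∈ Subgroup.center G := Subgroup.mem_center_iff.mpr fun a =>
          CfsgLib.Invol.mem_centralizer_singleton.mp (htop ▸ Subgroup.mem_top a)
        have := orderOf_dvd_natCard (⟨x, hxZ⟩ : Subgroup.center G)
        rw [Subgroup.orderOf_mk, hx] at this
        exact hZ.not_two_dvd_nat this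
      have h1 := hprop _ hCtop
      have h3 := Nat.mul_le_mul_left e (hS.2.2 hx)
      change 2 * e * Nat.card _ + _ ≤ _
      nlinarith
    simp only [hx, hx1, if_false, add_zero]
    change 2 * e * Nat.card _ ≤ g
    by_cases hr : IsConj x x⁻¹
    · have hne : x⁻¹ ≠ x := fun h => hx (CfsgLib.Invol.orderOf_two_iff.mpr ⟨hx1, by
        nth_rw 1 [← h]; exact inv_mul_cancel x⟩)
      obtain ⟨K, hCK, hK⟩ := CfsgLib.Invol.exists_ext_centralizer hr hne
      have hKtop : K ≠ ⊤ := by
        rintro rfl
        rw [Subgroup.card_top] at hK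
        refine h2 ⟨Subgroup.centralizer ({x} : Set G), ?_, ?_⟩
        · intro h
          rw [h, Subgroup.card_top] at hK
          have : 0 < Nat.card G := Nat.card_pos
          omega
        · have h3 := (Subgroup.centralizer ({x} : Set G)).index_mul_card
          rw [hK] at h3
          exact Nat.eq_of_mul_eq_mul_right Nat.card_pos h3
      have h1 := hprop K hKtop
      rw [hK] at h1
      calc _ ≤ 2 * e * Nat.card (Subgroup.centralizer ({x} : Set G)) := Nat.mul_le_mul_left _ hS.1
        _ ≤ g := by linarith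
    · rw [hS.2.1 hr]; simp
  have hsum := Finset.sum_le_sum (s := Finset.univ) (fun x _ => key x)
  rw [Finset.sum_add_distrib, Finset.sum_add_distrib, Finset.sum_add_distrib, ← Finset.mul_sum,
    ← CfsgLib.Invol.card_involutions_sq, Finset.sum_ite_eq', Finset.sum_const, Finset.card_univ,
    ← Nat.card_eq_fintype_card, ← Finset.sum_filter, ← Finset.sum_filter, Finset.sum_const,
    Finset.sum_const] at hsum
  have hI : (Finset.univ.filter fun u : G => orderOf u = 2).card = n := by
    rw [hn, Nat.card_eq_fintype_card, Fintype.card_subtype]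
  simp only [hI, Finset.mem_univ, if_true, smul_eq_mul, ← hgdef, ← hn] at hsum
  have hn0 : 0 < n := by
    haveI : Nonempty {u : G // orderOf u = 2} := ⟨⟨t, ht⟩⟩
    exact Nat.card_pos
  nlinarith [Nat.mul_pos he0 hn0]

end Cfsg.Agent.S0233
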