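import Cfsg.Statements.S0232
import Mathlib
import Cfsg.Agent.Lib.InvolCount
import Cfsg.Agent.S0219
import Cfsg.Agent.S0230
import Cfsg.Agent.S0233

set_option autoImplicit false
open Cfsg

namespace Cfsg.Agent.S0232

/-- Induction form. -/
theorem aux : ∀ n : ℕ, ∀ (G : Type*) [Group G] [Finite G], Nat.card G = n → Even n → 2 < n →
    ∃ H : Subgroup G, H ≠ ⊤ ∧ Nat.card G < (Nat.card H) ^ 3 := by
  intro n
  induction n using Nat.strong_induction_on with
  | _ n ih =>
  intro G _ _ hn heven hgt
  classical
  haveI : Fact (Nat.Prime 2) := ⟨Nat.prime_two⟩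
  by_cases h2 : ∃ H : Subgroup G, H.index = 2
  · obtain ⟨H, hi⟩ := h2
    have h := H.index_mul_card
    rw [hi] at h
    refine ⟨H, fun hH => ?_, ?_⟩
    · rw [hH, Subgroup.index_top] at hi; omega
    · have h4 : 2 ≤ Nat.card H := by omega
      have h5 : 2 * 2 ≤ Nat.card H * Nat.card H := Nat.mul_le_mul h4 h4
      nlinarith
  by_cases hZ : Odd (Nat.card (Subgroup.center G))
  · obtain ⟨t, ht, hmax⟩ := Set.exists_max_image {u : G | orderOf u = 2}
      (fun u => Nat.card (Subgroup.centralizer ({u} : Set G))) (Set.toFinite _)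
      (CfsgLib.Invol.exists_orderOf_two_of_even (hn.symm ▸ heven))
    change orderOf t = 2 at ht
    set c := Nat.card (Subgroup.centralizer ({t} : Set G)) with hc
    have hCtop : Subgroup.centralizer ({t} : Set G) ≠ ⊤ := by
      intro htop
      have hxZ : t ∈ Subgroup.center G := Subgroup.mem_center_iff.mpr fun a =>
        CfsgLib.Invol.mem_centralizer_singleton.mp (htop ▸ Subgroup.mem_top a)
      have := orderOf_dvd_natCard (⟨t, hxZ⟩ : Subgroup.center G)
      rw [Subgroup.orderOf_mk, ht] at this
      exact hZ.not_two_dvd_nat this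
    by_cases hone : ∃ s : G, orderOf s = 2 ∧ ¬ IsConj s t
    · obtain ⟨s, hs, hns⟩ := hone
      exact ⟨_, hCtop, Cfsg.Agent.S0230.result s t hs ht hns (fun u hu => hmax u hu)⟩
    push_neg at hone
    obtain ⟨H, hH, hi | hi⟩ := Cfsg.Agent.S0233.result (hn.symm ▸ heven) hZ
    · exact absurd ⟨H, hi⟩ h2
    have hcl : Nat.card {u : G // orderOf u = 2} * c = Nat.card G := by
      rw [← CfsgLib.Invol.card_isConj_mul_card_centralizer t]
      congr 1
      exact Nat.card_congr (Equiv.subtypeEquivRight fun u =>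
        ⟨fun h => (hone u h).symm, fun h => (CfsgLib.Invol.isConj_orderOf_eq h).symm.trans ht⟩)
    have hg := H.index_mul_card
    have hg0 : 0 < Nat.card G := Nat.card_pos
    have hc0 : 0 < c := Nat.card_pos
    set g := Nat.card G
    set m := Nat.card {u : G // orderOf u = 2}
    have h3 : 2 * H.index * (m * c) ^ 2 < g * (g * c ^ 2 + (m * c) * c) := by
      nlinarith [Nat.mul_lt_mul_of_pos_right hi (Nat.mul_pos hc0 hc0)]
    rw [hcl] at h3
    have h4 : H.index < c ^ 2 := by
      by_contra h5
      rw [not_lt] at h5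
      have h6 : c ≤ c ^ 2 := Nat.le_self_pow two_ne_zero c
      nlinarith [Nat.mul_le_mul_left (g * g) h5, Nat.mul_le_mul_left (g * g) h6]
    have hh0 : 0 < Nat.card H := Nat.card_pos
    have h5 : g < c ^ 2 * Nat.card H := hg ▸ Nat.mul_lt_mul_of_pos_right h4 hh0
    rcases le_total c (Nat.card H) with h6 | h6
    · exact ⟨H, hH, h5.trans_le (by nlinarith [Nat.mul_le_mul h6 h6])⟩
    · exact ⟨_, hCtop, h5.trans_le (by rw [← hc]; nlinarith [Nat.mul_le_mul_left (c ^ 2) h6])⟩
  · obtain ⟨z, hz⟩ := exists_prime_orderOf_dvd_card' (G := Subgroup.center G) 2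
      (Nat.not_odd_iff_even.mp hZ).two_dvd
    set K : Subgroup G := Subgroup.zpowers (z : G) with hKdef
    have hK2 : Nat.card K = 2 := by rw [hKdef, Nat.card_zpowers, orderOf_submonoid]; exact hz
    have hKle : K ≤ Subgroup.center G := by rw [hKdef, Subgroup.zpowers_le]; exact z.2
    haveI : K.Normal := ⟨fun k hk g => by
      rw [Subgroup.mem_center_iff.mp (hKle hk) g, mul_inv_cancel_right]; exact hk⟩
    have hq := K.card_eq_card_quotient_mul_card_subgroup
    rw [hK2, hn] at hq
    set q := Nat.card (G ⧸ K) with hqdef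
    have hqe : Even q := by
      by_contra hodd
      rw [Nat.not_even_iff_odd] at hodd
      obtain ⟨T⟩ : Nonempty (Sylow 2 G) := inferInstance
      apply h2
      refine Cfsg.Agent.S0219.result (hn.symm ▸ heven) T (isCyclic_of_prime_card (p := 2) ?_)
      rw [T.card_eq_multiplicity, hn, hq, Nat.factorization_mul hodd.pos.ne' two_ne_zero,
        Finsupp.add_apply, Nat.prime_two.factorization_self,
        Nat.factorization_eq_zero_of_not_dvd hodd.not_two_dvd_nat]
      rfl
    have hq2 : 2 < q := by
      by_contra hq2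
      have : n = 4 := by
        obtain ⟨j, hj⟩ := hqe
        omega
      apply h2
      refine ⟨K, ?_⟩
      have h := K.index_mul_card
      rw [hK2, hn, this] at h
      omega
    obtain ⟨H', hH', hlt⟩ := ih q (by omega) (G ⧸ K) rfl hqe hq2
    refine ⟨H'.comap (QuotientGroup.mk' K), fun h => hH' ?_, ?_⟩
    · rw [← Subgroup.map_comap_eq_self_of_surjective (QuotientGroup.mk'_surjective K) H', h,
        Subgroup.map_top_of_surjective _ (QuotientGroup.mk'_surjective K)]
    · have h1 := (H'.comap (QuotientGroup.mk' K)).index_mul_card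
      rw [Subgroup.index_comap_of_surjective _ (QuotientGroup.mk'_surjective K), hn, hq,
        hqdef, ← H'.index_mul_card, mul_assoc] at h1
      have h1 := Nat.eq_of_mul_eq_mul_left (Nat.pos_of_ne_zero Subgroup.index_ne_zero_of_finite) h1
      rw [h1, hn, hq]
      rw [← hqdef] at hlt
      nlinarith

/-- A finite group G of even order greater than 2 has a proper subgroup H with |G| < |H|^3. -/
theorem result {G : Type*} [Group G] [Finite G] (heven : Even (Nat.card G)) (hgt : 2 < Nat.card G) : ∃ H : Subgroup G, H ≠ ⊤ ∧ Nat.card G < (Nat.card H) ^ 3 := by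
  exact aux _ G rfl heven hgt

end Cfsg.Agent.S0232
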