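import Cfsg.Statements.S0234
import Mathlib
import Cfsg.Agent.Lib.InvolCount
import Cfsg.Agent.Lib.PermSimple
import Cfsg.Agent.S0219
import Cfsg.Agent.S0233

set_option autoImplicit false
open Cfsg

namespace Cfsg.Agent.S0234

/-- In a finite simple group G of even order greater than 2, the number n of involutions satisfies 3n < |G|. -/
theorem result {G : Type*} [Group G] [Finite G] [IsSimpleGroup G] (heven : Even (Nat.card G)) (hgt : 2 < Nat.card G) : 3 * Nat.card {t : G // orderOf t = 2} < Nat.card G := by
  classical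
  haveI : Fact (Nat.Prime 2) := ⟨Nat.prime_two⟩
  obtain ⟨t, ht⟩ := CfsgLib.Invol.exists_orderOf_two_of_even heven
  have ht1 := CfsgLib.Invol.ne_one_of_orderOf_two ht
  have hG : ¬ IsMulCommutative G := by
    intro hG
    have hn : (Subgroup.zpowers t).Normal := ⟨fun z hz g => by rwa [hG.is_comm.comm g z, mul_inv_cancel_right]⟩
    have htop : Subgroup.zpowers t = ⊤ := hn.eq_bot_or_eq_top.resolve_left fun h =>
      ht1 (Subgroup.zpowers_eq_bot.mp h)
    rw [← Subgroup.card_top (G := G), ← htop, Nat.card_zpowers, ht] at hgt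
    omega
  by_contra hlt
  rw [not_lt] at hlt
  have hZ : Odd (Nat.card (Subgroup.center G)) := by
    rw [CfsgLib.Perm.center_eq_bot_of_simple hG, Subgroup.card_bot]; exact odd_one
  obtain ⟨H, hH, hi | hi⟩ := Cfsg.Agent.S0233.result heven hZ
  · have := CfsgLib.Perm.five_le_index hG H hH; omega
  have h5 := CfsgLib.Perm.five_le_index hG H hH
  set n := Nat.card {u : G // orderOf u = 2} with hn
  have he : H.index = 5 := by
    by_contra hne
    have h6 : 6 ≤ H.index := by omega
    nlinarith [Nat.mul_le_mul_right (n ^ 2) h6, Nat.mul_le_mul hlt hlt, Nat.mul_le_mul_right n hlt]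
  have hex := CfsgLib.Perm.exists_hom_alternating hG H hH
  rw [he] at hex
  obtain ⟨f, hf⟩ := hex
  have hA5 : Nat.card (alternatingGroup (Fin 5)) = 60 := by
    rw [Nat.card_eq_fintype_card]; decide
  haveI : IsSimpleGroup (alternatingGroup (Fin 5)) := alternatingGroup.isSimpleGroup_five
  by_cases htop : f.range = ⊤
  · let e : G ≃* alternatingGroup (Fin 5) :=
      (f.ofInjective hf).trans ((MulEquiv.subgroupCongr htop).trans Subgroup.topEquiv)
    have h15 : n = 15 := by
      rw [hn, Nat.card_congr (e.toEquiv.subtypeEquiv (p := fun u => orderOf u = 2)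
        (q := fun u => u ≠ 1 ∧ u * u = 1) fun u => by
          rw [← MulEquiv.orderOf_eq e u]; exact CfsgLib.Invol.orderOf_two_iff),
        Nat.card_eq_fintype_card, Fintype.card_subtype]
      decide
    rw [h15, Nat.card_congr e.toEquiv, hA5] at hlt
    omega
  · have hnc : ¬ IsMulCommutative (alternatingGroup (Fin 5)) := fun hc => by
      have hcm := hc.is_comm.comm
      exact hG ⟨⟨fun a b => hf (by rw [map_mul, map_mul, hcm])⟩⟩
    have h1 := CfsgLib.Perm.five_le_index hnc _ htop
    have h2 := f.range.index_mul_card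
    rw [← Nat.card_congr (f.ofInjective hf).toEquiv, hA5] at h2
    have hC := CfsgLib.Perm.five_le_index hG _ (CfsgLib.Perm.centralizer_ne_top_of_simple hG ht1)
    have h3 := (Subgroup.centralizer ({t} : Set G)).index_mul_card
    have h4 : 2 ∣ Nat.card (Subgroup.centralizer ({t} : Set G)) := by
      have := orderOf_dvd_natCard (⟨t, CfsgLib.Invol.mem_centralizer_singleton.mpr rfl⟩ : Subgroup.centralizer ({t} : Set G))
      rwa [Subgroup.orderOf_mk, ht] at this
    have hg12 : Nat.card G ≤ 12 := by nlinarith
    have hH' := H.index_mul_card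
    rw [he] at hH'
    have hg10 : Nat.card G = 10 := by
      have hpos : 0 < Nat.card (Subgroup.centralizer ({t} : Set G)) := Nat.card_pos
      have := Nat.le_of_dvd hpos h4
      have : 10 ≤ Nat.card G := by nlinarith
      omega
    obtain ⟨T⟩ : Nonempty (Sylow 2 G) := inferInstance
    have hT : Nat.card T = 2 ^ 1 := CfsgLib.Perm.sylow_card T (m := 5) (by rw [hg10]; norm_num) (by norm_num)
    obtain ⟨K, hK⟩ := Cfsg.Agent.S0219.result heven T (isCyclic_of_prime_card (p := 2) (by rw [hT, pow_one]))
    have := CfsgLib.Perm.five_le_index hG K (fun h => by rw [h, Subgroup.index_top] at hK; omega)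
    omega

end Cfsg.Agent.S0234
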