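import Cfsg.Statements.S0236
import Cfsg.Agent.Lib.InvolDihedral

set_option autoImplicit false
open Cfsg

namespace Cfsg.Agent.S0236

/-- If x is an involution, the number of ordered pairs (u, v) of involutions with uv = x, plus one, equals the number of involutions in the centralizer of x. -/
theorem result {G : Type*} [Group G] [Finite G] (x : G) (hx : orderOf x = 2) : Nat.card {p : G × G // orderOf p.1 = 2 ∧ orderOf p.2 = 2 ∧ p.1 * p.2 = x} + 1 = Nat.card {t : G // orderOf t = 2 ∧ Commute t x} := by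
  classical
  have hxt : x ∈ {t : G | orderOf t = 2 ∧ Commute t x} := ⟨hx, Commute.refl x⟩
  have e : {p : G × G // orderOf p.1 = 2 ∧ orderOf p.2 = 2 ∧ p.1 * p.2 = x} ≃
      ↥({t : G | orderOf t = 2 ∧ Commute t x} \ {x}) :=
    { toFun := fun p => ⟨p.1.1, by
        obtain ⟨⟨u, v⟩, hu, hv, rfl⟩ := p
        refine ⟨⟨hu, ?_⟩, fun h => ?_⟩
        · have h2 : (u * v)⁻¹ = u * v := CfsgLib.Invol.inv_of_orderOf_two hx
          rw [mul_inv_rev, CfsgLib.Invol.inv_of_orderOf_two hu, CfsgLib.Invol.inv_of_orderOf_two hv] at h2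
          change u * (u * v) = u * v * u
          nth_rw 2 [← h2]
          rw [← mul_assoc, CfsgLib.Invol.mul_self_of_orderOf_two hu, one_mul, mul_assoc,
            CfsgLib.Invol.mul_self_of_orderOf_two hu, mul_one]
        · exact CfsgLib.Invol.ne_one_of_orderOf_two hv (left_eq_mul.mp h)⟩
      invFun := fun t => ⟨(t.1, t.1 * x), t.2.1.1, by
        refine CfsgLib.Invol.orderOf_two_iff.mpr ⟨fun h => t.2.2 ?_, ?_⟩
        · rw [Set.mem_singleton_iff]
          rw [mul_eq_one_iff_eq_inv] at h
          rw [h, CfsgLib.Invol.inv_of_orderOf_two hx]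
        · simp only
          rw [show t.1 * x * (t.1 * x) = (t.1 * x) * t.1 * x by group, t.2.1.2.eq, mul_assoc x,
            CfsgLib.Invol.mul_self_of_orderOf_two t.2.1.1, mul_one,
            CfsgLib.Invol.mul_self_of_orderOf_two hx], by
        simp only
        rw [← mul_assoc, CfsgLib.Invol.mul_self_of_orderOf_two t.2.1.1, one_mul]⟩
      left_inv := by
        rintro ⟨⟨u, v⟩, hu, hv, rfl⟩
        simp only [Subtype.mk.injEq, Prod.mk.injEq, true_and]
        rw [← mul_assoc, CfsgLib.Invol.mul_self_of_orderOf_two hu, one_mul]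
      right_inv := fun t => rfl }
  rw [Nat.card_congr e, Nat.card_coe_set_eq,
    Set.ncard_diff_singleton_add_one hxt, ← Nat.card_coe_set_eq]
  rfl

end Cfsg.Agent.S0236
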