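import Cfsg.Statements.S0239
import Cfsg.Agent.Lib.InvolDihedral

set_option autoImplicit false
open Cfsg

namespace Cfsg.Agent.S0239

/-- If some nontrivial element x of a finite group G is conjugate to x⁻¹, then |G| is even. -/
theorem result {G : Type*} [Group G] [Finite G] (x : G) (hx : x ≠ 1) (hreal : IsConj x x⁻¹) : Even (Nat.card G) := by
  by_contra hne
  obtain ⟨g, hg⟩ := isConj_iff.mp hreal
  have hodd : Odd (orderOf g) := (Nat.not_even_iff_odd.mp hne).of_dvd_nat (orderOf_dvd_natCard g)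
  obtain ⟨j, hj⟩ := hodd
  have hc : Commute (g ^ 2) x := by
    have : g ^ 2 * x * (g ^ 2)⁻¹ = x := by
      rw [pow_two, show g * g * x * (g * g)⁻¹ = g * (g * x * g⁻¹) * g⁻¹ by group, hg]
      rw [show g * x⁻¹ * g⁻¹ = (g * x * g⁻¹)⁻¹ by group, hg, inv_inv]
    exact mul_inv_eq_iff_eq_mul.mp this
  have hgc : Commute g x := by
    have h1 := hc.pow_left (j + 1)
    rwa [← pow_mul, show 2 * (j + 1) = orderOf g + 1 by omega, pow_succ, pow_orderOf_eq_one,
      one_mul] at h1
  rw [hgc.eq, mul_inv_cancel_right] at hg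
  have hx2 : x ^ 2 = 1 := by rw [pow_two]; nth_rw 2 [hg]; exact mul_inv_cancel x
  exact hne (even_iff_two_dvd.mpr ((orderOf_eq_prime (p := 2) hx2 hx) ▸ orderOf_dvd_natCard x))

end Cfsg.Agent.S0239
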