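import Cfsg.Statements.S0240
import Cfsg.Agent.Lib.InvolDihedral

set_option autoImplicit false
open Cfsg

namespace Cfsg.Agent.S0240

/-- Let G be a finite group with n involutions and H a subgroup with |H|·(n+1) > |G|. Then some nontrivial h ∈ H is strongly real in G: an involution t of G satisfies t h t⁻¹ = h⁻¹. -/
theorem result {G : Type*} [Group G] [Finite G] (H : Subgroup G) (hH : Nat.card G < Nat.card H * (Nat.card {t : G // orderOf t = 2} + 1)) : ∃ h : G, h ∈ H ∧ h ≠ 1 ∧ ∃ t : G, orderOf t = 2 ∧ t * h * t⁻¹ = h⁻¹ := by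
  classical
  let T := Option {t : G // orderOf t = 2}
  let val : T → G := fun o => o.elim 1 Subtype.val
  have hval : Function.Injective val := by
    rintro (_ | a) (_ | b) h
    · rfl
    · exact absurd h.symm (CfsgLib.Invol.ne_one_of_orderOf_two b.2)
    · exact absurd h (CfsgLib.Invol.ne_one_of_orderOf_two a.2)
    · exact congrArg some (Subtype.ext h)
  have hninj : ¬ Function.Injective (fun p : H × T => (p.1 : G) * val p.2) := by
    intro hinj
    have := Nat.card_le_card_of_injective _ hinj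
    rw [Nat.card_prod, Finite.card_option] at this
    omega
  simp only [Function.Injective, not_forall] at hninj
  obtain ⟨⟨h₁, a⟩, ⟨h₂, b⟩, he, hne⟩ := hninj
  simp only at he
  have hab : a ≠ b := by
    rintro rfl
    exact hne (Prod.ext (Subtype.ext (mul_right_cancel he)) rfl)
  set h : G := (h₂ : G)⁻¹ * h₁ with hdef
  have hh : h = val b * (val a)⁻¹ := by
    rw [hdef, eq_mul_inv_iff_mul_eq, mul_assoc, inv_mul_eq_iff_eq_mul]
    exact he
  have hmem : h ∈ H := mul_mem (inv_mem h₂.2) h₁.2
  have hne1 : h ≠ 1 := by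
    rw [hh, ne_eq, mul_inv_eq_one]
    exact fun e => hab (hval e).symm
  refine ⟨h, hmem, hne1, ?_⟩
  rcases a with _ | ⟨s, hs⟩ <;> rcases b with _ | ⟨t, ht⟩
  · exact absurd rfl hab
  · refine ⟨t, ht, ?_⟩
    have : h = t := by simp [hh, val]
    rw [this, CfsgLib.Invol.inv_of_orderOf_two ht, CfsgLib.Invol.mul_self_of_orderOf_two ht, one_mul]
  · refine ⟨s, hs, ?_⟩
    have : h = s := by simp [hh, val, CfsgLib.Invol.inv_of_orderOf_two hs]
    rw [this, CfsgLib.Invol.inv_of_orderOf_two hs, CfsgLib.Invol.mul_self_of_orderOf_two hs, one_mul]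
  · refine ⟨t, ht, ?_⟩
    have : h = t * s := by simp [hh, val, CfsgLib.Invol.inv_of_orderOf_two hs]
    rw [this]
    exact CfsgLib.Invol.inverts_mul ht hs

end Cfsg.Agent.S0240
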