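import Cfsg.Statements.S0241
import Cfsg.Agent.Lib.InvolDihedral

set_option autoImplicit false
open Cfsg

namespace Cfsg.Agent.S0241

/-- If x ≠ 1 is conjugate to x⁻¹ in a finite group G and |C_G(x)| is odd, then some involution t satisfies t x t⁻¹ = x⁻¹. -/
theorem result {G : Type*} [Group G] [Finite G] (x : G) (hx : x ≠ 1) (hreal : IsConj x x⁻¹) (hodd : Odd (Nat.card (Subgroup.centralizer ({x} : Set G)))) : ∃ t : G, orderOf t = 2 ∧ t * x * t⁻¹ = x⁻¹ := by
  obtain ⟨g, hg⟩ := isConj_iff.mp hreal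
  have step : ∀ n : ℕ, g ^ n * x * (g ^ n)⁻¹ = if Even n then x else x⁻¹ := by
    intro n
    induction n with
    | zero => simp
    | succ n ih =>
      rw [pow_succ', show g * g ^ n * x * (g * g ^ n)⁻¹ = g * (g ^ n * x * (g ^ n)⁻¹) * g⁻¹ by group, ih]
      by_cases hn : Even n
      · rw [if_pos hn, if_neg (by simpa [Nat.even_add_one] using hn), hg]
      · rw [if_neg hn, if_pos (by simpa [Nat.even_add_one] using hn),
          show g * x⁻¹ * g⁻¹ = (g * x * g⁻¹)⁻¹ by group, hg, inv_inv]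
  have hnx : x ≠ x⁻¹ := by
    intro h
    have h2 : orderOf x = 2 :=
      CfsgLib.Invol.orderOf_two_iff.mpr ⟨hx, by nth_rw 2 [h]; exact mul_inv_cancel x⟩
    have := hodd.of_dvd_nat (h2 ▸ (Subgroup.orderOf_mk x (CfsgLib.Invol.mem_centralizer_singleton.mpr rfl)) ▸
      orderOf_dvd_natCard (⟨x, CfsgLib.Invol.mem_centralizer_singleton.mpr rfl⟩ : Subgroup.centralizer ({x} : Set G)))
    exact absurd this (by decide)
  set a := (orderOf g).factorization 2 with hadef
  set m := orderOf g / 2 ^ a with hmdef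
  have hm : Odd m := by
    rw [Nat.odd_iff, ← Nat.two_dvd_ne_zero]
    exact Nat.not_dvd_ordCompl Nat.prime_two (orderOf_pos _).ne'
  have hgm : g ^ m * x * (g ^ m)⁻¹ = x⁻¹ := by
    rw [step m, if_neg (Nat.not_even_iff_odd.mpr hm)]
  have ho : orderOf (g ^ m) = 2 ^ a := by
    have hmul : 2 ^ a * m = orderOf g := Nat.ordProj_mul_ordCompl_eq_self _ 2
    rw [orderOf_pow' _ hm.pos.ne', ← hmul, Nat.gcd_mul_left_left, Nat.mul_div_cancel _ hm.pos]
  have hsq : g ^ (2 * m) ∈ Subgroup.centralizer ({x} : Set G) := by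
    rw [CfsgLib.Invol.mem_centralizer_singleton_conj, step, if_pos (even_two_mul m)]
  have ha : a = 1 := by
    have hd : orderOf (g ^ (2 * m)) ∣ Nat.card (Subgroup.centralizer ({x} : Set G)) :=
      (Subgroup.orderOf_mk _ hsq) ▸ orderOf_dvd_natCard (⟨_, hsq⟩ : Subgroup.centralizer ({x} : Set G))
    rcases Nat.lt_trichotomy a 1 with h | h | h
    · have : g ^ m = 1 := by
        rw [← orderOf_eq_one_iff, ho, show a = 0 by omega]; rfl
      rw [this] at hgm
      simp at hgm
      exact absurd hgm hnx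
    · exact h
    · obtain ⟨b, hb⟩ := Nat.exists_eq_add_of_le (show 2 ≤ a from h)
      rw [show 2 * m = m * 2 from mul_comm _ _, pow_mul, orderOf_pow' _ two_ne_zero, ho, hb, pow_add,
        show (2 : ℕ) ^ 2 * 2 ^ b = 2 * (2 * 2 ^ b) by ring, Nat.gcd_mul_right_left,
        Nat.mul_div_cancel_left _ two_pos] at hd
      exact absurd (hodd.of_dvd_nat ((dvd_mul_right 2 _).trans hd)) (by decide)
  exact ⟨g ^ m, by rw [ho, ha, pow_one], hgm⟩

end Cfsg.Agent.S0241
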