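import Cfsg.Statements.S0245
import Cfsg.Agent.Lib.ClassicalOrders

set_option autoImplicit false
open Cfsg

namespace Cfsg.Agent.S0245

/-- Order of the finite symplectic group: |Sp_{2m}(q)| = q^(m^2) * prod_{i=1}^{m} (q^(2i) - 1). -/
theorem result {F : Type*} [Field F] [Fintype F] {q : ℕ} (hF : Fintype.card F = q) (m : ℕ) : Nat.card (Matrix.symplecticGroup (Fin m) F) = q ^ (m ^ 2) * ∏ i ∈ Finset.range m, (q ^ (2 * (i + 1)) - 1) := by
  rw [Nat.card_congr (CfsgLib.Classical.spToGL m F).toEquiv]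
  exact (CfsgLib.Classical.IsoCard.card_preserving _).trans (by rw [CfsgLib.Classical.Orders.card_sp m, hF])

end Cfsg.Agent.S0245
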