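import Cfsg.Statements.S0247
import Cfsg.Agent.Lib.ClassicalPermModule
import Cfsg.Agent.Lib.ClassicalOrders

set_option autoImplicit false
open Cfsg

namespace Cfsg.Agent.S0247

open CfsgLib.Classical

/-- Sp_4(2) is isomorphic to the symmetric group S_6. -/
theorem result {F : Type*} [Field F] [Fintype F] (hF : Fintype.card F = 2) : Nonempty (Matrix.symplecticGroup (Fin 2) F ≃* Equiv.Perm (Fin 6)) := by
  have h2 : (2 : F) = 0 := by
    have h0 := FiniteField.cast_card_eq_zero F
    rw [hF] at h0
    exact_mod_cast h0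
  obtain ⟨f, hf⟩ := PermModule.exists_symp_embedding h2 2 le_rfl
  refine PermModule.equiv_of_card f hf ?_
  rw [Nat.card_congr (spToGL 2 F).toEquiv, Nat.card_perm, Nat.card_fin]
  exact ((CfsgLib.Classical.IsoCard.card_preserving _).trans (by rw [CfsgLib.Classical.Orders.card_sp 2, hF]; decide)).symm

end Cfsg.Agent.S0247
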