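import Cfsg.Statements.S0250
import Cfsg.Agent.Lib.ClassicalProjLine

set_option autoImplicit false
open Cfsg

namespace Cfsg.Agent.S0250

/-- SL_2(2) is isomorphic to S_3. -/
theorem result {F : Type*} [Field F] [Fintype F] (hF : Fintype.card F = 2) : Nonempty (Matrix.SpecialLinearGroup (Fin 2) F ≃* Equiv.Perm (Fin 3)) := by
  classical
  have hc := CfsgLib.Classical.card_center_sl (F := F) (ι := Fin 2)
  rw [Fintype.card_fin, hF] at hc
  norm_num [-Nat.card_eq_fintype_card] at hc
  have hbot := hc
  let f := (Equiv.permCongrHom (Nat.equivFinOfCardPos (α := Projectivization F (Fin 2 → F))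
      (by rw [CfsgLib.Classical.Two.card_projLine, hF]; norm_num)
    |>.trans (finCongr (by rw [CfsgLib.Classical.Two.card_projLine, hF])))).toMonoidHom.comp
    (MulAction.toPermHom (Matrix.SpecialLinearGroup (Fin 2) F) (Projectivization F (Fin 2 → F)))
  have hinj : Function.Injective f := by
    refine ((Equiv.permCongrHom _).injective.comp ?_)
    rw [← MonoidHom.ker_eq_bot_iff, Projectivization.SL_mulAction_ker, hbot]
  refine ⟨MulEquiv.ofBijective f ((Nat.bijective_iff_injective_and_card f).mpr ⟨hinj, ?_⟩)⟩
  rw [CfsgLib.Classical.Two.card_sl_two, hF, Nat.card_perm, Nat.card_eq_fintype_card,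
    Fintype.card_fin]
  rfl

end Cfsg.Agent.S0250
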