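import Cfsg.Statements.S0251
import Cfsg.Agent.Lib.ClassicalProjLine

set_option autoImplicit false
open Cfsg

namespace Cfsg.Agent.S0251

/-- PSL_2(3) is isomorphic to A_4. -/
theorem result {F : Type*} [Field F] [Fintype F] (hF : Fintype.card F = 3) : Nonempty (Matrix.ProjectiveSpecialLinearGroup (Fin 2) F ≃* alternatingGroup (Fin 4)) := by
  classical
  let f := (Equiv.permCongrHom (Nat.equivFinOfCardPos (α := Projectivization F (Fin 2 → F))
      (by rw [CfsgLib.Classical.Two.card_projLine, hF]; norm_num)
    |>.trans (finCongr (by rw [CfsgLib.Classical.Two.card_projLine, hF])))).toMonoidHom.comp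
    (Projectivization.PSLAction.toPermHom (ι := Fin 2) (K := F))
  have hinj : Function.Injective f :=
    (Equiv.permCongrHom _).injective.comp Matrix.ProjectiveSpecialLinearGroup.toPermHom_injective
  have hcard := CfsgLib.Classical.card_psl_mul (F := F) (ι := Fin 2)
  rw [CfsgLib.Classical.Two.card_sl_two, Fintype.card_fin, hF] at hcard
  norm_num [-Nat.card_eq_fintype_card] at hcard
  have hidx : f.range.index = 2 := by
    have h := Subgroup.card_mul_index f.range
    rw [← Nat.card_congr (MonoidHom.ofInjective hinj).toEquiv, Nat.card_perm,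
      Nat.card_fin, show Nat.factorial (3 + 1) = 24 from rfl] at h
    rw [show Nat.card (Matrix.ProjectiveSpecialLinearGroup (Fin 2) F) = 12 by omega] at h
    omega
  exact ⟨(MonoidHom.ofInjective hinj).trans
    (MulEquiv.subgroupCongr (Equiv.Perm.eq_alternatingGroup_of_index_eq_two hidx))⟩

end Cfsg.Agent.S0251
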