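import Cfsg.Statements.S0253
import Cfsg.Agent.Lib.ClassicalPSLTwoPoly

set_option autoImplicit false
open Cfsg

namespace Cfsg.Agent.S0253

/-- PSL_2(5) is isomorphic to A_5. -/
theorem result {F : Type*} [Field F] [Fintype F] (hF : Fintype.card F = 5) : Nonempty (Matrix.ProjectiveSpecialLinearGroup (Fin 2) F ≃* alternatingGroup (Fin 5)) := by
  obtain ⟨t, ht⟩ := CfsgLib.Classical.exists_root_of_five_dvd (F := F)
    (by rw [CfsgLib.Classical.Two.card_sl_two, hF]; norm_num)
  obtain ⟨H, hH, ⟨e⟩⟩ := CfsgLib.Classical.exists_alt_five_of_root (by rw [hF]; decide) ht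
  have hcard := CfsgLib.Classical.card_psl_mul (F := F) (ι := Fin 2)
  rw [CfsgLib.Classical.Two.card_sl_two, Fintype.card_fin, hF] at hcard
  norm_num [-Nat.card_eq_fintype_card] at hcard
  have htop : H = ⊤ := Subgroup.eq_top_of_card_eq H (by omega)
  exact ⟨(Subgroup.topEquiv.symm.trans (MulEquiv.subgroupCongr htop.symm)).trans e⟩

end Cfsg.Agent.S0253
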