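import Cfsg.Statements.S0254
import Cfsg.Agent.Lib.ClassicalPSLTwoPoly

set_option autoImplicit false
open Cfsg

namespace Cfsg.Agent.S0254

/-- PSL_2(9) is isomorphic to A_6. -/
theorem result {F : Type*} [Field F] [Fintype F] (hF : Fintype.card F = 9) : Nonempty (Matrix.ProjectiveSpecialLinearGroup (Fin 2) F ≃* alternatingGroup (Fin 6)) := by
  obtain ⟨t, ht⟩ := CfsgLib.Classical.exists_root_of_five_dvd (F := F)
    (by rw [CfsgLib.Classical.Two.card_sl_two, hF]; norm_num)
  obtain ⟨H, hH, -⟩ := CfsgLib.Classical.exists_alt_five_of_root (by rw [hF]; decide) ht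
  have hcard := CfsgLib.Classical.card_psl_mul (F := F) (ι := Fin 2)
  rw [CfsgLib.Classical.Two.card_sl_two, Fintype.card_fin, hF] at hcard
  norm_num [-Nat.card_eq_fintype_card] at hcard
  have : IsSimpleGroup (Matrix.ProjectiveSpecialLinearGroup (Fin 2) F) :=
    Matrix.ProjectiveSpecialLinearGroup.rank_two_simple (by rw [Nat.card_eq_fintype_card, hF]; norm_num)
  have hidx : H.index = 6 := by
    have := H.index_mul_card
    rw [hH, show Nat.card (Matrix.ProjectiveSpecialLinearGroup (Fin 2) F) = 360 by omega] at this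
    omega
  refine CfsgLib.Classical.equiv_alternating_of_core_bot (by norm_num) H ?_ hidx ?_
  · refine (H.normalCore_normal).eq_bot_or_eq_top.resolve_right fun h => ?_
    have := eq_top_iff.mpr (h ▸ H.normalCore_le)
    rw [this, Subgroup.index_top] at hidx
    omega
  · rw [show Nat.card (Matrix.ProjectiveSpecialLinearGroup (Fin 2) F) = 360 by omega]
    rfl

end Cfsg.Agent.S0254
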