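import Cfsg.Statements.S0255
import Cfsg.Agent.S0243

set_option autoImplicit false
open Cfsg

namespace Cfsg.Agent.S0255

set_option maxRecDepth 100000

open Matrix

/-- powers of the element of order seven -/
def Um : ZMod 7 → Matrix (Fin 3) (Fin 3) (ZMod 2) := fun k => (!![0, 1, 1; 1, 1, 0; 1, 0, 0]) ^ k.val

/-- the image of the involution -/
def Wm : Matrix (Fin 3) (Fin 3) (ZMod 2) := !![0, 0, 1; 1, 1, 1; 1, 0, 0]

/-- the images of the torus -/
def Dm (c : ZMod 7) : Matrix (Fin 3) (Fin 3) (ZMod 2) :=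
  if c = 2 ∨ c = 5 then !![0, 0, 1; 1, 1, 0; 1, 0, 1] else if c = 3 ∨ c = 4 then !![1, 0, 1; 1, 1, 1; 1, 0, 0] else 1

/-- the inverse in the field with seven elements -/
def i7 (c : ZMod 7) : ZMod 7 := c ^ 5

/-- the image of a matrix with the given entries -/
def img (a b c d : ZMod 7) : Matrix (Fin 3) (Fin 3) (ZMod 2) :=
  if c = 0 then Dm a * Um (b * i7 a) else Um (a * i7 c) * Wm * Dm c * Um (d * i7 c)

theorem img_mul_u : ∀ a b c d k : ZMod 7, a * d - b * c = 1 → img a (a * k + b) c (c * k + d) = img a b c d * Um k := by decide +kernel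

theorem img_mul_w : ∀ a b c d : ZMod 7, a * d - b * c = 1 → img b (-a) d (-c) = img a b c d * Wm := by decide +kernel

theorem img_kernel : ∀ a b c d : ZMod 7, a * d - b * c = 1 → img a b c d = 1 → b = 0 ∧ c = 0 ∧ a = d := by decide +kernel

theorem img_det : ∀ a b c d : ZMod 7, a * d - b * c = 1 → (img a b c d).det = 1 := by
  simp only [Matrix.det_fin_three]
  decide +kernel

theorem img_pm : ∀ s : ZMod 7, s ^ 2 = 1 → img s 0 0 s = 1 := by decide +kernel

theorem img_base : (∀ k, img 1 k 0 1 = Um k) ∧ img 0 (-1) 1 0 = Wm ∧ img 1 0 0 1 = 1 := by decide +kernel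

/-- the group with seven-element field -/
abbrev S7 := Matrix.SpecialLinearGroup (Fin 2) (ZMod 7)

theorem ext2 {g h : S7} (h00 : g.1 0 0 = h.1 0 0) (h01 : g.1 0 1 = h.1 0 1)
    (h10 : g.1 1 0 = h.1 1 0) (h11 : g.1 1 1 = h.1 1 1) : g = h := by
  apply Subtype.ext
  ext i j
  fin_cases i <;> fin_cases j <;> assumption

theorem det2 (g : S7) : g.1 0 0 * g.1 1 1 - g.1 0 1 * g.1 1 0 = 1 :=
  (Matrix.det_fin_two g.1).symm.trans g.2

theorem mul_ent (g h : S7) (i j : Fin 2) : (g * h).1 i j = g.1 i 0 * h.1 0 j + g.1 i 1 * h.1 1 j := by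
  show (g.1 * h.1) i j = _
  rw [Matrix.mul_apply, Fin.sum_univ_two]

def uS (k : ZMod 7) : S7 := ⟨!![1, k; 0, 1], by simp [Matrix.det_fin_two]⟩

def wS : S7 := ⟨!![0, -1; 1, 0], by simp [Matrix.det_fin_two]⟩

theorem uS_val (k : ZMod 7) : (uS k).1 = !![1, k; 0, 1] := rfl

theorem wS_val : wS.1 = !![0, -1; 1, 0] := rfl

/-- the map on the group -/
def F7 (g : S7) : Matrix (Fin 3) (Fin 3) (ZMod 2) := img (g.1 0 0) (g.1 0 1) (g.1 1 0) (g.1 1 1)

theorem F7_u (g : S7) (k : ZMod 7) : F7 (g * uS k) = F7 g * F7 (uS k) := by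
  have h : F7 (uS k) = Um k := img_base.1 k
  rw [h]
  unfold F7
  simp only [mul_ent, uS_val]
  simpa using img_mul_u _ _ _ _ k (det2 g)

theorem F7_w (g : S7) : F7 (g * wS) = F7 g * F7 wS := by
  have h : F7 wS = Wm := img_base.2.1
  rw [h]
  unfold F7
  simp only [mul_ent, wS_val]
  simpa using img_mul_w _ _ _ _ (det2 g)

/-- the elements on which the map is multiplicative -/
def goodSet : Submonoid S7 where
  carrier := {h | ∀ g, F7 (g * h) = F7 g * F7 h}
  one_mem' g := by
    rw [mul_one]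
    exact ((congrArg (F7 g * ·) img_base.2.2).trans (mul_one _)).symm
  mul_mem' {a b} ha hb g := by rw [← mul_assoc, hb (g * a), ha g, hb a, mul_assoc]

theorem good_top (g : S7) : g ∈ goodSet := by
  have hu : ∀ k, uS k ∈ goodSet := fun k g => F7_u g k
  have hw : wS ∈ goodSet := fun g => F7_w g
  let yS : ZMod 7 → S7 := fun c => wS * uS (-c) * (wS * wS * wS)
  have hy : ∀ c, yS c ∈ goodSet := fun c => mul_mem (mul_mem hw (hu _)) (mul_mem (mul_mem hw hw) hw)
  have key : ∀ h : S7, h.1 1 0 ≠ 0 → h ∈ goodSet := by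
    intro h hc
    haveI : Fact (Nat.Prime 7) := ⟨by norm_num⟩
    have hd := det2 h
    have : h = uS ((h.1 0 0 - 1) * (h.1 1 0)⁻¹) * yS (h.1 1 0) * uS ((h.1 1 1 - 1) * (h.1 1 0)⁻¹) := by
      refine ext2 ?_ ?_ ?_ ?_ <;> simp [yS, mul_ent, uS_val, wS_val] <;> field_simp <;> grobner
    rw [this]
    exact mul_mem (mul_mem (hu _) (hy _)) (hu _)
  by_cases hc : g.1 1 0 = 0
  · have ha : g.1 0 0 ≠ 0 := fun ha => by
      have := det2 g
      rw [hc, ha] at this
      simp only [zero_mul, mul_zero, sub_zero] at this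
      exact absurd this (by decide)
    have h1 : g = yS (-1) * (yS 1 * g) := by
      refine ext2 ?_ ?_ ?_ ?_ <;> simp [yS, mul_ent, uS_val, wS_val]
    rw [h1]
    refine mul_mem (hy _) (key _ ?_)
    simp [yS, mul_ent, uS_val, wS_val, hc, ha]
  · exact key g hc

/-- the homomorphism -/
noncomputable def hom7 : S7 →* Matrix.SpecialLinearGroup (Fin 3) (ZMod 2) where
  toFun g := ⟨F7 g, img_det _ _ _ _ (det2 g)⟩
  map_one' := Subtype.ext img_base.2.2
  map_mul' g h := Subtype.ext (good_top h g)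

/-- PSL_2(7) is isomorphic to PSL_3(2). -/
theorem result {F K : Type*} [Field F] [Fintype F] [Field K] [Fintype K] (hF : Fintype.card F = 7) (hK : Fintype.card K = 2) : Nonempty (Matrix.ProjectiveSpecialLinearGroup (Fin 2) F ≃* Matrix.ProjectiveSpecialLinearGroup (Fin 3) K) := by
  classical
  haveI : Fact (Nat.Prime 7) := ⟨by norm_num⟩
  let φ : F ≃+* ZMod 7 := FiniteField.ringEquivOfCardEq (by simp [hF])
  let ψ : ZMod 2 ≃+* K := FiniteField.ringEquivOfCardEq (by simp [hK])
  let Φ : SpecialLinearGroup (Fin 2) F →* ProjectiveSpecialLinearGroup (Fin 3) K :=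
    (QuotientGroup.mk' _).comp ((SpecialLinearGroup.map ψ.toRingHom).comp (hom7.comp (SpecialLinearGroup.map φ.toRingHom)))
  have hcK : Subgroup.center (SpecialLinearGroup (Fin 3) K) = ⊥ := by
    rw [eq_bot_iff]
    intro z hz
    obtain ⟨r, hr, hrz⟩ := Matrix.SpecialLinearGroup.mem_center_iff.1 hz
    rw [Fintype.card_fin] at hr
    have hr0 : r ≠ 0 := fun h => by rw [h] at hr; simp at hr
    have h1 := FiniteField.pow_card_sub_one_eq_one r hr0
    rw [hK, pow_one] at h1
    rw [Subgroup.mem_bot]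
    refine Subtype.ext ?_
    rw [← hrz, h1, map_one]
    rfl
  have hker : Φ.ker ≤ Subgroup.center (SpecialLinearGroup (Fin 2) F) := by
    intro g hg
    rw [MonoidHom.mem_ker, MonoidHom.comp_apply, QuotientGroup.mk'_apply, QuotientGroup.eq_one_iff, hcK, Subgroup.mem_bot] at hg
    have h1 : ψ.toRingHom.mapMatrix (F7 (SpecialLinearGroup.map φ.toRingHom g)) = 1 := congrArg Subtype.val hg
    rw [← map_one ψ.toRingHom.mapMatrix] at h1
    have h2 : F7 (SpecialLinearGroup.map φ.toRingHom g) = 1 := Matrix.map_injective ψ.injective h1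
    obtain ⟨hb, hc, hd⟩ := img_kernel _ _ _ _ (det2 _) h2
    refine Matrix.SpecialLinearGroup.mem_center_iff.2 ⟨g.1 0 0, ?_, ?_⟩
    · rw [Fintype.card_fin]
      have := (Matrix.det_fin_two g.1).symm.trans g.2
      rw [show g.1 0 1 = 0 from φ.injective (hb.trans (map_zero φ).symm), show g.1 1 1 = g.1 0 0 from φ.injective hd.symm] at this
      linear_combination this
    · ext i j
      fin_cases i <;> fin_cases j <;> simp
      · exact (φ.injective (hb.trans (map_zero φ).symm)).symm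
      · exact (φ.injective (hc.trans (map_zero φ).symm)).symm
      · exact φ.injective hd
  have hker' : Subgroup.center (SpecialLinearGroup (Fin 2) F) ≤ Φ.ker := by
    intro g hg
    obtain ⟨r, hr, hrg⟩ := Matrix.SpecialLinearGroup.mem_center_iff.1 hg
    rw [Fintype.card_fin] at hr
    have h1 : F7 (SpecialLinearGroup.map φ.toRingHom g) = 1 := by
      show img (φ (g.1 0 0)) (φ (g.1 0 1)) (φ (g.1 1 0)) (φ (g.1 1 1)) = 1
      rw [← hrg]
      simp
      have hφ : φ r ^ 2 = 1 := by rw [← map_pow, hr, map_one]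
      exact img_pm _ hφ
    rw [MonoidHom.mem_ker, MonoidHom.comp_apply, QuotientGroup.mk'_apply, QuotientGroup.eq_one_iff, hcK, Subgroup.mem_bot]
    exact Subtype.ext (by show ψ.toRingHom.mapMatrix (F7 (SpecialLinearGroup.map φ.toRingHom g)) = 1; rw [h1, map_one])
  let Ψ : ProjectiveSpecialLinearGroup (Fin 2) F →* ProjectiveSpecialLinearGroup (Fin 3) K := QuotientGroup.lift _ Φ hker'
  have hinj : Function.Injective Ψ := by
    rw [← MonoidHom.ker_eq_bot_iff, eq_bot_iff]
    intro z hz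
    obtain ⟨g, rfl⟩ := QuotientGroup.mk_surjective z
    rw [Subgroup.mem_bot, QuotientGroup.eq_one_iff]
    exact hker hz
  have h1 := Cfsg.Agent.S0243.result hF 2 le_rfl
  have h2 := Cfsg.Agent.S0243.result hK 3 (by norm_num)
  rw [Fin.prod_univ_two] at h1
  rw [Fin.prod_univ_three] at h2
  rw [show Nat.gcd 2 (7 - 1) = 2 by decide] at h1
  rw [show Nat.gcd 3 (2 - 1) = 1 by decide] at h2
  norm_num at h1 h2
  exact ⟨MulEquiv.ofBijective Ψ ((Nat.bijective_iff_injective_and_card Ψ).2 ⟨hinj, by rw [Nat.card_eq_fintype_card, Nat.card_eq_fintype_card]; omega⟩)⟩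

end Cfsg.Agent.S0255
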