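import Cfsg.Statements.S0257
import Cfsg.Agent.Lib.ClassicalProjLine
import Mathlib.GroupTheory.SpecificGroups.Quaternion

set_option autoImplicit false
open Cfsg

namespace Cfsg.Agent.S0257

def qi : Matrix.SpecialLinearGroup (Fin 2) (ZMod 3) := ⟨!![0, 2; 1, 0], by decide⟩
def qj : Matrix.SpecialLinearGroup (Fin 2) (ZMod 3) := ⟨!![1, 1; 1, 2], by decide⟩

def qFun : QuaternionGroup 2 → Matrix.SpecialLinearGroup (Fin 2) (ZMod 3)
  | .a i => qi ^ i.val
  | .xa i => qj * qi ^ i.val

def qHom : QuaternionGroup 2 →* Matrix.SpecialLinearGroup (Fin 2) (ZMod 3) where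
  toFun := qFun
  map_one' := by decide +kernel
  map_mul' := by decide +kernel

lemma qHom_injective : Function.Injective qHom := by
  unfold Function.Injective; decide +kernel

lemma qHom_normal : ∀ (g : Matrix.SpecialLinearGroup (Fin 2) (ZMod 3)) (x : QuaternionGroup 2),
    ∃ y, qHom y = g * qHom x * g⁻¹ := by
  decide +kernel

/-- SL_2(3) has a normal subgroup of index 3 isomorphic to the quaternion group of order 8, and its centre has order 2. -/
theorem result {F : Type*} [Field F] [Fintype F] (hF : Fintype.card F = 3) : (∃ Q : Subgroup (Matrix.SpecialLinearGroup (Fin 2) F), Q.Normal ∧ Q.index = 3 ∧ Nonempty (Q ≃* QuaternionGroup 2)) ∧ Nat.card (Subgroup.center (Matrix.SpecialLinearGroup (Fin 2) F)) = 2 := by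
  classical
  haveI : Fact (Nat.Prime 3) := ⟨Nat.prime_three⟩
  have hcard := CfsgLib.Classical.Two.card_sl_two (F := F)
  have hc := CfsgLib.Classical.card_center_sl (F := F) (ι := Fin 2)
  rw [hF] at hcard
  rw [Fintype.card_fin, hF] at hc
  refine ⟨?_, hc.trans (by norm_num)⟩
  haveI : CharP F 3 := charP_of_card_eq_prime hF
  let e : ZMod 3 ≃+* F := RingEquiv.ofBijective (ZMod.castHom dvd_rfl F)
    ((Fintype.bijective_iff_injective_and_card _).mpr ⟨(ZMod.castHom dvd_rfl F).injective, by rw [hF, ZMod.card]⟩)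
  let φ : Matrix.SpecialLinearGroup (Fin 2) (ZMod 3) →* Matrix.SpecialLinearGroup (Fin 2) F :=
    Matrix.SpecialLinearGroup.map e.toRingHom
  have hφi : Function.Injective φ := fun a b h => by
    ext i j
    exact e.injective (congrArg (fun m : Matrix.SpecialLinearGroup (Fin 2) F => m i j) h)
  have hφs : Function.Surjective φ := by
    refine (((Nat.bijective_iff_injective_and_card φ).mpr ⟨hφi, ?_⟩)).2
    rw [hcard, CfsgLib.Classical.Two.card_sl_two, ZMod.card]
  let ψ := φ.comp qHom
  have hψ : Function.Injective ψ := hφi.comp qHom_injective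
  refine ⟨ψ.range, ⟨?_⟩, ?_, ⟨(MonoidHom.ofInjective hψ).symm⟩⟩
  · rintro _ ⟨x, rfl⟩ g
    obtain ⟨g, rfl⟩ := hφs g
    obtain ⟨y, hy⟩ := qHom_normal g x
    refine ⟨y, ?_⟩
    show φ (qHom y) = φ g * φ (qHom x) * (φ g)⁻¹
    rw [hy, map_mul, map_mul, map_inv]
  · have h := Subgroup.card_mul_index ψ.range
    rw [← Nat.card_congr (MonoidHom.ofInjective hψ).toEquiv, hcard, Nat.card_eq_fintype_card,
      QuaternionGroup.card] at h
    omega

end Cfsg.Agent.S0257
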