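import Cfsg.Statements.S0275
import Cfsg.Agent.Lib.DicksonMain
import Cfsg.Agent.Lib.StableZJ
import Cfsg.Agent.S0016

set_option autoImplicit false
open Cfsg

namespace Cfsg.Agent.S0275

/-- If p is odd and H is a subgroup of SL_2(q), q a power of p, with more than one Sylow p-subgroup, then the Sylow 2-subgroups of H are generalised quaternion. -/
theorem result {F : Type*} [Field F] [Fintype F] (p : ℕ) [Fact p.Prime] [CharP F p] (hp : p ≠ 2) (H : Subgroup (Matrix.SpecialLinearGroup (Fin 2) F)) (hH : 1 < Nat.card (Sylow p H)) (S : Sylow 2 H) : ∃ k : ℕ, 1 ≤ k ∧ Nonempty ((S : Subgroup H) ≃* QuaternionGroup (2 ^ k)) := by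
  haveI : Fact (Nat.Prime 2) := ⟨Nat.prime_two⟩
  haveI : Finite H := inferInstance
  have h2 : (2 : F) ≠ 0 := CfsgLib.Dickson.two_ne_zero_of_char (p := p) hp
  have hinv : ∀ g : Matrix.SpecialLinearGroup (Fin 2) F, g ^ 2 = 1 → g ≠ 1 →
      g.1 0 1 = 0 ∧ g.1 1 0 = 0 ∧ g.1 0 0 = -1 ∧ g.1 1 1 = -1 := by
    intro g hg hg1
    have hd := CfsgLib.Dickson.det_eq g
    have e1 := congrArg Subtype.val hg
    rw [pow_two] at e1
    simp only [Matrix.SpecialLinearGroup.coe_mul, Matrix.SpecialLinearGroup.coe_one] at e1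
    have e00 := congrFun (congrFun e1 0) 0
    have e01 := congrFun (congrFun e1 0) 1
    have e10 := congrFun (congrFun e1 1) 0
    have e11 := congrFun (congrFun e1 1) 1
    simp [Matrix.mul_apply, Fin.sum_univ_two] at e00 e01 e10 e11
    set t := g.1 0 0 + g.1 1 1 with ht
    have ht0 : t ≠ 0 := by
      intro e
      have : (2 : F) = 0 := by linear_combination -e00 - hd + g.1 0 0 * e
      exact h2 this
    have hb : g.1 0 1 = 0 := (mul_eq_zero.1 (show g.1 0 1 * t = 0 by linear_combination e01)).resolve_right ht0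
    have hc : g.1 1 0 = 0 := (mul_eq_zero.1 (show g.1 1 0 * t = 0 by linear_combination e10)).resolve_right ht0
    have had : g.1 0 0 - g.1 1 1 = 0 := (mul_eq_zero.1
      (show (g.1 0 0 - g.1 1 1) * t = 0 by linear_combination e00 - e11)).resolve_right ht0
    have hsq : (g.1 0 0 - 1) * (g.1 0 0 + 1) = 0 := by linear_combination e00 - g.1 1 0 * hb
    rcases mul_eq_zero.1 hsq with h | h
    · refine absurd (CfsgLib.Dickson.sl_ext ?_ ?_ ?_ ?_) hg1
      · simpa using sub_eq_zero.1 h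
      · simpa using hb
      · simpa using hc
      · simp; linear_combination h - had
    · exact ⟨hb, hc, by linear_combination h, by linear_combination h - had⟩
  have huniq : ∀ x y : ↥(S : Subgroup H), orderOf x = 2 → orderOf y = 2 → x = y := by
    intro x y hx hy
    have h := fun (z : ↥(S : Subgroup H)) (hz : orderOf z = 2) =>
      hinv ((z : H) : Matrix.SpecialLinearGroup (Fin 2) F) (by
        rw [← Subgroup.coe_pow, ← Subgroup.coe_pow, (orderOf_dvd_iff_pow_eq_one.1 hz.dvd : z ^ 2 = 1)]; rfl) (fun e => by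
        have h1 : z = 1 := Subtype.ext (Subtype.ext e)
        rw [h1, orderOf_one] at hz
        exact absurd hz (by decide))
    obtain ⟨a1, a2, a3, a4⟩ := h x hx
    obtain ⟨b1, b2, b3, b4⟩ := h y hy
    exact Subtype.ext (Subtype.ext (CfsgLib.Dickson.sl_ext (a3.trans b3.symm) (a1.trans b1.symm)
      (a2.trans b2.symm) (a4.trans b4.symm)))
  -- a quaternion subgroup
  obtain ⟨f, hf⟩ := CfsgLib.Dickson.exists_sl2_zmod (p := p) hp (ι := H.subtype) H.subtype_injective hH
  obtain ⟨a, b, hab⟩ := ZMod.sq_add_sq p (-1)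
  let i : Matrix.SpecialLinearGroup (Fin 2) (ZMod p) := ⟨!![0, 1; -1, 0], by simp [Matrix.det_fin_two]⟩
  let j : Matrix.SpecialLinearGroup (Fin 2) (ZMod p) := ⟨!![a, b; b, -a], by
    simp [Matrix.det_fin_two]; linear_combination -hab⟩
  have hi : i.1 = !![0, 1; -1, 0] := rfl
  have hj : j.1 = !![a, b; b, -a] := rfl
  have h2p : (2 : ZMod p) ≠ 0 := CfsgLib.Dickson.two_ne_zero_of_char hp
  have hi4 : i ^ 4 = 1 := by
    refine CfsgLib.Dickson.sl_ext ?_ ?_ ?_ ?_ <;>
      simp [hi, pow_succ, Matrix.mul_apply, Fin.sum_univ_two]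
  have hj4 : j ^ 4 = 1 := by
    have hjj : (j * j).1 = !![-1, 0; 0, -1] := by
      rw [Matrix.SpecialLinearGroup.coe_mul, hj]
      ext u v
      fin_cases u <;> fin_cases v <;> simp [Matrix.mul_apply, Fin.sum_univ_two] <;>
        first | linear_combination hab | ring
    rw [show (4 : ℕ) = 2 * 2 from rfl, pow_mul, pow_two, pow_two]
    apply Subtype.ext
    rw [Matrix.SpecialLinearGroup.coe_mul, hjj]
    ext u v
    fin_cases u <;> fin_cases v <;> simp [Matrix.mul_apply, Fin.sum_univ_two]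
  have hji : j * i = i⁻¹ * j := by
    refine CfsgLib.Dickson.sl_ext ?_ ?_ ?_ ?_ <;>
      simp [hi, hj, Matrix.mul_apply, Fin.sum_univ_two, Matrix.adjugate_fin_two]
  have hne : j * i ≠ i * j := by
    intro e
    have e00 := congrArg (fun g : Matrix.SpecialLinearGroup (Fin 2) (ZMod p) => g.1 0 0) e
    have e01 := congrArg (fun g : Matrix.SpecialLinearGroup (Fin 2) (ZMod p) => g.1 0 1) e
    simp [hi, hj, Matrix.mul_apply, Fin.sum_univ_two] at e00 e01
    have hb : b = 0 := (mul_eq_zero.1 (show (2 : ZMod p) * b = 0 by linear_combination -e00)).resolve_left h2p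
    have ha : a = 0 := (mul_eq_zero.1 (show (2 : ZMod p) * a = 0 by linear_combination e01)).resolve_left h2p
    rw [ha, hb] at hab
    exact one_ne_zero (α := ZMod p) (by linear_combination hab)
  have hpow : ∀ x : Matrix.SpecialLinearGroup (Fin 2) (ZMod p), x ^ 4 = 1 →
      IsPGroup 2 (Subgroup.zpowers x) := fun x hx y => ⟨2, by
    obtain ⟨n, hn⟩ := y.2
    apply Subtype.ext
    simp only [SubgroupClass.coe_pow, OneMemClass.coe_one, ← hn]
    rw [← zpow_natCast, ← zpow_mul, mul_comm, zpow_mul, zpow_natCast,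
      show (2 : ℕ) ^ 2 = 4 from rfl, hx, one_zpow]⟩
  have hN : Subgroup.zpowers j ≤
      Subgroup.normalizer ((Subgroup.zpowers i : Subgroup _) : Set _) := by
    rw [Subgroup.zpowers_le]
    refine CfsgLib.Stable.mem_normalizer_of_map_eq ?_
    rintro _ ⟨n, rfl⟩
    refine ⟨-n, ?_⟩
    show i ^ (-n) = j * i ^ n * j⁻¹
    rw [← conj_zpow, hji, mul_inv_cancel_right, inv_zpow, zpow_neg]
  have hQ := (IsPGroup.to_sup_of_normal_right' (hpow j hj4) (hpow i hi4) hN).map f
  obtain ⟨R, hR⟩ := hQ.exists_le_sylow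
  have hnc : ¬ IsCyclic ↥(S : Subgroup H) := by
    intro hc
    haveI : IsCyclic ↥(R : Subgroup H) := (Sylow.equiv S R).isCyclic.1 hc
    letI := IsCyclic.commGroup (α := ↥(R : Subgroup H))
    refine hne (hf ?_)
    rw [map_mul, map_mul]
    exact congrArg Subtype.val (mul_comm
      (⟨f j, hR ⟨j, Subgroup.mem_sup_left (Subgroup.mem_zpowers j), rfl⟩⟩ : ↥(R : Subgroup H))
      ⟨f i, hR ⟨i, Subgroup.mem_sup_right (Subgroup.mem_zpowers i), rfl⟩⟩)
  rcases Cfsg.Agent.S0016.result 2 S.2 (fun X Y hX hY => by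
    obtain ⟨⟨x, hxX⟩, hx⟩ := exists_prime_orderOf_dvd_card' (G := X) 2 (dvd_of_eq hX.symm)
    obtain ⟨⟨y, hyY⟩, hy⟩ := exists_prime_orderOf_dvd_card' (G := Y) 2 (dvd_of_eq hY.symm)
    have hx' := (Subgroup.orderOf_coe (⟨x, hxX⟩ : X)).trans hx
    have hy' := (Subgroup.orderOf_coe (⟨y, hyY⟩ : Y)).trans hy
    have hX' : Subgroup.zpowers x = X := Subgroup.eq_of_le_of_card_ge (Subgroup.zpowers_le.2 hxX)
      (by rw [Nat.card_zpowers, hx', hX])
    have hY' : Subgroup.zpowers y = Y := Subgroup.eq_of_le_of_card_ge (Subgroup.zpowers_le.2 hyY)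
      (by rw [Nat.card_zpowers, hy', hY])
    rw [← hX', ← hY', huniq x y hx' hy']) with hc | ⟨-, n, ⟨e⟩⟩
  · exact absurd hc hnc
  · refine ⟨n, Nat.one_le_iff_ne_zero.2 ?_, ⟨e⟩⟩
    rintro rfl
    refine hnc (e.isCyclic.2 ?_)
    refine isCyclic_of_orderOf_eq_card (QuaternionGroup.xa 0) ?_
    rw [QuaternionGroup.orderOf_xa, Nat.card_eq_fintype_card, QuaternionGroup.card]
    norm_num

end Cfsg.Agent.S0275
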