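import Cfsg.Statements.S0261
import Cfsg.Agent.S0275

set_option autoImplicit false
open Cfsg

namespace Cfsg.Agent.S0261

lemma one_lt_card_sylow {F : Type*} [Field F] [Fintype F] (p : ℕ) [Fact p.Prime] [CharP F p] :
    1 < Nat.card (Sylow p (⊤ : Subgroup (Matrix.SpecialLinearGroup (Fin 2) F))) := by
  by_contra hle
  have : Subsingleton (Sylow p (⊤ : Subgroup (Matrix.SpecialLinearGroup (Fin 2) F))) :=
    Finite.card_le_one_iff_subsingleton.mp (not_lt.mp hle)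
  obtain ⟨P⟩ : Nonempty (Sylow p (⊤ : Subgroup (Matrix.SpecialLinearGroup (Fin 2) F))) := inferInstance
  have hmem : ∀ x : (⊤ : Subgroup (Matrix.SpecialLinearGroup (Fin 2) F)), x ^ p = 1 → x ∈ (P : Subgroup _) := fun x hx => by
    obtain ⟨Q, hQ⟩ := (IsPGroup.of_card (p := p) (n := if orderOf x = 1 then 0 else 1) (by
      rw [Nat.card_zpowers]
      rcases (Nat.dvd_prime Fact.out).mp (orderOf_dvd_of_pow_eq_one hx) with h | h <;> simp [h, (Fact.out : p.Prime).ne_one]) :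
      IsPGroup p (Subgroup.zpowers x)).exists_le_sylow
    rw [Subsingleton.elim P Q]
    exact hQ (Subgroup.mem_zpowers x)
  have hu := hmem ⟨CfsgLib.Dickson.upperU 1, trivial⟩ (Subtype.ext (CfsgLib.Dickson.pow_eq_one_of_trace (by simp [CfsgLib.Dickson.coe_upperU]; norm_num)))
  have hl := hmem ⟨CfsgLib.Dickson.lowerU 1, trivial⟩ (Subtype.ext (CfsgLib.Dickson.pow_eq_one_of_trace (by simp [CfsgLib.Dickson.coe_lowerU]; norm_num)))
  obtain ⟨k, hk⟩ := P.2 (⟨_, hu⟩ * ⟨_, hl⟩)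
  have h := CfsgLib.Dickson.trace_of_pow (p := p) (g := CfsgLib.Dickson.upperU (1 : F) * CfsgLib.Dickson.lowerU 1) (k := k)
    (congrArg Subtype.val (congrArg Subtype.val hk))
  simp [CfsgLib.Dickson.coe_upperU, CfsgLib.Dickson.coe_lowerU, Matrix.mul_apply, Fin.sum_univ_two] at h
  exact one_ne_zero (α := F) (by linear_combination h)

theorem sylow_two_quaternion {F : Type*} [Field F] [Fintype F] (hF : Odd (Fintype.card F))
    (P : Sylow 2 (Matrix.SpecialLinearGroup (Fin 2) F)) :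
    ∃ k : ℕ, 1 ≤ k ∧ Nonempty ((P : Subgroup (Matrix.SpecialLinearGroup (Fin 2) F)) ≃* QuaternionGroup (2 ^ k)) := by
  obtain ⟨p, hchar⟩ := CharP.exists F
  obtain ⟨n, hp, hn⟩ := FiniteField.card F p
  have : Fact p.Prime := ⟨hp⟩
  have hp2 : p ≠ 2 := fun h => Nat.not_even_iff_odd.mpr hF (hn ▸ h ▸ (Nat.even_pow.mpr ⟨even_two, n.ne_zero⟩))
  obtain ⟨k, hk, ⟨e⟩⟩ := Cfsg.Agent.S0275.result p hp2 ⊤ (one_lt_card_sylow p) (P.subtype le_top)
  exact ⟨k, hk, ⟨(Subgroup.subgroupOfEquivOfLe le_top).symm.trans e⟩⟩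

/-- For q odd, the Sylow 2-subgroups of SL_2(q) are generalised quaternion. -/
theorem result {F : Type*} [Field F] [Fintype F] (hF : Odd (Fintype.card F)) (P : Sylow 2 (Matrix.SpecialLinearGroup (Fin 2) F)) : ∃ k : ℕ, 1 ≤ k ∧ Nonempty ((P : Subgroup (Matrix.SpecialLinearGroup (Fin 2) F)) ≃* QuaternionGroup (2 ^ k)) := by
  exact sylow_two_quaternion hF P

end Cfsg.Agent.S0261
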