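import Cfsg.Statements.S0270
import Cfsg.Agent.Lib.ClassicalPSp

set_option autoImplicit false
open Cfsg

namespace Cfsg.Agent.S0270

/-- PSp_{2m}(q) is simple for m at least 2 and (m, q) other than (2, 2). -/
theorem result {F : Type*} [Field F] [Fintype F] (m : ℕ) (hm : 2 ≤ m) (h : m = 2 → 3 ≤ Fintype.card F) : IsSimpleGroup (Cfsg.PSp m F) := by
  refine CfsgLib.Classical.isSimpleGroup_quot_center_congr (CfsgLib.Classical.spToGL m F) ?_
  refine CfsgLib.Classical.isSimpleGroup_quot_isoGL CfsgLib.Classical.isSymplecticForm_sympForm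
    (CfsgLib.Classical.perfectWitness_sympForm ?_) (v := Pi.single (Sum.inl ⟨0, by omega⟩) 1) (by simp)
  rcases eq_or_lt_of_le hm with rfl | h3
  · exact Or.inr (Or.inl ⟨rfl, h rfl⟩)
  · exact Or.inl h3

end Cfsg.Agent.S0270
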