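import Cfsg.Statements.S0273
import Cfsg.Agent.Lib.ClassicalGLTwo

set_option autoImplicit false
open Cfsg

namespace Cfsg.Agent.S0273

/-- In GL_2(q) the centraliser of a non-trivial element of a Sylow p-subgroup (p the characteristic) has order q (q-1): the Sylow subgroup times the scalars. -/
theorem result {F : Type*} [Field F] [Fintype F] {q : ℕ} (hF : Fintype.card F = q) (p : ℕ) [Fact p.Prime] [CharP F p] (P : Sylow p (Matrix.GeneralLinearGroup (Fin 2) F)) (a : Matrix.GeneralLinearGroup (Fin 2) F) (ha : a ∈ P) (ha1 : a ≠ 1) : Nat.card (Subgroup.centralizer ({a} : Set (Matrix.GeneralLinearGroup (Fin 2) F))) = q * (q - 1) := by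
  obtain ⟨g, hg⟩ := CfsgLib.Classical.Two.exists_conj_upperU p P
  rw [← SetLike.mem_coe] at ha
  have ha' : a ∈ (P : Subgroup (Matrix.GeneralLinearGroup (Fin 2) F)) := ha
  rw [hg] at ha'
  obtain ⟨x, rfl⟩ := CfsgLib.Classical.Two.mem_conj_upperU.mp ha'
  have hx : x ≠ 0 := by rintro rfl; exact ha1 (by rw [CfsgLib.Classical.Two.uu_zero]; group)
  rw [← hF, ← CfsgLib.Classical.Two.card_centralizer_uu hx]
  refine Nat.card_congr (Equiv.subtypeEquiv (MulAut.conj g⁻¹).toEquiv fun v => ?_)
  rw [Subgroup.mem_centralizer_singleton_iff, Subgroup.mem_centralizer_singleton_iff]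
  rw [← (MulAut.conj g⁻¹).injective.eq_iff, map_mul, map_mul]
  simp [mul_assoc]

end Cfsg.Agent.S0273
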