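import Cfsg.Statements.S0276
import Cfsg.Agent.S0261
import Cfsg.Agent.S0268
import Cfsg.Agent.Lib.ClassicalProjLine

set_option autoImplicit false
open Cfsg

namespace Cfsg.Agent.S0276

/-- For q = 3 or 5 mod 8 the Sylow 2-subgroups of PSL_2(q) are elementary abelian of order 4. -/
theorem result {F : Type*} [Field F] [Fintype F] {q : ℕ} (hF : Fintype.card F = q) (hq : q % 8 = 3 ∨ q % 8 = 5) (P : Sylow 2 (Matrix.ProjectiveSpecialLinearGroup (Fin 2) F)) : IsKleinFour (P : Subgroup (Matrix.ProjectiveSpecialLinearGroup (Fin 2) F)) := by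
  classical
  subst hF
  have h2 : Fact (Nat.Prime 2) := ⟨Nat.prime_two⟩
  have hodd : Odd (Fintype.card F) := Nat.odd_iff.mpr (by omega)
  have hsl := CfsgLib.Classical.Two.card_sl_two (F := F)
  have hpsl := CfsgLib.Classical.card_psl_mul (F := F) (ι := Fin 2)
  rw [Fintype.card_fin, show Nat.gcd 2 (Fintype.card F - 1) = 2 from
    Nat.gcd_eq_left (by omega), hsl] at hpsl
  obtain ⟨m, hm, hmodd⟩ : ∃ m, Fintype.card F * (Fintype.card F - 1) * (Fintype.card F + 1) = 2 ^ 3 * m ∧ Odd m := by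
    rcases hq with hq | hq
    · obtain ⟨k, hk⟩ : ∃ k, Fintype.card F = 8 * k + 3 := ⟨Fintype.card F / 8, by omega⟩
      refine ⟨(8 * k + 3) * (4 * k + 1) * (2 * k + 1), ?_, ?_⟩
      · rw [hk, show 8 * k + 3 - 1 = 8 * k + 2 by omega]; ring
      · exact (Odd.mul (Odd.mul ⟨4 * k + 1, by ring⟩ ⟨2 * k, by ring⟩) ⟨k, rfl⟩)
    · obtain ⟨k, hk⟩ : ∃ k, Fintype.card F = 8 * k + 5 := ⟨Fintype.card F / 8, by omega⟩
      refine ⟨(8 * k + 5) * (2 * k + 1) * (4 * k + 3), ?_, ?_⟩
      · rw [hk, show 8 * k + 5 - 1 = 8 * k + 4 by omega]; ring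
      · exact (Odd.mul (Odd.mul ⟨4 * k + 2, by ring⟩ ⟨k, rfl⟩) ⟨2 * k + 1, by ring⟩)
  have hfac : ∀ a, (2 ^ a * m).factorization 2 = a := fun a => by
    rw [Nat.factorization_mul (pow_ne_zero _ (by norm_num)) (Nat.pos_iff_ne_zero.mp hmodd.pos), Finsupp.add_apply,
      Nat.Prime.factorization_pow Nat.prime_two,
      Nat.factorization_eq_zero_of_not_dvd (Nat.two_dvd_ne_zero.mpr (Nat.odd_iff.mp hmodd))]
    simp
  have hP4 : Nat.card (P : Subgroup (Matrix.ProjectiveSpecialLinearGroup (Fin 2) F)) = 4 := by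
    rw [P.card_eq_multiplicity, show Nat.card (Matrix.ProjectiveSpecialLinearGroup (Fin 2) F) = 2 ^ 2 * m by omega, hfac]
    rfl
  have hπ : Function.Surjective (QuotientGroup.mk' (Subgroup.center (Matrix.SpecialLinearGroup (Fin 2) F))) :=
    QuotientGroup.mk'_surjective _
  obtain ⟨Q, hQ⟩ := Sylow.mapSurjective_surjective hπ 2 P
  obtain ⟨k, hk, ⟨e⟩⟩ := Cfsg.Agent.S0261.sylow_two_quaternion hodd Q
  have hk1 : k = 1 := by
    have h1 := Nat.card_congr e.toEquiv
    rw [Q.card_eq_multiplicity, hsl, hm, hfac, Nat.card_eq_fintype_card, QuaternionGroup.card,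
      show 4 * 2 ^ k = 2 ^ (k + 2) by ring] at h1
    have := Nat.pow_right_injective le_rfl h1
    omega
  subst hk1
  have hsq : ∀ x : Matrix.SpecialLinearGroup (Fin 2) F, x ∈ (Q : Subgroup _) → x * x ∈ Subgroup.center (Matrix.SpecialLinearGroup (Fin 2) F) := fun x hx => by
    by_cases h1 : x * x = 1
    · rw [h1]; exact one_mem _
    have h4 : (x * x) * (x * x) = 1 := by
      have hp : (e ⟨x, hx⟩) ^ 4 = 1 := by
        have h := Monoid.pow_exponent_eq_one (e ⟨x, hx⟩)
        rw [QuaternionGroup.exponent] at h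
        exact h
      rw [← map_pow, map_eq_one_iff e e.injective] at hp
      have := congrArg Subtype.val hp
      simpa [pow_succ, mul_assoc] using this
    have hneg := Cfsg.Agent.S0268.result hodd (x * x) h1 h4
    rw [Subgroup.mem_center_iff]
    intro g
    refine Subtype.ext ?_
    show (g : Matrix (Fin 2) (Fin 2) F) * ((x * x : Matrix.SpecialLinearGroup (Fin 2) F) : Matrix (Fin 2) (Fin 2) F) =
      ((x * x : Matrix.SpecialLinearGroup (Fin 2) F) : Matrix (Fin 2) (Fin 2) F) * (g : Matrix (Fin 2) (Fin 2) F)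
    rw [hneg, mul_neg, neg_mul, mul_one, one_mul]
  refine IsKleinFour.mk hP4 ?_
  refine (Nat.dvd_prime Nat.prime_two).mp (Monoid.exponent_dvd_of_forall_pow_eq_one fun g => ?_) |>.resolve_left fun h => ?_
  · have hg : (g : Matrix.ProjectiveSpecialLinearGroup (Fin 2) F) ∈ (Sylow.mapSurjective hπ Q : Subgroup _) := hQ ▸ g.2
    rw [Sylow.coe_mapSurjective] at hg
    obtain ⟨x, hx, hxg⟩ := hg
    apply Subtype.ext
    rw [SubgroupClass.coe_pow, ← hxg, ← map_pow, pow_two, OneMemClass.coe_one]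
    exact (QuotientGroup.eq_one_iff _).mpr (hsq x hx)
  · rw [Monoid.exp_eq_one_iff] at h
    rw [Nat.card_eq_one_iff_unique.mpr ⟨h, inferInstance⟩] at hP4
    omega

end Cfsg.Agent.S0276
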