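import Cfsg.Statements.S0281
import Cfsg.Agent.S0242
import Cfsg.Agent.Lib.ClassicalOrdersGU
import Cfsg.Agent.Lib.ClassicalHerm

set_option autoImplicit false
open Cfsg

namespace Cfsg.Agent.S0281

open Matrix

/-- SU_2(q) is isomorphic to SL_2(q). -/
theorem result {F K : Type*} [Field F] [Fintype F] [Field K] [Fintype K] {q : ℕ} (hF : Fintype.card F = q ^ 2) (hK : Fintype.card K = q) : Nonempty (Cfsg.SU 2 F q ≃* Matrix.SpecialLinearGroup (Fin 2) K) := by
  classical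
  obtain ⟨σh, hσq, hσne, hσσ⟩ := CfsgLib.Classical.Orders.exists_sigma (q := q) (F := F) hF
  let σ : F ≃+* F := RingEquiv.ofRingHom σh σh (RingHom.ext hσσ) (RingHom.ext hσσ)
  have hσapp : ∀ x, σ x = σh x := fun x => rfl
  have hσ1 : σ ≠ RingEquiv.refl F := fun h => hσne (RingHom.ext fun x => by
    rw [← hσapp, h]; rfl)
  have hσ2 : ∀ a, σ (σ a) = a := hσσ
  have hpow : ∀ a, a ^ q = σ a := fun a => (hσq a).symm
  -- the subfield
  obtain ⟨p, hp⟩ := CharP.exists K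
  obtain ⟨n, hpp, hn⟩ := FiniteField.card K p
  haveI : Fact p.Prime := ⟨hpp⟩
  haveI : CharP F p := by
    obtain ⟨p', hp'⟩ := CharP.exists F
    obtain ⟨n', hpp', hn'⟩ := FiniteField.card F p'
    have hd : p ∣ p' ^ (n' : ℕ) := by
      rw [← hn', hF, ← hK, hn, pow_two]; exact dvd_mul_of_dvd_left (dvd_pow_self p n.pos.ne') _
    rwa [(Nat.prime_dvd_prime_iff_eq hpp hpp').1 (hpp.dvd_of_dvd_pow hd)]
  letI := ZMod.algebra K p
  letI := ZMod.algebra F p
  obtain ⟨ι⟩ : Nonempty (K →ₐ[ZMod p] F) := by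
    refine FiniteField.nonempty_algHom_of_finrank_dvd ⟨2, ?_⟩
    have h1 := Module.card_eq_pow_finrank (K := ZMod p) (V := K)
    have h2 := Module.card_eq_pow_finrank (K := ZMod p) (V := F)
    rw [ZMod.card, hK] at h1
    rw [ZMod.card, hF, h1, ← pow_mul] at h2
    exact (Nat.pow_right_injective hpp.two_le h2).symm
  have hfix : ∀ a : K, σ (ι a) = ι a := fun a => by
    rw [← hpow, ← map_pow, ← hK, FiniteField.pow_card]
  -- an isotropic basis
  obtain ⟨z, hz⟩ := CfsgLib.Classical.exists_sigma_ne hσ1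
  have hz0 : z ≠ 0 := fun h => hz (by rw [h, map_zero])
  obtain ⟨x, hx⟩ := CfsgLib.Classical.exists_norm_eq hσ1 hσ2 (t := -1) (by rw [map_neg, map_one])
  set ε := z - σ z with hε
  set ζ := σ z / z with hζ
  set δ := 1 - σ ζ with hδ
  have hδ0 : δ ≠ 0 := by
    intro h
    have : σ ζ = 1 := (sub_eq_zero.1 h).symm
    have h1 : ζ = 1 := σ.injective (by rw [this, map_one])
    exact hz ((div_eq_one_iff_eq hz0).1 h1)
  set c := σ (ε / δ) with hc
  have hε0 : ε ≠ 0 := sub_ne_zero.2 (Ne.symm hz)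
  have hσε : σ ε = -ε := by rw [hε, map_sub, hσ2, neg_sub]
  have hσc : σ c = ε / δ := hσ2 _
  have hζn : ζ * σ ζ = 1 := by
    rw [hζ, map_div₀, hσ2]; field_simp [hz0, (map_ne_zero σ).2 hz0]
  let P : Matrix (Fin 2) (Fin 2) F := !![1, c; x, c * (x * ζ)]
  have hform : ∀ a b : Fin 2 → F, Cfsg.hermForm 2 F q (P *ᵥ a) (P *ᵥ b) = ε * (a 0 * σ (b 1) - a 1 * σ (b 0)) := by
    intro a b
    simp only [Cfsg.hermForm, Fin.sum_univ_two, hpow, P, Matrix.mulVec, dotProduct, Matrix.of_apply, Matrix.cons_val_zero,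
      Matrix.cons_val_one, map_add, map_mul, map_one, hσc]
    have e1 : ε / δ * δ = ε := div_mul_cancel₀ ε hδ0
    have e2 : c * (1 - ζ) = -ε := by
      have h : c = σ ε / σ δ := by rw [hc, map_div₀]
      have hd : σ δ = 1 - ζ := by rw [hδ, map_sub, map_one, hσ2]
      rw [h, hσε, hd, div_mul_cancel₀]
      rw [← hd]; exact (map_ne_zero σ).2 hδ0
    rw [hδ] at e1
    rw [hδ]
    linear_combination (a 0 * σ (b 0) + a 0 * (ε / (1 - σ ζ)) * σ (b 1) * σ ζ + c * a 1 * σ (b 0) * ζ + c * a 1 * (ε / (1 - σ ζ)) * σ (b 1) * ζ * σ ζ) * hx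
      + a 0 * σ (b 1) * e1 + a 1 * σ (b 0) * e2 - c * (ε / (1 - σ ζ)) * a 1 * σ (b 1) * hζn
  have hPd : P.det ≠ 0 := by
    intro h0
    obtain ⟨a, ha0, ha⟩ := Matrix.exists_mulVec_eq_zero_iff.2 h0
    have h1 := hform a ![1, 0]
    have h2 := hform a ![0, 1]
    rw [ha] at h1 h2
    simp [Cfsg.hermForm] at h1 h2
    apply ha0
    funext i
    fin_cases i
    · exact h2.resolve_left hε0
    · exact h1.resolve_left hε0
  let Pu : GL (Fin 2) F := GeneralLinearGroup.mkOfDetNeZero P hPd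
  have hmem : ∀ g : SpecialLinearGroup (Fin 2) K,
      ∃ h : SpecialLinearGroup (Fin 2) F, h ∈ Cfsg.SU 2 F q ∧ h.1 * P = P * (SpecialLinearGroup.map ι.toRingHom g).1 := by
    intro g
    set M : Matrix (Fin 2) (Fin 2) F := (SpecialLinearGroup.map ι.toRingHom g).1 with hM
    have hdM : M.det = 1 := (SpecialLinearGroup.map ι.toRingHom g).2
    have hd : (P * M * (Pu⁻¹ : GL (Fin 2) F).1).det = 1 := by
      rw [det_mul, det_mul, hdM, mul_one, ← det_mul]
      show (Pu.1 * (Pu⁻¹ : GL (Fin 2) F).1).det = 1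
      rw [← Units.val_mul, mul_inv_cancel, Units.val_one, det_one]
    have hP : (P * M * (Pu⁻¹ : GL (Fin 2) F).1) * P = P * M := by
      show (P * M * (Pu⁻¹ : GL (Fin 2) F).1) * Pu.1 = P * M
      rw [mul_assoc, ← Units.val_mul, inv_mul_cancel, Units.val_one, mul_one]
    refine ⟨⟨_, hd⟩, ?_, hP⟩
    intro u v
    obtain ⟨a, rfl⟩ : ∃ a, P *ᵥ a = u := ⟨(Pu⁻¹ : GL (Fin 2) F).1 *ᵥ u, by
      show Pu.1 *ᵥ _ = _; rw [mulVec_mulVec, ← Units.val_mul, mul_inv_cancel, Units.val_one, one_mulVec]⟩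
    obtain ⟨b, rfl⟩ : ∃ b, P *ᵥ b = v := ⟨(Pu⁻¹ : GL (Fin 2) F).1 *ᵥ v, by
      show Pu.1 *ᵥ _ = _; rw [mulVec_mulVec, ← Units.val_mul, mul_inv_cancel, Units.val_one, one_mulVec]⟩
    show Cfsg.hermForm 2 F q ((P * M * (Pu⁻¹ : GL (Fin 2) F).1) *ᵥ (P *ᵥ a)) ((P * M * (Pu⁻¹ : GL (Fin 2) F).1) *ᵥ (P *ᵥ b)) = _
    rw [mulVec_mulVec, mulVec_mulVec, hP, ← mulVec_mulVec, ← mulVec_mulVec, hform, hform]
    have hMf : ∀ i j, σ (M i j) = M i j := fun i j => hfix _
    rw [Matrix.det_fin_two] at hdM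
    simp only [Matrix.mulVec, dotProduct, Fin.sum_univ_two, map_add, map_mul, hMf]
    linear_combination ε * (a 0 * σ (b 1) - a 1 * σ (b 0)) * hdM
  choose h hh hhP using hmem
  have cancel : ∀ X Y : Matrix (Fin 2) (Fin 2) F, X * P = Y * P → X = Y := fun X Y e => by
    have := congrArg (· * (Pu⁻¹ : GL (Fin 2) F).1) e
    simp only [mul_assoc] at this
    rwa [show P * (Pu⁻¹ : GL (Fin 2) F).1 = 1 from by rw [show P = Pu.1 from rfl, ← Units.val_mul, mul_inv_cancel, Units.val_one], mul_one, mul_one] at this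
  let Φ : SpecialLinearGroup (Fin 2) K →* Cfsg.SU 2 F q :=
    { toFun := fun g => ⟨h g, hh g⟩
      map_one' := Subtype.ext (Subtype.ext (cancel _ _ (by
        rw [hhP, map_one]; show P * 1 = 1 * P; rw [mul_one, one_mul])))
      map_mul' := fun g g' => Subtype.ext (Subtype.ext (cancel _ _ (by
        show _ = ((h g).1 * (h g').1) * P
        rw [hhP, mul_assoc, hhP, ← mul_assoc, hhP, map_mul, mul_assoc]; rfl))) }
  have hinj : Function.Injective Φ := by
    intro g g' e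
    have e1 : P * (SpecialLinearGroup.map ι.toRingHom g).1 = P * (SpecialLinearGroup.map ι.toRingHom g').1 := by
      rw [← hhP, ← hhP, show h g = h g' from congrArg Subtype.val e]
    have e2 := congrArg ((Pu⁻¹ : GL (Fin 2) F).1 * ·) e1
    simp only [← mul_assoc] at e2
    rw [show (Pu⁻¹ : GL (Fin 2) F).1 * P = 1 from by rw [show P = Pu.1 from rfl, ← Units.val_mul, inv_mul_cancel, Units.val_one], one_mul, one_mul] at e2
    exact Subtype.ext (Matrix.map_injective (RingHom.injective ι.toRingHom) e2)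
  refine ⟨(MulEquiv.ofBijective Φ ((Nat.bijective_iff_injective_and_card Φ).2 ⟨hinj, ?_⟩)).symm⟩
  have h1 := CfsgLib.Classical.Orders.card_SU_mul (F := F) (q := q) hF (n := 2) (by norm_num)
  rw [CfsgLib.Classical.Orders.card_GU hF 2] at h1
  have h2 := Cfsg.Agent.S0242.result hK 2 (by norm_num)
  rw [Fin.prod_univ_two] at h2
  simp [Finset.prod_range_succ] at h1 h2
  have hq : 2 ≤ q := hK ▸ Fintype.one_lt_card
  obtain ⟨r, rfl⟩ : ∃ r, q = r + 2 := ⟨q - 2, by omega⟩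
  rw [Nat.card_eq_fintype_card, Nat.card_eq_fintype_card]
  have e1 : (r + 2) ^ 2 - 1 = (r + 3) * (r + 1) := by rw [show (r + 2) ^ 2 = (r + 3) * (r + 1) + 1 by ring, Nat.add_sub_cancel]
  have e2 : (r + 2) ^ 2 - (r + 2) = (r + 2) * (r + 1) := by rw [show (r + 2) ^ 2 = (r + 2) * (r + 1) + (r + 2) by ring, Nat.add_sub_cancel]
  rw [e1] at h1 h2
  rw [e2] at h2
  rw [show r + 2 - 1 = r + 1 by omega] at h2
  apply Nat.eq_of_mul_eq_mul_left (Nat.succ_pos r)
  apply Nat.eq_of_mul_eq_mul_left (Nat.succ_pos (r + 2))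
  rw [Nat.succ_eq_add_one, Nat.succ_eq_add_one, h2]
  have h1' := congrArg ((r + 1) * ·) h1
  ring_nf at h1' ⊢
  linarith

end Cfsg.Agent.S0281
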