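import Cfsg.Statements.S0282
import Cfsg.Agent.Lib.ClassicalPSUThreeTwo

set_option autoImplicit false
open Cfsg

namespace Cfsg.Agent.S0282

/-- PSU_3(2) is a solvable group of order 72. -/
theorem result {F : Type*} [Field F] [Fintype F] (hF : Fintype.card F = 4) : Nat.card (Cfsg.PSU 3 F 2) = 72 ∧ Group.IsSolvable (Cfsg.PSU 3 F 2) := by
  exact ⟨(CfsgLib.Classical.PSUThreeTwo.structure_psu F hF).1, CfsgLib.Classical.PSUThreeTwo.solvable_psu F hF⟩

end Cfsg.Agent.S0282
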