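import Cfsg.Statements.S0284
import Cfsg.Agent.Lib.ClassicalCounts

set_option autoImplicit false
open Cfsg

namespace Cfsg.Agent.S0284

/-- The standard Hermitian form on F^n, |F| = q^2, has exactly q^(n-1) (q^n - (-1)^n) vectors of norm 1. -/
theorem result {F : Type*} [Field F] [Fintype F] {q : ℕ} (hF : Fintype.card F = q ^ 2) (n : ℕ) : Nat.card {v : Fin n → F // Cfsg.hermForm n F q v v = 1} = (if Even n then q ^ (n - 1) * (q ^ n - 1) else q ^ (n - 1) * (q ^ n + 1)) := by
  have h := (CfsgLib.Classical.Count.card_herm hF n).2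
  have hq : 1 ≤ q := by
    have := Fintype.one_lt_card (α := F)
    rw [hF] at this
    nlinarith
  rcases n with _ | m
  · simp [Cfsg.hermForm]
  refine Nat.eq_of_mul_eq_mul_left (show 0 < q from hq) (Int.natCast_inj.mp ?_)
  have h1 : 1 ≤ q ^ (m + 1) := Nat.one_le_pow _ _ hq
  simp only [Nat.add_sub_cancel]
  by_cases he : Even (m + 1)
  · rw [if_pos he]
    rw [he.neg_one_pow] at h
    push_cast [Nat.cast_sub h1] at h ⊢
    linear_combination h
  · rw [if_neg he]
    rw [(Nat.not_even_iff_odd.mp he).neg_one_pow] at h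
    push_cast [Nat.cast_sub h1] at h ⊢
    linear_combination h

end Cfsg.Agent.S0284
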