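import Cfsg.Statements.S0286
import Cfsg.Agent.Lib.ClassicalOrdersO

set_option autoImplicit false
open Cfsg

namespace Cfsg.Agent.S0286

/-- |GO_{2m+1}(q)| = 2 q^(m^2) prod_{i=1}^{m} (q^(2i) - 1) for q odd. -/
theorem result {F : Type*} [Field F] [Fintype F] {q : ℕ} (hF : Fintype.card F = q) (hodd : Odd q) (m : ℕ) : Nat.card (Cfsg.isometryGroup F (Cfsg.quadFormOdd m F)) = 2 * q ^ (m ^ 2) * ∏ i ∈ Finset.range m, (q ^ (2 * (i + 1)) - 1) := by
  subst hF
  refine CfsgLib.Classical.Orders.card_O_odd (fun h => ?_) m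
  obtain ⟨k, hk⟩ := hodd
  have h0 := FiniteField.cast_card_eq_zero F
  rw [hk, Nat.cast_add, Nat.cast_mul, Nat.cast_ofNat, h, zero_mul, zero_add, Nat.cast_one] at h0
  exact one_ne_zero h0

end Cfsg.Agent.S0286
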