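import Cfsg.Statements.S0298
import Cfsg.Agent.S0242
import Cfsg.Agent.Lib.ClassicalPOmegaOrders
import Cfsg.Agent.Lib.ClassicalSL
import Cfsg.Agent.Lib.ClassicalCardLinear

set_option autoImplicit false
open Cfsg

namespace Cfsg.Agent.S0298

open Matrix CfsgLib.Classical

variable {F : Type*} [Field F]

/-- the index type of the three-dimensional space -/
abbrev I3 : Type := Unit ⊕ (Fin 1 ⊕ Fin 1)

/-- the adjoint action on trace zero matrices -/
def adL (g : Matrix (Fin 2) (Fin 2) F) : (I3 → F) →ₗ[F] (I3 → F) where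
  toFun v := Sum.elim
    (fun _ => (g 0 0 * g 1 1 + g 0 1 * g 1 0) * v (.inl ()) - g 0 0 * g 1 0 * v (.inr (.inl 0)) + g 0 1 * g 1 1 * v (.inr (.inr 0)))
    (Sum.elim
      (fun _ => -(2 * g 0 0 * g 0 1) * v (.inl ()) + g 0 0 ^ 2 * v (.inr (.inl 0)) - g 0 1 ^ 2 * v (.inr (.inr 0)))
      (fun _ => 2 * g 1 0 * g 1 1 * v (.inl ()) - g 1 0 ^ 2 * v (.inr (.inl 0)) + g 1 1 ^ 2 * v (.inr (.inr 0))))
  map_add' u v := by funext i; rcases i with _ | i | i <;> simp <;> ring
  map_smul' c v := by funext i; rcases i with _ | i | i <;> simp <;> ring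

theorem adL_mul (g h : Matrix (Fin 2) (Fin 2) F) : adL (g * h) = adL g ∘ₗ adL h := by
  refine LinearMap.ext fun v => funext fun i => ?_
  rcases i with _ | i | i <;>
    simp only [adL, LinearMap.coe_mk, AddHom.coe_mk, LinearMap.comp_apply, Sum.elim_inl, Sum.elim_inr, Matrix.mul_apply, Fin.sum_univ_two] <;> ring

theorem adL_one : adL (1 : Matrix (Fin 2) (Fin 2) F) = LinearMap.id := by
  refine LinearMap.ext fun v => funext fun i => ?_
  rcases i with _ | i | i <;> simp [adL, Fin.fin_one_eq_zero]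

/-- the adjoint matrices -/
noncomputable def adHom : SpecialLinearGroup (Fin 2) F →* Matrix I3 I3 F where
  toFun g := LinearMap.toMatrix' (adL g.1)
  map_one' := by
    show LinearMap.toMatrix' (adL (1 : Matrix (Fin 2) (Fin 2) F)) = 1
    rw [adL_one, LinearMap.toMatrix'_id]
  map_mul' g h := by
    show LinearMap.toMatrix' (adL (g.1 * h.1)) = _
    rw [adL_mul, LinearMap.toMatrix'_comp]

theorem adHom_mulVec (g : SpecialLinearGroup (Fin 2) F) (v : I3 → F) : adHom g *ᵥ v = adL g.1 v := by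
  show LinearMap.toMatrix' (adL g.1) *ᵥ v = _
  rw [← Matrix.toLin'_apply, Matrix.toLin'_toMatrix']

theorem adL_form (g : SpecialLinearGroup (Fin 2) F) (v : I3 → F) :
    Cfsg.quadFormOdd 1 F (adL g.1 v) = Cfsg.quadFormOdd 1 F v := by
  have hd : g.1 0 0 * g.1 1 1 - g.1 0 1 * g.1 1 0 = 1 := (Matrix.det_fin_two g.1).symm.trans g.2
  simp [Cfsg.quadFormOdd, adL]
  linear_combination (v (.inl ()) ^ 2 + v (.inr (.inl 0)) * v (.inr (.inr 0))) * (g.1 0 0 * g.1 1 1 - g.1 0 1 * g.1 1 0 + 1) * hd

/-- the adjoint representation -/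
noncomputable def adIso : SpecialLinearGroup (Fin 2) F →* ↥(Cfsg.isometryGroup F (Cfsg.quadFormOdd 1 F)) :=
  adHom.toHomUnits.codRestrict _ fun g u _ => by
    show Cfsg.quadFormOdd 1 F (adHom g *ᵥ u) = _
    rw [adHom_mulVec, adL_form]

theorem adL_eq_id (h2 : (2 : F) ≠ 0) (g : SpecialLinearGroup (Fin 2) F) (h : adL g.1 = LinearMap.id) :
    g.1 0 1 = 0 ∧ g.1 1 0 = 0 ∧ g.1 1 1 = g.1 0 0 := by
  have hd : g.1 0 0 * g.1 1 1 - g.1 0 1 * g.1 1 0 = 1 := (Matrix.det_fin_two g.1).symm.trans g.2
  have hy := LinearMap.congr_fun h (Pi.single (.inr (.inl 0)) 1)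
  have hz := LinearMap.congr_fun h (Pi.single (.inr (.inr 0)) 1)
  have y3 := congrFun hy (.inr (.inr 0))
  have y2 := congrFun hy (.inr (.inl 0))
  have z2 := congrFun hz (.inr (.inl 0))
  simp [adL] at y3 y2 z2
  refine ⟨z2, y3, ?_⟩
  rw [y3, mul_zero, sub_zero] at hd
  rcases y2 with e | e <;> rw [e] at hd ⊢ <;> first | linear_combination hd | linear_combination -hd

/-- PΩ_3(q) is isomorphic to PSL_2(q) for q odd. -/
theorem result {F : Type*} [Field F] [Fintype F] (hodd : Odd (Fintype.card F)) : Nonempty (Cfsg.POmega F (Cfsg.quadFormOdd 1 F) ≃* Matrix.ProjectiveSpecialLinearGroup (Fin 2) F) := by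
  classical
  have h2 : (2 : F) ≠ 0 := two_ne_zero_of_odd_card hodd
  have hQ := isNondegenerate_quadFormOdd h2 1
  have hn : 2 ≤ Fintype.card I3 := by simp [I3]
  obtain ⟨θ, hθ⟩ := exists_spinor (F := F) hQ h2 hn
  obtain ⟨D, hD⟩ := exists_dickson hQ (Or.inl (show Nat.card F ≠ 2 from fun h => by
    rw [Nat.card_eq_fintype_card] at h; rw [h] at hodd; exact absurd hodd (by decide)))
  have himg : ∀ g, adIso g ∈ Cfsg.Omega F (Cfsg.quadFormOdd 1 F) := by
    intro g
    have : (Cfsg.Omega F (Cfsg.quadFormOdd 1 F)).comap adIso = ⊤ := by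
      refine sl_eq_top_of_transvection fun i j hij c => ?_
      rw [Subgroup.mem_comap]
      have e : SpecialLinearGroup.transvection hij c =
          SpecialLinearGroup.transvection hij (c / 2) * SpecialLinearGroup.transvection hij (c / 2) := by
        refine Subtype.ext ?_
        show _ = (SpecialLinearGroup.transvection hij (c / 2)).1 * (SpecialLinearGroup.transvection hij (c / 2)).1
        rw [SpecialLinearGroup.transvection_coe, SpecialLinearGroup.transvection_coe,
          add_mul, mul_add, mul_add, one_mul, mul_one, one_mul, Matrix.single_mul_single_of_ne _ _ _ _ hij.symm, add_zero, add_assoc,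
          ← Matrix.single_add, show c / 2 + c / 2 = c by field_simp; ring]
      rw [e, map_mul, omega_eq_inf hQ h2 hn hD hθ]
      refine ⟨?_, ?_⟩
      · show D _ = 1
        rw [map_mul]; exact Int.units_mul_self _
      · show θ _ = 1
        rw [map_mul]; exact Int.units_mul_self _
    exact (this ▸ Subgroup.mem_top g : g ∈ (Cfsg.Omega F (Cfsg.quadFormOdd 1 F)).comap adIso)
  let Φ : SpecialLinearGroup (Fin 2) F →* Cfsg.Omega F (Cfsg.quadFormOdd 1 F) := adIso.codRestrict _ himg
  have hker : Φ.ker = Subgroup.center (SpecialLinearGroup (Fin 2) F) := by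
    ext g
    constructor
    · intro hg
      have h : adL g.1 = LinearMap.id := LinearMap.ext fun v => by
        rw [← adHom_mulVec, show adHom g = (1 : Matrix I3 I3 F) from
          congrArg (fun z : Cfsg.Omega F (Cfsg.quadFormOdd 1 F) => ((z.1.1 : GL I3 F) : Matrix I3 I3 F)) hg, one_mulVec]; rfl
      obtain ⟨h01, h10, h11⟩ := adL_eq_id h2 g h
      refine Matrix.SpecialLinearGroup.mem_center_iff.2 ⟨g.1 0 0, ?_, ?_⟩
      · rw [Fintype.card_fin]
        have := (Matrix.det_fin_two g.1).symm.trans g.2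
        rw [h01, h11] at this
        linear_combination this
      · ext i j
        fin_cases i <;> fin_cases j <;> simp [h01, h10, h11]
    · intro hg
      obtain ⟨r, hr, hrg⟩ := Matrix.SpecialLinearGroup.mem_center_iff.1 hg
      rw [Fintype.card_fin] at hr
      refine Subtype.ext (Subtype.ext (gl_ext_mulVec fun v => ?_))
      show adHom g *ᵥ v = (1 : Matrix I3 I3 F) *ᵥ v
      rw [adHom_mulVec, one_mulVec, ← hrg]
      funext i
      rcases i with _ | i | i <;> simp [adL, Fin.fin_one_eq_zero, ← pow_two, hr]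
  have hO := Orders.card_O_odd h2 1 (F := F)
  have hI := Subgroup.card_mul_index (Cfsg.Omega F (Cfsg.quadFormOdd 1 F))
  rw [index_omega_odd hQ h2 hn, hO] at hI
  have hsl := Cfsg.Agent.S0242.result (F := F) rfl 2 (by norm_num)
  have hcen := card_center_sl (ι := Fin 2) (F := F)
  rw [Fintype.card_fin] at hcen
  have hg2 : Nat.gcd 2 (Fintype.card F - 1) = 2 := by
    obtain ⟨r, hr⟩ := hodd
    rw [hr, Nat.add_sub_cancel]; exact Nat.gcd_eq_left ⟨r, rfl⟩
  have hquot := Subgroup.card_eq_card_quotient_mul_card_subgroup Φ.ker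
  rw [Nat.card_congr (QuotientGroup.quotientKerEquivRange Φ).toEquiv, hker, hcen, hg2] at hquot
  rw [Fin.prod_univ_two] at hsl
  simp [Finset.prod_range_succ] at hI hsl
  have hsurj : Function.Surjective Φ := by
    rw [← MonoidHom.range_eq_top]
    refine Subgroup.eq_top_of_le_card _ ?_
    rw [Nat.card_eq_fintype_card, Nat.card_eq_fintype_card] at hquot ⊢
    have hq : 3 ≤ Fintype.card F := by
      have := Fintype.one_lt_card (α := F)
      obtain ⟨r, hr⟩ := hodd
      omega
    generalize Fintype.card F = q at *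
    obtain ⟨r, rfl⟩ : ∃ r, q = r + 2 := ⟨q - 2, by omega⟩
    have e1 : (r + 2) ^ 2 - 1 = (r + 3) * (r + 1) := by rw [show (r + 2) ^ 2 = (r + 3) * (r + 1) + 1 by ring, Nat.add_sub_cancel]
    have e2 : (r + 2) ^ 2 - (r + 2) = (r + 2) * (r + 1) := by rw [show (r + 2) ^ 2 = (r + 2) * (r + 1) + (r + 2) by ring, Nat.add_sub_cancel]
    rw [e1] at hI hsl
    rw [e2, show r + 2 - 1 = r + 1 by omega] at hsl
    rw [hquot] at hsl
    nlinarith
  have hcΩ : Subgroup.center (Cfsg.Omega F (Cfsg.quadFormOdd 1 F)) = ⊥ := by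
    rw [eq_bot_iff]
    intro z hz
    obtain ⟨g, rfl⟩ := hsurj z
    rw [Subgroup.mem_bot, ← MonoidHom.mem_ker, hker]
    have hcomm : ∀ s, g * s * g⁻¹ * s⁻¹ ∈ Subgroup.center (SpecialLinearGroup (Fin 2) F) := fun s => by
      rw [← hker, MonoidHom.mem_ker, map_mul, map_mul, map_mul, map_inv, map_inv, ← Subgroup.mem_center_iff.1 hz (Φ s), mul_inv_cancel_right, mul_inv_cancel]
    refine Subgroup.mem_center_iff.2 fun s => ?_
    have htop : Subgroup.centralizer ({g} : Set (SpecialLinearGroup (Fin 2) F)) = ⊤ := by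
      refine sl_eq_top_of_transvection fun i j hij c => ?_
      rw [Subgroup.mem_centralizer_singleton_iff]
      set u := SpecialLinearGroup.transvection hij c with hu
      obtain ⟨r, hr, hrg⟩ := Matrix.SpecialLinearGroup.mem_center_iff.1 (hcomm u)
      rw [Fintype.card_fin] at hr
      have he : g.1 * u.1 = r • (u.1 * g.1) := by
        have e : g * u = (g * u * g⁻¹ * u⁻¹) * (u * g) := by group
        have e' : g.1 * u.1 = (g * u * g⁻¹ * u⁻¹).1 * (u.1 * g.1) := congrArg Subtype.val e
        rw [e', ← hrg, Matrix.scalar_apply, Matrix.smul_eq_diagonal_mul]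
      have htr : (g.1 * u.1 * (g⁻¹ : SpecialLinearGroup (Fin 2) F).1).trace = u.1.trace := by
        rw [Matrix.trace_mul_comm, ← mul_assoc, show (g⁻¹ : SpecialLinearGroup (Fin 2) F).1 * g.1 = 1 from congrArg Subtype.val (inv_mul_cancel g), one_mul]
      rw [he, Matrix.smul_mul, mul_assoc, show g.1 * (g⁻¹ : SpecialLinearGroup (Fin 2) F).1 = 1 from congrArg Subtype.val (mul_inv_cancel g), mul_one,
        Matrix.trace_smul, smul_eq_mul] at htr
      have htu : u.1.trace = 2 := by
        rw [hu, SpecialLinearGroup.transvection_coe, Matrix.trace_add, Matrix.trace_one, Matrix.trace_single_eq_of_ne _ _ _ hij]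
        simp
      rw [htu] at htr
      have hr1 : r = 1 := mul_right_cancel₀ h2 (htr.trans (one_mul 2).symm)
      rw [hr1, one_smul] at he
      exact Subtype.ext he.symm
    exact (Subgroup.mem_centralizer_singleton_iff.1 (htop ▸ Subgroup.mem_top s))
  let Ψ : SpecialLinearGroup (Fin 2) F →* Cfsg.POmega F (Cfsg.quadFormOdd 1 F) := (QuotientGroup.mk' _).comp Φ
  have hΨ : Ψ.ker = Subgroup.center (SpecialLinearGroup (Fin 2) F) := by
    rw [← hker]
    ext g
    rw [MonoidHom.mem_ker, MonoidHom.comp_apply, QuotientGroup.mk'_apply, QuotientGroup.eq_one_iff, hcΩ, Subgroup.mem_bot, MonoidHom.mem_ker]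
  exact ⟨((QuotientGroup.quotientMulEquivOfEq hΨ.symm).trans
    (QuotientGroup.quotientKerEquivOfSurjective Ψ ((QuotientGroup.mk'_surjective _).comp hsurj))).symm⟩

end Cfsg.Agent.S0298
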