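import Cfsg.Statements.S0304
import Cfsg.Agent.Lib.ClassicalSpStd
import Cfsg.Agent.Lib.ClassicalQuadStd2

set_option autoImplicit false
open Cfsg

namespace Cfsg.Agent.S0304

open Matrix in
lemma polar_plus_eq_symp {F : Type*} [Field F] [CharP F 2] {m : ℕ} (u v : Fin m ⊕ Fin m → F) :
    Cfsg.sympForm m F u v = QuadraticMap.polar (Cfsg.quadFormPlus m F) u v := by
  rw [CfsgLib.Classical.sympForm_apply, CfsgLib.Classical.polar_quadFormPlus]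
  exact Finset.sum_congr rfl fun i _ => by rw [CharTwo.sub_eq_add]; ring

open Matrix in
lemma bridge {F : Type*} [Field F] [Fintype F] [CharP F 2] (m : ℕ) :
    Nonempty (Cfsg.isometryGroup F (Cfsg.quadFormOdd m F) ≃* Matrix.symplecticGroup (Fin m) F) := by
  classical
  let P := Cfsg.quadFormPlus m F
  have hPsmul : ∀ (c : F) y, P (c • y) = c ^ 2 * P y := fun c y =>
    (CfsgLib.Classical.isNondegenerate_quadFormPlus (F := F) m).smul c y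
  have hQ : ∀ v : Unit ⊕ (Fin m ⊕ Fin m) → F,
      Cfsg.quadFormOdd m F v = v (.inl ()) ^ 2 + P (v ∘ Sum.inr) := fun v => rfl
  have hpol : ∀ u v : Unit ⊕ (Fin m ⊕ Fin m) → F,
      QuadraticMap.polar (Cfsg.quadFormOdd m F) u v = QuadraticMap.polar P (u ∘ Sum.inr) (v ∘ Sum.inr) := by
    intro u v
    simp only [QuadraticMap.polar, hQ, Pi.add_apply]
    rw [show (u + v) ∘ Sum.inr = u ∘ Sum.inr + v ∘ Sum.inr from rfl, CharTwo.add_sq]
    ring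
  let e0 : Unit ⊕ (Fin m ⊕ Fin m) → F := Sum.elim (fun _ => 1) 0
  -- every isometry fixes the radical vector
  have hblock : ∀ g : Cfsg.isometryGroup F (Cfsg.quadFormOdd m F),
      ∀ (x : F) (y : Fin m ⊕ Fin m → F),
        (((g : GL (Unit ⊕ (Fin m ⊕ Fin m)) F) : Matrix (Unit ⊕ (Fin m ⊕ Fin m)) (Unit ⊕ (Fin m ⊕ Fin m)) F) *ᵥ Sum.elim (fun _ => x) y) ∘ Sum.inr =
          (((g : GL (Unit ⊕ (Fin m ⊕ Fin m)) F) : Matrix (Unit ⊕ (Fin m ⊕ Fin m)) (Unit ⊕ (Fin m ⊕ Fin m)) F).toBlocks₂₂) *ᵥ y := by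
    intro g
    obtain ⟨M, hM⟩ : ∃ M, M = ((g : GL (Unit ⊕ (Fin m ⊕ Fin m)) F) : Matrix (Unit ⊕ (Fin m ⊕ Fin m)) (Unit ⊕ (Fin m ⊕ Fin m)) F) := ⟨_, rfl⟩
    have hg : ∀ u, Cfsg.quadFormOdd m F (M *ᵥ u) = Cfsg.quadFormOdd m F u := fun u => hM ▸ g.2 u u
    have hgp : ∀ u w, QuadraticMap.polar (Cfsg.quadFormOdd m F) (M *ᵥ u) (M *ᵥ w) =
        QuadraticMap.polar (Cfsg.quadFormOdd m F) u w := fun u w => by
      simp only [QuadraticMap.polar, ← mulVec_add, hg]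
    have hsurj : Function.Surjective fun u => M *ᵥ u := fun w =>
      ⟨(((g : GL (Unit ⊕ (Fin m ⊕ Fin m)) F))⁻¹ : GL (Unit ⊕ (Fin m ⊕ Fin m)) F).1 *ᵥ w, by
        show M *ᵥ _ = w
        rw [hM, mulVec_mulVec, ← Units.val_mul, mul_inv_cancel, Units.val_one, one_mulVec]⟩
    have h21 : (M *ᵥ e0) ∘ Sum.inr = 0 := by
      by_contra hne
      obtain ⟨z, hz⟩ := ((CfsgLib.Classical.isNondegenerate_quadFormPlus (F := F) m).nondegenerate _ hne).2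
      obtain ⟨w, hw⟩ := hsurj (Sum.elim (fun _ => 0) z)
      change M *ᵥ w = _ at hw
      apply hz
      have h := hgp e0 w
      rw [hpol, hpol, hw, Sum.elim_comp_inr, show e0 ∘ Sum.inr = 0 from rfl] at h
      refine h.trans ?_
      simp [QuadraticMap.polar, P, Cfsg.quadFormPlus]
    intro x y
    rw [← hM]
    funext j
    have hj : M (.inr j) (.inl ()) = 0 := by
      have := congrFun h21 j
      simpa [e0, mulVec, dotProduct, Fintype.sum_sum_type] using this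
    simp [mulVec, dotProduct, Fintype.sum_sum_type, toBlocks₂₂, hj]
  have hsp : ∀ g : Cfsg.isometryGroup F (Cfsg.quadFormOdd m F),
      ((g : GL (Unit ⊕ (Fin m ⊕ Fin m)) F) : Matrix (Unit ⊕ (Fin m ⊕ Fin m)) (Unit ⊕ (Fin m ⊕ Fin m)) F).toBlocks₂₂ ∈ Matrix.symplecticGroup (Fin m) F := by
    intro g
    rw [CfsgLib.Classical.mem_symplecticGroup_iff]
    intro u v
    rw [polar_plus_eq_symp, polar_plus_eq_symp, ← hblock g 0 u, ← hblock g 0 v, ← hpol]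
    have hg : ∀ w, Cfsg.quadFormOdd m F (((g : GL (Unit ⊕ (Fin m ⊕ Fin m)) F) : Matrix (Unit ⊕ (Fin m ⊕ Fin m)) (Unit ⊕ (Fin m ⊕ Fin m)) F) *ᵥ w) = Cfsg.quadFormOdd m F w := fun w => g.2 w w
    simp only [QuadraticMap.polar, ← mulVec_add, hg]
    exact hpol _ _
  have hel : ∀ v : Unit ⊕ (Fin m ⊕ Fin m) → F, v = Sum.elim (fun _ => v (.inl ())) (v ∘ Sum.inr) :=
    fun v => funext fun j => by rcases j with j | j <;> rfl
  let φ : Cfsg.isometryGroup F (Cfsg.quadFormOdd m F) →* Matrix.symplecticGroup (Fin m) F :=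
    MonoidHom.mk' (fun g => ⟨_, hsp g⟩) fun g k => Subtype.ext (Matrix.ext_of_mulVec_single fun i => by
      show ((((g * k : Cfsg.isometryGroup F (Cfsg.quadFormOdd m F))) : GL (Unit ⊕ (Fin m ⊕ Fin m)) F) : Matrix (Unit ⊕ (Fin m ⊕ Fin m)) (Unit ⊕ (Fin m ⊕ Fin m)) F).toBlocks₂₂ *ᵥ Pi.single i 1 =
        (((g : GL (Unit ⊕ (Fin m ⊕ Fin m)) F) : Matrix (Unit ⊕ (Fin m ⊕ Fin m)) (Unit ⊕ (Fin m ⊕ Fin m)) F).toBlocks₂₂ * ((k : GL (Unit ⊕ (Fin m ⊕ Fin m)) F) : Matrix (Unit ⊕ (Fin m ⊕ Fin m)) (Unit ⊕ (Fin m ⊕ Fin m)) F).toBlocks₂₂) *ᵥ Pi.single i 1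
      rw [← hblock (g * k) 0, ← mulVec_mulVec, Subgroup.coe_mul, Units.val_mul, ← mulVec_mulVec,
        hel (((k : GL (Unit ⊕ (Fin m ⊕ Fin m)) F) : Matrix (Unit ⊕ (Fin m ⊕ Fin m)) (Unit ⊕ (Fin m ⊕ Fin m)) F) *ᵥ _), hblock g, hblock k])
  refine ⟨MulEquiv.ofBijective φ ⟨(injective_iff_map_eq_one φ).mpr fun g hg => ?_, fun A => ?_⟩⟩
  · have hA : ((g : GL (Unit ⊕ (Fin m ⊕ Fin m)) F) : Matrix (Unit ⊕ (Fin m ⊕ Fin m)) (Unit ⊕ (Fin m ⊕ Fin m)) F).toBlocks₂₂ = 1 := congrArg Subtype.val hg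
    refine Subtype.ext (Units.ext (Matrix.ext_of_mulVec_single fun i => ?_))
    obtain ⟨v, hv⟩ : ∃ v : Unit ⊕ (Fin m ⊕ Fin m) → F, v = Pi.single i 1 := ⟨_, rfl⟩
    rw [← hv, Subgroup.coe_one, Units.val_one, one_mulVec]
    have h2 : (((g : GL (Unit ⊕ (Fin m ⊕ Fin m)) F) : Matrix (Unit ⊕ (Fin m ⊕ Fin m)) (Unit ⊕ (Fin m ⊕ Fin m)) F) *ᵥ v) ∘ Sum.inr = v ∘ Sum.inr := by
      conv_lhs => rw [hel v]
      rw [hblock g, hA, one_mulVec]
    have h1 := g.2 v v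
    change Cfsg.quadFormOdd m F (((g : GL (Unit ⊕ (Fin m ⊕ Fin m)) F) : Matrix (Unit ⊕ (Fin m ⊕ Fin m)) (Unit ⊕ (Fin m ⊕ Fin m)) F) *ᵥ v) = Cfsg.quadFormOdd m F v at h1
    rw [hQ, hQ, h2, add_left_inj, CharTwo.sq_inj] at h1
    funext j
    rcases j with j | j
    · exact h1
    · exact congrFun h2 j
  · have hdiag : ∀ j, ∃ l : F, P (Pi.single j 1) + P ((A : Matrix (Fin m ⊕ Fin m) (Fin m ⊕ Fin m) F) *ᵥ Pi.single j 1) = l ^ 2 := fun j => by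
      obtain ⟨l, hl⟩ := FiniteField.isSquare_of_char_two (F := F) (ringChar.eq F 2)
        (P (Pi.single j 1) + P ((A : Matrix (Fin m ⊕ Fin m) (Fin m ⊕ Fin m) F) *ᵥ Pi.single j 1))
      exact ⟨l, by rw [hl, sq]⟩
    choose l hl using hdiag
    have hA := CfsgLib.Classical.mem_symplecticGroup_iff.mp A.2
    have hP : ∀ x y, P (x + y) = P x + P y + Cfsg.sympForm m F x y := fun x y => by
      rw [polar_plus_eq_symp]; simp [QuadraticMap.polar, P]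
    have hadd : ∀ x y, P (x + y) + P ((A : Matrix (Fin m ⊕ Fin m) (Fin m ⊕ Fin m) F) *ᵥ (x + y)) =
        (P x + P ((A : Matrix (Fin m ⊕ Fin m) (Fin m ⊕ Fin m) F) *ᵥ x)) + (P y + P ((A : Matrix (Fin m ⊕ Fin m) (Fin m ⊕ Fin m) F) *ᵥ y)) := fun x y => by
      rw [mulVec_add, hP, hP, hA]
      linear_combination (Cfsg.sympForm m F x y) * CharTwo.two_eq_zero (R := F)
    have hD : ∀ y, P y + P ((A : Matrix (Fin m ⊕ Fin m) (Fin m ⊕ Fin m) F) *ᵥ y) = (l ⬝ᵥ y) ^ 2 := by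
      intro y
      let D : (Fin m ⊕ Fin m → F) →+ F :=
        AddMonoidHom.mk' (fun z => P z + P ((A : Matrix (Fin m ⊕ Fin m) (Fin m ⊕ Fin m) F) *ᵥ z)) hadd
      show D y = _
      conv_lhs => rw [pi_eq_sum_univ' y]
      rw [map_sum, dotProduct, CharTwo.sum_sq]
      refine Finset.sum_congr rfl fun j _ => ?_
      show P (y j • Pi.single j 1) + P ((A : Matrix (Fin m ⊕ Fin m) (Fin m ⊕ Fin m) F) *ᵥ (y j • Pi.single j 1)) = (l j * y j) ^ 2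
      rw [mulVec_smul, hPsmul, hPsmul, mul_pow, ← hl]
      ring
    obtain ⟨M, hM⟩ : ∃ M : Matrix (Unit ⊕ (Fin m ⊕ Fin m)) (Unit ⊕ (Fin m ⊕ Fin m)) F, M = Matrix.fromBlocks (1 : Matrix Unit Unit F)
        (Matrix.of fun _ j => l j) 0 (A : Matrix (Fin m ⊕ Fin m) (Fin m ⊕ Fin m) F) := ⟨_, rfl⟩
    have hdet : M.det ≠ 0 := by
      rw [hM, Matrix.det_fromBlocks_zero₂₁, det_one, one_mul]
      exact (SymplecticGroup.symplectic_det A.2).ne_zero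
    refine ⟨⟨Matrix.GeneralLinearGroup.mkOfDetNeZero M hdet, fun u _ => ?_⟩, Subtype.ext ?_⟩
    · show Cfsg.quadFormOdd m F (M *ᵥ u) = Cfsg.quadFormOdd m F u
      have e1 : (M *ᵥ u) (.inl ()) = u (.inl ()) + l ⬝ᵥ (u ∘ Sum.inr) := by
        rw [hM, fromBlocks_mulVec]; simp [mulVec, dotProduct]
      have e2 : (M *ᵥ u) ∘ Sum.inr = (A : Matrix (Fin m ⊕ Fin m) (Fin m ⊕ Fin m) F) *ᵥ (u ∘ Sum.inr) := by
        rw [hM, fromBlocks_mulVec]; simp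
      rw [hQ, hQ, e1, e2, CharTwo.add_sq, ← hD]
      linear_combination P ((A : Matrix (Fin m ⊕ Fin m) (Fin m ⊕ Fin m) F) *ᵥ (u ∘ Sum.inr)) * CharTwo.two_eq_zero (R := F)
    · show M.toBlocks₂₂ = (A : Matrix (Fin m ⊕ Fin m) (Fin m ⊕ Fin m) F)
      rw [hM, toBlocks_fromBlocks₂₂]

/-- In characteristic 2, O_{2m+1}(q) is isomorphic to Sp_{2m}(q). -/
theorem result {F : Type*} [Field F] [Fintype F] [CharP F 2] (m : ℕ) : Nonempty (Cfsg.isometryGroup F (Cfsg.quadFormOdd m F) ≃* Matrix.symplecticGroup (Fin m) F) := by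
  exact bridge m

end Cfsg.Agent.S0304
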