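import Cfsg.Statements.S0305
import Mathlib.GroupTheory.SpecificGroups.Dihedral
import Mathlib.GroupTheory.SpecificGroups.Cyclic

set_option autoImplicit false
open Cfsg

namespace Cfsg.Agent.S0305

open Matrix

variable {F : Type*} [Field F]

abbrev GO2 (F : Type*) [Field F] := Cfsg.isometryGroup F (Cfsg.quadFormPlus 1 F)

lemma mem_GO2 {g : GL (Fin 1 ⊕ Fin 1) F} :
    g ∈ GO2 F ↔ ∀ u : Fin 1 ⊕ Fin 1 → F,
      ((g : Matrix (Fin 1 ⊕ Fin 1) (Fin 1 ⊕ Fin 1) F) *ᵥ u) (.inl 0) * ((g : Matrix (Fin 1 ⊕ Fin 1) (Fin 1 ⊕ Fin 1) F) *ᵥ u) (.inr 0) =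
        u (.inl 0) * u (.inr 0) := by
  constructor
  · intro h u; simpa [Cfsg.quadFormPlus] using h u u
  · intro h u _; simpa [Cfsg.quadFormPlus] using h u

def dp (a : Fˣ) : GO2 F :=
  ⟨⟨Matrix.diagonal (Sum.elim (fun _ => (a : F)) (fun _ => ((a⁻¹ : Fˣ) : F))),
    Matrix.diagonal (Sum.elim (fun _ => ((a⁻¹ : Fˣ) : F)) (fun _ => (a : F))),
    by ext (i | i) (j | j) <;> fin_cases i <;> fin_cases j <;> simp ,
    by ext (i | i) (j | j) <;> fin_cases i <;> fin_cases j <;> simp ⟩,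
   mem_GO2.mpr fun u => by simp [mulVec_diagonal]; field_simp⟩

def sw : GO2 F :=
  ⟨⟨Matrix.fromBlocks 0 1 1 0, Matrix.fromBlocks 0 1 1 0,
    by simp [Matrix.fromBlocks_multiply, Matrix.fromBlocks_one],
    by simp [Matrix.fromBlocks_multiply, Matrix.fromBlocks_one]⟩,
   mem_GO2.mpr fun u => by simp [Matrix.fromBlocks_mulVec]; ring⟩

lemma dp_mul (a b : Fˣ) : dp (a * b) = dp a * dp b := by
  refine Subtype.ext (Units.ext ?_)
  ext (i | i) (j | j) <;> fin_cases i <;> fin_cases j <;> simp [dp, mul_comm]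

lemma sw_dp (a : Fˣ) : sw * dp a = dp a⁻¹ * sw := by
  refine Subtype.ext (Units.ext ?_)
  ext (i | i) (j | j) <;> fin_cases i <;> fin_cases j <;>
    simp [dp, sw, Matrix.mul_apply, Fintype.sum_sum_type]

lemma sw_sw : (sw : GO2 F) * sw = 1 := by
  refine Subtype.ext (Units.ext ?_)
  simp [sw, Matrix.fromBlocks_multiply, Matrix.fromBlocks_one]

lemma dp_one : (dp (1 : Fˣ)) = 1 := by
  refine Subtype.ext (Units.ext ?_)
  ext (i | i) (j | j) <;> fin_cases i <;> fin_cases j <;> simp [dp]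

variable {n : ℕ}

/-- The rotation attached to an element of `ZMod n`. -/
def rot (e : Multiplicative (ZMod n) ≃* Fˣ) (i : ZMod n) : GO2 F := dp (e (Multiplicative.ofAdd i))

lemma rot_add (e : Multiplicative (ZMod n) ≃* Fˣ) (i j : ZMod n) :
    rot e (i + j) = rot e i * rot e j := by
  rw [rot, rot, rot, ofAdd_add, map_mul, dp_mul]

lemma rot_sw (e : Multiplicative (ZMod n) ≃* Fˣ) (i : ZMod n) :
    rot e i * sw = sw * rot e (-i) := by
  rw [rot, rot, ofAdd_neg, map_inv, sw_dp, inv_inv]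

def dihFun (e : Multiplicative (ZMod n) ≃* Fˣ) : DihedralGroup n → GO2 F
  | .r i => rot e i
  | .sr i => sw * rot e i

def dihHom (e : Multiplicative (ZMod n) ≃* Fˣ) : DihedralGroup n →* GO2 F where
  toFun := dihFun e
  map_one' := by
    show rot e 0 = 1
    rw [rot, ofAdd_zero, map_one, dp_one]
  map_mul' := by
    rintro (i | i) (j | j)
    · exact rot_add e i j
    · show sw * rot e (j - i) = rot e i * (sw * rot e j)
      rw [← mul_assoc, rot_sw, mul_assoc, ← rot_add, neg_add_eq_sub]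
    · show sw * rot e (i + j) = sw * rot e i * rot e j
      rw [rot_add, mul_assoc]
    · show rot e (j - i) = sw * rot e i * (sw * rot e j)
      rw [← mul_assoc, mul_assoc sw, rot_sw, ← mul_assoc, sw_sw, one_mul, ← rot_add, neg_add_eq_sub]

lemma dihHom_injective (e : Multiplicative (ZMod n) ≃* Fˣ) : Function.Injective (dihHom e) := by
  refine (injective_iff_map_eq_one _).mpr ?_
  rintro (i | i) h
  · have h' := congrArg (fun g : GO2 F => ((g : GL (Fin 1 ⊕ Fin 1) F) : Matrix (Fin 1 ⊕ Fin 1) (Fin 1 ⊕ Fin 1) F) (.inl 0) (.inl 0)) h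
    simp [dihHom, dihFun, rot, dp] at h'
    rw [h']; rfl
  · have h' := congrArg (fun g : GO2 F => ((g : GL (Fin 1 ⊕ Fin 1) F) : Matrix (Fin 1 ⊕ Fin 1) (Fin 1 ⊕ Fin 1) F) (.inl 0) (.inl 0)) h
    simp [dihHom, dihFun, rot, dp, sw, Matrix.mul_apply, Fintype.sum_sum_type] at h'

lemma dihHom_surjective (e : Multiplicative (ZMod n) ≃* Fˣ) : Function.Surjective (dihHom e) := by
  rintro ⟨g, hg⟩
  have h := mem_GO2.mp hg
  set M := (g : Matrix (Fin 1 ⊕ Fin 1) (Fin 1 ⊕ Fin 1) F) with hM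
  set a := M (.inl 0) (.inl 0) with ha
  set b := M (.inl 0) (.inr 0) with hb
  set c := M (.inr 0) (.inl 0) with hc
  set d := M (.inr 0) (.inr 0) with hd
  have e1 := h (Sum.elim (fun _ => 1) (fun _ => 0))
  have e2 := h (Sum.elim (fun _ => 0) (fun _ => 1))
  have e3 := h (Sum.elim (fun _ => 1) (fun _ => 1))
  simp [mulVec, dotProduct, Fintype.sum_sum_type, ← ha, ← hb, ← hc, ← hd] at e1 e2 e3
  rcases e1 with h0 | h0
  · have hc0 : c ≠ 0 := fun hc0 => by
      rw [h0, hc0] at e3; rcases e2 with h2 | h2 <;> simp [h2] at e3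
    have hbc : b * c = 1 := by
      rcases e2 with h2 | h2
      · simp [h0, h2] at e3
      · rw [h0, h2] at e3; linear_combination e3
    have hd0 : d = 0 := by
      rcases e2 with h2 | h2
      · simp [h2] at hbc
      · exact h2
    obtain ⟨i, hi⟩ := e.surjective (Units.mk0 c hc0)
    refine ⟨.sr i.toAdd, Subtype.ext (Units.ext ?_)⟩
    show ((sw * rot e i.toAdd : GO2 F) : GL _ F).val = M
    rw [rot, ofAdd_toAdd, hi]
    ext (i | i) (j | j) <;> fin_cases i <;> fin_cases j <;>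
      simp [dp, sw, Matrix.mul_apply, Fintype.sum_sum_type, ← ha, ← hb, ← hc, ← hd, h0, hd0]
    exact (eq_inv_of_mul_eq_one_left hbc).symm
  · have had : a * d = 1 := by
      rcases e2 with h2 | h2
      · rw [h0, h2] at e3; linear_combination e3
      · simp [h0, h2] at e3
    have hb0 : b = 0 := by
      rcases e2 with h2 | h2
      · exact h2
      · simp [h2] at had
    obtain ⟨i, hi⟩ := e.surjective (Units.mk0 a (left_ne_zero_of_mul (had.symm ▸ one_ne_zero)))
    refine ⟨.r i.toAdd, Subtype.ext (Units.ext ?_)⟩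
    show ((rot e i.toAdd : GO2 F) : GL _ F).val = M
    rw [rot, ofAdd_toAdd, hi]
    ext (i | i) (j | j) <;> fin_cases i <;> fin_cases j <;>
      simp [dp, ← ha, ← hb, ← hc, ← hd, h0, hb0]
    exact (eq_inv_of_mul_eq_one_right had).symm

/-- GO^+_2(q) is dihedral of order 2(q-1). -/
theorem result {F : Type*} [Field F] [Fintype F] {q : ℕ} (hF : Fintype.card F = q) : Nonempty (Cfsg.isometryGroup F (Cfsg.quadFormPlus 1 F) ≃* DihedralGroup (q - 1)) := by
  classical
  have hq := Fintype.one_lt_card (α := F)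
  have hn : Nat.card Fˣ = q - 1 := by rw [Nat.card_units, Nat.card_eq_fintype_card, hF]
  obtain ⟨e⟩ : Nonempty (Multiplicative (ZMod (q - 1)) ≃* Fˣ) :=
    ⟨hn ▸ zmodCyclicMulEquiv (inferInstance : IsCyclic Fˣ)⟩
  refine ⟨(MulEquiv.ofBijective (dihHom e) ⟨dihHom_injective e, dihHom_surjective e⟩).symm⟩

end Cfsg.Agent.S0305
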