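import Cfsg.Statements.S0307
import Cfsg.Agent.Lib.ClassicalCardLinear

set_option autoImplicit false
open Cfsg

namespace Cfsg.Agent.S0307

/-- PSL_n(q) is normal in PGL_n(q) with cyclic quotient of order gcd(n, q-1): the image of the natural map PSL_n → PGL_n is the kernel of a surjective homomorphism onto the cyclic group of that order. -/
theorem result {F : Type*} [Field F] [Fintype F] {q : ℕ} (hF : Fintype.card F = q) (n : ℕ) (hn : 1 ≤ n) : ∃ g : Matrix.ProjGenLinGroup (Fin n) F →* Multiplicative (ZMod (Nat.gcd n (q - 1))), Function.Surjective g ∧ g.ker = (Matrix.ProjectiveSpecialLinearGroup.toPGL : Matrix.ProjectiveSpecialLinearGroup (Fin n) F →* Matrix.ProjGenLinGroup (Fin n) F).range := by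
  haveI : Nonempty (Fin n) := ⟨⟨0, by omega⟩⟩
  subst hF
  have h := CfsgLib.Classical.exists_pgl_hom (ι := Fin n) (F := F)
  rw [Fintype.card_fin] at h
  exact h

end Cfsg.Agent.S0307
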