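import Cfsg.Statements.S0316
import Cfsg.Agent.Lib.LieBN

set_option autoImplicit false
open Cfsg

namespace Cfsg.Agent.S0316

/-- The map `J ↦ P_J` is a lattice isomorphism from the power set of the set of distinguished generators onto the
subgroups containing `B`. -/
theorem result {G : Type*} [Group G] (P : Cfsg.BNPair G) :
    ∃ e : Set P.S ≃o {M : Subgroup G // P.B ≤ M},
      ∀ J : Set P.S, ((e J : {M : Subgroup G // P.B ≤ M}) : Subgroup G) = P.parabolic (Subtype.val '' J) := by
  have himg : ∀ J : Set P.S, Subtype.val '' J ⊆ P.S := fun J => by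
    rintro x ⟨y, -, rfl⟩; exact y.2
  have key : ∀ (J : Set P.S) (s : P.S), (s : G) ∈ P.parabolic (Subtype.val '' J) ↔ s ∈ J := fun J s => by
    rw [CfsgLib.BN.gen_mem_parabolic_iff P (himg J) s.2]
    exact Subtype.val_injective.mem_set_image
  refine ⟨{ toFun := fun J => ⟨P.parabolic (Subtype.val '' J), CfsgLib.BN.B_le_parabolic P _⟩
            invFun := fun M => {s : P.S | (s : G) ∈ (M : Subgroup G)}
            left_inv := fun J => Set.ext fun s => key J s
            right_inv := fun M => ?_
            map_rel_iff' := fun {J K} => ?_ }, fun J => rfl⟩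
  · refine Subtype.ext ((congrArg P.parabolic ?_).trans (CfsgLib.BN.eq_parabolic P M.2).symm)
    ext s
    constructor
    · rintro ⟨y, hy, rfl⟩; exact ⟨y.2, hy⟩
    · rintro ⟨hs, hsM⟩; exact ⟨⟨s, hs⟩, hsM, rfl⟩
  · show P.parabolic (Subtype.val '' J) ≤ P.parabolic (Subtype.val '' K) ↔ J ⊆ K
    constructor
    · intro h s hs
      exact (key K s).1 (h ((key J s).2 hs))
    · intro h
      exact sup_le_sup_left (Subgroup.closure_mono (Set.image_mono h)) _

end Cfsg.Agent.S0316
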