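import Cfsg.Statements.S0321
import Cfsg.Agent.Lib.LieBN

set_option autoImplicit false
open Cfsg

namespace Cfsg.Agent.S0321

/-- For `n ∈ N` not in `B`, the union `B ∪ B n B` is (the underlying set of) a subgroup exactly when `n` agrees
modulo `B ⊓ N` with one of the distinguished representatives; thus the distinguished involutions are
determined by `B` and `N`. -/
theorem result {G : Type*} [Group G] (P : Cfsg.BNPair G) {n : G}
    (hn : n ∈ P.N) (hnB : n ∉ P.B) :
    (∃ H : Subgroup G, (H : Set G) = (P.B : Set G) ∪ DoubleCoset.doubleCoset n (P.B : Set G) P.B) ↔ ∃ s ∈ P.S, s⁻¹ * n ∈ P.B := by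
  constructor
  · rintro ⟨H, hH⟩
    have hBH : P.B ≤ H := fun b hb => (hH ▸ Or.inl hb : b ∈ (H : Set G))
    have hnH : n ∈ H := (hH ▸ Or.inr (CfsgLib.BN.mem_dc_self P n) : n ∈ (H : Set G))
    obtain ⟨l, hl, hlen, hs⟩ := CfsgLib.BN.exists_reduced P hn
    match l, hl, hlen, hs with
    | [], _, hlen, _ => exact absurd (CfsgLib.BN.mem_torus_of_len P hn hlen.symm).1 hnB
    | s :: l, hl, hlen, hs =>
      have hsS : s ∈ P.S := hl s (by simp)
      refine ⟨s, hsS, ?_⟩
      have hsH : s ∈ H := CfsgLib.BN.mem_of_conj_le P H hBH n hn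
        (fun x hx => mul_mem (mul_mem hnH (hBH hx)) (inv_mem hnH)) (s :: l) hl hlen hs s (by simp)
      have : s ∈ (H : Set G) := hsH
      rw [hH] at this
      rcases this with h | h
      · exact absurd h (CfsgLib.BN.gen_not_mem P hsS)
      · exact (CfsgLib.BN.sim_of_mem_dc P (CfsgLib.BN.mem_N P hsS) hn (CfsgLib.BN.mem_dc_self P s) h).1
  · rintro ⟨s, hs, hsn⟩
    have hdc : DoubleCoset.doubleCoset n (P.B : Set G) P.B = CfsgLib.BN.dc P s :=
      (CfsgLib.BN.dc_eq_of_sim P (Subgroup.mem_inf.2 ⟨hsn, mul_mem (inv_mem (CfsgLib.BN.mem_N P hs)) hn⟩ : CfsgLib.BN.Sim P s n)).symm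
    refine ⟨P.parabolic {s}, Set.ext fun x => ?_⟩
    rw [hdc, Set.mem_union, SetLike.mem_coe,
      CfsgLib.BN.mem_parabolic P (Set.singleton_subset_iff.2 hs)]
    constructor
    · rintro ⟨m, hm, hx⟩
      rw [Subgroup.mem_closure_singleton] at hm
      obtain ⟨k, rfl⟩ := hm
      rcases Int.even_or_odd k with ⟨j, rfl⟩ | ⟨j, rfl⟩
      · left
        have : s ^ (j + j) ∈ P.B := by
          rw [← two_mul, zpow_mul, zpow_two]; exact zpow_mem (P.sq_mem s hs) j
        rw [SetLike.mem_coe, ← CfsgLib.BN.mem_dc_one]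
        have e := CfsgLib.BN.dc_mul_right P (g := (1 : G)) this
        rw [one_mul] at e
        rwa [← e]
      · right
        have : s ^ (2 * j) ∈ P.B := by
          rw [zpow_mul, zpow_two]; exact zpow_mem (P.sq_mem s hs) j
        rwa [zpow_add, zpow_one, CfsgLib.BN.dc_mul_left P this] at hx
    · rintro (hx | hx)
      · exact ⟨1, one_mem _, (CfsgLib.BN.mem_dc_one P).2 hx⟩
      · exact ⟨s, Subgroup.subset_closure rfl, hx⟩

end Cfsg.Agent.S0321
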