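import Cfsg.Statements.S0322
import Cfsg.Agent.Lib.LieBN

set_option autoImplicit false
open Cfsg

namespace Cfsg.Agent.S0322

/-- A group with a (B,N)-pair of rank one acts doubly transitively on the left cosets of `B`. -/
theorem result {G : Type*} [Group G] (P : Cfsg.BNPair G) (h : P.rank = 1) : MulAction.IsMultiplyPretransitive G (G ⧸ P.B) 2 := by
  obtain ⟨_, hfin⟩ := Nat.card_eq_one_iff_unique.1 (show Nat.card P.S = 1 from h)
  obtain ⟨⟨s, hs⟩⟩ := hfin
  have hone : ∀ x ∈ P.S, x = s := fun x hx =>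
    congrArg Subtype.val (Subsingleton.elim (α := P.S) ⟨x, hx⟩ ⟨s, hs⟩)
  have hG : ∀ g : G, g ∈ P.B ∨ g ∈ CfsgLib.BN.dc P s := by
    intro g
    obtain ⟨n, hn, hg⟩ := CfsgLib.BN.bruhat P g
    obtain ⟨l, hl, hlen, hsim⟩ := CfsgLib.BN.exists_reduced P hn
    match l, hl, hlen, hsim with
    | [], _, _, hsim =>
      left
      rw [← CfsgLib.BN.mem_dc_one, CfsgLib.BN.dc_eq_of_sim P (by simpa using hsim)]
      exact hg
    | [x], hl, _, hsim =>
      right
      rw [hone x (hl x (by simp)), List.prod_singleton] at hsim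
      rwa [CfsgLib.BN.dc_eq_of_sim P hsim]
    | x :: y :: l, hl, hlen, hsim =>
      exfalso
      rw [hone x (hl x (by simp)), hone y (hl y (by simp)), List.prod_cons, List.prod_cons] at hsim
      have hov : CfsgLib.BN.Over P l := fun z hz => hl z (by simp [hz])
      have h1 := CfsgLib.BN.len_le P hov (CfsgLib.BN.sim_trans P (CfsgLib.BN.sim_symm P
        (CfsgLib.BN.sim_cancel P hs (CfsgLib.BN.over_prod_mem P hov))) hsim)
      simp only [List.length_cons] at hlen
      omega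
  rw [MulAction.is_two_pretransitive_iff]
  have main : ∀ x : G ⧸ P.B, x ≠ QuotientGroup.mk (1 : G) →
      ∃ b ∈ P.B, b • (QuotientGroup.mk s : G ⧸ P.B) = x := by
    intro x hx
    obtain ⟨g, rfl⟩ := QuotientGroup.mk_surjective x
    rcases hG g with hg | hg
    · exact absurd (QuotientGroup.eq.2 (by simpa using inv_mem hg)) hx
    · obtain ⟨b, hb, b', hb', rfl⟩ := (CfsgLib.BN.mem_dc P).1 hg
      exact ⟨b, hb, QuotientGroup.eq.2 (by simpa [mul_assoc] using hb')⟩
  intro a b c d hab hcd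
  have norm : ∀ a b : G ⧸ P.B, a ≠ b → ∃ g : G, g • (QuotientGroup.mk (1 : G) : G ⧸ P.B) = a ∧
      g • (QuotientGroup.mk s : G ⧸ P.B) = b := by
    intro a b hab
    obtain ⟨g, rfl⟩ := MulAction.exists_smul_eq G (QuotientGroup.mk (1 : G) : G ⧸ P.B) a
    obtain ⟨h, hh, he⟩ := main (g⁻¹ • b) (fun hc => hab (by rw [← hc, smul_inv_smul]))
    refine ⟨g * h, ?_, by rw [mul_smul, he, smul_inv_smul]⟩
    rw [mul_smul]
    congr 1
    exact QuotientGroup.eq.2 (by simpa using inv_mem hh)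
  obtain ⟨g, rfl, rfl⟩ := norm a b hab
  obtain ⟨g', rfl, rfl⟩ := norm c d hcd
  exact ⟨g' * g⁻¹, by simp [mul_smul], by simp [mul_smul]⟩

end Cfsg.Agent.S0322
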