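import Cfsg.Statements.S0323
import Cfsg.Agent.Lib.LieBN

set_option autoImplicit false
open scoped Pointwise
open Cfsg

namespace Cfsg.Agent.S0323

/-- A doubly transitive action on a set with at least three points yields a (B,N)-pair of rank one:
`B` is the stabiliser of a point `x`, `N` the setwise stabiliser of a pair `{x, y}`. -/
theorem result {G Ω : Type*} [Group G] [MulAction G Ω]
    (h2 : MulAction.IsMultiplyPretransitive G Ω 2) {x y z : Ω} (hxy : x ≠ y) (hyz : y ≠ z) (hxz : x ≠ z) :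
    ∃ P : Cfsg.BNPair G, P.B = MulAction.stabilizer G x ∧
      P.N = MulAction.stabilizer G ({x, y} : Set Ω) ∧ P.rank = 1 := by
  classical
  have htrans : ∀ {a b c d : Ω}, a ≠ b → c ≠ d → ∃ g : G, g • a = c ∧ g • b = d :=
    MulAction.is_two_pretransitive_iff.1 h2
  obtain ⟨t, htx, hty⟩ := htrans (a := x) (b := y) (c := y) (d := x) hxy hxy.symm
  have hxz' : x ≠ z := hxz
  obtain ⟨b₀, hb₀x, hb₀y⟩ := htrans (a := x) (b := y) (c := x) (d := z) hxy hxz'
  set B := MulAction.stabilizer G x
  set N := MulAction.stabilizer G ({x, y} : Set Ω)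
  have hB : ∀ g, g ∈ B ↔ g • x = x := fun g => MulAction.mem_stabilizer_iff
  have hN : ∀ g, g ∈ N ↔ (g • x = x ∧ g • y = y) ∨ (g • x = y ∧ g • y = x) := by
    intro g
    rw [show g ∈ N ↔ g • ({x, y} : Set Ω) = {x, y} from MulAction.mem_stabilizer_iff,
      ← Set.image_smul, Set.image_pair, Set.pair_eq_pair_iff]
  have htN : t ∈ N := (hN t).2 (Or.inr ⟨htx, hty⟩)
  have htB : t ∉ B := fun h => hxy (((hB t).1 h).symm.trans htx)
  have ht2 : t * t ∈ B := by rw [hB, mul_smul, htx, hty]
  have hdec : ∀ g, g ∈ B ∨ ∃ b ∈ B, ∃ b' ∈ B, g = b * t * b' := by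
    intro g
    by_cases hg : g ∈ B
    · exact Or.inl hg
    · right
      have hgx : x ≠ g • x := fun h => hg ((hB g).2 h.symm)
      obtain ⟨b, hbx, hby⟩ := htrans (a := x) (b := y) (c := x) (d := g • x) hxy hgx
      refine ⟨b, (hB b).2 hbx, t⁻¹ * b⁻¹ * g, ?_, by group⟩
      rw [hB, mul_smul, mul_smul, ← hby, inv_smul_smul, inv_smul_eq_iff, htx]
  have hTpt : ∀ n ∈ B ⊓ N, n • x = x ∧ n • y = y := by
    intro n hn
    rcases (hN n).1 hn.2 with h | h
    · exact h
    · exact absurd (((hB n).1 hn.1).symm.trans h.1) hxy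
  refine ⟨{ B := B
            N := N
            S := {t}
            sup_eq_top := ?_
            conj_mem := ?_
            subset := Set.singleton_subset_iff.2 htN
            sq_mem := fun s hs => by rw [Set.mem_singleton_iff] at hs; subst hs; exact ht2
            inj := fun s hs s' hs' _ => by
              rw [Set.mem_singleton_iff] at hs hs'; rw [hs, hs']
            closure_sup := ?_
            mul_mem_union := ?_
            conj_ne := ?_ }, rfl, rfl, ?_⟩
  · rw [eq_top_iff]
    intro g _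
    rcases hdec g with h | ⟨b, hb, b', hb', rfl⟩
    · exact Subgroup.mem_sup_left h
    · exact mul_mem (mul_mem (Subgroup.mem_sup_left hb) (Subgroup.mem_sup_right htN))
        (Subgroup.mem_sup_left hb')
  · intro n hn u hu
    obtain ⟨hux, huy⟩ := hTpt u hu
    rw [hB, mul_smul, mul_smul]
    rcases (hN n).1 hn with ⟨h1, h2⟩ | ⟨h1, h2⟩
    · rw [inv_smul_eq_iff.2 h1.symm, hux, h1]
    · rw [inv_smul_eq_iff.2 h2.symm, huy, h2]
  · refine le_antisymm (sup_le ((Subgroup.closure_le _).2 (Set.singleton_subset_iff.2 htN)) inf_le_right) ?_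
    intro n hn
    rcases (hN n).1 hn with h | h
    · exact Subgroup.mem_sup_right ⟨(hB n).2 h.1, hn⟩
    · have : t⁻¹ * n ∈ B ⊓ N := Subgroup.mem_inf.2 ⟨by
        rw [hB, mul_smul, h.1, inv_smul_eq_iff, htx], mul_mem (inv_mem htN) hn⟩
      have h' := mul_mem (Subgroup.mem_sup_left (S := Subgroup.closure {t}) (Subgroup.subset_closure rfl))
        (Subgroup.mem_sup_right (T := B ⊓ N) this)
      simpa using h'
  · intro s hs n hn b hb
    rw [Set.mem_singleton_iff] at hs
    subst hs
    rcases (hN n).1 hn with ⟨h1, _⟩ | ⟨h1, _⟩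
    · left
      refine DoubleCoset.mem_doubleCoset.2 ⟨1, one_mem _, n⁻¹ * b * n, ?_, by group⟩
      exact mul_mem (mul_mem (inv_mem ((hB n).2 h1)) hb) ((hB n).2 h1)
    · rcases hdec (s * b * n) with hg | ⟨c, hc, c', hc', hg⟩
      · left
        refine DoubleCoset.mem_doubleCoset.2 ⟨s * b * n, hg, (s * n)⁻¹, ?_, by group⟩
        apply inv_mem
        rw [hB, mul_smul, h1, hty]
      · right
        refine DoubleCoset.mem_doubleCoset.2 ⟨c, hc, n⁻¹ * s * c', ?_, by rw [hg]; group⟩
        refine mul_mem ?_ hc'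
        rw [hB, mul_smul, htx, inv_smul_eq_iff, h1]
  · intro s hs heq
    rw [Set.mem_singleton_iff] at hs
    subst hs
    have h1 : s * b₀ * s ∈ (B : Set G) := heq ▸ ⟨b₀, (hB b₀).2 hb₀x, rfl⟩
    rw [SetLike.mem_coe, hB, mul_smul, mul_smul, htx, hb₀y] at h1
    exact hyz (smul_left_cancel s (hty.trans h1.symm))
  · simp [Cfsg.BNPair.rank]

end Cfsg.Agent.S0323
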