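import Cfsg.Statements.S0328
import Cfsg.Agent.Lib.LieSuzukiGroup

set_option autoImplicit false
open Cfsg

namespace Cfsg.Agent.S0328

/-- The stabiliser in the Suzuki group of the two ovoid points spanned by `(1,0,0,0)` and `(0,0,0,1)` is
isomorphic to the multiplicative group of the field (cyclic of order `q - 1`). -/
theorem result {F : Type*} [Field F] [Fintype F] {m : ℕ} (hm : 1 ≤ m)
    (hF : Fintype.card F = 2 ^ (2 * m + 1)) :
    Nonempty (↥(MulAction.stabilizer (Cfsg.Sz F m) (Cfsg.suzukiPointInfinity F) ⊓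
        MulAction.stabilizer (Cfsg.Sz F m) (Cfsg.suzukiPointZero F)) ≃* Fˣ) := by
  have P := CfsgLib.Lie.SzOvoid.par_mk hm hF
  rw [CfsgLib.Lie.SzOvoid.zero_eq m]
  refine ⟨(MulEquiv.ofBijective ((CfsgLib.Lie.SzOvoid.sH P).codRestrict _ fun k => Subgroup.mem_inf.2
    ⟨CfsgLib.Lie.SzOvoid.sH_inf P k, ?_⟩) ⟨fun a b h => CfsgLib.Lie.SzOvoid.sH_inj P (Subtype.ext_iff.1 h),
      fun g => ?_⟩).symm⟩
  · show (CfsgLib.Lie.SzOvoid.sH P k : Matrix.SpecialLinearGroup (Fin 4) F) • CfsgLib.Lie.SzOvoid.pt m (0 : F) 0 = _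
    rw [CfsgLib.Lie.SzOvoid.sH_pt, mul_zero, mul_zero]
  · obtain ⟨h1, h2⟩ := Subgroup.mem_inf.1 g.2
    obtain ⟨k, hk⟩ := CfsgLib.Lie.SzOvoid.two_point P g.1.2 h1 h2
    exact ⟨k, Subtype.ext (Subtype.ext hk.symm)⟩

end Cfsg.Agent.S0328
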