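import Cfsg.Statements.S0330
import Cfsg.Agent.Lib.LieSuzukiSylow

set_option autoImplicit false
open Cfsg

namespace Cfsg.Agent.S0330

/-- A Sylow 2-subgroup `P` of the Suzuki group (field with `q = 2^(2m+1)` elements, `m ≥ 1`) has order `q²` and
exponent `4`; its centre coincides with its commutator subgroup and has order `q`. -/
theorem result {F : Type*} [Field F] [Fintype F] {m : ℕ} (hm : 1 ≤ m)
    (hF : Fintype.card F = 2 ^ (2 * m + 1)) (P : Sylow 2 (Cfsg.Sz F m)) :
    Nat.card P = (2 ^ (2 * m + 1)) ^ 2 ∧ Monoid.exponent P = 4 ∧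
      Subgroup.center P = commutator P ∧ Nat.card (Subgroup.center P) = 2 ^ (2 * m + 1) := by
  classical
  have hp := CfsgLib.Lie.SzOvoid.par_mk hm hF
  haveI : Fact (Nat.Prime 2) := ⟨Nat.prime_two⟩
  let e : ↥(P : Subgroup (Cfsg.Sz F m)) ≃* ↥(CfsgLib.Lie.SzOvoid.uSub hp) :=
    Sylow.equiv P (CfsgLib.Lie.SzOvoid.uSylow hp)
  obtain ⟨h1, h2⟩ := CfsgLib.Lie.SzOvoid.uSub_commutator hp
  have hc : (Subgroup.center ↥(P : Subgroup (Cfsg.Sz F m))).map e.toMonoidHom = Subgroup.center _ := by
    ext z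
    refine ⟨?_, fun hz => ⟨e.symm z, Subgroup.mem_center_iff.2 fun x => ?_, e.apply_symm_apply z⟩⟩
    · rintro ⟨y, hy, rfl⟩
      refine Subgroup.mem_center_iff.2 fun x => ?_
      obtain ⟨x', rfl⟩ := e.surjective x
      show e x' * e y = e y * e x'
      rw [← map_mul, Subgroup.mem_center_iff.1 hy x', map_mul]
    · apply e.injective
      simp only [map_mul, e.apply_symm_apply]
      exact Subgroup.mem_center_iff.1 hz (e x)
  have hm' : (commutator ↥(P : Subgroup (Cfsg.Sz F m))).map e.toMonoidHom = commutator _ := by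
    rw [commutator_def, commutator_def, Subgroup.map_commutator, Subgroup.map_top_of_surjective _ e.surjective]
  refine ⟨?_, ?_, ?_, ?_⟩
  · rw [Nat.card_congr e.toEquiv, CfsgLib.Lie.SzOvoid.card_uSub hp, ← pow_mul]; congr 1; ring
  · rw [Monoid.exponent_eq_of_mulEquiv e]; exact CfsgLib.Lie.SzOvoid.uSub_exponent hp
  · exact Subgroup.map_injective e.injective (hc.trans (h1.trans hm'.symm))
  · rw [← hF, ← h2, ← hc]
    exact Nat.card_congr ((Subgroup.center _).equivMapOfInjective e.toMonoidHom e.injective).toEquiv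

end Cfsg.Agent.S0330
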