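import Cfsg.Statements.S0335
import Cfsg.Agent.Lib.LieSuzukiGroup

set_option autoImplicit false
open Cfsg

namespace Cfsg.Agent.S0335

/-- The Suzuki–Tits point set is an ovoid: any three distinct points of it are projectively independent
(no line of projective 3-space meets it in more than two points). -/
theorem result {F : Type*} [Field F] [Fintype F] {m : ℕ} (hm : 1 ≤ m)
    (hF : Fintype.card F = 2 ^ (2 * m + 1)) (p : Fin 3 ↪ Cfsg.suzukiOvoid F m) :
    Projectivization.Independent (fun i => (p i : Projectivization F (Fin 4 → F))) := by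
  classical
  have P := CfsgLib.Lie.SzOvoid.par_mk hm hF
  have h01 : p 0 ≠ p 1 := p.injective.ne (by decide)
  have h02 : p 0 ≠ p 2 := p.injective.ne (by decide)
  have h12 : p 1 ≠ p 2 := p.injective.ne (by decide)
  obtain ⟨g, g0, g1⟩ := CfsgLib.Lie.SzOvoid.to_pair P h01
  obtain ⟨x, y, hxy, e2⟩ : ∃ x y : F, (x ≠ 0 ∨ y ≠ 0) ∧
      ((g • p 2 : ↥(Cfsg.suzukiOvoid F m)) : Projectivization F (Fin 4 → F)) = CfsgLib.Lie.SzOvoid.pt m x y := by
    rcases CfsgLib.Lie.SzOvoid.mem_ovoid.1 (g • p 2).2 with e | ⟨x, y, e⟩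
    · exact absurd (smul_left_cancel g (g0.trans (Subtype.ext e).symm)) h02
    · refine ⟨x, y, ?_, e⟩
      by_contra hc
      rw [not_or, not_not, not_not] at hc
      refine h12 (smul_left_cancel g (g1.trans (Subtype.ext ?_).symm))
      rw [e, hc.1, hc.2]; rfl
  rw [Projectivization.independent_iff, Fintype.linearIndependent_iff]
  intro c hc
  set M := ((g : Matrix.SpecialLinearGroup (Fin 4) F) : Matrix (Fin 4) (Fin 4) F)
  have key : ∀ (i : Fin 3) (w : Fin 4 → F) (hw : w ≠ 0),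
      (g • p i : ↥(Cfsg.suzukiOvoid F m)).1 = Projectivization.mk F w hw →
      ∃ a : F, a ≠ 0 ∧ M.mulVec ((p i).1.rep) = a • w := by
    intro i w hw e
    rw [CfsgLib.Lie.SzOvoid.smul_coe P, ← Projectivization.mk_rep (p i).1, Projectivization.smul_mk] at e
    obtain ⟨a, ha⟩ := (Projectivization.mk_eq_mk_iff' F _ _ _ _).1 e
    refine ⟨a, fun h0 => ?_, ha.symm⟩
    rw [h0, zero_smul] at ha
    exact (smul_ne_zero_iff_ne (g : Matrix.SpecialLinearGroup (Fin 4) F)).2 (Projectivization.rep_nonzero _) ha.symm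
  obtain ⟨a0, ha0, e0⟩ := key 0 ![1, 0, 0, 0] (by simp) (by rw [g0]; rfl)
  obtain ⟨a1, ha1, e1⟩ := key 1 ![0, 0, 0, 1] (by simp) (by rw [g1]; exact (CfsgLib.Lie.SzOvoid.zero_eq m).symm)
  obtain ⟨a2, ha2, e2'⟩ := key 2 _ (CfsgLib.Lie.SzOvoid.vec_ne m x y) e2
  have h := congrArg M.mulVec hc
  rw [Matrix.mulVec_sum, Matrix.mulVec_zero, Fin.sum_univ_three] at h
  simp only [Function.comp_apply, Matrix.mulVec_smul, e0, e1, e2'] at h
  have r0 := congrFun h 0
  have r1 := congrFun h 1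
  have r2 := congrFun h 2
  have r3 := congrFun h 3
  simp [CfsgLib.Lie.SzOvoid.vec, ha2] at r0 r1 r2 r3
  have c2 : c 2 = 0 := by
    rcases hxy with hx | hy
    · exact r2.resolve_right hx
    · exact r1.resolve_right hy
  simp [c2, ha0, ha1] at r0 r3
  intro i
  fin_cases i <;> simp_all

end Cfsg.Agent.S0335
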