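import Cfsg.Statements.S0351
import Cfsg.Agent.Lib.SporSteiner

set_option autoImplicit false
open Cfsg

namespace Cfsg.Agent.S0351

open CfsgLib.Spor.Steiner Finset

/-- Derived design: removing a point p from the blocks through p of an S(t+1, k+1, v) yields an S(t, k, v-1) on the points other than p. -/
theorem result {α : Type*} [Fintype α] [DecidableEq α] {t k : ℕ} {B : Set (Finset α)} (hB : Cfsg.IsSteinerSystem (t + 1) (k + 1) B) (p : α) : Cfsg.IsSteinerSystem t k {b' : Finset {a : α // a ≠ p} | ∃ b ∈ B, p ∈ b ∧ b' = Finset.subtype (fun a => a ≠ p) b} := by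
  classical
  obtain ⟨hk, hu⟩ := hB
  let e : {a : α // a ≠ p} ↪ α := Function.Embedding.subtype _
  refine ⟨?_, fun s hs => ?_⟩
  · rintro b' ⟨b, hb, hp, rfl⟩
    rw [card_subtype, filter_ne', card_erase_of_mem hp, hk b hb]
    omega
  have hp : p ∉ s.map e := fun h => by
    obtain ⟨a, -, ha⟩ := mem_map.1 h
    exact a.2 ha
  obtain ⟨b, ⟨hb, hsub⟩, huniq⟩ := hu (insert p (s.map e)) (by rw [card_insert_of_notMem hp, card_map, hs])
  rw [insert_subset_iff] at hsub
  refine ⟨b.subtype _, ⟨⟨b, hb, hsub.1, rfl⟩, fun a ha => mem_subtype.2 (hsub.2 (mem_map_of_mem e ha))⟩, ?_⟩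
  rintro _ ⟨⟨c, hc, hpc, rfl⟩, hsc⟩
  rw [huniq c ⟨hc, insert_subset hpc fun x hx => ?_⟩]
  obtain ⟨a, ha, rfl⟩ := mem_map.1 hx
  exact mem_subtype.1 (hsc ha)

end Cfsg.Agent.S0351
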