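import Cfsg.Statements.S0353
import Cfsg.Agent.Lib.SporSteiner

set_option autoImplicit false
open Cfsg

namespace Cfsg.Agent.S0353

open CfsgLib.Spor.Steiner Finset

/-- In an S(5, 8, 24), the symmetric difference of two blocks meeting in four points is a block. -/
theorem result {α : Type*} [Fintype α] [DecidableEq α] (hα : Fintype.card α = 24) {B : Set (Finset α)} (hB : Cfsg.IsSteinerSystem 5 8 B) {b c : Finset α} (hb : b ∈ B) (hc : c ∈ B) (h4 : (b ∩ c).card = 4) : symmDiff b c ∈ B := by
  classical
  by_contra hD
  set s := b ∩ c with hs
  have hbc : b ≠ c := fun e => by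
    rw [hs, e, inter_self, hB.1 c hc] at h4; omega
  have hcard : (symmDiff b c).card = 8 := by
    rw [symmDiff_def, Finset.sup_eq_union, card_union_of_disjoint disjoint_sdiff_sdiff, card_sdiff, card_sdiff,
      inter_comm c b, h4, hB.1 b hb, hB.1 c hc]
  have key : ∀ d ∈ B, 6 ∣ (d ∩ symmDiff b c).card.choose 5 := by
    intro d hd
    have hle : (d ∩ symmDiff b c).card < 8 := by
      rcases Nat.lt_or_ge (d ∩ symmDiff b c).card 8 with h | h
      · exact h
      · have e1 := eq_of_subset_of_card_le (inter_subset_left : d ∩ symmDiff b c ⊆ d) (by rw [hB.1 d hd]; exact h)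
        have e2 := eq_of_subset_of_card_le (inter_subset_right : d ∩ symmDiff b c ⊆ symmDiff b c) (by rw [hcard]; exact h)
        exact absurd (e2.symm.trans e1 ▸ hd) hD
    have heven : 2 ∣ (d ∩ b).card ∧ 2 ∣ (d ∩ c).card := by
      constructor
      · by_cases e : d = b
        · rw [e, inter_self, hB.1 b hb]; decide
        · rcases vals_5_8_24 hα hB hd hb e with h | h | h <;> rw [h] <;> decide
      · by_cases e : d = c
        · rw [e, inter_self, hB.1 c hc]; decide
        · rcases vals_5_8_24 hα hB hd hc e with h | h | h <;> rw [h] <;> decide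
    have e : (d ∩ symmDiff b c).card + 2 * (d ∩ s).card = (d ∩ b).card + (d ∩ c).card := by
      rw [← card_union_add_card_inter, two_mul, ← add_assoc, ← card_union_of_disjoint]
      · congr 1
        · congr 1
          ext x
          simp [hs, mem_symmDiff]
          tauto
        · congr 1
          ext x
          simp [hs]
          tauto
      · rw [Finset.disjoint_left]
        intro x hx hy
        simp [hs, mem_symmDiff] at hx hy
        tauto
    generalize (d ∩ symmDiff b c).card = m at *
    interval_cases m <;> first | omega | decide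
  have h := moment_bl hB (symmDiff b c) 5 1 le_rfl (by omega) (by rw [hα]; decide)
  rw [hcard] at h
  have := Finset.dvd_sum (s := bl B) (fun d hd => key d (mem_bl.1 hd))
  rw [h] at this
  revert this
  decide

end Cfsg.Agent.S0353
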