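import Cfsg.Statements.S0357
import Cfsg.Agent.Lib.SporSteiner

set_option autoImplicit false
open Cfsg

namespace Cfsg.Agent.S0357

open CfsgLib.Spor.Steiner Finset

/-- In a Steiner system S(5, 6, 12), the complement of every block is again a block. -/
theorem result {α : Type*} [Fintype α] [DecidableEq α] (hα : Fintype.card α = 12) {B : Set (Finset α)} (hB : Cfsg.IsSteinerSystem 5 6 B) {b : Finset α} (hb : b ∈ B) : bᶜ ∈ B := by
  obtain ⟨e, -⟩ := inter_5_6_12 hα hB hb
  obtain ⟨c, hc⟩ := card_eq_one.1 e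
  have hm := hc.ge (mem_singleton_self c)
  simp only [mem_filter, mem_erase, mem_bl, card_eq_zero] at hm
  obtain ⟨⟨-, hcB⟩, hd⟩ := hm
  suffices c = bᶜ from this ▸ hcB
  refine eq_of_subset_of_card_le (fun x hx => mem_compl.2 fun hxb => ?_) (by rw [card_compl, hα, hB.1 b hb, hB.1 c hcB])
  simpa [hd] using mem_inter.2 ⟨hx, hxb⟩

end Cfsg.Agent.S0357
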