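import Cfsg.Statements.S0358
import Cfsg.Agent.Lib.SporGolay

set_option autoImplicit false
open Cfsg

namespace Cfsg.Agent.S0358

/-- The length-24 code built from the squares modulo 23 has dimension 12 over the field with two elements. -/
theorem result : Module.finrank (ZMod 2) Cfsg.golayCode = 12 := by
  open CfsgLib.Spor in
  classical
  have hmem : (golayCode : Set (GolayPt → ZMod 2)) = ↑(codeMasks.toFinset.image wordOf) := by
    ext w; simp [mem_golayCode_iff]
  have hcard : Nat.card golayCode = 2 ^ 12 := by
    change Nat.card ↥(golayCode : Set (GolayPt → ZMod 2)) = _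
    rw [Nat.card_coe_set_eq, hmem, Set.ncard_coe_finset, Finset.card_image_of_injOn,
      List.toFinset_card_of_nodup codeMasks_nodup, length_codeMasks]
    · norm_num
    intro a ha b hb hab
    simp only [List.coe_toFinset, Set.mem_setOf_eq] at ha hb
    refine setOfMask_inj (codeMasks_lt a ha) (codeMasks_lt b hb) ?_
    rw [← support₂_wordOf, hab, support₂_wordOf]
  have h := Module.natCard_eq_pow_finrank (K := ZMod 2) (V := golayCode)
  rw [hcard, Nat.card_zmod] at h
  exact (Nat.pow_right_injective le_rfl h).symm

end Cfsg.Agent.S0358
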