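import Cfsg.Statements.S0362
import Cfsg.Agent.Lib.SporGolay

set_option autoImplicit false
open Cfsg

namespace Cfsg.Agent.S0362

/-- The length-24 code is self-orthogonal: the dot product over ZMod 2 of any two of its words vanishes (with dimension 12 this makes it self-dual). -/
theorem result (v w : Cfsg.GolayPt → ZMod 2) (hv : v ∈ Cfsg.golayCode) (hw : w ∈ Cfsg.golayCode) : ∑ i, v i * w i = 0 := by
  open CfsgLib.Spor in
  classical
  obtain ⟨a, ha, rfl⟩ := mem_golayCode_iff.1 hv
  obtain ⟨b, hb, rfl⟩ := mem_golayCode_iff.1 hw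
  have key : ∑ i, wordOf a i * wordOf b i = ((wt (a &&& b) : ℕ) : ZMod 2) := by
    rw [← card_setOfMask, setOfMask, ← Finset.sum_boole]
    refine Finset.sum_congr rfl fun i _ => ?_
    simp only [wordOf, Nat.testBit_and]
    cases a.testBit (ix i) <;> cases b.testBit (ix i) <;> simp
  rw [key]
  have hab : symmDiff (setOfMask a) (setOfMask b) ∈ codeSets := by
    obtain h := setOfMask_mem_codeSets (xor_mem_spanList ha hb : a ^^^ b ∈ codeMasks)
    convert h using 1
    ext p
    simp only [Finset.mem_symmDiff, mem_setOfMask, Nat.testBit_xor]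
    cases a.testBit (ix p) <;> cases b.testBit (ix p) <;> simp
  have h1 := codeMasks_weights a ha
  have h2 := codeMasks_weights b hb
  have h3 := codeMasks_weights _ (mem_codeSets_iff.1 hab)
  rw [← card_setOfMask, setOfMask_maskOf] at h3
  have e : (symmDiff (setOfMask a) (setOfMask b)).card + 2 * wt (a &&& b) = wt a + wt b := by
    simp only [← card_setOfMask, setOfMask_and]
    rw [symmDiff_def, Finset.sup_eq_union, Finset.card_union_of_disjoint disjoint_sdiff_sdiff]
    have := Finset.card_sdiff_add_card_inter (setOfMask a) (setOfMask b)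
    have := Finset.card_sdiff_add_card_inter (setOfMask b) (setOfMask a)
    rw [Finset.inter_comm (setOfMask b) (setOfMask a)] at this
    omega
  simp only [List.mem_cons, List.not_mem_nil, or_false] at h1 h2 h3
  rw [ZMod.natCast_eq_zero_iff_even]
  rw [Nat.even_iff]
  omega

end Cfsg.Agent.S0362
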