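import Cfsg.Statements.S0363
import Cfsg.Agent.Lib.SporM24

set_option autoImplicit false
open Cfsg

namespace Cfsg.Agent.S0363

/-- The octads of the length-24 code form a Steiner system S(5, 8, 24) on the 24 points. -/
theorem result : Cfsg.IsSteinerSystem 5 8 Cfsg.octads := by
  open CfsgLib.Spor in
  open scoped Pointwise in
  classical
  refine ⟨fun b hb => hb.2, fun s hs => ?_⟩
  obtain ⟨g, hg, hgs⟩ : ∃ g ∈ M24, ∀ j < 5, g (bpt j) ∈ s := by
    obtain ⟨x⟩ : Nonempty (Fin 5 ↪ ↥s) := by
      rw [Function.Embedding.nonempty_iff_card_le]; simp [hs]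
    let y : Fin 5 ↪ GolayPt := ⟨fun i => bpt i, fun a b h => by
      by_contra hne
      have hne' : (a : ℕ) ≠ b := fun e => hne (Fin.ext e)
      rcases lt_or_gt_of_ne hne' with hlt | hlt
      · exact bpt_ne b (List.mem_range.2 (by omega)) a (List.mem_range.2 hlt) h.symm
      · exact bpt_ne a (List.mem_range.2 (by omega)) b (List.mem_range.2 hlt) h⟩
    obtain ⟨g, hg, e⟩ := exists_M24_map le_rfl y (x.trans (Function.Embedding.subtype _))
    refine ⟨g, hg, fun j hj => ?_⟩
    have := e ⟨j, hj⟩
    change g (bpt j) = ↑(x ⟨j, hj⟩) at this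
    rw [this]; exact (x ⟨j, hj⟩).2
  have himg : ((Finset.range 5).image fun j => g (bpt j)) = s := by
    refine Finset.eq_of_subset_of_card_le ?_ ?_
    · intro p hp
      obtain ⟨j, hj, rfl⟩ := Finset.mem_image.1 hp
      exact hgs j (Finset.mem_range.1 hj)
    · rw [← Function.comp_def, ← Finset.image_image, Finset.card_image_of_injective _ g.injective,
        five_bpt_card, hs]
  have hsub : s ⊆ g • baseOct := by
    rw [← himg]
    intro p hp
    obtain ⟨j, hj, rfl⟩ := Finset.mem_image.1 hp
    exact Finset.smul_mem_smul_finset (a := g)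
      (bpt_mem_baseOct j (List.mem_range.2 (by have := Finset.mem_range.1 hj; omega)))
  exact ⟨g • baseOct, ⟨smul_mem_octads (M24_le_octAut hg) baseOct_mem, hsub⟩,
    fun o ho => octad_unique ho.1 (smul_mem_octads (M24_le_octAut hg) baseOct_mem) hs.ge ho.2 hsub⟩

end Cfsg.Agent.S0363
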