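import Cfsg.Statements.S0367
import Cfsg.Agent.Lib.SporMathieu2

set_option autoImplicit false
open scoped Pointwise
open Cfsg

namespace Cfsg.Agent.S0367

/-- The permutation group preserving the length-24 code is transitive on octads. -/
theorem result (o o' : Finset Cfsg.GolayPt) (ho : o ∈ Cfsg.octads) (ho' : o' ∈ Cfsg.octads) : ∃ g : Cfsg.M24, g • o = o' := by
  open CfsgLib.Spor in
  open scoped Pointwise in
  obtain ⟨g, hg, e⟩ := exists_M24_octad ho ho'
  exact ⟨⟨g, hg⟩, e⟩

end Cfsg.Agent.S0367
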