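import Cfsg.Statements.S0371
import Cfsg.Agent.Lib.SporM24

set_option autoImplicit false
open Cfsg

namespace Cfsg.Agent.S0371

/-- Multiplication by a nonzero square residue modulo 23, fixing the extra point, lies in the group of the length-24 code. -/
theorem result (u : (ZMod 23)ˣ) (hu : IsSquare u) : Equiv.optionCongr (Units.mulLeft u) ∈ Cfsg.M24 := by
  open CfsgLib.Spor in
  have h : ∀ v : ZMod 23, (∃ r, v = r * r) → v ≠ 0 →
      listInCodeGroup ((List.range 24).map fun (i : ℕ) => if i = 23 then 23 else (v * (i : ZMod 23)).val) = true := by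
    decide +kernel
  have h' : Rep (Equiv.optionCongr (Units.mulLeft u))
      ((List.range 24).map fun (i : ℕ) => if i = 23 then 23 else ((u : ZMod 23) * (i : ZMod 23)).val) := by
    intro p
    simp only [List.getD, List.getElem?_map, List.getElem?_range (ix_lt p), Option.map_some,
      Option.getD_some]
    cases p with
    | none => simp [ix]
    | some x =>
      have := ZMod.val_lt x
      simp [ix, show x.val ≠ 23 by omega]
  refine h'.mem_M24 (h u ?_ (by haveI : Fact (Nat.Prime 23) := ⟨by norm_num⟩; exact u.ne_zero))
  obtain ⟨r, rfl⟩ := hu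
  exact ⟨r, by simp⟩

end Cfsg.Agent.S0371
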