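import Cfsg.Statements.S0381
import Cfsg.Agent.Lib.SporMathieu2

set_option autoImplicit false
open Cfsg

namespace Cfsg.Agent.S0381

/-- The pointwise stabiliser of an octad in the group of the length-24 code has order 16 and every element of it squares to the identity. -/
theorem result (o : Finset Cfsg.GolayPt) (ho : o ∈ Cfsg.octads) : Nat.card ↥(Cfsg.M24 ⊓ fixingSubgroup (Equiv.Perm Cfsg.GolayPt) (o : Set Cfsg.GolayPt)) = 16 ∧ ∀ g ∈ Cfsg.M24 ⊓ fixingSubgroup (Equiv.Perm Cfsg.GolayPt) (o : Set Cfsg.GolayPt), g * g = 1 := by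
  open CfsgLib.Spor in
  open scoped Pointwise in
  obtain ⟨g, hg, e⟩ := exists_M24_octad baseOct_mem ho
  have hmem : ∀ x : P24, x ∈ Cfsg.M24 ⊓ fixingSubgroup P24 (o : Set Cfsg.GolayPt) ↔ g⁻¹ * x * g ∈ fixBase 6 := by
    intro x
    rw [Subgroup.mem_inf, mem_fixingSubgroup_iff, mem_fixBase, conj_mem_M24 hg]
    refine and_congr_right fun hx => ⟨fun h j hj => ?_, fun h p hp => ?_⟩
    · rw [← Equiv.Perm.smul_def, conj_smul_eq_iff]
      refine h _ (Finset.mem_coe.2 ?_)
      rw [← e]; exact Finset.smul_mem_smul_finset (bpt_mem_baseOct j (List.mem_range.2 hj))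
    · have h' := (fixBase_six (mem_fixBase.2 ⟨(conj_mem_M24 hg).2 hx, h⟩)).1 (g⁻¹ p) (by
        rw [← Finset.smul_mem_smul_finset_iff (a := g), e, Equiv.Perm.smul_def, Equiv.Perm.coe_inv,
          Equiv.apply_symm_apply]
        exact hp)
      rw [← Equiv.Perm.smul_def, conj_smul_eq_iff] at h'
      simpa using h'
  refine ⟨by rw [← Nat.card_congr (equivConjBy g hmem).toEquiv]; exact card_fixBase 6 (by decide),
    fun x hx => ?_⟩
  have h := (fixBase_six ((hmem x).1 hx)).2
  have : g⁻¹ * (x * x) * g = 1 := by rw [← h]; simp [mul_assoc]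
  have h2 := congrArg (fun z => g * z * g⁻¹) this
  simpa [mul_assoc] using h2

end Cfsg.Agent.S0381
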