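import Cfsg.Statements.S0384
import Cfsg.Agent.Lib.SporMathieu2

set_option autoImplicit false
open scoped Pointwise
open Cfsg

namespace Cfsg.Agent.S0384

/-- A dodecad stabiliser is sharply 5-transitive on the dodecad. -/
theorem result (d : Finset Cfsg.GolayPt) (hd : d ∈ Cfsg.dodecads) (x y : Fin 5 ↪ Cfsg.GolayPt) (hx : ∀ i, x i ∈ d) (hy : ∀ i, y i ∈ d) : ∃! g : MulAction.stabilizer Cfsg.M24 d, ∀ i, ((g : Cfsg.M24) : Equiv.Perm Cfsg.GolayPt) (x i) = y i := by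
  open CfsgLib.Spor in
  open scoped Pointwise in
  obtain ⟨g, hg, e⟩ := exists_M24_squareDodecad hd
  let ext (z : Fin 5 ↪ Cfsg.GolayPt) : ℕ → Cfsg.GolayPt := fun i => if h : i < 5 then g⁻¹ (z ⟨i, h⟩) else none
  have key : ∀ z : Fin 5 ↪ Cfsg.GolayPt, (∀ i, z i ∈ d) → ∃ h ∈ Cfsg.Spor.M12, ∀ i : Fin 5, h (g⁻¹ (z i)) = dpt i := by
    intro z hz
    have hmem : ∀ i < 5, ext z i ∈ Cfsg.Spor.squareDodecad := by
      intro i hi
      simp only [ext, hi, dif_pos]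
      rw [← Finset.smul_mem_smul_finset_iff (a := g), e, Equiv.Perm.smul_def, Equiv.Perm.coe_inv,
        Equiv.apply_symm_apply]
      exact hz _
    have hdist : ∀ i < 5, ∀ j < 5, i ≠ j → ext z i ≠ ext z j := by
      intro i hi j hj hij he
      simp only [ext, hi, hj, dif_pos] at he
      exact hij (by simpa using z.injective ((g⁻¹).injective he))
    obtain ⟨h, hh, eh⟩ := exists_M12_to_base (ext z) 5 le_rfl hmem hdist
    exact ⟨h, hh, fun i => by simpa [ext, i.2] using eh i i.2⟩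
  obtain ⟨a, ha, ea⟩ := key x hx
  obtain ⟨b, hb, eb⟩ := key y hy
  obtain ⟨hab1, hab2⟩ := mem_M12_iff'.1 (Cfsg.Spor.M12.mul_mem (Cfsg.Spor.M12.inv_mem hb) ha)
  have hM : g * (b⁻¹ * a) * g⁻¹ ∈ Cfsg.M24 := Cfsg.M24.mul_mem (Cfsg.M24.mul_mem hg hab1) (Cfsg.M24.inv_mem hg)
  refine ⟨⟨⟨g * (b⁻¹ * a) * g⁻¹, hM⟩, ?_⟩, ?_, ?_⟩
  · show (g * (b⁻¹ * a) * g⁻¹) • d = d
    rw [← e, mul_smul, mul_smul, inv_smul_smul, hab2]
  · intro i
    show (g * (b⁻¹ * a) * g⁻¹) (x i) = y i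
    rw [Equiv.Perm.mul_apply, Equiv.Perm.mul_apply, Equiv.Perm.mul_apply, ea i, ← eb i,
      Equiv.Perm.coe_inv b, Equiv.symm_apply_apply, Equiv.Perm.coe_inv g, Equiv.apply_symm_apply]
  · rintro ⟨⟨z, hz⟩, hzd⟩ hzi
    apply Subtype.ext; apply Subtype.ext
    show z = g * (b⁻¹ * a) * g⁻¹
    have hone : a * (g⁻¹ * z⁻¹ * (g * (b⁻¹ * a) * g⁻¹) * g) * a⁻¹ = 1 := by
      apply eq_one_of_fix12
      · refine Cfsg.Spor.M12.mul_mem (Cfsg.Spor.M12.mul_mem ha ?_) (Cfsg.Spor.M12.inv_mem ha)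
        rw [mem_M12_iff', mul_assoc g⁻¹ z⁻¹, conj_mem_M24 hg, conj_smul_eq_iff, e]
        refine ⟨Cfsg.M24.mul_mem (Cfsg.M24.inv_mem hz) hM, ?_⟩
        have h1 : z • d = d := hzd
        rw [mul_smul, inv_smul_eq_iff, h1, ← e, mul_smul, mul_smul, inv_smul_smul, hab2]
      · intro j hj
        have h1 := ea ⟨j, hj⟩
        simp only at h1
        have hx' : (g * (b⁻¹ * a) * g⁻¹) (x ⟨j, hj⟩) = y ⟨j, hj⟩ := by
          rw [Equiv.Perm.mul_apply, Equiv.Perm.mul_apply, Equiv.Perm.mul_apply, ea, ← eb,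
            Equiv.Perm.coe_inv b, Equiv.symm_apply_apply, Equiv.Perm.coe_inv g, Equiv.apply_symm_apply]
        have h2 : a⁻¹ (dpt j) = g⁻¹ (x ⟨j, hj⟩) := by rw [Equiv.Perm.inv_eq_iff_eq, h1]
        rw [Equiv.Perm.mul_apply, Equiv.Perm.mul_apply, h2]
        have h3 : z⁻¹ (y ⟨j, hj⟩) = x ⟨j, hj⟩ := by rw [Equiv.Perm.inv_eq_iff_eq]; exact (hzi ⟨j, hj⟩).symm
        rw [Equiv.Perm.mul_apply, Equiv.Perm.mul_apply, Equiv.Perm.coe_inv g, Equiv.apply_symm_apply, hx',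
          Equiv.Perm.mul_apply, h3]
        exact h1
    have h2 := congrArg (fun w => g * (a⁻¹ * w * a) * g⁻¹) hone
    have h3 : z⁻¹ * (g * (b⁻¹ * a) * g⁻¹) = 1 := by simpa [mul_assoc] using h2
    exact inv_mul_eq_one.1 h3

end Cfsg.Agent.S0384
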