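import Cfsg.Statements.S0385
import Cfsg.Agent.Lib.SporGolayModule

set_option autoImplicit false
open Cfsg

namespace Cfsg.Agent.S0385

open CfsgLib.Spor CfsgLib.Spor.GolayMod
open scoped Pointwise

/-- The 6-point intersections of octads with a fixed dodecad form a Steiner system S(5, 6, 12) on the dodecad. -/
theorem result (d : Finset Cfsg.GolayPt) (hd : d ∈ Cfsg.dodecads) : Cfsg.IsSteinerSystem 5 6 {h : Finset {p : Cfsg.GolayPt // p ∈ d} | ∃ o ∈ Cfsg.octads, (o ∩ d).card = 6 ∧ h = Finset.subtype (fun p => p ∈ d) o} := by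
  classical
  refine ⟨?_, fun s hs => ?_⟩
  · rintro _ ⟨o, ho, h6, rfl⟩
    rw [Finset.card_subtype, Finset.filter_mem_eq_inter, h6]
  let e : {p : Cfsg.GolayPt // p ∈ d} ↪ Cfsg.GolayPt := Function.Embedding.subtype _
  obtain ⟨o, ho, hos⟩ := exists_octad_five (Finset.card_map e ▸ hs : (s.map e).card = 5)
  have hsd : s.map e ⊆ d := fun p hp => by
    obtain ⟨a, -, rfl⟩ := Finset.mem_map.1 hp
    exact a.2
  have h5 : 5 ≤ (o ∩ d).card := (Finset.card_map e ▸ hs : (s.map e).card = 5) ▸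
    Finset.card_le_card (Finset.subset_inter hos hsd)
  refine ⟨o.subtype _, ⟨⟨o, ho, hexads_steiner hd ho h5, rfl⟩, fun a ha => Finset.mem_subtype.2 (hos (Finset.mem_map_of_mem e ha))⟩, ?_⟩
  rintro _ ⟨⟨o', ho', -, rfl⟩, hsub⟩
  rw [octad_unique ho' ho (Finset.card_map e ▸ hs : (s.map e).card = 5).ge (fun p hp => ?_) hos]
  obtain ⟨a, ha, rfl⟩ := Finset.mem_map.1 hp
  exact Finset.mem_subtype.1 (hsub ha)

end Cfsg.Agent.S0385
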