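import Cfsg.Statements.S0386
import Cfsg.Agent.Lib.SporObjUse
import Cfsg.Agent.Lib.SporObjTrans
import Cfsg.Agent.Lib.SporObjBases

set_option autoImplicit false
open Cfsg

namespace Cfsg.Agent.S0386

open CfsgLib.Spor
open scoped Pointwise

/-- For a fixed dodecad, 132 octads meet it in 6 points, 132 in 2 points and 495 in 4 points. -/
theorem result (d : Finset Cfsg.GolayPt) (hd : d ∈ Cfsg.dodecads) : {o : Finset Cfsg.GolayPt | o ∈ Cfsg.octads ∧ (o ∩ d).card = 6}.ncard = 132 ∧ {o : Finset Cfsg.GolayPt | o ∈ Cfsg.octads ∧ (o ∩ d).card = 2}.ncard = 132 ∧ {o : Finset Cfsg.GolayPt | o ∈ Cfsg.octads ∧ (o ∩ d).card = 4}.ncard = 495 := by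
  obtain ⟨b, hb, eo⟩ := dodCoded.exists_base trDod_stab trDod_trans bases_mem.2.2.2.1 hd
  have cnt : ∀ k, {o : Finset Cfsg.GolayPt | o ∈ Cfsg.octads ∧ (o ∩ d).card = k}.ncard =
      octObjs.countP (sigQ dodBase (100 ^ k)) := by
    intro k
    refine Eq.trans (congrArg Set.ncard (Set.ext fun o => ?_)) (octCoded.sig_ncard hb bases_nice.2.2.2.1 (100 ^ k))
    rw [Set.mem_setOf_eq, Set.mem_setOf_eq, ← eo, sigF_famOne_iff, Finset.inter_comm o d]
  refine ⟨?_, ?_, ?_⟩ <;> rw [cnt] <;> decide +kernel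

end Cfsg.Agent.S0386
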