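import Cfsg.Statements.S0389
import Cfsg.Agent.Lib.SporObjUse
import Cfsg.Agent.Lib.SporObjTrans
import Cfsg.Agent.Lib.SporObjPoint

set_option autoImplicit false
open scoped Pointwise
open Cfsg

namespace Cfsg.Agent.S0389

open CfsgLib.Spor
open scoped Pointwise

/-- The stabiliser of a dodecad and a point on it is 3-transitive on the complementary dodecad. -/
theorem result (d : Finset Cfsg.GolayPt) (hd : d ∈ Cfsg.dodecads) (p : Cfsg.GolayPt) (hp : p ∈ d) (x y : Fin 3 ↪ Cfsg.GolayPt) (hx : ∀ i, x i ∉ d) (hy : ∀ i, y i ∉ d) : ∃ g ∈ MulAction.stabilizer Cfsg.M24 d ⊓ MulAction.stabilizer Cfsg.M24 p, ∀ i, (g : Equiv.Perm Cfsg.GolayPt) (x i) = y i := by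
  obtain ⟨b, hb, eo⟩ := dodCoded.exists_base trDod_stab trDod_trans bases_mem.2.2.2.1 hd
  have bd : d = b • setOfMask 8419127 := famOne_injective (eo.trans (smul_setSet_one b _))
  obtain ⟨i, hi, rfl⟩ := exists_pt (h := b) p
  rw [bd, mem_smul_mask _ _ hi] at hp
  obtain ⟨g, hg, hfix, eg⟩ := pt_conj dpPt_stab dpPt_classes hb (i := 0) (j := i) (by norm_num) (by decide +kernel)
    hi (inMask_two_pow hi hp)
  have gd : g • d = d := by rw [bd]; exact set_fixed (hfix dodBase (by simp))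
  have hgb : g * b ∈ Cfsg.M24 := mul_mem hg hb
  have hd2 : d = (g * b) • setOfMask 8419127 := by rw [mul_smul, ← bd, gd]
  rw [show b (pt i) = (g * b) (pt 0) from eg.symm]
  generalize g * b = c at hgb hd2
  subst hd2
  have key : ∀ z : Fin 3 ↪ Cfsg.GolayPt, (∀ i, z i ∉ c • setOfMask 8419127) → ∃ f ∈ Cfsg.M24,
      f • (c • setOfMask 8419127) = c • setOfMask 8419127 ∧ f (c (pt 0)) = c (pt 0) ∧
        f (c (pt 3)) = z 0 ∧ f (c (pt 6)) = z 1 ∧ f (c (pt 7)) = z 2 := by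
    intro z hz
    obtain ⟨j, hj, ej⟩ := exists_pt (h := c) (z 0)
    have hzj := hz 0
    rw [ej, mem_smul_mask _ _ hj] at hzj
    obtain ⟨f1, hf1, f1fix, e1⟩ := pt_conj dpOut1_stab dpOut1_classes hgb (i := 3) (j := j) (by norm_num)
      (by decide +kernel) hj (inMask_two_pow hj (outside_mask 8419127 8358088 (by decide +kernel) hj hzj))
    have d1 : f1 • (c • setOfMask 8419127) = c • setOfMask 8419127 := set_fixed (f1fix dodBase (by simp))
    have p1 : f1 (c (pt 0)) = c (pt 0) := pt_fixed (by norm_num) (f1fix [2 ^ 0] (by simp))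
    have h1 : f1 * c ∈ Cfsg.M24 := mul_mem hf1 hgb
    obtain ⟨j2, hj2, ej2⟩ := exists_pt (h := f1 * c) (z 1)
    have hzj2 := hz 1
    rw [ej2, ← d1, ← mul_smul, mem_smul_mask _ _ hj2] at hzj2
    have hne2 : j2 ≠ 3 := fun h => by
      refine absurd (z.injective (a₁ := 0) (a₂ := 1) ?_) (by decide)
      rw [ej, ej2, h, Equiv.Perm.mul_apply, e1]
    obtain ⟨f2, hf2, f2fix, e2⟩ := pt_conj dpOut2_stab dpOut2_classes h1 (i := 6) (j := j2) (by norm_num)
      (by decide +kernel) hj2 (inMask_two_pow hj2 (outside_mask1 8419127 8358088 8358080 3 (by decide +kernel) hj2 hzj2 hne2))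
    have d2 : f2 • ((f1 * c) • setOfMask 8419127) = (f1 * c) • setOfMask 8419127 := set_fixed (f2fix dodBase (by simp))
    have p2 : f2 ((f1 * c) (pt 0)) = (f1 * c) (pt 0) := pt_fixed (by norm_num) (f2fix [2 ^ 0] (by simp))
    have q2 : f2 ((f1 * c) (pt 3)) = (f1 * c) (pt 3) := pt_fixed (by norm_num) (f2fix [2 ^ 3] (by simp))
    have h2 : f2 * (f1 * c) ∈ Cfsg.M24 := mul_mem hf2 h1
    obtain ⟨j3, hj3, ej3⟩ := exists_pt (h := f2 * (f1 * c)) (z 2)
    have hzj3 := hz 2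
    rw [ej3, ← d1, ← mul_smul, ← d2, ← mul_smul, mem_smul_mask _ _ hj3] at hzj3
    have hne3 : j3 ≠ 3 ∧ j3 ≠ 6 := by
      constructor <;> intro h
      · refine absurd (z.injective (a₁ := 0) (a₂ := 2) ?_) (by decide)
        rw [ej, ej3, h, Equiv.Perm.mul_apply, q2, Equiv.Perm.mul_apply, e1]
      · refine absurd (z.injective (a₁ := 1) (a₂ := 2) ?_) (by decide)
        rw [ej3, h, Equiv.Perm.mul_apply, e2, ej2]
    obtain ⟨f3, hf3, f3fix, e3⟩ := pt_conj dpOut3_stab dpOut3_classes h2 (i := 7) (j := j3) (by norm_num)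
      (by decide +kernel) hj3 (inMask_two_pow hj3
        (outside_mask2 8419127 8358088 8358080 8358016 3 6 (by decide +kernel) hj3 hzj3 hne3.1 hne3.2))
    have d3 := set_fixed (f3fix dodBase (by simp))
    have p3 : f3 ((f2 * (f1 * c)) (pt 0)) = (f2 * (f1 * c)) (pt 0) := pt_fixed (by norm_num) (f3fix [2 ^ 0] (by simp))
    have q3 : f3 ((f2 * (f1 * c)) (pt 3)) = (f2 * (f1 * c)) (pt 3) := pt_fixed (by norm_num) (f3fix [2 ^ 3] (by simp))
    have r3 : f3 ((f2 * (f1 * c)) (pt 6)) = (f2 * (f1 * c)) (pt 6) := pt_fixed (by norm_num) (f3fix [2 ^ 6] (by simp))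
    simp only [Equiv.Perm.mul_apply] at e1 p2 q2 e2 p3 q3 r3 e3 ej2 ej3
    refine ⟨f3 * f2 * f1, mul_mem (mul_mem hf3 hf2) hf1, ?_, ?_, ?_, ?_, ?_⟩
    · simp only [mul_smul] at d3 d2 ⊢
      rw [d3, d2, d1]
    · simp only [Equiv.Perm.mul_apply]; rw [p3, p2, p1]
    · simp only [Equiv.Perm.mul_apply]; rw [q3, q2, e1, ej]
    · simp only [Equiv.Perm.mul_apply]; rw [r3, e2, ej2]
    · simp only [Equiv.Perm.mul_apply]; rw [e3, ej3]
  obtain ⟨f, hf, fd, f0, fa, fb, fc⟩ := key x hx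
  obtain ⟨f', hf', fd', f0', fa', fb', fc'⟩ := key y hy
  have inv : ∀ {u v : Cfsg.GolayPt}, f u = v → f⁻¹ v = u := fun e => by rw [← e]; simp
  refine ⟨⟨f' * f⁻¹, mul_mem hf' (inv_mem hf)⟩, ⟨?_, ?_⟩, fun i => ?_⟩
  · show (f' * f⁻¹) • (c • setOfMask 8419127) = c • setOfMask 8419127
    rw [mul_smul, inv_smul_eq_iff.2 fd.symm, fd']
  · show (f' * f⁻¹) (c (pt 0)) = c (pt 0)
    rw [Equiv.Perm.mul_apply, inv f0, f0']
  · show (f' * f⁻¹) (x i) = y i
    rw [Equiv.Perm.mul_apply]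
    fin_cases i
    · exact (congrArg f' (inv fa)).trans fa'
    · exact (congrArg f' (inv fb)).trans fb'
    · exact (congrArg f' (inv fc)).trans fc'

end Cfsg.Agent.S0389
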