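import Cfsg.Statements.S0427
import Cfsg.Agent.Lib.SporSteinerGraph

set_option autoImplicit false
open Cfsg

namespace Cfsg.Agent.S0427

open CfsgLib.Spor.Steiner Finset

/-- The block graph (adjacent = disjoint) of an S(3, 6, 22) is strongly regular with parameters (77, 16, 0, 4). -/
theorem result {α : Type*} [Fintype α] (hα : Fintype.card α = 22) {B : Set (Finset α)} (hB : Cfsg.IsSteinerSystem 3 6 B) [Fintype B] [DecidableRel (Cfsg.blockGraph B).Adj] : (Cfsg.blockGraph B).IsSRGWith 77 16 0 4 := by
  classical
  have hadj : ∀ b d : B, (Cfsg.blockGraph B).Adj b d ↔ Disjoint b.1 d.1 := fun b d => by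
    simp only [Cfsg.blockGraph, SimpleGraph.fromRel_adj]
    refine ⟨fun h => h.2.elim id (fun h => h.symm), fun h => ⟨fun e => ?_, Or.inl h⟩⟩
    have := hB.1 _ b.2
    rw [e, disjoint_self_iff_empty] at h
    rw [e, h] at this
    simp at this
  refine ⟨?_, fun b => ?_, fun b c h => ?_, fun b c hne h => ?_⟩
  · rw [← Nat.card_eq_fintype_card, Nat.card_coe_set_eq, ncard_bl, count_all hα hB]
  · rw [← SimpleGraph.card_neighborSet_eq_degree, ← Nat.card_eq_fintype_card, ← count_disjoint hα hB b.2, ← card_sub]
    exact Nat.card_congr (Equiv.subtypeEquivRight fun d => by rw [SimpleGraph.mem_neighborSet, hadj])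
  · have := count_disjoint_both hα hB b.2 c.2 (fun e => (Cfsg.blockGraph B).ne_of_adj h (Subtype.ext e))
    rw [if_pos ((hadj b c).1 h), ← card_sub] at this
    rw [← Nat.card_eq_fintype_card, ← this]
    exact Nat.card_congr (Equiv.subtypeEquivRight fun d => by
      rw [SimpleGraph.mem_commonNeighbors, hadj, hadj])
  · have := count_disjoint_both hα hB b.2 c.2 (fun e => hne (Subtype.ext e))
    rw [if_neg (fun hd => h ((hadj b c).2 hd)), ← card_sub] at this
    rw [← Nat.card_eq_fintype_card, ← this]
    exact Nat.card_congr (Equiv.subtypeEquivRight fun d => by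
      rw [SimpleGraph.mem_commonNeighbors, hadj, hadj])

end Cfsg.Agent.S0427
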