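import Cfsg.Statements.S0428
import Cfsg.Agent.Lib.SporSteinerGraph

set_option autoImplicit false
open Cfsg

namespace Cfsg.Agent.S0428

open CfsgLib.Spor.Steiner Finset

/-- The point-block graph of an S(3, 6, 22) is strongly regular with parameters (100, 22, 0, 6). -/
theorem result {α : Type*} [Fintype α] (hα : Fintype.card α = 22) {B : Set (Finset α)} (hB : Cfsg.IsSteinerSystem 3 6 B) [Fintype B] [DecidableRel (Cfsg.pointBlockGraph B).Adj] : (Cfsg.pointBlockGraph B).IsSRGWith 100 22 0 6 := by
  classical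
  let V := Option (α ⊕ B)
  let G := Cfsg.pointBlockGraph B
  have split : ∀ P : V → Prop, Nat.card {v // P v} =
      (if P none then 1 else 0) + (univ.filter fun a => P (some (.inl a))).card +
        Nat.card {d : B // P (some (.inr d))} := by
    intro P
    rw [Nat.card_eq_fintype_card, Nat.card_eq_fintype_card, Fintype.card_subtype, Fintype.card_subtype,
      card_filter, Fintype.sum_option, Fintype.sum_sum_type, card_filter, card_filter, add_assoc]
  have a1 : ∀ a, G.Adj none (some (.inl a)) := fun a => by simp [-Nat.card_eq_fintype_card, G, Cfsg.pointBlockGraph, Cfsg.pointBlockRel]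
  have a2 : ∀ d : B, ¬ G.Adj none (some (.inr d)) := fun d => by simp [-Nat.card_eq_fintype_card, G, Cfsg.pointBlockGraph, Cfsg.pointBlockRel]
  have a3 : ∀ a a', ¬ G.Adj (some (.inl a)) (some (.inl a')) := fun a a' => by
    simp [-Nat.card_eq_fintype_card, G, Cfsg.pointBlockGraph, Cfsg.pointBlockRel]
  have a4 : ∀ a (d : B), G.Adj (some (.inl a)) (some (.inr d)) ↔ a ∈ d.1 := fun a d => by
    simp [-Nat.card_eq_fintype_card, G, Cfsg.pointBlockGraph, Cfsg.pointBlockRel]
  have a5 : ∀ c d : B, G.Adj (some (.inr c)) (some (.inr d)) ↔ Disjoint c.1 d.1 := fun c d => by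
    simp only [G, Cfsg.pointBlockGraph, SimpleGraph.fromRel_adj, Cfsg.pointBlockRel]
    refine ⟨fun h => h.2.elim id (fun h => h.symm), fun h => ⟨fun e => ?_, Or.inl h⟩⟩
    simp only [Option.some.injEq, Sum.inr.injEq] at e
    have := hB.1 _ c.2
    rw [e, disjoint_self_iff_empty] at h
    rw [e, h] at this
    simp at this
  have n0 : ¬ G.Adj none none := G.irrefl
  have cn : ∀ v w, Fintype.card (G.commonNeighbors v w) = Nat.card {x // G.Adj v x ∧ G.Adj w x} := fun v w => by
    rw [← Nat.card_eq_fintype_card]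
    exact Nat.card_congr (Equiv.subtypeEquivRight fun x => SimpleGraph.mem_commonNeighbors _)
  refine ⟨?_, fun v => ?_, fun v w h => ?_, fun v w hne h => ?_⟩
  · rw [Fintype.card_option, Fintype.card_sum, hα, ← Nat.card_eq_fintype_card, Nat.card_coe_set_eq, ncard_bl,
      count_all hα hB]
  · rw [← SimpleGraph.card_neighborSet_eq_degree, ← Nat.card_eq_fintype_card]
    show Nat.card {x // G.Adj v x} = 22
    rw [split]
    rcases v with _ | p | b
    · simp [-Nat.card_eq_fintype_card, n0, a1, a2, hα]
    · simp [-Nat.card_eq_fintype_card, G.adj_comm (some (Sum.inl p)) none, a1, a3, a4, card_sub (fun d => p ∈ d), count_point hα hB]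
    · simp [-Nat.card_eq_fintype_card, G.adj_comm (some (Sum.inr b)) none, a2, G.adj_comm (some (Sum.inr b)) (some (Sum.inl _)), a4, a5,
        card_sub (fun d => Disjoint b.1 d), count_disjoint hα hB b.2, filter_univ_mem, hB.1 _ b.2]
  · rw [cn]
    change G.Adj v w at h
    rw [split]
    rcases v with _ | p | b <;> rcases w with _ | q | c
    · exact absurd h n0
    · simp [-Nat.card_eq_fintype_card, n0, a2, a3]
    · exact absurd h (a2 c)
    · simp [-Nat.card_eq_fintype_card, n0, a2, a3]
    · exact absurd h (a3 p q)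
    · rw [a4] at h
      have e : ∀ d : B, ¬ (p ∈ d.1 ∧ Disjoint c.1 d.1) := fun d hd =>
        Finset.disjoint_left.1 hd.2 h hd.1
      simp [-Nat.card_eq_fintype_card, a3, a4, a5, G.adj_comm (some (Sum.inr c)) none, a2, e]
    · exact absurd h.symm (a2 b)
    · rw [G.adj_comm, a4] at h
      have e : ∀ d : B, ¬ (Disjoint b.1 d.1 ∧ q ∈ d.1) := fun d hd =>
        Finset.disjoint_left.1 hd.1 h hd.2
      simp [-Nat.card_eq_fintype_card, a3, a4, a5, G.adj_comm (some (Sum.inr b)) none, a2, e]
    · rw [a5] at h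
      have e : ∀ a, ¬ (a ∈ b.1 ∧ a ∈ c.1) := fun a ha => Finset.disjoint_left.1 h ha.1 ha.2
      have := count_disjoint_both hα hB b.2 c.2 (fun e => G.ne_of_adj ((a5 b c).2 h) (by rw [Subtype.ext e]))
      rw [if_pos h, ← card_sub] at this
      simp [-Nat.card_eq_fintype_card, G.adj_comm (some (Sum.inr b)) none, a2, G.adj_comm (some (Sum.inr _)) (some (Sum.inl _)), a4, a5, e, this]
  · rw [cn]
    change ¬ G.Adj v w at h
    rw [split]
    rcases v with _ | p | b <;> rcases w with _ | q | c
    · exact absurd rfl hne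
    · exact absurd (a1 q) h
    · simp [-Nat.card_eq_fintype_card, n0, a1, a2, G.adj_comm (some (Sum.inr c)) (some (Sum.inl _)), a4, filter_univ_mem, hB.1 _ c.2]
    · exact absurd (a1 p).symm h
    · have hpq : p ≠ q := fun e => hne (by rw [e])
      simp [-Nat.card_eq_fintype_card, G.adj_comm (some (Sum.inl _)) none, a1, a3, a4, card_sub (fun d => p ∈ d ∧ q ∈ d), count_pair hα hB hpq]
    · rw [a4] at h
      simp [-Nat.card_eq_fintype_card, G.adj_comm (some (Sum.inr c)) none, a2, a3, a4, a5, card_sub (fun d => p ∈ d ∧ Disjoint c.1 d),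
        count_point_disjoint hα hB c.2 h]
    · simp [-Nat.card_eq_fintype_card, n0, a1, a2, G.adj_comm (some (Sum.inr b)) (some (Sum.inl _)), a4, filter_univ_mem, hB.1 _ b.2]
    · rw [G.adj_comm, a4] at h
      simp [-Nat.card_eq_fintype_card, G.adj_comm (some (Sum.inr b)) none, a2, a3, a4, a5,
        card_sub (fun d => Disjoint b.1 d ∧ q ∈ d), and_comm (b := q ∈ _)]
      rw [card_sub (fun d => q ∈ d ∧ Disjoint b.1 d), count_point_disjoint hα hB b.2 h]
    · rw [a5] at h
      have hbc : b.1 ≠ c.1 := fun e => hne (by rw [Subtype.ext e])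
      have := count_disjoint_both hα hB b.2 c.2 hbc
      rw [if_neg h, ← card_sub] at this
      have e : (univ.filter fun a => a ∈ b.1 ∧ a ∈ c.1).card = 2 := by
        rcases vals_3_6_22 hα hB b.2 c.2 hbc with h' | h'
        · exact absurd (disjoint_iff_inter_eq_empty.2 (card_eq_zero.1 h')) h
        · rw [← h']; congr 1; ext; simp
      simp [-Nat.card_eq_fintype_card, G.adj_comm (some (Sum.inr b)) none, a2, G.adj_comm (some (Sum.inr _)) (some (Sum.inl _)), a4, a5, e, this]

end Cfsg.Agent.S0428
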