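import Cfsg.Statements.S0440
import Cfsg.Agent.Lib.SporSympTrans

set_option autoImplicit false
open Cfsg

namespace Cfsg.Agent.S0440
open CfsgLib.Spor

/-- In the symplectic group in dimension 2n ≥ 2 over the field with two elements, the elements g for which g - 1 has rank one (the symplectic transvections) form a conjugacy class of 3-transpositions generating the group. -/
theorem result (n : ℕ) (hn : 1 ≤ n) : Cfsg.IsThreeTranspositionClass {g : Matrix.symplecticGroup (Fin n) (ZMod 2) | ((g : Matrix (Fin n ⊕ Fin n) (Fin n ⊕ Fin n) (ZMod 2)) - 1).rank = 1} := by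
  have hne : ∃ u : Fin n ⊕ Fin n → ZMod 2, u ≠ 0 :=
    ⟨1, fun h => one_ne_zero (congrFun h (Sum.inl ⟨0, hn⟩))⟩
  obtain ⟨⟨h2, h3⟩, ⟨d, hd, hc⟩, hgen⟩ := SympTrans.threeTranspositionClass
    (CfsgLib.Classical.isSymplecticForm_sympForm (m := n) (F := ZMod 2)) hne
  let e : Matrix.symplecticGroup (Fin n) (ZMod 2) ≃* CfsgLib.Classical.isoGL (Cfsg.sympForm n (ZMod 2)) :=
    CfsgLib.Classical.spToGL n (ZMod 2)
  refine ⟨⟨fun x hx => ?_, fun x hx y hy => ?_⟩, ⟨e.symm d, hd, ?_⟩, ?_⟩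
  · rw [← MulEquiv.orderOf_eq e x]; exact h2 (e x) hx
  · rcases h3 (e x) hx (e y) hy with h | h
    · exact Or.inl (e.injective (by rw [map_pow, map_mul, map_one]; exact h))
    · exact Or.inr (e.injective (by rw [map_pow, map_mul, map_one]; exact h))
  · ext x
    simp only [conjugatesOf, Set.mem_ofPred_eq, isConj_iff]
    have := Set.ext_iff.1 hc (e x)
    simp only [conjugatesOf, Set.mem_ofPred_eq, isConj_iff] at this
    constructor
    · intro hx
      obtain ⟨c, hc'⟩ := this.1 hx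
      exact ⟨e.symm c, by rw [← map_inv, ← map_mul, ← map_mul]; exact e.symm_apply_eq.2 hc'⟩
    · rintro ⟨c, hc'⟩
      exact this.2 ⟨e c, by
        rw [← hc', map_mul, map_mul, map_inv, e.apply_symm_apply]⟩
  · refine eq_top_iff.2 fun x _ => ?_
    have hm : (Subgroup.closure {g : CfsgLib.Classical.isoGL (Cfsg.sympForm n (ZMod 2)) | (((g : GL (Fin n ⊕ Fin n) (ZMod 2)) : Matrix (Fin n ⊕ Fin n) (Fin n ⊕ Fin n) (ZMod 2)) - 1).rank = 1}).map e.symm.toMonoidHom ≤ Subgroup.closure
        {g : Matrix.symplecticGroup (Fin n) (ZMod 2) |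
          ((g : Matrix (Fin n ⊕ Fin n) (Fin n ⊕ Fin n) (ZMod 2)) - 1).rank = 1} := by
      rw [MonoidHom.map_closure]
      exact Subgroup.closure_mono (by rintro _ ⟨y, hy, rfl⟩; exact hy)
    exact hm ⟨e x, hgen ▸ trivial, e.symm_apply_apply x⟩

end Cfsg.Agent.S0440
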