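import Cfsg.Statements.S0444


set_option autoImplicit false
open Cfsg

namespace Cfsg.Agent.S0444

/-- Two members of a set of 3-transpositions which do not commute generate a subgroup isomorphic to the symmetric group on three letters. -/
theorem result {G : Type*} [Group G] {E : Set G} (hE : Cfsg.IsThreeTranspositionSet E) {d e : G} (hd : d ∈ E) (he : e ∈ E) (h : ¬ Commute d e) : Nonempty (Subgroup.closure ({d, e} : Set G) ≃* Equiv.Perm (Fin 3)) := by
  have a2 : d * d = 1 := by rw [← pow_two, ← hE.1 d hd]; exact pow_orderOf_eq_one d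
  have b2 : e * e = 1 := by rw [← pow_two, ← hE.1 e he]; exact pow_orderOf_eq_one e
  have ia : d⁻¹ = d := inv_eq_of_mul_eq_one_left a2
  have ib : e⁻¹ = e := inv_eq_of_mul_eq_one_left b2
  have hne : d ≠ e := fun h' => h (h' ▸ Commute.refl d)
  have hd1 : d ≠ 1 := fun h' => h (h' ▸ Commute.one_left e)
  have he1 : e ≠ 1 := fun h' => h (h' ▸ Commute.one_right d)
  have hde1 : d * e ≠ 1 := fun h' => hne (by rw [← mul_one d, ← b2, ← mul_assoc, h', one_mul])
  have h3 : (d * e) ^ 3 = 1 := by
    refine (hE.2 d hd e he).resolve_left fun h2 => h ?_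
    rw [pow_two] at h2
    have := eq_inv_of_mul_eq_one_left h2
    rw [mul_inv_rev, ia, ib] at this
    exact this
  have bab : e * (d * e) = d * (e * d) := by
    have h4 : d * e * d * (e * d * e) = 1 := by rw [← h3, pow_succ, pow_two]; simp [mul_assoc]
    have := eq_inv_of_mul_eq_one_left h4
    simp only [mul_inv_rev, ia, ib, mul_assoc] at this
    exact this.symm
  have bab' : ∀ x, e * (d * (e * x)) = d * (e * (d * x)) := fun x => by
    rw [← mul_assoc d e, ← mul_assoc e, bab]; simp [mul_assoc]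
  have a2' : ∀ x, d * (d * x) = x := fun x => by rw [← mul_assoc, a2, one_mul]
  have b2' : ∀ x, e * (e * x) = x := fun x => by rw [← mul_assoc, b2, one_mul]
  let g : Fin 6 → G := ![1, d, e, d * e, e * d, d * e * d]
  let p : Fin 6 → Equiv.Perm (Fin 3) := ![1, Equiv.swap 0 1, Equiv.swap 1 2, Equiv.swap 0 1 * Equiv.swap 1 2,
    Equiv.swap 1 2 * Equiv.swap 0 1, Equiv.swap 0 1 * Equiv.swap 1 2 * Equiv.swap 0 1]
  let tb : Fin 6 → Fin 6 → Fin 6 := ![![0, 1, 2, 3, 4, 5],
      ![1, 0, 3, 2, 5, 4],
      ![2, 4, 0, 5, 1, 3],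
      ![3, 5, 1, 4, 0, 2],
      ![4, 2, 5, 0, 3, 1],
      ![5, 3, 4, 1, 2, 0]]
  have hp : Function.Bijective p ∧ ∀ i j, p i * p j = p (tb i j) := by decide
  have hg : ∀ i j, g i * g j = g (tb i j) := by
    intro i j
    fin_cases i <;> fin_cases j <;> simp [g, tb, mul_assoc, a2, b2, a2', b2', bab, bab']
  let q := Equiv.ofBijective p hp.1
  let f : Equiv.Perm (Fin 3) →* G := MonoidHom.mk' (fun σ => g (q.symm σ)) fun σ τ => by
    show g (q.symm (σ * τ)) = _
    rw [hg]
    congr 1
    rw [Equiv.symm_apply_eq]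
    show σ * τ = p (tb (q.symm σ) (q.symm τ))
    rw [← hp.2]
    exact congrArg₂ (· * ·) (q.apply_symm_apply σ).symm (q.apply_symm_apply τ).symm
  have fp : ∀ i, f (p i) = g i := fun i => congrArg g (q.symm_apply_apply i)
  have hinj : Function.Injective f := by
    rw [injective_iff_map_eq_one]
    intro σ
    obtain ⟨i, rfl⟩ := hp.1.2 σ
    rw [fp]
    intro hi
    have hed : e * d ≠ 1 := fun h' => hne.symm (by rw [← mul_one e, ← a2, ← mul_assoc, h', one_mul])
    have haba : d * e * d ≠ 1 := fun h' => he1 (by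
      have : d * (d * e * d) * d = d * 1 * d := by rw [h']
      rwa [mul_one, a2, show d * (d * e * d) * d = (d * d) * e * (d * d) by group, a2, one_mul, mul_one] at this)
    revert hi
    fin_cases i <;> simp [g, p, hd1, he1, hde1, hed, haba]
  have hrange : f.range = Subgroup.closure {d, e} := by
    refine le_antisymm ?_ ((Subgroup.closure_le _).2 ?_)
    · rintro _ ⟨σ, rfl⟩
      obtain ⟨i, rfl⟩ := hp.1.2 σ
      rw [fp]
      have md : d ∈ Subgroup.closure ({d, e} : Set G) := Subgroup.subset_closure (by simp)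
      have me : e ∈ Subgroup.closure ({d, e} : Set G) := Subgroup.subset_closure (by simp)
      fin_cases i <;> simp [g, md, me, mul_mem, one_mem]
    · rintro x (rfl | rfl)
      · exact ⟨p 1, fp 1⟩
      · exact ⟨p 2, fp 2⟩
  exact ⟨((MulEquiv.subgroupCongr hrange.symm).trans (MonoidHom.ofInjective hinj).symm)⟩

end Cfsg.Agent.S0444
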