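import Cfsg.Statements.S0446


set_option autoImplicit false
open Cfsg

namespace Cfsg.Agent.S0446

/-- Every finite group of even order contains a 2-central involution, i.e. an element of order 2 in the centre of some Sylow 2-subgroup. -/
theorem result {G : Type*} [Group G] [Finite G] (h : Even (Nat.card G)) : ∃ t : G, Cfsg.IsTwoCentralInvolution t := by
  haveI := Fact.mk Nat.prime_two
  obtain ⟨P⟩ := (inferInstance : Nonempty (Sylow 2 G))
  haveI : Nontrivial P := by
    have hd : 2 ∣ Nat.card P := by
      rw [P.card_eq_multiplicity]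
      refine dvd_pow_self 2 ?_
      have := (Nat.Prime.dvd_iff_one_le_factorization Nat.prime_two Nat.card_pos.ne').1 h.two_dvd
      omega
    exact Finite.one_lt_card_iff_nontrivial.1 (lt_of_lt_of_le one_lt_two (Nat.le_of_dvd Nat.card_pos hd))
  haveI := P.isPGroup'.center_nontrivial
  obtain ⟨k, hk0, hk⟩ := (P.isPGroup'.to_subgroup (Subgroup.center P)).nontrivial_iff_card.1 this
  obtain ⟨z, hz⟩ := exists_prime_orderOf_dvd_card' 2 (G := Subgroup.center P) (by rw [hk]; exact dvd_pow_self 2 hk0.ne')
  refine ⟨(z.1 : G), ?_, P, z.1.2, fun x hx => congrArg Subtype.val (Subgroup.mem_center_iff.1 z.2 ⟨x, hx⟩)⟩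
  rw [Subgroup.orderOf_coe, Subgroup.orderOf_coe, hz]

end Cfsg.Agent.S0446
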