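import Cfsg.Statements.S0481


set_option autoImplicit false
open Cfsg

namespace Cfsg.Agent.S0481

/-- Large extraspecial subgroups: let z be an involution of a finite group G whose centraliser C contains a normal 2-subgroup Q with centre of order 2 and all squares central, such that every element of G centralising Q lies in Q. Then C contains a Sylow 2-subgroup of G, and any involution of G whose centraliser contains a Sylow 2-subgroup of G is conjugate to z. -/
theorem result {G : Type*} [Group G] [Finite G] (z : G) (hz : orderOf z = 2) (Q : Subgroup G) (hQC : Q ≤ Subgroup.centralizer ({z} : Set G)) (hQn : ∀ g ∈ Subgroup.centralizer ({z} : Set G), ∀ q ∈ Q, g * q * g⁻¹ ∈ Q) (hQ2 : IsPGroup 2 Q) (hZ : Nat.card (Subgroup.center Q) = 2) (hsq : ∀ x : Q, x ^ 2 ∈ Subgroup.center Q) (hlarge : Subgroup.centralizer (Q : Set G) ≤ Q) : (∃ P : Sylow 2 G, (P : Subgroup G) ≤ Subgroup.centralizer ({z} : Set G)) ∧ ∀ u : G, orderOf u = 2 → (∃ P : Sylow 2 G, (P : Subgroup G) ≤ Subgroup.centralizer ({u} : Set G))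 → IsConj z u := by
  haveI := Fact.mk Nat.prime_two
  have hne : z ≠ 1 := fun e => by rw [e, orderOf_one] at hz; omega
  have memC : ∀ u : G, u ∈ Q → u ∈ Subgroup.centralizer (Q : Set G) → u = 1 ∨ u = z := by
    intro u hu hc
    have hzQ : z ∈ Subgroup.centralizer (Q : Set G) :=
      Subgroup.mem_centralizer_iff.2 fun q hq => Subgroup.mem_centralizer_singleton_iff.1 (hQC hq)
    have cz : ∀ v : G, v ∈ Subgroup.centralizer (Q : Set G) → ∀ hv : v ∈ Q, (⟨v, hv⟩ : Q) ∈ Subgroup.center Q :=
      fun v hv hv' => Subgroup.mem_center_iff.2 fun w => Subtype.ext (Subgroup.mem_centralizer_iff.1 hv w.1 w.2)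
    obtain ⟨a, b, hab, hall⟩ := Nat.card_eq_two_iff.1 hZ
    let e1 : Subgroup.center Q := 1
    let ez : Subgroup.center Q := ⟨⟨z, hlarge hzQ⟩, cz z hzQ _⟩
    let eu : Subgroup.center Q := ⟨⟨u, hu⟩, cz u hc _⟩
    have h1z : e1 ≠ ez := fun h => hne (congrArg (fun v : Subgroup.center Q => (v.1 : G)) h).symm
    have m : ∀ v : Subgroup.center Q, v = a ∨ v = b := fun v => by
      have := hall.symm ▸ Set.mem_univ v
      simpa using this
    have : eu = e1 ∨ eu = ez := by
      rcases m eu with h | h <;> rcases m e1 with h' | h' <;> rcases m ez with h'' | h'' <;>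
        first | exact Or.inl (h.trans h'.symm) | exact Or.inr (h.trans h''.symm) | exact absurd (h'.trans h''.symm) h1z
    rcases this with h | h
    · exact Or.inl (congrArg (fun v : Subgroup.center Q => (v.1 : G)) h)
    · exact Or.inr (congrArg (fun v : Subgroup.center Q => (v.1 : G)) h)
  obtain ⟨S, hS⟩ := hQ2.exists_le_sylow
  have cc : ∀ u : G, u ≠ 1 → (∀ x ∈ S, x * u = u * x) → u = z := by
    intro u hu h
    have : u ∈ Subgroup.centralizer (Q : Set G) := Subgroup.mem_centralizer_iff.2 fun q hq => h q (hS hq)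
    exact (memC u (hlarge this) this).resolve_left hu
  have hSz : (S : Subgroup G) ≤ Subgroup.centralizer ({z} : Set G) := by
    have hnt : Nontrivial S := by
      refine ⟨⟨z, hS (hlarge ?_)⟩, 1, fun h => hne (congrArg Subtype.val h)⟩
      exact Subgroup.mem_centralizer_iff.2 fun q hq => Subgroup.mem_centralizer_singleton_iff.1 (hQC hq)
    haveI := S.isPGroup'.center_nontrivial
    obtain ⟨w, hw⟩ := exists_ne (1 : Subgroup.center S)
    have e := cc w.1.1 (fun h => hw (Subtype.ext (Subtype.ext h)))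
      fun x hx => congrArg Subtype.val (Subgroup.mem_center_iff.1 w.2 ⟨x, hx⟩)
    intro x hx
    rw [Subgroup.mem_centralizer_singleton_iff, ← e]
    exact congrArg Subtype.val (Subgroup.mem_center_iff.1 w.2 ⟨x, hx⟩)
  refine ⟨⟨S, hSz⟩, fun u hu ⟨P, hP⟩ => ?_⟩
  obtain ⟨g, hg⟩ := MulAction.exists_smul_eq G S P
  have hu1 : g⁻¹ * u * g = z := by
    refine cc _ (fun h => ?_) fun x hx => ?_
    · rw [show u = g * (g⁻¹ * u * g) * g⁻¹ by group, h, mul_one, mul_inv_cancel, orderOf_one] at hu
      omega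
    · have hm : g * x * g⁻¹ ∈ (P : Subgroup G) := by
        rw [← hg]
        exact ⟨x, hx, rfl⟩
      have := Subgroup.mem_centralizer_singleton_iff.1 (hP hm)
      calc x * (g⁻¹ * u * g) = g⁻¹ * (g * x * g⁻¹ * u) * g := by group
        _ = g⁻¹ * (u * (g * x * g⁻¹)) * g := by rw [this]
        _ = g⁻¹ * u * g * x := by group
  exact isConj_iff.2 ⟨g, by rw [← hu1]; group⟩

end Cfsg.Agent.S0481
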