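import Cfsg.Statements.S0493
import Mathlib


set_option autoImplicit false
open Cfsg

namespace Cfsg.Agent.S0493

section Aux

variable {G : Type*} [Group G] [Finite G] [IsSimpleGroup G]

theorem sylow_ne_top (hnp : ¬ (Nat.card G).Prime) (p : ℕ) [Fact p.Prime] (P : Sylow p G) : (P : Subgroup G) ≠ ⊤ := by
  intro e
  have hP : IsPGroup p G := IsPGroup.of_equiv P.2 ((MulEquiv.subgroupCongr e).trans Subgroup.topEquiv)
  haveI := hP.center_nontrivial
  have hc : ∀ a b : G, a * b = b * a := by
    rcases (inferInstance : (Subgroup.center G).Normal).eq_bot_or_eq_top with h | h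
    · exact absurd h ((Subgroup.nontrivial_iff_ne_bot _).1 inferInstance)
    · exact fun a b => (Subgroup.mem_center_iff.1 (h ▸ Subgroup.mem_top a : a ∈ Subgroup.center G) b).symm
  letI : CommGroup G := { (inferInstance : Group G) with mul_comm := hc }
  exact hnp (IsSimpleGroup.prime_card (α := G))

theorem sylow_count (hnp : ¬ (Nat.card G).Prime) (p : ℕ) [Fact p.Prime] (hpd : p ∣ Nat.card G) :
    ∃ d, 1 < d ∧ d ∣ Nat.card G ∧ d % p = 1 ∧ ¬ p ∣ d ∧ Nat.card G ∣ d.factorial := by
  classical
  let P : Sylow p G := default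
  have hidx := Sylow.card_eq_index_normalizer P
  have hmod := card_sylow_modEq_one p G
  set N := Subgroup.normalizer ((P : Subgroup G) : Set G)
  have hN : N ≠ ⊤ := by
    intro e
    haveI := Subgroup.normalizer_eq_top_iff.1 e
    rcases (inferInstance : (P : Subgroup G).Normal).eq_bot_or_eq_top with h | h
    · exact P.ne_bot_of_dvd_card hpd h
    · exact sylow_ne_top hnp p P h
  have hker : (MulAction.toPermHom G (G ⧸ N)).ker = ⊥ := by
    rw [← Subgroup.normalCore_eq_ker]
    refine N.normalCore_normal.eq_bot_or_eq_top.resolve_right fun e => hN ?_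
    exact top_le_iff.1 (e ▸ N.normalCore_le)
  have h := Subgroup.card_dvd_of_injective _ ((MonoidHom.ker_eq_bot_iff _).1 hker)
  rw [Nat.card_perm, ← Subgroup.index_eq_card] at h
  rw [hidx, Nat.ModEq, Nat.one_mod_eq_one.2 (Fact.out : p.Prime).ne_one] at hmod
  refine ⟨N.index, Subgroup.one_lt_index_of_ne_top hN, N.index_dvd_card, hmod, fun hd => ?_, h⟩
  have h0 : N.index % p = 0 := Nat.mod_eq_zero_of_dvd hd
  exact absurd (h0.symm.trans hmod) (by decide)

theorem no_burnside (hnp : ¬ (Nat.card G).Prime) (p : ℕ) [Fact p.Prime] (hpd : p ∣ Nat.card G)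
    (hsq : ¬ p ^ 2 ∣ Nat.card G)
    (h : (Nat.card G).minFac = p ∨
      ∀ d : ℕ, 1 < d → d ∣ Nat.card G → d % p = 1 → ¬ p ∣ d → d * p = Nat.card G) : False := by
  let P : Sylow p G := default
  have hcard : Nat.card (P : Subgroup G) = p := by
    obtain ⟨k, hk⟩ := IsPGroup.iff_card.1 P.2
    have hdvd : p ^ k ∣ Nat.card G := hk ▸ Subgroup.card_subgroup_dvd_card (P : Subgroup G)
    rcases k with _ | _ | k
    · exact absurd (Subgroup.card_eq_one.1 (hk.trans (pow_zero p))) (P.ne_bot_of_dvd_card hpd)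
    · simpa using hk
    · exact absurd ((pow_dvd_pow p (show 2 ≤ k + 1 + 1 by omega)).trans hdvd) hsq
  have hcyc : IsCyclic (P : Subgroup G) := isCyclic_of_prime_card hcard
  have hB : Subgroup.normalizer ((P : Subgroup G) : Set G) ≤ Subgroup.centralizer ((P : Subgroup G) : Set G) := by
    rcases h with hmin | hd
    · exact IsCyclic.normalizer_le_centralizer hmin hcyc
    · have hidx := Sylow.card_eq_index_normalizer P
      have hmod := card_sylow_modEq_one p G
      rw [hidx, Nat.ModEq, Nat.one_mod_eq_one.2 (Fact.out : p.Prime).ne_one] at hmod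
      set N := Subgroup.normalizer ((P : Subgroup G) : Set G) with hNdef
      have hN : N ≠ ⊤ := by
        intro e
        haveI := Subgroup.normalizer_eq_top_iff.1 e
        rcases (inferInstance : (P : Subgroup G).Normal).eq_bot_or_eq_top with h | h
        · exact P.ne_bot_of_dvd_card hpd h
        · exact sylow_ne_top hnp p P h
      have hnd : ¬ p ∣ N.index := fun e => by
        have h0 : N.index % p = 0 := Nat.mod_eq_zero_of_dvd e
        exact absurd (h0.symm.trans hmod) (by decide)
      have he := hd N.index (Subgroup.one_lt_index_of_ne_top hN) N.index_dvd_card hmod hnd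
      rw [← N.index_mul_card] at he
      have hNc : Nat.card N = p := (Nat.eq_of_mul_eq_mul_left (Nat.pos_of_ne_zero Subgroup.index_ne_zero_of_finite) he).symm
      have hPN : (P : Subgroup G) = N :=
        Subgroup.eq_of_le_of_card_ge (Subgroup.le_normalizer) (by rw [hNc, hcard])
      intro x hx
      rw [Subgroup.mem_centralizer_iff]
      intro y hy
      letI := hcyc.commGroup
      exact congrArg Subtype.val (mul_comm (⟨y, hy⟩ : (P : Subgroup G)) ⟨x, hPN ▸ hx⟩)
  rcases (MonoidHom.normal_ker (MonoidHom.transferSylow P hB)).eq_bot_or_eq_top with hk | hk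
  · have := (MonoidHom.ker_transferSylow_isComplement' P hB).card_mul
    rw [hk, Subgroup.card_bot, one_mul] at this
    exact sylow_ne_top hnp p P (Subgroup.eq_top_of_card_eq _ this)
  · have := (MonoidHom.ker_transferSylow_isComplement' P hB).card_mul
    rw [hk, Subgroup.card_top] at this
    have h1 : Nat.card (P : Subgroup G) = 1 := Nat.eq_of_mul_eq_mul_left Nat.card_pos (this.trans (mul_one _).symm)
    exact P.ne_bot_of_dvd_card hpd (Subgroup.card_eq_one.1 h1)

end Aux

/-- A finite simple group of order at most 100 that is not cyclic has order 60. -/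
theorem result {G : Type*} [Group G] [Finite G] [IsSimpleGroup G]
    (hG : ¬ IsCyclic G) (h : Nat.card G ≤ 100) : Nat.card G = 60 := by
  classical
  have hnp : ¬ (Nat.card G).Prime := fun hp => by
    haveI := Fact.mk hp
    exact hG (isCyclic_of_prime_card rfl)
  have h1 : 1 < Nat.card G := Finite.one_lt_card_iff_nontrivial.2 inferInstance
  by_contra h60
  have key : ∀ n : Fin 101, 1 < (n : ℕ) → (n : ℕ) ≠ 60 → ¬ (n : ℕ).Prime → (n : ℕ) ≠ 30 → (n : ℕ) ≠ 56 → (n : ℕ) ≠ 90 →
      ∃ p : Fin 101, (p : ℕ).Prime ∧ (p : ℕ) ∣ (n : ℕ) ∧ ∀ d : Fin 51, (d : ℕ) ∣ (n : ℕ) → (d : ℕ) % (p : ℕ) = 1 → ¬ (p : ℕ) ∣ (d : ℕ) → 1 < (d : ℕ) → ¬ (n : ℕ) ∣ (d : ℕ).factorial := by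
    decide +kernel
  by_cases hex : Nat.card G = 30 ∨ Nat.card G = 56 ∨ Nat.card G = 90
  · haveI : Fact (Nat.Prime 7) := ⟨by norm_num⟩
    haveI : Fact (Nat.Prime 2) := ⟨Nat.prime_two⟩
    rcases hex with h0 | h0 | h0
    · exact no_burnside hnp 2 (by rw [h0]; norm_num) (by rw [h0]; norm_num) (Or.inl (by rw [h0]; norm_num))
    · refine no_burnside hnp 7 (by rw [h0]; norm_num) (by rw [h0]; norm_num) (Or.inr ?_)
      rw [h0]
      intro d _ hd hm _
      have : d ≤ 56 := Nat.le_of_dvd (by norm_num) hd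
      interval_cases d <;> omega
    · exact no_burnside hnp 2 (by rw [h0]; norm_num) (by rw [h0]; norm_num) (Or.inl (by rw [h0]; norm_num))
  push Not at hex
  obtain ⟨p, hp, hpd, hall⟩ := key ⟨Nat.card G, by omega⟩ h1 h60 hnp hex.1 hex.2.1 hex.2.2
  haveI := Fact.mk hp
  obtain ⟨d, hd1, hdd, hdm, hdp, hdf⟩ := sylow_count hnp (p : ℕ) hpd
  have : d ≤ 50 := by
    obtain ⟨c, hc⟩ := hdd
    rcases Nat.lt_or_ge c 2 with hc2 | hc2
    · interval_cases c
      · omega
      · exfalso
        rw [mul_one] at hc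
        exact hdp (hc ▸ hpd)
    · have := Nat.mul_le_mul_left d hc2
      omega
  exact hall ⟨d, by omega⟩ hdd hdm hdp hd1 hdf

end Cfsg.Agent.S0493
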