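import Cfsg.Statements.S0992
import Mathlib
import Cfsg.Agent.Lib.PermSylow
import Cfsg.Agent.S0219

set_option autoImplicit false
open Cfsg

namespace Cfsg.Agent.S0992

/-- Let G be a non-abelian finite simple group of even order not divisible by 8, and T a Sylow 2-subgroup. Then T is a Klein four-group and the centralizer of T has index 3 in the normalizer of T. -/
theorem result {G : Type*} [Group G] [Finite G] [IsSimpleGroup G] (hG : ¬ IsMulCommutative G) (h2 : Even (Nat.card G)) (h8 : ¬ 8 ∣ Nat.card G) (T : Sylow 2 G) : IsKleinFour ↥(T : Subgroup G) ∧ (Subgroup.centralizer ((T : Subgroup G) : Set G)).relIndex (Subgroup.normalizer ((T : Subgroup G) : Set G)) = 3 := by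
  classical
  haveI : Fact (Nat.Prime 2) := ⟨Nat.prime_two⟩
  have hT2 : ¬ IsCyclic (T : Subgroup G) := by
    intro hc
    obtain ⟨K, hK⟩ := Cfsg.Agent.S0219.result h2 T hc
    have := CfsgLib.Perm.five_le_index hG K (fun h => by rw [h, Subgroup.index_top] at hK; omega)
    omega
  have hT4 : Nat.card T = 4 := by
    obtain ⟨j, hj⟩ := T.isPGroup'.exists_card_eq
    have hd : Nat.card T ∣ Nat.card G := Subgroup.card_subgroup_dvd_card _
    rcases Nat.lt_or_ge j 3 with hj3 | hj3
    · rcases (show j = 0 ∨ j = 1 ∨ j = 2 by omega) with rfl | rfl | rfl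
      · exfalso
        haveI := (Nat.card_eq_one_iff_unique.mp (hj.trans (pow_zero 2))).1
        exact hT2 inferInstance
      · exact absurd (isCyclic_of_prime_card (p := 2) (hj.trans (pow_one 2))) hT2
      · exact hj
    · exact absurd ((pow_dvd_pow 2 hj3).trans (hj ▸ hd)) h8
  have hK4 : IsKleinFour (T : Subgroup G) :=
    ⟨hT4, by
      rcases (Nat.dvd_prime_pow Nat.prime_two).mp (show Monoid.exponent (T : Subgroup G) ∣ 2 ^ 2 from
        (Group.exponent_dvd_nat_card).trans (dvd_of_eq hT4)) with ⟨i, hi, he⟩
      rcases (show i = 0 ∨ i = 1 ∨ i = 2 by omega) with rfl | rfl | rfl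
      · exfalso
        haveI : Subsingleton (T : Subgroup G) := Monoid.exp_eq_one_iff.mp (by rw [he, pow_zero])
        exact hT2 inferInstance
      · rw [he, pow_one]
      · exfalso
        apply hT2
        haveI : IsMulCommutative (T : Subgroup G) := IsPGroup.isMulCommutative_of_card_eq_prime_sq (p := 2) hT4
        open scoped IsMulCommutative in
        exact IsCyclic.iff_exponent_eq_card.mpr (by rw [he, hT4]; norm_num)⟩
  refine ⟨hK4, ?_⟩
  set N := Subgroup.normalizer ((T : Subgroup G) : Set G) with hN
  set C := Subgroup.centralizer ((T : Subgroup G) : Set G) with hC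
  set r : N →* MulAut (T : Subgroup G) := Subgroup.normalizerMonoidHom (T : Subgroup G) with hr
  have hker : r.ker = C.subgroupOf N := Subgroup.normalizerMonoidHom_ker _
  have hrel : C.relIndex N = Nat.card r.range := by
    rw [← Subgroup.index_ker, hker]; rfl
  have hodd : ¬ 2 ∣ C.relIndex N := by
    intro h
    have hTC : (T : Subgroup G) ≤ C := by
      haveI := IsKleinFour.isMulCommutative (G := (T : Subgroup G))
      exact (T : Subgroup G).le_centralizer
    exact T.not_dvd_index (h.trans ((Subgroup.relIndex_dvd_of_le_left _ hTC).trans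
      (Subgroup.relIndex_dvd_index_of_le Subgroup.le_normalizer)))
  have h6 : Nat.card r.range ∣ 6 := by
    let ι : MulAut (T : Subgroup G) →* Equiv.Perm {x : (T : Subgroup G) // x ≠ 1} :=
      { toFun := fun σ => σ.toEquiv.subtypeEquiv (fun x => by simp)
        map_one' := by ext; rfl
        map_mul' := fun σ τ => by ext; rfl }
    have hι : Function.Injective ι := by
      intro σ τ h
      ext x
      by_cases hx : x = 1
      · simp [hx]
      · exact congrArg Subtype.val (congrArg (fun z : Subtype _ => z.1) (Equiv.ext_iff.mp h ⟨x, hx⟩))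
    have h3 : Nat.card {x : (T : Subgroup G) // x ≠ 1} = 3 := by
      haveI := Fintype.ofFinite (T : Subgroup G)
      rw [Nat.card_eq_fintype_card, Fintype.card_subtype_compl, Fintype.card_subtype_eq,
        ← Nat.card_eq_fintype_card, hT4]
    have := Subgroup.card_dvd_of_injective (ι.comp r.range.subtype) (hι.comp r.range.subtype_injective)
    rwa [Nat.card_perm, h3] at this
  have hne : C.relIndex N ≠ 1 := by
    intro h
    have hle : N ≤ C := Subgroup.relIndex_eq_one.mp h
    have hcomp := MonoidHom.ker_transferSylow_isComplement' T hle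
    rcases (MonoidHom.normal_ker (MonoidHom.transferSylow T hle)).eq_bot_or_eq_top with h' | h'
    · rw [h', Subgroup.isComplement'_bot_left] at hcomp
      haveI : IsMulCommutative (T : Subgroup G) := IsKleinFour.isMulCommutative
      exact hG ⟨⟨fun a b => congrArg Subtype.val (IsMulCommutative.is_comm.comm
        (⟨a, hcomp ▸ Subgroup.mem_top a⟩ : (T : Subgroup G)) ⟨b, hcomp ▸ Subgroup.mem_top b⟩)⟩⟩
    · rw [h', Subgroup.isComplement'_top_left] at hcomp
      rw [hcomp, Subgroup.card_bot] at hT4
      omega
  rw [hrel] at hodd hne ⊢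
  have : Nat.card r.range ∈ Nat.divisors 6 := Nat.mem_divisors.mpr ⟨h6, by norm_num⟩
  rw [show Nat.divisors 6 = {1, 2, 3, 6} by decide] at this
  simp only [Finset.mem_insert, Finset.mem_singleton] at this
  omega

end Cfsg.Agent.S0992
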