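import Cfsg.Statements.S0494
import Cfsg.Agent.S0992
import Cfsg.Agent.Lib.SmallSimple
import Cfsg.Agent.Lib.CoreCoprime

set_option autoImplicit false
open Cfsg

namespace Cfsg.Agent.S0494

/-- A simple group of order 60 is isomorphic to the alternating group of degree 5. -/
theorem result {G : Type*} [Group G] [Finite G] [IsSimpleGroup G]
    (h : Nat.card G = 60) : Nonempty (G ≃* alternatingGroup (Fin 5)) := by
  haveI : Fact (Nat.Prime 2) := ⟨Nat.prime_two⟩
  have hnc : ¬ IsMulCommutative G := CfsgLib.SmallSimple.noncomm (by rw [h]; norm_num)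
  obtain ⟨T⟩ := (inferInstance : Nonempty (Sylow 2 G))
  have hT : Nat.card T = 4 := by
    rw [CfsgLib.Perm.sylow_card T (k := 2) (m := 15) (by rw [h]; norm_num) (by norm_num)]; norm_num
  obtain ⟨hK, hrel⟩ := Cfsg.Agent.S0992.result hnc (by rw [h]; decide) (by rw [h]; norm_num) T
  have hTC : (T : Subgroup G) ≤ Subgroup.centralizer ((T : Subgroup G) : Set G) := fun x hx =>
    Subgroup.mem_centralizer_iff.mpr fun y hy =>
      congrArg Subtype.val (IsKleinFour.isMulCommutative.is_comm.comm (⟨y, hy⟩ : (T : Subgroup G)) ⟨x, hx⟩)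
  set N := Subgroup.normalizer ((T : Subgroup G) : Set G) with hN
  have hCN := CfsgLib.Core.centralizer_le_normalizer (T : Subgroup G)
  have h1 := CfsgLib.Core.card_mul_relIndex hCN
  rw [hrel] at h1
  have h4C : 4 ∣ Nat.card (Subgroup.centralizer ((T : Subgroup G) : Set G)) := hT ▸ Subgroup.card_dvd_of_le hTC
  have hNne : N ≠ ⊤ := by
    intro hNt
    have hn : (T : Subgroup G).Normal := Subgroup.normalizer_eq_top_iff.mp hNt
    rcases hn.eq_bot_or_eq_top with hb | hb
    · exact absurd hT (by rw [hb, Subgroup.card_bot]; norm_num)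
    · exact absurd hT (by rw [hb, Subgroup.card_top, h]; norm_num)
  have h5 := CfsgLib.Perm.five_le_index hnc N hNne
  have hmul := N.card_mul_index
  rw [h] at hmul
  have hidx : N.index = 5 := by
    have h12 : 12 ≤ Nat.card N := by
      have := Nat.le_of_dvd Nat.card_pos h4C
      calc 12 = 4 * 3 := by norm_num
        _ ≤ _ := Nat.mul_le_mul_right 3 this
        _ = _ := h1
    have : Nat.card N * N.index ≥ 12 * N.index := Nat.mul_le_mul_right _ h12
    omega
  have hex := CfsgLib.Perm.exists_hom_alternating hnc N hNne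
  rw [hidx] at hex
  obtain ⟨f, hf⟩ := hex
  refine ⟨MulEquiv.ofBijective f ((Nat.bijective_iff_injective_and_card f).2 ⟨hf, ?_⟩)⟩
  rw [h, nat_card_alternatingGroup, Nat.card_fin]
  rfl


end Cfsg.Agent.S0494
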