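import Cfsg.Statements.S0498
import Cfsg.Agent.Lib.LocalSmallPSL

set_option autoImplicit false
open Cfsg

namespace Cfsg.Agent.S0498

/-- A simple group of order 660, respectively 1092, is isomorphic to the projective special linear group of dimension 2
over the field with 11, respectively 13, elements. -/
theorem result {G : Type*} [Group G] [Finite G] [IsSimpleGroup G] (p : ℕ)
    (hp : p = 11 ∨ p = 13) (h : 2 * Nat.card G = p * (p ^ 2 - 1)) {F : Type*} [Field F] [Fintype F]
    (hF : Fintype.card F = p) : Nonempty (G ≃* Matrix.ProjectiveSpecialLinearGroup (Fin 2) F) := by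
  rcases hp with rfl | rfl
  · haveI : Fact (Nat.Prime 11) := ⟨by norm_num⟩
    have hG : Nat.card G = 11 ^ 1 * 60 := by norm_num at h ⊢; omega
    refine CfsgLib.Local.SmallPSL.iso_psl (p := 11) h (by norm_num) ?_ hF
    obtain ⟨h1, h2, h3⟩ := CfsgLib.SmallSimple.sylow_number (G := G) (p := 11) (k := 1) (m := 60) hG
      (by norm_num) (by norm_num) one_ne_zero
    have key : ∀ n ∈ Nat.divisors 60, n % 11 = 1 → n ≠ 1 → n = 12 := by decide
    exact key _ h1 h2 h3
  · haveI : Fact (Nat.Prime 13) := ⟨by norm_num⟩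
    have hG : Nat.card G = 13 ^ 1 * 84 := by norm_num at h ⊢; omega
    refine CfsgLib.Local.SmallPSL.iso_psl (p := 13) h (by norm_num) ?_ hF
    obtain ⟨h1, h2, h3⟩ := CfsgLib.SmallSimple.sylow_number (G := G) (p := 13) (k := 1) (m := 84) hG
      (by norm_num) (by norm_num) one_ne_zero
    have key : ∀ n ∈ Nat.divisors 84, n % 13 = 1 → n ≠ 1 → n = 14 := by decide
    exact key _ h1 h2 h3


end Cfsg.Agent.S0498
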