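import Cfsg.Statements.S0499
import Cfsg.Agent.Lib.TransferMore
import Cfsg.Agent.Lib.LocalSmallAut

set_option autoImplicit false
open Cfsg

namespace Cfsg.Agent.S0499

/-- A non-abelian finite simple group of even order has order divisible by 12, 16 or 56. -/
theorem result {G : Type*} [Group G] [Finite G] [IsSimpleGroup G]
    (hG : ¬ IsMulCommutative G) (h2 : Even (Nat.card G)) :
    12 ∣ Nat.card G ∨ 16 ∣ Nat.card G ∨ 56 ∣ Nat.card G := by
  haveI : Fact (Nat.Prime 2) := ⟨Nat.prime_two⟩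
  have hnc : ∃ x y : G, x * y ≠ y * x := by
    by_contra h
    push Not at h
    exact hG ⟨⟨h⟩⟩
  have hmin : (Nat.card G).minFac = 2 := Nat.minFac_eq_two_iff _ |>.mpr h2.two_dvd
  rcases CfsgLib.Transfer.minFac_cube_or_twelve hnc with h | h
  swap
  · exact Or.inl h
  rw [hmin] at h
  by_cases h16 : 16 ∣ Nat.card G
  · exact Or.inr (Or.inl h16)
  obtain ⟨P⟩ := (inferInstance : Nonempty (Sylow 2 G))
  have hP : Nat.card (P : Subgroup G) = 8 := by
    obtain ⟨k, hk⟩ := IsPGroup.iff_card.mp P.2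
    have h3 : 3 ≤ k := by
      obtain ⟨c, hc⟩ := Sylow.exists_subgroup_card_pow_prime 2 h
      obtain ⟨S, hS⟩ := (IsPGroup.of_card (n := 3) hc).exists_le_sylow
      have h1 := Subgroup.card_le_of_le hS
      have h1' : Nat.card ↥(S : Subgroup G) = Nat.card ↥(P : Subgroup G) := by
        rw [S.card_eq_multiplicity, P.card_eq_multiplicity]
      rw [hc, h1', hk] at h1
      exact (Nat.pow_le_pow_iff_right one_lt_two).mp h1
    have h4 : k < 4 := by
      by_contra hk4
      exact h16 ((Nat.pow_dvd_pow 2 (Nat.le_of_not_lt hk4)).trans (hk ▸ (P : Subgroup G).card_subgroup_dvd_card))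
    rw [hk, show k = 3 by omega]; norm_num
  -- a `2`-subgroup with a nontrivial automizer
  obtain ⟨Q, hQP, g, hg, hodd, hgc⟩ : ∃ Q : Subgroup G, Q ≤ (P : Subgroup G) ∧
      ∃ g ∈ Subgroup.normalizer (Q : Set G), (orderOf g).Coprime 2 ∧ g ∉ Subgroup.centralizer (Q : Set G) := by
    by_contra hcon
    push Not at hcon
    obtain ⟨N, hN, hNc, k, hk⟩ := CfsgLib.Core.hasNormalPComplement_iff.mp
      (CfsgLib.Core.hasNormalPComplement_of_local_le P hcon)
    rcases hN.eq_bot_or_eq_top with hb | hb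
    · subst hb
      rw [Subgroup.index_bot] at hk
      have hp : IsPGroup 2 G := IsPGroup.of_card hk
      haveI := hp.isNilpotent
      exact hG ⟨⟨IsSimpleGroup.comm_iff_isSolvable.mpr inferInstance⟩⟩
    · subst hb
      rw [Subgroup.card_top] at hNc
      exact absurd (Nat.eq_one_of_dvd_coprimes hNc h2.two_dvd dvd_rfl) (by norm_num)
  obtain ⟨q, φ, hq, hq2, hφ, hqG, -⟩ := CfsgLib.Local.SmallAut.exists_prime_aut Q hg hodd hgc
  haveI : Fact q.Prime := ⟨hq⟩
  rcases CfsgLib.Local.SmallAut.prime_of_card_dvd_eight hq2 φ hφ (hP ▸ Subgroup.card_dvd_of_le hQP) with rfl | rfl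
  · exact Or.inl ((Nat.dvd_trans (by norm_num : 12 ∣ 8 * 3))
      (Nat.Coprime.mul_dvd_of_dvd_of_dvd (by norm_num) (by simpa using h) hqG))
  · exact Or.inr (Or.inr ((Nat.dvd_trans (by norm_num : 56 ∣ 8 * 7))
      (Nat.Coprime.mul_dvd_of_dvd_of_dvd (by norm_num) (by simpa using h) hqG)))


end Cfsg.Agent.S0499
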