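import Cfsg.Statements.S0502


set_option autoImplicit false
open Cfsg

namespace Cfsg.Agent.S0502

/-- If a finite 2-group has a normal elementary abelian subgroup of order at least 8, then any two of its Klein
four-subgroups are joined by a chain of Klein four-subgroups with consecutive members commuting elementwise. -/
theorem result {P : Type*} [Group P] [Finite P] (hP : IsPGroup 2 P)
    (E : Subgroup P) [E.Normal] (hE : IsMulCommutative E) (hE2 : ∀ e ∈ E, e ^ 2 = 1) (hE8 : 8 ≤ Nat.card E) :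
    Cfsg.IsFourConnected P := by
  classical
  haveI : Fact (Nat.Prime 2) := ⟨Nat.prime_two⟩
  have hEb : E ≠ ⊥ := fun e => by rw [e, Subgroup.card_bot] at hE8; omega
  -- a central involution in `E`
  obtain ⟨z, hzE, hz1, hzc⟩ : ∃ z ∈ E, z ≠ 1 ∧ ∀ x : P, x * z = z * x := by
    haveI : Nontrivial E := (Subgroup.nontrivial_iff_ne_bot E).mpr hEb
    have h2 : 2 ∣ Nat.card E := by
      obtain ⟨k, hk⟩ := IsPGroup.iff_card.mp (hP.to_subgroup E)
      rw [hk]
      exact dvd_pow_self 2 fun h => by rw [h, pow_zero] at hk; omega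
    obtain ⟨z, hz, hz1⟩ := (hP.of_equiv ConjAct.toConjAct).exists_fixed_point_of_prime_dvd_card_of_fixed_point
      (α := E) h2 (a := 1) (fun g => smul_one g)
    refine ⟨z, z.2, fun e => hz1 (Subtype.ext e.symm), fun x => ?_⟩
    have h3 : x * (z : P) * x⁻¹ = z := by
      have := congrArg Subtype.val (hz (ConjAct.toConjAct x))
      rwa [ConjAct.Subgroup.val_conj_smul, ConjAct.smul_def, ConjAct.ofConjAct_toConjAct] at this
    calc x * (z : P) = x * z * x⁻¹ * x := by group
      _ = z * x := by rw [h3]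
  have hmk : ∀ a b : P, a * a = 1 → b * b = 1 → a * b = b * a → a ≠ 1 → b ≠ 1 → a ≠ b →
      ∃ W : Subgroup P, a ∈ W ∧ b ∈ W ∧ IsKleinFour W ∧
        (∀ c : P, a * c = c * a → b * c = c * b → ∀ w ∈ W, w * c = c * w) ∧
        (∀ H : Subgroup P, a ∈ H → b ∈ H → W ≤ H) := by
    intro a b ha hb hab ha1 hb1 hne
    have hinv : ∀ x : P, x * x = 1 → x⁻¹ = x := fun x hx => inv_eq_of_mul_eq_one_right hx
    let W : Subgroup P :=
      { carrier := {1, a, b, a * b}
        one_mem' := by simp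
        mul_mem' := by
          have e1 : a * (a * b) = b := by rw [← mul_assoc, ha, one_mul]
          have e2 : b * (a * b) = a := by rw [hab, ← mul_assoc, hb, one_mul]
          have e3 : a * b * a = b := by rw [hab, mul_assoc, ha, mul_one]
          have e4 : a * b * b = a := by rw [mul_assoc, hb, mul_one]
          have e5 : a * b * (a * b) = 1 := by rw [mul_assoc, e2, ha]
          rintro x y (h | h | h | h) (h' | h' | h' | h') <;> rw [h, h'] <;>
            simp [ha, hb, e1, e2, e3, e4, e5, hab.symm]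
        inv_mem' := by
          rintro x (h | h | h | h) <;> rw [h] <;>
            simp [hinv a ha, hinv b hb, mul_inv_rev, hab.symm] }
    refine ⟨W, ?_, ?_, ?_, ?_, ?_⟩
    · exact Or.inr (Or.inl rfl)
    · exact Or.inr (Or.inr (Or.inl rfl))
    · refine IsKleinFour.mk ?_ ?_
      · rw [← SetLike.coe_sort_coe, Nat.card_coe_set_eq]
        show ({1, a, b, a * b} : Set P).ncard = 4
        have h1 : a * b ≠ 1 := fun e => hne (by rw [← hinv b hb]; exact mul_eq_one_iff_eq_inv.mp e)
        have h2 : a * b ≠ a := fun e => hb1 (mul_eq_left.mp e)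
        have h3 : a * b ≠ b := fun e => ha1 (mul_eq_right.mp e)
        rw [Set.ncard_insert_of_notMem (by simp [Ne.symm ha1, Ne.symm hb1, Ne.symm h1]),
          Set.ncard_insert_of_notMem (by simp [hne, Ne.symm h2]),
          Set.ncard_insert_of_notMem (by simp [Ne.symm h3]), Set.ncard_singleton]
      · have hsq : ∀ g ∈ W, g * g = 1 := by
          have e5 : a * b * (a * b) = 1 := by
            rw [mul_assoc, hab, ← mul_assoc b b a, hb, one_mul, ha]
          rintro g (h | h | h | h) <;> rw [h]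
          · simp
          · exact ha
          · exact hb
          · exact e5
        have hd : Monoid.exponent W ∣ 2 := Monoid.exponent_dvd_of_forall_pow_eq_one fun g =>
          Subtype.ext (by simp [pow_two, hsq _ g.2])
        rcases (Nat.dvd_prime Nat.prime_two).mp hd with h | h
        · exact absurd (congrArg Subtype.val ((Monoid.exp_eq_one_iff.mp h).elim
            (⟨a, Or.inr (Or.inl rfl)⟩ : W) 1)) ha1
        · exact h
    · intro c h1 h2
      rintro w (h | h | h | h) <;> rw [h]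
      · simp
      · exact h1
      · exact h2
      · exact ((show Commute a c from h1).mul_left h2).eq
    · intro H h1 h2
      rintro w (h | h | h | h) <;> rw [h]
      · exact one_mem H
      · exact h1
      · exact h2
      · exact mul_mem h1 h2
  have hee : ∀ e ∈ E, e * e = 1 := fun e he => by rw [← pow_two]; exact hE2 e he
  have hzz := hee z hzE
  -- a fixed four-subgroup in `E`
  obtain ⟨e₀, he₀, he₀1, he₀z⟩ : ∃ e ∈ E, e ≠ 1 ∧ e ≠ z := by
    by_contra! h
    have hsub : (E : Set P) ⊆ {1, z} := fun e he => by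
      rcases eq_or_ne e 1 with h1 | h1
      · exact Or.inl h1
      · exact Or.inr (h e he h1)
    have := Set.ncard_le_ncard hsub (Set.toFinite _)
    rw [← Nat.card_coe_set_eq, SetLike.coe_sort_coe] at this
    have h2 := Set.ncard_insert_le 1 ({z} : Set P)
    rw [Set.ncard_singleton] at h2
    omega
  obtain ⟨W₀, -, -, hW₀, -, hW₀le⟩ :=
    hmk z e₀ hzz (hee e₀ he₀) (hzc e₀).symm hz1 he₀1 (Ne.symm he₀z)
  have hW₀E : W₀ ≤ E := hW₀le E hzE he₀
  set r := fun A B : Subgroup P => IsKleinFour A ∧ IsKleinFour B ∧ ∀ a ∈ A, ∀ b ∈ B, a * b = b * a with hr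
  have hsymm : Symmetric (Relation.ReflTransGen r) := fun A B h => by
    induction h with
    | refl => exact Relation.ReflTransGen.refl
    | tail _ hbc ih => exact Relation.ReflTransGen.head ⟨hbc.2.1, hbc.1, fun a ha b hb => (hbc.2.2 b hb a ha).symm⟩ ih
  suffices H : ∀ U : Subgroup P, IsKleinFour U → Relation.ReflTransGen r U W₀ from
    fun U V hU hV => (H U hU).trans (hsymm (H V hV))
  intro U hU
  haveI := hU
  have hUsq : ∀ u ∈ U, u * u = 1 := fun u hu => congrArg Subtype.val (IsKleinFour.mul_self (⟨u, hu⟩ : U))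
  have hUc : ∀ u ∈ U, ∀ v ∈ U, u * v = v * u := fun u hu v hv =>
    congrArg Subtype.val ((IsKleinFour.isMulCommutative (G := U)).is_comm.comm ⟨u, hu⟩ ⟨v, hv⟩)
  obtain ⟨a, haU, ha1, haz⟩ : ∃ a ∈ U, a ≠ 1 ∧ a ≠ z := by
    by_contra! h
    have hsub : (U : Set P) ⊆ {1, z} := fun e he => by
      rcases eq_or_ne e 1 with h1 | h1
      · exact Or.inl h1
      · exact Or.inr (h e he h1)
    have := Set.ncard_le_ncard hsub (Set.toFinite _)
    rw [← Nat.card_coe_set_eq, SetLike.coe_sort_coe, IsKleinFour.card_four] at this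
    have h2 := Set.ncard_insert_le 1 ({z} : Set P)
    rw [Set.ncard_singleton] at h2
    omega
  obtain ⟨W, -, -, hW, hWc, hWle⟩ := hmk a z (hUsq a haU) hzz (hzc a) ha1 hz1 haz
  -- the fixed points of `a` on `E`
  obtain ⟨e, he, hea, he1, hez⟩ : ∃ e ∈ E, a * e = e * a ∧ e ≠ 1 ∧ e ≠ z := by
    have hconj : ∀ x : E, a * x * a⁻¹ * (x : P)⁻¹ ∈ E := fun x =>
      mul_mem (Subgroup.Normal.conj_mem inferInstance _ x.2 a) (inv_mem x.2)
    let f : E →* E :=
      { toFun := fun x => ⟨a * x * a⁻¹ * (x : P)⁻¹, hconj x⟩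
        map_one' := Subtype.ext (by simp)
        map_mul' := fun x y => Subtype.ext (by
          have h1 := hE.is_comm.comm (⟨_, hconj y⟩ : E) ⟨(x : P)⁻¹, inv_mem x.2⟩
          have h1' : a * (y : P) * a⁻¹ * (y : P)⁻¹ * (x : P)⁻¹ = (x : P)⁻¹ * (a * y * a⁻¹ * (y : P)⁻¹) :=
            congrArg Subtype.val h1
          show a * ((x : P) * y) * a⁻¹ * ((x : P) * y)⁻¹ = a * x * a⁻¹ * (x : P)⁻¹ * (a * y * a⁻¹ * (y : P)⁻¹)
          calc a * ((x : P) * y) * a⁻¹ * ((x : P) * y)⁻¹
              = a * x * a⁻¹ * (a * (y : P) * a⁻¹ * (y : P)⁻¹ * (x : P)⁻¹) := by group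
            _ = _ := by rw [h1']; group) }
    have hrk : f.range ≤ f.ker := by
      rintro _ ⟨x, rfl⟩
      rw [MonoidHom.mem_ker]
      refine Subtype.ext ?_
      show a * (a * x * a⁻¹ * (x : P)⁻¹) * a⁻¹ * (a * x * a⁻¹ * (x : P)⁻¹)⁻¹ = 1
      have h2 := hee _ (hconj x)
      have hai : a⁻¹ = a := inv_eq_of_mul_eq_one_right (hUsq a haU)
      calc a * (a * x * a⁻¹ * (x : P)⁻¹) * a⁻¹ * (a * x * a⁻¹ * (x : P)⁻¹)⁻¹
          = (a * a) * x * (a⁻¹ * a⁻¹) * (a⁻¹)⁻¹ * (x : P)⁻¹ * a⁻¹ * (a * x * a⁻¹ * (x : P)⁻¹)⁻¹ := by group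
        _ = (x : P) * a * (x : P)⁻¹ * a⁻¹ * (a * x * a⁻¹ * (x : P)⁻¹)⁻¹ := by
            rw [hai, hUsq a haU]; simp [hai]
        _ = (a * x * a⁻¹ * (x : P)⁻¹)⁻¹ * (a * x * a⁻¹ * (x : P)⁻¹)⁻¹ := by group
        _ = 1 := by rw [← mul_inv_rev, h2, inv_one]
    have hcard : 3 ≤ Nat.card f.ker := by
      have h1 := f.ker.card_mul_index
      rw [Subgroup.index_ker] at h1
      have h2 : Nat.card f.range ≤ Nat.card f.ker := Subgroup.card_le_of_le hrk
      by_contra h
      have h3 : Nat.card f.ker ≤ 2 := by omega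
      have := Nat.mul_le_mul h3 (h2.trans h3)
      omega
    by_contra! h
    have hsub : ((f.ker.map E.subtype : Subgroup P) : Set P) ⊆ {1, z} := by
      rintro _ ⟨x, hx, rfl⟩
      rcases eq_or_ne (x : P) 1 with h1 | h1
      · exact Or.inl h1
      · refine Or.inr (h x x.2 ?_ h1)
        have hx' : a * x * a⁻¹ * (x : P)⁻¹ = 1 := congrArg Subtype.val hx
        exact (commutatorElement_eq_one_iff_mul_comm.mp hx')
    have := Set.ncard_le_ncard hsub (Set.toFinite _)
    rw [← Nat.card_coe_set_eq, SetLike.coe_sort_coe, Subgroup.card_map_of_injective E.subtype_injective] at this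
    have h2 := Set.ncard_insert_le 1 ({z} : Set P)
    rw [Set.ncard_singleton] at h2
    omega
  obtain ⟨W₁, -, -, hW₁, hW₁c, hW₁le⟩ := hmk z e hzz (hee e he) (hzc e).symm hz1 he1 (Ne.symm hez)
  refine Relation.ReflTransGen.head (b := W) ⟨hU, hW, fun u hu w hw => ?_⟩
    (Relation.ReflTransGen.head (b := W₁) ⟨hW, hW₁, fun w hw v hv => ?_⟩
      (Relation.ReflTransGen.single ⟨hW₁, hW₀, fun v hv w hw =>
        congrArg Subtype.val (hE.is_comm.comm (⟨v, hW₁le E hzE he hv⟩ : E) ⟨w, hW₀E hw⟩)⟩))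
  · exact (hWc u (hUc a haU u hu) (hzc u).symm w hw).symm
  · have hwz : z * w = w * z := (hzc w).symm
    have hwe : e * w = w * e := (hWc e hea (hzc e).symm w hw).symm
    exact (hW₁c w hwz hwe v hv).symm

end Cfsg.Agent.S0502
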