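import Cfsg.Statements.S0514
import Cfsg.Agent.Lib.LocalSmallAut
import Cfsg.Agent.Lib.CoreCoprime

set_option autoImplicit false
open Cfsg

namespace Cfsg.Agent.S0514

/-- In a finite group whose Sylow 2-subgroups are dihedral of order at least 4, the centralizer of any involution has a
normal subgroup of odd order whose index in the centralizer is a power of 2. -/
theorem result {X : Type*} [Group X] [Finite X]
    (S : Sylow 2 X) (n : ℕ) (hn : 2 ≤ n) (hS : Nonempty ((S : Subgroup X) ≃* DihedralGroup n)) (t : X)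
    (ht : orderOf t = 2) :
    ∃ N : Subgroup (Subgroup.centralizer ({t} : Set X)), N.Normal ∧ Odd (Nat.card N) ∧ ∃ k : ℕ, N.index = 2 ^ k := by
  classical
  haveI : Fact (Nat.Prime 2) := ⟨Nat.prime_two⟩
  haveI : NeZero n := ⟨by omega⟩
  obtain ⟨e⟩ := hS
  set H := Subgroup.centralizer ({t} : Set X) with hH
  obtain ⟨P⟩ := (inferInstance : Nonempty (Sylow 2 H))
  have htH : t ∈ H := Subgroup.mem_centralizer_singleton_iff.mpr rfl
  have htc : ∀ x : H, (x : X) * t = t * x := fun x => Subgroup.mem_centralizer_singleton_iff.mp x.2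
  let T : Subgroup H := Subgroup.zpowers ⟨t, htH⟩
  haveI : T.Normal := ⟨fun a ha x => by
    obtain ⟨i, rfl⟩ := Subgroup.mem_zpowers_iff.mp ha
    have h0 : (x : X) * t * (x : X)⁻¹ = t := by rw [htc x, mul_inv_cancel_right]
    have : x * (⟨t, htH⟩ : H) * x⁻¹ = ⟨t, htH⟩ := Subtype.ext h0
    rw [← conj_zpow, this]
    exact Subgroup.zpow_mem_zpowers _ _⟩
  have hT2 : IsPGroup 2 T := IsPGroup.of_card (n := 1) (by
    rw [Nat.card_zpowers, Subgroup.orderOf_mk, ht]; norm_num)
  suffices h : Cfsg.HasNormalPComplement 2 H by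
    obtain ⟨N, hN, hc, k, hk⟩ := CfsgLib.Core.hasNormalPComplement_iff.mp h
    exact ⟨N, hN, Nat.coprime_two_right.mp hc, k, hk⟩
  refine CfsgLib.Core.hasNormalPComplement_of_local_le P fun Q hQ g hg hodd => ?_
  by_contra hne
  let R := Q ⊔ T
  have hR2 : IsPGroup 2 R := (P.2.to_le hQ).to_sup_of_normal_right hT2
  have hgR : g ∈ Subgroup.normalizer (R : Set H) :=
    CfsgLib.Core.le_normalizer_sup (A := Subgroup.zpowers g) (Subgroup.zpowers_le.mpr hg)
      (by rw [Subgroup.normalizer_eq_top]; exact le_top) (Subgroup.mem_zpowers g)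
  have hneR : g ∉ Subgroup.centralizer (R : Set H) := fun h =>
    hne (Subgroup.centralizer_le (show (Q : Set H) ⊆ (R : Set H) from SetLike.coe_subset_coe.mpr le_sup_left) h)
  obtain ⟨q, φ, hq, hq2, hφ, -, hfix⟩ := CfsgLib.Local.SmallAut.exists_prime_aut R hgR hodd hneR
  haveI : Fact q.Prime := ⟨hq⟩
  -- embed `R` into the dihedral group
  obtain ⟨S', hS'⟩ := (hR2.map H.subtype).exists_le_sylow
  let f : R →* DihedralGroup n :=
    (((S'.equiv S).trans e).toMonoidHom.comp (Subgroup.inclusion hS')).comp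
      (R.equivMapOfInjective H.subtype H.subtype_injective).toMonoidHom
  have hf : Function.Injective f := by
    intro a b h
    exact (R.equivMapOfInjective H.subtype H.subtype_injective).injective
      (Subgroup.inclusion_injective hS' (((S'.equiv S).trans e).injective h))
  let C : Subgroup (DihedralGroup n) := Subgroup.zpowers (.r 1)
  have hCi : C.index = 2 := by
    have h := C.card_mul_index
    rw [Nat.card_zpowers, DihedralGroup.orderOf_r_one, DihedralGroup.nat_card, mul_comm 2] at h
    exact Nat.eq_of_mul_eq_mul_left (by omega) h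
  haveI : IsCyclic (C.comap f) := isCyclic_of_injective (f.subgroupComap C) (fun a b h =>
    Subtype.ext (hf (congrArg Subtype.val h)))
  obtain ⟨k, hk⟩ := IsPGroup.iff_card.mp hR2
  refine CfsgLib.Local.SmallAut.no_odd_fixing hk hq2 φ hφ (C.comap f) ?_ ?_
    (t := ⟨⟨t, htH⟩, Subgroup.mem_sup_right (Subgroup.mem_zpowers _)⟩) ?_ ?_
  · rw [Subgroup.index_comap, ← hCi]
    haveI : C.Normal := Subgroup.normal_of_index_eq_two hCi
    exact Nat.le_of_dvd (by omega) (Subgroup.relIndex_dvd_index_of_normal C f.range)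
  · intro x hx
    obtain ⟨i, hi⟩ | ⟨i, hi⟩ : (∃ i, f x = .r i) ∨ (∃ i, f x = .sr i) := by
      cases f x with
      | r i => exact Or.inl ⟨i, rfl⟩
      | sr i => exact Or.inr ⟨i, rfl⟩
    · exfalso; apply hx
      rw [Subgroup.mem_comap, hi]
      refine Subgroup.mem_zpowers_iff.mpr ⟨(i.val : ℤ), ?_⟩
      rw [zpow_natCast, DihedralGroup.r_one_pow, ZMod.natCast_zmod_val]
    · apply hf
      rw [map_pow, map_one, hi, pow_two, DihedralGroup.sr_mul_sr, sub_self, DihedralGroup.one_def]
  · intro h
    have := congrArg (fun z : R => ((z : H) : X)) h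
    simp at this
    rw [this, orderOf_one] at ht
    exact absurd ht (by norm_num)
  · exact hfix _ (Subtype.ext (by
      show (g : X) * t * (g : X)⁻¹ = t
      rw [htc g, mul_inv_cancel_right]))


end Cfsg.Agent.S0514
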