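import Cfsg.Statements.S0519
import Cfsg.Agent.Lib.CoreNormalCyclic

set_option autoImplicit false
open Cfsg

namespace Cfsg.Agent.S0519

/-- Let P be a finite p-group in which every abelian normal subgroup is cyclic, but which has a non-cyclic abelian
subgroup. Then p = 2 and P is generalized quaternion, dihedral of order at least 16, or quasi-dihedral. -/
theorem result {P : Type*} [Group P] [Finite P] (p : ℕ) [Fact p.Prime]
    (hP : IsPGroup p P) (hn : ∀ A : Subgroup P, A.Normal → IsMulCommutative A → IsCyclic A)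
    (hm : ∃ B : Subgroup P, IsMulCommutative B ∧ ¬ IsCyclic B) :
    p = 2 ∧ ((∃ n : ℕ, Nonempty (P ≃* QuaternionGroup n)) ∨ (∃ n : ℕ, 8 ≤ n ∧ Nonempty (P ≃* DihedralGroup n)) ∨
      Cfsg.IsQuasiDihedral P) := by
  have hnp : ¬ CfsgLib.NormalCyclic.HasPair P p := by
    intro h
    obtain ⟨A, hA, hAc, hAn⟩ := CfsgLib.NormalCyclic.exists_abelian_of_pair h
    exact hAn (hn A hA hAc)
  obtain ⟨B, -, hB⟩ := hm
  exact (CfsgLib.NormalCyclic.structure_of_no_pair hP hnp).resolve_left fun hc => hB (by
    haveI := hc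
    infer_instance)

end Cfsg.Agent.S0519
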