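import Cfsg.Statements.S0521
import Cfsg.Agent.Lib.CoreSubnormal
import Cfsg.Agent.Lib.CoreLayer
import Cfsg.Agent.Lib.CoreCoprime2
import Cfsg.Agent.Lib.CorePGroup

set_option autoImplicit false
open Cfsg

namespace Cfsg.Agent.S0521

open Subgroup
open scoped commutatorElement IsMulCommutative

universe u

section Pair

variable {H : Type u} [Group H] [Finite H] {p : ℕ} [Fact p.Prime]

private theorem fix_of_shift {c x d : H} (hcop : (orderOf c).Coprime p) (hdp : d ^ p = 1)
    (h1 : MulAut.conj c x = d * x) (h2 : MulAut.conj c d = d) : MulAut.conj c x = x := by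
  have key : ∀ n : ℕ, MulAut.conj (c ^ n) x = d ^ n * x := by
    intro n
    induction n with
    | zero => simp
    | succ n ih =>
      rw [pow_succ', map_mul, MulAut.mul_apply, ih, map_mul, map_pow, h2, h1, pow_succ]
      group
  have h := key (orderOf c)
  rw [pow_orderOf_eq_one, map_one, MulAut.one_apply, eq_comm, mul_eq_right] at h
  have hd : d = 1 := orderOf_eq_one_iff.mp
    (Nat.eq_one_of_dvd_coprimes hcop (orderOf_dvd_of_pow_eq_one h) (orderOf_dvd_of_pow_eq_one hdp))
  rw [h1, hd, one_mul]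

private theorem chain_pgroup (W : Subgroup H) [W.Normal] (hWc : ∀ x ∈ W, ∀ y ∈ W, x * y = y * x)
    (hWp : ∀ x ∈ W, x ^ p = 1) (hC : centralizer (W : Set H) ≤ W) {a b v w : H}
    (hv : v ∈ W) (hw : w ∈ W) (hav : MulAut.conj a v = v) (hbv : MulAut.conj b v = v)
    (haw : MulAut.conj a w * w⁻¹ ∈ zpowers v) (hbw : MulAut.conj b w * w⁻¹ ∈ zpowers v)
    (ha : ∀ x ∈ W, MulAut.conj a x * x⁻¹ ∈ closure ({v, w} : Set H))
    (hb : ∀ x ∈ W, MulAut.conj b x * x⁻¹ ∈ closure ({v, w} : Set H)) :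
    IsPGroup p (closure ({a, b} : Set H)) := by
  set D := closure ({v, w} : Set H) with hD
  have hDW : D ≤ W := (closure_le _).mpr (by rintro _ (rfl | rfl) <;> assumption)
  let P : H → Prop := fun k => MulAut.conj k v = v ∧ MulAut.conj k w * w⁻¹ ∈ zpowers v ∧
    ∀ x ∈ W, MulAut.conj k x * x⁻¹ ∈ D
  have hvD : v ∈ D := subset_closure (Or.inl rfl)
  have hwD : w ∈ D := subset_closure (Or.inr rfl)
  have hP : ∀ k ∈ closure ({a, b} : Set H), P k := by
    intro k hk
    rw [← Subgroup.mem_toSubmonoid, Subgroup.closure_toSubmonoid_of_finite] at hk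
    induction hk using Submonoid.closure_induction with
    | mem z hz =>
      rcases hz with hz | hz <;> rw [hz]
      · exact ⟨hav, haw, ha⟩
      · exact ⟨hbv, hbw, hb⟩
    | one => exact ⟨by simp, by simp [one_mem], fun x _ => by simp [one_mem]⟩
    | mul k l _ _ hk hl =>
      have hkD : D ≤ D.comap (MulAut.conj k).toMonoidHom := by
        refine (closure_le _).mpr ?_
        rintro _ (rfl | rfl)
        · show MulAut.conj k _ ∈ D
          rw [hk.1]; exact hvD
        · show MulAut.conj k _ ∈ D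
          have := mul_mem (zpowers_le.mpr hvD hk.2.1) hwD
          rwa [inv_mul_cancel_right] at this
      refine ⟨by rw [map_mul, MulAut.mul_apply, hl.1, hk.1], ?_, fun x hx => ?_⟩
      · obtain ⟨i, hi⟩ := mem_zpowers_iff.mp hl.2.1
        have e : MulAut.conj l w = v ^ i * w := by rw [hi, inv_mul_cancel_right]
        rw [map_mul, MulAut.mul_apply, e, map_mul, map_zpow, hk.1, mul_assoc]
        exact mul_mem (zpow_mem (mem_zpowers v) i) hk.2.1
      · have h3 : MulAut.conj k (MulAut.conj l x * x⁻¹) ∈ D := hkD (hl.2.2 x hx)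
        have h4 := mul_mem h3 (hk.2.2 x hx)
        rw [map_mul, MulAut.mul_apply]
        rwa [map_mul, map_inv, ← mul_assoc, inv_mul_cancel_right] at h4
  intro k
  obtain ⟨i, m, hm, he⟩ := Nat.exists_eq_pow_mul_and_not_dvd (orderOf_pos (k : H)).ne' p
    (Fact.out : p.Prime).ne_one
  refine ⟨i, Subtype.ext ?_⟩
  push_cast
  set c := (k : H) ^ p ^ i with hc
  have hcop : (orderOf c).Coprime p := by
    rw [hc, orderOf_pow' _ (pow_ne_zero _ (Fact.out : p.Prime).ne_zero), he,
      Nat.gcd_eq_right (dvd_mul_right _ _), Nat.mul_div_cancel_left _ (pow_pos (Fact.out : p.Prime).pos i)]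
    exact ((Nat.Prime.coprime_iff_not_dvd Fact.out).mpr hm).symm
  obtain ⟨c1, c2, c3⟩ := hP c (pow_mem k.2 _)
  obtain ⟨j, hj⟩ := mem_zpowers_iff.mp c2
  have cw : MulAut.conj c w = w := fix_of_shift hcop (hWp _ (zpow_mem hv j))
    (by rw [hj, inv_mul_cancel_right]) (by rw [map_zpow, c1])
  have hcD : D ≤ centralizer ({c} : Set H) := by
    refine (closure_le _).mpr ?_
    rintro y hy
    rw [SetLike.mem_coe, mem_centralizer_singleton_iff]
    have : MulAut.conj c y = y := by rcases hy with hy | hy <;> rw [hy]; exacts [c1, cw]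
    rw [MulAut.conj_apply, mul_inv_eq_iff_eq_mul] at this
    exact this.symm
  have hcW : c ∈ W := hC (mem_centralizer_iff.mpr fun x hx => by
    have hd := c3 x hx
    have h5 := fix_of_shift (c := c) (x := x) hcop (hWp _ (hDW hd)) (inv_mul_cancel_right _ _).symm (by
      rw [MulAut.conj_apply, mul_inv_eq_iff_eq_mul]
      exact (mem_centralizer_singleton_iff.mp (hcD hd)).symm)
    rw [MulAut.conj_apply, mul_inv_eq_iff_eq_mul] at h5
    exact h5.symm)
  exact orderOf_eq_one_iff.mp (Nat.eq_one_of_dvd_coprimes hcop dvd_rfl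
    (orderOf_dvd_of_pow_eq_one (hWp c hcW)))

private theorem pair_pgroup (hp2 : p ≠ 2) (hodd : Odd (Nat.card H)) (W : Subgroup H) [W.Normal]
    (hWc : ∀ x ∈ W, ∀ y ∈ W, x * y = y * x) (hWp : ∀ x ∈ W, x ^ p = 1)
    (hC : centralizer (W : Set H) ≤ W) {a v : H} (hv : v ∈ W) (hav : MulAut.conj a v = v)
    (ha : ∀ x ∈ W, MulAut.conj a x * x⁻¹ ∈ zpowers v) (g : H) :
    IsPGroup p (closure ({a, g * a * g⁻¹} : Set H)) := by
  set b := g * a * g⁻¹ with hb
  set w := g * v * g⁻¹ with hw
  have hwW : w ∈ W := Subgroup.Normal.conj_mem inferInstance v hv g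
  have hbw : MulAut.conj b w = w := by
    have : a * v * a⁻¹ = v := hav
    show g * a * g⁻¹ * (g * v * g⁻¹) * (g * a * g⁻¹)⁻¹ = g * v * g⁻¹
    calc g * a * g⁻¹ * (g * v * g⁻¹) * (g * a * g⁻¹)⁻¹ = g * (a * v * a⁻¹) * g⁻¹ := by group
      _ = _ := by rw [this]
  have hb' : ∀ x ∈ W, MulAut.conj b x * x⁻¹ ∈ zpowers w := by
    intro x hx
    obtain ⟨i, hi⟩ := mem_zpowers_iff.mp (ha (g⁻¹ * x * g) (by
      simpa using Subgroup.Normal.conj_mem inferInstance x hx g⁻¹))
    refine mem_zpowers_iff.mpr ⟨i, ?_⟩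
    rw [hw, conj_zpow, hi, MulAut.conj_apply, MulAut.conj_apply, hb]
    group
  clear_value b w
  have hvcl : zpowers v ≤ closure ({v, w} : Set H) := zpowers_le.mpr (subset_closure (Or.inl rfl))
  have hwcl : zpowers w ≤ closure ({v, w} : Set H) := zpowers_le.mpr (subset_closure (Or.inr rfl))
  by_cases hbv : MulAut.conj b v = v
  · exact chain_pgroup W hWc hWp hC hv hwW hav hbv (ha w hwW) (by rw [hbw, mul_inv_cancel]; exact one_mem _)
      (fun x hx => hvcl (ha x hx)) (fun x hx => hwcl (hb' x hx))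
  by_cases haw : MulAut.conj a w = w
  · exact chain_pgroup W hWc hWp hC (v := w) (w := v) hwW hv haw hbw
      (by rw [hav, mul_inv_cancel]; exact one_mem _) (hb' v hv)
      (fun x hx => by rw [Set.pair_comm]; exact hvcl (ha x hx))
      (fun x hx => by rw [Set.pair_comm]; exact hwcl (hb' x hx))
  exfalso
  obtain ⟨s, hs⟩ := mem_zpowers_iff.mp (hb' v hv)
  obtain ⟨t, ht⟩ := mem_zpowers_iff.mp (ha w hwW)
  have hzero : ∀ {y : H}, y ∈ W → ∀ z : ℤ, ((z : ZMod p) = 0) → y ^ z = 1 := by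
    intro y hy z hz
    obtain ⟨c, rfl⟩ := (ZMod.intCast_zmod_eq_zero_iff_dvd z p).mp hz
    rw [zpow_mul, zpow_natCast, hWp y hy, one_zpow]
  have hs0 : (s : ZMod p) ≠ 0 := fun h => hbv (by
    rw [hzero hwW s h, eq_comm, mul_inv_eq_one] at hs; exact hs)
  have ht0 : (t : ZMod p) ≠ 0 := fun h => haw (by
    rw [hzero hv t h, eq_comm, mul_inv_eq_one] at ht; exact ht)
  set k := (-((s : ZMod p) * t)⁻¹ : ZMod p).val with hk
  have hk1 : (((k * s * t + 1 : ℤ)) : ZMod p) = 0 := by
    push_cast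
    rw [hk, ZMod.natCast_zmod_val]
    field_simp
    ring
  have cvw : Commute v w := hWc v hv w hwW
  have eb : MulAut.conj b v = w ^ s * v := by rw [hs, inv_mul_cancel_right]
  have ea : MulAut.conj a w = v ^ t * w := by rw [ht, inv_mul_cancel_right]
  have ebk : ∀ n : ℕ, MulAut.conj (b ^ n) v = w ^ ((n : ℤ) * s) * v ∧ MulAut.conj (b ^ n) w = w := by
    intro n
    induction n with
    | zero => simp
    | succ n ih =>
      constructor
      · rw [pow_succ', map_mul, MulAut.mul_apply, ih.1, map_mul, map_zpow, hbw, eb, ← mul_assoc,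
          ← zpow_add, Nat.cast_succ]
        congr 2; ring
      · rw [pow_succ', map_mul, MulAut.mul_apply, ih.2, hbw]
  set c := a * b ^ k * a with hc
  clear_value c
  have hcomm : ∀ i j : ℤ, w ^ i * v ^ j = v ^ j * w ^ i := fun i j => ((cvw.symm.zpow_zpow i j)).eq
  have hvi : v ^ ((k : ℤ) * s * t) = v⁻¹ := by
    rw [eq_inv_iff_mul_eq_one, ← zpow_add_one]; exact hzero hv _ hk1
  have hwi : w ^ ((k : ℤ) * s * t) = w⁻¹ := by
    rw [eq_inv_iff_mul_eq_one, ← zpow_add_one]; exact hzero hwW _ hk1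
  have ecv : MulAut.conj c v = w ^ ((k : ℤ) * s) := by
    rw [hc, map_mul, map_mul, MulAut.mul_apply, MulAut.mul_apply, hav, (ebk k).1, map_mul, map_zpow, ea,
      hav, ((cvw.zpow_left t)).mul_zpow, ← zpow_mul, show t * ((k : ℤ) * s) = k * s * t by ring, hvi]
    rw [mul_assoc, ← zpow_one v, hcomm, ← mul_assoc, zpow_one, inv_mul_cancel, one_mul]
  have ecw : MulAut.conj c w = v ^ t := by
    rw [hc, map_mul, map_mul, MulAut.mul_apply, MulAut.mul_apply, ea, map_mul, map_zpow, (ebk k).1,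
      (ebk k).2, (cvw.symm.zpow_left _).mul_zpow, ← zpow_mul, hwi, map_mul, map_mul, map_inv, ea,
      map_zpow, hav, mul_inv_rev, ← zpow_one w, ← zpow_neg, ← zpow_neg, zpow_one]
    rw [show w ^ (-1 : ℤ) * v ^ (-t) * v ^ t = w ^ (-1 : ℤ) by rw [mul_assoc, ← zpow_add]; simp,
      ← mul_assoc, ← zpow_one w, ← zpow_mul, hcomm, mul_assoc, ← zpow_add]
    simp
  set d := c * c with hd
  have edv : MulAut.conj d v = v⁻¹ := by
    rw [hd, map_mul, MulAut.mul_apply, ecv, map_zpow, ecw, ← zpow_mul,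
      show t * ((k : ℤ) * s) = k * s * t by ring, hvi]
  clear_value d
  obtain ⟨m, hm⟩ : Odd (orderOf d) := hodd.of_dvd_nat (orderOf_dvd_natCard d)
  have hit : ∀ i : ℕ, MulAut.conj (d ^ (2 * i + 1)) v = v⁻¹ := by
    intro i
    induction i with
    | zero => simpa using edv
    | succ i ih =>
      rw [show 2 * (i + 1) + 1 = (2 * i + 1) + 1 + 1 by ring, pow_succ', pow_succ', map_mul, map_mul,
        MulAut.mul_apply, MulAut.mul_apply, ih, map_inv, edv, inv_inv, edv]
  have h2 := hit m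
  rw [← hm, pow_orderOf_eq_one, map_one, MulAut.one_apply] at h2
  have hv2 : v ^ 2 = 1 := by rw [pow_two]; exact eq_inv_iff_mul_eq_one.mp h2
  have hv1 : v = 1 := orderOf_eq_one_iff.mp (Nat.eq_one_of_dvd_coprimes
    ((Nat.coprime_primes Nat.prime_two Fact.out).mpr (Ne.symm hp2))
    (orderOf_dvd_of_pow_eq_one hv2) (orderOf_dvd_of_pow_eq_one (hWp v hv)))
  exact hbv (by rw [hv1, map_one])

end Pair

private theorem main {G : Type u} [Group G] [Finite G] [Group.IsSolvable G] {p : ℕ} [Fact p.Prime]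
    (hp2 : p ≠ 2) (hodd : Odd (Nat.card G)) (hcore : Cfsg.pPrimeCore p G = ⊥) (S : Sylow p G)
    (D : Subgroup G) (hDc : IsCyclic D) (hD : ∀ x ∈ (S : Subgroup G), ∀ y ∈ (S : Subgroup G), ⁅x, y⁆ ∈ D) :
    (S : Subgroup G) = Cfsg.pCore p G := by
  haveI hPn := CfsgLib.Core.normal_pCore (G := G) p
  set P := Cfsg.pCore p G with hPdef
  have hPp : IsPGroup p P := CfsgLib.Core.isPGroup_pCore p
  have hPS : P ≤ (S : Subgroup G) := CfsgLib.Core.pCore_le_sylow S
  set F := (frattini P).map P.subtype with hF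
  haveI hFn : F.Normal := by rw [hF]; infer_instance
  have hFP : F ≤ P := map_subtype_le _
  set π := QuotientGroup.mk' F with hπ
  have hπs : Function.Surjective π := QuotientGroup.mk'_surjective F
  set W := P.map π with hW
  haveI hWn : W.Normal := hPn.map π hπs
  have hWc : ∀ x ∈ W, ∀ y ∈ W, x * y = y * x := by
    rintro _ ⟨x, hx, rfl⟩ _ ⟨y, hy, rfl⟩
    rw [← commutatorElement_eq_one_iff_mul_comm, ← map_commutatorElement]
    refine (QuotientGroup.eq_one_iff _).mpr ⟨⁅(⟨x, hx⟩ : P), ⟨y, hy⟩⁆, ?_, rfl⟩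
    exact CfsgLib.Core.pgroup_commutator_le_frattini hPp (commutator_mem_commutator (mem_top _) (mem_top _))
  have hWp : ∀ x ∈ W, x ^ p = 1 := by
    rintro _ ⟨x, hx, rfl⟩
    rw [← map_pow]
    exact (QuotientGroup.eq_one_iff _).mpr ⟨(⟨x, hx⟩ : P) ^ p,
      CfsgLib.Core.pgroup_pow_mem_frattini hPp _, rfl⟩
  have hcomapW : W.comap π = P := by
    rw [hW, comap_map_eq, hπ, QuotientGroup.ker_mk', sup_eq_left.mpr hFP]
  have hC : centralizer (W : Set (G ⧸ F)) ≤ W := by
    have hCn : (centralizer (W : Set (G ⧸ F))).Normal := inferInstance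
    suffices h : (centralizer (W : Set (G ⧸ F))).comap π ≤ P by
      intro z hz
      obtain ⟨y, rfl⟩ := hπs z
      exact ⟨y, h hz, rfl⟩
    refine CfsgLib.Core.le_pCore (hCn.comap π) fun y => ?_
    obtain ⟨i, m, hm, he⟩ := Nat.exists_eq_pow_mul_and_not_dvd (orderOf_pos (y : G)).ne' p
      (Fact.out : p.Prime).ne_one
    refine ⟨i, Subtype.ext ?_⟩
    push_cast
    set c := (y : G) ^ p ^ i with hc
    have hcop : (orderOf c).Coprime p := by
      rw [hc, orderOf_pow' _ (pow_ne_zero _ (Fact.out : p.Prime).ne_zero), he,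
        Nat.gcd_eq_right (dvd_mul_right _ _), Nat.mul_div_cancel_left _ (pow_pos (Fact.out : p.Prime).pos i)]
      exact ((Nat.Prime.coprime_iff_not_dvd Fact.out).mpr hm).symm
    have hcC : π c ∈ centralizer (W : Set (G ⧸ F)) := by
      rw [hc, map_pow]; exact pow_mem y.2 _
    have hAK : zpowers c ≤ normalizer (P : Set G) := by rw [normalizer_eq_top]; exact le_top
    have h1 : zpowers c ≤ centralizer (P : Set G) := by
      refine CfsgLib.Core.le_centralizer_of_trivial_mod_frattini hAK ?_ fun a ha x hx => ?_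
      · obtain ⟨e, he'⟩ := IsPGroup.iff_card.mp (hPp.to_subgroup (frattini P))
        rw [Nat.card_zpowers, he']
        exact hcop.pow_right e
      · refine (QuotientGroup.eq_one_iff _).mp ?_
        show π (a * x * a⁻¹ * x⁻¹) = 1
        have haC : π a ∈ centralizer (W : Set (G ⧸ F)) :=
          (zpowers_le.mpr hcC : zpowers (π c) ≤ _) (by
            rw [← MonoidHom.map_zpowers]; exact mem_map_of_mem π ha)
        simp only [map_mul, map_inv]
        rw [← mem_centralizer_iff.mp haC (π x) ⟨x, hx, rfl⟩]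
        group
    have hcP : c ∈ P := CfsgLib.Core.centralizer_pCore_le hcore (h1 (mem_zpowers c))
    obtain ⟨e, he'⟩ := hPp ⟨c, hcP⟩
    exact orderOf_eq_one_iff.mp (Nat.eq_one_of_dvd_coprimes (hcop.pow_right e) dvd_rfl
      (orderOf_dvd_of_pow_eq_one (congrArg Subtype.val he')))
  haveI : IsCyclic (D.map π) :=
    isCyclic_of_surjective (π.subgroupMap D) (π.subgroupMap_surjective D)
  haveI : IsCyclic ↥(W ⊓ D.map π) := Subgroup.isCyclic_of_le inf_le_right
  obtain ⟨v, hv⟩ := IsCyclic.exists_generator (α := ↥(W ⊓ D.map π))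
  have hsh : ∀ s ∈ (S : Subgroup G), ∀ x ∈ W, MulAut.conj (π s) x * x⁻¹ ∈ zpowers (v : G ⧸ F) := by
    intro s hs x hx
    obtain ⟨x₀, hx₀, rfl⟩ := hx
    have hy : MulAut.conj (π s) (π x₀) * (π x₀)⁻¹ ∈ W ⊓ D.map π := by
      refine ⟨W.mul_mem (show MulAut.conj (π s) (π x₀) ∈ W from hWn.conj_mem _ (mem_map_of_mem π hx₀) (π s))
        (W.inv_mem (mem_map_of_mem π hx₀)), ⁅s, x₀⁆,
        hD s hs x₀ (hPS hx₀), ?_⟩
      rw [commutatorElement_def, map_mul, map_mul, map_mul, map_inv, map_inv]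
      rfl
    obtain ⟨i, hi⟩ := mem_zpowers_iff.mp (hv ⟨_, hy⟩)
    exact mem_zpowers_iff.mpr ⟨i, by simpa using congrArg Subtype.val hi⟩
  have hfixv : ∀ s ∈ (S : Subgroup G), MulAut.conj (π s) (v : G ⧸ F) = v := by
    intro s hs
    obtain ⟨i, hi⟩ := mem_zpowers_iff.mp (hsh s hs v v.2.1)
    have e1 : MulAut.conj (π s) (v : G ⧸ F) = (v : G ⧸ F) ^ (i + 1) := by
      rw [zpow_add_one, hi, inv_mul_cancel_right]
    have key : ∀ n : ℕ, MulAut.conj (π s ^ n) (v : G ⧸ F) = (v : G ⧸ F) ^ ((i + 1) ^ n) := by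
      intro n
      induction n with
      | zero => simp
      | succ n ih =>
        rw [pow_succ', map_mul, MulAut.mul_apply, ih, map_zpow, e1, ← zpow_mul, ← pow_succ']
    obtain ⟨e, he⟩ := S.isPGroup' ⟨s, hs⟩
    have he' : π s ^ p ^ e = 1 := by
      rw [← map_pow, show s ^ p ^ e = 1 from congrArg Subtype.val he, map_one]
    have h := key (p ^ e)
    rw [he', map_one, MulAut.one_apply] at h
    rcases eq_or_ne (v : G ⧸ F) 1 with h1 | h1
    · rw [h1, map_one]
    have hord : orderOf (v : G ⧸ F) = p := orderOf_eq_prime (hWp _ v.2.1) h1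
    have h2 : (((i + 1) ^ p ^ e : ℤ) : ZMod p) = ((1 : ℤ) : ZMod p) := by
      rw [ZMod.intCast_eq_intCast_iff]
      have h9 := zpow_eq_zpow_iff_modEq.mp (h.symm.trans (zpow_one _).symm)
      rw [hord] at h9
      exact h9
    push_cast at h2
    rw [ZMod.pow_card_pow] at h2
    rw [e1, zpow_add_one]
    obtain ⟨c, hc⟩ := (ZMod.intCast_zmod_eq_zero_iff_dvd i p).mp (by linear_combination h2)
    rw [hc, zpow_mul, zpow_natCast, hWp _ v.2.1, one_zpow, one_mul]
  refine le_antisymm ?_ hPS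
  intro s hs
  rw [← hcomapW, mem_comap]
  have hoddH : Odd (Nat.card (G ⧸ F)) := hodd.of_dvd_nat (Subgroup.card_quotient_dvd_card F)
  have hmem := CfsgLib.Core.baer_suzuki (p := p) (x := π s)
    (pair_pgroup hp2 hoddH W hWc hWp hC v.2.1 (hfixv s hs) (hsh s hs))
  haveI := CfsgLib.Core.normal_pCore (G := G ⧸ F) p
  have hcP : (Cfsg.pCore p (G ⧸ F)).comap π ≤ P := by
    refine CfsgLib.Core.le_pCore (Normal.comap inferInstance π)
      (IsPGroup.comap_of_ker_isPGroup (CfsgLib.Core.isPGroup_pCore p) π ?_)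
    rw [hπ, QuotientGroup.ker_mk']
    exact hPp.to_le hFP
  exact ⟨s, hcP hmem, rfl⟩


/-- Let X be a finite solvable group of odd order, p a prime and S a Sylow p-subgroup of X whose commutator subgroup is
cyclic. Then the product of the largest normal subgroup of X of order prime to p with S is a normal subgroup of X. -/
theorem result {X : Type*} [Group X] [Finite X] [Group.IsSolvable X]
    (hX : Odd (Nat.card X)) (p : ℕ) [Fact p.Prime] (S : Sylow p X) (hS : IsCyclic (commutator (S : Subgroup X))) :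
    (Cfsg.pPrimeCore p X ⊔ (S : Subgroup X)).Normal := by
  haveI hMn := CfsgLib.Core.normal_pPrimeCore (G := X) p
  set π := QuotientGroup.mk' (Cfsg.pPrimeCore p X) with hπ
  have hπs : Function.Surjective π := QuotientGroup.mk'_surjective _
  set T := S.mapSurjective hπs with hT
  have hTe : (T : Subgroup (X ⧸ Cfsg.pPrimeCore p X)) = (S : Subgroup X).map π := Sylow.coe_mapSurjective hπs S
  have hnor : ((S : Subgroup X).map π).Normal := by
    by_cases hp2 : p = 2
    · subst hp2
      have hb : (S : Subgroup X) = ⊥ := by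
        rw [← Subgroup.card_eq_one]
        obtain ⟨k, hk⟩ := IsPGroup.iff_card.mp S.isPGroup'
        rcases Nat.eq_zero_or_pos k with h | h
        · rw [hk, h, pow_zero]
        · have h2 : 2 ∣ Nat.card X := (dvd_pow_self 2 h.ne').trans (hk ▸ Subgroup.card_subgroup_dvd_card _)
          exact absurd (even_iff_two_dvd.mpr h2) (Nat.not_even_iff_odd.mpr hX)
      rw [hb, Subgroup.map_bot]; infer_instance
    · have hodd' : Odd (Nat.card (X ⧸ Cfsg.pPrimeCore p X)) := hX.of_dvd_nat (Subgroup.card_quotient_dvd_card _)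
      haveI : IsCyclic ↥((_root_.commutator ↥(S : Subgroup X)).map (π.comp (S : Subgroup X).subtype)) :=
        isCyclic_of_surjective _ ((π.comp (S : Subgroup X).subtype).subgroupMap_surjective _)
      have h := main hp2 hodd' (CfsgLib.Core.pPrimeCore_quotient_pPrimeCore p) T
        ((_root_.commutator ↥(S : Subgroup X)).map (π.comp (S : Subgroup X).subtype)) inferInstance (by
          rw [hTe]
          rintro _ ⟨a, ha, rfl⟩ _ ⟨b, hb, rfl⟩
          refine ⟨⁅(⟨a, ha⟩ : (S : Subgroup X)), ⟨b, hb⟩⁆,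
            Subgroup.commutator_mem_commutator (Subgroup.mem_top _) (Subgroup.mem_top _), ?_⟩
          rw [map_commutatorElement]; rfl)
      rw [← hTe, h]
      exact CfsgLib.Core.normal_pCore p
  have e : Cfsg.pPrimeCore p X ⊔ (S : Subgroup X) = ((S : Subgroup X).map π).comap π := by
    rw [Subgroup.comap_map_eq, hπ, QuotientGroup.ker_mk', sup_comm]
  rw [e]
  exact hnor.comap π

end Cfsg.Agent.S0521
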