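import Cfsg.Statements.S0522
import Cfsg.Agent.Lib.LocalClassTwo
import Cfsg.Agent.Lib.FgsTransitivity

set_option autoImplicit false
open Cfsg

namespace Cfsg.Agent.S0522

/-- Transitivity Theorem (odd-order setting). Let X be a finite group of odd order in which the normalizer of every
nontrivial p-subgroup is solvable, P a Sylow p-subgroup, and B an abelian subgroup of P, normalized by P, with
C_P(B) = B and containing an elementary abelian subgroup of order p^3. Then for every prime q ≠ p, any two q-subgroups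
that are maximal among the q-subgroups normalized by B are conjugate by an element of the centralizer of B. -/
theorem result {X : Type*} [Group X] [Finite X] (hX : Odd (Nat.card X)) (p : ℕ)
    [Fact p.Prime] (hloc : ∀ T : Subgroup X, IsPGroup p T → T ≠ ⊥ → Group.IsSolvable (Subgroup.normalizer (T : Set X)))
    (P : Sylow p X) (B : Subgroup X) (hBP : B ≤ (P : Subgroup X))
    (hBn : ∀ x ∈ (P : Subgroup X), ∀ b ∈ B, x * b * x⁻¹ ∈ B) (hBa : IsMulCommutative B)
    (hBc : (P : Subgroup X) ⊓ Subgroup.centralizer (B : Set X) = B)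
    (hB3 : ∃ E : Subgroup X, E ≤ B ∧ (∀ e ∈ E, e ^ p = 1) ∧ p ^ 3 ≤ Nat.card E)
    (q : ℕ) [Fact q.Prime] (hqp : q ≠ p) (Q₁ Q₂ : Subgroup X)
    (h₁ : IsPGroup q Q₁ ∧ B ≤ Subgroup.normalizer (Q₁ : Set X) ∧
      ∀ R : Subgroup X, IsPGroup q R → B ≤ Subgroup.normalizer (R : Set X) → Q₁ ≤ R → R = Q₁)
    (h₂ : IsPGroup q Q₂ ∧ B ≤ Subgroup.normalizer (Q₂ : Set X) ∧
      ∀ R : Subgroup X, IsPGroup q R → B ≤ Subgroup.normalizer (R : Set X) → Q₂ ≤ R → R = Q₂) :
    ∃ c ∈ Subgroup.centralizer (B : Set X), Q₂ = Q₁.map (MulAut.conj c).toMonoidHom := by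
  classical
  obtain ⟨E, hEB, hEe, hE3⟩ := hB3
  have hp : p.Prime := Fact.out
  have hp2 : p ≠ 2 := by
    intro e
    obtain ⟨x, hx⟩ : ∃ x ∈ E, x ≠ 1 := by
      by_contra! h
      rw [(Subgroup.eq_bot_iff_forall E).mpr h, Subgroup.card_bot] at hE3
      exact absurd hE3 (not_le.mpr (Nat.one_lt_pow (by norm_num) hp.one_lt))
    have h2 : orderOf x = 2 := e ▸ orderOf_eq_prime (hEe x hx.1) hx.2
    have := orderOf_dvd_natCard (x := x) (G := X)
    rw [h2] at this
    exact Nat.not_even_iff_odd.mpr hX (even_iff_two_dvd.mpr this)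
  have hBp : IsPGroup p B := P.isPGroup'.to_le hBP
  have hfull : ∀ x ∈ Subgroup.centralizer (B : Set X), IsPGroup p (Subgroup.zpowers x) → x ∈ B := by
    intro x hx hxp
    set N := Subgroup.normalizer (B : Set X) with hN
    have hPN : (P : Subgroup X) ≤ N := fun y hy => by
      rw [hN, Subgroup.mem_normalizer_iff]
      intro z
      refine ⟨hBn y hy z, fun hz => ?_⟩
      have := hBn y⁻¹ (inv_mem hy) _ hz
      simpa [mul_assoc] using this
    have hxN : x ∈ N := Subgroup.centralizer_le_normalizer _ hx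
    have hxp' : IsPGroup p (Subgroup.zpowers (⟨x, hxN⟩ : N)) := by
      intro a
      obtain ⟨i, hi⟩ := Subgroup.mem_zpowers_iff.mp a.2
      obtain ⟨k, hk⟩ := hxp ⟨((a : N) : X), i, by rw [← hi]; rfl⟩
      exact ⟨k, Subtype.ext (Subtype.ext (by simpa using congrArg Subtype.val hk))⟩
    obtain ⟨R, hR⟩ := hxp'.exists_le_sylow
    obtain ⟨c, hc⟩ := MulAction.exists_smul_eq N R (P.subtype hPN)
    have h1 : (c : X) * x * (c : X)⁻¹ ∈ (P : Subgroup X) := by
      have h2 : c * ⟨x, hxN⟩ * c⁻¹ ∈ (P.subtype hPN : Subgroup N) := by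
        rw [← hc, Sylow.smul_def]
        exact ⟨⟨x, hxN⟩, hR (Subgroup.mem_zpowers _), rfl⟩
      exact h2
    have h3 : (c : X) * x * (c : X)⁻¹ ∈ B := by
      rw [← hBc]
      refine ⟨h1, Subgroup.mem_centralizer_iff.mpr fun b hb => ?_⟩
      have hb' : (c : X)⁻¹ * b * c ∈ B := by
        simpa using (Subgroup.mem_normalizer_iff.mp (inv_mem c.2) b).mp hb
      have e := Subgroup.mem_centralizer_iff.mp hx _ hb'
      calc b * ((c : X) * x * (c : X)⁻¹) = c * (((c : X)⁻¹ * b * c) * x) * (c : X)⁻¹ := by group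
        _ = c * (x * ((c : X)⁻¹ * b * c)) * (c : X)⁻¹ := by rw [e]
        _ = _ := by group
    exact (Subgroup.mem_normalizer_iff.mp c.2 x).mpr h3
  have hrank : ¬ Cfsg.PRankLE p 2 B := by
    intro h
    haveI := hBa
    have h1 := h (E.subgroupOf B) inferInstance (fun a ha => Subtype.ext (by simpa using hEe _ ha))
    rw [Nat.card_congr (Subgroup.subgroupOfEquivOfLe hEB).toEquiv] at h1
    exact absurd (hE3.trans h1) (not_le.mpr (Nat.pow_lt_pow_right hp.one_lt (by norm_num)))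
  have hmem : ∀ Q : Subgroup X, (IsPGroup q Q ∧ B ≤ Subgroup.normalizer (Q : Set X) ∧
      ∀ R : Subgroup X, IsPGroup q R → B ≤ Subgroup.normalizer (R : Set X) → Q ≤ R → R = Q) →
      Q ∈ Cfsg.maxInvSubgroups ⊤ B {q} := by
    rintro Q ⟨hQ, hBQ, hmax⟩
    refine ⟨⟨le_top, fun r hr hd => ?_, hBQ⟩, fun R hR hQR =>
      hmax R (CfsgLib.Transitivity.isPGroup_of_primes hR.2.1) hR.2.2 hQR⟩
    obtain ⟨k, hk⟩ := IsPGroup.iff_card.mp hQ
    rw [hk] at hd
    exact (Nat.prime_dvd_prime_iff_eq hr Fact.out).mp (hr.dvd_of_dvd_pow hd)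
  obtain ⟨k, hk, he⟩ := CfsgLib.Transitivity.transitivity
    (fun T hT hT1 => by
      haveI := hloc T hT hT1
      exact CfsgLib.Local.ClassTwo.isPConstrained_of_solvable p)
    (fun e => absurd e hp2) B hBp hBa hrank hfull q hqp Q₁ (hmem _ h₁) Q₂ (hmem _ h₂)
  obtain ⟨k', -, rfl⟩ := hk
  exact ⟨_, k'.2, he⟩

end Cfsg.Agent.S0522
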