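import Cfsg.Statements.S0532
import Cfsg.Agent.Lib.CoreBasic
import Mathlib.GroupTheory.IndexNormal

set_option autoImplicit false
open Cfsg

namespace Cfsg.Agent.S0532

theorem hasSubgroupOfEveryOrder_congr {A B : Type*} [Group A] [Group B] (e : A ≃* B)
    (h : Cfsg.HasSubgroupOfEveryOrder B) : Cfsg.HasSubgroupOfEveryOrder A := fun d hd => by
  obtain ⟨H, hH⟩ := h d (Nat.card_congr e.toEquiv ▸ hd)
  exact ⟨H.map e.symm.toMonoidHom, by rw [Subgroup.card_map_of_injective e.symm.injective, hH]⟩

/-- If each subgroup of a finite group satisfies the converse of Lagrange's theorem, then a Sylow subgroup for the largest prime dividing the group order is normal. -/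
theorem result {G : Type*} [Group G] [Finite G] (h : ∀ H : Subgroup G, Cfsg.HasSubgroupOfEveryOrder H) (p : ℕ) [Fact p.Prime] (hdvd : p ∣ Nat.card G) (hmax : ∀ q : ℕ, q.Prime → q ∣ Nat.card G → q ≤ p) (P : Sylow p G) : (P : Subgroup G).Normal := by
  suffices key : ∀ (n : ℕ) (G : Type u_1) [Group G] [Finite G], Nat.card G = n →
      (∀ H : Subgroup G, Cfsg.HasSubgroupOfEveryOrder H) → (∀ q : ℕ, q.Prime → q ∣ Nat.card G → q ≤ p) →
      ∀ P : Sylow p G, (P : Subgroup G).Normal from key _ G rfl h hmax P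
  clear hdvd hmax h P
  intro n
  induction n using Nat.strong_induction_on with
  | _ n ih =>
  intro G _ _ hn h hmax P
  subst hn
  have hp := (Fact.out : p.Prime)
  rcases eq_or_ne (Nat.card G) 1 with h1 | h1
  · haveI : Subsingleton G := (Nat.card_eq_one_iff_unique.1 h1).1
    exact ⟨fun x hx g => by rwa [Subsingleton.elim (g * x * g⁻¹) x]⟩
  set q := (Nat.card G).minFac with hqdef
  have hq : q.Prime := Nat.minFac_prime h1
  have hqd : q ∣ Nat.card G := Nat.minFac_dvd _
  by_cases hqp : q = p
  · have htop : (P : Subgroup G) = ⊤ := by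
      rw [← Subgroup.index_eq_one]
      by_contra hne
      obtain ⟨r, hr, hd⟩ := Nat.exists_prime_and_dvd hne
      have hrd : r ∣ Nat.card G := hd.trans (P : Subgroup G).index_dvd_card
      have h2 : r = p := le_antisymm (hmax r hr hrd) (hqp ▸ Nat.minFac_le_of_dvd hr.two_le hrd)
      exact P.not_dvd_index (h2 ▸ hd)
    rw [htop]; infer_instance
  obtain ⟨M₀, hM₀⟩ := h ⊤ (Nat.card G / q) (by rw [Subgroup.card_top]; exact Nat.div_dvd_of_dvd hqd)
  set M := M₀.map (⊤ : Subgroup G).subtype
  have hMc : Nat.card M = Nat.card G / q := by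
    rw [Subgroup.card_map_of_injective (⊤ : Subgroup G).subtype_injective, hM₀]
  have hMi : M.index = q := by
    have h2 := M.card_mul_index
    rw [hMc] at h2
    refine Nat.eq_of_mul_eq_mul_left ?_ (h2.trans (Nat.div_mul_cancel hqd).symm)
    exact Nat.div_pos (Nat.le_of_dvd Nat.card_pos hqd) hq.pos
  haveI hMn : M.Normal := Subgroup.normal_of_index_eq_minFac_card (hMi.trans hqdef)
  have hPM : (P : Subgroup G) ≤ M := by
    intro x hx
    rw [← QuotientGroup.eq_one_iff, ← orderOf_eq_one_iff]
    obtain ⟨k, hk⟩ := IsPGroup.iff_orderOf.1 P.2 ⟨x, hx⟩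
    rw [Subgroup.orderOf_mk] at hk
    have h2 : orderOf (QuotientGroup.mk' M x) ∣ p ^ k := hk ▸ orderOf_map_dvd _ x
    have h3 : orderOf (QuotientGroup.mk' M x) ∣ q := by
      rw [← hMi, Subgroup.index_eq_card]; exact orderOf_dvd_natCard _
    exact Nat.eq_one_of_dvd_coprimes ((Nat.coprime_primes hp hq).2 (Ne.symm hqp) |>.pow_left k) h2 h3
  have hn : ((P.subtype hPM : Sylow p M) : Subgroup M).Normal := by
    refine ih _ ?_ M rfl (fun K => hasSubgroupOfEveryOrder_congr (K.equivMapOfInjective _ M.subtype_injective) (h _))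
      (fun r hr hd => hmax r hr (hd.trans M.card_subgroup_dvd_card)) _
    rw [hMc]; exact Nat.div_lt_self Nat.card_pos hq.one_lt
  haveI := Sylow.characteristic_of_normal (P.subtype hPM) hn
  have h4 : (((P.subtype hPM : Sylow p M) : Subgroup M).map M.subtype).Normal := inferInstance
  rwa [Sylow.coe_subtype, Subgroup.map_subgroupOf_eq_of_le hPM] at h4

end Cfsg.Agent.S0532
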