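import Cfsg.Statements.S0533
import Cfsg.Agent.Lib.LocalSupersolvable
import Cfsg.Agent.Lib.CoreSupersolvable
import Cfsg.Agent.Lib.CoreSZ
import Cfsg.Agent.Lib.CorePGroup
import Cfsg.Agent.S0532

set_option autoImplicit false
set_option maxHeartbeats 400000
open Cfsg

namespace Cfsg.Agent.S0533

universe u

/-- A group with a normal `p`-subgroup `P`, supersolvable quotient, and a supersolvable subgroup of
index `p` supplementing `P` is supersolvable. -/
theorem supersolvable_of_supplement (p : ℕ) [hp : Fact p.Prime] : ∀ (n : ℕ) (G : Type u) [Group G] [Finite G],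
    Nat.card G = n → ∀ (P M : Subgroup G) [P.Normal], IsPGroup p P → Cfsg.IsSupersolvable (G ⧸ P) →
    M ⊔ P = ⊤ → M.index = p → Cfsg.IsSupersolvable M → Cfsg.IsSupersolvable G := by
  intro n
  induction n using Nat.strong_induction_on with
  | _ n ih =>
  intro G _ _ hn P M hPn hP hquot hsup hMi hM
  subst hn
  haveI := hP.isNilpotent
  set Q := M ⊓ P with hQ
  have hPQ : M.relIndex P = p := by
    have h1 : P.relIndex M = P.index := by
      rw [← Subgroup.relIndex_sup_right M P, hsup, Subgroup.relIndex_top_right]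
    have e1 : Nat.card (M ⊓ P : Subgroup G) * P.relIndex M = Nat.card M := by
      rw [← Subgroup.inf_relIndex_left, CfsgLib.Core.card_mul_relIndex inf_le_left]
    have e2 : Nat.card (M ⊓ P : Subgroup G) * M.relIndex P = Nat.card P := by
      rw [← Subgroup.inf_relIndex_right, CfsgLib.Core.card_mul_relIndex inf_le_right]
    have e3 := (M.card_mul_index).trans P.card_mul_index.symm
    rw [← hMi]
    refine Nat.eq_of_mul_eq_mul_left (Nat.mul_pos (Nat.card_pos (α := (M ⊓ P : Subgroup G)))
      (Nat.pos_of_ne_zero (Subgroup.index_ne_zero_of_finite (H := P)))) ?_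
    rw [mul_right_comm, e2, ← e3, ← e1, h1]
  rcases eq_or_ne Q ⊥ with hQ0 | hQ0
  · refine CfsgLib.Local.isSupersolvable_of_cyclic_normal ?_ hquot
    refine isCyclic_of_prime_card (p := p) ?_
    rw [← Subgroup.inf_relIndex_right, ← hQ, hQ0, Subgroup.relIndex_bot_left] at hPQ
    exact hPQ
  have hQn : Q.Normal := by
    rw [← Subgroup.normalizer_eq_top_iff, eq_top_iff, ← hsup]
    refine sup_le ?_ ?_
    · rw [CfsgLib.Core.le_normalizer_iff_forall]
      rintro m hm x ⟨hx, hxP⟩
      exact ⟨show m * x * m⁻¹ ∈ M from mul_mem (mul_mem hm hx) (inv_mem hm), hPn.conj_mem x hxP m⟩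
    · have hcop : IsCoatom (Q.subgroupOf P) := by
        have hi : (Q.subgroupOf P).index = p := by
          rw [show (Q.subgroupOf P).index = Q.relIndex P from rfl, hQ, Subgroup.inf_relIndex_right, hPQ]
        refine ⟨fun e => ?_, fun K hK => ?_⟩
        · rw [e, Subgroup.index_top] at hi; exact hp.out.ne_one hi.symm
        · have h2 := Subgroup.relIndex_mul_index hK.le
          rw [hi] at h2
          rcases hp.out.eq_one_or_self_of_dvd _ (Dvd.intro_left _ h2) with e | e
          · exact Subgroup.index_eq_one.1 e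
          · rw [e, Nat.mul_eq_right hp.out.ne_zero, Subgroup.relIndex_eq_one] at h2
            exact absurd (le_antisymm hK.le h2) hK.ne
      haveI := (CfsgLib.Core.index_of_coatom_pgroup hP hcop).1
      exact (Subgroup.normal_subgroupOf_iff_le_normalizer inf_le_right).1 inferInstance
  haveI := hQn
  obtain ⟨N, hNn, hN0, hNQ, hmin⟩ := CfsgLib.Core.exists_minimal_normal_le hQ0
  haveI := hNn
  have hNP : N ≤ P := hNQ.trans inf_le_right
  have hNM : N ≤ M := hNQ.trans inf_le_left
  -- `N` is centralized by `P`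
  have hNZ : N ≤ Subgroup.centralizer (P : Set G) := by
    have h0 : N.subgroupOf P ≠ ⊥ := fun e => hN0 (by
      rw [← Subgroup.map_subgroupOf_eq_of_le hNP, e, Subgroup.map_bot])
    obtain ⟨⟨z, hzN, hzZ⟩, hz1⟩ := Subgroup.ne_bot_iff_exists_ne_one.1
      (CfsgLib.Core.nilpotent_inf_center_ne_bot (N := N.subgroupOf P) h0)
    rcases hmin (N ⊓ Subgroup.centralizer (P : Set G)) inferInstance inf_le_left with e | e
    · exfalso
      refine hz1 (Subtype.ext (Subtype.ext (Subgroup.mem_bot.1 (e.le ⟨Subgroup.mem_subgroupOf.1 hzN, ?_⟩))))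
      exact Subgroup.mem_centralizer_iff.2 fun y hy =>
        congrArg Subtype.val (Subgroup.mem_center_iff.1 hzZ ⟨y, hy⟩)
    · exact inf_eq_left.1 e
  obtain ⟨L, hLn, hLN, hLp⟩ := CfsgLib.Core.exists_normal_prime_le hM (X := N.subgroupOf M)
    (fun e => hN0 (by rw [← Subgroup.map_subgroupOf_eq_of_le hNM, e, Subgroup.map_bot]))
  set L' := L.map M.subtype
  have hL'N : L' ≤ N := by
    rintro _ ⟨x, hx, rfl⟩
    exact Subgroup.mem_subgroupOf.1 (hLN hx)
  have hL'n : L'.Normal := by
    rw [← Subgroup.normalizer_eq_top_iff, eq_top_iff, ← hsup]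
    refine sup_le ?_ ?_
    · rw [CfsgLib.Core.le_normalizer_iff_forall]
      rintro m hm _ ⟨x, hx, rfl⟩
      exact ⟨⟨m, hm⟩ * x * ⟨m, hm⟩⁻¹, hLn.conj_mem x hx _, rfl⟩
    · refine le_trans ?_ (Subgroup.centralizer_le_normalizer _)
      rw [Subgroup.le_centralizer_iff]
      exact hL'N.trans hNZ
  haveI : IsCyclic N := by
    have hLN' : L' = N := (hmin L' hL'n hL'N).resolve_left fun e => hLp.ne_one (by
      rw [Nat.card_congr (L.equivMapOfInjective _ M.subtype_injective).toEquiv]
      show Nat.card L' = 1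
      rw [e, Subgroup.card_bot])
    haveI := CfsgLib.Core.isCyclic_of_prime_card' hLp
    rw [← hLN']
    exact (L.equivMapOfInjective _ M.subtype_injective).isCyclic.1 inferInstance
  refine CfsgLib.Local.isSupersolvable_of_cyclic_normal (N := N) inferInstance ?_
  set π := QuotientGroup.mk' N
  have hs := QuotientGroup.mk'_surjective N
  haveI : (P.map π).Normal := hPn.map π hs
  refine ih _ (CfsgLib.Core.card_quotient_lt hN0) (G ⧸ N) rfl (P.map π) (M.map π) (hP.map π)
    (CfsgLib.Local.isSupersolvable_congr (QuotientGroup.quotientQuotientEquivQuotient N P hNP).symm hquot)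
    (by rw [← Subgroup.map_sup, hsup, Subgroup.map_top_of_surjective _ hs])
    (by rw [Subgroup.index_map_eq M hs (by rw [QuotientGroup.ker_mk']; exact hNM), hMi])
    (CfsgLib.Super.isSupersolvable_of_surjective (π.subgroupMap M) (π.subgroupMap_surjective M) hM)

/-- If every subgroup of a finite group has subgroups of all orders dividing its order, then the group is supersolvable. -/
theorem result {G : Type*} [Group G] [Finite G] (h : ∀ H : Subgroup G, Cfsg.HasSubgroupOfEveryOrder H) : Cfsg.IsSupersolvable G := by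
  suffices key : ∀ (n : ℕ) (G : Type u_1) [Group G] [Finite G], Nat.card G = n →
      (∀ H : Subgroup G, Cfsg.HasSubgroupOfEveryOrder H) → Cfsg.IsSupersolvable G from key _ G rfl h
  clear h
  intro n
  induction n using Nat.strong_induction_on with
  | _ n ih =>
  intro G _ _ hn h
  subst hn
  by_cases h1 : Nat.card G = 1
  · haveI : Subsingleton G := (Nat.card_eq_one_iff_unique.1 h1).1
    exact CfsgLib.Core.isSupersolvable_of_subsingleton
  obtain ⟨p, hpmem, hmax⟩ := (Nat.card G).primeFactors.exists_max_image id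
    (Nat.nonempty_primeFactors.2 (by have := Nat.card_pos (α := G); omega))
  rw [Nat.mem_primeFactors] at hpmem
  obtain ⟨hp, hpd, -⟩ := hpmem
  haveI := Fact.mk hp
  obtain ⟨S⟩ : Nonempty (Sylow p G) := inferInstance
  haveI hSn : (S : Subgroup G).Normal := Cfsg.Agent.S0532.result h p hpd
    (fun q hq hqd => hmax q (Nat.mem_primeFactors.2 ⟨hq, hqd, Nat.card_pos.ne'⟩)) S
  have hproper : ∀ H : Subgroup G, H ≠ ⊤ → Cfsg.IsSupersolvable H := fun H hH => by
    refine ih _ ?_ H rfl fun K =>
      Cfsg.Agent.S0532.hasSubgroupOfEveryOrder_congr (K.equivMapOfInjective _ H.subtype_injective) (h _)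
    exact lt_of_le_of_ne (Subgroup.card_le_card_group H) fun e => hH (Subgroup.eq_top_of_card_eq H e)
  have hco : Nat.Coprime (Nat.card (S : Subgroup G)) (S : Subgroup G).index := by
    obtain ⟨k, hk⟩ := IsPGroup.iff_card.1 S.2
    rw [hk]
    exact (hp.coprime_iff_not_dvd.2 S.not_dvd_index).pow_left k
  obtain ⟨H, hH⟩ := Subgroup.exists_right_complement'_of_coprime hco
  have hS0 := S.ne_bot_of_dvd_card hpd
  have hquot : Cfsg.IsSupersolvable (G ⧸ (S : Subgroup G)) := by
    refine CfsgLib.Local.isSupersolvable_congr hH.symm.QuotientMulEquiv.symm (hproper H fun e => hS0 ?_)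
    rw [← inf_top_eq (S : Subgroup G), ← e]
    exact disjoint_iff.1 hH.disjoint
  obtain ⟨M₀, hM₀⟩ := h ⊤ (Nat.card G / p) (by rw [Subgroup.card_top]; exact Nat.div_dvd_of_dvd hpd)
  set M := M₀.map (⊤ : Subgroup G).subtype
  have hMc : Nat.card M = Nat.card G / p := by
    rw [Subgroup.card_map_of_injective (⊤ : Subgroup G).subtype_injective, hM₀]
  have hMi : M.index = p := by
    have h2 := M.card_mul_index
    rw [hMc] at h2
    exact Nat.eq_of_mul_eq_mul_left (Nat.div_pos (Nat.le_of_dvd Nat.card_pos hpd) hp.pos)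
      (h2.trans (Nat.div_mul_cancel hpd).symm)
  have hMtop : M ≠ ⊤ := fun e => by rw [e, Subgroup.index_top] at hMi; exact hp.ne_one hMi.symm
  have hsup : M ⊔ (S : Subgroup G) = ⊤ := by
    rw [← Subgroup.index_eq_one]
    have h2 := Subgroup.relIndex_mul_index (le_sup_left : M ≤ M ⊔ (S : Subgroup G))
    rw [hMi] at h2
    rcases hp.eq_one_or_self_of_dvd _ (Dvd.intro_left _ h2) with e | e
    · exact e
    · exact absurd (dvd_trans (dvd_of_eq e.symm) (Subgroup.index_dvd_of_le (le_sup_right : (S : Subgroup G) ≤ M ⊔ S)))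
        S.not_dvd_index
  exact supersolvable_of_supplement p _ G rfl (S : Subgroup G) M S.2 hquot hsup hMi (hproper M hMtop)

end Cfsg.Agent.S0533
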