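import Cfsg.Statements.S0534
import Cfsg.Agent.Lib.CoreHall

set_option autoImplicit false
open Cfsg

namespace Cfsg.Agent.S0534

universe w

private theorem abelian_subgroups : ∀ (n : ℕ) (A : Type w) [CommGroup A] [Finite A],
    Nat.card A = n → ∀ d : ℕ, d ∣ n → ∃ H : Subgroup A, Nat.card H = d := by
  intro n
  induction n using Nat.strong_induction_on with
  | _ n ih =>
  intro A _ _ hn d hd
  subst hn
  rcases eq_or_ne d 1 with rfl | hd1
  · exact ⟨⊥, Subgroup.card_bot⟩
  obtain ⟨p, hp, hpd⟩ := Nat.exists_prime_and_dvd hd1
  haveI := Fact.mk hp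
  obtain ⟨x, hx⟩ := exists_prime_orderOf_dvd_card' (G := A) p (hpd.trans hd)
  set N := Subgroup.zpowers x
  have hNc : Nat.card N = p := by rw [Nat.card_zpowers, hx]
  have hq : Nat.card (A ⧸ N) * p = Nat.card A := by
    rw [← hNc, ← Subgroup.card_eq_card_quotient_mul_card_subgroup]
  obtain ⟨e, rfl⟩ := hpd
  obtain ⟨K, hK⟩ := ih _ (by nlinarith [hp.two_le, Nat.card_pos (α := A ⧸ N)]) (A ⧸ N) rfl e
    (Nat.dvd_of_mul_dvd_mul_left hp.pos (by rw [mul_comm p (Nat.card _), hq]; exact hd))
  refine ⟨K.comap (QuotientGroup.mk' N), ?_⟩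
  have hle : N ≤ K.comap (QuotientGroup.mk' N) :=
    (QuotientGroup.ker_mk' N).ge.trans (Subgroup.ker_le_comap _ K)
  have h2 := Subgroup.relIndex_ker (f := QuotientGroup.mk' N) (K := K.comap (QuotientGroup.mk' N))
  rw [QuotientGroup.ker_mk',
    Subgroup.map_comap_eq_self_of_surjective (QuotientGroup.mk'_surjective N)] at h2
  rw [← CfsgLib.Core.card_mul_relIndex hle, h2, hNc, hK]


/-- Let G be a finite solvable group and A a finite abelian group such that every prime dividing the order of A divides the order of G and, for each prime p dividing the order of G, the exponent of p in the order of A is one less than its exponent in the order of G. Then G × A has a subgroup of every order dividing its order. -/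
theorem result {G A : Type*} [Group G] [CommGroup A] [Finite G] [Finite A] [Group.IsSolvable G] (hA : ∀ p : ℕ, p.Prime → p ∣ Nat.card A → p ∣ Nat.card G) (hexp : ∀ p : ℕ, p.Prime → p ∣ Nat.card G → (Nat.card A).factorization p + 1 = (Nat.card G).factorization p) : Cfsg.HasSubgroupOfEveryOrder (G × A) := by
  intro d hd
  rw [Nat.card_prod] at hd
  have hd0 : d ≠ 0 := fun h => by
    rw [h, zero_dvd_iff] at hd
    exact (Nat.mul_pos (Nat.card_pos (α := G)) (Nat.card_pos (α := A))).ne' hd
  obtain ⟨H, hH1, hH2⟩ := CfsgLib.Core.exists_isHall (G := G)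
    {p | (Nat.card G).factorization p ≤ d.factorization p}
  have hG0 : Nat.card G ≠ 0 := Nat.card_pos.ne'
  have hA0 : Nat.card A ≠ 0 := Nat.card_pos.ne'
  have hd' := (Nat.factorization_le_iff_dvd hd0 (mul_ne_zero hG0 hA0)).2 hd
  rw [Nat.factorization_mul hG0 hA0] at hd'
  have hHf : ∀ p : ℕ, p.Prime → (Nat.card H).factorization p =
      if (Nat.card G).factorization p ≤ d.factorization p then (Nat.card G).factorization p else 0 := by
    intro p hp
    have hsum : (Nat.card G).factorization p = (Nat.card H).factorization p + H.index.factorization p := by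
      rw [← H.card_mul_index, Nat.factorization_mul Nat.card_pos.ne' Subgroup.index_ne_zero_of_finite]
      rfl
    split_ifs with h
    · have : H.index.factorization p = 0 :=
        Nat.factorization_eq_zero_of_not_dvd fun hdv => hH2 p hp hdv h
      omega
    · exact Nat.factorization_eq_zero_of_not_dvd fun hdv => h (hH1 p hp hdv)
  have hdvd : Nat.card H ∣ d := by
    rw [← Nat.factorization_prime_le_iff_dvd Nat.card_pos.ne' hd0]
    intro p hp
    rw [hHf p hp]
    split_ifs with h
    · exact h
    · exact Nat.zero_le _
  obtain ⟨e, rfl⟩ := hdvd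
  have he0 : e ≠ 0 := fun h => hd0 (by rw [h, mul_zero])
  have heA : e ∣ Nat.card A := by
    rw [← Nat.factorization_prime_le_iff_dvd he0 hA0]
    intro p hp
    have h1 : (Nat.card H * e).factorization p ≤
        (Nat.card G).factorization p + (Nat.card A).factorization p := hd' p
    have hs : (Nat.card H * e).factorization p = (Nat.card H).factorization p + e.factorization p := by
      rw [Nat.factorization_mul Nat.card_pos.ne' he0]
      rfl
    have h2 := hHf p hp
    by_cases hpG : p ∣ Nat.card G
    · have h3 := hexp p hp hpG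
      split_ifs at h2 <;> omega
    · have h4 : (Nat.card G).factorization p = 0 := Nat.factorization_eq_zero_of_not_dvd hpG
      have h5 : (Nat.card A).factorization p = 0 :=
        Nat.factorization_eq_zero_of_not_dvd fun h => hpG (hA p hp h)
      omega
  obtain ⟨B, hB⟩ := abelian_subgroups _ A rfl e heA
  exact ⟨H.prod B, by rw [Nat.card_congr (Subgroup.prodEquiv H B).toEquiv, Nat.card_prod, hB]⟩

end Cfsg.Agent.S0534
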