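import Cfsg.Statements.S0535
import Cfsg.Agent.Lib.CoreThree

set_option autoImplicit false
open Cfsg

namespace Cfsg.Agent.S0535

universe u

theorem aux : ∀ (n : ℕ) (G : Type u) [Group G] [Finite G], Nat.card G ≤ n →
    (∀ H : Subgroup G, H ≠ ⊥ → ∀ p : ℕ, p.Prime → p ∣ Nat.card H →
      ∃ K : Subgroup H, K ≠ ⊤ ∧ ∃ k : ℕ, K.index = p ^ k) → Group.IsSolvable G := by
  intro n
  induction n with
  | zero => intro G _ _ h; exact absurd h (by simp [Nat.card_pos.ne'])
  | succ n ih =>
    intro G _ _ hn hall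
    rcases CfsgLib.Core.two_or_three_primes (Nat.card_pos (α := G)).ne' with
      ⟨p, q, a, b, hp, hq, hab⟩ | ⟨p, q, r, hp, hq, hr, hpd, hqd, hrd, hpq, hpr, hqr⟩
    · exact CfsgLib.Char.burnside_pq hp hq _ G a b rfl hab
    have hsub : ∀ L : Subgroup G, L ≠ ⊤ → Group.IsSolvable L := by
      intro L hL
      have hlt := CfsgLib.Core.card_lt_of_ne_top hL
      refine ih L (by omega) fun H hH t ht htd => ?_
      set H' := H.map L.subtype
      let e : H ≃* H' := Subgroup.equivMapOfInjective H L.subtype Subtype.coe_injective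
      have hH' : H' ≠ ⊥ := by
        rw [Ne, Subgroup.map_eq_bot_iff_of_injective _ Subtype.coe_injective]; exact hH
      obtain ⟨K, hK, k, hk⟩ := hall H' hH' t ht (by rwa [← Nat.card_congr e.toEquiv])
      refine ⟨K.comap e.toMonoidHom, fun h => hK ?_, k, ?_⟩
      · apply Subgroup.comap_injective (f := e.toMonoidHom) e.surjective
        rw [h, Subgroup.comap_top]
      · rw [Subgroup.index_comap_of_surjective (f := e.toMonoidHom) K e.surjective, hk]
    have hbig : ∀ t : ℕ, t.Prime → t ∣ Nat.card G →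
        ∃ L : Subgroup G, Group.IsSolvable L ∧ ∃ k : ℕ, L.index = t ^ k := by
      intro t ht htd
      have htop : (⊤ : Subgroup G) ≠ ⊥ := by
        intro h
        have h' := congrArg (fun K : Subgroup G => Nat.card K) h
        simp only [Subgroup.card_top, Subgroup.card_bot] at h'
        exact ht.not_dvd_one (h' ▸ htd)
      obtain ⟨K, hK, k, hk⟩ := hall ⊤ htop t ht (by rwa [Subgroup.card_top])
      refine ⟨K.map (⊤ : Subgroup G).subtype, hsub _ fun h => hK ?_, k, ?_⟩
      · apply Subgroup.map_injective (f := (⊤ : Subgroup G).subtype) Subtype.coe_injective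
        rw [h, ← MonoidHom.range_eq_map, Subgroup.range_subtype]
      · rw [Subgroup.index_map_subtype, hk, Subgroup.index_top, mul_one]
    obtain ⟨A, hAs, a, hA⟩ := hbig p hp hpd
    obtain ⟨B, hBs, b, hB⟩ := hbig q hq hqd
    obtain ⟨C, hCs, c, hC⟩ := hbig r hr hrd
    exact CfsgLib.Core.solvable_of_three_coprime hAs hBs hCs
      (hA ▸ hB ▸ CfsgLib.Core.coprime_prime_pow hp hq hpq _ _)
      (hA ▸ hC ▸ CfsgLib.Core.coprime_prime_pow hp hr hpr _ _)
      (hB ▸ hC ▸ CfsgLib.Core.coprime_prime_pow hq hr hqr _ _)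

/-- Suppose that for every nontrivial subgroup H of a finite group and every prime p dividing the order of H there is a proper subgroup of H whose index in H is a power of p. Then the group is solvable. -/
theorem result {G : Type*} [Group G] [Finite G] (h : ∀ H : Subgroup G, H ≠ ⊥ → ∀ p : ℕ, p.Prime → p ∣ Nat.card H → ∃ K : Subgroup H, K ≠ ⊤ ∧ ∃ k : ℕ, K.index = p ^ k) : Group.IsSolvable G := by
  exact aux _ G le_rfl h

end Cfsg.Agent.S0535
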