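import Cfsg.Statements.S0537
import Cfsg.Agent.S0536
import Cfsg.Agent.Lib.CoreCoprime2
import Cfsg.Agent.Lib.CoreFitting

set_option autoImplicit false
open Cfsg
set_option maxHeartbeats 400000

namespace Cfsg.Agent.S0537

/-- A finite non-abelian group in which every proper subgroup is abelian is either of prime-power order, or is generated by a cyclic Sylow p-subgroup and a normal Sylow q-subgroup that is elementary abelian, for distinct primes p and q. -/
theorem result {G : Type*} [Group G] [Finite G] (hna : ¬ IsMulCommutative G) (h : ∀ H : Subgroup G, H ≠ ⊤ → IsMulCommutative H) : (∃ p : ℕ, p.Prime ∧ IsPGroup p G) ∨ ∃ p q : ℕ, p.Prime ∧ q.Prime ∧ p ≠ q ∧ ∃ (P : Sylow p G) (Q : Sylow q G), IsCyclic P ∧ (Q : Subgroup G).Normal ∧ Cfsg.IsElementaryAbelian q (Q : Subgroup G) ∧ (P : Subgroup G) ⊔ Q = ⊤ := by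
  classical
  have hmn : ¬ Group.IsNilpotent G → Cfsg.IsMinimalNonNilpotent G := fun hn => ⟨hn, fun H hH => by
    haveI := h H hH
    letI : CommGroup H := { (inferInstance : Group H) with mul_comm := mul_comm' }
    exact CommGroup.isNilpotent⟩
  by_cases hn : Group.IsNilpotent G
  · left
    haveI := hn
    by_contra hne
    push Not at hne
    refine hna (.of_comm fun a b => ?_)
    have hcc : ∀ r w : G, (∃ p b, p.Prime ∧ orderOf r = p ^ b) → (∃ p b, p.Prime ∧ orderOf w = p ^ b) →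
        r * w = w * r := by
      rintro r w ⟨p, i, hp, hr⟩ ⟨q, j, hq, hw⟩
      by_cases hpq : p = q
      · subst hpq
        haveI := Fact.mk hp
        obtain ⟨P⟩ : Nonempty (Sylow p G) := inferInstance
        haveI : Subsingleton (Sylow p G) := Sylow.unique_of_normal P inferInstance |>.instSubsingleton
        have hmem : ∀ u : G, (∃ k, orderOf u = p ^ k) → u ∈ (P : Subgroup G) := fun u ⟨k, hk⟩ => by
          obtain ⟨S, hS⟩ := (IsPGroup.of_card (G := Subgroup.zpowers u) (p := p) (n := k)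
            (by rw [Nat.card_zpowers, hk])).exists_le_sylow
          rw [Subsingleton.elim S P] at hS
          exact hS (Subgroup.mem_zpowers u)
        haveI := h (P : Subgroup G) fun e => hne p hp fun g => by
          obtain ⟨k, hk⟩ := P.2 ⟨g, e.ge (Subgroup.mem_top g)⟩
          exact ⟨k, congrArg Subtype.val hk⟩
        exact congrArg Subtype.val
          (mul_comm' (⟨r, hmem r ⟨i, hr⟩⟩ : (P : Subgroup G)) ⟨w, hmem w ⟨j, hw⟩⟩)
      · exact CfsgLib.CN.commute_of_coprime_orderOf r w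
          (by rw [hr, hw]; exact Nat.Coprime.pow _ _ ((Nat.coprime_primes hp hq).2 hpq))
    have h1 : ∀ r : G, (∃ p b, p.Prime ∧ orderOf r = p ^ b) → Subgroup.centralizer {r} = ⊤ := fun r hr =>
      CfsgLib.Core.eq_top_of_prime_power_mem _ fun q w hq ⟨j, hj⟩ =>
        Subgroup.mem_centralizer_singleton_iff.2 (hcc w r ⟨q, j, hq, hj⟩ hr)
    have h2 : Subgroup.centralizer {b} = ⊤ := CfsgLib.Core.eq_top_of_prime_power_mem _ fun q r hq ⟨i, hi⟩ =>
      Subgroup.mem_centralizer_singleton_iff.2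
        (Subgroup.mem_centralizer_singleton_iff.1 ((h1 r ⟨q, i, hq, hi⟩).ge (Subgroup.mem_top b))).symm
    exact Subgroup.mem_centralizer_singleton_iff.1 (h2.ge (Subgroup.mem_top a))
  right
  obtain ⟨p, q, hp, hq, hpq, P, Q, y, hP, hQ, hsup, hyC⟩ := Cfsg.Agent.S0536.structure' (hmn hn)
  haveI := hQ
  haveI hQab : IsMulCommutative (Q : Subgroup G) := h _ fun e => by
    refine hyC (Subgroup.mem_centralizer_iff.2 fun u _ => ?_)
    exfalso
    apply hn
    haveI := Q.2.isNilpotent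
    haveI : Group.IsNilpotent (⊤ : Subgroup G) := e ▸ inferInstance
    exact Group.nilpotent_of_mulEquiv Subgroup.topEquiv
  refine ⟨p, q, hp.out, hq.out, hpq, P, Q, hP ▸ inferInstance, hQ, ⟨hQab, ?_⟩, hsup⟩
  set V := CfsgLib.Core.torsionIn (Q : Subgroup G) q
  haveI : V.Normal := CfsgLib.Core.normal_torsionIn q
  have hV : (P : Subgroup G) ⊔ V = ⊤ := by
    by_contra hne
    haveI := h _ hne
    obtain ⟨i, hi⟩ := IsPGroup.iff_card.1 P.2
    obtain ⟨j, hj⟩ := IsPGroup.iff_card.1 Q.2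
    refine hyC (CfsgLib.Core.abelian_trivial_on_prime_order (A := (P : Subgroup G))
      (by rw [Subgroup.normalizer_eq_top_iff.2 hQ]; exact le_top)
      (by rw [hi, hj]; exact Nat.Coprime.pow _ _ ((Nat.coprime_primes hp.out hq.out).2 hpq))
      (fun v hv hvp c hc => ?_) (hP.ge (Subgroup.mem_zpowers y)))
    have hvq : v ^ q = 1 := by
      obtain ⟨k, hk⟩ := IsPGroup.iff_orderOf.1 Q.2 ⟨v, hv⟩
      rw [Subgroup.orderOf_mk] at hk
      rw [← (Nat.prime_dvd_prime_iff_eq hvp hq.out).1 (hvp.dvd_of_dvd_pow (dvd_of_eq hk)), pow_orderOf_eq_one]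
    exact congrArg Subtype.val (mul_comm' (⟨c, Subgroup.mem_sup_left hc⟩ : ((P : Subgroup G) ⊔ V : Subgroup G))
      ⟨v, Subgroup.mem_sup_right ⟨hv, hvq⟩⟩)
  intro a ha
  have h1 : a ∈ (P : Subgroup G) ⊔ V := hV.ge (Subgroup.mem_top a)
  rw [← SetLike.mem_coe, Subgroup.mul_normal] at h1
  obtain ⟨x, hx, v, hv, rfl⟩ := h1
  have hx1 : x = 1 := by
    have hxQ : x ∈ (Q : Subgroup G) := by
      simpa using mul_mem ha (inv_mem (hv.1 : v ∈ (Q : Subgroup G)))
    exact Subgroup.mem_bot.1 ((CfsgLib.Core.inf_eq_bot_of_coprime (show (Nat.card (P : Subgroup G)).Coprime (Nat.card (Q : Subgroup G)) by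
      obtain ⟨i, hi⟩ := IsPGroup.iff_card.1 P.2
      obtain ⟨j, hj⟩ := IsPGroup.iff_card.1 Q.2
      rw [hi, hj]
      exact Nat.Coprime.pow _ _ ((Nat.coprime_primes hp.out hq.out).2 hpq))).le ⟨hx, hxQ⟩)
  subst hx1
  show ((1 : G) * v) ^ q = 1
  rw [one_mul]; exact hv.2

end Cfsg.Agent.S0537
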