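import Cfsg.Statements.S0540
import Cfsg.Agent.Lib.CoreSubnormal

set_option autoImplicit false
open Pointwise
open Cfsg

namespace Cfsg.Agent.S0540

/-- A uniqueness lemma of zipper type. Let A be a subgroup of a finite group G and U a nonempty family of subgroups. For V in U write S(V) for the set of conjugates of A that lie in V and are subnormal in V. Assume: A belongs to S(V) for every V in U; a member of some S(W) that lies in V belongs to S(V); and for all V, W in U the normalizer of the join of S(V) ∩ S(W) lies in some member of U. Then U has a greatest element. -/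
theorem result {G : Type*} [Group G] [Finite G] (A : Subgroup G) (U : Set (Subgroup G)) (hU : U.Nonempty) (S : Subgroup G → Set (Subgroup G)) (hS : ∀ V B : Subgroup G, B ∈ S V ↔ (∃ g : G, B = MulAut.conj g • A) ∧ B ≤ V ∧ (B.subgroupOf V).IsSubnormal) (h1 : ∀ V ∈ U, A ∈ S V) (h2 : ∀ V ∈ U, ∀ W ∈ U, ∀ B ∈ S W, B ≤ V → B ∈ S V) (h3 : ∀ V ∈ U, ∀ W ∈ U, ∃ X ∈ U, Subgroup.normalizer ((sSup (S V ∩ S W) : Subgroup G) : Set G) ≤ X) : ∃ M ∈ U, ∀ V ∈ U, V ≤ M := by
  classical
  suffices huniq : ∀ V W : Subgroup G, Maximal (· ∈ U) V → Maximal (· ∈ U) W → V = W by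
    obtain ⟨V₀, hV₀⟩ := hU
    obtain ⟨M, -, hM⟩ := (Set.toFinite U).exists_le_maximal hV₀
    refine ⟨M, hM.1, fun V hV => ?_⟩
    obtain ⟨M', hle, hM'⟩ := (Set.toFinite U).exists_le_maximal hV
    exact huniq M' M hM' hM ▸ hle
  suffices key : ∀ k, ∀ V W : Subgroup G, Maximal (· ∈ U) V → Maximal (· ∈ U) W →
      Nat.card (Subgroup G) - (S V ∩ S W).ncard = k → V = W from
    fun V W hV hW => key _ V W hV hW rfl
  intro k
  induction k using Nat.strong_induction_on with
  | h k ih =>
    intro V W hV hW hk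
    by_contra hne
    set S₀ := S V ∩ S W with hS₀
    obtain ⟨X, hX, hNX⟩ := h3 V hV.1 W hW.1
    obtain ⟨X', hXX', hX'⟩ := (Set.toFinite U).exists_le_maximal hX
    have key2 : ∀ V₁ : Subgroup G, Maximal (· ∈ U) V₁ → S₀ ⊆ S V₁ → V₁ = X' := by
      intro V₁ hV₁ hsub
      rcases eq_or_ne S₀ (S V₁) with e | hne'
      · have hle : V₁ ≤ Subgroup.normalizer ((sSup S₀ : Subgroup G) : Set G) := by
          intro v hv
          refine CfsgLib.Core.conj_smul_eq_self_iff.mp
            (CfsgLib.Core.conj_smul_sSup_eq fun B hB => ?_)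
          rw [e] at hB ⊢
          obtain ⟨⟨g, rfl⟩, hBV, hBs⟩ := (hS V₁ B).mp hB
          have hvV : MulAut.conj v • V₁ = V₁ :=
            CfsgLib.Core.conj_smul_of_mem_normalizer (Subgroup.le_normalizer hv)
          refine (hS V₁ _).mpr ⟨⟨v * g, CfsgLib.Core.conj_smul_conj_smul v g A⟩, ?_, ?_⟩
          · exact (CfsgLib.Core.conj_smul_le_conj_smul.mpr hBV).trans hvV.le
          · have := hBs.smul (MulAut.conj (⟨v, hv⟩ : V₁))
            convert this using 1
            ext y
            simp [Subgroup.mem_subgroupOf, CfsgLib.Core.mem_conj_smul]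
        exact hV₁.eq_of_le hX'.1 (hle.trans (hNX.trans hXX'))
      · -- a new member lies in the normaliser
        set T : Set (Subgroup V₁) := (fun B : Subgroup G => B.subgroupOf V₁) '' S V₁ with hT
        set T₀ : Set (Subgroup V₁) := (fun B : Subgroup G => B.subgroupOf V₁) '' S₀ with hT₀
        have hinj : ∀ B₁ ∈ S V₁, ∀ B₂ ∈ S V₁, B₁.subgroupOf V₁ = B₂.subgroupOf V₁ → B₁ = B₂ := by
          intro B₁ h₁ B₂ h₂ he
          have := congrArg (Subgroup.map V₁.subtype) he
          rwa [Subgroup.map_subgroupOf_eq_of_le ((hS V₁ _).mp h₁).2.1,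
            Subgroup.map_subgroupOf_eq_of_le ((hS V₁ _).mp h₂).2.1] at this
        have hss : T₀ ⊂ T := by
          refine ⟨Set.image_mono hsub, fun hle => hne' (Set.Subset.antisymm hsub fun B hB => ?_)⟩
          obtain ⟨B', hB', he⟩ := hle ⟨B, hB, rfl⟩
          exact hinj B' (hsub hB') B hB he ▸ hB'
        have hTc : ∀ P ∈ T, ∀ g : V₁, MulAut.conj g • P ∈ T := by
          rintro _ ⟨B, hB, rfl⟩ g
          obtain ⟨⟨x, rfl⟩, hBV, hBs⟩ := (hS V₁ B).mp hB
          refine ⟨MulAut.conj (g : G) • MulAut.conj x • A, (hS V₁ _).mpr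
            ⟨⟨g * x, CfsgLib.Core.conj_smul_conj_smul _ x A⟩, ?_, ?_⟩, ?_⟩
          · exact (CfsgLib.Core.conj_smul_le_conj_smul.mpr hBV).trans
              (CfsgLib.Core.conj_smul_of_mem_normalizer (Subgroup.le_normalizer g.2)).le
          · have := hBs.smul (MulAut.conj g)
            convert this using 1
            ext y
            simp [Subgroup.mem_subgroupOf, CfsgLib.Core.mem_conj_smul]
          · ext y
            simp [Subgroup.mem_subgroupOf, CfsgLib.Core.mem_conj_smul]
        obtain ⟨_, ⟨B, hB, rfl⟩, hBnot, hBn⟩ := CfsgLib.Core.exists_mem_normalizes_sSup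
          (S := T) (S₀ := T₀) (by rintro _ ⟨B, hB, rfl⟩; exact ((hS V₁ B).mp hB).2.2) hTc hss
        have hBS₀ : B ∉ S₀ := fun hB' => hBnot ⟨B, hB', rfl⟩
        have hBV : B ≤ V₁ := ((hS V₁ B).mp hB).2.1
        have hmap : (sSup T₀).map V₁.subtype = sSup S₀ := by
          rw [hT₀, sSup_image, Subgroup.map_iSup, sSup_eq_iSup]
          refine iSup_congr fun B' => ?_
          rw [Subgroup.map_iSup]
          exact iSup_congr fun hB' => Subgroup.map_subgroupOf_eq_of_le ((hS V₁ _).mp (hsub hB')).2.1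
        have hBX : B ≤ X' := by
          intro b hb
          refine hXX' (hNX ?_)
          refine CfsgLib.Core.conj_smul_eq_self_iff.mp ?_
          have h1 := CfsgLib.Core.conj_smul_of_mem_normalizer (hBn (show (⟨b, hBV hb⟩ : V₁) ∈ B.subgroupOf V₁ from hb))
          have h2 := CfsgLib.Core.map_conj_smul V₁.subtype (⟨b, hBV hb⟩ : V₁) (sSup T₀)
          rw [h1, hmap] at h2
          exact h2.symm
        have hsubX : S₀ ⊆ S X' := fun B' hB' =>
          h2 X' hX'.1 V₁ hV₁.1 B' (hsub hB') (((le_sSup hB').trans Subgroup.le_normalizer).trans (hNX.trans hXX'))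
        have hBX' : B ∈ S X' := h2 X' hX'.1 V₁ hV₁.1 B hB hBX
        have hlt : (S V ∩ S W).ncard < (S V₁ ∩ S X').ncard := by
          refine Set.ncard_lt_ncard ?_ (Set.toFinite _)
          exact ⟨fun B' hB' => ⟨hsub hB', hsubX hB'⟩, fun hle => hBS₀ (hle ⟨hB, hBX'⟩)⟩
        have hle2 : (S V₁ ∩ S X').ncard ≤ Nat.card (Subgroup G) := by
          rw [← Set.ncard_univ]
          exact Set.ncard_le_ncard (Set.subset_univ _) (Set.toFinite _)
        refine ih _ ?_ V₁ X' hV₁ hX' rfl
        rw [hS₀] at hk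
        omega
    exact hne ((key2 V hV Set.inter_subset_left).trans (key2 W hW Set.inter_subset_right).symm)

end Cfsg.Agent.S0540
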