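import Cfsg.Statements.S0541
import Cfsg.Agent.Lib.CoreCoprime

set_option autoImplicit false
open Pointwise
open Cfsg

namespace Cfsg.Agent.S0541
open scoped Pointwise
universe w

variable {G : Type w} [Group G]

/-- `W` is generated by the conjugates of `Z` it contains. -/
def SelfGen (Z W : Subgroup G) : Prop :=
  W ≤ ⨆ g ∈ {g : G | MulAut.conj g • Z ≤ W}, MulAut.conj g • Z

theorem conj_smul_le_of_mem_normalizer {W T : Subgroup G} {x : G}
    (hx : x ∈ Subgroup.normalizer (W : Set G)) (hT : T ≤ W) : MulAut.conj x • T ≤ W := by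
  rintro _ ⟨d, hd, rfl⟩
  exact (Subgroup.mem_normalizer_iff.1 hx d).1 (hT hd)

theorem le_normalizer_of_smul_le [Finite G] {W Y : Subgroup G}
    (h : ∀ y ∈ Y, MulAut.conj y • W ≤ W) : Y ≤ Subgroup.normalizer (W : Set G) := fun y hy =>
  Subgroup.mem_normalizer_fintype fun w hw =>
    h y hy (Subgroup.smul_mem_pointwise_smul w (MulAut.conj y) W hw)

/-- A conjugate of `Z` normalising but not contained in a self-generated subgroup of a `p`-group. -/
theorem exists_normalizing [Finite G] {p : ℕ} [Fact p.Prime] {Z W X : Subgroup G}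
    (hX : IsPGroup p X) (hW : SelfGen Z W) (hWX : W ≤ X)
    {g₀ : G} (hg₀ : MulAut.conj g₀ • Z ≤ X) (hg₀W : ¬ MulAut.conj g₀ • Z ≤ W) :
    ∃ g : G, MulAut.conj g • Z ≤ Subgroup.normalizer (W : Set G) ∧ ¬ MulAut.conj g • Z ≤ W := by
  by_contra hcon
  push Not at hcon
  set N := X ⊓ Subgroup.normalizer (W : Set G) with hN
  have hNX : N.subgroupOf X ≠ ⊤ := fun e => hg₀W (hcon g₀
    (hg₀.trans ((Subgroup.subgroupOf_eq_top.1 e).trans inf_le_right)))
  haveI : Group.IsNilpotent ↥X := hX.isNilpotent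
  obtain ⟨x, hxn, hxN⟩ := SetLike.exists_of_lt
    (Group.normalizerCondition_of_isNilpotent (G := ↥X) _ hNX.lt_top)
  apply hxN
  rw [Subgroup.mem_subgroupOf]
  refine ⟨x.2, Subgroup.mem_normalizer_fintype fun w hw => ?_⟩
  have key : W ≤ (MulAut.conj (x : G))⁻¹ • W := by
    refine hW.trans (iSup₂_le fun g hg => Subgroup.pointwise_smul_subset_iff.1 ?_)
    rw [← mul_smul, ← map_mul]
    refine hcon _ (le_trans ?_ (inf_le_right : N ≤ Subgroup.normalizer (W : Set G)))
    rw [map_mul, mul_smul]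
    · rintro _ ⟨d, hd, rfl⟩
      have hdN : d ∈ N := ⟨hWX (hg hd), Subgroup.le_normalizer (hg hd)⟩
      exact Subgroup.mem_subgroupOf.1
        ((Subgroup.mem_normalizer_iff.1 hxn ⟨d, hdN.1⟩).1 (Subgroup.mem_subgroupOf.2 hdN))
  exact Subgroup.pointwise_smul_subset_iff.2 key (Subgroup.smul_mem_pointwise_smul w _ W hw)

private theorem main [Finite G] (p : ℕ) [Fact p.Prime] (Z Y : Subgroup G)
    (h : ∀ g : G, IsPGroup p ↥(⨆ y ∈ Y, MulAut.conj (y * g) • Z)) :
    ∃ P : Sylow p G, Y ≤ Subgroup.normalizer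
      ((⨆ g ∈ {g : G | MulAut.conj g • Z ≤ (P : Subgroup G)}, MulAut.conj g • Z : Subgroup G) :
        Set G) := by
  obtain ⟨W, ⟨hWp, hWY, hWg⟩, hmax⟩ := (Set.toFinite {W : Subgroup G | IsPGroup p W ∧
      Y ≤ Subgroup.normalizer (W : Set G) ∧ SelfGen Z W}).exists_maximal
    ⟨⊥, IsPGroup.of_bot, le_normalizer_of_smul_le fun y _ => by simp, bot_le⟩
  obtain ⟨P, hP⟩ := hWp.exists_le_sylow
  refine ⟨P, ?_⟩
  suffices e : (⨆ g ∈ {g : G | MulAut.conj g • Z ≤ (P : Subgroup G)}, MulAut.conj g • Z) = W by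
    rwa [e]
  refine le_antisymm (iSup₂_le fun g₀ hg₀ => ?_)
    (hWg.trans (iSup₂_le fun g hg => le_iSup₂_of_le g (hg.trans hP) le_rfl))
  by_contra hg₀W
  obtain ⟨g, hgN, hgW⟩ := exists_normalizing P.2 hWg hP hg₀ hg₀W
  set U : Subgroup G := ⨆ y ∈ Y, MulAut.conj (y * g) • Z with hU
  have hUN : U ≤ Subgroup.normalizer (W : Set G) := iSup₂_le fun y hy => by
    rw [map_mul, mul_smul]
    exact conj_smul_le_of_mem_normalizer (Subgroup.le_normalizer (hWY hy)) hgN
  have hUY : Y ≤ Subgroup.normalizer (U : Set G) := le_normalizer_of_smul_le fun y hy => by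
    rw [Subgroup.pointwise_smul_subset_iff]
    refine iSup₂_le fun y' hy' => Subgroup.pointwise_smul_subset_iff.1 ?_
    rw [← mul_smul, ← map_mul, ← mul_assoc]
    exact le_iSup₂ (f := fun a (_ : a ∈ Y) => MulAut.conj (a * g) • Z) (y * y') (mul_mem hy hy')
  have hgU : MulAut.conj g • Z ≤ U := by
    have := le_iSup₂ (f := fun a (_ : a ∈ Y) => MulAut.conj (a * g) • Z) (1 : G) (one_mem Y)
    rwa [one_mul] at this
  refine hgW (hgU.trans (le_sup_left.trans (hmax ⟨IsPGroup.to_sup_of_normal_right' (h g) hWp hUN,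
    CfsgLib.Core.le_normalizer_sup hUY hWY, ?_⟩ le_sup_right : U ⊔ W ≤ W)))
  refine sup_le (iSup₂_le fun y hy => ?_) (hWg.trans (iSup₂_le fun a ha =>
    le_iSup₂_of_le a (le_trans ha le_sup_right : MulAut.conj a • Z ≤ U ⊔ W) le_rfl))
  exact le_iSup₂_of_le (y * g)
    (le_trans (le_iSup₂ (f := fun a (_ : a ∈ Y) => MulAut.conj (a * g) • Z) y hy) le_sup_left)
    le_rfl


/-- Let Z and Y be subgroups of a finite group G and p a prime. Suppose that for every g in G the subgroup generated by the conjugates of g Z g⁻¹ under Y is a p-group. Then there is a Sylow p-subgroup P of G such that Y normalizes the subgroup generated by all conjugates of Z contained in P. -/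
theorem result {G : Type*} [Group G] [Finite G] (p : ℕ) [Fact p.Prime] (Z Y : Subgroup G) (h : ∀ g : G, IsPGroup p ↥(⨆ y ∈ Y, MulAut.conj (y * g) • Z)) : ∃ P : Sylow p G, Y ≤ Subgroup.normalizer ((⨆ g ∈ {g : G | MulAut.conj g • Z ≤ (P : Subgroup G)}, MulAut.conj g • Z : Subgroup G) : Set G) := by
  exact main p Z Y h

end Cfsg.Agent.S0541
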