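import Cfsg.Statements.S0542
import Cfsg.Agent.Lib.CoreBasic

set_option autoImplicit false
open Cfsg

namespace Cfsg.Agent.S0542

/-- A Sylow p-subgroup of a finite group meets every subnormal subgroup H in a Sylow p-subgroup of H. -/
theorem result {G : Type*} [Group G] [Finite G] (p : ℕ) [Fact p.Prime] (H : Subgroup G) (hH : H.IsSubnormal) (S : Sylow p G) : ∃ Q : Sylow p H, (Q : Subgroup H) = (S : Subgroup G).subgroupOf H := by
  have key : ¬ p ∣ (S : Subgroup G).relIndex H := by
    induction hH with
    | top => rw [Subgroup.relIndex_top_right]; exact S.not_dvd_index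
    | step A K hle _ hN ih =>
      intro hdvd
      apply ih
      haveI := hN
      set T := (S : Subgroup G).subgroupOf K with hT
      have h1 : (S : Subgroup G).relIndex A = T.relIndex (A.subgroupOf K) :=
        (Subgroup.relIndex_subgroupOf hle).symm
      have h2 : T.relIndex (A.subgroupOf K) = T.relIndex (T ⊔ A.subgroupOf K) := by
        have hn : T ≤ Subgroup.normalizer ((A.subgroupOf K : Subgroup K) : Set K) := by
          rw [Subgroup.normalizer_eq_top (H := A.subgroupOf K)]; exact le_top
        have e1 := CfsgLib.Core.card_sup_mul_card_inf hn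
        have e2 := CfsgLib.Core.card_inf_mul_relIndex T (A.subgroupOf K)
        have e3 := CfsgLib.Core.card_mul_relIndex (le_sup_left : T ≤ T ⊔ A.subgroupOf K)
        apply Nat.eq_of_mul_eq_mul_left
          (Nat.mul_pos (Nat.card_pos : 0 < Nat.card T) (Nat.card_pos : 0 < Nat.card ↥(T ⊓ A.subgroupOf K)))
        rw [mul_assoc, e2]
        rw [← e3] at e1
        linarith
      rw [h1, h2] at hdvd
      exact hdvd.trans (Subgroup.relIndex_dvd_index_of_le le_sup_left)
  have hp : IsPGroup p ((S : Subgroup G).subgroupOf H) :=
    S.2.comap_of_injective _ Subtype.coe_injective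
  exact ⟨hp.toSylow key, rfl⟩

end Cfsg.Agent.S0542
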