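import Cfsg.Statements.S0546
import Cfsg.Agent.Lib.CoreSystemCover

set_option autoImplicit false
open Cfsg

namespace Cfsg.Agent.S0546

/-- The normal closure of a system normalizer of a finite solvable group is the whole group. -/
theorem result {G : Type*} [Group G] [Finite G] [Group.IsSolvable G] (K : Nat.Primes → Subgroup G) (hK : Cfsg.IsComplementSystem K) : Subgroup.normalClosure ((Cfsg.systemNormalizer K : Subgroup G) : Set G) = ⊤ := by
  set N := Subgroup.normalClosure ((Cfsg.systemNormalizer K : Subgroup G) : Set G)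
  by_contra hN
  haveI : Nontrivial (G ⧸ N) := QuotientGroup.nontrivial_iff.mpr hN
  set π := QuotientGroup.mk' N
  have hcomm : commutator (G ⧸ N) ≠ ⊤ := (Group.IsSolvable.commutator_lt_top_of_nontrivial (G ⧸ N)).ne
  set M := (commutator (G ⧸ N)).comap π
  have hM : ⁅(⊤ : Subgroup G), (⊤ : Subgroup G)⁆ ≤ M := by
    rw [← Subgroup.map_le_iff_le_comap, Subgroup.map_commutator,
      Subgroup.map_top_of_surjective _ (QuotientGroup.mk'_surjective N), commutator_def]
  haveI : M.Normal := Subgroup.Normal.comap inferInstance π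
  have h1 := CfsgLib.Core.systemNormalizer_cover hK M ⊤ hM
  have h2 : Cfsg.systemNormalizer K ≤ M := fun x hx => by
    show π x ∈ commutator (G ⧸ N)
    rw [show π x = 1 from (QuotientGroup.eq_one_iff x).mpr (Subgroup.subset_normalClosure hx)]
    exact one_mem _
  rw [sup_eq_left.mpr h2, top_le_iff] at h1
  refine hcomm (top_le_iff.mp fun y _ => ?_)
  obtain ⟨x, rfl⟩ := QuotientGroup.mk'_surjective N y
  have : x ∈ M := h1 ▸ Subgroup.mem_top x
  exact this

end Cfsg.Agent.S0546
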