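import Cfsg.Statements.S0547
import Cfsg.Agent.Lib.CorePrimitive

set_option autoImplicit false
open Cfsg

namespace Cfsg.Agent.S0547

/-- Let a finite solvable group G act faithfully and primitively on a set, and let M be a minimal normal subgroup of G. Then M is transitive with trivial point stabilizers, and the number of points equals the order of M, which is a prime power p ^ d with d ≥ 1. -/
theorem result {G : Type*} [Group G] [Finite G] [Group.IsSolvable G] {Ω : Type*} [Nonempty Ω] [MulAction G Ω] [FaithfulSMul G Ω] (hprim : MulAction.IsPreprimitive G Ω) (M : Subgroup G) [M.Normal] (hM : M ≠ ⊥) (hmin : ∀ K : Subgroup G, K.Normal → K ≤ M → K = ⊥ ∨ K = M) : MulAction.IsPretransitive M Ω ∧ (∀ ω : Ω, MulAction.stabilizer M ω = ⊥) ∧ ∃ p d : ℕ, p.Prime ∧ 0 < d ∧ Nat.card Ω = p ^ d ∧ Nat.card M = p ^ d := by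
  haveI := CfsgLib.Core.isMulCommutative_of_minimal_normal hmin
  have hc : ∀ a ∈ M, ∀ b ∈ M, a * b = b * a := fun a ha b hb =>
    congrArg Subtype.val (IsMulCommutative.is_comm.comm (⟨a, ha⟩ : M) ⟨b, hb⟩)
  have ht := CfsgLib.Core.Primitive.transitive_of_normal hprim hM
  have hreg := CfsgLib.Core.Primitive.abelian_regular ht hc
  refine ⟨ht, hreg, ?_⟩
  obtain ⟨p, d, hp, hd, hcard, -⟩ := CfsgLib.Core.Primitive.elementary_of_minimal M hM hc hmin
  refine ⟨p, d, hp, hd, ?_, hcard⟩
  obtain ⟨ω⟩ := ‹Nonempty Ω›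
  rw [← hcard]
  refine (Nat.card_eq_of_bijective (fun m : M => m • ω) ⟨fun a b h => ?_, fun a => ht.exists_smul_eq ω a⟩).symm
  have h1 : b⁻¹ * a ∈ MulAction.stabilizer M ω := by
    rw [MulAction.mem_stabilizer_iff, mul_smul, show a • ω = b • ω from h, inv_smul_smul]
  rw [hreg ω, Subgroup.mem_bot] at h1
  exact (inv_mul_eq_one.1 h1).symm

end Cfsg.Agent.S0547
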