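import Cfsg.Statements.S0548
import Cfsg.Agent.Lib.CorePrimitive

set_option autoImplicit false
open Cfsg

namespace Cfsg.Agent.S0548

/-- Let a finite solvable group G act faithfully and primitively on a set, let M be a minimal normal subgroup and H the stabilizer of a point. Then H is a complement to M, no non-identity element of H centralizes M, and the only subgroups of M normalized by H are the trivial subgroup and M. -/
theorem result {G : Type*} [Group G] [Finite G] [Group.IsSolvable G] {Ω : Type*} [MulAction G Ω] [FaithfulSMul G Ω] (hprim : MulAction.IsPreprimitive G Ω) (M : Subgroup G) [M.Normal] (hM : M ≠ ⊥) (hmin : ∀ K : Subgroup G, K.Normal → K ≤ M → K = ⊥ ∨ K = M) (ω : Ω) : Subgroup.IsComplement' M (MulAction.stabilizer G ω) ∧ MulAction.stabilizer G ω ⊓ Subgroup.centralizer (M : Set G) = ⊥ ∧ ∀ K : Subgroup G, K ≤ M → MulAction.stabilizer G ω ≤ Subgroup.normalizer (K : Set G) → K = ⊥ ∨ K = M := by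
  haveI := CfsgLib.Core.isMulCommutative_of_minimal_normal hmin
  have hc : ∀ a ∈ M, ∀ b ∈ M, a * b = b * a := fun a ha b hb =>
    congrArg Subtype.val (IsMulCommutative.is_comm.comm (⟨a, ha⟩ : M) ⟨b, hb⟩)
  haveI : Nonempty Ω := ⟨ω⟩
  have ht := CfsgLib.Core.Primitive.transitive_of_normal hprim hM
  have hreg := CfsgLib.Core.Primitive.abelian_regular ht hc
  have hdec : ∀ g : G, ∃ m ∈ M, ∃ h ∈ MulAction.stabilizer G ω, g = m * h := by
    intro g
    obtain ⟨⟨m, hm⟩, hmω⟩ := ht.exists_smul_eq ω (g • ω)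
    refine ⟨m, hm, m⁻¹ * g, ?_, (mul_inv_cancel_left m g).symm⟩
    rw [MulAction.mem_stabilizer_iff, mul_smul, ← hmω]
    exact inv_smul_smul m ω
  refine ⟨Subgroup.isComplement'_of_disjoint_and_mul_eq_univ ?_ ?_, ?_, fun K hKM hK => ?_⟩
  · rw [Subgroup.disjoint_def]
    intro x hxM hx
    have h1 : (⟨x, hxM⟩ : M) ∈ MulAction.stabilizer M ω := hx
    rw [hreg ω, Subgroup.mem_bot] at h1
    exact congrArg Subtype.val h1
  · refine Set.eq_univ_of_forall fun g => ?_
    obtain ⟨m, hm, h, hh, rfl⟩ := hdec g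
    exact Set.mul_mem_mul hm hh
  · refine (Subgroup.eq_bot_iff_forall _).2 fun g hg => ?_
    exact CfsgLib.Core.Primitive.eq_one_of_commute ht (ω := ω) hg.1
      fun m hm => (Subgroup.mem_centralizer_iff.1 hg.2 m hm).symm
  · have hKn : K.Normal := by
      rw [← Subgroup.normalizer_eq_top_iff, eq_top_iff]
      intro g _
      obtain ⟨m, hm, h, hh, rfl⟩ := hdec g
      refine mul_mem (Subgroup.mem_normalizer_fintype fun k hk => ?_) (hK hh)
      show m * k * m⁻¹ ∈ K
      rw [hc m hm k (hKM hk), mul_inv_cancel_right]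
      exact hk
    exact hmin K hKn hKM

end Cfsg.Agent.S0548
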