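import Cfsg.Statements.S0549
import Cfsg.Agent.Lib.CoreBasic

set_option autoImplicit false
open Cfsg

namespace Cfsg.Agent.S0549

/-- Let U be a maximal subgroup of a finite group G whose normal core is trivial, and N a nontrivial normal subgroup with centralizer C. Then C ∩ U = 1, and either C = 1 or C is a minimal normal subgroup of G. -/
theorem result {G : Type*} [Group G] [Finite G] (U : Subgroup G) (hU : IsCoatom U) (hcore : U.normalCore = ⊥) (N : Subgroup G) [N.Normal] (hN : N ≠ ⊥) : Subgroup.centralizer (N : Set G) ⊓ U = ⊥ ∧ (Subgroup.centralizer (N : Set G) = ⊥ ∨ (Subgroup.centralizer (N : Set G) ≠ ⊥ ∧ ∀ K : Subgroup G, K.Normal → K ≤ Subgroup.centralizer (N : Set G) → K = ⊥ ∨ K = Subgroup.centralizer (N : Set G))) := by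
  set C := Subgroup.centralizer (N : Set G) with hC
  haveI : C.Normal := inferInstance
  have hbot : ∀ K : Subgroup G, K.Normal → K ≤ U → K = ⊥ := fun K hK hle => by
    haveI := hK
    rw [eq_bot_iff, ← hcore]
    exact Subgroup.normal_le_normalCore.2 hle
  have hjoin : ∀ K : Subgroup G, K.Normal → K ≠ ⊥ → U ⊔ K = ⊤ := fun K hK hK0 =>
    hU.2 _ (lt_of_le_of_ne le_sup_left fun e => hK0 (hbot K hK (e ▸ le_sup_right)))
  have hCU : C ⊓ U = ⊥ := by
    refine hbot _ ?_ inf_le_right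
    rw [← Subgroup.normalizer_eq_top_iff, eq_top_iff, ← hjoin N inferInstance hN]
    refine sup_le (fun u hu => Subgroup.mem_normalizer_fintype fun y hy => ?_)
      (fun n hn => Subgroup.mem_normalizer_fintype fun y hy => ?_)
    · exact ⟨(inferInstance : C.Normal).conj_mem y hy.1 u, U.mul_mem (U.mul_mem hu hy.2) (U.inv_mem hu)⟩
    · show n * y * n⁻¹ ∈ C ⊓ U
      rw [Subgroup.mem_centralizer_iff.1 hy.1 n hn, mul_inv_cancel_right]
      exact hy
  refine ⟨hCU, ?_⟩
  by_cases hC0 : C = ⊥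
  · exact Or.inl hC0
  refine Or.inr ⟨hC0, fun K hK hKC => ?_⟩
  by_cases hK0 : K = ⊥
  · exact Or.inl hK0
  refine Or.inr (le_antisymm hKC fun c hc => ?_)
  haveI := hK
  have hmem : c ∈ U ⊔ K := hjoin K hK hK0 ▸ Subgroup.mem_top c
  obtain ⟨u, hu, k, hk, rfl⟩ := Subgroup.mem_sup_of_normal_right.1 hmem
  have h1 : u ∈ C ⊓ U := ⟨(Subgroup.mul_mem_cancel_right C (hKC hk)).1 hc, hu⟩
  rw [hCU, Subgroup.mem_bot] at h1
  rwa [h1, one_mul]

end Cfsg.Agent.S0549
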