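import Cfsg.Statements.S0550
import Cfsg.Agent.Lib.CoreBaer

set_option autoImplicit false
open Cfsg

namespace Cfsg.Agent.S0550

/-- Let U be a maximal subgroup with trivial normal core in a finite group G, and A ≠ B two minimal normal subgroups. Then A is the centralizer of B and B that of A, U complements each of them, A and B are non-abelian, and A, B and (A ⊔ B) ∩ U are pairwise isomorphic. -/
theorem result {G : Type*} [Group G] [Finite G] (U : Subgroup G) (hU : IsCoatom U) (hcore : U.normalCore = ⊥) (A B : Subgroup G) [A.Normal] [B.Normal] (hA : A ≠ ⊥) (hB : B ≠ ⊥) (hAmin : ∀ K : Subgroup G, K.Normal → K ≤ A → K = ⊥ ∨ K = A) (hBmin : ∀ K : Subgroup G, K.Normal → K ≤ B → K = ⊥ ∨ K = B) (hAB : A ≠ B) : Subgroup.centralizer (B : Set G) = A ∧ Subgroup.centralizer (A : Set G) = B ∧ Subgroup.IsComplement' A U ∧ Subgroup.IsComplement' B U ∧ ¬ IsMulCommutative A ∧ Nonempty (A ≃* B) ∧ Nonempty (A ≃* ↥((A ⊔ B) ⊓ U)) := by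
  have hinf : A ⊓ B = ⊥ := by
    rcases hAmin (A ⊓ B) inferInstance inf_le_left with h | h
    · exact h
    · rcases hBmin (A ⊓ B) inferInstance inf_le_right with h' | h'
      · exact h'
      · exact absurd (h.symm.trans h') hAB
  have hcomm : ∀ a ∈ A, ∀ b ∈ B, b * a = a * b := fun a ha b hb =>
    (Subgroup.commute_of_normal_of_disjoint _ _ inferInstance inferInstance
      (disjoint_iff.2 hinf) a b ha hb).symm
  have hBA : B ≤ Subgroup.centralizer (A : Set G) := fun b hb =>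
    Subgroup.mem_centralizer_iff.2 fun a ha => (hcomm a ha b hb).symm
  have hAB' : A ≤ Subgroup.centralizer (B : Set G) := fun a ha =>
    Subgroup.mem_centralizer_iff.2 fun b hb => hcomm a ha b hb
  have hcA := CfsgLib.Core.centralizer_eq_of_coreFree hU hcore hA hB hBA
  have hcB := CfsgLib.Core.centralizer_eq_of_coreFree hU hcore hB hA hAB'
  have hAU : A ⊓ U = ⊥ := by rw [← hcB]; exact CfsgLib.Core.centralizer_inf_eq_bot hU hcore hB
  have hBU : B ⊓ U = ⊥ := by rw [← hcA]; exact CfsgLib.Core.centralizer_inf_eq_bot hU hcore hA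
  have hsA := CfsgLib.Core.sup_eq_top_of_coreFree hU hcore hA
  have hsB := CfsgLib.Core.sup_eq_top_of_coreFree hU hcore hB
  set D := (A ⊔ B) ⊓ U with hD
  have hDA : D ⊔ A = A ⊔ B := CfsgLib.Core.inf_sup_eq_of_sup_eq_top le_sup_left hsA
  have hDB : D ⊔ B = A ⊔ B := CfsgLib.Core.inf_sup_eq_of_sup_eq_top le_sup_right hsB
  have hDAi : D ⊓ A = ⊥ := le_bot_iff.1 (hAU ▸ le_inf inf_le_right (inf_le_left.trans inf_le_right))
  have hDBi : D ⊓ B = ⊥ := le_bot_iff.1 (hBU ▸ le_inf inf_le_right (inf_le_left.trans inf_le_right))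
  obtain ⟨e1⟩ : Nonempty (↥A ≃* ↥D) :=
    CfsgLib.Core.nonempty_equiv_of_sup_eq (B := B) hinf hDBi (by rw [hDB])
  obtain ⟨e2⟩ : Nonempty (↥B ≃* ↥D) :=
    CfsgLib.Core.nonempty_equiv_of_sup_eq (B := A) (by rw [inf_comm]; exact hinf) hDAi
      (by rw [hDA, sup_comm])
  refine ⟨hcB, hcA, ?_, ?_, ?_, ⟨e1.trans e2.symm⟩, ⟨e1⟩⟩
  · exact Subgroup.isComplement'_of_disjoint_and_mul_eq_univ (disjoint_iff.2 hAU)
      (by rw [← Subgroup.normal_mul, sup_comm, hsA, Subgroup.coe_top])
  · exact Subgroup.isComplement'_of_disjoint_and_mul_eq_univ (disjoint_iff.2 hBU)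
      (by rw [← Subgroup.normal_mul, sup_comm, hsB, Subgroup.coe_top])
  · intro h
    have h1 : A ≤ Subgroup.centralizer (A : Set G) := Subgroup.le_centralizer_iff_isMulCommutative.2 h
    rw [hcA] at h1
    exact hA (le_bot_iff.1 (hinf ▸ le_inf le_rfl h1))

end Cfsg.Agent.S0550
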