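import Cfsg.Statements.S0551
import Cfsg.Agent.Lib.CoreBaer
import Cfsg.Agent.Lib.CorePGroup

set_option autoImplicit false
open Pointwise
open Cfsg

namespace Cfsg.Agent.S0551

/-- In a finite solvable group all core-free maximal subgroups are conjugate. -/
theorem result {G : Type*} [Group G] [Finite G] [Group.IsSolvable G] (U V : Subgroup G) (hU : IsCoatom U) (hV : IsCoatom V) (hUc : U.normalCore = ⊥) (hVc : V.normalCore = ⊥) : ∃ g : G, MulAut.conj g • U = V := by
  by_cases htriv : Nontrivial G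
  case neg =>
    haveI := not_nontrivial_iff_subsingleton.1 htriv
    exact absurd (Subsingleton.elim U ⊤) hU.1
  obtain ⟨A, hAn, hA, -, hAmin⟩ :=
    CfsgLib.Core.exists_minimal_normal_le (N := (⊤ : Subgroup G)) top_ne_bot
  haveI := hAn
  haveI := CfsgLib.Core.isMulCommutative_of_minimal_normal hAmin
  have hAA : A ≤ Subgroup.centralizer (A : Set G) :=
    Subgroup.le_centralizer_iff_isMulCommutative.2 inferInstance
  have hCA := CfsgLib.Core.centralizer_eq_of_coreFree hU hUc hA hA hAA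
  have hAU : ∀ W : Subgroup G, IsCoatom W → W.normalCore = ⊥ → A ⊓ W = ⊥ := fun W hW hWc => by
    rw [← CfsgLib.Core.centralizer_eq_of_coreFree hW hWc hA hA hAA]
    exact CfsgLib.Core.centralizer_inf_eq_bot hW hWc hA
  by_cases htop : A = ⊤
  · refine ⟨1, ?_⟩
    rw [map_one, one_smul]
    have h1 := hAU U hU hUc
    have h2 := hAU V hV hVc
    rw [htop, top_inf_eq] at h1 h2
    rw [h1, h2]
  haveI : Nontrivial (G ⧸ A) := QuotientGroup.nontrivial_iff.2 htop
  obtain ⟨R, hRn, hR, -, hRmin⟩ :=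
    CfsgLib.Core.exists_minimal_normal_le (N := (⊤ : Subgroup (G ⧸ A))) top_ne_bot
  haveI := hRn
  obtain ⟨r, hr, hRr⟩ := CfsgLib.Core.exists_isPGroup_of_minimal_normal hR hRmin
  obtain ⟨p, hp, hAp⟩ := CfsgLib.Core.exists_isPGroup_of_minimal_normal hA hAmin
  haveI := Fact.mk hr
  haveI := Fact.mk hp
  set B := R.comap (QuotientGroup.mk' A) with hB
  haveI hBn : B.Normal := inferInstance
  have hAB : A ≤ B := fun a ha => by
    rw [hB, Subgroup.mem_comap, QuotientGroup.mk'_apply, (QuotientGroup.eq_one_iff a).2 ha]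
    exact one_mem R
  have hBne : B ≠ A := fun h => hR (by
    rw [← Subgroup.map_comap_eq_self_of_surjective (QuotientGroup.mk'_surjective A) R, ← hB, h,
      QuotientGroup.map_mk'_self])
  have hrp : r ≠ p := by
    rintro rfl
    have hker : IsPGroup r ↥(QuotientGroup.mk' A).ker := by rwa [QuotientGroup.ker_mk']
    have hBp : IsPGroup r ↥B := hRr.comap_of_ker_isPGroup _ hker
    haveI := hBp.isNilpotent
    have h1 : A.subgroupOf B ⊓ Subgroup.center ↥B ≠ ⊥ := by
      refine CfsgLib.Core.nilpotent_inf_center_ne_bot ?_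
      intro h
      exact hA (by rw [← Subgroup.map_subgroupOf_eq_of_le hAB, h, Subgroup.map_bot])
    have h3 : ∀ W : Subgroup G, W = A ⊓ Subgroup.centralizer (B : Set G) → False := by
      intro W hW
      haveI : W.Normal := hW ▸ inferInstance
      rcases hAmin W inferInstance (hW ▸ inf_le_left) with h | h
      · apply h1
        rw [eq_bot_iff]
        rintro x ⟨hx1, hx2⟩
        have hxW : (x : G) ∈ W := hW ▸ Subgroup.mem_inf.2 ⟨hx1, Subgroup.mem_centralizer_iff.2
          fun b hb => congrArg Subtype.val (Subgroup.mem_center_iff.1 hx2 ⟨b, hb⟩)⟩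
        rw [h, Subgroup.mem_bot] at hxW
        exact Subgroup.mem_bot.2 (Subtype.ext hxW)
      · have h4 : B ≤ Subgroup.centralizer (A : Set G) := by
          intro b hb
          rw [Subgroup.mem_centralizer_iff]
          intro a ha
          have : a ∈ A ⊓ Subgroup.centralizer (B : Set G) := hW ▸ h.symm ▸ ha
          exact (Subgroup.mem_centralizer_iff.1 this.2 b hb).symm
        rw [hCA] at h4
        exact hBne (le_antisymm h4 hAB)
    exact h3 _ rfl
  have hcompl : ∀ W : Subgroup G, IsCoatom W → W.normalCore = ⊥ →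
      (B ⊓ W) ⊔ A = B ∧ (B ⊓ W) ⊓ A = ⊥ ∧ Subgroup.normalizer ((B ⊓ W : Subgroup G) : Set G) = W := by
    intro W hW hWc
    have h1 := CfsgLib.Core.inf_sup_eq_of_sup_eq_top (M := B) hAB
      (CfsgLib.Core.sup_eq_top_of_coreFree hW hWc hA)
    have h2 : (B ⊓ W) ⊓ A = ⊥ :=
      le_bot_iff.1 (hAU W hW hWc ▸ le_inf inf_le_right (inf_le_left.trans inf_le_right))
    refine ⟨h1, h2, (hW.le_iff.1 ?_).resolve_left fun h => ?_⟩
    · intro w hw
      rw [Subgroup.mem_normalizer_iff]
      intro x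
      refine ⟨fun hx => ⟨hBn.conj_mem x hx.1 w, W.mul_mem (W.mul_mem hw hx.2) (W.inv_mem hw)⟩,
        fun hx => ?_⟩
      have h3 := hBn.conj_mem _ hx.1 w⁻¹
      have h4 := W.mul_mem (W.mul_mem (W.inv_mem hw) hx.2) hw
      exact ⟨by simpa [mul_assoc] using h3, by simpa [mul_assoc] using h4⟩
    · haveI : (B ⊓ W).Normal := Subgroup.normalizer_eq_top_iff.1 h
      have h5 : B ⊓ W = ⊥ :=
        le_bot_iff.1 (hWc ▸ Subgroup.normal_le_normalCore.2 (inf_le_right : B ⊓ W ≤ W))
      rw [h5, bot_sup_eq] at h1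
      exact hBne h1.symm
  obtain ⟨hU1, hU2, hU3⟩ := hcompl U hU hUc
  obtain ⟨hV1, hV2, hV3⟩ := hcompl V hV hVc
  have hcard : ∀ X : Subgroup G, X ⊔ A = B → X ⊓ A = ⊥ → Nat.card X = Nat.card ↥R := by
    intro X hX hX'
    have h := CfsgLib.Core.card_map_mk' (N := A) X
    rw [inf_comm, hX', Subgroup.card_bot, mul_one] at h
    rw [← h]
    have hmap := congrArg (Subgroup.map (QuotientGroup.mk' A)) hX
    rw [Subgroup.map_sup, QuotientGroup.map_mk'_self, sup_bot_eq, hB,
      Subgroup.map_comap_eq_self_of_surjective (QuotientGroup.mk'_surjective A) R] at hmap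
    rw [hmap]
  have hcop : (Nat.card ↥(B ⊓ U)).Coprime (Nat.card A) := by
    rw [hcard _ hU1 hU2]
    exact IsPGroup.coprime_card_of_ne r p hrp R A hRr hAp
  obtain ⟨a, -, ha⟩ := CfsgLib.Core.exists_conj_eq_of_coprime (A := B ⊓ U) (K := A) (B := B ⊓ V)
    (CfsgLib.Core.le_normalizer_normal _) hcop (Or.inr inferInstance)
    (hU1.symm ▸ inf_le_left) (by rw [hcard _ hU1 hU2, hcard _ hV1 hV2])
  refine ⟨a, ?_⟩
  rw [← hU3, ← hV3, ← ha]
  rw [CfsgLib.Core.conj_smul_eq_map, CfsgLib.Core.conj_smul_eq_map]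
  exact Subgroup.map_equiv_normalizer_eq _ (MulAut.conj a)

end Cfsg.Agent.S0551
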