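import Cfsg.Statements.S0552
import Cfsg.Agent.Lib.CoreLayer

set_option autoImplicit false
open Cfsg

namespace Cfsg.Agent.S0552

/-- Let σ be an automorphism of a finite solvable group G fixing every element of the Fitting subgroup. If σ is not the identity then the order of σ and the order of G have a common prime factor. -/
theorem result {G : Type*} [Group G] [Finite G] [Group.IsSolvable G] (σ : G ≃* G) (hσ : ∀ x ∈ Cfsg.fittingSubgroup G, σ x = x) (hne : σ ≠ MulEquiv.refl G) : ¬ (orderOf σ).Coprime (Nat.card G) := by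
  intro hcop
  apply hne
  haveI := CfsgLib.Core.normal_fittingSubgroup (G := G)
  have hz : ∀ x : G, x⁻¹ * σ x ∈ Cfsg.fittingSubgroup G := by
    intro x
    apply CfsgLib.Core.centralizer_fitting_le
    rw [Subgroup.mem_centralizer_iff]
    intro f hf
    have hxf : x * f * x⁻¹ ∈ Cfsg.fittingSubgroup G := ‹(Cfsg.fittingSubgroup G).Normal›.conj_mem f hf x
    have h1 := hσ _ hxf
    rw [map_mul, map_mul, map_inv, hσ f hf] at h1
    calc f * (x⁻¹ * σ x) = x⁻¹ * (x * f * x⁻¹) * σ x := by group
      _ = x⁻¹ * (σ x * f * (σ x)⁻¹) * σ x := by rw [h1]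
      _ = x⁻¹ * σ x * f := by group
  refine MulEquiv.ext fun x => ?_
  set z := x⁻¹ * σ x with hzdef
  have hfix : σ z = z := hσ z (hz x)
  have hpow : ∀ n : ℕ, (σ ^ n) x = x * z ^ n := by
    intro n
    induction n with
    | zero => simp
    | succ k ih =>
      have hx : σ x = x * z := by rw [hzdef]; group
      rw [pow_succ', MulAut.mul_apply, ih, map_mul, map_pow, hfix, hx, pow_succ' z k, mul_assoc]
  have h1 : z ^ orderOf σ = 1 := by
    have := hpow (orderOf σ)
    rw [pow_orderOf_eq_one] at this
    simpa using this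
  have h2 : z ^ Nat.card G = 1 := pow_card_eq_one'
  have h3 : z = 1 := by
    have := pow_gcd_eq_one.mpr ⟨h1, h2⟩
    rwa [hcop.gcd_eq_one, pow_one] at this
  have : σ x = x := by
    calc σ x = x * z := by rw [hzdef]; group
      _ = x := by rw [h3, mul_one]
  simpa using this

end Cfsg.Agent.S0552
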