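import Cfsg.Statements.S0553
import Cfsg.Agent.Lib.CoreFitting

set_option autoImplicit false
open Cfsg

namespace Cfsg.Agent.S0553

universe w

open CfsgLib.Core

theorem key : ∀ (n : ℕ) (G : Type w) [Group G] [Finite G], Nat.card G ≤ n → Group.IsSolvable G → Nontrivial G →
    (∀ M : Subgroup G, IsCoatom M → (Nat.card M).Coprime M.index) →
    ∃ p : ℕ, p.Prime ∧ p ∣ Nat.card G ∧ ∀ P : Sylow p G, (P : Subgroup G).Normal := by
  intro n
  induction n with
  | zero => intro G _ _ h; exact absurd h (by simp [Nat.card_pos.ne'])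
  | succ n ih =>
    intro G _ _ hn hs hnt h
    haveI := hs
    obtain ⟨N, hN, hNb, -, hmin⟩ := exists_minimal_normal_le (N := (⊤ : Subgroup G)) top_ne_bot
    haveI := hN
    obtain ⟨p, hp, hNp⟩ := exists_isPGroup_of_minimal_normal hNb hmin
    haveI := Fact.mk hp
    obtain ⟨kN, hkN⟩ := IsPGroup.iff_card.1 hNp
    have hpN : p ∣ Nat.card N := by
      rcases kN with _ | k
      · exact absurd (Subgroup.card_eq_one.1 (hkN.trans (pow_zero p))) hNb
      · exact hkN ▸ dvd_pow_self p k.succ_ne_zero
    have hpG : p ∣ Nat.card G := hpN.trans N.card_subgroup_dvd_card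
    -- if `N` is a Sylow subgroup we are done
    have hdone : ¬ p ∣ N.index → ∀ P : Sylow p G, (P : Subgroup G).Normal := by
      intro hidx P
      set P₀ := hNp.toSylow hidx with hP₀
      have hn₀ : (P₀ : Subgroup G).Normal := by
        rw [hP₀, IsPGroup.toSylow_coe]; exact hN
      haveI := (P₀.unique_of_normal hn₀).instSubsingleton
      rw [Subsingleton.elim P P₀]
      exact hn₀
    by_cases hNt : N = ⊤
    · refine ⟨p, hp, hpG, hdone ?_⟩
      rw [hNt, Subgroup.index_top]
      exact hp.not_dvd_one
    have hlt : Nat.card (G ⧸ N) < Nat.card G := by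
      rw [Subgroup.card_eq_card_quotient_mul_card_subgroup N]
      exact lt_mul_of_one_lt_right Nat.card_pos ((Subgroup.one_lt_card_iff_ne_bot N).2 hNb)
    haveI : Nontrivial (G ⧸ N) := by
      rw [← Finite.one_lt_card_iff_nontrivial, ← Subgroup.index_eq_card]
      exact Subgroup.one_lt_index_of_ne_top hNt
    set f := QuotientGroup.mk' N
    have hf := QuotientGroup.mk'_surjective N
    obtain ⟨q, hq, hqd, hqn⟩ := ih (G ⧸ N) (by omega) (solvable_of_surjective hf) inferInstance fun M hM => by
      have hco : IsCoatom (M.comap f) := by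
        refine ⟨fun e => hM.1 ?_, fun K hK => ?_⟩
        · rw [← Subgroup.map_comap_eq_self_of_surjective hf M, e, Subgroup.map_top_of_surjective f hf]
        · have hker : f.ker ≤ K := le_trans (f.comap_bot ▸ Subgroup.comap_mono bot_le) hK.le
          have h2 : K.map f = ⊤ := hM.2 _ (lt_of_le_of_ne
            (Subgroup.map_comap_eq_self_of_surjective hf M ▸ Subgroup.map_mono hK.le)
            (fun e => hK.ne (by rw [e, Subgroup.comap_map_eq_self hker])))
          rw [← Subgroup.comap_map_eq_self hker, h2, Subgroup.comap_top]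
      have h1 := h _ hco
      rw [Subgroup.index_comap_of_surjective _ hf] at h1
      refine h1.coprime_dvd_left ?_
      calc Nat.card M = Nat.card ((M.comap f).map f) := by rw [Subgroup.map_comap_eq_self_of_surjective hf M]
        _ ∣ Nat.card (M.comap f) := Subgroup.card_map_dvd _ _
    haveI := Fact.mk hq
    obtain ⟨Q⟩ : Nonempty (Sylow q G) := inferInstance
    set QN := (Q : Subgroup G) ⊔ N
    have hQN : QN.Normal := by
      have h1 : (QN.map f).Normal := by
        rw [Subgroup.map_sup, show N.map f = ⊥ from (Subgroup.map_eq_bot_iff N).2 (QuotientGroup.ker_mk' N).ge,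
          sup_bot_eq, ← Sylow.coe_mapSurjective hf]
        exact hqn _
      have h2 : QN = (QN.map f).comap f := (Subgroup.comap_map_eq_self (by rw [QuotientGroup.ker_mk']; exact le_sup_right)).symm
      rw [h2]; exact h1.comap f
    haveI := hQN
    have hfr := Q.normalizer_sup_eq_top' (N := QN) le_sup_left
    have htop : Subgroup.normalizer ((Q : Subgroup G) : Set G) ⊔ N = ⊤ := by
      rw [eq_top_iff, ← hfr]
      exact sup_le le_sup_left (sup_le (Subgroup.le_normalizer.trans le_sup_left) le_sup_right)
    by_cases hnq : Subgroup.normalizer ((Q : Subgroup G) : Set G) = ⊤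
    · refine ⟨q, hq, hqd.trans N.card_quotient_dvd_card, fun P => ?_⟩
      have hn₀ : (Q : Subgroup G).Normal := Subgroup.normalizer_eq_top_iff.1 hnq
      haveI := (Q.unique_of_normal hn₀).instSubsingleton
      rw [Subsingleton.elim P Q]
      exact hn₀
    obtain ⟨M, hM, hle⟩ := (eq_top_or_exists_le_coatom (Subgroup.normalizer ((Q : Subgroup G) : Set G))).resolve_left hnq
    have hMN : M ⊔ N = ⊤ := top_le_iff.1 (htop ▸ sup_le_sup_right hle N)
    have hNM : ¬ N ≤ M := fun hh => hM.1 (by rw [← hMN, sup_eq_left.2 hh])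
    have hinf : M ⊓ N = ⊥ := by
      haveI := isMulCommutative_of_minimal_normal hmin
      have hn' : (M ⊓ N).Normal := by
        rw [← Subgroup.normalizer_eq_top_iff, eq_top_iff, ← hMN]
        refine sup_le (fun m hm => Subgroup.mem_normalizer_iff.2 fun x => ?_) (fun y hy => Subgroup.mem_normalizer_iff.2 fun x => ?_)
        · exact ⟨fun hx => ⟨M.mul_mem (M.mul_mem hm hx.1) (M.inv_mem hm), hN.conj_mem x hx.2 m⟩, fun hx =>
            ⟨by simpa [mul_assoc] using M.mul_mem (M.mul_mem (M.inv_mem hm) hx.1) hm,
             by simpa [mul_assoc] using hN.conj_mem _ hx.2 m⁻¹⟩⟩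
        · have hc : ∀ x ∈ N, y * x * y⁻¹ = x := fun x hx => by
            rw [show y * x = x * y from congrArg Subtype.val (IsMulCommutative.is_comm.comm (⟨y, hy⟩ : N) ⟨x, hx⟩), mul_inv_cancel_right]
          constructor
          · intro hx; rw [hc x hx.2]; exact hx
          · intro hx
            have hxN : x ∈ N := by simpa [mul_assoc] using hN.conj_mem _ hx.2 y⁻¹
            rwa [hc x hxN] at hx
      exact (hmin _ hn' inf_le_right).resolve_right fun e => hNM (e.ge.trans inf_le_left)
    have h1 := card_sup_of_disjoint (le_top.trans (Subgroup.normalizer_eq_top N).ge) hinf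
    rw [hMN, Subgroup.card_top, ← M.index_mul_card, mul_comm] at h1
    have h2 : M.index = Nat.card N := Nat.eq_of_mul_eq_mul_left Nat.card_pos h1
    refine ⟨p, hp, hpG, hdone fun hdvd => ?_⟩
    have h3 : N.index = Nat.card M := by
      have h4 := N.index_mul_card
      have h5 := M.index_mul_card
      rw [h2] at h5
      rw [← h5, mul_comm (Nat.card N)] at h4
      exact Nat.eq_of_mul_eq_mul_right Nat.card_pos h4
    rw [h3] at hdvd
    exact hp.not_dvd_one (Nat.eq_one_of_dvd_coprimes (h M hM) hdvd (h2 ▸ hpN) ▸ dvd_rfl)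

/-- Let G be a nontrivial finite solvable group in which every maximal subgroup has order coprime to its index. Then for some prime p dividing the order of G the Sylow p-subgroups of G are normal. -/
theorem result {G : Type*} [Group G] [Finite G] [Group.IsSolvable G] [Nontrivial G] (h : ∀ M : Subgroup G, IsCoatom M → (Nat.card M).Coprime M.index) : ∃ p : ℕ, p.Prime ∧ p ∣ Nat.card G ∧ ∀ P : Sylow p G, (P : Subgroup G).Normal := by
  exact key _ G le_rfl inferInstance inferInstance h

end Cfsg.Agent.S0553
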