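import Cfsg.Statements.S0554
import Cfsg.Agent.Lib.CoreFitting
import Cfsg.Agent.Lib.CoreSZ

set_option autoImplicit false
open Cfsg

namespace Cfsg.Agent.S0554

universe u

theorem absorb {G : Type*} [Group G] {N : Subgroup G} [N.Normal] :
    ∀ (t : ℕ) (f : Fin t → G) (j : Fin t) (n : G), n ∈ N → ∃ f' : Fin t → G,
      (∀ i, i ≠ j → f' i = f i) ∧ (∃ m ∈ N, f' j = f j * m) ∧
      (List.ofFn f').prod = (List.ofFn f).prod * n := by
  intro t
  induction t with
  | zero => intro f j; exact j.elim0
  | succ k ih =>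
    intro f j n hn
    refine Fin.cases ?_ (fun j' => ?_) j
    · set T := (List.ofFn fun i => f i.succ).prod with hT
      refine ⟨Function.update f 0 (f 0 * (T * n * T⁻¹)), fun i hi => Function.update_of_ne hi _ _,
        ⟨T * n * T⁻¹, ‹N.Normal›.conj_mem n hn T, Function.update_self _ _ _⟩, ?_⟩
      rw [List.ofFn_succ, List.ofFn_succ, List.prod_cons, List.prod_cons, Function.update_self]
      simp only [Function.update_of_ne (Fin.succ_ne_zero _), ← hT]
      group
    · obtain ⟨g, hg1, hg2, hg3⟩ := ih (fun i => f i.succ) j' n hn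
      refine ⟨Fin.cons (f 0) g, ?_, ?_, ?_⟩
      · intro i hi
        induction i using Fin.cases with
        | zero => simp
        | succ i' =>
          rw [Fin.cons_succ]
          exact hg1 i' fun h => hi (by rw [h])
      · simpa using hg2
      · rw [List.ofFn_succ, List.ofFn_succ, List.prod_cons, List.prod_cons]
        simp only [Fin.cons_succ, Fin.cons_zero]
        rw [hg3, mul_assoc]

theorem aux : ∀ (m : ℕ) (G : Type u) [Group G] [Finite G] [Group.IsSolvable G],
    Nat.card G ≤ m → ∀ (t : ℕ) (p : Fin t → ℕ), (∀ i, (p i).Prime) → Function.Injective p →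
    (∀ q : ℕ, q.Prime → q ∣ Nat.card G → ∃ i, p i = q) → ∀ (S : (i : Fin t) → Sylow (p i) G),
    ∀ g : G, ∃ s : (i : Fin t) → G, (∀ i, s i ∈ (S i : Subgroup G)) ∧
      g = (List.ofFn s).prod := by
  intro m
  induction m with
  | zero =>
    intro G _ _ _ hle
    exact absurd hle (by simp [Nat.card_pos.ne'])
  | succ m ih =>
    intro G _ _ _ hle t p hp hinj hall S g
    rcases subsingleton_or_nontrivial G with hG | hG
    · exact ⟨fun _ => 1, fun i => one_mem _, Subsingleton.elim _ _⟩
    obtain ⟨N, hN, hN0, -, hmin⟩ :=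
      CfsgLib.Core.exists_minimal_normal_le (G := G) (N := ⊤) top_ne_bot
    haveI := hN
    obtain ⟨q, hq, hNq⟩ := CfsgLib.Core.exists_isPGroup_of_minimal_normal hN0 hmin
    haveI := Fact.mk hq
    have hqdvd : q ∣ Nat.card G := by
      obtain ⟨k, hk⟩ := hNq.exists_card_eq
      rcases Nat.eq_zero_or_pos k with h | h
      · exact absurd (Subgroup.eq_bot_of_card_eq N (by rw [hk, h, pow_zero])) hN0
      · exact (dvd_pow_self q h.ne').trans (hk ▸ Subgroup.card_subgroup_dvd_card N)
    obtain ⟨j, rfl⟩ := hall q hq hqdvd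
    have hNS : N ≤ (S j : Subgroup G) := CfsgLib.Core.le_pCore hN hNq |>.trans
      (CfsgLib.Core.pCore_le_sylow (S j))
    let π := QuotientGroup.mk' N
    have hπ : Function.Surjective π := QuotientGroup.mk'_surjective N
    have hcl := CfsgLib.Core.card_quotient_lt hN0
    have hq' : ∀ r : ℕ, r.Prime → r ∣ Nat.card (G ⧸ N) → ∃ i, p i = r := fun r hr hd =>
      hall r hr (hd.trans (Subgroup.card_quotient_dvd_card N))
    obtain ⟨u, hu, hprod⟩ := ih (G ⧸ N) (by omega) t p hp hinj hq'
      (fun i => haveI := Fact.mk (hp i); (S i).mapSurjective hπ) (π g)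
    have hlift : ∀ i, ∃ x ∈ (S i : Subgroup G), π x = u i := fun i => by
      haveI := Fact.mk (hp i)
      have := hu i
      rw [Sylow.coe_mapSurjective] at this
      exact Subgroup.mem_map.mp this
    choose s hs hsu using hlift
    have hπprod : π g = π (List.ofFn s).prod := by
      rw [hprod, map_list_prod, List.map_ofFn]
      exact congrArg List.prod (congrArg List.ofFn (funext fun i => (hsu i).symm))
    have hn : (List.ofFn s).prod⁻¹ * g ∈ N := by
      rw [← QuotientGroup.eq_one_iff]
      show π ((List.ofFn s).prod⁻¹ * g) = 1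
      rw [map_mul, map_inv, hπprod, inv_mul_cancel]
    obtain ⟨f, hf1, ⟨n', hn', hf2⟩, hf3⟩ := absorb t s j _ hn
    refine ⟨f, fun i => ?_, ?_⟩
    · rcases eq_or_ne i j with rfl | h
      · rw [hf2]; exact Subgroup.mul_mem _ (hs i) (hNS hn')
      · rw [hf1 i h]; exact hs i
    · rw [hf3]; group

/-- Let G be a finite solvable group and let S assign to each of t distinct primes, including every prime divisor of the order of G, a Sylow subgroup of G. Then every element of G is a product s_0 s_1 ⋯ s_(t-1) with s_i in S i, the factors taken in the given order. -/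
theorem result {G : Type*} [Group G] [Finite G] [Group.IsSolvable G] (t : ℕ) (p : Fin t → ℕ) (hp : ∀ i, (p i).Prime) (hinj : Function.Injective p) (hall : ∀ q : ℕ, q.Prime → q ∣ Nat.card G → ∃ i, p i = q) (S : (i : Fin t) → Sylow (p i) G) : ∀ g : G, ∃ s : (i : Fin t) → G, (∀ i, s i ∈ (S i : Subgroup G)) ∧ g = (List.ofFn s).prod := by
  exact aux _ G (le_refl _) t p hp hinj hall S

end Cfsg.Agent.S0554
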