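import Cfsg.Statements.S0555
import Cfsg.Agent.Lib.CoreBasic

set_option autoImplicit false
open Cfsg

namespace Cfsg.Agent.S0555

open scoped commutatorElement

theorem gen_of_cyclic {G : Type*} [Group G] {A B : Subgroup G} [B.Normal] (hle : B ≤ A)
    (h : IsCyclic (↥A ⧸ B.subgroupOf A)) :
    ∃ d, d ∈ A ∧ ∀ x ∈ A, ∃ k : ℤ, (d ^ k)⁻¹ * x ∈ B := by
  obtain ⟨g, hg⟩ := h.exists_generator
  obtain ⟨d, rfl⟩ := QuotientGroup.mk_surjective g
  refine ⟨d, d.2, fun x hx => ?_⟩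
  obtain ⟨k, hk⟩ := Subgroup.mem_zpowers_iff.mp (hg ((⟨x, hx⟩ : A) : ↥A ⧸ B.subgroupOf A))
  refine ⟨k, ?_⟩
  have hk' : (((d ^ k : A)) : ↥A ⧸ B.subgroupOf A) =
      ((⟨x, hx⟩ : A) : ↥A ⧸ B.subgroupOf A) := by rw [← hk]; rfl
  simpa [Subgroup.mem_subgroupOf] using QuotientGroup.eq.mp hk'

theorem comm_of_conj {Q : Type*} [Group Q] {c : Q} {a b : ℤ} {G : Type*} [Group G]
    {π : G →* Q} {g h : G} (ha : c ^ a = π g * c * (π g)⁻¹) (hb : c ^ b = π h * c * (π h)⁻¹) :
    Commute (π ⁅g⁻¹, h⁻¹⁆) c := by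
  rw [map_commutatorElement, commutatorElement_def, map_inv, map_inv, inv_inv, inv_inv]
  set u := π g
  set v := π h
  have e : ∀ (w : Q) (n : ℤ), (w * c * w⁻¹) ^ n = w * c ^ n * w⁻¹ := fun w n => by
    rw [← MulAut.conj_apply, ← map_zpow]; rfl
  have e1 : u * (v * c * v⁻¹) * u⁻¹ = v * (u * c * u⁻¹) * v⁻¹ := by
    rw [← hb, ← ha, ← e u b, ← e v a, ← hb, ← ha, ← zpow_mul, ← zpow_mul, mul_comm]
  show u⁻¹ * v⁻¹ * u * v * c = c * (u⁻¹ * v⁻¹ * u * v)
  calc u⁻¹ * v⁻¹ * u * v * c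
      = u⁻¹ * v⁻¹ * (u * (v * c * v⁻¹) * u⁻¹) * (u * v) := by group
    _ = u⁻¹ * v⁻¹ * (v * (u * c * u⁻¹) * v⁻¹) * (u * v) := by rw [e1]
    _ = c * (u⁻¹ * v⁻¹ * u * v) := by group

/-- Let i ≥ 1. If in the derived series of a group the quotient of the i-th term by the (i+1)-st and the quotient of the (i+1)-st by the (i+2)-nd are both cyclic, then the (i+1)-st and (i+2)-nd terms coincide. -/
theorem result {G : Type*} [Group G] (i : ℕ) (hi : 1 ≤ i) (h₁ : IsCyclic (↥(derivedSeries G i) ⧸ (derivedSeries G (i + 1)).subgroupOf (derivedSeries G i))) (h₂ : IsCyclic (↥(derivedSeries G (i + 1)) ⧸ (derivedSeries G (i + 2)).subgroupOf (derivedSeries G (i + 1)))) : derivedSeries G (i + 1) = derivedSeries G (i + 2) := by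
  haveI h2n : (derivedSeries G (i + 2)).Normal := derivedSeries_normal G (i + 2)
  obtain ⟨d, hd⟩ := gen_of_cyclic (derivedSeries_antitone G (Nat.le_succ i)) h₁
  obtain ⟨c, hc⟩ := gen_of_cyclic (derivedSeries_antitone G (Nat.le_succ (i + 1))) h₂
  let π := QuotientGroup.mk' (derivedSeries G (i + 2))
  have hπ : ∀ x ∈ derivedSeries G (i + 1), π x ∈ Subgroup.zpowers (π c) := by
    intro x hx
    obtain ⟨k, hk⟩ := hc.2 x hx
    refine Subgroup.mem_zpowers_iff.mpr ⟨k, ?_⟩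
    rw [← map_zpow]
    exact QuotientGroup.eq.mpr hk
  haveI h1n : (derivedSeries G (i + 1)).Normal := derivedSeries_normal G (i + 1)
  have hcc : ∀ g h : G, Commute (π ⁅g, h⁆) (π c) := by
    intro g h
    obtain ⟨a, ha⟩ := Subgroup.mem_zpowers_iff.mp (hπ _ (h1n.conj_mem c hc.1 g⁻¹))
    obtain ⟨b, hb⟩ := Subgroup.mem_zpowers_iff.mp (hπ _ (h1n.conj_mem c hc.1 h⁻¹))
    simp only [map_mul, map_inv, inv_inv] at ha hb
    simpa using comm_of_conj (π := π) (c := π c) (a := a) (b := b) (g := g⁻¹) (h := h⁻¹)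
      (ha.trans (by rw [map_inv π g, inv_inv])) (hb.trans (by rw [map_inv π h, inv_inv]))
  have hcent : ∀ x ∈ derivedSeries G i, Commute (π x) (π c) := by
    intro x hx
    have hle : derivedSeries G i ≤ (Subgroup.centralizer {π c}).comap π := by
      refine (derivedSeries_antitone G hi).trans ?_
      rw [derivedSeries_one, commutator_def, Subgroup.commutator_le]
      intro g _ h _
      exact Subgroup.mem_centralizer_singleton_iff.mpr (hcc g h)
    exact Subgroup.mem_centralizer_singleton_iff.mp (hle hx)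
  have hcomm : ∀ x ∈ derivedSeries G i, ∀ y ∈ derivedSeries G i, Commute (π x) (π y) := by
    have hform : ∀ x ∈ derivedSeries G i, ∃ k l : ℤ, π x = π d ^ k * π c ^ l := by
      intro x hx
      obtain ⟨k, hk⟩ := hd.2 x hx
      obtain ⟨l, hl⟩ := Subgroup.mem_zpowers_iff.mp (hπ _ hk)
      refine ⟨k, l, ?_⟩
      rw [hl, map_mul, map_inv, map_zpow]; group
    intro x hx y hy
    obtain ⟨k, l, hk⟩ := hform x hx
    obtain ⟨k', l', hk'⟩ := hform y hy
    have hdc : Commute (π d) (π c) := hcent d hd.1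
    rw [hk, hk']
    exact (((Commute.refl (π d)).zpow_zpow k k').mul_right (hdc.zpow_zpow k l')).mul_left
      ((hdc.symm.zpow_zpow l k').mul_right ((Commute.refl (π c)).zpow_zpow l l'))
  refine le_antisymm ?_ (derivedSeries_antitone G (Nat.le_succ (i + 1)))
  rw [derivedSeries_succ G i, Subgroup.commutator_le]
  intro g hg h hh
  rw [← QuotientGroup.eq_one_iff]
  show π ⁅g, h⁆ = 1
  rw [map_commutatorElement]
  exact commutatorElement_eq_one_iff_mul_comm.mpr (hcomm g hg h hh)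

end Cfsg.Agent.S0555
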