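import Cfsg.Statements.S0556
import Cfsg.Agent.Lib.CoreFrobenius
import Cfsg.Agent.Lib.CoreCoprime

set_option autoImplicit false
open Cfsg
open scoped commutatorElement
set_option maxHeartbeats 400000

namespace Cfsg.Agent.S0556

/-- If a finite group has a maximal subgroup that is abelian, then the third term of its derived series is trivial (so the group is solvable of derived length at most three). -/
theorem result {G : Type*} [Group G] [Finite G] (A : Subgroup G) (hA : IsCoatom A) [IsMulCommutative A] : derivedSeries G 3 = ⊥ := by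
  classical
  have hmulA : ∀ a ∈ A, ∀ b ∈ A, a * b = b * a := fun a ha b hb =>
    (Subgroup.mem_centralizer_iff.1 (A.le_centralizer ha) b hb).symm
  suffices h2 : derivedSeries G 2 ≤ Subgroup.center G by
    rw [show derivedSeries G 3 = ⁅derivedSeries G 2, derivedSeries G 2⁆ from rfl, eq_bot_iff]
    refine le_trans (Subgroup.commutator_mono h2 h2) ?_
    rw [Subgroup.commutator_eq_bot_iff_le_centralizer.2 (Subgroup.center_le_centralizer _)]
  have hD1 : derivedSeries G 2 = ⁅commutator G, commutator G⁆ := by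
    rw [derivedSeries_succ, derivedSeries_one]
  by_cases hAn : A.Normal
  · haveI := hAn
    have hcyc : commutator G ≤ A := by
      obtain ⟨x, hx⟩ : ∃ x, x ∉ A := by
        by_contra hne; push Not at hne
        exact hA.1 (eq_top_iff.2 fun x _ => hne x)
      have htop := hA.2 (A ⊔ Subgroup.zpowers x)
        (lt_of_le_of_ne le_sup_left fun e => hx (e ▸ Subgroup.mem_sup_right (Subgroup.mem_zpowers x)))
      haveI : IsCyclic (G ⧸ A) := by
        refine isCyclic_iff_exists_zpowers_eq_top.2 ⟨QuotientGroup.mk' A x, eq_top_iff.2 fun v _ => ?_⟩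
        obtain ⟨v, rfl⟩ := QuotientGroup.mk'_surjective A v
        have h1 : (A ⊔ Subgroup.zpowers x).map (QuotientGroup.mk' A) = Subgroup.zpowers (QuotientGroup.mk' A x) := by
          rw [Subgroup.map_sup, MonoidHom.map_zpowers,
            show A.map (QuotientGroup.mk' A) = ⊥ from (Subgroup.map_eq_bot_iff _).2 (by rw [QuotientGroup.ker_mk']),
            bot_sup_eq]
        exact h1.le ⟨v, htop.ge (Subgroup.mem_top v), rfl⟩
      exact Subgroup.Normal.quotient_commutative_iff_commutator_le.1 inferInstance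
    rw [hD1]
    refine (Subgroup.commutator_mono hcyc hcyc).trans ?_
    rw [Subgroup.commutator_eq_bot_iff_le_centralizer.2 A.le_centralizer]
    exact bot_le
  set Z := Subgroup.center G with hZ
  have hNA : Subgroup.normalizer (A : Set G) = A := by
    by_contra hne
    exact hAn (Subgroup.normalizer_eq_top_iff.1 (hA.2 _ (lt_of_le_of_ne Subgroup.le_normalizer (Ne.symm hne))))
  have hZA : Z ≤ A := by
    rw [← hNA]
    exact (Subgroup.center_le_centralizer _).trans (Subgroup.centralizer_le_normalizer _)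
  set π := QuotientGroup.mk' Z
  have hs := QuotientGroup.mk'_surjective Z
  set Ā := A.map π with hĀ
  have hAcomap : Ā.comap π = A := by
    rw [hĀ, Subgroup.comap_map_eq, QuotientGroup.ker_mk', sup_eq_left.2 hZA]
  have hĀco : IsCoatom Ā := by
    refine ⟨fun e => hA.1 ?_, fun K hK => ?_⟩
    · rw [← hAcomap, e, Subgroup.comap_top]
    · have h1 : K.comap π = ⊤ := hA.2 _ (by
        rw [← hAcomap]; exact (Subgroup.comap_lt_comap_of_surjective hs).2 hK)
      rw [← Subgroup.map_comap_eq_self_of_surjective hs K, h1, Subgroup.map_top_of_surjective _ hs]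
  have hFrob : Cfsg.IsFrobeniusComplement Ā := by
    refine CfsgLib.Core.isFrobeniusComplement_of_malnormal (fun e => hAn ?_) hĀco.1 ?_
    · have : A = Z := le_antisymm (by
        intro a ha
        exact (QuotientGroup.eq_one_iff a).1 (Subgroup.mem_bot.1 (e.le ⟨a, ha, rfl⟩))) hZA
      rw [this]; infer_instance
    · intro g hg x hx hgx
      obtain ⟨g, rfl⟩ := hs g
      obtain ⟨a, ha, rfl⟩ := hx
      have hgA : g ∉ A := fun h => hg ⟨g, h, rfl⟩
      have hga : g * a * g⁻¹ ∈ A := by
        rw [← hAcomap, Subgroup.mem_comap, map_mul, map_mul, map_inv]; exact hgx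
      refine (QuotientGroup.eq_one_iff a).2 (Subgroup.mem_center_iff.2 fun v => ?_)
      set C := Subgroup.centralizer {a}
      have hAC : A ≤ C := fun b hb => Subgroup.mem_centralizer_singleton_iff.2 (hmulA b hb a ha)
      have hgC : A.map (MulAut.conj g⁻¹).toMonoidHom ≤ C := by
        rintro _ ⟨b, hb, rfl⟩
        rw [Subgroup.mem_centralizer_singleton_iff]
        show g⁻¹ * b * g⁻¹⁻¹ * a = a * (g⁻¹ * b * g⁻¹⁻¹)
        have h := hmulA b hb _ hga
        calc g⁻¹ * b * g⁻¹⁻¹ * a = g⁻¹ * (b * (g * a * g⁻¹)) * g := by group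
          _ = g⁻¹ * ((g * a * g⁻¹) * b) * g := by rw [h]
          _ = _ := by group
      have hC : C = ⊤ := by
        refine hA.2 _ (lt_of_le_of_ne hAC fun e => hgA ?_)
        rw [← e] at hgC
        have h1 := CfsgLib.Core.eq_of_le_of_card_le hgC
          (by rw [Subgroup.card_map_of_injective (MulAut.conj g⁻¹).injective])
        have h2 : g⁻¹ ∈ Subgroup.normalizer (A : Set G) := by
          refine Subgroup.mem_normalizer_iff.2 fun u => ?_
          conv_rhs => rw [← h1]
          exact (Subgroup.mem_map_iff_mem (f := (MulAut.conj g⁻¹).toMonoidHom) (MulAut.conj g⁻¹).injective).symm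
        rw [hNA] at h2
        exact inv_mem_iff.1 h2
      exact Subgroup.mem_centralizer_singleton_iff.1 (hC.ge (Subgroup.mem_top v))
  obtain ⟨K, hKn, -, hKinf, hKsup, hKcard⟩ := CfsgLib.Core.exists_kernel hFrob
  haveI := hKn
  have hAbab : ∀ a ∈ Ā, ∀ b ∈ Ā, a * b = b * a := by
    rintro _ ⟨a, ha, rfl⟩ _ ⟨b, hb, rfl⟩
    rw [← map_mul, ← map_mul, hmulA a ha b hb]
  have hĀsol : Group.IsSolvable Ā := Group.isSolvable_of_comm fun a b => Subtype.ext (hAbab a a.2 b b.2)
  -- invariant subgroups of the kernel are trivial or everything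
  have hinv : ∀ X : Subgroup (G ⧸ Z), X ≤ K → Ā ≤ Subgroup.normalizer (X : Set (G ⧸ Z)) → X = ⊥ ∨ X = K := by
    intro X hXK hX
    rcases eq_or_ne X ⊥ with e | hX0
    · exact Or.inl e
    right
    have htop : X ⊔ Ā = ⊤ := hĀco.2 _ (lt_of_le_of_ne le_sup_right fun e => hX0
      (le_bot_iff.1 (hKinf ▸ le_inf hXK (e ▸ le_sup_left))))
    refine le_antisymm hXK fun k hk => ?_
    have hk' : k ∈ ((X ⊔ Ā : Subgroup (G ⧸ Z)) : Set (G ⧸ Z)) := htop.ge (Subgroup.mem_top k)
    rw [Subgroup.coe_mul_of_right_le_normalizer_left X Ā hX] at hk'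
    obtain ⟨x, hx, a, ha, rfl⟩ := hk'
    have haK : a ∈ K := by simpa using mul_mem (inv_mem (hXK hx)) hk
    have : a = 1 := Subgroup.mem_bot.1 (hKinf.le ⟨haK, ha⟩)
    subst this
    simpa using hx
  have hcop : (Nat.card Ā).Coprime (Nat.card K) := hKcard ▸ CfsgLib.Core.coprime_card_index hFrob
  have hĀK : Ā ≤ Subgroup.normalizer (K : Set (G ⧸ Z)) := by
    rw [Subgroup.normalizer_eq_top_iff.2 hKn]; exact le_top
  have hK0 : K ≠ ⊥ := fun e => hĀco.1 (by rw [e, bot_sup_eq] at hKsup; exact hKsup)
  obtain ⟨p, hp, hpd⟩ := Nat.exists_prime_and_dvd (mt Subgroup.card_eq_one.1 hK0)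
  haveI := Fact.mk hp
  obtain ⟨P, hP⟩ := CfsgLib.Core.exists_invariant_sylow p hĀK hcop (Or.inl hĀsol)
  set P' := (P : Subgroup K).map K.subtype with hP'
  have hP0 : P' ≠ ⊥ := by
    rw [Ne, hP', Subgroup.map_eq_bot_iff_of_injective _ K.subtype_injective]
    exact P.ne_bot_of_dvd_card hpd
  have hPK : P' = K := (hinv P' (Subgroup.map_subtype_le _) hP).resolve_left hP0
  have hKp : IsPGroup p K := hPK ▸ P.2.map K.subtype
  have hKab : ⁅K, K⁆ = ⊥ := by
    rcases hinv ⁅K, K⁆ (Subgroup.commutator_le_self K) (by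
      rw [Subgroup.normalizer_eq_top_iff.2 (inferInstance : (⁅K, K⁆ : Subgroup (G ⧸ Z)).Normal)]; exact le_top) with e | e
    · exact e
    · exfalso
      haveI := hKp.isNilpotent
      haveI : Nontrivial K := (Subgroup.nontrivial_iff_ne_bot K).2 hK0
      refine (Group.IsSolvable.commutator_lt_top_of_nontrivial K).ne (Subgroup.map_injective K.subtype_injective ?_)
      rw [Subgroup.map_subtype_commutator, e, ← MonoidHom.range_eq_map, Subgroup.range_subtype]
  have hGK : commutator (G ⧸ Z) ≤ K := by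
    rw [_root_.commutator_def, Subgroup.commutator_le]
    intro a _ b _
    have hdec : ∀ v : G ⧸ Z, ∃ u ∈ Ā, QuotientGroup.mk' K v = QuotientGroup.mk' K u := by
      intro v
      have hv := hKsup.ge (Subgroup.mem_top v)
      obtain ⟨k, hk, u, hu, rfl⟩ := Subgroup.mem_sup_of_normal_left.1 hv
      exact ⟨u, hu, by rw [map_mul, show QuotientGroup.mk' K k = 1 from (QuotientGroup.eq_one_iff k).2 hk, one_mul]⟩
    obtain ⟨u, hu, hua⟩ := hdec a
    obtain ⟨w, hw, hwb⟩ := hdec b
    refine (QuotientGroup.eq_one_iff _).1 ?_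
    show QuotientGroup.mk' K ⁅a, b⁆ = 1
    rw [map_commutatorElement, hua, hwb, ← map_commutatorElement, commutatorElement_eq_one_iff_mul_comm.2 (hAbab u hu w hw),
      map_one]
  have hD2 : (derivedSeries G 2).map π ≤ ⊥ := by
    rw [map_derivedSeries_eq hs, derivedSeries_succ, derivedSeries_one, ← hKab]
    exact Subgroup.commutator_mono hGK hGK
  rwa [Subgroup.map_le_iff_le_comap, MonoidHom.comap_bot, QuotientGroup.ker_mk'] at hD2

end Cfsg.Agent.S0556
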