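import Cfsg.Statements.S0557
import Cfsg.Agent.Lib.CoreBasic

set_option autoImplicit false
open Cfsg

namespace Cfsg.Agent.S0557

open scoped commutatorElement IsMulCommutative

theorem focal_mono {G : Type*} [Group G] {A B : Subgroup G} (h : A ≤ B) :
    A.focalSubgroup ≤ B.focalSubgroup := by
  rw [Subgroup.focalSubgroup_def, Subgroup.focalSubgroup_def]
  exact Subgroup.closure_mono fun g ⟨hg, x, hx, u, he⟩ => ⟨h hg, x, h hx, u, he⟩

theorem mem_focal_of_gen {G : Type*} [Group G] [Finite G] {N H : Subgroup G} [N.Normal]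
    (hHall : (Nat.card H).Coprime H.index)
    (hN : N = Subgroup.closure {g : G | (orderOf g).Coprime (Nat.card H)}) {x : G}
    (hx : x ∈ N ⊓ H) : x ∈ (N ⊓ H).focalSubgroup := by
  set M := (N ⊓ H).subgroupOf N with hM
  have hMH : Nat.card M ∣ Nat.card H := by
    rw [hM, ← Subgroup.card_map_of_injective (f := N.subtype) Subtype.coe_injective,
      Subgroup.map_subgroupOf_eq_of_le inf_le_left]
    exact Subgroup.card_dvd_of_le inf_le_right
  have hMi : M.index ∣ H.index := by
    have e : M.index = H.relIndex N := Subgroup.inf_relIndex_left N H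
    rw [e]
    have hn : H ≤ Subgroup.normalizer (N : Set G) := by
      rw [Subgroup.normalizer_eq_top (H := N)]; exact le_top
    have e1 := CfsgLib.Core.card_sup_mul_card_inf hn
    have e2 := CfsgLib.Core.card_inf_mul_relIndex H N
    have e3 := CfsgLib.Core.card_mul_relIndex (le_sup_left : H ≤ H ⊔ N)
    have e4 : H.relIndex N = H.relIndex (H ⊔ N) := by
      apply Nat.eq_of_mul_eq_mul_left
        (Nat.mul_pos (Nat.card_pos : 0 < Nat.card H) (Nat.card_pos : 0 < Nat.card ↥(H ⊓ N)))
      rw [mul_assoc, e2]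
      rw [← e3] at e1
      linarith
    rw [e4]
    exact Subgroup.relIndex_dvd_index_of_le le_sup_left
  set V := M.transferFocal with hV
  have hVt : ∀ y : N, V y = 1 := by
    have hgen : N ≤ V.ker.map N.subtype := by
      conv_lhs => rw [hN]
      rw [Subgroup.closure_le]
      intro g hg
      have hgN : g ∈ N := hN.ge (Subgroup.subset_closure hg)
      refine ⟨⟨g, hgN⟩, ?_, rfl⟩
      have h1 : orderOf (V ⟨g, hgN⟩) ∣ orderOf g :=
        (orderOf_map_dvd V _).trans (by rw [← Subgroup.orderOf_coe])
      have h2 : orderOf (V ⟨g, hgN⟩) ∣ Nat.card H :=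
        (orderOf_dvd_natCard _).trans ((Subgroup.card_quotient_dvd_card _).trans hMH)
      exact MonoidHom.mem_ker.mpr (orderOf_eq_one_iff.mp
        (Nat.eq_one_of_dvd_coprimes hg h1 h2))
    intro y
    obtain ⟨z, hz, hzy⟩ := hgen y.2
    rw [← Subtype.ext hzy]
    exact hz
  set m : M := ⟨⟨x, hx.1⟩, hx⟩
  have h1 := Subgroup.transferFocal_eq_pow M m
  rw [← hV, hVt] at h1
  have h2 : ((Nat.card (M ⧸ M.focalSubgroupOf))).Coprime M.index :=
    (hHall.coprime_dvd_left ((Subgroup.card_quotient_dvd_card _).trans hMH)).coprime_dvd_right hMi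
  have h3 : (m : M ⧸ M.focalSubgroupOf) = 1 := by
    have := pow_gcd_eq_one.mpr
      ⟨(pow_card_eq_one' : (m : M ⧸ M.focalSubgroupOf) ^ Nat.card (M ⧸ M.focalSubgroupOf) = 1),
        h1.symm⟩
    rwa [h2.gcd_eq_one, pow_one] at this
  rw [QuotientGroup.eq_one_iff, Subgroup.focalSubgroupOf_def, Subgroup.mem_subgroupOf] at h3
  have h4 : M.focalSubgroup.map N.subtype ≤ (N ⊓ H).focalSubgroup := by
    rw [Subgroup.focalSubgroup_def, MonoidHom.map_closure, Subgroup.focalSubgroup_def]
    refine Subgroup.closure_mono ?_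
    rintro _ ⟨g, ⟨hg, y, hy, u, rfl⟩, rfl⟩
    exact ⟨hg, y, hy, u, map_commutatorElement N.subtype y u⟩
  exact h4 ⟨⟨x, hx.1⟩, h3, rfl⟩

/-- Let H be a subgroup of a finite group G with order coprime to its index. If iterating the focal-subgroup construction starting from H reaches the trivial subgroup after finitely many steps, then H has a normal complement in G. -/
theorem result {G : Type*} [Group G] [Finite G] (H : Subgroup G) (hHall : (Nat.card H).Coprime H.index) (n : ℕ) (hfoc : (fun K : Subgroup G => Subgroup.focalSubgroup K)^[n] H = ⊥) : ∃ N : Subgroup G, N.Normal ∧ Subgroup.IsComplement' N H := by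
  set m := Nat.card H with hm
  set N := Subgroup.closure {g : G | (orderOf g).Coprime m} with hN
  haveI hNn : N.Normal := by
    refine ⟨fun x hx g => ?_⟩
    have : N ≤ N.comap (MulAut.conj g).toMonoidHom := by
      rw [hN, Subgroup.closure_le]
      intro y hy
      refine Subgroup.subset_closure ?_
      show (orderOf ((MulAut.conj g) y)).Coprime m
      rw [MulEquiv.orderOf_eq]
      exact hy
    exact this hx
  have hk : ∀ k, N ⊓ H ≤ (fun K : Subgroup G => Subgroup.focalSubgroup K)^[k] H := by
    intro k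
    induction k with
    | zero => exact inf_le_right
    | succ k ih =>
      rw [Function.iterate_succ_apply']
      intro x hx
      refine focal_mono ih ?_
      exact mem_focal_of_gen (N := N) (H := H) hHall hN hx
  have hbot : N ⊓ H = ⊥ := le_bot_iff.mp ((hk n).trans hfoc.le)
  have htop : N ⊔ H = ⊤ := by
    rw [← Subgroup.index_eq_one]
    refine Nat.eq_one_of_dvd_coprimes hHall ?_ (Subgroup.index_dvd_of_le le_sup_right)
    refine (Subgroup.index_dvd_of_le le_sup_left).trans ?_
    -- every element of the quotient is killed by `m`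
    have hexp : ∀ q : G ⧸ N, q ^ m = 1 := by
      intro q
      obtain ⟨g, rfl⟩ := QuotientGroup.mk_surjective q
      rw [← QuotientGroup.mk_pow, QuotientGroup.eq_one_iff]
      refine Subgroup.subset_closure ?_
      refine Nat.Coprime.of_dvd_left ?_ hHall.symm
      rw [orderOf_dvd_iff_pow_eq_one, ← pow_mul, hm, Subgroup.card_mul_index]
      exact pow_card_eq_one'
    have hcop : (N.index).Coprime H.index := by
      refine Nat.coprime_of_dvd' fun r hr h1 h2 => ?_
      haveI := Fact.mk hr
      obtain ⟨q, hq⟩ := exists_prime_orderOf_dvd_card' (G := G ⧸ N) r h1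
      have : r ∣ m := hq ▸ orderOf_dvd_of_pow_eq_one (hexp q)
      exact absurd (Nat.dvd_gcd this h2) (by rw [hHall.gcd_eq_one]; exact hr.not_dvd_one)
    exact hcop.dvd_of_dvd_mul_right (by rw [hm, Subgroup.card_mul_index]; exact N.index_dvd_card)
  exact ⟨N, hNn, Subgroup.isComplement'_of_disjoint_and_mul_eq_univ (disjoint_iff.mpr hbot)
    (by rw [← Subgroup.normal_mul N H, htop]; rfl)⟩

end Cfsg.Agent.S0557
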