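import Cfsg.Statements.S0558
import Cfsg.Agent.Lib.CoreWielandt

set_option autoImplicit false
open Cfsg

set_option maxHeartbeats 400000

namespace Cfsg.Agent.S0558

/-- Let H be a subgroup of a finite group G that is not a Sylow subgroup of G for any prime, and suppose that for every prime p dividing the order of H and every Sylow p-subgroup P of H the normalizer of P in G is exactly H. Then some normal subgroup of G is a complement to H. -/
theorem result {G : Type*} [Group G] [Finite G] (H : Subgroup G) (hnot : ∀ p : ℕ, p.Prime → ∀ P : Sylow p G, (P : Subgroup G) ≠ H) (hnorm : ∀ p : ℕ, p.Prime → p ∣ Nat.card H → ∀ P : Sylow p H, Subgroup.normalizer (((P : Subgroup H).map H.subtype : Subgroup G) : Set G) = H) : ∃ N : Subgroup G, N.Normal ∧ Subgroup.IsComplement' N H := by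
  classical
  by_cases hbot : H = ⊥
  · exact ⟨⊤, inferInstance, hbot ▸ Subgroup.isComplement'_top_bot⟩
  have hone : Nat.card H ≠ 1 := fun h => hbot (Subgroup.card_eq_one.mp h)
  -- Sylow subgroups of H are Sylow subgroups of G, normal in H
  have hsyl : ∀ (p : ℕ) [Fact p.Prime], p ∣ Nat.card H → ∀ P : Sylow p H,
      (P : Subgroup H).Normal ∧ ∃ S : Sylow p G, (S : Subgroup G) = (P : Subgroup H).map H.subtype := by
    intro p _ hpH P
    set PG := (P : Subgroup H).map H.subtype
    have hN := hnorm p Fact.out hpH P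
    refine ⟨⟨fun a ha g => ?_⟩, ?_⟩
    · have h1 : (g : G) ∈ Subgroup.normalizer (PG : Set G) := by rw [hN]; exact g.2
      obtain ⟨b, hb, hbe⟩ := (Subgroup.mem_normalizer_iff.mp h1 (a : G)).mp ⟨a, ha, rfl⟩
      rw [show g * a * g⁻¹ = b from Subtype.ext hbe.symm]
      exact hb
    obtain ⟨S, hS⟩ := (P.isPGroup'.map H.subtype).exists_le_sylow
    refine ⟨S, (hS.antisymm ?_).symm⟩
    haveI := S.isPGroup'.isNilpotent
    have hle : (S : Subgroup G) ⊓ H = PG := by
      refine le_antisymm (fun x hx => ?_) (le_inf hS (Subgroup.map_subtype_le _))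
      have h1 : ((S : Subgroup G).subgroupOf H) = (P : Subgroup H) :=
        P.is_maximal' (S.isPGroup'.comap_of_injective H.subtype H.subtype_injective)
          (fun z hz => hS (Subgroup.mem_map_of_mem _ hz))
      exact ⟨⟨x, hx.2⟩, h1 ▸ (hx.1 : (⟨x, hx.2⟩ : ↥H) ∈ (S : Subgroup G).subgroupOf H), rfl⟩
    have h2 := normalizerCondition_iff_only_full_group_self_normalizing.mp
      Group.normalizerCondition_of_isNilpotent (PG.subgroupOf (S : Subgroup G)) (by
        refine le_antisymm (fun x hx => ?_) Subgroup.le_normalizer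
        rw [← Subgroup.subgroupOf_normalizer_eq hS, Subgroup.mem_subgroupOf, hN] at hx
        exact Subgroup.mem_subgroupOf.mpr (hle ▸ Subgroup.mem_inf.mpr ⟨x.2, hx⟩))
    exact Subgroup.subgroupOf_eq_top.mp h2
  haveI hnil : Group.IsNilpotent ↥H := by
    rw [CfsgLib.Core.isNilpotent_iff_sylow_normal]
    intro p hp P
    by_cases hpH : p ∣ Nat.card H
    · exact (hsyl p hpH P).1
    · have : (P : Subgroup H) = ⊥ := by
        apply Subgroup.eq_bot_of_card_eq
        rw [P.card_eq_multiplicity, Nat.factorization_eq_zero_of_not_dvd hpH, pow_zero]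
      rw [this]; infer_instance
  -- p-nilpotence for each prime of H
  have hpn : ∀ p : ℕ, p ∈ (Nat.card H).primeFactors → ∃ N : Subgroup G, N.Normal ∧
      N.index = p ^ (Nat.card H).factorization p := by
    intro p hp
    obtain ⟨hpp, hpH, -⟩ := Nat.mem_primeFactors.mp hp
    haveI := Fact.mk hpp
    obtain ⟨P⟩ : Nonempty (Sylow p H) := inferInstance
    obtain ⟨-, S, hS⟩ := hsyl p hpH P
    obtain ⟨H', T, hH'H, hTH, hsup, hT, hH'c, hcomm, hmax, hrel⟩ :=
      CfsgLib.Core.exists_pPrime_part (p := p) H
    have hST : (S : Subgroup G) ≤ T :=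
      hmax _ (hS ▸ Subgroup.map_subtype_le _) S.isPGroup'
    have hcard : Nat.card (S : Subgroup G) = p ^ (Nat.card H).factorization p := by
      rw [hS, Subgroup.card_subtype, P.card_eq_multiplicity]
    -- another prime
    have hH'1 : Nat.card H' ≠ 1 := by
      intro h
      rw [Subgroup.card_eq_one] at h
      rw [h, bot_sup_eq] at hsup
      refine hnot p hpp S (le_antisymm (hST.trans hTH) ?_)
      rw [← hsup]
      exact (S.is_maximal' hT hST).le
    obtain ⟨q, hq, hqH'⟩ := Nat.exists_prime_and_dvd hH'1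
    haveI := Fact.mk hq
    have hqp : q ≠ p := by
      rintro rfl
      exact hq.not_dvd_one (hH'c.gcd_eq_one ▸ Nat.dvd_gcd hqH' dvd_rfl)
    have hqH : q ∣ Nat.card H := hqH'.trans (Subgroup.card_dvd_of_le hH'H)
    obtain ⟨Q⟩ : Nonempty (Sylow q H) := inferInstance
    obtain ⟨-, R, hR⟩ := hsyl q hqH Q
    have hRH' : (R : Subgroup G) ≤ H' := by
      intro x hx
      have hxH : x ∈ H := (hR ▸ Subgroup.map_subtype_le _ : (R : Subgroup G) ≤ H) hx
      haveI : (H'.subgroupOf H).Normal := by
        rw [Subgroup.normal_subgroupOf_iff_le_normalizer hH'H, ← hsup]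
        refine sup_le Subgroup.le_normalizer (fun s hs => Subgroup.centralizer_le_normalizer _ ?_)
        rw [Subgroup.mem_centralizer_iff]
        exact fun a ha => hcomm a ha s hs
      obtain ⟨j, hj⟩ := IsPGroup.iff_card.mp hT
      have h1 : (⟨x, hxH⟩ : ↥H) ∈ H'.subgroupOf H := by
        refine CfsgLib.Core.mem_of_coprime_of_index_pow (p := p) (k := j) (hrel.trans hj) ?_
        obtain ⟨l, hl⟩ := IsPGroup.iff_card.mp R.isPGroup'
        rw [← Subgroup.orderOf_coe]
        exact Nat.Coprime.coprime_dvd_left (hl ▸ Subgroup.orderOf_dvd_natCard _ hx)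
          (((Nat.coprime_primes hq hpp).mpr hqp).pow_left l)
      exact h1
    have hnc : Cfsg.HasNormalPComplement p G := by
      refine CfsgLib.Core.hasNormalPComplement_of_local_le S fun U hU g hg hgc => ?_
      set M := Subgroup.normalizer (U : Set G)
      set C := Subgroup.centralizer (U : Set G) with hC
      have hH'C : H' ≤ C := fun a ha => by
        rw [hC, Subgroup.mem_centralizer_iff]
        exact fun u hu => (hcomm a ha u (hST (hU hu))).symm
      have hCM : C ≤ M := Subgroup.centralizer_le_normalizer _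
      haveI hCn : (C.subgroupOf M).Normal := inferInstance
      have hRC : ((R.subtype ((hRH'.trans hH'C).trans hCM) : Sylow q ↥M) : Subgroup ↥M) ≤
          C.subgroupOf M := fun x hx => hH'C (hRH' hx)
      have hfr := Sylow.normalizer_sup_eq_top' _ hRC
      have hgm : (⟨g, hg⟩ : ↥M) ∈ C.subgroupOf M ⊔ T.subgroupOf M := by
        have h1 : (⟨g, hg⟩ : ↥M) ∈ Subgroup.normalizer
            (((R.subtype ((hRH'.trans hH'C).trans hCM) : Sylow q ↥M) : Subgroup ↥M) : Set ↥M) ⊔
              C.subgroupOf M := hfr ▸ Subgroup.mem_top _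
        refine SetLike.le_def.mp (sup_le ?_ le_sup_left) h1
        intro z hz
        rw [Sylow.coe_subtype, ← Subgroup.subgroupOf_normalizer_eq ((hRH'.trans hH'C).trans hCM),
          Subgroup.mem_subgroupOf, hR, hnorm q hq hqH Q, ← hsup] at hz
        obtain ⟨a, ha, t, ht, e⟩ := (CfsgLib.Core.mem_sup_iff_of_le_normalizer
          (fun a ha => Subgroup.centralizer_le_normalizer _
            (Subgroup.mem_centralizer_iff.mpr fun t ht => (hcomm a ha t ht).symm) : H' ≤ _)).mp hz
        have htM : t ∈ M := by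
          have := mul_mem (inv_mem (hCM (hH'C ha))) z.2
          rwa [← e, inv_mul_cancel_left] at this
        have hz' : z = (⟨a, hCM (hH'C ha)⟩ : ↥M) * ⟨t, htM⟩ := Subtype.ext e.symm
        rw [hz']
        exact mul_mem (Subgroup.mem_sup_left (show (⟨a, _⟩ : ↥M) ∈ C.subgroupOf M from hH'C ha))
          (Subgroup.mem_sup_right (show (⟨t, htM⟩ : ↥M) ∈ T.subgroupOf M from ht))
      obtain ⟨a, ha, t, ht, e⟩ := Subgroup.mem_sup_of_normal_left.mp hgm
      have hgC : (⟨g, hg⟩ : ↥M) ∈ C.subgroupOf M := by
        rw [← QuotientGroup.eq_one_iff]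
        obtain ⟨j, hj⟩ := IsPGroup.iff_card.mp hT
        refine orderOf_eq_one_iff.mp (Nat.eq_one_of_dvd_coprimes (hgc.pow_right j) ?_ ?_)
        · refine (orderOf_map_dvd (QuotientGroup.mk' (C.subgroupOf M)) (⟨g, hg⟩ : ↥M)).trans
            (dvd_of_eq ?_)
          rw [← Subgroup.orderOf_coe]
        · rw [← e, QuotientGroup.mk_mul, (QuotientGroup.eq_one_iff a).mpr ha, one_mul]
          refine (orderOf_map_dvd (QuotientGroup.mk' (C.subgroupOf M)) t).trans ?_
          rw [← Subgroup.orderOf_coe, ← hj]
          exact Subgroup.orderOf_dvd_natCard _ ht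
      exact hgC
    obtain ⟨P₀, N, hN, hc⟩ := hnc
    exact ⟨N, hN, by rw [hc.symm.index_eq_card, P₀.card_eq_multiplicity, ← hcard, S.card_eq_multiplicity]⟩
  choose! N hN hNi using hpn
  set π := (Nat.card H).primeFactors with hπ
  have key : ∀ σ : Finset ℕ, σ ⊆ π → ∃ L : Subgroup G, L.Normal ∧
      L.index ∣ σ.prod (fun p => p ^ (Nat.card H).factorization p) ∧
      ∀ p ∈ σ, L ≤ N p := by
    intro σ
    induction σ using Finset.induction_on with
    | empty => exact fun _ => ⟨⊤, inferInstance, by simp, fun p hp => absurd hp (Finset.notMem_empty p)⟩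
    | insert q σ hq ih =>
      intro hsub
      obtain ⟨L, hL, hLi, hLle⟩ := ih ((Finset.subset_insert q σ).trans hsub)
      have hqπ := hsub (Finset.mem_insert_self q σ)
      haveI := hL
      haveI := hN q hqπ
      refine ⟨N q ⊓ L, inferInstance, ?_, fun r hr => ?_⟩
      · rw [Finset.prod_insert hq, ← Subgroup.relIndex_mul_index (inf_le_right : N q ⊓ L ≤ L),
          Subgroup.inf_relIndex_right, ← hNi q hqπ]
        exact mul_dvd_mul (Subgroup.relIndex_dvd_index_of_normal _ _) hLi
      · rcases Finset.mem_insert.mp hr with rfl | h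
        · exact inf_le_left
        · exact inf_le_right.trans (hLle r h)
  obtain ⟨L, hL, hLi, hLle⟩ := key π Finset.Subset.rfl
  have hprod : π.prod (fun p => p ^ (Nat.card H).factorization p) = Nat.card H := by
    conv_rhs => rw [← Nat.prod_factorization_pow_eq_self (Nat.card_pos (α := H)).ne']
    rfl
  have hidx : L.index = Nat.card H := by
    refine Nat.dvd_antisymm (hprod ▸ hLi) ?_
    refine (Nat.dvd_iff_prime_pow_dvd_dvd _ _).mpr fun r k hr hrk => ?_
    rcases Nat.eq_zero_or_pos k with rfl | hk
    · simp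
    have hrπ : r ∈ π := Nat.mem_primeFactors.mpr
      ⟨hr, (dvd_pow_self r hk.ne').trans hrk, Nat.card_pos.ne'⟩
    refine ((pow_dvd_pow r ?_).trans (dvd_of_eq (hNi r hrπ).symm)).trans
      (Subgroup.index_dvd_of_le (hLle r hrπ))
    exact (hr.pow_dvd_iff_le_factorization Nat.card_pos.ne').mp hrk
  refine ⟨L, hL, Subgroup.isComplement'_of_coprime ?_ ?_⟩
  · rw [← hidx, L.card_mul_index]
  · rw [Nat.coprime_comm]
    refine Nat.coprime_of_dvd fun r hr h1 h2 => ?_
    haveI := Fact.mk hr
    obtain ⟨P⟩ : Nonempty (Sylow r H) := inferInstance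
    obtain ⟨-, S, hS⟩ := hsyl r h1 P
    have h3 : (Nat.card H).factorization r = (Nat.card G).factorization r := by
      have := S.card_eq_multiplicity
      rw [hS, Subgroup.card_subtype, P.card_eq_multiplicity] at this
      exact Nat.pow_right_injective hr.two_le this
    have h4 : (Nat.card G).factorization r = (Nat.card L).factorization r + (Nat.card H).factorization r := by
      rw [← L.card_mul_index, hidx, Nat.factorization_mul Nat.card_pos.ne' Nat.card_pos.ne']
      rfl
    have := hr.factorization_pos_of_dvd Nat.card_pos.ne' h2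
    omega

end Cfsg.Agent.S0558
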