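import Cfsg.Statements.S0559
import Cfsg.Agent.Lib.CoreBasic

set_option autoImplicit false
open Pointwise
open Cfsg
open scoped Pointwise

namespace Cfsg.Agent.S0559

/-- Let G = HK be a finite group (every element a product of an element of H and an element of K), and let A and B be conjugates of H and K. Then every element is a product of an element of A and one of B, and there is g with A = gHg⁻¹ and B = gKg⁻¹ simultaneously. -/
theorem result {G : Type*} [Group G] [Finite G] (H K A B : Subgroup G) (hHK : ∀ g : G, ∃ h ∈ H, ∃ k ∈ K, g = h * k) (hA : ∃ x : G, A = MulAut.conj x • H) (hB : ∃ y : G, B = MulAut.conj y • K) : (∀ g : G, ∃ a ∈ A, ∃ b ∈ B, g = a * b) ∧ ∃ g : G, A = MulAut.conj g • H ∧ B = MulAut.conj g • K := by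
  obtain ⟨x, rfl⟩ := hA
  obtain ⟨y, rfl⟩ := hB
  obtain ⟨h₀, hh₀, k₀, hk₀, e⟩ := hHK (x⁻¹ * y)
  set g := x * h₀ with hg
  have hy : y = g * k₀ := by rw [hg, mul_assoc, ← e]; group
  have eA : MulAut.conj x • H = MulAut.conj g • H := by
    rw [hg, ← CfsgLib.Core.conj_smul_conj_smul,
      CfsgLib.Core.conj_smul_of_mem_normalizer (Subgroup.le_normalizer hh₀)]
  have eB : MulAut.conj y • K = MulAut.conj g • K := by
    rw [hy, ← CfsgLib.Core.conj_smul_conj_smul,
      CfsgLib.Core.conj_smul_of_mem_normalizer (Subgroup.le_normalizer hk₀)]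
  refine ⟨fun z => ?_, g, eA, eB⟩
  obtain ⟨h, hh, k, hk, e'⟩ := hHK (g⁻¹ * z * g)
  refine ⟨g * h * g⁻¹, ?_, g * k * g⁻¹, ?_, ?_⟩
  · rw [eA, CfsgLib.Core.mem_conj_smul]; simpa [mul_assoc] using hh
  · rw [eB, CfsgLib.Core.mem_conj_smul]; simpa [mul_assoc] using hk
  · calc z = g * (g⁻¹ * z * g) * g⁻¹ := by group
      _ = _ := by rw [e']; group

end Cfsg.Agent.S0559
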