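import Cfsg.Statements.S0560
import Cfsg.Agent.Lib.CoreBasic

set_option autoImplicit false
open Pointwise
open Cfsg
open scoped Pointwise

namespace Cfsg.Agent.S0560

/-- Let the finite group G be the product HK of two subgroups and p a prime. Then there are Sylow p-subgroups P of H and Q of K and a Sylow p-subgroup R of G whose underlying set is the product set of P and Q. -/
theorem result {G : Type*} [Group G] [Finite G] (H K : Subgroup G) (hHK : ∀ g : G, ∃ h ∈ H, ∃ k ∈ K, g = h * k) (p : ℕ) [Fact p.Prime] : ∃ (P : Sylow p H) (Q : Sylow p K) (R : Sylow p G), ((R : Subgroup G) : Set G) = (((P : Subgroup H).map H.subtype : Subgroup G) : Set G) * (((Q : Subgroup K).map K.subtype : Subgroup G) : Set G) := by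
  obtain ⟨P₀⟩ : Nonempty (Sylow p H) := inferInstance
  obtain ⟨Q₀⟩ : Nonempty (Sylow p K) := inferInstance
  obtain ⟨R₀, hR₀⟩ := (P₀.2.map H.subtype).exists_le_sylow
  obtain ⟨R₁, hR₁⟩ := (Q₀.2.map K.subtype).exists_le_sylow
  obtain ⟨g, hg⟩ := MulAction.exists_smul_eq G R₀ R₁
  obtain ⟨h, hh, k, hk, he⟩ := hHK g⁻¹
  -- `g = k⁻¹ h⁻¹`
  refine ⟨(⟨h⁻¹, H.inv_mem hh⟩ : H) • P₀, (⟨k, hk⟩ : K) • Q₀, h⁻¹ • R₀, ?_⟩
  set R : Sylow p G := h⁻¹ • R₀ with hR
  have hR' : R = k • R₁ := by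
    rw [hR, ← hg, smul_smul]
    congr 1
    rw [← inv_inv g, he]; group
  set P' := (((⟨h⁻¹, H.inv_mem hh⟩ : H) • P₀ : Sylow p H) : Subgroup H).map H.subtype with hP'
  set Q' := (((⟨k, hk⟩ : K) • Q₀ : Sylow p K) : Subgroup K).map K.subtype with hQ'
  have hPR : P' ≤ R := by
    rintro _ ⟨z, hz, rfl⟩
    obtain ⟨y, hy, rfl⟩ := hz
    refine ⟨(y : G), hR₀ ⟨y, hy, rfl⟩, ?_⟩
    rfl
  have hQR : Q' ≤ R := by
    rw [hR']
    rintro _ ⟨z, hz, rfl⟩
    obtain ⟨y, hy, rfl⟩ := hz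
    exact ⟨(y : G), hR₁ ⟨y, hy, rfl⟩, rfl⟩
  have hPc : Nat.card P' = p ^ (Nat.card H).factorization p := by
    rw [hP', Subgroup.card_map_of_injective Subtype.coe_injective, Sylow.card_eq_multiplicity]
  have hQc : Nat.card Q' = p ^ (Nat.card K).factorization p := by
    rw [hQ', Subgroup.card_map_of_injective Subtype.coe_injective, Sylow.card_eq_multiplicity]
  have hRc : Nat.card R = p ^ (Nat.card G).factorization p := Sylow.card_eq_multiplicity R
  -- the product formula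
  have hprod : Nat.card H * Nat.card K = Nat.card G * Nat.card ↥(H ⊓ K) := by
    have e1 : H.relIndex K = H.index := by
      rw [← Subgroup.relIndex_top_right H]
      refine Nat.card_congr (Equiv.ofBijective
        (Subgroup.quotientSubgroupOfEmbeddingOfLE H (le_top : K ≤ ⊤))
        ⟨(Subgroup.quotientSubgroupOfEmbeddingOfLE H (le_top : K ≤ ⊤)).injective, fun z => ?_⟩)
      obtain ⟨z, rfl⟩ := QuotientGroup.mk_surjective z
      obtain ⟨a, ha, b, hb, hab⟩ := hHK (z : G)⁻¹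
      refine ⟨((⟨b⁻¹, K.inv_mem hb⟩ : K) : ↥K ⧸ H.subgroupOf K), ?_⟩
      rw [Subgroup.quotientSubgroupOfEmbeddingOfLE_apply_mk]
      refine QuotientGroup.eq.mpr ?_
      rw [Subgroup.mem_subgroupOf]
      show b⁻¹⁻¹ * (z : G) ∈ H
      rw [← inv_inv (z : G), hab]
      simpa using ha
    have e2 := CfsgLib.Core.card_inf_mul_relIndex H K
    rw [e1] at e2
    rw [← e2, ← H.card_mul_index]; ring
  have hle : (R : Subgroup G) ≤ (R : Subgroup G) := le_rfl
  have hrel : P'.relIndex (R : Subgroup G) ≤ P'.relIndex Q' := by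
    have e1 := CfsgLib.Core.card_mul_relIndex hPR
    have e2 := CfsgLib.Core.card_inf_mul_relIndex P' Q'
    obtain ⟨i, hi⟩ := (IsPGroup.to_le (((⟨h⁻¹, H.inv_mem hh⟩ : H) • P₀ : Sylow p H).2.map H.subtype)
      (inf_le_left : P' ⊓ Q' ≤ P')).exists_card_eq
    have hdvd : Nat.card ↥(P' ⊓ Q') ∣ Nat.card ↥(H ⊓ K) :=
      Subgroup.card_dvd_of_le (inf_le_inf (Subgroup.map_subtype_le _) (Subgroup.map_subtype_le _))
    rw [hi] at hdvd
    have hile := ((Fact.out : p.Prime).pow_dvd_iff_le_factorization Nat.card_pos.ne').mp hdvd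
    have hf := congrArg (fun n => n.factorization p) hprod
    rw [Nat.factorization_mul Nat.card_pos.ne' Nat.card_pos.ne',
      Nat.factorization_mul Nat.card_pos.ne' Nat.card_pos.ne'] at hf
    simp only [Finsupp.add_apply] at hf
    refine Nat.le_of_mul_le_mul_left ?_
      (Nat.mul_pos (Nat.card_pos : 0 < Nat.card P') (pow_pos (Fact.out : p.Prime).pos i))
    calc Nat.card P' * p ^ i * P'.relIndex (R : Subgroup G) = Nat.card R * p ^ i := by
          rw [← e1]; ring
      _ ≤ Nat.card P' * Nat.card Q' := by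
          rw [hRc, hPc, hQc, ← pow_add, ← pow_add]
          exact Nat.pow_le_pow_right (Fact.out : p.Prime).pos (by omega)
      _ = Nat.card P' * p ^ i * P'.relIndex Q' := by rw [← e2, hi]; ring
  have hsurj : Function.Bijective (Subgroup.quotientSubgroupOfEmbeddingOfLE P' hQR) :=
    (Subgroup.quotientSubgroupOfEmbeddingOfLE P' hQR).injective.bijective_of_nat_card_le hrel
  apply Set.eq_of_subset_of_subset
  · intro r hr
    obtain ⟨w, hw⟩ := hsurj.2 (((⟨r⁻¹, (R : Subgroup G).inv_mem hr⟩ : (R : Subgroup G))) :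
      ↥(R : Subgroup G) ⧸ P'.subgroupOf R)
    obtain ⟨q, rfl⟩ := QuotientGroup.mk_surjective w
    rw [Subgroup.quotientSubgroupOfEmbeddingOfLE_apply_mk] at hw
    have := QuotientGroup.eq.mp hw
    rw [Subgroup.mem_subgroupOf] at this
    exact ⟨((q : G)⁻¹ * r⁻¹)⁻¹, P'.inv_mem this, (q : G)⁻¹, Q'.inv_mem q.2, by group⟩
  · rintro _ ⟨a, ha, b, hb, rfl⟩
    exact (R : Subgroup G).mul_mem (hPR ha) (hQR hb)

end Cfsg.Agent.S0560
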