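import Cfsg.Statements.S0561
import Cfsg.Agent.Lib.CoreSystem

set_option autoImplicit false
open Pointwise
open Cfsg

set_option maxHeartbeats 400000

open scoped Pointwise

namespace Cfsg.Agent.S0561

/-- Let the finite solvable group G be the product HK of subgroups, and let A be normal in H and B normal in K, where A and B are Hall subgroups of G (order coprime to index). Then for all x, y the product set of xAx⁻¹ and yBy⁻¹ is a subgroup of G. -/
theorem result {G : Type*} [Group G] [Finite G] [Group.IsSolvable G] (H K A B : Subgroup G) (hHK : ∀ g : G, ∃ h ∈ H, ∃ k ∈ K, g = h * k) (hA : A ≤ H) (hAn : (A.subgroupOf H).Normal) (hB : B ≤ K) (hBn : (B.subgroupOf K).Normal) (hAh : (Nat.card A).Coprime A.index) (hBh : (Nat.card B).Coprime B.index) (x y : G) : ∃ S : Subgroup G, (S : Set G) = ((MulAut.conj x • A : Subgroup G) : Set G) * ((MulAut.conj y • B : Subgroup G) : Set G) := by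
  classical
  have hconjA : ∀ h ∈ H, MulAut.conj h • A = A := fun h hh =>
    CfsgLib.Core.conj_smul_of_mem_normalizer ((Subgroup.normal_subgroupOf_iff_le_normalizer hA).mp hAn hh)
  have hconjB : ∀ k ∈ K, MulAut.conj k • B = B := fun k hk =>
    CfsgLib.Core.conj_smul_of_mem_normalizer ((Subgroup.normal_subgroupOf_iff_le_normalizer hB).mp hBn hk)
  -- a Hall subgroup containing conjugates of both
  set σ : Set ℕ := {r | r ∣ Nat.card A ∨ r ∣ Nat.card B} with hσ
  have hAσ : CfsgLib.Core.IsPiNat σ (Nat.card A) := fun r _ hd => Or.inl hd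
  have hBσ : CfsgLib.Core.IsPiNat σ (Nat.card B) := fun r _ hd => Or.inr hd
  obtain ⟨S₀, hS₀, hAS₀⟩ := CfsgLib.Core.exists_isHall_ge hAσ
  obtain ⟨g, hg⟩ := CfsgLib.Core.exists_conj_le_isHall hBσ hS₀
  -- move both conjugations to the trivial ones
  have core : ∀ u : G, ∃ z : G, ∃ S : Subgroup G, (MulAut.conj z • A ≤ S ∧ MulAut.conj (z * u) • B ≤ S) ∧
      CfsgLib.Core.IsPiNat σ (Nat.card S) := by
    intro u
    obtain ⟨h₁, hh₁, k₁, hk₁, hu⟩ := hHK u
    obtain ⟨h₂, hh₂, k₂, hk₂, hg'⟩ := hHK g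
    refine ⟨h₂ * h₁⁻¹, S₀, ⟨?_, ?_⟩, hS₀.1⟩
    · rw [hconjA _ (mul_mem hh₂ (inv_mem hh₁))]; exact hAS₀
    · rw [hu, mul_assoc, inv_mul_cancel_left, ← CfsgLib.Core.conj_smul_conj_smul, hconjB _ hk₁]
      rw [hg', ← CfsgLib.Core.conj_smul_conj_smul, hconjB _ hk₂] at hg
      exact hg
  obtain ⟨z, S, ⟨hzA, hzB⟩, hS⟩ := core (x⁻¹ * y)
  set w := x * z⁻¹ with hw
  set T := MulAut.conj w • S
  have hAT : MulAut.conj x • A ≤ T := by
    have := (CfsgLib.Core.conj_smul_le_conj_smul (g := w)).mpr hzA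
    rwa [CfsgLib.Core.conj_smul_conj_smul, hw, inv_mul_cancel_right] at this
  have hBT : MulAut.conj y • B ≤ T := by
    have := (CfsgLib.Core.conj_smul_le_conj_smul (g := w)).mpr hzB
    rwa [CfsgLib.Core.conj_smul_conj_smul, hw, show x * z⁻¹ * (z * (x⁻¹ * y)) = y by group] at this
  have hT : CfsgLib.Core.IsPiNat σ (Nat.card T) := by rw [CfsgLib.Core.card_conj_smul]; exact hS
  set A' := MulAut.conj x • A with hA'
  set B' := MulAut.conj y • B with hB'
  have hcA : (Nat.card A).Coprime (A'.relIndex T) := by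
    refine Nat.Coprime.coprime_dvd_right (Dvd.intro _ (Subgroup.relIndex_mul_index hAT)) ?_
    rwa [hA', CfsgLib.Core.conj_smul_eq_map, MulEquiv.toMonoidHom_eq_coe, Subgroup.index_map_equiv]
  have hcB : (Nat.card B).Coprime (B'.relIndex T) := by
    refine Nat.Coprime.coprime_dvd_right (Dvd.intro _ (Subgroup.relIndex_mul_index hBT)) ?_
    rwa [hB', CfsgLib.Core.conj_smul_eq_map, MulEquiv.toMonoidHom_eq_coe, Subgroup.index_map_equiv]
  have hco : (A'.subgroupOf T).index.Coprime (B'.subgroupOf T).index := by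
    refine Nat.coprime_of_dvd fun r hr h1 h2 => ?_
    have h3 : r ∣ Nat.card T :=
      h1.trans (Dvd.intro_left _ (CfsgLib.Core.card_mul_relIndex hAT))
    rcases hT r hr h3 with h | h
    · exact hr.not_dvd_one (hcA.gcd_eq_one ▸ Nat.dvd_gcd h h1)
    · exact hr.not_dvd_one (hcB.gcd_eq_one ▸ Nat.dvd_gcd h h2)
  refine ⟨T, Set.ext fun t => ⟨fun ht => ?_, ?_⟩⟩
  · have : ∃ a ∈ A'.subgroupOf T, ∃ b ∈ B'.subgroupOf T, (⟨t, ht⟩ : ↥T) = a * b := by
      exact CfsgLib.Core.exists_eq_mul_of_index_coprime hco ⟨t, ht⟩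
    obtain ⟨a, ha, b, hb, hab⟩ := this
    exact ⟨a.1, ha, b.1, hb, (congrArg Subtype.val hab).symm⟩
  · rintro ⟨a, ha, b, hb, rfl⟩
    exact mul_mem (hAT ha) (hBT hb)

end Cfsg.Agent.S0561
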