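import Cfsg.Statements.S0562
import Cfsg.Agent.Lib.CoreBasic

set_option autoImplicit false
open Cfsg
open scoped Pointwise

namespace Cfsg.Agent.S0562

/-- Let the finite group G be the product HK of subgroups, A normal in H, B normal in K, and L the normalizer of the subgroup generated by A and B. Then every element of L is a product of an element of L ∩ H and an element of L ∩ K. -/
theorem result {G : Type*} [Group G] [Finite G] (H K A B : Subgroup G) (hHK : ∀ g : G, ∃ h ∈ H, ∃ k ∈ K, g = h * k) (hA : A ≤ H) (hAn : (A.subgroupOf H).Normal) (hB : B ≤ K) (hBn : (B.subgroupOf K).Normal) : ∀ g ∈ Subgroup.normalizer ((A ⊔ B : Subgroup G) : Set G), ∃ h ∈ Subgroup.normalizer ((A ⊔ B : Subgroup G) : Set G) ⊓ H, ∃ k ∈ Subgroup.normalizer ((A ⊔ B : Subgroup G) : Set G) ⊓ K, g = h * k := by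
  intro g hg
  obtain ⟨h, hh, k, hk, rfl⟩ := hHK g
  set L := A ⊔ B
  have hA' := (Subgroup.normal_subgroupOf_iff_le_normalizer hA).mp hAn
  have hB' := (Subgroup.normal_subgroupOf_iff_le_normalizer hB).mp hBn
  have hAh := CfsgLib.Core.conj_smul_of_mem_normalizer (hA' hh)
  have hBk := CfsgLib.Core.conj_smul_of_mem_normalizer (hB' hk)
  have hLg := CfsgLib.Core.conj_smul_of_mem_normalizer hg
  have hBh : MulAut.conj h • B ≤ L := by
    rw [← hBk, CfsgLib.Core.conj_smul_conj_smul]
    exact (CfsgLib.Core.conj_smul_le_conj_smul.mpr le_sup_right).trans hLg.le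
  have hLh : MulAut.conj h • L ≤ L := by
    show MulAut.conj h • (A ⊔ B) ≤ L
    rw [CfsgLib.Core.conj_smul_eq_map, Subgroup.map_sup, ← CfsgLib.Core.conj_smul_eq_map,
      ← CfsgLib.Core.conj_smul_eq_map, hAh]
    exact sup_le le_sup_left hBh
  have hn : h ∈ Subgroup.normalizer (L : Set G) :=
    CfsgLib.Core.conj_smul_eq_self_iff.mp (CfsgLib.Core.eq_of_le_of_card_le hLh
      (CfsgLib.Core.card_conj_smul h L).ge)
  exact ⟨h, ⟨hn, hh⟩, k, ⟨(Subgroup.mul_mem_cancel_left _ hn).mp hg, hk⟩, rfl⟩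

end Cfsg.Agent.S0562
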