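import Cfsg.Statements.S0566
import Cfsg.Agent.Lib.CoreThree
import Cfsg.Agent.Lib.CoreBasic

set_option autoImplicit false
open Pointwise
open Cfsg

namespace Cfsg.Agent.S0566

open scoped Pointwise

universe w

/-- A subgroup generated by two subgroups permutable with `C` is permutable with `C`. -/
private theorem permute_sup {G : Type w} [Group G] [Finite G] {A A' C S S' : Subgroup G}
    (hS : (S : Set G) = (A : Set G) * (C : Set G)) (hS' : (S' : Set G) = (A' : Set G) * (C : Set G)) :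
    ((A ⊔ A' ⊔ C : Subgroup G) : Set G) = ((A ⊔ A' : Subgroup G) : Set G) * (C : Set G) := by
  have key : ∀ (X T : Subgroup G), X ≤ A ⊔ A' → (T : Set G) = (X : Set G) * (C : Set G) →
      ∀ x ∈ X, ∀ c ∈ C, ∃ x' ∈ A ⊔ A', ∃ c' ∈ C, c * x = x' * c' := by
    intro X T hX hT x hx c hc
    have hxT : x ∈ T := by
      rw [← SetLike.mem_coe, hT]
      exact ⟨x, hx, 1, C.one_mem, mul_one x⟩
    have hcT : c ∈ T := by
      rw [← SetLike.mem_coe, hT]
      exact ⟨1, X.one_mem, c, hc, one_mul c⟩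
    have h1 : c * x ∈ (X : Set G) * (C : Set G) := hT ▸ T.mul_mem hcT hxT
    obtain ⟨x', hx', c', hc', e⟩ := h1
    exact ⟨x', hX hx', c', hc', e.symm⟩
  let K : Submonoid G :=
    { carrier := {x | x ∈ A ⊔ A' ∧ ∀ c ∈ C, ∃ x' ∈ A ⊔ A', ∃ c' ∈ C, c * x = x' * c'}
      one_mem' := ⟨one_mem _, fun c hc => ⟨1, one_mem _, c, hc, by simp⟩⟩
      mul_mem' := by
        rintro x y ⟨hx1, hx⟩ ⟨hy1, hy⟩
        refine ⟨mul_mem hx1 hy1, fun c hc => ?_⟩
        obtain ⟨x', hx', c', hc', e⟩ := hx c hc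
        obtain ⟨y', hy', c'', hc'', e'⟩ := hy c' hc'
        refine ⟨x' * y', mul_mem hx' hy', c'', hc'', ?_⟩
        rw [← mul_assoc, e, mul_assoc, e', ← mul_assoc] }
  have hall : ∀ x ∈ A ⊔ A', x ∈ K := by
    intro x hx
    rw [Subgroup.sup_eq_closure] at hx
    induction hx using Subgroup.closure_induction with
    | mem y hy =>
      rcases hy with hy | hy
      · exact ⟨Subgroup.mem_sup_left hy, key A S le_sup_left hS y hy⟩
      · exact ⟨Subgroup.mem_sup_right hy, key A' S' le_sup_right hS' y hy⟩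
    | one => exact K.one_mem
    | mul y z _ _ h1 h2 => exact K.mul_mem h1 h2
    | inv y _ h1 =>
      obtain ⟨k, hk⟩ := mem_powers_iff_mem_zpowers.2 (inv_mem (Subgroup.mem_zpowers y))
      have hk' : y ^ k = y⁻¹ := hk
      rw [← hk']
      exact pow_mem h1 k
  ext z
  constructor
  · intro hz
    obtain ⟨a, ha, b, hb, rfl⟩ :=
      CfsgLib.Core.exists_eq_mul_of_permute (fun b hb a ha => (hall a ha).2 b hb) hz
    exact ⟨a, ha, b, hb, rfl⟩
  · rintro ⟨a, ha, b, hb, rfl⟩
    exact Subgroup.mul_mem _ (Subgroup.mem_sup_left ha) (Subgroup.mem_sup_right hb)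

set_option maxHeartbeats 400000 in
private theorem main : ∀ (n : ℕ) {G : Type w} [Group G] [Finite G] (A B : Subgroup G),
    A ≠ ⊥ → B ≠ ⊥ →
    (∀ x : G, ∃ S : Subgroup G, S ≠ ⊤ ∧
      (S : Set G) = (A : Set G) * ((MulAut.conj x • B : Subgroup G) : Set G)) →
    Nat.card G - Nat.card A = n →
    ∃ N : Subgroup G, N.Normal ∧ N ≠ ⊤ ∧ (A ≤ N ∨ B ≤ N) := by
  intro n
  induction n using Nat.strong_induction_on with
  | _ n ih =>
  intro G _ _ A B hA hB h hn
  by_cases hB' : Subgroup.normalClosure (B : Set G) = ⊤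
  swap
  · exact ⟨_, Subgroup.normalClosure_normal, hB', Or.inr Subgroup.le_normalClosure⟩
  by_cases hnorm : ∀ x : G, MulAut.conj x • B ≤ Subgroup.normalizer (A : Set G)
  · have htop : Subgroup.normalizer (A : Set G) = ⊤ := by
      rw [eq_top_iff, ← hB', Subgroup.normalClosure, Subgroup.closure_le]
      intro y hy
      obtain ⟨b, hb, hbc⟩ := Group.mem_conjugatesOfSet_iff.1 hy
      obtain ⟨c, rfl⟩ := isConj_iff.1 hbc
      exact hnorm c ⟨b, hb, rfl⟩
    refine ⟨A, Subgroup.normalizer_eq_top_iff.1 htop, fun hAt => ?_, Or.inl le_rfl⟩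
    obtain ⟨S, hS, hSeq⟩ := h 1
    refine hS (top_le_iff.1 fun y _ => ?_)
    rw [← SetLike.mem_coe, hSeq, hAt]
    exact ⟨y, trivial, 1, Subgroup.one_mem _, mul_one y⟩
  · push Not at hnorm
    obtain ⟨x, hx⟩ := hnorm
    obtain ⟨b, hb, hbA⟩ := SetLike.not_le_iff_exists.1 hx
    set A' := MulAut.conj b • A with hA'
    set A₂ := A ⊔ A' with hA₂
    have hperm : ∀ g : G, ∀ C : Subgroup G, C = MulAut.conj g • B →
        ((A₂ ⊔ C : Subgroup G) : Set G) = (A₂ : Set G) * (C : Set G) := by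
      rintro g C rfl
      obtain ⟨S, -, hS⟩ := h g
      obtain ⟨S', -, hS'⟩ := h (b⁻¹ * g)
      refine permute_sup hS (S' := MulAut.conj b • S') ?_
      rw [Subgroup.coe_pointwise_smul, hS', smul_mul', hA', ← Subgroup.coe_pointwise_smul,
        ← Subgroup.coe_pointwise_smul, CfsgLib.Core.conj_smul_conj_smul, mul_inv_cancel_left]
    have hproper : ∀ g : G, A₂ ⊔ MulAut.conj g • B ≠ ⊤ := by
      intro g htop
      obtain ⟨S, hS, hSeq⟩ := h x
      have hBS : MulAut.conj x • B ≤ S := fun y hy => by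
        rw [← SetLike.mem_coe, hSeq]
        exact ⟨1, A.one_mem, y, hy, one_mul y⟩
      have hAS : A ≤ S := fun y hy => by
        rw [← SetLike.mem_coe, hSeq]
        exact ⟨y, hy, 1, Subgroup.one_mem _, mul_one y⟩
      have hA'S : A' ≤ S := by
        rintro y ⟨a, ha, rfl⟩
        exact S.mul_mem (S.mul_mem (hBS hb) (hAS ha)) (S.inv_mem (hBS hb))
      have hle₂ : A₂ ≤ S := sup_le hAS hA'S
      have hmem : x * g⁻¹ ∈ ((A₂ ⊔ MulAut.conj g • B : Subgroup G) : Set G) := by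
        rw [htop]; trivial
      rw [hperm g _ rfl] at hmem
      obtain ⟨a, ha, c, ⟨b₀, hb₀, rfl⟩, hac⟩ := hmem
      have hac' : a * (g * b₀ * g⁻¹) = x * g⁻¹ := hac
      have hxg : x = a * g * b₀ := by
        calc x = x * g⁻¹ * g := (inv_mul_cancel_right x g).symm
          _ = a * g * b₀ := by rw [← hac']; group
      refine hS (top_le_iff.1 (le_trans (ge_of_eq htop) (sup_le hle₂ ?_)))
      rintro y ⟨w, hw, rfl⟩
      show g * w * g⁻¹ ∈ S
      have e : g * w * g⁻¹ = a⁻¹ * (x * (b₀⁻¹ * w * b₀) * x⁻¹) * a := by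
        rw [hxg]; group
      rw [e]
      exact S.mul_mem (S.mul_mem (S.inv_mem (hle₂ ha))
        (hBS ⟨_, B.mul_mem (B.mul_mem (B.inv_mem hb₀) hw) hb₀, rfl⟩)) (hle₂ ha)
    have hlt : Nat.card A < Nat.card A₂ := by
      refine lt_of_le_of_ne (Subgroup.card_le_of_le le_sup_left) fun e => hbA ?_
      have h2 : A = A₂ := Subgroup.eq_of_le_of_card_ge le_sup_left e.ge
      have h3 : A' ≤ A := h2 ▸ le_sup_right
      refine CfsgLib.Core.conj_smul_eq_self_iff.1 (Subgroup.eq_of_le_of_card_ge h3 ?_)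
      rw [CfsgLib.Core.card_conj_smul]
    obtain ⟨N, hN, hNt, hNor⟩ := ih _ (by have := Subgroup.card_le_card_group A₂; omega) A₂ B
      (fun e => hA (le_bot_iff.1 (e ▸ le_sup_left))) hB
      (fun g => ⟨_, hproper g, hperm g _ rfl⟩) rfl
    exact ⟨N, hN, hNt, hNor.imp (le_trans le_sup_left) id⟩

/-- Let A and B be nontrivial subgroups of a finite group G such that for every x the product set of A and xBx⁻¹ is a proper subgroup of G. Then there is a proper normal subgroup of G containing A or containing B. -/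
theorem result {G : Type*} [Group G] [Finite G] (A B : Subgroup G) (hA : A ≠ ⊥) (hB : B ≠ ⊥) (h : ∀ x : G, ∃ S : Subgroup G, S ≠ ⊤ ∧ (S : Set G) = (A : Set G) * ((MulAut.conj x • B : Subgroup G) : Set G)) : ∃ N : Subgroup G, N.Normal ∧ N ≠ ⊤ ∧ (A ≤ N ∨ B ≤ N) := by
  exact main (Nat.card G - Nat.card A) A B hA hB h rfl

end Cfsg.Agent.S0566
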