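import Cfsg.Statements.S0567
import Cfsg.Agent.Lib.CoreBasic

set_option autoImplicit false
open Cfsg

namespace Cfsg.Agent.S0567

open scoped commutatorElement

/-- A subgroup H of a group G is subnormal exactly when, for some m, the subgroup obtained from G by taking the commutator with H m times in succession is contained in H. -/
theorem result {G : Type*} [Group G] (H : Subgroup G) : H.IsSubnormal ↔ ∃ m : ℕ, (fun K : Subgroup G => ⁅K, H⁆)^[m] ⊤ ≤ H := by
  constructor
  · intro h
    induction h with
    | top => exact ⟨0, le_top⟩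
    | step H K hle _ hN ih =>
      obtain ⟨m, hm⟩ := ih
      have hmono : ∀ (j : ℕ), (fun L : Subgroup G => ⁅L, H⁆)^[j] ⊤ ≤ (fun L : Subgroup G => ⁅L, K⁆)^[j] ⊤ := by
        intro j
        induction j with
        | zero => exact le_rfl
        | succ j ih2 =>
          rw [Function.iterate_succ_apply', Function.iterate_succ_apply']
          exact Subgroup.commutator_mono ih2 hle
      refine ⟨m + 1, ?_⟩
      rw [Function.iterate_succ_apply']
      refine (Subgroup.commutator_mono ((hmono m).trans hm) le_rfl).trans ?_
      refine Subgroup.commutator_le.2 fun k hk h hh => ?_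
      have h1 := hN.conj_mem ⟨h, hle hh⟩ hh ⟨k, hk⟩
      rw [commutatorElement_def]
      exact mul_mem (show k * h * k⁻¹ ∈ H from h1) (inv_mem hh)
  · rintro ⟨m, hm⟩
    have key : ∀ j : ℕ, ((fun L : Subgroup G => ⁅L, H⁆)^[j] ⊤ ⊔ H).IsSubnormal := by
      intro j
      induction j with
      | zero => simpa using Subgroup.IsSubnormal.top
      | succ j ih =>
        set K := (fun L : Subgroup G => ⁅L, H⁆)^[j] ⊤ with hK
        rw [Function.iterate_succ_apply']
        have hHK : H ≤ Subgroup.normalizer (K : Set G) := by
          rcases j with _ | j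
          · rw [hK, Function.iterate_zero_apply, Subgroup.normalizer_eq_top]; exact le_top
          · rw [hK, Function.iterate_succ_apply']
            exact Subgroup.normalizer_commutator_ge_right _ H
        have hKH : K ⊔ H ≤ Subgroup.normalizer ((⁅K, H⁆ ⊔ H : Subgroup G) : Set G) := by
          refine sup_le (fun k hk => ?_) (le_sup_right.trans Subgroup.le_normalizer)
          have hfwd : ∀ c ∈ K, ∀ y ∈ ⁅K, H⁆ ⊔ H, c * y * c⁻¹ ∈ ⁅K, H⁆ ⊔ H := by
            intro c hc y hy
            refine (show ⁅K, H⁆ ⊔ H ≤ (⁅K, H⁆ ⊔ H).comap (MulAut.conj c).toMonoidHom from sup_le (fun z hz => ?_) (fun z hz => ?_)) hy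
            · exact Subgroup.mem_sup_left ((Subgroup.mem_normalizer_iff.1 (Subgroup.normalizer_commutator_ge_left K H hc) z).1 hz)
            · show c * z * c⁻¹ ∈ ⁅K, H⁆ ⊔ H
              rw [show c * z * c⁻¹ = (c * z * c⁻¹ * z⁻¹) * z by group]
              exact mul_mem (Subgroup.mem_sup_left (Subgroup.commutator_mem_commutator hc hz)) (Subgroup.mem_sup_right hz)
          refine Subgroup.mem_normalizer_iff.2 fun y => ⟨hfwd k hk y, fun hy => ?_⟩
          have := hfwd k⁻¹ (inv_mem hk) _ hy
          simpa [mul_assoc] using this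
        have hle : ⁅K, H⁆ ⊔ H ≤ K ⊔ H := by
          refine sup_le (Subgroup.commutator_le.2 fun k hk h hh => ?_) le_sup_right
          rw [commutatorElement_def]
          exact mul_mem (mul_mem (mul_mem (Subgroup.mem_sup_left hk) (Subgroup.mem_sup_right hh))
            (inv_mem (Subgroup.mem_sup_left hk))) (inv_mem (Subgroup.mem_sup_right hh))
        exact Subgroup.IsSubnormal.step _ _ hle ih ((Subgroup.normal_subgroupOf_iff_le_normalizer hle).2 hKH)
    have h := key m
    rwa [sup_eq_right.2 hm] at h

end Cfsg.Agent.S0567
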