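import Cfsg.Statements.S0568
import Cfsg.Agent.Lib.CoreSystemCover

set_option autoImplicit false
open Cfsg

set_option maxHeartbeats 400000

open scoped Pointwise

namespace Cfsg.Agent.S0568

/-- Let D be the system normalizer of a Hall complement system of a finite solvable group G, and let A < B be normal subgroups with no normal subgroup of G strictly between them (a chief factor). If G centralizes B modulo A then B ≤ A ⊔ D (D covers the factor); otherwise B ∩ D ≤ A (D avoids it). -/
theorem result {G : Type*} [Group G] [Finite G] [Group.IsSolvable G] (K : Nat.Primes → Subgroup G) (hK : Cfsg.IsComplementSystem K) (A B : Subgroup G) [A.Normal] [B.Normal] (hAB : A < B) (hchief : ∀ N : Subgroup G, N.Normal → A ≤ N → N ≤ B → N = A ∨ N = B) : (⁅B, (⊤ : Subgroup G)⁆ ≤ A → B ≤ A ⊔ Cfsg.systemNormalizer K) ∧ (¬ ⁅B, (⊤ : Subgroup G)⁆ ≤ A → B ⊓ Cfsg.systemNormalizer K ≤ A) := by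
  refine ⟨CfsgLib.Core.systemNormalizer_cover hK A B, fun hnc => ?_⟩
  set π := QuotientGroup.mk' A
  have hsurj := QuotientGroup.mk'_surjective A
  haveI hBn : (B.map π).Normal := Subgroup.Normal.map inferInstance π hsurj
  have hker : ∀ X : Subgroup G, (X.map π).comap π = X ⊔ A := fun X => by
    rw [Subgroup.comap_map_eq, QuotientGroup.ker_mk']
  have hB0 : B.map π ≠ ⊥ := fun h => by
    rw [Subgroup.map_eq_bot_iff, QuotientGroup.ker_mk'] at h
    exact hAB.not_ge h
  have hmin : ∀ M : Subgroup (G ⧸ A), M.Normal → M ≤ B.map π → M = ⊥ ∨ M = B.map π := by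
    intro M hM hMB
    have hAM : A ≤ M.comap π := fun x hx => by
      show π x ∈ M
      rw [show π x = 1 from (QuotientGroup.eq_one_iff x).mpr hx]
      exact one_mem _
    have hle : M.comap π ≤ B := (Subgroup.comap_mono hMB).trans (by
      rw [hker]; exact sup_le le_rfl hAB.le)
    rcases hchief _ (hM.comap π) hAM hle with h | h
    · left
      rw [← Subgroup.map_comap_eq_self_of_surjective hsurj M, h, Subgroup.map_eq_bot_iff,
        QuotientGroup.ker_mk']
    · right
      rw [← Subgroup.map_comap_eq_self_of_surjective hsurj M, h]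
  have hnc' : Subgroup.centralizer ((B.map π : Subgroup (G ⧸ A)) : Set (G ⧸ A)) ≠ ⊤ := by
    intro h
    refine hnc (Subgroup.commutator_le.mpr fun b hb g _ => ?_)
    rw [commutatorElement_def]
    refine (QuotientGroup.eq_one_iff _).mp (show π (b * g * b⁻¹ * g⁻¹) = 1 from ?_)
    have h1 : π b * π g = π g * π b :=
      Subgroup.mem_centralizer_iff.mp (h ▸ Subgroup.mem_top (π g)) _
        (Subgroup.mem_map_of_mem π hb)
    rw [map_mul, map_mul, map_mul, map_inv, map_inv, h1]
    group
  have key := CfsgLib.Core.systemNormalizer_inf_minimal (CfsgLib.Core.system_quotient hK A)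
    (B.map π) hB0 hmin hnc'
  rw [CfsgLib.Core.systemNormalizer_quotient hK A] at key
  intro x hx
  have h1 : π x ∈ (⊥ : Subgroup (G ⧸ A)) :=
    key ▸ Subgroup.mem_inf.mpr ⟨Subgroup.mem_map_of_mem π hx.1, Subgroup.mem_map_of_mem π hx.2⟩
  exact (QuotientGroup.eq_one_iff x).mp (Subgroup.mem_bot.mp h1)

end Cfsg.Agent.S0568
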