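import Cfsg.Statements.S0569
import Cfsg.Agent.Lib.CoreCarter

set_option autoImplicit false
open Cfsg

set_option maxHeartbeats 400000

open scoped Pointwise

namespace Cfsg.Agent.S0569

/-- In a finite solvable group: each nilpotent self-normalizing subgroup contains the system normalizer of some Hall complement system, and the system normalizer of any Hall complement system lies in some nilpotent self-normalizing subgroup. -/
theorem result {G : Type*} [Group G] [Finite G] [Group.IsSolvable G] : (∀ C : Subgroup G, Cfsg.IsCarterSubgroup C → ∃ K : Nat.Primes → Subgroup G, Cfsg.IsComplementSystem K ∧ Cfsg.systemNormalizer K ≤ C) ∧ ∀ K : Nat.Primes → Subgroup G, Cfsg.IsComplementSystem K → ∃ C : Subgroup G, Cfsg.IsCarterSubgroup C ∧ Cfsg.systemNormalizer K ≤ C := by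
  refine ⟨fun C hC => ?_, fun K hK => ?_⟩
  · obtain ⟨K, hK⟩ := CfsgLib.Core.exists_system (G := G)
    obtain ⟨C₀, hC₀, hle, -⟩ := CfsgLib.Core.exists_carter hK
    obtain ⟨g, hg⟩ := CfsgLib.Core.carter_conj hC₀ hC
    refine ⟨fun p => MulAut.conj g • K p, CfsgLib.Core.system_conj hK g, ?_⟩
    rw [CfsgLib.Core.systemNormalizer_conj, ← hg]
    exact CfsgLib.Core.conj_smul_le_conj_smul.mpr hle
  · obtain ⟨C, hC, hle, -⟩ := CfsgLib.Core.exists_carter hK
    exact ⟨C, hC, hle⟩

end Cfsg.Agent.S0569
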