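import Cfsg.Statements.S0570
import Cfsg.Agent.Lib.CoreCarter

set_option autoImplicit false
open Cfsg

set_option maxHeartbeats 400000

open scoped Pointwise

namespace Cfsg.Agent.S0570

/-- Let G be a finite group with a nilpotent normal subgroup F such that G modulo F is nilpotent (nilpotent length at most two). Then a subgroup of G is a Carter subgroup if and only if it is the system normalizer of some Hall complement system. -/
theorem result {G : Type*} [Group G] [Finite G] (F : Subgroup G) [F.Normal] (hF : Group.IsNilpotent F) (hGF : Group.IsNilpotent (G ⧸ F)) (C : Subgroup G) : Cfsg.IsCarterSubgroup C ↔ ∃ K : Nat.Primes → Subgroup G, Cfsg.IsComplementSystem K ∧ C = Cfsg.systemNormalizer K := by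
  haveI := hF
  haveI := hGF
  haveI : Group.IsSolvable ↥F := inferInstance
  haveI : Group.IsSolvable (G ⧸ F) := inferInstance
  haveI hsolv : Group.IsSolvable G :=
    solvable_of_ker_le_range F.subtype (QuotientGroup.mk' F)
      (by rw [QuotientGroup.ker_mk', Subgroup.range_subtype])
  have main : ∀ K : Nat.Primes → Subgroup G, Cfsg.IsComplementSystem K →
      Cfsg.IsCarterSubgroup (Cfsg.systemNormalizer K) := by
    intro K hK
    obtain ⟨E, hE, hle, hred⟩ := CfsgLib.Core.exists_carter hK
    suffices h : E ≤ Cfsg.systemNormalizer K by rw [le_antisymm hle h]; exact hE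
    haveI := hE.1
    -- the image of E in the nilpotent quotient is everything
    have hEF : E ⊔ F = ⊤ := by
      have h1 := CfsgLib.Core.carter_map' F hE
      have h2 := normalizerCondition_iff_only_full_group_self_normalizing.mp
        Group.normalizerCondition_of_isNilpotent _ h1.2
      have h3 := congrArg (Subgroup.comap (QuotientGroup.mk' F)) h2
      rwa [Subgroup.comap_map_eq, QuotientGroup.ker_mk', Subgroup.comap_top] at h3
    refine le_iInf fun p => ?_
    obtain ⟨O, hO⟩ := CfsgLib.Core.exists_isHallIn (M := F) inferInstance (CfsgLib.Core.co p)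
    have hFO : F ≤ Subgroup.normalizer (O : Set G) := CfsgLib.Core.isHallIn_normalizer hO
    haveI hOn : O.Normal := by
      rw [← Subgroup.normalizer_eq_top_iff, eq_top_iff]
      intro g _
      have h := hO.conj_smul g
      rw [CfsgLib.Core.conj_smul_of_normal g F] at h
      obtain ⟨f, hf, hfO⟩ := CfsgLib.Core.isHallIn_conj inferInstance hO h
      rw [CfsgLib.Core.conj_smul_of_mem_normalizer (hFO hf)] at hfO
      exact CfsgLib.Core.conj_smul_eq_self_iff.mp hfO.symm
    have hKp := CfsgLib.Core.system_iff.mp hK p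
    obtain ⟨-, hRc, hRi⟩ := hred p
    set R := K p ⊓ E with hR
    have hRn : E ≤ Subgroup.normalizer (R : Set G) :=
      CfsgLib.Core.isHallIn_normalizer (hred p)
    set S := R ⊔ O with hS
    have hSc : CfsgLib.Core.IsPiNat (CfsgLib.Core.co p) (Nat.card ↥S) :=
      (hRc.mul hO.2.1).of_dvd (CfsgLib.Core.card_sup_dvd_mul (CfsgLib.Core.le_normalizer_normal R))
    have hOK : O ≤ K p := by
      have h1 : CfsgLib.Core.IsPiNat (CfsgLib.Core.co p) (Nat.card ↥(K p ⊔ O)) :=
        (hKp.1.mul hO.2.1).of_dvd
          (CfsgLib.Core.card_sup_dvd_mul (CfsgLib.Core.le_normalizer_normal _))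
      exact hKp.eq_of_le h1 le_sup_left ▸ le_sup_right
    have hSK : S ≤ K p := sup_le inf_le_left hOK
    have hSi : CfsgLib.Core.IsPiNat (CfsgLib.Core.co p)ᶜ S.index := by
      refine (hRi.mul hO.2.2).of_dvd ?_
      have e1 := CfsgLib.Core.card_sup_mul_card_inf
        (CfsgLib.Core.le_normalizer_normal E (N := F))
      have e2 := CfsgLib.Core.card_sup_mul_card_inf
        (CfsgLib.Core.le_normalizer_normal R (N := O))
      rw [hEF, Subgroup.card_top, ← CfsgLib.Core.card_mul_relIndex (inf_le_right : R ≤ E),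
        ← CfsgLib.Core.card_mul_relIndex hO.1, ← S.card_mul_index] at e1
      obtain ⟨t, ht⟩ := Subgroup.card_dvd_of_le (inf_le_inf inf_le_right hO.1 : R ⊓ O ≤ E ⊓ F)
      refine Dvd.intro t (mul_left_cancel₀ (mul_pos (Nat.card_pos (α := ↥S))
        (Nat.card_pos (α := ↥(R ⊓ O)))).ne' ?_)
      calc Nat.card ↥S * Nat.card ↥(R ⊓ O) * (S.index * t)
          = Nat.card ↥S * S.index * (Nat.card ↥(R ⊓ O) * t) := by ring
        _ = Nat.card ↥S * S.index * Nat.card ↥(E ⊓ F) := by rw [ht]
        _ = Nat.card ↥R * R.relIndex E * (Nat.card ↥O * O.relIndex F) := e1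
        _ = Nat.card ↥R * Nat.card ↥O * (R.relIndex E * O.relIndex F) := by ring
        _ = Nat.card ↥S * Nat.card ↥(R ⊓ O) * (R.relIndex E * O.relIndex F) := by rw [e2]
    have heq : S = K p :=
      CfsgLib.Core.IsHall.eq_of_le ⟨hSc, hSi⟩ hKp.1 hSK
    intro x hx
    rw [← CfsgLib.Core.conj_smul_eq_self_iff, ← heq, hS, Subgroup.smul_sup,
      CfsgLib.Core.conj_smul_of_mem_normalizer (hRn hx), CfsgLib.Core.conj_smul_of_normal x O]
  constructor
  · intro hC
    obtain ⟨K, hK⟩ := CfsgLib.Core.exists_system (G := G)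
    obtain ⟨g, hg⟩ := CfsgLib.Core.carter_conj (main K hK) hC
    exact ⟨_, CfsgLib.Core.system_conj hK g, by rw [CfsgLib.Core.systemNormalizer_conj, hg]⟩
  · rintro ⟨K, hK, rfl⟩
    exact main K hK

end Cfsg.Agent.S0570
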