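import Cfsg.Statements.S0571
import Cfsg.Agent.Lib.CoreSupersolvable

set_option autoImplicit false
open Cfsg

set_option maxHeartbeats 400000

open scoped Pointwise

namespace Cfsg.Agent.S0571

theorem eq_of_card_eq {A : Type*} [Group A] [Finite A] [IsCyclic A] {U V : Subgroup A}
    (h : Nat.card U = Nat.card V) : U = V := by
  letI := IsCyclic.commGroup (α := A)
  have key : ∀ W : Subgroup A, W = (powMonoidHom (Nat.card W) : A →* A).ker := fun W =>
    Subgroup.eq_of_le_of_card_ge
      (fun x hx => by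
        rw [MonoidHom.mem_ker, powMonoidHom_apply]
        exact orderOf_dvd_iff_pow_eq_one.mp (Subgroup.orderOf_dvd_natCard _ hx))
      (by rw [IsCyclic.card_powMonoidHom_ker, Nat.gcd_eq_right W.card_subgroup_dvd_card])
  rw [key U, key V, h]

theorem key.{u} : ∀ (n : ℕ) (G : Type u) [Group G] [Finite G], Nat.card G ≤ n →
    ∀ A B : Subgroup G, IsCyclic ↥A → IsCyclic ↥B → (∀ g : G, ∃ a ∈ A, ∃ b ∈ B, g = a * b) →
      Cfsg.IsSupersolvable G := by
  intro n
  induction n with
  | zero => intro G _ _ h; exact absurd h (by have := Nat.card_pos (α := G); omega)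
  | succ n ih =>
    intro G _ _ hn A B hA hB hAB
    rcases subsingleton_or_nontrivial G with hs | hs
    · exact CfsgLib.Core.isSupersolvable_of_subsingleton
    wlog hle : Nat.card B ≤ Nat.card A generalizing A B
    · refine this B A hB hA (fun g => ?_) (le_of_not_ge hle)
      obtain ⟨a, ha, b, hb, h⟩ := hAB g⁻¹
      exact ⟨b⁻¹, inv_mem hb, a⁻¹, inv_mem ha, by rw [← mul_inv_rev, ← h, inv_inv]⟩
    haveI := hA
    haveI := hB
    have hcard : Nat.card G ≤ Nat.card A * Nat.card B := by
      rw [← Nat.card_prod]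
      refine Nat.card_le_card_of_surjective (fun ab : ↥A × ↥B => (ab.1 : G) * ab.2) fun g => ?_
      obtain ⟨a, ha, b, hb, h⟩ := hAB g
      exact ⟨(⟨a, ha⟩, ⟨b, hb⟩), h.symm⟩
    have hA0 : A ≠ ⊥ := by
      intro h
      rw [h, Subgroup.card_bot] at hle
      rw [h, Subgroup.card_bot, one_mul] at hcard
      have := Finite.one_lt_card (α := G)
      omega
    obtain ⟨⟨b₀, hb₀⟩, hgen⟩ := IsCyclic.exists_generator (α := ↥B)
    have hinter : ∀ g : G, ∃ x ∈ A, x ≠ 1 ∧ g⁻¹ * x * g ∈ A := by
      intro g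
      by_contra hcon
      push Not at hcon
      let f : ↥A × ↥A → G := fun p => (p.1 : G) * (g * p.2 * g⁻¹)
      have hinj : Function.Injective f := by
        intro p q h
        have h1 : (q.1 : G)⁻¹ * p.1 = g * ((q.2 : G) * (p.2 : G)⁻¹) * g⁻¹ := by
          calc (q.1 : G)⁻¹ * p.1 = (q.1 : G)⁻¹ * f p * (g * (p.2 : G) * g⁻¹)⁻¹ := by
                simp [f, mul_assoc]
            _ = (q.1 : G)⁻¹ * f q * (g * (p.2 : G) * g⁻¹)⁻¹ := by rw [h]
            _ = g * ((q.2 : G) * (p.2 : G)⁻¹) * g⁻¹ := by simp [f, mul_assoc]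
        have h2 : (q.1 : G)⁻¹ * p.1 = 1 := by
          by_contra hne
          refine hcon _ (mul_mem (inv_mem q.1.2) p.1.2) hne ?_
          rw [h1]
          simpa [mul_assoc] using mul_mem q.2.2 (inv_mem p.2.2)
        have h3 : q.1 = p.1 := Subtype.ext (inv_mul_eq_one.mp h2)
        refine Prod.ext h3.symm (Subtype.ext ?_)
        have h4 : (q.1 : G) * (g * p.2 * g⁻¹) = q.1 * (g * q.2 * g⁻¹) := by
          have : f p = f q := h
          simp only [f, ← h3] at this
          exact this
        exact mul_left_cancel (mul_right_cancel (mul_left_cancel h4))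
      have hsurj : Function.Surjective f :=
        (hinj.bijective_of_nat_card_le (by
          rw [Nat.card_prod]; exact hcard.trans (Nat.mul_le_mul_left _ hle))).2
      obtain ⟨⟨a, a'⟩, he⟩ := hsurj g⁻¹
      have he' : (a : G) * (g * a' * g⁻¹) = g⁻¹ := he
      have hgA : g ∈ A := by
        have h1 : (a : G) * g * a' = 1 := by
          calc (a : G) * g * a' = (a : G) * (g * a' * g⁻¹) * g := by group
            _ = 1 := by rw [he', inv_mul_cancel]
        have h2 : g = (a : G)⁻¹ * (a' : G)⁻¹ := by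
          have h3 : (a : G)⁻¹ = g * a' := inv_eq_of_mul_eq_one_right (by rw [← mul_assoc]; exact h1)
          rw [h3, mul_inv_cancel_right]
        exact h2 ▸ mul_mem (inv_mem a.2) (inv_mem a'.2)
      obtain ⟨⟨x, hx⟩, hx1⟩ := Subgroup.ne_bot_iff_exists_ne_one.mp hA0
      exact hcon x hx (fun e => hx1 (Subtype.ext e))
        (mul_mem (mul_mem (inv_mem hgA) hx) hgA)
    obtain ⟨x, hxA, hx1, hxb⟩ := hinter b₀
    set N := Subgroup.zpowers x with hN
    have hb₀N : b₀⁻¹ ∈ Subgroup.normalizer (N : Set G) := by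
      have hmap : N.map (MulAut.conj b₀⁻¹).toMonoidHom = N := by
        have hsub : N.map (MulAut.conj b₀⁻¹).toMonoidHom ≤ A := by
          rw [hN, MonoidHom.map_zpowers, Subgroup.zpowers_le]
          simpa using hxb
        have h1 := Subgroup.map_subgroupOf_eq_of_le hsub
        have h2 := Subgroup.map_subgroupOf_eq_of_le (Subgroup.zpowers_le.mpr hxA : N ≤ A)
        rw [← hN] at h2
        rw [← h1]
        refine Eq.trans ?_ h2
        congr 1
        apply eq_of_card_eq
        rw [Nat.card_congr (Subgroup.subgroupOfEquivOfLe hsub).toEquiv,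
          Nat.card_congr (Subgroup.subgroupOfEquivOfLe (Subgroup.zpowers_le.mpr hxA : N ≤ A)).toEquiv,
          Subgroup.card_map_of_injective (MulAut.conj b₀⁻¹).injective]
      refine Subgroup.mem_normalizer_fintype fun z hz => ?_
      exact hmap.le ⟨z, hz, rfl⟩
    have hNn : N.Normal := by
      rw [← Subgroup.normalizer_eq_top_iff, eq_top_iff]
      intro g _
      obtain ⟨a, ha, b, hb, rfl⟩ := hAB g
      refine mul_mem (Subgroup.centralizer_le_normalizer _ ?_) ?_
      · rw [Subgroup.mem_centralizer_iff]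
        intro z hz
        exact congrArg Subtype.val
          (IsMulCommutative.is_comm.comm (⟨z, Subgroup.zpowers_le.mpr hxA hz⟩ : ↥A) ⟨a, ha⟩)
      · obtain ⟨z, hz⟩ := hgen ⟨b, hb⟩
        have h1 : b₀ ^ z = b := congrArg Subtype.val hz
        rw [← h1, ← inv_inv b₀]
        exact zpow_mem (inv_mem hb₀N) z
    haveI := hNn
    haveI : IsCyclic ↥N := by rw [hN]; infer_instance
    refine CfsgLib.Local.isSupersolvable_of_cyclic_normal (N := N) inferInstance ?_
    refine ih (G ⧸ N) ?_ (A.map (QuotientGroup.mk' N)) (B.map (QuotientGroup.mk' N))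
      (isCyclic_of_surjective _ ((QuotientGroup.mk' N).subgroupMap_surjective A))
      (isCyclic_of_surjective _ ((QuotientGroup.mk' N).subgroupMap_surjective B)) fun y => ?_
    · have := CfsgLib.Core.card_quotient_lt (N := N) (Subgroup.zpowers_ne_bot.mpr hx1)
      omega
    · obtain ⟨g, rfl⟩ := QuotientGroup.mk'_surjective N y
      obtain ⟨a, ha, b, hb, rfl⟩ := hAB g
      exact ⟨_, Subgroup.mem_map_of_mem _ ha, _, Subgroup.mem_map_of_mem _ hb, map_mul _ _ _⟩


/-- If a finite group G is the product AB of two cyclic subgroups (every element is a product ab), then G is supersolvable. -/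
theorem result {G : Type*} [Group G] [Finite G] (A B : Subgroup G) [IsCyclic A] [IsCyclic B] (hAB : ∀ g : G, ∃ a ∈ A, ∃ b ∈ B, g = a * b) : Cfsg.IsSupersolvable G := by
  exact key _ G le_rfl A B ‹_› ‹_› hAB

end Cfsg.Agent.S0571
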