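import Cfsg.Statements.S0572
import Cfsg.Agent.Lib.CoreBasic

set_option autoImplicit false
open Cfsg

namespace Cfsg.Agent.S0572

open scoped commutatorElement

variable {G : Type*} [Group G]

/-- `x⁻¹ y⁻¹ x y`. -/
def cm (x y : G) : G := x⁻¹ * y⁻¹ * x * y

theorem cm_mul_right {a a₂ b : G} (h : a * a₂ = a₂ * a) : cm a (a₂ * b) = cm a b := by
  unfold cm
  calc a⁻¹ * (a₂ * b)⁻¹ * a * (a₂ * b) = a⁻¹ * b⁻¹ * (a₂⁻¹ * (a * a₂)) * b := by group
    _ = a⁻¹ * b⁻¹ * a * b := by rw [h]; group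

theorem cm_mul_left {a b₃ y : G} (h : b₃ * y = y * b₃) : cm (b₃ * a) y = cm a y := by
  unfold cm
  calc (b₃ * a)⁻¹ * y⁻¹ * (b₃ * a) * y = a⁻¹ * (b₃⁻¹ * y⁻¹ * b₃) * a * y := by group
    _ = a⁻¹ * y⁻¹ * a * y := by
      have : b₃⁻¹ * y⁻¹ * b₃ = y⁻¹ := by
        have h2 : Commute b₃ y := h
        have h3 := (h2.inv_right).eq
        rw [mul_assoc, ← h3]; group
      rw [this]

theorem cm_conj (x y g : G) : g⁻¹ * cm x y * g = cm (g⁻¹ * x * g) (g⁻¹ * y * g) := by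
  unfold cm; group

theorem conj_fix {x g : G} (h : x * g = g * x) : g⁻¹ * x * g = x := by
  rw [mul_assoc, h]; group

theorem ito (A B : Subgroup G) [hcA : IsMulCommutative A] [hcB : IsMulCommutative B]
    (hAB : ∀ g : G, ∃ a ∈ A, ∃ b ∈ B, g = a * b) : derivedSeries G 2 = ⊥ := by
  have cA : ∀ x ∈ A, ∀ y ∈ A, x * y = y * x := fun x hx y hy =>
    congrArg Subtype.val (hcA.is_comm.comm (⟨x, hx⟩ : A) ⟨y, hy⟩)
  have cB : ∀ x ∈ B, ∀ y ∈ B, x * y = y * x := fun x hx y hy =>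
    congrArg Subtype.val (hcB.is_comm.comm (⟨x, hx⟩ : B) ⟨y, hy⟩)
  set S : Set G := {z | ∃ a ∈ A, ∃ b ∈ B, z = cm a b} with hS
  -- conjugation by elements of `A`
  have conjA : ∀ a ∈ A, ∀ b ∈ B, ∀ x ∈ A, ∀ a₂ ∈ A, ∀ b₂ ∈ B, x⁻¹ * b * x = a₂ * b₂ →
      x⁻¹ * cm a b * x = cm a b₂ := by
    intro a ha b _ x hx a₂ ha₂ b₂ _ he
    rw [cm_conj, conj_fix (cA a ha x hx), he, cm_mul_right (cA a ha a₂ ha₂)]
  have conjB : ∀ a ∈ A, ∀ b ∈ B, ∀ y ∈ B, ∀ b₃ ∈ B, ∀ a₃ ∈ A, y⁻¹ * a * y = b₃ * a₃ →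
      y⁻¹ * cm a b * y = cm a₃ b := by
    intro a _ b hb y hy b₃ hb₃ a₃ _ he
    rw [cm_conj, conj_fix (cB b hb y hy), he, cm_mul_left (cB b₃ hb₃ b hb)]
  have hBA : ∀ g : G, ∃ b ∈ B, ∃ a ∈ A, g = b * a := by
    intro g
    obtain ⟨a, ha, b, hb, he⟩ := hAB g⁻¹
    exact ⟨b⁻¹, B.inv_mem hb, a⁻¹, A.inv_mem ha, by rw [← mul_inv_rev, ← he, inv_inv]⟩
  -- the two orders of conjugation agree
  have key : ∀ a ∈ A, ∀ b ∈ B, ∀ x ∈ A, ∀ y ∈ B,
      (x * y)⁻¹ * cm a b * (x * y) = (y * x)⁻¹ * cm a b * (y * x) := by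
    intro a ha b hb x hx y hy
    obtain ⟨a₂, ha₂, b₂, hb₂, e2⟩ := hAB (x⁻¹ * b * x)
    obtain ⟨b₃, hb₃, a₃, ha₃, e3⟩ := hBA (y⁻¹ * a * y)
    have l1 : (x * y)⁻¹ * cm a b * (x * y) = y⁻¹ * (x⁻¹ * cm a b * x) * y := by group
    have l2 : (y * x)⁻¹ * cm a b * (y * x) = x⁻¹ * (y⁻¹ * cm a b * y) * x := by group
    rw [l1, l2, conjA a ha b hb x hx a₂ ha₂ b₂ hb₂ e2, conjB a ha b hb y hy b₃ hb₃ a₃ ha₃ e3,
      conjB a ha b₂ hb₂ y hy b₃ hb₃ a₃ ha₃ e3, conjA a₃ ha₃ b hb x hx a₂ ha₂ b₂ hb₂ e2]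
  set K : Subgroup G := Subgroup.closure S with hK
  have hconjS : ∀ g : G, ∀ z ∈ S, g⁻¹ * z * g ∈ S := by
    rintro g z ⟨a, ha, b, hb, rfl⟩
    obtain ⟨x, hx, y, hy, rfl⟩ := hAB g
    obtain ⟨a₂, ha₂, b₂, hb₂, e2⟩ := hAB (x⁻¹ * b * x)
    obtain ⟨b₃, hb₃, a₃, ha₃, e3⟩ := hBA (y⁻¹ * a * y)
    refine ⟨a₃, ha₃, b₂, hb₂, ?_⟩
    have l1 : (x * y)⁻¹ * cm a b * (x * y) = y⁻¹ * (x⁻¹ * cm a b * x) * y := by group
    rw [l1, conjA a ha b hb x hx a₂ ha₂ b₂ hb₂ e2, conjB a ha b₂ hb₂ y hy b₃ hb₃ a₃ ha₃ e3]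
  haveI hKn : K.Normal := by
    refine ⟨fun n hn g => ?_⟩
    induction hn using Subgroup.closure_induction with
    | mem z hz =>
      have := hconjS g⁻¹ z hz
      rw [inv_inv] at this
      exact Subgroup.subset_closure this
    | one => simp
    | mul u v _ _ hu hv =>
      have : g * (u * v) * g⁻¹ = (g * u * g⁻¹) * (g * v * g⁻¹) := by group
      rw [this]; exact K.mul_mem hu hv
    | inv u _ hu =>
      have : g * u⁻¹ * g⁻¹ = (g * u * g⁻¹)⁻¹ := by group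
      rw [this]; exact K.inv_mem hu
  -- the quotient is commutative
  have hcomm : commutator G ≤ K := by
    rw [commutator_def, Subgroup.commutator_le]
    intro g _ h _
    rw [← QuotientGroup.eq_one_iff]
    let π := QuotientGroup.mk' K
    show π ⁅g, h⁆ = 1
    rw [map_commutatorElement, commutatorElement_eq_one_iff_mul_comm]
    have hab : ∀ a ∈ A, ∀ b ∈ B, Commute (π a) (π b) := by
      intro a ha b hb
      have : π (cm a b) = 1 := (QuotientGroup.eq_one_iff _).mpr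
        (Subgroup.subset_closure ⟨a, ha, b, hb, rfl⟩)
      simp only [cm, map_mul, map_inv] at this
      show π a * π b = π b * π a
      calc π a * π b = (π b * π a) * ((π a)⁻¹ * (π b)⁻¹ * π a * π b) := by group
        _ = π b * π a := by rw [this, mul_one]
    obtain ⟨a, ha, b, hb, rfl⟩ := hAB g
    obtain ⟨a', ha', b', hb', rfl⟩ := hAB h
    have c1 : Commute (π a) (π a') := by
      show π a * π a' = π a' * π a
      rw [← map_mul, ← map_mul, cA a ha a' ha']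
    have c2 : Commute (π b) (π b') := by
      show π b * π b' = π b' * π b
      rw [← map_mul, ← map_mul, cB b hb b' hb']
    have := (c1.mul_right (hab a ha b' hb')).mul_left
      ((hab a' ha' b hb).symm.mul_right c2)
    simpa only [map_mul] using this.eq
  -- generators commute
  have hSS : ∀ u ∈ S, ∀ v ∈ S, Commute v u := by
    rintro u ⟨a, ha, b, hb, rfl⟩ v ⟨x, hx, y, hy, rfl⟩
    have h1 := key a ha b hb x⁻¹ (A.inv_mem hx) y⁻¹ (B.inv_mem hy)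
    show cm x y * cm a b = cm a b * cm x y
    calc cm x y * cm a b = (x⁻¹ * y⁻¹) * ((y⁻¹ * x⁻¹)⁻¹ * cm a b * (y⁻¹ * x⁻¹)) * (x * y) := by
          unfold cm; group
      _ = (x⁻¹ * y⁻¹) * ((x⁻¹ * y⁻¹)⁻¹ * cm a b * (x⁻¹ * y⁻¹)) * (x * y) := by rw [← h1]
      _ = cm a b * cm x y := by unfold cm; group
  have hKK : K ≤ Subgroup.centralizer (K : Set G) := by
    have h1 : K ≤ Subgroup.centralizer S := by
      rw [hK, Subgroup.closure_le]
      intro u hu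
      exact Subgroup.mem_centralizer_iff.mpr fun v hv => (hSS u hu v hv).eq
    rw [hK, Subgroup.closure_le]
    intro u hu
    exact Subgroup.mem_centralizer_iff.mpr fun v hv =>
      ((Subgroup.mem_centralizer_iff.mp (h1 hv)) u hu).symm
  rw [derivedSeries_succ, derivedSeries_one, Subgroup.commutator_eq_bot_iff_le_centralizer]
  exact hcomm.trans (hKK.trans (Subgroup.centralizer_le hcomm))

/-- Itô's Theorem: if a group G is the product AB of two abelian subgroups, then the commutator subgroup of G is abelian, i.e. the second term of the derived series is trivial. -/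
theorem result {G : Type*} [Group G] (A B : Subgroup G) [IsMulCommutative A] [IsMulCommutative B] (hAB : ∀ g : G, ∃ a ∈ A, ∃ b ∈ B, g = a * b) : derivedSeries G 2 = ⊥ := by
  exact ito A B hAB

end Cfsg.Agent.S0572
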