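import Cfsg.Statements.S0573
import Cfsg.Agent.Lib.CoreItoCore

set_option autoImplicit false
open Cfsg

namespace Cfsg.Agent.S0573

/-- If a nontrivial finite group G is the product AB of abelian subgroups A and B, then some nontrivial normal subgroup of G is contained in A or in B. -/
theorem result {G : Type*} [Group G] [Finite G] [Nontrivial G] (A B : Subgroup G) [IsMulCommutative A] [IsMulCommutative B] (hAB : ∀ g : G, ∃ a ∈ A, ∃ b ∈ B, g = a * b) : ∃ N : Subgroup G, N.Normal ∧ N ≠ ⊥ ∧ (N ≤ A ∨ N ≤ B) := by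
  by_contra hcon
  push Not at hcon
  have hc : ∀ (C : Subgroup G), IsMulCommutative C → ∀ x ∈ C, ∀ y ∈ C, x * y = y * x :=
    fun C h x hx y hy => congrArg Subtype.val (h.is_comm.comm ⟨x, hx⟩ ⟨y, hy⟩)
  have := CfsgLib.Core.ito_core (hc A ‹_›) (hc B ‹_›) hAB
    (fun N hN hle => by_contra fun h0 => (hcon N hN h0).1 hle)
    (fun N hN hle => by_contra fun h0 => (hcon N hN h0).2 hle)
  exact not_subsingleton G this

end Cfsg.Agent.S0573
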