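import Cfsg.Statements.S0576

set_option autoImplicit false
open Cfsg

namespace Cfsg.Agent.S0576

/-- Let H be a normal subgroup of a finite group G with H contained in the Frattini subgroup of G. Then the group of inner automorphisms of H is contained in the Frattini subgroup of the automorphism group of H. -/
theorem result {G : Type*} [Group G] [Finite G] (H : Subgroup G) [H.Normal] (hH : H ≤ frattini G) : (MulAut.conj : ↥H →* MulAut ↥H).range ≤ frattini (MulAut ↥H) := by
  classical
  refine le_iInf₂ fun M hM => ?_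
  by_contra hle
  have hn : ((MulAut.conj : ↥H →* MulAut ↥H).range).Normal := by
    refine ⟨?_⟩
    rintro _ ⟨h, rfl⟩ φ
    refine ⟨φ h, ?_⟩
    ext x
    simp
  have htop : M ⊔ (MulAut.conj : ↥H →* MulAut ↥H).range = ⊤ :=
    hM.2 _ (left_lt_sup.mpr hle)
  let ρ : G →* MulAut ↥H := MulAut.conjNormal
  have hρ : ∀ h : ↥H, ρ (h : G) = MulAut.conj h := fun h => by
    ext x
    simp [ρ]
  set R := M.comap ρ
  have hR : R ⊔ frattini G = ⊤ := by
    rw [eq_top_iff]
    intro g _
    obtain ⟨m, hm, i, ⟨h, rfl⟩, e⟩ := Subgroup.mem_sup_of_normal_right.mp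
      (htop ▸ Subgroup.mem_top (ρ g) : ρ g ∈ M ⊔ (MulAut.conj : ↥H →* MulAut ↥H).range)
    have h1 : g * (h : G)⁻¹ ∈ R := by
      show ρ (g * (h : G)⁻¹) ∈ M
      rw [map_mul, map_inv, hρ, ← e, mul_inv_cancel_right]
      exact hm
    have := mul_mem (Subgroup.mem_sup_left (T := frattini G) h1)
      (Subgroup.mem_sup_right (S := R) (hH h.2))
    rwa [inv_mul_cancel_right] at this
  have hRt := frattini_nongenerating hR
  refine hle ?_
  rintro _ ⟨h, rfl⟩
  rw [← hρ]
  exact (show (h : G) ∈ R by rw [hRt]; trivial)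

end Cfsg.Agent.S0576
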