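import Cfsg.Statements.S0577
import Cfsg.Agent.S0536
import Cfsg.Agent.Lib.CoreHall
import Cfsg.Agent.Lib.CoreCoprime2
import Cfsg.Agent.Lib.CorePGroup

set_option autoImplicit false
open Cfsg
open scoped commutatorElement
set_option maxHeartbeats 400000

namespace Cfsg.Agent.S0577

/-- Let G be a finite minimal non-nilpotent group and Q a normal Sylow q-subgroup of G, and let D be the commutator subgroup of Q regarded in G (a normal subgroup). Then G modulo D is non-abelian and all its proper subgroups are abelian. -/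
theorem result {G : Type*} [Group G] [Finite G] (hG : Cfsg.IsMinimalNonNilpotent G) (q : ℕ) [Fact q.Prime] (hq : q ∣ Nat.card G) (Q : Sylow q G) (hQ : (Q : Subgroup G).Normal) (D : Subgroup G) [D.Normal] (hD : D = (commutator ↥(Q : Subgroup G)).map (Q : Subgroup G).subtype) : ¬ IsMulCommutative (G ⧸ D) ∧ ∀ K : Subgroup (G ⧸ D), K ≠ ⊤ → IsMulCommutative K := by
  classical
  obtain ⟨p, q₀, hp, hq₀, hpq, P, Q₀, y, hP, hQ₀, hsup, hyC⟩ := Cfsg.Agent.S0536.structure' hG
  have hcard : Nat.card G ∣ Nat.card (P : Subgroup G) * Nat.card (Q₀ : Subgroup G) := by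
    haveI := hQ₀
    rw [← Subgroup.card_top (G := G), ← hsup]
    exact CfsgLib.Core.card_sup_dvd_of_normal _ _
  have hqq : q = q₀ := by
    obtain ⟨i, hi⟩ := IsPGroup.iff_card.1 P.2
    obtain ⟨j, hj⟩ := IsPGroup.iff_card.1 Q₀.2
    rcases (Fact.out : q.Prime).dvd_mul.1 ((hi ▸ hj ▸ hcard : Nat.card G ∣ p ^ i * q₀ ^ j) |> hq.trans) with h | h
    · exfalso
      have e := (Nat.prime_dvd_prime_iff_eq (Fact.out : q.Prime) hp.out).1 ((Fact.out : q.Prime).dvd_of_dvd_pow h)
      subst e
      haveI := hQ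
      haveI : Subsingleton (Sylow q G) := Sylow.unique_of_normal Q hQ |>.instSubsingleton
      refine hyC (Subgroup.mem_centralizer_iff.2 fun u hu => ?_)
      have hPn : (P : Subgroup G).Normal := by rw [Subsingleton.elim P Q]; exact hQ
      refine (Subgroup.commute_of_normal_of_disjoint _ _ hQ₀ hPn (disjoint_iff.2 ?_) u y hu (hP.ge (Subgroup.mem_zpowers y))).eq
      exact CfsgLib.Core.inf_eq_bot_of_coprime (by
        rw [hi, hj]; exact Nat.Coprime.pow _ _ ((Nat.coprime_primes hq₀.out hp.out).2 hpq.symm))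
    · exact (Nat.prime_dvd_prime_iff_eq (Fact.out : q.Prime) hq₀.out).1 ((Fact.out : q.Prime).dvd_of_dvd_pow h)
  subst hqq
  haveI := hQ
  haveI hss : Subsingleton (Sylow q G) := Sylow.unique_of_normal Q hQ |>.instSubsingleton
  obtain rfl : Q₀ = Q := Subsingleton.elim _ _
  subst hD
  set D := (commutator ↥(Q₀ : Subgroup G)).map (Q₀ : Subgroup G).subtype with hD
  obtain ⟨i, hi⟩ := IsPGroup.iff_card.1 P.2
  constructor
  · intro hab
    haveI := hab
    refine hyC (CfsgLib.Core.le_centralizer_of_trivial_mod_frattini (A := (P : Subgroup G))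
      (by rw [Subgroup.normalizer_eq_top_iff.2 hQ]; exact le_top) ?_ (fun a _ v hv => ?_) (hP.ge (Subgroup.mem_zpowers y)))
    · obtain ⟨j, hj⟩ := IsPGroup.iff_card.1 (Q₀.2.to_subgroup (frattini (Q₀ : Subgroup G)))
      rw [hi, hj]
      exact Nat.Coprime.pow _ _ ((Nat.coprime_primes hp.out hq₀.out).2 hpq)
    · refine Subgroup.map_mono (CfsgLib.Core.pgroup_commutator_le_frattini Q₀.2) ?_
      show a * v * a⁻¹ * v⁻¹ ∈ D
      rw [← QuotientGroup.eq_one_iff]
      show ((a * v * a⁻¹ * v⁻¹ : G) : G ⧸ D) = 1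
      simp only [QuotientGroup.mk_mul, QuotientGroup.mk_inv]
      rw [mul_comm' (a : G ⧸ D) (v : G ⧸ D), mul_inv_cancel_right, mul_inv_cancel]
  · intro K hK
    set π := QuotientGroup.mk' D
    set K' := K.comap π with hK'
    have hK'ne : K' ≠ ⊤ := fun e => hK (by
      rw [← Subgroup.map_comap_eq_self_of_surjective (QuotientGroup.mk'_surjective D) K, ← hK', e,
        Subgroup.map_top_of_surjective _ (QuotientGroup.mk'_surjective D)])
    haveI := hG.2 K' hK'ne
    have hcc : ∀ a b : K', (∃ r k, r.Prime ∧ orderOf a = r ^ k) → (∃ r k, r.Prime ∧ orderOf b = r ^ k) →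
        π (a : G) * π (b : G) = π (b : G) * π (a : G) := by
      rintro a b ⟨r, k, hr, ha⟩ ⟨s, l, hs, hb⟩
      by_cases hrs : r = s
      · subst hrs
        haveI := Fact.mk hr
        obtain ⟨R⟩ : Nonempty (Sylow r K') := inferInstance
        haveI : Subsingleton (Sylow r K') := Sylow.unique_of_normal R inferInstance |>.instSubsingleton
        have hmem : ∀ u : K', (∃ k, orderOf u = r ^ k) → u ∈ (R : Subgroup K') := fun u ⟨k, hk⟩ => by
          obtain ⟨S, hS⟩ := (IsPGroup.of_card (G := Subgroup.zpowers u) (p := r) (n := k)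
            (by rw [Nat.card_zpowers, hk])).exists_le_sylow
          rw [Subsingleton.elim S R] at hS
          exact hS (Subgroup.mem_zpowers u)
        obtain ⟨S, hS⟩ := (R.2.map K'.subtype).exists_le_sylow
        have haS : (a : G) ∈ S := hS ⟨a, hmem a ⟨k, ha⟩, rfl⟩
        have hbS : (b : G) ∈ S := hS ⟨b, hmem b ⟨l, hb⟩, rfl⟩
        by_cases hrq : r = q
        · subst hrq
          rw [Subsingleton.elim S Q₀] at haS hbS
          rw [← commutatorElement_eq_one_iff_mul_comm, ← map_commutatorElement]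
          refine (QuotientGroup.eq_one_iff _).2 ⟨⁅(⟨a, haS⟩ : (Q₀ : Subgroup G)), ⟨b, hbS⟩⁆, ?_, rfl⟩
          rw [_root_.commutator_def]
          exact Subgroup.commutator_mem_commutator (Subgroup.mem_top _) (Subgroup.mem_top _)
        · by_cases hrp : r = p
          · subst hrp
            obtain ⟨c, hc⟩ := MulAction.exists_smul_eq G S P
            haveI : IsCyclic (S : Subgroup G) := by
              haveI : IsCyclic (P : Subgroup G) := by rw [hP]; infer_instance
              exact (S.equiv P).isCyclic.2 inferInstance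
            letI := IsCyclic.commGroup (α := (S : Subgroup G))
            rw [← map_mul, ← map_mul, show (a : G) * b = b * a from
              congrArg Subtype.val (mul_comm (⟨a, haS⟩ : (S : Subgroup G)) ⟨b, hbS⟩)]
          · have h1 : orderOf (a : G) ∣ p ^ i * Nat.card (Q₀ : Subgroup G) :=
              (orderOf_dvd_natCard _).trans (hi ▸ hcard)
            obtain ⟨j, hj⟩ := IsPGroup.iff_card.1 Q₀.2
            rcases Nat.eq_zero_or_pos k with rfl | hk0
            · rw [pow_zero, orderOf_eq_one_iff] at ha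
              simp [ha]
            · exfalso
              rw [Subgroup.orderOf_coe, ha, hj] at h1
              rcases hr.dvd_mul.1 ((dvd_pow_self r hk0.ne').trans h1) with h | h
              · exact hrp ((Nat.prime_dvd_prime_iff_eq hr hp.out).1 (hr.dvd_of_dvd_pow h))
              · exact hrq ((Nat.prime_dvd_prime_iff_eq hr hq₀.out).1 (hr.dvd_of_dvd_pow h))
      · rw [← map_mul, ← map_mul, show (a : G) * b = b * a from congrArg Subtype.val
          (CfsgLib.CN.commute_of_coprime_orderOf a b
            (by rw [ha, hb]; exact Nat.Coprime.pow _ _ ((Nat.coprime_primes hr hs).2 hrs)))]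
    have hstep : ∀ b : K', (∃ r k, r.Prime ∧ orderOf b = r ^ k) → ∀ a : K',
        π (a : G) * π (b : G) = π (b : G) * π (a : G) := by
      intro b hb a
      have h := CfsgLib.Core.eq_top_of_prime_power_mem
        ((Subgroup.centralizer {π (b : G)}).comap (π.comp K'.subtype))
        fun r w hr ⟨k, hk⟩ => Subgroup.mem_centralizer_singleton_iff.2 (hcc w b ⟨r, k, hr, hk⟩ hb)
      exact Subgroup.mem_centralizer_singleton_iff.1 (Subgroup.mem_comap.1 (h.ge (Subgroup.mem_top a)))
    refine .of_comm fun ⟨a, ha⟩ ⟨b, hb⟩ => Subtype.ext ?_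
    obtain ⟨a, rfl⟩ := QuotientGroup.mk'_surjective D a
    obtain ⟨b, rfl⟩ := QuotientGroup.mk'_surjective D b
    show π a * π b = π b * π a
    have h := CfsgLib.Core.eq_top_of_prime_power_mem
      ((Subgroup.centralizer {π a}).comap (π.comp K'.subtype))
      fun r w hr ⟨k, hk⟩ => Subgroup.mem_centralizer_singleton_iff.2 (hstep w ⟨r, k, hr, hk⟩ ⟨a, ha⟩).symm
    exact (Subgroup.mem_centralizer_singleton_iff.1 (Subgroup.mem_comap.1 (h.ge (Subgroup.mem_top ⟨b, hb⟩)))).symm

end Cfsg.Agent.S0577
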