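import Cfsg.Statements.S0578
import Cfsg.Agent.Lib.CorePGroup

set_option autoImplicit false
open Cfsg
open scoped IsMulCommutative

namespace Cfsg.Agent.S0578

/-- If in a finite group the normalizer of each abelian subgroup coincides with its centralizer, then the group is abelian. -/
theorem result {G : Type*} [Group G] [Finite G] (h : ∀ A : Subgroup G, IsMulCommutative A → Subgroup.normalizer (A : Set G) = Subgroup.centralizer (A : Set G)) : IsMulCommutative G := by
  have hcenter : ∀ p : ℕ, p.Prime → ∀ P : Sylow p G, IsMulCommutative P := by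
    intro p hp P
    haveI := Fact.mk hp
    by_contra hnc
    set Z := Subgroup.center (P : Subgroup G) with hZ
    have hZtop : Z ≠ ⊤ := fun e => hnc ⟨⟨fun a b =>
      (Subgroup.mem_center_iff.mp (e.ge (Subgroup.mem_top b)) a)⟩⟩
    haveI : Nontrivial ((P : Subgroup G) ⧸ Z) := QuotientGroup.nontrivial_iff.mpr hZtop
    haveI := (P.2.to_quotient Z).center_nontrivial
    obtain ⟨zb, hzb⟩ := exists_ne (1 : Subgroup.center ((P : Subgroup G) ⧸ Z))
    obtain ⟨z, hz⟩ := QuotientGroup.mk_surjective (zb : (P : Subgroup G) ⧸ Z)
    have hzZ : z ∉ Z := fun e => hzb (Subtype.ext (by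
      rw [← hz]; exact (QuotientGroup.eq_one_iff z).mpr e))
    apply hzZ
    set A : Subgroup (P : Subgroup G) := Subgroup.closure ({z} ∪ (Z : Set (P : Subgroup G))) with hA
    haveI hAc : IsMulCommutative A := by
      refine Subgroup.isMulCommutative_closure ?_
      rintro a ha b hb
      rcases ha with ha | ha <;> rcases hb with hb | hb
      · simp only [Set.mem_singleton_iff] at ha hb; rw [ha, hb]
      · exact Subgroup.mem_center_iff.mp hb a
      · exact (Subgroup.mem_center_iff.mp ha b).symm
      · exact Subgroup.mem_center_iff.mp hb a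
    have hzA : z ∈ A := Subgroup.subset_closure (Or.inl rfl)
    have hAn : A.Normal := by
      refine ⟨fun a ha y => ?_⟩
      have : A ≤ A.comap (MulAut.conj y).toMonoidHom := by
        rw [hA, Subgroup.closure_le]
        rintro b (hb | hb)
        · rw [Set.mem_singleton_iff] at hb
          subst hb
          show y * b * y⁻¹ ∈ A
          have h1 : b⁻¹ * (y * b * y⁻¹) ∈ Z := by
            rw [← QuotientGroup.eq]
            have := Subgroup.mem_center_iff.mp zb.2 (y : (P : Subgroup G) ⧸ Z)
            rw [← hz] at this
            calc (b : (P : Subgroup G) ⧸ Z) = (y * b) * (y : (P : Subgroup G) ⧸ Z)⁻¹ := by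
                  rw [this]; group
              _ = _ := rfl
          have := A.mul_mem hzA (Subgroup.subset_closure (Or.inr h1) : _ ∈ A)
          simpa [mul_assoc] using this
        · show y * b * y⁻¹ ∈ A
          rw [(Subgroup.mem_center_iff.mp hb y), mul_inv_cancel_right]
          exact Subgroup.subset_closure (Or.inr hb)
      exact this ha
    haveI : IsMulCommutative (A.map (P : Subgroup G).subtype) := inferInstance
    have heq := h (A.map (P : Subgroup G).subtype) inferInstance
    rw [Subgroup.mem_center_iff]
    intro y
    have hy : (y : G) ∈ Subgroup.normalizer ((A.map (P : Subgroup G).subtype : Subgroup G) : Set G) := by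
      refine Subgroup.le_normalizer_map _ ⟨y, ?_, rfl⟩
      rw [Subgroup.normalizer_eq_top (H := A)]; exact Subgroup.mem_top y
    rw [heq] at hy
    exact Subtype.ext ((Subgroup.mem_centralizer_iff.mp hy) z ⟨z, hzA, rfl⟩).symm
  rw [← commutator_eq_bot_iff]
  apply Subgroup.eq_bot_of_card_eq
  by_contra hne
  obtain ⟨p, hp, hdvd⟩ := Nat.exists_prime_and_dvd hne
  haveI := Fact.mk hp
  obtain ⟨P⟩ : Nonempty (Sylow p G) := inferInstance
  haveI := hcenter p hp P
  have hP := (h (P : Subgroup G) inferInstance).le
  apply MonoidHom.not_dvd_card_ker_transferSylow P hP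
  exact hdvd.trans (Subgroup.card_dvd_of_le (Abelianization.commutator_subset_ker _))

end Cfsg.Agent.S0578
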