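import Cfsg.Statements.S0579
import Cfsg.Agent.Lib.LocalSupersolvable2
import Cfsg.Agent.Lib.LocalAverage
import Cfsg.Agent.Lib.CoreSupersolvable
import Cfsg.Agent.Lib.CoreCoprime2
import Cfsg.Agent.Lib.CoreSZ

set_option autoImplicit false
set_option maxHeartbeats 400000
open Cfsg
open scoped commutatorElement

namespace Cfsg.Agent.S0579

universe u

open CfsgLib.Core CfsgLib.Local in
/-- In a supersolvable group, elements of order prime to `p` acting trivially on all invariant lines
centralize every normal `p`-subgroup. -/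
theorem centralizes_of_lineKer {Q : Type u} [Group Q] [Finite Q] (hQ : Cfsg.IsSupersolvable Q) {p : ℕ}
    [hp : Fact p.Prime] (P : Subgroup Q) [hPn : P.Normal] (hP : IsPGroup p P) {y : Q} (hy : y ∈ lineKer Q p)
    (hyp : (orderOf y).Coprime p) : y ∈ Subgroup.centralizer (P : Set Q) := by
  obtain ⟨T, ⟨hTn, hTP, hTy⟩, hmax⟩ := (Set.toFinite {T : Subgroup Q | T.Normal ∧ T ≤ P ∧
    T ≤ Subgroup.centralizer {y}}).exists_maximal ⟨⊥, inferInstance, bot_le, bot_le⟩
  suffices hT : P ≤ T from Subgroup.mem_centralizer_iff.2 fun z hz =>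
    Subgroup.mem_centralizer_singleton_iff.1 (hTy (hT hz))
  by_contra hne
  haveI := hTn
  set π := QuotientGroup.mk' T
  have hsurj := QuotientGroup.mk'_surjective T
  haveI : (P.map π).Normal := hPn.map π hsurj
  obtain ⟨L, hLn, hLP, hLp⟩ := exists_normal_prime_le (X := P.map π)
    (CfsgLib.Super.isSupersolvable_of_surjective π hsurj hQ)
    (fun e => hne (by rwa [Subgroup.map_eq_bot_iff, QuotientGroup.ker_mk'] at e))
  haveI := hLn
  have hLcard : Nat.card L = p := by
    obtain ⟨k, hk⟩ := IsPGroup.iff_card.1 ((hP.map π).to_le hLP)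
    rw [hk] at hLp
    rw [hk, Nat.Prime.eq_one_of_pow hLp, pow_one]
  set T' := L.comap π with hT'
  have hTT' : T ≤ T' := fun t ht => by
    show π t ∈ L
    rw [show π t = 1 from (QuotientGroup.eq_one_iff t).2 ht]; exact one_mem _
  have hT'P : T' ≤ P := (Subgroup.comap_mono hLP).trans (le_of_eq (by
    rw [Subgroup.comap_map_eq, QuotientGroup.ker_mk', sup_eq_left.2 hTP]))
  set A := Subgroup.zpowers y
  have hyw : ∀ w ∈ T', y * w * y⁻¹ * w⁻¹ ∈ T := by
    intro w hw
    refine mem_lineKer.1 hy T w hTn ?_ fun h => ?_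
    · rw [← QuotientGroup.eq_one_iff, QuotientGroup.mk_pow]
      have h1 := pow_card_eq_one' (G := L) (x := ⟨π w, hw⟩)
      rw [hLcard] at h1
      exact congrArg Subtype.val h1
    · rcases eq_or_ne (π w) 1 with e | e
      · refine ⟨0, ?_⟩
        rw [pow_zero, inv_one, mul_one]
        exact hTn.conj_mem w ((QuotientGroup.eq_one_iff w).1 e) h
      · have hwL : π w ∈ L := hw
        have hgen : Subgroup.zpowers (π w) = L := eq_of_le_of_card_le (Subgroup.zpowers_le.2 hwL) (by
          rw [hLcard, Nat.card_zpowers]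
          have h1 : orderOf (π w) ∣ p := by
            have := orderOf_dvd_natCard (⟨π w, hwL⟩ : L)
            rwa [Subgroup.orderOf_mk, hLcard] at this
          rcases hp.out.eq_one_or_self_of_dvd _ h1 with e1 | e1
          · exact absurd (orderOf_eq_one_iff.1 e1) e
          · rw [e1])
        obtain ⟨k, hk⟩ := (isOfFinOrder_of_finite (π w)).mem_powers_iff_mem_zpowers.2
          (hgen.ge (hLn.conj_mem _ hwL (π h)))
        replace hk : π w ^ k = π h * π w * (π h)⁻¹ := hk
        refine ⟨k, (QuotientGroup.eq_one_iff _).1 ?_⟩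
        show π (h * w * h⁻¹ * (w ^ k)⁻¹) = 1
        rw [map_mul, map_mul, map_mul, map_inv, map_inv, map_pow, hk, mul_inv_cancel]
  have hAT : A ≤ Subgroup.normalizer (T : Set Q) := by
    rw [Subgroup.normalizer_eq_top_iff.2 hTn]; exact le_top
  have hcop : (Nat.card A).Coprime (Nat.card T) := by
    obtain ⟨k, hk⟩ := IsPGroup.iff_card.1 (hP.to_le hTP)
    rw [Nat.card_zpowers, hk]; exact hyp.pow_right k
  have hle : T' ≤ (T' ⊓ Subgroup.centralizer (A : Set Q)) ⊔ T := by
    refine le_centralizer_sup_of_trivial_mod hTT'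
      (by rw [Subgroup.normalizer_eq_top_iff.2 hTn]; exact le_top) hAT hcop (Or.inl ?_) ?_
    · letI := IsCyclic.commGroup (α := A)
      exact Group.isSolvable_of_comm fun a b => mul_comm a b
    · intro a ha w hw
      obtain ⟨i, rfl⟩ := ha
      have hcomm : π y * π w = π w * π y := by
        have h1 : π (y * w * y⁻¹ * w⁻¹) = 1 := (QuotientGroup.eq_one_iff _).2 (hyw w hw)
        rw [map_mul, map_mul, map_mul, map_inv, map_inv] at h1
        exact mul_inv_eq_iff_eq_mul.1 (mul_inv_eq_one.1 h1)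
      refine (QuotientGroup.eq_one_iff _).1 ?_
      show π (y ^ i * w * (y ^ i)⁻¹ * w⁻¹) = 1
      rw [map_mul, map_mul, map_mul, map_inv, map_inv, map_zpow, (Commute.zpow_left hcomm i).eq,
        mul_inv_cancel_right, mul_inv_cancel]
  have hT'y : T' ≤ Subgroup.centralizer {y} := hle.trans (sup_le (fun z hz =>
    Subgroup.mem_centralizer_singleton_iff.2 (Subgroup.mem_centralizer_iff.1 hz.2 y (Subgroup.mem_zpowers y)).symm) hTy)
  have heq : T' ≤ T := hmax ⟨hLn.comap π, hT'P, hT'y⟩ hTT'
  have hLbot : L = ⊥ := by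
    rw [← Subgroup.map_comap_eq_self_of_surjective hsurj L, ← hT', eq_bot_iff]
    refine (Subgroup.map_mono heq).trans (le_of_eq ?_)
    rw [Subgroup.map_eq_bot_iff, QuotientGroup.ker_mk']
  rw [hLbot, Subgroup.card_bot] at hLcard
  exact hp.out.ne_one hLcard.symm

open CfsgLib.Local in
theorem lineKer_map {G : Type u} [Group G] {N : Subgroup G} [N.Normal] {p : ℕ} {y : G}
    (hy : y ∈ lineKer G p) : QuotientGroup.mk' N y ∈ lineKer (G ⧸ N) p := by
  rw [mem_lineKer]
  intro Y v hY h1 h2
  obtain ⟨v, rfl⟩ := QuotientGroup.mk'_surjective N v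
  have h := mem_lineKer.1 hy (Y.comap (QuotientGroup.mk' N)) v (hY.comap _) (by
    rw [Subgroup.mem_comap, map_pow]; exact h1) fun h => by
      obtain ⟨k, hk⟩ := h2 (QuotientGroup.mk' N h)
      exact ⟨k, by rw [Subgroup.mem_comap, map_mul, map_mul, map_mul, map_inv, map_inv, map_pow]; exact hk⟩
  rw [Subgroup.mem_comap, map_mul, map_mul, map_mul, map_inv, map_inv] at h
  exact h

/-- Huppert's supersolvability criterion: if every maximal subgroup of a finite group has prime index, then the group is supersolvable. -/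
theorem result {G : Type*} [Group G] [Finite G] (h : ∀ M : Subgroup G, IsCoatom M → M.index.Prime) : Cfsg.IsSupersolvable G := by
  suffices key : ∀ (n : ℕ) (G : Type u_1) [Group G] [Finite G], Nat.card G = n →
      (∀ M : Subgroup G, IsCoatom M → M.index.Prime) → Cfsg.IsSupersolvable G from key _ G rfl h
  clear h
  intro n
  induction n using Nat.strong_induction_on with
  | _ n ih =>
  intro G _ _ hn h
  subst hn
  by_cases h1 : Nat.card G = 1
  · haveI : Subsingleton G := (Nat.card_eq_one_iff_unique.1 h1).1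
    exact CfsgLib.Core.isSupersolvable_of_subsingleton
  obtain ⟨p, hpmem, hmax⟩ := (Nat.card G).primeFactors.exists_max_image id
    (Nat.nonempty_primeFactors.2 (by have := Nat.card_pos (α := G); omega))
  rw [Nat.mem_primeFactors] at hpmem
  obtain ⟨hp, hpd, -⟩ := hpmem
  haveI := Fact.mk hp
  obtain ⟨S⟩ : Nonempty (Sylow p G) := inferInstance
  have hPn : (S : Subgroup G).Normal := by
    rw [← Subgroup.normalizer_eq_top_iff]
    by_contra hne
    obtain ⟨M, hM, hNM⟩ := (eq_top_or_exists_le_coatom _).resolve_left hne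
    have hPM : (S : Subgroup G) ≤ M := Subgroup.le_normalizer.trans hNM
    have h2 : Nat.card (Sylow p G) = Nat.card (Sylow p M) * M.index := by
      rw [S.card_eq_index_normalizer, (S.subtype hPM).card_eq_index_normalizer]
      rw [show Subgroup.normalizer ((S.subtype hPM : Sylow p M) : Set M) =
        (Subgroup.normalizer ((S : Subgroup G) : Set G)).subgroupOf M from
          (Subgroup.subgroupOf_normalizer_eq hPM).symm]
      exact (Subgroup.relIndex_mul_index hNM).symm
    have h5 : M.index ≡ 1 [MOD p] := by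
      have := ((card_sylow_modEq_one p M).mul_right M.index).symm.trans (h2 ▸ card_sylow_modEq_one p G)
      rwa [one_mul] at this
    have hq := h M hM
    have hqp : M.index ≤ p := hmax M.index (Nat.mem_primeFactors.2 ⟨hq, M.index_dvd_card, Nat.card_pos.ne'⟩)
    rcases lt_or_eq_of_le hqp with hlt | he
    · exact hq.ne_one (Nat.ModEq.eq_of_lt_of_lt h5 hlt hp.one_lt)
    · rw [he, Nat.ModEq, Nat.mod_self, Nat.one_mod_eq_one.2 hp.ne_one] at h5
      omega
  set P : Subgroup G := (S : Subgroup G)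
  haveI := hPn
  have hP0 : P ≠ ⊥ := S.ne_bot_of_dvd_card hpd
  have hquot : ∀ (N : Subgroup G) [N.Normal], N ≠ ⊥ → Cfsg.IsSupersolvable (G ⧸ N) := fun N _ hN => by
    refine ih _ (CfsgLib.Core.card_quotient_lt hN) _ rfl fun M hM => ?_
    have hs := QuotientGroup.mk'_surjective N
    rw [← Subgroup.index_comap_of_surjective M hs]
    exact h _ (Subgroup.isCoatom_comap_of_surjective hs hM)
  have hPp : IsPGroup p P := S.2
  haveI := hPp.isNilpotent
  -- the Frattini subgroup of `P`, inside `G`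
  set Φ := (frattini P).map P.subtype with hΦ
  have hΦP : Φ ≤ P := Subgroup.map_subtype_le _
  haveI hΦn : Φ.Normal := inferInstance
  obtain ⟨X, hXn, hX0, hXP, hXΦ⟩ : ∃ X : Subgroup G, X.Normal ∧ X ≠ ⊥ ∧ X ≤ P ∧ (Φ ≠ ⊥ → X ≤ Φ) := by
    rcases eq_or_ne Φ ⊥ with e | e
    · exact ⟨P, hPn, hP0, le_rfl, fun h' => absurd e h'⟩
    · exact ⟨Φ, hΦn, e, hΦP, fun _ => le_rfl⟩
  haveI := hXn
  obtain ⟨N, hNn, hN0, hNX, hmin⟩ := CfsgLib.Core.exists_minimal_normal_le hX0
  haveI := hNn
  have hNP : N ≤ P := hNX.trans hXP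
  haveI : Group.IsSolvable N := by
    haveI := (hPp.to_le hNP).isNilpotent
    infer_instance
  have hNab := CfsgLib.Core.isMulCommutative_of_minimal_normal hmin
  by_cases hNF : ∃ M : Subgroup G, IsCoatom M ∧ ¬ N ≤ M
  · obtain ⟨M, hM, hNM⟩ := hNF
    have hsup : M ⊔ N = ⊤ := hM.2 _ (lt_of_le_of_ne le_sup_left fun e => hNM (e ▸ le_sup_right))
    have hinf : (N ⊓ M).Normal := by
      haveI := hNab
      rw [← Subgroup.normalizer_eq_top_iff, eq_top_iff, ← hsup]
      refine sup_le ?_ ?_
      · rw [CfsgLib.Core.le_normalizer_iff_forall]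
        rintro m hm x ⟨hx, hxM⟩
        exact ⟨hNn.conj_mem x hx m, show m * x * m⁻¹ ∈ M from mul_mem (mul_mem hm hxM) (inv_mem hm)⟩
      · refine le_trans ?_ (Subgroup.centralizer_le_normalizer _)
        exact N.le_centralizer.trans (Subgroup.centralizer_le inf_le_left)
    have hbot : N ⊓ M = ⊥ := (hmin _ hinf inf_le_left).resolve_right fun e => hNM (e ▸ inf_le_right)
    have hc : Subgroup.IsComplement' N M := Subgroup.isComplement'_of_disjoint_and_mul_eq_univ
      (disjoint_iff.2 hbot) (by rw [← Subgroup.normal_mul, sup_comm, hsup, Subgroup.coe_top])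
    haveI : IsCyclic N := by
      have hpr := h M hM
      rw [hc.index_eq_card] at hpr
      haveI := Fact.mk hpr
      exact isCyclic_of_prime_card rfl
    exact CfsgLib.Local.isSupersolvable_of_cyclic_normal inferInstance (hquot N hN0)
  push Not at hNF
  obtain ⟨hBn, hBc, hBp⟩ := CfsgLib.Local.lineKer_spec (G := G) hp
  have hco : Nat.Coprime (Nat.card P) P.index := by
    obtain ⟨k, hk⟩ := IsPGroup.iff_card.1 hPp
    rw [hk]
    exact (hp.coprime_iff_not_dvd.2 S.not_dvd_index).pow_left k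
  have hΦ0 : Φ ≠ ⊥ := by
    intro hΦ0
    have hexp : ∀ x ∈ P, x ^ p = 1 := fun x hx => by
      have h2 : ((⟨x, hx⟩ : P) ^ p : P) ∈ frattini P := CfsgLib.Core.pgroup_pow_mem_frattini hPp _
      exact Subgroup.mem_bot.1 (hΦ0.le ⟨_, h2, rfl⟩)
    have hPab : IsMulCommutative P := .of_comm fun a b => by
      have h2 : ⁅a, b⁆ ∈ frattini P := CfsgLib.Core.pgroup_commutator_le_frattini hPp
        (Subgroup.commutator_mem_commutator (Subgroup.mem_top a) (Subgroup.mem_top b))
      have h3 : ((⁅a, b⁆ : P) : G) = 1 := Subgroup.mem_bot.1 (hΦ0.le ⟨_, h2, rfl⟩)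
      exact commutatorElement_eq_one_iff_mul_comm.1 (Subtype.ext h3)
    haveI := hPab
    obtain ⟨W, ⟨hWP, hNW⟩, hWmax⟩ := (Set.toFinite {W : Subgroup G | W ≤ P ∧ N ⊓ W = ⊥}).exists_maximal
      ⟨⊥, bot_le, inf_bot_eq N⟩
    have hNWP : N ⊔ W = P := by
      refine le_antisymm (sup_le hNP hWP) fun v hv => ?_
      by_contra hvn
      have hvW : v ∉ W := fun e => hvn (Subgroup.mem_sup_right e)
      refine hvW (hWmax ⟨sup_le hWP (Subgroup.zpowers_le.2 hv), ?_⟩ le_sup_left
        (Subgroup.mem_sup_right (Subgroup.mem_zpowers v)) : v ∈ W)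
      have hnorm : Subgroup.zpowers v ≤ Subgroup.normalizer (W : Set G) :=
        ((Subgroup.zpowers_le.2 hv).trans P.le_centralizer).trans
          ((Subgroup.centralizer_le hWP).trans (Subgroup.centralizer_le_normalizer _))
      rw [eq_bot_iff]
      rintro x ⟨hxN, hx⟩
      have hx' : x ∈ ((W ⊔ Subgroup.zpowers v : Subgroup G) : Set G) := hx
      rw [Subgroup.coe_mul_of_right_le_normalizer_left W (Subgroup.zpowers v) hnorm] at hx'
      obtain ⟨w, hw, z, hz, rfl⟩ := hx'
      by_cases hz1 : z = 1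
      · subst hz1
        simp only [mul_one] at hxN ⊢
        exact hNW.le ⟨hxN, hw⟩
      · exfalso
        have hzv : Subgroup.zpowers z = Subgroup.zpowers v := by
          refine CfsgLib.Core.eq_of_le_of_card_le (Subgroup.zpowers_le.2 hz) ?_
          rw [Nat.card_zpowers, Nat.card_zpowers, orderOf_eq_prime (hexp z ((Subgroup.zpowers_le.2 hv) hz)) hz1]
          exact Nat.le_of_dvd hp.pos (orderOf_dvd_of_pow_eq_one (hexp v hv))
        refine hvn ((Subgroup.zpowers_le.2 ?_) (hzv.ge (Subgroup.mem_zpowers v)))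
        have hz' : z = w⁻¹ * (w * z) := by group
        rw [hz']
        exact mul_mem (Subgroup.mem_sup_right (inv_mem hw)) (Subgroup.mem_sup_left hxN)
    obtain ⟨H, hH⟩ := Subgroup.exists_right_complement'_of_coprime hco
    have hnormall : ∀ U : Subgroup G, U.Normal → H ≤ Subgroup.normalizer (U : Set G) := fun U hU => by
      rw [Subgroup.normalizer_eq_top_iff.2 hU]; exact le_top
    obtain ⟨W', hW'P, hHW', hNW', hNW'P⟩ := CfsgLib.LocalAverage.invariant_complement P H N W hPab (hnormall P hPn)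
      (by rw [← hH.symm.index_eq_card]; exact hco.symm) hNP (hnormall N hNn) hWP hNW hNWP
    have hne : W' ⊔ H ≠ ⊤ := fun e => by
      obtain ⟨x, hx, hx1⟩ : ∃ x ∈ N, x ≠ 1 := by
        by_contra hn; push Not at hn
        exact hN0 ((Subgroup.eq_bot_iff_forall _).2 hn)
      have hx' : x ∈ ((W' ⊔ H : Subgroup G) : Set G) := e.ge (Subgroup.mem_top x)
      rw [Subgroup.coe_mul_of_right_le_normalizer_left W' H hHW'] at hx'
      obtain ⟨w, hw, z, hz, rfl⟩ := hx'
      have hzP : z ∈ P ⊓ H := ⟨by simpa using mul_mem (inv_mem (hW'P hw)) (hNP hx), hz⟩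
      rw [disjoint_iff.1 hH.disjoint, Subgroup.mem_bot] at hzP
      subst hzP
      simp only [mul_one] at hx hx1
      exact hx1 (Subgroup.mem_bot.1 (hNW'.le ⟨hx, hw⟩))
    obtain ⟨M, hM, hle⟩ := (eq_top_or_exists_le_coatom _).resolve_left hne
    refine hM.1 (top_le_iff.1 ?_)
    rw [← hH.sup_eq_top, ← hNW'P]
    exact sup_le (sup_le (hNF M hM) (le_sup_left.trans hle)) (le_sup_right.trans hle)
  refine CfsgLib.Local.isSupersolvable_of_harmless hPp ⟨hBn, hBc, hBp, fun x hx => ?_⟩ (hquot P hP0)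
  refine ⟨(orderOf x).factorization p, ?_⟩
  set y := x ^ p ^ (orderOf x).factorization p with hy
  have hycop : (orderOf y).Coprime p := by
    rw [hy, orderOf_pow, Nat.gcd_eq_right (Nat.ordProj_dvd _ _)]
    exact (Nat.coprime_ordCompl hp (orderOf_pos x).ne').symm
  have hyq := centralizes_of_lineKer (hquot N hN0) (P.map (QuotientGroup.mk' N))
    (hPn := hPn.map _ (QuotientGroup.mk'_surjective N)) (hPp.map _)
    (lineKer_map (pow_mem hx (p ^ (orderOf x).factorization p)))
    (hycop.coprime_dvd_left (orderOf_map_dvd _ _))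
  refine CfsgLib.Core.le_centralizer_of_trivial_mod_frattini (A := Subgroup.zpowers y)
    (by rw [Subgroup.normalizer_eq_top_iff.2 hPn]; exact le_top) ?_ ?_ (Subgroup.mem_zpowers y)
  · obtain ⟨k, hk⟩ := IsPGroup.iff_card.1 (hPp.to_subgroup (frattini P))
    rw [Nat.card_zpowers, hk]; exact hycop.pow_right k
  · intro a ha v hv
    obtain ⟨i, rfl⟩ := ha
    refine hNX.trans (hXΦ hΦ0) ((QuotientGroup.eq_one_iff _).1 ?_)
    show QuotientGroup.mk' N (y ^ i * v * (y ^ i)⁻¹ * v⁻¹) = 1
    have hcomm : Commute (QuotientGroup.mk' N y) (QuotientGroup.mk' N v) :=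
      (Subgroup.mem_centralizer_iff.1 hyq _ ⟨v, hv, rfl⟩).symm
    rw [map_mul, map_mul, map_mul, map_inv, map_inv, map_zpow, (hcomm.zpow_left i).eq,
      mul_inv_cancel_right, mul_inv_cancel]

end Cfsg.Agent.S0579
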