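import Cfsg.Statements.S0580
import Cfsg.Agent.Lib.CoreBasic

set_option autoImplicit false
open Cfsg

namespace Cfsg.Agent.S0580

/-- If every maximal subgroup of a finite group has prime index, then the group is solvable. -/
theorem result {G : Type*} [Group G] [Finite G] (h : ∀ M : Subgroup G, IsCoatom M → M.index.Prime) : Group.IsSolvable G := by
  suffices key : ∀ (n : ℕ) (G : Type u_1) [Group G] [Finite G], Nat.card G = n →
      (∀ M : Subgroup G, IsCoatom M → M.index.Prime) → Group.IsSolvable G from key _ G rfl h
  clear h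
  intro n
  induction n using Nat.strong_induction_on with
  | _ n ih =>
  intro G _ _ hn h
  subst hn
  by_cases h1 : Nat.card G = 1
  · haveI : Subsingleton G := (Nat.card_eq_one_iff_unique.1 h1).1
    exact Group.isSolvable_of_comm fun a b => Subsingleton.elim _ _
  obtain ⟨p, hpmem, hmax⟩ := (Nat.card G).primeFactors.exists_max_image id
    (Nat.nonempty_primeFactors.2 (by have := Nat.card_pos (α := G); omega))
  rw [Nat.mem_primeFactors] at hpmem
  obtain ⟨hp, hpd, -⟩ := hpmem
  haveI := Fact.mk hp
  obtain ⟨P⟩ : Nonempty (Sylow p G) := inferInstance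
  have hPn : (P : Subgroup G).Normal := by
    rw [← Subgroup.normalizer_eq_top_iff]
    by_contra hne
    obtain ⟨M, hM, hNM⟩ := (eq_top_or_exists_le_coatom _).resolve_left hne
    have hPM : (P : Subgroup G) ≤ M := Subgroup.le_normalizer.trans hNM
    have h2 : Nat.card (Sylow p G) = Nat.card (Sylow p M) * M.index := by
      rw [P.card_eq_index_normalizer, (P.subtype hPM).card_eq_index_normalizer]
      rw [show Subgroup.normalizer ((P.subtype hPM : Sylow p M) : Set M) =
        (Subgroup.normalizer ((P : Subgroup G) : Set G)).subgroupOf M from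
          (Subgroup.subgroupOf_normalizer_eq hPM).symm]
      exact (Subgroup.relIndex_mul_index hNM).symm
    have h3 := card_sylow_modEq_one p G
    have h4 := card_sylow_modEq_one p M
    have h5 : M.index ≡ 1 [MOD p] := by
      have := (h4.mul_right M.index).symm.trans (h2 ▸ h3)
      rwa [one_mul] at this
    have hq := h M hM
    have hqp : M.index ≤ p := hmax M.index (Nat.mem_primeFactors.2 ⟨hq, M.index_dvd_card, Nat.card_pos.ne'⟩)
    rcases lt_or_eq_of_le hqp with hlt | he
    · exact hq.ne_one (Nat.ModEq.eq_of_lt_of_lt h5 hlt hp.one_lt)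
    · rw [he, Nat.ModEq, Nat.mod_self, Nat.one_mod_eq_one.2 hp.ne_one] at h5
      omega
  haveI := hPn
  haveI : Group.IsSolvable (P : Subgroup G) := by
    haveI := P.2.isNilpotent
    infer_instance
  haveI : Group.IsSolvable (G ⧸ (P : Subgroup G)) := by
    refine ih _ ?_ _ rfl fun M hM => ?_
    · rw [← Subgroup.index_eq_card, ← (P : Subgroup G).card_mul_index]
      refine lt_mul_of_one_lt_left (Nat.pos_of_ne_zero Subgroup.index_ne_zero_of_finite) ?_
      rw [P.card_eq_multiplicity]
      exact Nat.one_lt_pow (hp.factorization_pos_of_dvd Nat.card_pos.ne' hpd).ne' hp.one_lt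
    · have hs := QuotientGroup.mk'_surjective (P : Subgroup G)
      rw [← Subgroup.index_comap_of_surjective M hs]
      exact h _ (Subgroup.isCoatom_comap_of_surjective hs hM)
  exact (Group.isSolvable_iff_subgroup_quotient (P : Subgroup G)).2 ⟨inferInstance, inferInstance⟩

end Cfsg.Agent.S0580
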