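import Cfsg.Statements.S0582
import Cfsg.Agent.Lib.CoreSuperTower
import Cfsg.Agent.Lib.CoreSupersolvable
import Cfsg.Agent.Lib.FgsSupersolvable
import Cfsg.Agent.Lib.CoreSZ
import Cfsg.Agent.Lib.CoreFitting

set_option autoImplicit false
open Pointwise
open Cfsg

namespace Cfsg.Agent.S0582

universe w

private theorem top_sylow {X : Type w} [Group X] [Finite X] (hX : Cfsg.IsSupersolvable X) {q : ℕ}
    [hq : Fact q.Prime] (hmax : ∀ r : ℕ, r.Prime → r ∣ Nat.card X → r ≤ q) :
    ∃ N : Subgroup X, N.Normal ∧ Nat.card N = q ^ (Nat.card X).factorization q := by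
  obtain ⟨N, hNn, h1, h2⟩ := CfsgLib.Core.exists_upper_hall_of_supersolvable q _ X rfl hX
  refine ⟨N, hNn, ?_⟩
  have hN : IsPGroup q N := IsPGroup.of_card
    (Nat.eq_prime_pow_of_unique_prime_dvd (p := q) Nat.card_pos.ne' fun {d} hd hdN =>
      le_antisymm (hmax d hd (hdN.trans (Subgroup.card_subgroup_dvd_card N))) (h1 d hd hdN))
  obtain ⟨k, hk⟩ := IsPGroup.iff_card.1 hN
  have hqi : ¬ q ∣ N.index := fun h => absurd (h2 q hq.out h) (lt_irrefl q)
  rw [← Subgroup.card_mul_index N, Nat.factorization_mul Nat.card_pos.ne'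
    Subgroup.index_ne_zero_of_finite, Finsupp.add_apply, hk, Nat.Prime.factorization_pow hq.out,
    Finsupp.single_eq_same, Nat.factorization_eq_zero_of_not_dvd hqi, add_zero]

open scoped Pointwise in
set_option maxHeartbeats 400000 in
private theorem main : ∀ (n : ℕ) {G : Type w} [Group G] [Finite G], Nat.card G = n →
    ∀ H K : Subgroup G, Cfsg.IsSupersolvable H → Cfsg.IsSupersolvable K →
      Nat.card H = Nat.card K → (Nat.card H).Coprime H.index →
      ∃ x : G, MulAut.conj x • H = K := by
  intro n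
  induction n using Nat.strong_induction_on with
  | _ n ih =>
  intro G _ _ hn H K hH hK hcard hHall
  by_cases hH1 : Nat.card H = 1
  · refine ⟨1, ?_⟩
    rw [map_one, one_smul, Subgroup.eq_bot_of_card_eq H hH1, Subgroup.eq_bot_of_card_eq K (hcard.symm.trans hH1)]
  set m := Nat.card H with hm
  obtain ⟨q, hqmem, hqmax⟩ := (m.primeFactors).exists_max_image id
    (Nat.nonempty_primeFactors.2 (by have := Nat.card_pos (α := H); omega))
  obtain ⟨hq, hqm, -⟩ := Nat.mem_primeFactors.1 hqmem
  haveI := Fact.mk hq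
  have hmax : ∀ r : ℕ, r.Prime → r ∣ m → r ≤ q := fun r hr hrm =>
    hqmax r (Nat.mem_primeFactors.2 ⟨hr, hrm, Nat.card_pos.ne'⟩)
  set e := m.factorization q with he
  have hfac : (Nat.card G).factorization q = e := by
    rw [← Subgroup.card_mul_index H, Nat.factorization_mul Nat.card_pos.ne'
      Subgroup.index_ne_zero_of_finite, Finsupp.add_apply,
      Nat.factorization_eq_zero_of_not_dvd (n := H.index) fun h =>
        hq.one_lt.ne' (Nat.eq_one_of_dvd_coprimes hHall hqm h), add_zero]
  obtain ⟨N, hNn, hNc⟩ := top_sylow hH hmax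
  obtain ⟨N', hN'n, hN'c⟩ := top_sylow hK (q := q) (by rw [← hcard]; exact hmax)
  replace hN'c : Nat.card N' = q ^ e := by rw [hN'c, he, hcard]
  replace hNc : Nat.card N = q ^ e := by rw [hNc]
  set P : Sylow q G := Sylow.ofCard (N.map H.subtype)
    (by rw [Subgroup.card_subtype, hNc, hfac]) with hP
  set P' : Sylow q G := Sylow.ofCard (N'.map K.subtype)
    (by rw [Subgroup.card_subtype, hN'c, hfac]) with hP'
  obtain ⟨g, hg⟩ := MulAction.exists_smul_eq G P P'
  have hg' : MulAut.conj g • (N.map H.subtype) = N'.map K.subtype := by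
    have h := congrArg (fun Q : Sylow q G => (Q : Subgroup G)) hg
    simpa [Sylow.coe_subgroup_smul, hP, hP', Sylow.coe_ofCard] using h
  set X := N'.map K.subtype with hX
  set L := Subgroup.normalizer (X : Set G) with hL
  have hnorm : ∀ (A : Subgroup G) (B : Subgroup A), B.Normal →
      A ≤ Subgroup.normalizer (B.map A.subtype : Set G) := by
    intro A B hB a ha
    refine Subgroup.mem_normalizer_fintype ?_
    rintro y ⟨b, hb, rfl⟩
    exact ⟨⟨a, ha⟩ * b * ⟨a, ha⟩⁻¹, hB.conj_mem b hb _, rfl⟩
  set H' := MulAut.conj g • H with hH'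
  have hH'c : Nat.card H' = m := CfsgLib.Core.card_conj_smul g H
  have hH's : Cfsg.IsSupersolvable H' := by
    have e' : ↥H ≃* ↥H' := Subgroup.equivSMul _ H
    exact CfsgLib.Super.isSupersolvable_of_surjective e'.toMonoidHom e'.surjective hH
  have hH'L : H' ≤ L := by
    rw [hL, ← hg', CfsgLib.Core.conj_smul_eq_map, hH', CfsgLib.Core.conj_smul_eq_map,
      ]
    exact (Subgroup.map_mono (hnorm H N hNn)).trans
      (Subgroup.map_equiv_normalizer_eq _ (MulAut.conj g)).le
  have hKL : K ≤ L := hnorm K N' hN'n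
  have hHall' : m.Coprime H'.index := by
    have h1 := Subgroup.card_mul_index H
    have h2 := Subgroup.card_mul_index H'
    rw [hH'c, ← h1] at h2
    rwa [Nat.eq_of_mul_eq_mul_left (Nat.card_pos (α := H)) h2]
  suffices ∃ y : G, MulAut.conj y • H' = K by
    obtain ⟨y, hy⟩ := this
    exact ⟨y * g, by rw [map_mul, mul_smul]; exact hy⟩
  by_cases hLt : L = ⊤
  · -- `X` is normal: pass to the quotient
    haveI : X.Normal := Subgroup.normalizer_eq_top_iff.1 hLt
    have hX1 : X ≠ ⊥ := by
      intro h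
      have h1 : Nat.card X = 1 := by rw [h, Subgroup.card_bot]
      rw [hX, Subgroup.card_subtype, hN'c] at h1
      exact (Nat.one_lt_pow (hq.factorization_pos_of_dvd Nat.card_pos.ne' hqm).ne' hq.one_lt).ne' h1
    have hXH : X ≤ H' := by
      rw [← hg', hH']
      exact (CfsgLib.Core.conj_smul_le_conj_smul (g := g)).2 (Subgroup.map_subtype_le N)
    have hXK : X ≤ K := Subgroup.map_subtype_le N'
    set π := QuotientGroup.mk' X
    have hs : ∀ A : Subgroup G, Cfsg.IsSupersolvable A → Cfsg.IsSupersolvable ↥(A.map π) := fun A hA =>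
      CfsgLib.Super.isSupersolvable_of_surjective _ (π.subgroupMap_surjective A) hA
    have hc : ∀ A : Subgroup G, X ≤ A → Nat.card ↥(A.map π) * Nat.card X = Nat.card A := by
      intro A hA
      have h := CfsgLib.Core.card_map_mk' (N := X) A
      rwa [inf_eq_left.2 hA] at h
    have hcq : Nat.card ↥(H'.map π) = Nat.card ↥(K.map π) :=
      Nat.eq_of_mul_eq_mul_right (Nat.card_pos (α := X)) (by rw [hc _ hXH, hc _ hXK, hH'c, hcard])
    have hidx : (H'.map π).index = H'.index := by
      rw [Subgroup.index_map_eq _ (QuotientGroup.mk'_surjective X)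
        (by rw [QuotientGroup.ker_mk']; exact hXH)]
    obtain ⟨y, hy⟩ := ih _ (hn ▸ CfsgLib.Core.card_quotient_lt hX1) rfl _ _ (hs _ hH's) (hs _ hK) hcq
      (by rw [hidx]; exact Nat.Coprime.coprime_dvd_left ⟨_, ((hc _ hXH).trans hH'c).symm⟩ hHall')
    obtain ⟨y, rfl⟩ := QuotientGroup.mk'_surjective X y
    refine ⟨y, ?_⟩
    rw [← CfsgLib.Core.map_conj_smul] at hy
    have h := congrArg (Subgroup.comap π) hy
    rw [CfsgLib.Core.comap_mk'_map, CfsgLib.Core.comap_mk'_map, sup_eq_left.2 hXK, sup_eq_left.2] at h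
    · exact h
    · rw [← CfsgLib.Core.conj_smul_of_normal y X]
      exact (CfsgLib.Core.conj_smul_le_conj_smul (g := y)).2 hXH
  · have hlt : Nat.card L < n := hn ▸ CfsgLib.Core.card_lt_of_ne_top hLt
    have e1 := Subgroup.subgroupOfEquivOfLe hH'L
    have e2 := Subgroup.subgroupOfEquivOfLe hKL
    obtain ⟨y, hy⟩ := ih _ hlt rfl (H'.subgroupOf L) (K.subgroupOf L)
      (CfsgLib.Super.isSupersolvable_of_surjective e1.symm.toMonoidHom e1.symm.surjective hH's)
      (CfsgLib.Super.isSupersolvable_of_surjective e2.symm.toMonoidHom e2.symm.surjective hK)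
      (by rw [CfsgLib.Core.card_subgroupOf_of_le hH'L, CfsgLib.Core.card_subgroupOf_of_le hKL, hH'c, hcard])
      (by rw [CfsgLib.Core.card_subgroupOf_of_le hH'L, hH'c]
          exact hHall'.coprime_dvd_right (Subgroup.relIndex_dvd_index_of_le hH'L))
    exact ⟨y, CfsgLib.Core.map_subtype_conj_smul_subgroupOf hH'L hKL hy⟩

/-- Let H and K be supersolvable subgroups of a finite group G of the same order, that order being coprime to their index. Then H and K are conjugate in G. -/
theorem result {G : Type*} [Group G] [Finite G] (H K : Subgroup G) (hH : Cfsg.IsSupersolvable H) (hK : Cfsg.IsSupersolvable K) (hcard : Nat.card H = Nat.card K) (hHall : (Nat.card H).Coprime H.index) : ∃ x : G, MulAut.conj x • H = K := by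
  exact main (Nat.card G) rfl H K hH hK hcard hHall

end Cfsg.Agent.S0582
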