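import Cfsg.Statements.S0583
import Cfsg.Agent.Lib.CoreFitting
import Cfsg.Agent.Lib.CorePGroup

set_option autoImplicit false
open Cfsg

namespace Cfsg.Agent.S0583

/-- In a finite group the Fitting subgroup is contained in the centralizer of each minimal normal subgroup. -/
theorem result {G : Type*} [Group G] [Finite G] (M : Subgroup G) [M.Normal] (hM : M ≠ ⊥) (hmin : ∀ K : Subgroup G, K.Normal → K ≤ M → K = ⊥ ∨ K = M) : Cfsg.fittingSubgroup G ≤ Subgroup.centralizer (M : Set G) := by
  haveI hFn := CfsgLib.Core.normal_fittingSubgroup (G := G)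
  haveI := CfsgLib.Core.isNilpotent_fittingSubgroup (G := G)
  set F := Cfsg.fittingSubgroup G
  rcases hmin (F ⊓ M) inferInstance inf_le_right with h | h
  · intro x hx
    exact Subgroup.mem_centralizer_iff.mpr fun y hy =>
      (Subgroup.commute_of_normal_of_disjoint _ _ hFn ‹M.Normal› (disjoint_iff.mpr h) x y hx hy).symm.eq
  · have hMF : M ≤ F := h ▸ inf_le_left
    haveI : (M.subgroupOf F).Normal := inferInstance
    have h1 : M.subgroupOf F ⊓ Subgroup.center F ≠ ⊥ := by
      apply CfsgLib.Core.nilpotent_inf_center_ne_bot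
      rw [Ne, Subgroup.subgroupOf_eq_bot]
      exact fun hd => hM (le_bot_iff.mp (hd le_rfl hMF))
    have h2 : M ⊓ Subgroup.centralizer (F : Set G) ≠ ⊥ := by
      obtain ⟨x, hx, hx1⟩ := (Subgroup.ne_bot_iff_exists_ne_one.mp h1)
        |> fun ⟨a, ha⟩ => (⟨a.1, a.2, fun e => ha (Subtype.ext e)⟩ :
          ∃ x, x ∈ M.subgroupOf F ⊓ Subgroup.center F ∧ x ≠ 1)
      intro hbot
      apply hx1
      have : (x : G) ∈ M ⊓ Subgroup.centralizer (F : Set G) :=
        ⟨hx.1, Subgroup.mem_centralizer_iff.mpr fun y hy =>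
          congrArg Subtype.val (Subgroup.mem_center_iff.mp hx.2 ⟨y, hy⟩)⟩
      rw [hbot, Subgroup.mem_bot] at this
      exact Subtype.ext this
    have h3 := (hmin _ inferInstance inf_le_left).resolve_left h2
    rw [Subgroup.le_centralizer_iff]
    exact h3.ge.trans inf_le_right

end Cfsg.Agent.S0583
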