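import Cfsg.Statements.S0585
import Cfsg.Agent.Lib.CoreSZ

set_option autoImplicit false
open Cfsg

namespace Cfsg.Agent.S0585

/-- If the Frattini subgroup of a finite group G is trivial, then every abelian normal subgroup of G has a complement in G. -/
theorem result {G : Type*} [Group G] [Finite G] (hΦ : frattini G = ⊥) (A : Subgroup G) [A.Normal] [IsMulCommutative A] : ∃ H : Subgroup G, Subgroup.IsComplement' A H := by
  obtain ⟨H, hH, hmin⟩ := (Set.toFinite {K : Subgroup G | K ⊔ A = ⊤}).exists_minimal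
    ⟨⊤, top_sup_eq A⟩
  have hH' : H ⊔ A = ⊤ := hH
  refine ⟨H, ?_⟩
  haveI hXn : (A ⊓ H).Normal := by
    rw [← Subgroup.normalizer_eq_top_iff, eq_top_iff, ← hH']
    apply sup_le
    · exact CfsgLib.Core.le_normalizer_iff_forall.mpr fun a ha x hx =>
        ⟨‹A.Normal›.conj_mem x hx.1 a, H.mul_mem (H.mul_mem ha hx.2) (H.inv_mem ha)⟩
    · refine le_trans ?_ (Subgroup.centralizer_le_normalizer ((A ⊓ H : Subgroup G) : Set G))
      intro x hx
      exact Subgroup.mem_centralizer_iff.mpr fun y hy =>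
        congrArg Subtype.val (mul_comm' (⟨y, hy.1⟩ : A) ⟨x, hx⟩)
  have hX : A ⊓ H ≤ frattini G := by
    rw [frattini, Order.radical]
    refine le_iInf₂ fun M hM => ?_
    by_contra hnot
    have hMX : M ⊔ (A ⊓ H) = ⊤ := hM.2 _ (left_lt_sup.mpr hnot)
    have hded : H ⊓ M ⊔ (A ⊓ H) = H := CfsgLib.Core.inf_sup_eq_of_sup_eq_top inf_le_right hMX
    have hsup : H ⊓ M ⊔ A = ⊤ := by
      apply top_le_iff.mp
      rw [← hH']
      refine sup_le ?_ le_sup_right
      exact hded.ge.trans (sup_le_sup_left inf_le_left _)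
    have := hmin (y := H ⊓ M) hsup inf_le_left
    exact hnot (inf_le_right.trans (this.trans inf_le_right))
  rw [hΦ, le_bot_iff] at hX
  exact Subgroup.isComplement'_of_disjoint_and_mul_eq_univ (disjoint_iff.mpr hX)
    (by rw [← Subgroup.normal_mul A H, sup_comm, hH']; rfl)

end Cfsg.Agent.S0585
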