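import Cfsg.Statements.S0586
import Cfsg.Agent.Lib.CoreFitting
import Cfsg.Agent.Lib.CorePGroup
import Cfsg.Agent.S0585

set_option autoImplicit false
open Cfsg

namespace Cfsg.Agent.S0586

/-- If the Frattini subgroup of a finite group G is trivial, then the Fitting subgroup of G equals the join of all abelian minimal normal subgroups of G. -/
theorem result {G : Type*} [Group G] [Finite G] (hΦ : frattini G = ⊥) : Cfsg.fittingSubgroup G = sSup {N : Subgroup G | N.Normal ∧ N ≠ ⊥ ∧ IsMulCommutative N ∧ ∀ K : Subgroup G, K.Normal → K ≤ N → K = ⊥ ∨ K = N} := by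
  haveI hFn := CfsgLib.Core.normal_fittingSubgroup (G := G)
  have hp : ∀ p : ℕ, p.Prime → IsMulCommutative (Cfsg.pCore p G) := by
    intro p hp
    haveI := Fact.mk hp
    haveI := CfsgLib.Core.normal_pCore (G := G) p
    have h1 := CfsgLib.Core.frattini_map_subtype_le (H := Cfsg.pCore p G)
    rw [hΦ, le_bot_iff, Subgroup.map_eq_bot_iff_of_injective _ Subtype.coe_injective] at h1
    have h2 := CfsgLib.Core.pgroup_commutator_le_frattini (CfsgLib.Core.isPGroup_pCore (G := G) p)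
    rw [h1, le_bot_iff, commutator_def, Subgroup.commutator_eq_bot_iff_le_centralizer] at h2
    exact ⟨⟨fun a b => Subgroup.mem_centralizer_iff.mp (h2 (Subgroup.mem_top b)) a
      (Subgroup.mem_top a)⟩⟩
  have hFc : Cfsg.fittingSubgroup G ≤ Subgroup.centralizer (Cfsg.fittingSubgroup G : Set G) := by
    have h : ∀ p q : Nat.Primes, Cfsg.pCore (p : ℕ) G ≤
        Subgroup.centralizer (Cfsg.pCore (q : ℕ) G : Set G) := by
      intro p q x hx
      rw [Subgroup.mem_centralizer_iff]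
      intro y hy
      rcases eq_or_ne p q with rfl | hne
      · haveI := hp p p.2
        exact congrArg Subtype.val
          (mul_comm' (⟨y, hy⟩ : Cfsg.pCore (p : ℕ) G) ⟨x, hx⟩)
      · haveI := Fact.mk p.2
        haveI := Fact.mk q.2
        exact (Subgroup.commute_of_normal_of_disjoint _ _ (CfsgLib.Core.normal_pCore (q : ℕ))
          (CfsgLib.Core.normal_pCore (p : ℕ)) (IsPGroup.disjoint_of_ne _ _
            (fun h => hne (Subtype.ext h.symm)) _ _ (CfsgLib.Core.isPGroup_pCore (q : ℕ))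
            (CfsgLib.Core.isPGroup_pCore (p : ℕ))) y x hy hx).eq
    rw [CfsgLib.Core.fittingSubgroup_eq_iSup_pCore]
    refine iSup_le fun p => ?_
    rw [Subgroup.le_centralizer_iff]
    exact iSup_le fun q => h q p
  set 𝒮 := {N : Subgroup G | N.Normal ∧ N ≠ ⊥ ∧ IsMulCommutative N ∧
    ∀ K : Subgroup G, K.Normal → K ≤ N → K = ⊥ ∨ K = N} with h𝒮
  have hSF : sSup 𝒮 ≤ Cfsg.fittingSubgroup G := by
    refine sSup_le fun N hN => ?_
    haveI := hN.2.2.1
    open scoped IsMulCommutative in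
    exact CfsgLib.Core.le_fittingSubgroup hN.1 inferInstance
  haveI hSn : (sSup 𝒮).Normal := by
    rw [← Subgroup.normalizer_eq_top_iff, eq_top_iff]
    intro g _
    rw [Subgroup.mem_normalizer_iff]
    have key : ∀ (g : G), ∀ x ∈ sSup 𝒮, g * x * g⁻¹ ∈ sSup 𝒮 := by
      intro g x hx
      have : sSup 𝒮 ≤ (sSup 𝒮).comap (MulAut.conj g).toMonoidHom := sSup_le fun N hN y hy =>
        le_sSup hN (hN.1.conj_mem y hy g)
      exact this hx
    intro x
    refine ⟨key g x, fun h => ?_⟩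
    have := key g⁻¹ _ h
    simpa [mul_assoc] using this
  haveI hScomm : IsMulCommutative (sSup 𝒮 : Subgroup G) := ⟨⟨fun a b => Subtype.ext
    (Subgroup.mem_centralizer_iff.mp (hFc (hSF b.2)) a (hSF a.2))⟩⟩
  obtain ⟨H, hH⟩ := Cfsg.Agent.S0585.result hΦ (sSup 𝒮)
  refine le_antisymm ?_ hSF
  haveI hXn : (Cfsg.fittingSubgroup G ⊓ H).Normal := by
    rw [← Subgroup.normalizer_eq_top_iff, eq_top_iff, ← hH.sup_eq_top]
    apply sup_le
    · refine le_trans ?_
        (Subgroup.centralizer_le_normalizer ((Cfsg.fittingSubgroup G ⊓ H : Subgroup G) : Set G))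
      exact (hSF.trans hFc).trans (Subgroup.centralizer_le inf_le_left)
    · exact CfsgLib.Core.le_normalizer_iff_forall.mpr fun a ha x hx =>
        ⟨hFn.conj_mem x hx.1 a, H.mul_mem (H.mul_mem ha hx.2) (H.inv_mem ha)⟩
  have hbot : Cfsg.fittingSubgroup G ⊓ H = ⊥ := by
    by_contra hne
    obtain ⟨N, hN, hN0, hNle, hmin⟩ := CfsgLib.Core.exists_minimal_normal_le hne
    have hc : IsMulCommutative N := ⟨⟨fun a b => Subtype.ext
      (Subgroup.mem_centralizer_iff.mp (hFc (hNle b.2).1) a (hNle a.2).1)⟩⟩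
    exact hN0 (le_bot_iff.mp (hH.disjoint
      (le_sSup (show N ∈ 𝒮 from ⟨hN, hN0, hc, hmin⟩)) (hNle.trans inf_le_right)))
  intro x hx
  have hx' : x ∈ sSup 𝒮 ⊔ H := hH.sup_eq_top ▸ Subgroup.mem_top x
  rw [← SetLike.mem_coe, Subgroup.normal_mul] at hx'
  obtain ⟨s, hs, h, hh, rfl⟩ := hx'
  have : h ∈ Cfsg.fittingSubgroup G ⊓ H :=
    ⟨by simpa using Subgroup.mul_mem _ (Subgroup.inv_mem _ (hSF hs)) hx, hh⟩
  rw [hbot, Subgroup.mem_bot] at this
  simpa [this] using hs

end Cfsg.Agent.S0586
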