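import Cfsg.Statements.S0587
import Cfsg.Agent.Lib.CoreBasic
import Cfsg.Agent.Lib.CoreFitting

set_option autoImplicit false
open Cfsg

namespace Cfsg.Agent.S0587

/-- Let G be a finite group whose largest normal p-subgroup L is nontrivial, and M a maximal subgroup of G with trivial normal core. Then L is elementary abelian, M is a complement to L, L is a minimal normal subgroup of G, the centralizer of L is L, and for every prime q such that the largest normal q-subgroup of M is nontrivial, the order of L is congruent to 1 modulo q and q ≠ p. -/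
theorem result {G : Type*} [Group G] [Finite G] (p : ℕ) [Fact p.Prime] (hL : Cfsg.pCore p G ≠ ⊥) (M : Subgroup G) (hM : IsCoatom M) (hcore : M.normalCore = ⊥) : Cfsg.IsElementaryAbelian p (Cfsg.pCore p G) ∧ Subgroup.IsComplement' (Cfsg.pCore p G) M ∧ (∀ K : Subgroup G, K.Normal → K ≤ Cfsg.pCore p G → K = ⊥ ∨ K = Cfsg.pCore p G) ∧ Subgroup.centralizer ((Cfsg.pCore p G : Subgroup G) : Set G) = Cfsg.pCore p G ∧ ∀ (q : ℕ) [Fact q.Prime], Cfsg.pCore q ↥M ≠ ⊥ → Nat.card (Cfsg.pCore p G) % q = 1 % q ∧ q ≠ p := by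
  classical
  have hp := (Fact.out : p.Prime)
  set L := Cfsg.pCore p G with hLdef
  haveI hLn : L.Normal := CfsgLib.Core.normal_pCore p
  have hLp : IsPGroup p L := CfsgLib.Core.isPGroup_pCore p
  -- normal subgroups inside `M` are trivial
  have hnorm : ∀ N : Subgroup G, N.Normal → N ≤ M → N = ⊥ := fun N hN h =>
    le_bot_iff.1 (hcore ▸ (Subgroup.normal_le_normalCore (hN := hN)).2 h)
  have hsup : ∀ N : Subgroup G, N.Normal → N ≠ ⊥ → M ⊔ N = ⊤ := fun N hN h =>
    hM.2 _ (lt_of_le_of_ne le_sup_left fun e => h (hnorm N hN (e ▸ le_sup_right)))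
  -- an abelian normal subgroup is a self-centralizing complement
  have hab : ∀ N : Subgroup G, N.Normal → IsMulCommutative N → N ≠ ⊥ →
      N ⊓ M = ⊥ ∧ Subgroup.centralizer (N : Set G) = N := by
    intro N hN hNc h
    haveI := hN; haveI := hNc
    have hMN := hsup N hN h
    have h1 : ∀ X : Subgroup G, X.Normal → (∀ x ∈ X ⊓ M, ∀ n ∈ N, x * n = n * x) → X ⊓ M = ⊥ := by
      intro X hX hXc
      refine hnorm _ ?_ inf_le_right
      rw [← Subgroup.normalizer_eq_top_iff, eq_top_iff, ← hMN, CfsgLib.Core.le_normalizer_iff_forall]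
      intro g hg x hx
      obtain ⟨m, hm, n, hn, rfl⟩ := Subgroup.mem_sup_of_normal_right.1 hg
      have h2 : m * n * x * (m * n)⁻¹ = m * x * m⁻¹ := by
        rw [mul_assoc m n x, ← hXc x hx n hn]; group
      rw [h2]
      exact ⟨hX.conj_mem x hx.1 m, show m * x * m⁻¹ ∈ M from mul_mem (mul_mem hm hx.2) (inv_mem hm)⟩
    have hNM : N ⊓ M = ⊥ := h1 N hN fun x hx n hn =>
      (Subgroup.mem_centralizer_iff.1 (N.le_centralizer hx.1) n hn).symm
    refine ⟨hNM, le_antisymm ?_ N.le_centralizer⟩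
    have hCM : Subgroup.centralizer (N : Set G) ⊓ M = ⊥ := h1 _ inferInstance fun x hx n hn =>
      (Subgroup.mem_centralizer_iff.1 hx.1 n hn).symm
    intro c hc
    obtain ⟨m, hm, n, hn, rfl⟩ := Subgroup.mem_sup_of_normal_right.1 (hMN.ge (Subgroup.mem_top c))
    have hm' : m ∈ Subgroup.centralizer (N : Set G) := by
      have := mul_mem hc (inv_mem (N.le_centralizer hn))
      simpa using this
    have : m = 1 := Subgroup.mem_bot.1 (hCM.le ⟨hm', hm⟩)
    rw [this, one_mul]; exact hn
  -- `L` is the centre of itself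
  obtain ⟨N, hNn, hN0, hNL, hmin⟩ := CfsgLib.Core.exists_minimal_normal_le hL
  haveI := hNn
  haveI : Group.IsSolvable N := by
    haveI := (hLp.to_le hNL).isNilpotent
    infer_instance
  have hNc : IsMulCommutative N := CfsgLib.Core.isMulCommutative_of_minimal_normal hmin
  have hLZ : IsMulCommutative L := by
    haveI := hLp.isNilpotent
    haveI : Nontrivial L := (Subgroup.nontrivial_iff_ne_bot L).2 hL
    haveI := hLp.center_nontrivial
    set Z := (Subgroup.center L).map L.subtype
    have hZ0 : Z ≠ ⊥ := by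
      rw [Ne, Subgroup.map_eq_bot_iff_of_injective _ L.subtype_injective]
      exact (Subgroup.nontrivial_iff_ne_bot _).1 inferInstance
    haveI hZn : Z.Normal := inferInstance
    haveI hZc : IsMulCommutative Z := .of_comm fun ⟨a, x, hx, hxa⟩ ⟨b, y, _, hyb⟩ => Subtype.ext (by
      show a * b = b * a
      rw [← hxa, ← hyb]
      exact congrArg Subtype.val (Subgroup.mem_center_iff.1 hx y).symm)
    have hCZ := (hab Z hZn hZc hZ0).2
    have hle : L ≤ Z := by
      rw [← hCZ]
      intro x hx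
      rw [Subgroup.mem_centralizer_iff]
      rintro _ ⟨z, hz, rfl⟩
      exact (congrArg Subtype.val (Subgroup.mem_center_iff.1 hz ⟨x, hx⟩)).symm
    rw [← le_antisymm hle (Subgroup.map_subtype_le _)] at hZc
    exact hZc
  obtain ⟨hLM, hCL⟩ := hab L hLn hLZ hL
  have hLmin : ∀ K : Subgroup G, K.Normal → K ≤ L → K = ⊥ ∨ K = L := by
    intro K hK hKL
    rcases eq_or_ne K ⊥ with h | h
    · exact Or.inl h
    · have hKc : IsMulCommutative K := by
        haveI := hLZ
        exact .of_comm fun a b => Subtype.ext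
          (Subgroup.mem_centralizer_iff.1 (L.le_centralizer (hKL b.2)) a (hKL a.2))
      exact Or.inr (le_antisymm hKL ((hab K hK hKc h).2 ▸
        (L.le_centralizer.trans (Subgroup.centralizer_le hKL))))
  refine ⟨⟨hLZ, ?_⟩, ?_, hLmin, hCL, fun q _ hQ => ?_⟩
  · haveI := hLZ
    haveI : Group.IsSolvable L := by
      haveI := hLp.isNilpotent
      infer_instance
    obtain ⟨r, hr, hrL⟩ := CfsgLib.Core.exists_prime_pow_eq_one_of_minimal_normal hL hLmin
    suffices r = p by subst this; exact hrL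
    obtain ⟨x, hx, hx1⟩ : ∃ x ∈ L, x ≠ 1 := by
      by_contra hne; push Not at hne
      exact hL ((Subgroup.eq_bot_iff_forall _).2 hne)
    obtain ⟨i, hi⟩ := IsPGroup.iff_orderOf.1 hLp ⟨x, hx⟩
    have h1 : orderOf x ∣ r := orderOf_dvd_of_pow_eq_one (hrL x hx)
    rw [Subgroup.orderOf_mk, ] at hi
    rcases hr.eq_one_or_self_of_dvd _ h1 with e | e
    · exact absurd (orderOf_eq_one_iff.1 e) hx1
    · rw [e] at hi
      exact (Nat.prime_dvd_prime_iff_eq hr hp).1 (hr.dvd_of_dvd_pow (m := p) (n := i) (hi ▸ dvd_rfl))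
  · exact Subgroup.isComplement'_of_disjoint_and_mul_eq_univ (disjoint_iff.2 hLM)
      (by rw [← Subgroup.normal_mul, sup_comm, hsup L hLn hL, Subgroup.coe_top])
  set Q := (Cfsg.pCore q M).map M.subtype with hQdef
  have hQq : IsPGroup q Q := (CfsgLib.Core.isPGroup_pCore q).map _
  have hQM : Q ≤ M := Subgroup.map_subtype_le _
  have hQ0 : Q ≠ ⊥ := by rwa [Ne, hQdef, Subgroup.map_eq_bot_iff_of_injective _ M.subtype_injective]
  have hMQ : ∀ m ∈ M, ∀ u ∈ Q, m * u * m⁻¹ ∈ Q := by
    rintro m hm _ ⟨u, hu, rfl⟩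
    exact ⟨⟨m, hm⟩ * u * ⟨m, hm⟩⁻¹, (CfsgLib.Core.normal_pCore q).conj_mem u hu _, rfl⟩
  have hne : q ≠ p := by
    intro e
    subst e
    haveI : (Q ⊔ L).Normal := by
      rw [← Subgroup.normalizer_eq_top_iff, eq_top_iff, ← hsup L hLn hL]
      refine sup_le ?_ (le_sup_right.trans Subgroup.le_normalizer)
      rw [CfsgLib.Core.le_normalizer_iff_forall]
      intro m hm x hx
      obtain ⟨u, hu, v, hv, rfl⟩ := Subgroup.mem_sup_of_normal_right.1 hx
      rw [show m * (u * v) * m⁻¹ = (m * u * m⁻¹) * (m * v * m⁻¹) by group]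
      exact Subgroup.mul_mem_sup (hMQ m hm u hu) (hLn.conj_mem v hv m)
    have hle := CfsgLib.Core.le_pCore (N := Q ⊔ L) inferInstance (hQq.to_sup_of_normal_right hLp)
    exact hQ0 (le_bot_iff.1 (hLM ▸ le_inf (le_sup_left.trans hle) hQM))
  refine ⟨?_, hne⟩
  letI : MulAction Q L := MulAction.compHom L
    (((MulAut.conjNormal (H := L)).comp Q.subtype))
  have hfix : MulAction.fixedPoints Q L = {1} := by
    refine Set.eq_singleton_iff_unique_mem.2 ⟨fun u => ?_, fun v hv => ?_⟩
    · exact map_one (MulAut.conjNormal (H := L) (u : G))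
    set C := L ⊓ Subgroup.centralizer (Q : Set G)
    have hCn : C.Normal := by
      haveI := hLZ
      rw [← Subgroup.normalizer_eq_top_iff, eq_top_iff, ← hsup L hLn hL]
      refine sup_le ?_ ?_
      · rw [CfsgLib.Core.le_normalizer_iff_forall]
        rintro m hm x ⟨hxL, hxC⟩
        refine ⟨hLn.conj_mem x hxL m, Subgroup.mem_centralizer_iff.2 fun u hu => ?_⟩
        have h1 := Subgroup.mem_centralizer_iff.1 hxC _ (hMQ m⁻¹ (inv_mem hm) u hu)
        rw [inv_inv] at h1
        calc u * (m * x * m⁻¹) = m * ((m⁻¹ * u * m) * x) * m⁻¹ := by group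
          _ = m * (x * (m⁻¹ * u * m)) * m⁻¹ := by rw [h1]
          _ = m * x * m⁻¹ * u := by group
      · rw [CfsgLib.Core.le_normalizer_iff_forall]
        intro l hl x hx
        rw [Subgroup.mem_centralizer_iff.1 (L.le_centralizer hx.1) l hl, mul_inv_cancel_right]
        exact hx
    rcases hLmin C hCn inf_le_left with h | h
    · refine Subtype.ext (Subgroup.mem_bot.1 (h.le ⟨v.2, Subgroup.mem_centralizer_iff.2 fun u hu => ?_⟩))
      have h1 : u * (v : G) * u⁻¹ = v := congrArg Subtype.val (hv ⟨u, hu⟩)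
      exact mul_inv_eq_iff_eq_mul.1 h1
    · exfalso
      have hQL : Q ≤ L := by
        rw [← hCL, Subgroup.le_centralizer_iff, ← h]
        exact inf_le_right
      exact hQ0 (le_bot_iff.1 (hLM ▸ le_inf hQL hQM))
  have h := hQq.card_modEq_card_fixedPoints L
  rw [hfix] at h
  simpa [Nat.ModEq] using h

end Cfsg.Agent.S0587
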