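import Cfsg.Statements.S0588
import Cfsg.Agent.Lib.CoreBasic

set_option autoImplicit false
open Cfsg

namespace Cfsg.Agent.S0588

/-- If a subgroup H of a finite group G contains the centralizer of every non-identity element of H, then the order of H is coprime to its index. -/
theorem result {G : Type*} [Group G] [Finite G] (H : Subgroup G) (h : ∀ x ∈ H, x ≠ 1 → Subgroup.centralizer ({x} : Set G) ≤ H) : (Nat.card H).Coprime H.index := by
  refine Nat.coprime_of_dvd' fun p hp h1 h2 => ?_
  haveI := Fact.mk hp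
  obtain ⟨P⟩ : Nonempty (Sylow p H) := inferInstance
  have hP1 : (P : Subgroup H).map H.subtype ≠ ⊥ := by
    rw [Ne, Subgroup.map_eq_bot_iff_of_injective _ Subtype.coe_injective]
    exact P.ne_bot_of_dvd_card h1
  obtain ⟨S, hS⟩ := (P.2.map H.subtype).exists_le_sylow
  have hS1 : (S : Subgroup G) ≠ ⊥ := fun e => hP1 (le_bot_iff.mp (e ▸ hS))
  haveI : Nontrivial S := (Subgroup.nontrivial_iff_ne_bot _).mpr hS1
  haveI := S.2.center_nontrivial
  obtain ⟨z, hz⟩ := exists_ne (1 : Subgroup.center S)
  obtain ⟨x, hx, hx1⟩ := (Subgroup.bot_or_exists_ne_one _).resolve_left hP1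
  have hxH : x ∈ H := Subgroup.map_subtype_le _ hx
  have hzH : ((z : S) : G) ∈ H := by
    refine h x hxH hx1 (Subgroup.mem_centralizer_singleton_iff.mpr ?_)
    exact (congrArg Subtype.val (Subgroup.mem_center_iff.mp z.2 ⟨x, hS hx⟩)).symm
  have hz1 : ((z : S) : G) ≠ 1 := fun e => hz (Subtype.ext (Subtype.ext e))
  have hSH : (S : Subgroup G) ≤ H := by
    intro y hy
    refine h _ hzH hz1 (Subgroup.mem_centralizer_singleton_iff.mpr ?_)
    exact congrArg Subtype.val (Subgroup.mem_center_iff.mp z.2 ⟨y, hy⟩)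
  exfalso
  apply S.not_dvd_index
  exact h2.trans (Subgroup.index_dvd_of_le hSH)

end Cfsg.Agent.S0588
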