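import Cfsg.Statements.S0589
import Cfsg.Agent.Lib.CoreFrobenius

set_option autoImplicit false
open Pointwise
open Cfsg
open scoped Pointwise

namespace Cfsg.Agent.S0589

/-- Let H be a Frobenius complement in a finite group G and L a subgroup of G whose order divides the order of H. Then L is contained in some conjugate of H. -/
theorem result {G : Type*} [Group G] [Finite G] (H : Subgroup G) (hH : Cfsg.IsFrobeniusComplement H) (L : Subgroup G) (hL : Nat.card L ∣ Nat.card H) : ∃ x : G, L ≤ MulAut.conj x • H := by
  obtain ⟨K, -, hKset, -, -, hcard⟩ := CfsgLib.Core.exists_kernel hH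
  rcases CfsgLib.Core.le_conj_or_normal_le_kernel hH hKset L with h | ⟨N, -, hN, hle⟩
  · exact h
  · exfalso
    apply hN
    rw [← Subgroup.map_eq_bot_iff_of_injective _ (f := L.subtype) Subtype.coe_injective]
    refine Subgroup.eq_bot_of_card_eq _ (Nat.eq_one_of_dvd_coprimes
      (CfsgLib.Core.coprime_card_index hH) ?_ (hcard ▸ Subgroup.card_dvd_of_le hle))
    exact (Subgroup.card_dvd_of_le (Subgroup.map_subtype_le N)).trans hL

end Cfsg.Agent.S0589
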