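import Cfsg.Statements.S0592
import Cfsg.Agent.Lib.QuadPairField

set_option autoImplicit false
open Cfsg

namespace Cfsg.Agent.S0592

/-- Two quadratically acting generators of a linear group that is not a p-group, with the p'-part of the order of their product dividing q - 1, give a homomorphism onto a subgroup of SL(2, q) that is not a p-group. -/
theorem result {K : Type*} [Field K] [Fintype K] {p : ℕ} [Fact p.Prime] [CharP K p] {W : Type*} [AddCommGroup W] [Module K W] [FiniteDimensional K W] [Finite W] [Nontrivial W] (H : Subgroup (W ≃ₗ[K] W)) (a b : W ≃ₗ[K] W) (hH : H = Subgroup.closure {a, b}) (ha : ∀ w : W, a (a w - w) = a w - w) (hb : ∀ w : W, b (b w - w) = b w - w) (hnp : ¬ IsPGroup p H) (hk : ∃ e k : ℕ, orderOf (a * b) = p ^ e * k ∧ k ∣ Fintype.card K - 1) : ∃ φ : H →* Matrix.SpecialLinearGroup (Fin 2) K, ¬ IsPGroup p φ.range := by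
  haveI : Finite (W ≃ₗ[K] W) := Finite.of_injective (fun f => (f : W → W)) DFunLike.coe_injective
  have hmem : ∀ x ∈ ({a, b} : Set (W ≃ₗ[K] W)), x ∈ H := fun x hx => hH ▸ Subgroup.subset_closure hx
  let a' : H := ⟨a, hmem a (Or.inl rfl)⟩
  let b' : H := ⟨b, hmem b (Or.inr rfl)⟩
  let ρ : H →* Module.End K W :=
    { toFun := fun h => (h.1 : W ≃ₗ[K] W).toLinearMap
      map_one' := rfl
      map_mul' := fun _ _ => rfl }
  have hgen : Subgroup.closure ({a', b'} : Set H) = ⊤ := by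
    apply Subgroup.map_injective H.subtype_injective
    rw [MonoidHom.map_closure, Set.image_pair, ← MonoidHom.range_eq_map, Subgroup.range_subtype]
    exact hH.symm
  have hsq : ∀ (x : H), (∀ w : W, x.1 (x.1 w - w) = x.1 w - w) → (ρ x - 1) ^ 2 = 0 := by
    intro x hx
    rw [pow_two]
    refine LinearMap.ext fun w => ?_
    show x.1 (x.1 w - w) - (x.1 w - w) = 0
    rw [hx w, sub_self]
  obtain ⟨g, hg, hg1⟩ : ∃ g : H, ¬ p ∣ orderOf g ∧ g ≠ 1 := by
    rw [IsPGroup.iff_card] at hnp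
    obtain ⟨r, hr, hrd, hrp⟩ : ∃ r : ℕ, r.Prime ∧ r ∣ Nat.card H ∧ r ≠ p := by
      by_contra hcon
      push Not at hcon
      exact hnp ⟨_, Nat.eq_prime_pow_of_unique_prime_dvd Nat.card_pos.ne' fun hd hdd => hcon _ hd hdd⟩
    haveI := Fact.mk hr
    obtain ⟨g, hg⟩ := exists_prime_orderOf_dvd_card' r hrd
    refine ⟨g, ?_, fun h => hr.ne_one ?_⟩
    · rw [hg]
      exact fun h => hrp ((Nat.prime_dvd_prime_iff_eq (Fact.out) hr).1 h).symm
    · rw [← hg, h, orderOf_one]
  refine CfsgLib.QuadPair.exists_hom_SL ρ hgen (hsq a' ha) (hsq b' hb) hg ?_ ?_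
  · intro h
    exact hg1 (Subtype.ext (LinearEquiv.toLinearMap_injective h))
  · obtain ⟨e, k, h1, h2⟩ := hk
    exact ⟨e, k, (Subgroup.orderOf_coe (a' * b')).symm.trans h1, h2⟩

end Cfsg.Agent.S0592
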