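import Cfsg.Statements.S0593
import Cfsg.Agent.Lib.LocalPStableTwo

set_option autoImplicit false
open Cfsg

namespace Cfsg.Agent.S0593

/-- For odd p, a faithful group on an elementary abelian p-group generated by two quadratically acting elements is a p-group or has non-abelian Sylow 2-subgroups. -/
theorem result {G : Type*} [Group G] [Finite G] {p : ℕ} [Fact p.Prime] (hp : p ≠ 2) (V H : Subgroup G) (hV : Cfsg.IsElementaryAbelian p V) (hHV : H ≤ Subgroup.normalizer (V : Set G)) (hf : H ⊓ Subgroup.centralizer (V : Set G) = ⊥) (a b : G) (hab : H = Subgroup.closure {a, b}) (ha : ⁅⁅V, Subgroup.zpowers a⁆, Subgroup.zpowers a⁆ = ⊥) (hb : ⁅⁅V, Subgroup.zpowers b⁆, Subgroup.zpowers b⁆ = ⊥) (hnp : ¬ IsPGroup p H) (T : Sylow 2 H) : ¬ IsMulCommutative T := by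
  subst hab
  have hV' : IsPGroup p V := fun v => ⟨1, by rw [pow_one]; exact Subtype.ext (by simpa using hV.2 v v.2)⟩
  obtain ⟨w, hw1, hwp⟩ := CfsgLib.QuadPair.exists_pprime_of_not_isPGroup hnp
  obtain ⟨K, L, hL, hK, ⟨e⟩⟩ := CfsgLib.QuadPair.exists_section_of_pair hp hV'
    (hHV (Subgroup.subset_closure (by simp))) (hHV (Subgroup.subset_closure (by simp))) ha hb
    (w := (w : G)) w.2 (by rwa [Subgroup.orderOf_coe]) (fun hc => hw1 (Subtype.ext
      (Subgroup.mem_bot.1 (hf ▸ ⟨w.2, hc⟩ : (w : G) ∈ (⊥ : Subgroup G)))))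
  exact CfsgLib.PStableTwo.not_abelian_two hp ⟨K.subgroupOf _,
    (e.toMonoidHom.comp (QuotientGroup.mk' _)).comp (Subgroup.subgroupOfEquivOfLe hK).toMonoidHom,
    (e.surjective.comp (QuotientGroup.mk'_surjective _)).comp
      (Subgroup.subgroupOfEquivOfLe hK).surjective⟩ T

end Cfsg.Agent.S0593
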