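import Cfsg.Statements.S0594
import Cfsg.Agent.Lib.QuadPairSection

set_option autoImplicit false
open Cfsg

namespace Cfsg.Agent.S0594

/-- For odd p, two quadratic generators of a faithful group that is not a p-group, one of which acts nontrivially on a normal subgroup of order prime to p, force p = 3 and a section isomorphic to SL(2,3). -/
theorem result {G : Type*} [Group G] [Finite G] {p : ℕ} [Fact p.Prime] (hp : p ≠ 2) (V H : Subgroup G) (hV : Cfsg.IsElementaryAbelian p V) (hHV : H ≤ Subgroup.normalizer (V : Set G)) (hf : H ⊓ Subgroup.centralizer (V : Set G) = ⊥) (a b : G) (hab : H = Subgroup.closure {a, b}) (ha : ⁅⁅V, Subgroup.zpowers a⁆, Subgroup.zpowers a⁆ = ⊥) (hb : ⁅⁅V, Subgroup.zpowers b⁆, Subgroup.zpowers b⁆ = ⊥) (hnp : ¬ IsPGroup p H) (Q : Subgroup G) (hQH : Q ≤ H) (hQn : H ≤ Subgroup.normalizer (Q : Set G)) (hQ : (Nat.card Q).Coprime p) (hQa : ⁅Q, Subgroup.zpowers a⁆ ≠ ⊥) : p = 3 ∧ ∃ (K L : Subgroup G) (hL : (L.subgroupOf K).Normal), K ≤ H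 ∧ Nonempty ((K ⧸ L.subgroupOf K) ≃* Matrix.SpecialLinearGroup (Fin 2) (ZMod 3)) := by
  open scoped commutatorElement in
    subst hab
    have hV' : IsPGroup p V := fun v => ⟨1, by rw [pow_one]; exact Subtype.ext (by simpa using hV.2 v v.2)⟩
    have haH : a ∈ Subgroup.closure ({a, b} : Set G) := Subgroup.subset_closure (by simp)
    have hbH : b ∈ Subgroup.closure ({a, b} : Set G) := Subgroup.subset_closure (by simp)
    obtain ⟨q, hq, hqa⟩ : ∃ q ∈ Q, ⁅q, a⁆ ≠ (1 : G) := by
      by_contra hc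
      push Not at hc
      refine hQa ((Subgroup.commutator_eq_bot_iff_le_centralizer).2 fun q hq => ?_)
      rw [Subgroup.mem_centralizer_iff]
      rintro _ ⟨i, rfl⟩
      exact ((Commute.zpow_left (commutatorElement_eq_one_iff_mul_comm.1 (hc q hq)).symm i)).eq
    have hwQ : ⁅q, a⁆ ∈ Q := by
      rw [commutatorElement_def, mul_assoc q a, mul_assoc]
      exact mul_mem hq ((Subgroup.mem_normalizer_iff.1 (hQn haH) _).1 (inv_mem hq))
    have hwo : ¬ p ∣ orderOf ⁅q, a⁆ := fun h =>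
      (Fact.out : p.Prime).ne_one (Nat.eq_one_of_dvd_coprimes hQ
        (h.trans (Subgroup.orderOf_dvd_natCard Q hwQ)) dvd_rfl)
    have hwV : ⁅q, a⁆ ∉ Subgroup.centralizer (V : Set G) := fun hc =>
      hqa (Subgroup.mem_bot.1 (hf ▸ ⟨hQH hwQ, hc⟩ : ⁅q, a⁆ ∈ (⊥ : Subgroup G)))
    obtain ⟨F, iF, iC, iFin, φ, c, hc, h1, h2, h3, -⟩ :=
      CfsgLib.QuadPair.exists_hom_of_pgroup hV' (hHV haH) (hHV hbH) ha hb (hQH hwQ) hwo hwV
    have hp3 : p = 3 := by
      haveI : Finite φ.range := Finite.of_surjective φ.rangeRestrict φ.rangeRestrict_surjective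
      refine CfsgLib.QuadPair.three_of_normal_pprime hp (ι := φ.range.subtype)
        φ.range.subtype_injective (Q := (Q.subgroupOf _).map φ.rangeRestrict)
        (Nat.Coprime.coprime_dvd_left ((Subgroup.card_map_dvd _ _).trans
          (Nat.card_congr (Subgroup.subgroupOfEquivOfLe hQH).toEquiv).dvd) hQ)
        (u := φ.rangeRestrict ⟨a, haH⟩) ?_ ?_ ?_
      · exact Subtype.ext (by
          show φ ⟨a, haH⟩ ^ p = 1
          rw [h1]
          exact CfsgLib.Dickson.pow_eq_one_of_trace (by simp [CfsgLib.Dickson.coe_upperU]; norm_num))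
      · have hnorm : (⟨a, haH⟩ : ↥(Subgroup.closure ({a, b} : Set G))) ∈
            Subgroup.normalizer ((Q.subgroupOf (Subgroup.closure ({a, b} : Set G))) : Set _) := by
          rw [Subgroup.mem_normalizer_iff]
          intro y
          exact Subgroup.mem_normalizer_iff.1 (hQn haH) (y : G)
        exact Subgroup.le_normalizer_map _ ⟨_, hnorm, rfl⟩
      · intro hcen
        have h4 := Subgroup.mem_centralizer_iff.1 hcen (φ.rangeRestrict ⟨q, hQH hq⟩)
          ⟨_, hq, rfl⟩
        refine h3 ?_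
        have h5 : (⟨⁅q, a⁆, hQH hwQ⟩ : ↥(Subgroup.closure ({a, b} : Set G))) =
            ⁅(⟨q, hQH hq⟩ : ↥(Subgroup.closure ({a, b} : Set G))), ⟨a, haH⟩⁆ := rfl
        rw [h5, map_commutatorElement]
        exact commutatorElement_eq_one_iff_mul_comm.2 (congrArg Subtype.val h4)
    subst hp3
    obtain ⟨K, L, hL, hK, hiso⟩ := CfsgLib.QuadPair.exists_section_of_pair hp
      hV' (hHV haH) (hHV hbH) ha hb (hQH hwQ) hwo hwV
    exact ⟨rfl, K, L, hL, hK, hiso⟩

end Cfsg.Agent.S0594
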