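import Cfsg.Statements.S0595
import Cfsg.Agent.Lib.LocalPStableTwo

set_option autoImplicit false
open Cfsg

namespace Cfsg.Agent.S0595

/-- For odd p, a faithful action on an elementary abelian p-group that is not p-stable forces non-abelian Sylow 2-subgroups. -/
theorem result {G : Type*} [Group G] [Finite G] {p : ℕ} [Fact p.Prime] (hp : p ≠ 2) (V H : Subgroup G) (hV : Cfsg.IsElementaryAbelian p V) (hHV : H ≤ Subgroup.normalizer (V : Set G)) (hf : H ⊓ Subgroup.centralizer (V : Set G) = ⊥) (a : G) (haH : a ∈ H) (hq : ⁅⁅V, Subgroup.zpowers a⁆, Subgroup.zpowers a⁆ = ⊥) (hna : a ∉ (Cfsg.pCore p H).map H.subtype) (T : Sylow 2 H) : ¬ IsMulCommutative T := by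
  obtain ⟨g, hgH, w, hw, hw1, hwp⟩ := CfsgLib.QuadPair.exists_conj_pair (p := p) haH
    (fun h => hna ⟨_, h, rfl⟩)
  have hle : Subgroup.closure ({a, g * a * g⁻¹} : Set G) ≤ H := by
    rw [Subgroup.closure_le]
    rintro y (rfl | rfl)
    · exact haH
    · exact mul_mem (mul_mem hgH haH) (inv_mem hgH)
  obtain ⟨K, L, hL, hK, ⟨e⟩⟩ := CfsgLib.QuadPair.exists_section_of_pair hp
    (P := V) (fun v => ⟨1, by rw [pow_one]; exact Subtype.ext (by simpa using hV.2 v v.2)⟩)
    (hHV haH) (hHV (mul_mem (mul_mem hgH haH) (inv_mem hgH))) hq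
    (CfsgLib.QuadPair.quad_conj (hHV hgH) hq) hw hwp
    (fun hc => hw1 (Subgroup.mem_bot.1 (hf ▸ ⟨hle hw, hc⟩ : w ∈ (⊥ : Subgroup G))))
  exact CfsgLib.PStableTwo.not_abelian_two hp ⟨K.subgroupOf _,
    (e.toMonoidHom.comp (QuotientGroup.mk' _)).comp (Subgroup.subgroupOfEquivOfLe (hK.trans hle)).toMonoidHom,
    (e.surjective.comp (QuotientGroup.mk'_surjective _)).comp
      (Subgroup.subgroupOfEquivOfLe (hK.trans hle)).surjective⟩ T

end Cfsg.Agent.S0595
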