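import Cfsg.Statements.S0641
import Cfsg.Agent.Lib.FgsRegular

set_option autoImplicit false
open Cfsg
open CfsgLib.FgsRegular

namespace Cfsg.Agent.S0641

/-- Regularity of a p-group passes to quotient groups. -/
theorem result {G : Type*} [Group G] {p : ℕ} [Fact p.Prime] (hG : Cfsg.IsRegularPGroup p G) (N : Subgroup G) [N.Normal] : Cfsg.IsRegularPGroup p (G ⧸ N) := by
  refine ⟨hG.1.to_quotient N, fun a b n => ?_⟩
  obtain ⟨a, rfl⟩ := QuotientGroup.mk'_surjective N a
  obtain ⟨b, rfl⟩ := QuotientGroup.mk'_surjective N b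
  obtain ⟨c, hc, he⟩ := hG.2 a b n
  refine ⟨QuotientGroup.mk' N c, ?_, by rw [← map_mul, ← map_pow, he, map_mul, map_mul, map_pow, map_pow]⟩
  have h1 : Subgroup.closure ({QuotientGroup.mk' N a, QuotientGroup.mk' N b} : Set (G ⧸ N)) =
      (Subgroup.closure ({a, b} : Set G)).map (QuotientGroup.mk' N) := by
    rw [MonoidHom.map_closure, Set.image_insert_eq, Set.image_singleton]
  rw [h1, ← Subgroup.map_commutator]
  clear he
  induction hc using Subgroup.closure_induction with
  | mem y hy =>
    obtain ⟨d, hd, rfl⟩ := hy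
    rw [map_pow]
    exact pow_mem_powerClosure p n (Subgroup.mem_map_of_mem _ hd)
  | one => rw [map_one]; exact one_mem _
  | mul y z _ _ hy hz => rw [map_mul]; exact mul_mem hy hz
  | inv y _ hy => rw [map_inv]; exact inv_mem hy

end Cfsg.Agent.S0641
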