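import Cfsg.Statements.S0642
import Cfsg.Agent.Lib.FgsRegular

set_option autoImplicit false
open Cfsg
open CfsgLib.FgsRegular
open scoped commutatorElement

namespace Cfsg.Agent.S0642

/-- Among finite 2-groups the regular ones are exactly the abelian ones. -/
theorem result {G : Type*} [Group G] [Finite G] (hG : IsPGroup 2 G) : Cfsg.IsRegularPGroup 2 G ↔ ∀ a b : G, a * b = b * a := by
  constructor
  · intro hR
    have hK : ∀ x ∈ ⁅(⊤ : Subgroup G), (⊤ : Subgroup G)⁆,
        x ∈ Cfsg.powerClosure 2 1 ⁅(⊤ : Subgroup G), (⊤ : Subgroup G)⁆ := by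
      refine fun x hx => (Subgroup.commutator_le.2 fun u _ v _ => ?_) hx
      obtain ⟨c, hc, he⟩ := hR.2 v⁻¹ u⁻¹ 1
      have hc' := powerClosure_mono 2 1 (Subgroup.commutator_mono le_top le_top) hc
      rw [pow_one] at he
      have e : ⁅u, v⁆ = u⁻¹ * c * u⁻¹⁻¹ := by
        have h' : c = ((v⁻¹) ^ 2 * (u⁻¹) ^ 2)⁻¹ * (v⁻¹ * u⁻¹) ^ 2 := by rw [he]; group
        rw [h', commutatorElement_def, pow_two, pow_two, pow_two]
        group
      rw [e]
      exact conj_mem_powerClosure 2 1 (Subgroup.mem_top u⁻¹) hc'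
    set D := ⁅(⊤ : Subgroup G), (⊤ : Subgroup G)⁆ with hD
    have hle : D ≤ (frattini D).map D.subtype := fun x hx => by
      refine (Subgroup.closure_le _).2 ?_ (hK x hx)
      rintro y ⟨d, hd, rfl⟩
      exact ⟨⟨d, hd⟩ ^ 2 ^ 1, by
        rw [pow_one]; exact CfsgLib.Core.pgroup_pow_mem_frattini (hG.to_subgroup D) _, by simp⟩
    have htop : (⊥ : Subgroup D) ⊔ frattini D = ⊤ := by
      rw [bot_sup_eq, eq_top_iff]
      rintro ⟨x, hx⟩ -
      obtain ⟨y, hy, hyx⟩ := hle hx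
      rwa [show (⟨x, hx⟩ : D) = y from Subtype.ext hyx.symm]
    have hbot := frattini_nongenerating htop
    intro a b
    have hab : ⁅a, b⁆ ∈ D :=
      Subgroup.commutator_mem_commutator (Subgroup.mem_top a) (Subgroup.mem_top b)
    have h2 : (⟨⁅a, b⁆, hab⟩ : D) ∈ (⊥ : Subgroup D) := hbot.symm ▸ Subgroup.mem_top _
    rw [Subgroup.mem_bot, Subtype.ext_iff] at h2
    exact commutatorElement_eq_one_iff_mul_comm.1 h2
  · intro h
    exact ⟨hG, fun a b n => ⟨1, one_mem _, by rw [mul_one]; exact (Commute.mul_pow (h a b) _)⟩⟩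

end Cfsg.Agent.S0642
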