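import Cfsg.Statements.S0656
import Cfsg.Agent.Lib.QuadPairSection

set_option autoImplicit false
open Cfsg

namespace Cfsg.Agent.S0656

/-- For odd p, a faithful group on an elementary abelian p-group with no nontrivial normal p-subgroup in which some nontrivial p-element acts quadratically has a section isomorphic to SL(2, p). -/
theorem result {G : Type*} [Group G] [Finite G] {p : ℕ} [Fact p.Prime] (hp : p ≠ 2) (V H : Subgroup G) (hV : Cfsg.IsElementaryAbelian p V) (hHV : H ≤ Subgroup.normalizer (V : Set G)) (hf : H ⊓ Subgroup.centralizer (V : Set G) = ⊥) (hO : Cfsg.pCore p ↥H = ⊥) (x : G) (hxH : x ∈ H) (hx1 : x ≠ 1) (hxp : ∃ k : ℕ, orderOf x = p ^ k) (hq : ⁅⁅V, Subgroup.zpowers x⁆, Subgroup.zpowers x⁆ = ⊥) : ∃ (K L : Subgroup G) (hL : (L.subgroupOf K).Normal), K ≤ H ∧ Nonempty ((K ⧸ L.subgroupOf K) ≃* Matrix.SpecialLinearGroup (Fin 2) (ZMod p)) := by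
  obtain ⟨g, hgH, w, hw, hw1, hwp⟩ := CfsgLib.QuadPair.exists_conj_pair (p := p) hxH (by
    rw [hO, Subgroup.mem_bot]
    exact fun e => hx1 (congrArg Subtype.val e))
  have hle : Subgroup.closure ({x, g * x * g⁻¹} : Set G) ≤ H := by
    rw [Subgroup.closure_le]
    rintro y (rfl | rfl)
    · exact hxH
    · exact mul_mem (mul_mem hgH hxH) (inv_mem hgH)
  obtain ⟨K, L, hL, hK, hiso⟩ := CfsgLib.QuadPair.exists_section_of_pair hp
    (P := V) (fun v => ⟨1, by rw [pow_one]; exact Subtype.ext (by simpa using congrArg Subtype.val (show v ^ p = 1 from Subtype.ext (hV.2 v v.2)))⟩)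
    (hHV hxH) (hHV (mul_mem (mul_mem hgH hxH) (inv_mem hgH))) hq
    (CfsgLib.QuadPair.quad_conj (hHV hgH) hq) hw hwp
    (fun hc => hw1 (Subgroup.mem_bot.1 (hf ▸ ⟨hle hw, hc⟩ : w ∈ (⊥ : Subgroup G))))
  exact ⟨K, L, hL, hK.trans hle, hiso⟩

end Cfsg.Agent.S0656
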