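import Cfsg.Statements.S0657
import Cfsg.Agent.Lib.QuadPairStable

set_option autoImplicit false
open Cfsg

namespace Cfsg.Agent.S0657

/-- For odd p, a group that fails to be p-stable modulo its largest normal subgroup of order prime to p, and whose upper p-series does not stop there, has a section isomorphic to SL(2, p). -/
theorem result {G : Type*} [Group G] [Finite G] {p : ℕ} [Fact p.Prime] (hp : p ≠ 2) (hO : Cfsg.pPrimeCore p G < Cfsg.pPrimePCore p G) (hns : ¬ Cfsg.IsPStable p (G ⧸ Cfsg.pPrimeCore p G)) : ∃ (K L : Subgroup G) (hL : (L.subgroupOf K).Normal), K ≤ ⊤ ∧ Nonempty ((K ⧸ L.subgroupOf K) ≃* Matrix.SpecialLinearGroup (Fin 2) (ZMod p)) := by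
  haveI := CfsgLib.Core.normal_pPrimeCore (G := G) p
  have hodd : Odd p := (Fact.out : p.Prime).odd_of_ne_two hp
  have hcore : Cfsg.pCore p (G ⧸ Cfsg.pPrimeCore p G) ≠ ⊥ := by
    intro e
    refine hO.ne (le_antisymm hO.le ?_)
    intro x hx
    have h1 : QuotientGroup.mk' (Cfsg.pPrimeCore p G) x ∈ (⊥ : Subgroup _) := e ▸ hx
    exact (QuotientGroup.eq_one_iff x).1 (Subgroup.mem_bot.1 h1)
  obtain ⟨A, P, hA, hP, hAP, -, hPn, hq, hnot⟩ : ∃ A P : Subgroup (G ⧸ Cfsg.pPrimeCore p G),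
      IsPGroup p A ∧ IsPGroup p P ∧ (∀ a ∈ A, ∀ x ∈ P, a * x * a⁻¹ ∈ P) ∧
      P ≤ Cfsg.pPrimePCore p (G ⧸ Cfsg.pPrimeCore p G) ∧
      (Cfsg.pPrimeCore p (G ⧸ Cfsg.pPrimeCore p G) ⊔ P).Normal ∧ ⁅⁅P, A⁆, A⁆ = ⊥ ∧
      ¬ (A.subgroupOf (Subgroup.normalizer (P : Set (G ⧸ Cfsg.pPrimeCore p G)))).map
          (QuotientGroup.mk' ((Subgroup.centralizer (P : Set (G ⧸ Cfsg.pPrimeCore p G))).subgroupOf
            (Subgroup.normalizer (P : Set (G ⧸ Cfsg.pPrimeCore p G))))) ≤ Cfsg.pCore p _ := by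
    by_contra hc
    push Not at hc
    exact hns ⟨hodd, hcore, hc⟩
  rw [CfsgLib.Core.pPrimeCore_quotient_pPrimeCore, bot_sup_eq] at hPn
  obtain ⟨y, hy, hynot⟩ := SetLike.not_le_iff_exists.1 hnot
  obtain ⟨⟨a, haN⟩, haA, rfl⟩ := hy
  haveI := hPn
  have hza : Subgroup.zpowers a ≤ A := Subgroup.zpowers_le.2 haA
  obtain ⟨K, ψ, hψ⟩ := CfsgLib.QuadPair.exists_section_of_not_pCore hp (a := a) hP
    (le_bot_iff.1 (hq ▸ Subgroup.commutator_mono (Subgroup.commutator_mono le_rfl hza) hza))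
    (CfsgLib.QuadPair.mk_not_mem_pCore_of_normalizer haN hynot)
  exact CfsgLib.QuadPair.exists_section_of_quotient ψ hψ

end Cfsg.Agent.S0657
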