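import Cfsg.Statements.S0685
import Cfsg.Agent.Lib.PermLinearRegular

set_option autoImplicit false
open Cfsg

namespace Cfsg.Agent.S0685

/-- In a linear group over the prime field that is regular on non-zero vectors and has no irreducible cyclic normal subgroup, a maximal normal abelian subgroup is properly contained in its centraliser, which is non-abelian. -/
theorem result {p : ℕ} [Fact p.Prime] {V : Type*} [AddCommGroup V] [Module (ZMod p) V] [Finite V] (H : Subgroup (V ≃ₗ[ZMod p] V)) (hreg : ∀ v w : V, v ≠ 0 → w ≠ 0 → ∃! h : H, (h : V ≃ₗ[ZMod p] V) v = w) (hI : ∀ A : Subgroup H, A.Normal → IsCyclic A → ∃ W : Submodule (ZMod p) V, W ≠ ⊥ ∧ W ≠ ⊤ ∧ ∀ a ∈ A, ∀ v ∈ W, ((a : H) : V ≃ₗ[ZMod p] V) v ∈ W) (A : Subgroup H) (hAn : A.Normal) (hAc : IsMulCommutative A) (hAmax : ∀ B : Subgroup H, B.Normal → IsMulCommutative B → A ≤ B → B = A) : A < Subgroup.centralizer (A : Set H) ∧ ¬ IsMulCommutative (Subgroup.centralizer (A : Set H)) := by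
  haveI := hAn
  haveI hnt : Nontrivial V := by
    by_contra hV
    haveI : Subsingleton V := not_nontrivial_iff_subsingleton.mp hV
    haveI : Subsingleton H := ⟨fun g h => Subtype.ext (LinearEquiv.ext fun v => Subsingleton.elim _ _)⟩
    obtain ⟨W, hW, -, -⟩ := hI A hAn (isCyclic_of_subsingleton)
    exact hW (Submodule.eq_bot_of_subsingleton)
  have hfree : ∀ a ∈ A, ∀ v : V, v ≠ 0 → ((a : H) : V ≃ₗ[ZMod p] V) v = v → a = 1 :=
    fun a _ v hv e => CfsgLib.LinearRegular.eq_one_of_fix H hreg hv e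
  have hcyc := CfsgLib.LinearRegular.isCyclic_abelian H A hAc hfree
  obtain ⟨-, -, -, -, -, -, hne⟩ :=
    CfsgLib.LinearRegular.abelian_facts H A hreg hAc (hI A hAn hcyc)
  have hle : A ≤ Subgroup.centralizer (A : Set H) := fun a ha =>
    Subgroup.mem_centralizer_iff.mpr fun b hb =>
      congrArg Subtype.val (hAc.is_comm.comm (⟨b, hb⟩ : A) ⟨a, ha⟩)
  refine ⟨lt_of_le_of_ne hle (Ne.symm hne), fun hc => hne ?_⟩
  exact hAmax _ inferInstance hc hle

end Cfsg.Agent.S0685
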