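import Cfsg.Statements.S0689
import Cfsg.Agent.Lib.PermFpfLinear

set_option autoImplicit false
open Cfsg

namespace Cfsg.Agent.S0689

/-- The insoluble sharply doubly transitive groups: a non-solvable linear group over the prime field that is regular on the non-zero vectors of `V` occurs only for `|V| = 11², 29², 59²`, and is `SL(2,5) × C_m` with `m = 1, 7, 29` respectively. -/
theorem result {p : ℕ} [Fact p.Prime] {V : Type*} [AddCommGroup V] [Module (ZMod p) V] [Finite V] (H : Subgroup (V ≃ₗ[ZMod p] V)) (hreg : ∀ v w : V, v ≠ 0 → w ≠ 0 → ∃! h : H, (h : V ≃ₗ[ZMod p] V) v = w) (hsolv : ¬ Group.IsSolvable H) : (Nat.card V = 121 ∧ Nonempty (H ≃* Matrix.SpecialLinearGroup (Fin 2) (ZMod 5))) ∨ (Nat.card V = 841 ∧ Nonempty (H ≃* Matrix.SpecialLinearGroup (Fin 2) (ZMod 5) × Multiplicative (ZMod 7))) ∨ (Nat.card V = 3481 ∧ Nonempty (H ≃* Matrix.SpecialLinearGroup (Fin 2) (ZMod 5) × Multiplicative (ZMod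 29))) := by
  obtain ⟨m, hm, ⟨e⟩⟩ := CfsgLib.FpfQuat.regular_nonsolvable H hreg hsolv
  rcases hm with ⟨h, rfl⟩ | ⟨h, rfl⟩ | ⟨h, rfl⟩
  · haveI : Unique (Multiplicative (ZMod 1)) := Unique.mk' _
    exact Or.inl ⟨h, ⟨e.trans MulEquiv.prodUnique⟩⟩
  · exact Or.inr (Or.inl ⟨h, ⟨e⟩⟩)
  · exact Or.inr (Or.inr ⟨h, ⟨e⟩⟩)

end Cfsg.Agent.S0689
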