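import Cfsg.Statements.S0697
import Cfsg.Agent.Lib.PermJordan

set_option autoImplicit false
open Cfsg

namespace Cfsg.Agent.S0697

/-- In a `k`-primitive permutation group which is not the whole symmetric group, a non-trivial non-regular normal subgroup is `k`-transitive. -/
theorem result {α : Type*} [Fintype α] [DecidableEq α] (G : Subgroup (Equiv.Perm α)) {k : ℕ} (hk : 1 ≤ k) (hkn : k ≤ Fintype.card α) (hG : MulAction.IsMultiplyPreprimitive G α k) (htop : G ≠ ⊤) (H : Subgroup G) [H.Normal] (hH : H ≠ ⊥) (hnr : ∃ a : α, MulAction.stabilizer H a ≠ ⊥) : MulAction.IsMultiplyPretransitive H α k := by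
  obtain ⟨a, ha⟩ := hnr
  obtain ⟨⟨⟨g, hg⟩, hga⟩, hg1⟩ := (Subgroup.nontrivial_iff_ne_bot _).mpr ha |>.exists_pair_ne.elim
    fun x hx => hx.elim fun y hxy => (by
      by_cases h : x = 1
      · exact ⟨y, fun e => hxy (h.trans e.symm)⟩
      · exact ⟨x, h⟩ : ∃ z : MulAction.stabilizer H a, z ≠ 1)
  refine (CfsgLib.Jordan.primitive_normal k G α hk hkn hG H
    ⟨a, g, hg, fun e => hg1 (Subtype.ext (Subtype.ext e)), hga⟩).resolve_right fun h => htop ?_
  refine Subgroup.eq_top_of_card_eq G ?_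
  rw [h.2.2, Nat.card_perm, Nat.card_eq_fintype_card]

end Cfsg.Agent.S0697
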