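import Cfsg.Statements.S0752
import Cfsg.Agent.Lib.ClassicalAlt

set_option autoImplicit false
open Cfsg

namespace Cfsg.Agent.S0752

/-- Classification of alternating forms: for an alternating bilinear form B on a finite-dimensional space over any field there is a basis indexed by (Fin m ⊕ Fin m) ⊕ Fin k such that B (e_i, f_j) = δ_ij, the e's are pairwise orthogonal, the f's are pairwise orthogonal, and the last k basis vectors are orthogonal to everything (they span the radical). -/
theorem result {F V : Type*} [Field F] [AddCommGroup V] [Module F V] [FiniteDimensional F V] (B : LinearMap.BilinForm F V) (hA : B.IsAlt) : ∃ (m k : ℕ) (b : Module.Basis ((Fin m ⊕ Fin m) ⊕ Fin k) F V), (∀ i j : Fin m, B (b (Sum.inl (Sum.inl i))) (b (Sum.inl (Sum.inr j))) = if i = j then 1 else 0) ∧ (∀ i j : Fin m, B (b (Sum.inl (Sum.inl i))) (b (Sum.inl (Sum.inl j))) = 0) ∧ (∀ i j : Fin m, B (b (Sum.inl (Sum.inr i))) (b (Sum.inl (Sum.inr j))) = 0) ∧ (∀ (j : Fin k) (v : V), B (b (Sum.inr j)) v = 0) := by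
  obtain ⟨C, hC⟩ := Submodule.exists_isCompl (LinearMap.ker B)
  have hnd : CfsgLib.Classical.NondegOn B C := by
    intro w hw hw0
    have hwk : w ∉ LinearMap.ker B := fun h => hw0 (by simpa using hC.disjoint.le_bot ⟨h, hw⟩)
    obtain ⟨x, hx⟩ : ∃ x, B w x ≠ 0 := by
      by_contra! h
      exact hwk (LinearMap.mem_ker.mpr (LinearMap.ext h))
    obtain ⟨r, hr, y, hy, rfl⟩ := Submodule.mem_sup.mp (hC.sup_eq_top ▸ Submodule.mem_top (x := x))
    refine ⟨y, hy, fun h => hx ?_⟩
    rw [← CfsgLib.Classical.alt_neg hA, map_add, LinearMap.add_apply, LinearMap.mem_ker.mp hr, h]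
    simp
  obtain ⟨m, b, hb, hm⟩ := CfsgLib.Classical.exists_hypBasis hA C hnd
  refine ⟨m, Module.finrank F (LinearMap.ker B),
    (b.prod (Module.finBasis F (LinearMap.ker B))).map (Submodule.prodEquivOfIsCompl C _ hC.symm),
    fun i j => ?_, fun i j => ?_, fun i j => ?_, fun j v => ?_⟩
  · simpa [Module.Basis.prod_apply, Submodule.coe_prodEquivOfIsCompl'] using hb.eh i j
  · simpa [Module.Basis.prod_apply, Submodule.coe_prodEquivOfIsCompl'] using hb.ee i j
  · simpa [Module.Basis.prod_apply, Submodule.coe_prodEquivOfIsCompl'] using hb.hh i j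
  · simp [Module.Basis.prod_apply, Submodule.coe_prodEquivOfIsCompl',
      LinearMap.mem_ker.mp (Module.finBasis F (LinearMap.ker B) j).2]

end Cfsg.Agent.S0752
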