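import Cfsg.Statements.S0753


set_option autoImplicit false
open Cfsg

namespace Cfsg.Agent.S0753

/-- If σ is a ring endomorphism of the field F other than the identity and B is a σ-sesquilinear conjugate-symmetric form with B v v = 0 for every v, then B = 0. -/
theorem result {F V : Type*} [Field F] [AddCommGroup V] [Module F V] (σ : F →+* F) (hσ : σ ≠ RingHom.id F) (B : V →ₛₗ[σ] V →ₗ[F] F) (hS : B.IsSymm) (h0 : ∀ v : V, B v v = 0) : B = 0 := by
  obtain ⟨b, hb⟩ : ∃ b, σ b ≠ b := by
    by_contra h
    push_neg at h
    exact hσ (RingHom.ext h)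
  refine LinearMap.ext fun x => LinearMap.ext fun y => ?_
  have key : ∀ x y : V, B x y + B y x = 0 := fun x y => by
    have := h0 (x + y)
    simp only [map_add, LinearMap.add_apply, h0] at this
    linear_combination this
  have hs : ∀ x y : V, σ (B x y) = B y x := fun x y => by simpa using hS.eq x y
  have h1 := key x (b • y)
  simp only [map_smulₛₗ, RingHom.id_apply, LinearMap.smul_apply, smul_eq_mul] at h1
  have h2 := key x y
  have : (σ b - b) * B y x = 0 := by linear_combination h1 - b * h2
  have hyx : B y x = 0 := (mul_eq_zero.mp this).resolve_left (sub_ne_zero.mpr hb)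
  rw [LinearMap.zero_apply, LinearMap.zero_apply, ← hs y x, hyx, map_zero]

end Cfsg.Agent.S0753
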