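import Cfsg.Statements.S0754
import Mathlib.GroupTheory.SpecificGroups.Cyclic
import Mathlib.RingTheory.IntegralDomain

set_option autoImplicit false
open Cfsg

namespace Cfsg.Agent.S0754

/-- In a field F with q^2 elements, every non-zero μ with μ^q = μ (that is, μ in the subfield of order q) has exactly q + 1 solutions λ of λ^(q+1) = μ. -/
theorem result {F : Type*} [Field F] [Fintype F] {q : ℕ} (hF : Fintype.card F = q ^ 2) (μ : F) (hμ : μ ≠ 0) (hμq : μ ^ q = μ) : Nat.card {x : F // x ^ (q + 1) = μ} = q + 1 := by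
  classical
  have hq : 2 ≤ q := by
    have := Fintype.one_lt_card (α := F)
    rw [hF] at this
    nlinarith
  have hN : Nat.card Fˣ = (q + 1) * (q - 1) := by
    rw [Nat.card_units, Nat.card_eq_fintype_card, hF, ← Nat.sq_sub_sq, one_pow]
  let f : Fˣ →* Fˣ := powMonoidHom (q + 1)
  have hk : Nat.card f.ker = q + 1 := by
    rw [IsCyclic.card_powMonoidHom_ker, hN, Nat.gcd_eq_right (dvd_mul_right _ _)]
  have hker' : Nat.card (powMonoidHom (q - 1) : Fˣ →* Fˣ).ker = q - 1 := by
    rw [IsCyclic.card_powMonoidHom_ker, hN, Nat.gcd_eq_right (dvd_mul_left _ _)]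
  have hle : f.range ≤ (powMonoidHom (q - 1) : Fˣ →* Fˣ).ker := by
    rintro _ ⟨u, rfl⟩
    show (u ^ (q + 1)) ^ (q - 1) = 1
    rw [← pow_mul, ← hN, pow_card_eq_one']
  have hr : Nat.card f.range = q - 1 := by
    have h := Subgroup.card_mul_index f.ker
    rw [hk, hN, Subgroup.index_ker] at h
    exact Nat.eq_of_mul_eq_mul_left (by omega) h
  have heq : f.range = (powMonoidHom (q - 1) : Fˣ →* Fˣ).ker :=
    Subgroup.eq_of_le_of_card_ge hle (by rw [hr, hker'])
  obtain ⟨u, hu⟩ : Units.mk0 μ hμ ∈ f.range := by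
    rw [heq]
    refine Units.ext ?_
    have h : μ ^ (q - 1) * μ = 1 * μ := by rw [← pow_succ, Nat.sub_add_cancel (by omega), hμq, one_mul]
    simpa using mul_right_cancel₀ hμ h
  have hu' : (u : F) ^ (q + 1) = μ := by simpa [f] using congrArg Units.val hu
  conv_rhs => rw [← hk]
  refine Nat.card_congr
    { toFun := fun x => ⟨Units.mk0 x.1 (fun h => hμ (by rw [← x.2, h, zero_pow (by omega)])) * u⁻¹, ?_⟩
      invFun := fun v => ⟨(v.1 : F) * u, ?_⟩
      left_inv := fun x => by ext; simp
      right_inv := fun v => by ext; simp }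
  · refine Units.ext ?_
    simp [f, mul_pow, x.2, hu', hμ]
  · have hv : ((v.1 : Fˣ) : F) ^ (q + 1) = 1 := by simpa [f] using congrArg Units.val v.2
    rw [mul_pow, hv, hu', one_mul]

end Cfsg.Agent.S0754
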