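import Cfsg.Statements.S0755
import Cfsg.Agent.Lib.ClassicalDiag

set_option autoImplicit false
open Cfsg

namespace Cfsg.Agent.S0755

/-- Classification of Hermitian forms over finite fields: if σ is a non-identity involutive automorphism of the finite field F and B is a non-degenerate conjugate-symmetric σ-sesquilinear form on the finite-dimensional space V, then V has a B-orthonormal basis. -/
theorem result {F V : Type*} [Field F] [Finite F] [AddCommGroup V] [Module F V] [FiniteDimensional F V] (σ : F →+* F) (hσ : σ ≠ RingHom.id F) (hσ2 : ∀ a : F, σ (σ a) = a) (B : V →ₛₗ[σ] V →ₗ[F] F) (hS : B.IsSymm) (hB : B.Nondegenerate) : ∃ b : Module.Basis (Fin (Module.finrank F V)) F V, ∀ i j, B (b i) (b j) = if i = j then 1 else 0 := by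
  have hs : ∀ u v, σ (B u v) = B v u := fun u v => by simpa using hS.eq u v
  obtain ⟨b, hb⟩ := CfsgLib.Classical.Diag.exists_orthonormal_basis hσ hσ2 B hs ⊤
    (CfsgLib.Classical.Diag.ndOn_top fun w hw => hB.1 w hw)
  refine ⟨(b.map (Submodule.topEquiv : (⊤ : Submodule F V) ≃ₗ[F] V)).reindex (finCongr (finrank_top F V)), fun i j => ?_⟩
  simp [hb, Fin.ext_iff]

end Cfsg.Agent.S0755
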