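import Cfsg.Statements.S0756
import Cfsg.Agent.Lib.ClassicalDiag

set_option autoImplicit false
open Cfsg

namespace Cfsg.Agent.S0756

/-- Classification of symmetric bilinear forms over finite fields of odd characteristic: if B is non-degenerate symmetric on V of dimension n + 1 and α is a fixed non-square of F, there is an orthogonal basis b_0, ..., b_n with B(b_i, b_i) = 1 for i < n and B(b_n, b_n) ∈ {1, α}. -/
theorem result {F V : Type*} [Field F] [Finite F] [AddCommGroup V] [Module F V] [FiniteDimensional F V] (h2 : (2 : F) ≠ 0) (B : LinearMap.BilinForm F V) (hS : B.IsSymm) (hB : B.Nondegenerate) {n : ℕ} (hn : Module.finrank F V = n + 1) (α : F) (hα : ¬ IsSquare α) : ∃ b : Module.Basis (Fin (n + 1)) F V, (∀ i j, i ≠ j → B (b i) (b j) = 0) ∧ (∀ i, i ≠ Fin.last n → B (b i) (b i) = 1) ∧ (B (b (Fin.last n)) (b (Fin.last n)) = 1 ∨ B (b (Fin.last n)) (b (Fin.last n)) = α) := by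
  obtain ⟨b, h0, h1, hl⟩ := CfsgLib.Classical.Diag.exists_diag_basis h2 B (fun u v => hS.eq u v) hα ⊤
    (CfsgLib.Classical.Diag.ndOn_top fun w hw => hB.1 w hw) (n := n) (by rw [finrank_top, hn])
  exact ⟨b.map (Submodule.topEquiv : (⊤ : Submodule F V) ≃ₗ[F] V), fun i j h => by simpa using h0 i j h,
    fun i h => by simpa using h1 i h, by simpa using hl⟩

end Cfsg.Agent.S0756
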