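import Cfsg.Statements.S0757


set_option autoImplicit false
open Cfsg

namespace Cfsg.Agent.S0757

/-- The two diagonal forms Σ x_i^2 and Σ_(i<n) x_i^2 + α x_n^2 on F^(n+1), with α a non-square and 2 ≠ 0 in F, are inequivalent quadratic forms (so over a finite field of odd order there are exactly two classes of non-singular symmetric bilinear forms in each dimension). -/
theorem result {F : Type*} [Field F] (h2 : (2 : F) ≠ 0) (n : ℕ) (α : F) (hα : ¬ IsSquare α) : ¬ (QuadraticMap.weightedSumSquares F (fun _ : Fin (n + 1) => (1 : F))).Equivalent (QuadraticMap.weightedSumSquares F (fun i : Fin (n + 1) => if i = Fin.last n then α else (1 : F))) := by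
  classical
  rintro ⟨e⟩
  apply hα
  set w : Fin (n + 1) → F := fun i => if i = Fin.last n then α else 1 with hw
  set M := LinearMap.toMatrix' e.toLinearEquiv.toLinearMap with hM
  have hMe : ∀ x, e x = M.mulVec x := fun x => by
    rw [hM, LinearMap.toMatrix'_mulVec]; rfl
  have key : M.transpose * Matrix.diagonal w * M = 1 := by
    ext i j
    have hp : ∀ x, ∑ k, w k * (M.mulVec x k * M.mulVec x k) = ∑ k, x k * x k := fun x => by
      rw [← hMe]
      have := e.map_app x
      simp only [QuadraticMap.weightedSumSquares_apply, smul_eq_mul, one_mul] at this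
      exact this
    have h1 := hp (Pi.single i 1 + Pi.single j 1)
    have h3 := hp (Pi.single i 1)
    have h4 := hp (Pi.single j 1)
    simp only [Matrix.mulVec_add, Matrix.mulVec_single_one, Pi.add_apply, Matrix.col_apply, add_mul, mul_add,
      Finset.sum_add_distrib] at h1 h3 h4
    have e1 : (M.transpose * Matrix.diagonal w * M) i j = ∑ k, w k * (M k i * M k j) := by
      rw [Matrix.mul_apply]
      exact Finset.sum_congr rfl fun k _ => by rw [Matrix.mul_diagonal, Matrix.transpose_apply]; ring
    have e2 : ∑ k, w k * (M k j * M k i) = ∑ k, w k * (M k i * M k j) :=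
      Finset.sum_congr rfl fun k _ => by ring
    have e3 : ∑ k, (Pi.single i (1 : F) : Fin (n + 1) → F) k * (Pi.single j (1 : F) : Fin (n + 1) → F) k
        = (1 : Matrix (Fin (n + 1)) (Fin (n + 1)) F) i j := by
      simp [Pi.single_apply, Matrix.one_apply, eq_comm]
    have e4 : ∑ k, (Pi.single j (1 : F) : Fin (n + 1) → F) k * (Pi.single i (1 : F) : Fin (n + 1) → F) k
        = (1 : Matrix (Fin (n + 1)) (Fin (n + 1)) F) i j := by
      rw [← e3]; exact Finset.sum_congr rfl fun k _ => mul_comm _ _
    refine mul_left_cancel₀ h2 ?_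
    rw [e1]
    linear_combination h1 - h3 - h4 - e2 + e3 + e4
  have hd := congrArg Matrix.det key
  rw [Matrix.det_mul, Matrix.det_mul, Matrix.det_transpose, Matrix.det_diagonal, Matrix.det_one,
    show ∏ i, w i = α by simp [hw, Finset.prod_ite_eq']] at hd
  have hd0 : M.det ≠ 0 := fun h => by simp [h] at hd
  exact ⟨M.det⁻¹, by field_simp; linear_combination hd⟩

end Cfsg.Agent.S0757
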