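import Cfsg.Statements.S0758
import Mathlib.NumberTheory.LegendreSymbol.QuadraticChar.Basic

set_option autoImplicit false
open Cfsg

namespace Cfsg.Agent.S0758

/-- For a finite field F of odd order q and a non-square α: the form x² + y² is isotropic iff q ≡ 1 mod 4, and the form x² + α y² is isotropic iff q ≡ 3 mod 4. -/
theorem result {F : Type*} [Field F] [Fintype F] (h2 : (2 : F) ≠ 0) (α : F) (hα : ¬ IsSquare α) : ((∃ x y : F, (x ≠ 0 ∨ y ≠ 0) ∧ x ^ 2 + y ^ 2 = 0) ↔ Fintype.card F % 4 = 1) ∧ ((∃ x y : F, (x ≠ 0 ∨ y ≠ 0) ∧ x ^ 2 + α * y ^ 2 = 0) ↔ Fintype.card F % 4 = 3) := by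
  classical
  have hα0 : α ≠ 0 := fun h => hα ⟨0, by simp [h]⟩
  have hch : ringChar F ≠ 2 := fun h => h2 (by
    have := ringChar.Nat.cast_ringChar (R := F); rw [h] at this; exact_mod_cast this)
  have hodd := FiniteField.odd_card_of_char_ne_two hch
  have iso : ∀ c : F, c ≠ 0 → ((∃ x y : F, (x ≠ 0 ∨ y ≠ 0) ∧ x ^ 2 + c * y ^ 2 = 0) ↔ IsSquare (-c)) := by
    intro c hc
    constructor
    · rintro ⟨x, y, hxy, h⟩
      have hy : y ≠ 0 := by
        rintro rfl
        simp at h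
        simp [h] at hxy
      exact ⟨x / y, by field_simp; linear_combination -h⟩
    · rintro ⟨s, hs⟩
      exact ⟨s, 1, Or.inr one_ne_zero, by linear_combination -hs⟩
  have hmul : IsSquare (-α) ↔ ¬ IsSquare (-1 : F) := by
    constructor
    · intro h h1
      exact hα (by simpa using h.mul h1)
    · intro h1
      rw [← quadraticChar_one_iff_isSquare (neg_ne_zero.mpr hα0), ← neg_one_mul α, map_mul,
        quadraticChar_neg_one_iff_not_isSquare.mpr h1, quadraticChar_neg_one_iff_not_isSquare.mpr hα]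
      norm_num
  refine ⟨?_, ?_⟩
  · rw [show (∃ x y : F, (x ≠ 0 ∨ y ≠ 0) ∧ x ^ 2 + y ^ 2 = 0) ↔ IsSquare (-1 : F) by
      simpa using iso 1 one_ne_zero, FiniteField.isSquare_neg_one_iff]
    omega
  · rw [iso α hα0, hmul, FiniteField.isSquare_neg_one_iff]
    omega

end Cfsg.Agent.S0758
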