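import Cfsg.Statements.S0759
import Mathlib

set_option autoImplicit false
open Cfsg

namespace Cfsg.Agent.S0759

open Matrix in
lemma fwd {F : Type*} [Field F] [Fintype F] (m : ℕ) (hodd : Odd m) (W : Submodule F (Fin (2 * m) → F))
    (hW : Module.finrank F W = m) (hWs : ∀ w ∈ W, ∑ i, w i ^ 2 = 0) (h2 : (2 : F) ≠ 0) :
    IsSquare (-1 : F) := by
  classical
  obtain ⟨C, hC⟩ := W.exists_isCompl
  have hCd : Module.finrank F C = m := by
    have := Submodule.finrank_add_eq_of_isCompl hC
    rw [Module.finrank_fin_fun] at this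
    omega
  let bW := (Module.finBasisOfFinrankEq F W hW)
  let bC := (Module.finBasisOfFinrankEq F C hCd)
  let b : Module.Basis (Fin m ⊕ Fin m) F (Fin (2 * m) → F) :=
    (bW.prod bC).map (Submodule.prodEquivOfIsCompl W C hC)
  let e : Fin (2 * m) ≃ Fin m ⊕ Fin m := Fintype.equivOfCardEq (by simp [two_mul])
  let P : Matrix (Fin m ⊕ Fin m) (Fin m ⊕ Fin m) F := Matrix.of fun i j => b j (e.symm i)
  have hGdot : ∀ i j, (Pᵀ * P) i j = ∑ k, b i k * b j k := fun i j => by
    rw [Matrix.mul_apply]
    exact Fintype.sum_equiv e.symm _ _ fun k => rfl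
  have hzero : ∀ i j : Fin m, (Pᵀ * P) (.inl i) (.inl j) = 0 := fun i j => by
    rw [hGdot]
    have hb : ∀ l : Fin m, b (.inl l) = (bW l : Fin (2 * m) → F) := fun l => by
      simp [b]
    have h1 := hWs _ (bW i).2
    have h3 := hWs _ (bW j).2
    have h4 := hWs _ (W.add_mem (bW i).2 (bW j).2)
    rw [hb, hb]
    refine (mul_eq_zero.mp (show (2 : F) * _ = 0 from ?_)).resolve_left h2
    calc (2 : F) * ∑ k, (bW i : Fin (2 * m) → F) k * (bW j : Fin (2 * m) → F) k
        = ∑ k, ((bW i : Fin (2 * m) → F) + (bW j : Fin (2 * m) → F)) k ^ 2 -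
            ∑ k, (bW i : Fin (2 * m) → F) k ^ 2 - ∑ k, (bW j : Fin (2 * m) → F) k ^ 2 := by
          rw [← Finset.sum_sub_distrib, ← Finset.sum_sub_distrib, Finset.mul_sum]
          exact Finset.sum_congr rfl fun k _ => by rw [Pi.add_apply]; ring
      _ = 0 := by rw [h1, h3, h4]; ring
  obtain ⟨B, hB⟩ : ∃ B, B = (Pᵀ * P).toBlocks₁₂ := ⟨_, rfl⟩
  have hB21 : (Pᵀ * P).toBlocks₂₁ = Bᵀ := by
    ext i j
    simp only [hB, toBlocks₁₂, toBlocks₂₁, Matrix.of_apply, Matrix.transpose_apply, hGdot]
    exact Finset.sum_congr rfl fun k _ => mul_comm _ _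
  have hG : Pᵀ * P = fromBlocks 0 B Bᵀ (Pᵀ * P).toBlocks₂₂ := by
    conv_lhs => rw [← fromBlocks_toBlocks (Pᵀ * P)]
    rw [hB21, ← hB]
    congr 1
    ext i j
    simpa [toBlocks₁₁] using hzero i j
  have hJ : (fromBlocks (0 : Matrix (Fin m) (Fin m) F) (1 : Matrix (Fin m) (Fin m) F) (-1 : Matrix (Fin m) (Fin m) F) (0 : Matrix (Fin m) (Fin m) F)).det = 1 := by
    have h : fromBlocks (0 : Matrix (Fin m) (Fin m) F) (1 : Matrix (Fin m) (Fin m) F) (-1 : Matrix (Fin m) (Fin m) F) (0 : Matrix (Fin m) (Fin m) F) =
        fromBlocks (1 : Matrix (Fin m) (Fin m) F) (1 : Matrix (Fin m) (Fin m) F) (0 : Matrix (Fin m) (Fin m) F) (1 : Matrix (Fin m) (Fin m) F) * fromBlocks (1 : Matrix (Fin m) (Fin m) F) 0 (-1 : Matrix (Fin m) (Fin m) F) (1 : Matrix (Fin m) (Fin m) F) * fromBlocks (1 : Matrix (Fin m) (Fin m) F) (1 : Matrix (Fin m) (Fin m) F) (0 : Matrix (Fin m) (Fin m) F) (1 : Matrix (Fin m) (Fin m) F) := by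
      simp [fromBlocks_multiply]
    rw [h, det_mul, det_mul, det_fromBlocks_zero₂₁, det_fromBlocks_zero₁₂]
    simp
  have hdet : P.det * P.det = (-1) ^ m * (B.det * B.det) := by
    have h := congrArg (fun M => (M * fromBlocks (0 : Matrix (Fin m) (Fin m) F) (1 : Matrix (Fin m) (Fin m) F) (-1 : Matrix (Fin m) (Fin m) F) (0 : Matrix (Fin m) (Fin m) F)).det) hG
    simp only [det_mul, det_transpose, hJ, mul_one] at h
    have h' : (fromBlocks 0 B Bᵀ (Pᵀ * P).toBlocks₂₂ * fromBlocks (0 : Matrix (Fin m) (Fin m) F) (1 : Matrix (Fin m) (Fin m) F) (-1 : Matrix (Fin m) (Fin m) F) (0 : Matrix (Fin m) (Fin m) F)).det =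
        (-1) ^ m * (B.det * B.det) := by
      rw [fromBlocks_multiply]
      simp only [Matrix.mul_zero, Matrix.zero_mul, Matrix.mul_one, zero_add, add_zero, Matrix.mul_neg]
      rw [det_fromBlocks_zero₁₂, det_neg, det_transpose, Fintype.card_fin]
      ring
    rw [h, ← h', det_mul, hJ, mul_one]
  have hP : P.det ≠ 0 := by
    have hu : P = ((Pi.basisFun F (Fin (2 * m))).reindex e).toMatrix b := by
      ext i j
      simp [P, Module.Basis.toMatrix_apply]
    rw [hu]
    haveI := ((Pi.basisFun F (Fin (2 * m))).reindex e).invertibleToMatrix b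
    exact (Matrix.isUnit_det_of_invertible _).ne_zero
  rw [hodd.neg_one_pow] at hdet
  have hB0 : B.det ≠ 0 := fun h => mul_ne_zero hP hP (by rw [hdet, h]; ring)
  refine ⟨P.det / B.det, ?_⟩
  field_simp
  linear_combination (-1 : F) * hdet

/-- Type of the orthonormal form: over a finite field of odd order q and for m ≥ 1, the quadratic form Σ_(i<2m) x_i² on F^(2m) admits an m-dimensional subspace on which it vanishes identically if and only if it is not the case that q ≡ 3 (mod 4) and m is odd. -/
theorem result {F : Type*} [Field F] [Fintype F] (h2 : (2 : F) ≠ 0) (m : ℕ) (hm : 1 ≤ m) : (∃ W : Submodule F (Fin (2 * m) → F), Module.finrank F W = m ∧ ∀ w ∈ W, ∑ i, w i ^ 2 = 0) ↔ ¬ (Fintype.card F % 4 = 3 ∧ Odd m) := by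
  classical
  constructor
  · rintro ⟨W, hW, hWs⟩ ⟨h4, hodd⟩
    exact absurd h4 (FiniteField.isSquare_neg_one_iff.mp (fwd m hodd W hW hWs h2))
  · intro hcond
    obtain ⟨L, hL, hinj⟩ : ∃ L : (Fin m → F) →ₗ[F] (Fin (2 * m) → F),
        (∀ x, ∑ i, L x i ^ 2 = 0) ∧ Function.Injective L := by
      by_cases hsq : IsSquare (-1 : F)
      · obtain ⟨r, hr⟩ := hsq
        let e : Fin (2 * m) ≃ Fin m ⊕ Fin m := Fintype.equivOfCardEq (by simp [two_mul])
        refine ⟨{ toFun := fun x i => Sum.elim x (r • x) (e i)
                  map_add' := fun x y => funext fun i => by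
                    rcases h : e i with j | j <;> simp [h, mul_add]
                  map_smul' := fun c x => funext fun i => by
                    rcases h : e i with j | j <;> simp [h, mul_left_comm] }, fun x => ?_, fun x y h => ?_⟩
        · show ∑ i, Sum.elim x (r • x) (e i) ^ 2 = 0
          rw [Equiv.sum_comp e fun s => Sum.elim x (r • x) s ^ 2, Fintype.sum_sum_type,
            ← Finset.sum_add_distrib]
          refine Finset.sum_eq_zero fun j _ => ?_
          simp only [Sum.elim_inl, Sum.elim_inr, Pi.smul_apply, smul_eq_mul]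
          linear_combination (-(x j ^ 2)) * hr
        · funext j
          simpa using congrFun h (e.symm (.inl j))
      · have hm2 : Even m := by
          by_contra h
          refine hcond ⟨?_, Nat.not_even_iff_odd.mp h⟩
          by_contra h4
          exact hsq (FiniteField.isSquare_neg_one_iff.mpr h4)
        obtain ⟨k, rfl⟩ := hm2
        obtain ⟨a, b, hab⟩ : ∃ a b : F, a ^ 2 + b ^ 2 = -1 :=
          by
            obtain ⟨a, b, hab⟩ := FiniteField.exists_root_sum_quadratic (f := (Polynomial.X ^ 2 : Polynomial F))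
              (g := Polynomial.X ^ 2 - Polynomial.C (-1)) (Polynomial.degree_X_pow 2)
              (Polynomial.degree_X_pow_sub_C (by norm_num) _) (by
                rcases Nat.mod_two_eq_zero_or_one (Fintype.card F) with h | h
                · exfalso
                  have hc := FiniteField.even_card_iff_char_two.mpr h
                  have := ringChar.Nat.cast_ringChar (R := F)
                  rw [hc] at this
                  exact h2 (by simpa using this)
                · exact h)
            simp only [Polynomial.eval_sub, Polynomial.eval_pow, Polynomial.eval_X, Polynomial.eval_C] at hab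
            exact ⟨a, b, by linear_combination hab⟩
        let e : Fin (2 * (k + k)) ≃ (Fin k ⊕ Fin k) ⊕ (Fin k ⊕ Fin k) :=
          Fintype.equivOfCardEq (by simp [two_mul])
        let d : Fin (k + k) ≃ Fin k ⊕ Fin k := finSumFinEquiv.symm
        refine ⟨{ toFun := fun x i => Sum.elim (fun s => x (d.symm s))
                    (Sum.elim (fun j => a * x (d.symm (.inl j)) + b * x (d.symm (.inr j)))
                      (fun j => b * x (d.symm (.inl j)) - a * x (d.symm (.inr j)))) (e i)
                  map_add' := fun x y => funext fun i => by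
                    rcases h : e i with (j | j) | (j | j) <;> simp [h] <;> ring
                  map_smul' := fun c x => funext fun i => by
                    rcases h : e i with (j | j) | (j | j) <;> simp [h] <;> ring }, fun x => ?_,
          fun x y h => ?_⟩
        · show ∑ i, Sum.elim (fun s => x (d.symm s))
              (Sum.elim (fun j => a * x (d.symm (.inl j)) + b * x (d.symm (.inr j)))
                (fun j => b * x (d.symm (.inl j)) - a * x (d.symm (.inr j)))) (e i) ^ 2 = 0
          rw [Equiv.sum_comp e fun s => Sum.elim (fun s => x (d.symm s))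
              (Sum.elim (fun j => a * x (d.symm (.inl j)) + b * x (d.symm (.inr j)))
                (fun j => b * x (d.symm (.inl j)) - a * x (d.symm (.inr j)))) s ^ 2,
            Fintype.sum_sum_type, Fintype.sum_sum_type, Fintype.sum_sum_type]
          simp only [Sum.elim_inl, Sum.elim_inr, ← Finset.sum_add_distrib]
          refine Finset.sum_eq_zero fun j _ => ?_
          linear_combination (x (d.symm (.inl j)) ^ 2 + x (d.symm (.inr j)) ^ 2) * hab
        · funext j
          simpa using congrFun h (e.symm (.inl (d j)))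
    exact ⟨LinearMap.range L, by rw [LinearMap.finrank_range_of_inj hinj, Module.finrank_fin_fun],
      by rintro _ ⟨x, rfl⟩; exact hL x⟩

end Cfsg.Agent.S0759
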