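import Cfsg.Statements.S0760
import Cfsg.Agent.Lib.ClassicalWitt

set_option autoImplicit false
open Cfsg

namespace Cfsg.Agent.S0760

/-- Witt index is well defined: if Q is a quadratic form on a finite-dimensional space V over a finite field with non-degenerate polar form, and W₁, W₂ are subspaces on which Q vanishes that are maximal with this property, then W₁ and W₂ have the same dimension, and twice this dimension is at most dim V. -/
theorem result {F V : Type*} [Field F] [Finite F] [AddCommGroup V] [Module F V] [FiniteDimensional F V] (Q : QuadraticForm F V) (hQ : (QuadraticMap.polarBilin Q).Nondegenerate) (W₁ W₂ : Submodule F V) (h₁ : ∀ w ∈ W₁, Q w = 0) (h₂ : ∀ w ∈ W₂, Q w = 0) (hmax₁ : ∀ W : Submodule F V, W₁ ≤ W → (∀ w ∈ W, Q w = 0) → W = W₁) (hmax₂ : ∀ W : Submodule F V, W₂ ≤ W → (∀ w ∈ W, Q w = 0) → W = W₂) : Module.finrank F W₁ = Module.finrank F W₂ ∧ 2 * Module.finrank F W₁ ≤ Module.finrank F V := by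
  classical
  have hle : ∀ W : Submodule F V, (∀ w ∈ W, Q w = 0) →
      2 * Module.finrank F W ≤ Module.finrank F V := by
    intro W h
    have h1 : W ≤ LinearMap.BilinForm.orthogonal (QuadraticMap.polarBilin Q) W := fun w hw n hn => by
      show QuadraticMap.polar Q n w = 0
      simp [QuadraticMap.polar, h _ (W.add_mem hn hw), h n hn, h w hw]
    have h2 := Submodule.finrank_mono h1
    rw [LinearMap.BilinForm.finrank_orthogonal hQ] at h2
    omega
  refine ⟨?_, hle W₁ h₁⟩
  have main : ∀ A B : Submodule F V, (∀ w ∈ A, Q w = 0) → (∀ w ∈ B, Q w = 0) →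
      (∀ W : Submodule F V, A ≤ W → (∀ w ∈ W, Q w = 0) → W = A) →
      Module.finrank F B ≤ Module.finrank F A := by
    intro A B hA hB hmax
    by_contra hlt
    push Not at hlt
    obtain ⟨X, hXB, hX⟩ : ∃ X ≤ B, Module.finrank F X = Module.finrank F A := by
      obtain ⟨v, hv⟩ := exists_linearIndependent_of_le_finrank (R := F) (M := B) hlt.le
      refine ⟨(Submodule.span F (Set.range v)).map B.subtype, Submodule.map_subtype_le _ _, ?_⟩
      rw [(Submodule.equivMapOfInjective _ B.injective_subtype _).finrank_eq.symm,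
        finrank_span_eq_card hv, Fintype.card_fin]
    let φ : A ≃ₗ[F] X := LinearEquiv.ofFinrankEq A X hX.symm
    obtain ⟨g, hg, hgA⟩ := CfsgLib.Classical.Witt.witt_quad Q hQ A X φ
      (fun x => by rw [hA x x.2, hB _ (hXB (φ x).2)])
    have h' := hmax (B.map (g.symm : V →ₗ[F] V)) (fun a ha => ⟨g a, hXB (by
        have := hgA ⟨a, ha⟩
        exact (show g a = (φ ⟨a, ha⟩ : V) from this) ▸ (φ ⟨a, ha⟩).2), g.symm_apply_apply a⟩)
      (fun w ⟨b, hb, hw⟩ => by rw [← hw, ← hg]; simp [hB b hb])
    have e := (Submodule.equivMapOfInjective _ g.symm.injective B).finrank_eq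
    rw [h'] at e
    omega
  exact le_antisymm (main W₂ W₁ h₂ h₁ hmax₂) (main W₁ W₂ h₁ h₂ hmax₁)

end Cfsg.Agent.S0760
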