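import Cfsg.Statements.S0761


set_option autoImplicit false
open Cfsg

namespace Cfsg.Agent.S0761

/-- Hyperbolic partners: let B be a non-degenerate bilinear form on a finite-dimensional space, either alternating, or symmetric with 2 ≠ 0. If Z is a subspace on which B vanishes, x ∉ Z is isotropic and orthogonal to Z, then there is an isotropic y with B x y = 1 which is orthogonal to Z. -/
theorem result {F V : Type*} [Field F] [AddCommGroup V] [Module F V] [FiniteDimensional F V] (B : LinearMap.BilinForm F V) (hB : B.Nondegenerate) (hform : B.IsAlt ∨ (B.IsSymm ∧ (2 : F) ≠ 0)) (x : V) (Z : Submodule F V) (hxZ : x ∉ Z) (hx : B x x = 0) (hxz : ∀ z ∈ Z, B x z = 0) (hZ : ∀ z ∈ Z, ∀ z' ∈ Z, B z z' = 0) : ∃ y : V, B y y = 0 ∧ B x y = 1 ∧ ∀ z ∈ Z, B z y = 0 := by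
  classical
  have hφ : ∃ φ : V →ₗ[F] F, φ x = 1 ∧ ∀ z ∈ Z, φ z = 0 := by
    obtain ⟨f, hf1, hf2⟩ := Submodule.exists_le_ker_of_notMem hxZ
    refine ⟨(f x)⁻¹ • f, by simp [inv_mul_cancel₀ hf1], fun z hz => ?_⟩
    simp [show f z = 0 from LinearMap.mem_ker.mp (hf2 hz)]
  obtain ⟨φ, hφx, hφZ⟩ := hφ
  set y₀ := (B.flip.toDual hB.flip).symm φ with hy
  have hy0 : ∀ v, B v y₀ = φ v := fun v =>
    LinearMap.BilinForm.apply_toDual_symm_apply (hB := hB.flip) φ v
  rcases hform with ha | ⟨hs, h2⟩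
  · exact ⟨y₀, ha y₀, by rw [hy0, hφx], fun z hz => by rw [hy0, hφZ z hz]⟩
  · have hsym : ∀ a b, B a b = B b a := fun a b => hs.eq a b
    refine ⟨y₀ - (B y₀ y₀ / 2) • x, ?_, ?_, fun z hz => ?_⟩
    · simp only [map_sub, map_smul, LinearMap.sub_apply, LinearMap.smul_apply, smul_eq_mul, hx,
        hsym y₀ x, hy0 x, hφx]
      field_simp
      ring
    · simp [map_sub, map_smul, hx, hy0 x, hφx]
    · simp [map_sub, map_smul, hy0 z, hφZ z hz, hsym z x, hxz z hz]

end Cfsg.Agent.S0761
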