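import Cfsg.Statements.S0762
import Mathlib.FieldTheory.Finite.Basic

set_option autoImplicit false
open Cfsg

namespace Cfsg.Agent.S0762

/-- In characteristic two over a finite field, a quadratic form on a space of dimension at least 3 vanishes on some non-zero vector. -/
theorem result {F V : Type*} [Field F] [Finite F] [CharP F 2] [AddCommGroup V] [Module F V] [FiniteDimensional F V] (Q : QuadraticForm F V) (h3 : 3 ≤ Module.finrank F V) : ∃ v : V, v ≠ 0 ∧ Q v = 0 := by
  classical
  haveI : Nontrivial V := Module.nontrivial_of_finrank_pos (R := F) (by omega)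
  obtain ⟨v, hv⟩ := exists_ne (0 : V)
  by_cases hQv : Q v = 0
  · exact ⟨v, hv, hQv⟩
  have hself : QuadraticMap.polar Q v v = 0 := by
    rw [QuadraticMap.polar_self]
    simp [CharTwo.two_eq_zero]
  set φ := QuadraticMap.polarBilin Q v with hφ
  have hker : 2 ≤ Module.finrank F (LinearMap.ker φ) := by
    have h1 := LinearMap.finrank_range_add_finrank_ker φ
    have h2 : Module.finrank F (LinearMap.range φ) ≤ 1 :=
      (Submodule.finrank_le _).trans (Module.finrank_self F).le
    omega
  obtain ⟨w, hw, hwv⟩ : ∃ w ∈ LinearMap.ker φ, w ∉ Submodule.span F {v} := by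
    apply SetLike.not_le_iff_exists.mp
    intro hle
    have h1 := Submodule.finrank_mono hle
    rw [finrank_span_singleton hv] at h1
    omega
  obtain ⟨r, hr⟩ := FiniteField.isSquare_of_char_two (ringChar.eq F 2) (Q w / Q v)
  refine ⟨w + r • v, fun h0 => hwv ?_, ?_⟩
  · rw [Submodule.mem_span_singleton]
    exact ⟨-r, by rw [neg_smul]; exact (eq_neg_of_add_eq_zero_left h0).symm⟩
  · have hp : QuadraticMap.polar Q w v = 0 := by
      rw [QuadraticMap.polar_comm]; exact LinearMap.mem_ker.mp hw
    rw [QuadraticMap.map_add Q, QuadraticMap.map_smul, QuadraticMap.polar_smul_right, hp, smul_eq_mul, smul_zero,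
      ← hr, div_mul_cancel₀ _ hQv, add_zero]
    exact CharTwo.add_self_eq_zero _

end Cfsg.Agent.S0762
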