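import Cfsg.Statements.S0763
import Mathlib

set_option autoImplicit false
open Cfsg

namespace Cfsg.Agent.S0763

/-- Binary quadratic forms in characteristic two over a finite field: if Q is a quadratic form on a 2-dimensional space whose polar form is non-degenerate, then either there are vectors v, w with Q v = Q w = 0 and polar value 1 (Q is xy in these coordinates), or there are v, w and μ with Q v = 1, Q w = μ, polar value 1 and x² + x + μ without roots in F (Q is x² + xy + μy²). -/
theorem result {F V : Type*} [Field F] [Finite F] [CharP F 2] [AddCommGroup V] [Module F V] (Q : QuadraticForm F V) (h2 : Module.finrank F V = 2) (hQ : (QuadraticMap.polarBilin Q).Nondegenerate) : (∃ v w : V, LinearIndependent F ![v, w] ∧ Q v = 0 ∧ Q w = 0 ∧ QuadraticMap.polar Q v w = 1) ∨ (∃ (v w : V) (μ : F), LinearIndependent F ![v, w] ∧ (∀ x : F, x ^ 2 + x + μ ≠ 0) ∧ Q v = 1 ∧ Q w = μ ∧ QuadraticMap.polar Q v w = 1) := by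
  have hnd : ∀ v : V, v ≠ 0 → ∃ w, QuadraticMap.polar Q v w = 1 := fun v hv => by
    by_contra! hno
    refine hv (hQ.1 v fun w => ?_)
    by_contra h
    exact hno ((QuadraticMap.polar Q v w)⁻¹ • w) (by
      rw [QuadraticMap.polar_smul_right, smul_eq_mul]; exact inv_mul_cancel₀ h)
  have hself : ∀ v : V, QuadraticMap.polar Q v v = 0 := fun v => by
    rw [QuadraticMap.polar_self, two_smul, CharTwo.add_self_eq_zero]
  have hli : ∀ v w : V, QuadraticMap.polar Q v w = 1 → LinearIndependent F ![v, w] := fun v w h => by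
    rw [LinearIndependent.pair_iff]
    intro s t hst
    have e1 := congrArg (QuadraticMap.polar Q v) hst
    have e2 := congrArg (QuadraticMap.polar Q w) hst
    rw [QuadraticMap.polar_add_right, QuadraticMap.polar_smul_right, QuadraticMap.polar_smul_right,
      hself, h, QuadraticMap.polar_zero_right] at e1
    rw [QuadraticMap.polar_add_right, QuadraticMap.polar_smul_right, QuadraticMap.polar_smul_right,
      hself, QuadraticMap.polar_comm _ w v, h, QuadraticMap.polar_zero_right] at e2
    exact ⟨by simpa using e2, by simpa using e1⟩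
  by_cases hiso : ∃ v : V, v ≠ 0 ∧ Q v = 0
  · left
    obtain ⟨v, hv0, hv⟩ := hiso
    obtain ⟨w, hw⟩ := hnd v hv0
    have hp : QuadraticMap.polar Q v (w + Q w • v) = 1 := by
      rw [QuadraticMap.polar_add_right, QuadraticMap.polar_smul_right, hself, hw, smul_zero, add_zero]
    refine ⟨v, w + Q w • v, hli _ _ hp, hv, ?_, hp⟩
    rw [QuadraticMap.map_add Q, QuadraticMap.map_smul, hv, QuadraticMap.polar_smul_right,
      QuadraticMap.polar_comm _ w v, hw, smul_zero, add_zero, smul_eq_mul, mul_one]
    exact CharTwo.add_self_eq_zero _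
  · right
    push Not at hiso
    haveI : Nontrivial V := Module.nontrivial_of_finrank_eq_succ h2
    obtain ⟨v₀, hv₀⟩ := exists_ne (0 : V)
    obtain ⟨t, ht⟩ := FiniteField.isSquare_of_char_two (F := F) (ringChar.eq F 2) (Q v₀)⁻¹
    have hv1 : Q (t • v₀) = 1 := by
      rw [QuadraticMap.map_smul, ← ht, smul_eq_mul, inv_mul_cancel₀ (hiso v₀ hv₀)]
    have hv : t • v₀ ≠ 0 := fun h => by rw [h, QuadraticMap.map_zero] at hv1; exact zero_ne_one hv1
    obtain ⟨w, hw⟩ := hnd _ hv
    refine ⟨t • v₀, w, Q w, hli _ _ hw, fun x hx => ?_, hv1, rfl, hw⟩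
    have hne : x • (t • v₀) + w ≠ 0 := fun h => one_ne_zero (α := F) (by
      have e := congrArg (QuadraticMap.polar Q (t • v₀)) h
      rw [QuadraticMap.polar_add_right, QuadraticMap.polar_smul_right, hself, hw, smul_zero, zero_add,
        QuadraticMap.polar_zero_right] at e
      exact e)
    refine hiso _ hne ?_
    rw [QuadraticMap.map_add Q, QuadraticMap.map_smul, hv1, QuadraticMap.polar_smul_left, hw,
      smul_eq_mul, smul_eq_mul]
    linear_combination hx

end Cfsg.Agent.S0763
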