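import Cfsg.Statements.S0767
import Cfsg.Agent.Lib.ClassicalSpStd

set_option autoImplicit false
open Cfsg CfsgLib.Classical

namespace Cfsg.Agent.S0767

/-- The root group of a point: T_v(c) T_v(d) = T_v(c + d), and for A in the symplectic group with A v = a v, the conjugate A T_v(c) A⁻¹ is again some T_v(d). -/
theorem result {F : Type*} [Field F] (m : ℕ) (v : Fin m ⊕ Fin m → F) : (∀ c d : F, Cfsg.sympTransvection m v c * Cfsg.sympTransvection m v d = Cfsg.sympTransvection m v (c + d)) ∧ ∀ (A : Matrix (Fin m ⊕ Fin m) (Fin m ⊕ Fin m) F) (a : F), A ∈ Matrix.symplecticGroup (Fin m) F → A.mulVec v = a • v → ∀ c : F, ∃ d : F, A * Cfsg.sympTransvection m v c * A⁻¹ = Cfsg.sympTransvection m v d := by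
  have hf := isSymplecticForm_sympForm (F := F) (m := m)
  refine ⟨fun c d => ?_, fun A a hA hv c => ?_⟩
  · rw [← coe_stv_sympForm, ← coe_stv_sympForm, ← coe_stv_sympForm, ← Units.val_mul, stv_mul hf]
  · refine ⟨c * a * a, ?_⟩
    have hg : (spToGL m F ⟨A, hA⟩ : GL (Fin m ⊕ Fin m) F) ∈ isoGL (Cfsg.sympForm m F) :=
      (spToGL m F ⟨A, hA⟩).2
    have := congrArg (fun x : GL (Fin m ⊕ Fin m) F => Units.val x)
      (stv_conj hf hg v c)
    simp only [Units.val_mul, Matrix.coe_units_inv, coe_spToGL, hv, stv_smul hf,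
      coe_stv_sympForm] at this
    exact this

end Cfsg.Agent.S0767
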