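import Cfsg.Statements.S0768
import Cfsg.Agent.Lib.ClassicalPSp

set_option autoImplicit false
open scoped LinearAlgebra.Projectivization
open Cfsg

namespace Cfsg.Agent.S0768

/-- Primitivity: for m ≥ 1 and F finite, the symplectic group of the form sympForm (as a subgroup of the general linear group) acts primitively on the projective space of F^(2m). -/
theorem result {F : Type*} [Field F] [Finite F] (m : ℕ) (hm : 1 ≤ m) : MulAction.IsPreprimitive ↥(Cfsg.spGL m F) (ℙ F (Fin m ⊕ Fin m → F)) := by
  exact CfsgLib.Classical.isPreprimitive_isoGL CfsgLib.Classical.isSymplecticForm_sympForm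

end Cfsg.Agent.S0768
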