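import Cfsg.Statements.S0769
import Mathlib.LinearAlgebra.Matrix.Block

set_option autoImplicit false
open Cfsg

namespace Cfsg.Agent.S0769

/-- Order of the Borel subgroup of GL_n(q): the invertible lower-triangular n × n matrices over a field with q elements number q^(n(n-1)/2) (q-1)^n (unitriangular part times the diagonal torus). -/
theorem result {F : Type*} [Field F] [Fintype F] {q : ℕ} (hF : Fintype.card F = q) (n : ℕ) : Nat.card {g : Matrix.GeneralLinearGroup (Fin n) F // ∀ i j : Fin n, i < j → (g : Matrix (Fin n) (Fin n) F) i j = 0} = q ^ (n * (n - 1) / 2) * (q - 1) ^ n := by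
  classical
  subst hF
  have hdet : ∀ g : Matrix (Fin n) (Fin n) F, (∀ i j, i < j → g i j = 0) → g.det = ∏ i, g i i :=
    fun g h => Matrix.det_of_lowerTriangular g h
  let e : {g : Matrix.GeneralLinearGroup (Fin n) F //
      ∀ i j : Fin n, i < j → (g : Matrix (Fin n) (Fin n) F) i j = 0} ≃
      ({p : Fin n × Fin n // p.2 < p.1} → F) × (Fin n → Fˣ) :=
  { toFun := fun g => (fun p => (g.1 : Matrix (Fin n) (Fin n) F) p.1.1 p.1.2,
      fun i => Units.mk0 ((g.1 : Matrix (Fin n) (Fin n) F) i i) (by
        have h := (Matrix.GeneralLinearGroup.det g.1).ne_zero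
        rw [Matrix.GeneralLinearGroup.val_det_apply, hdet _ g.2, Finset.prod_ne_zero_iff] at h
        exact h i (Finset.mem_univ i)))
    invFun := fun t => ⟨Matrix.GeneralLinearGroup.mkOfDetNeZero
      (Matrix.of fun i j => if h : j < i then t.1 ⟨(i, j), h⟩ else if i = j then (t.2 i : F) else 0) (by
        rw [hdet _ (fun i j hij => by simp [not_lt.mpr hij.le, hij.ne])]
        exact Finset.prod_ne_zero_iff.mpr fun i _ => by simp), by
        intro i j hij
        simp [not_lt.mpr hij.le, hij.ne]⟩
    left_inv := fun g => by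
      refine Subtype.ext ?_
      ext i j
      simp only [Matrix.GeneralLinearGroup.val_mkOfDetNeZero, Matrix.of_apply]
      rcases lt_trichotomy j i with h | h | h
      · rw [dif_pos h]
      · subst h; simp
      · rw [dif_neg (not_lt.mpr h.le), if_neg h.ne, g.2 i j h]
    right_inv := fun t => by
      refine Prod.ext (funext fun p => ?_) (funext fun i => Units.ext ?_)
      · simp [p.2]
      · simp }
  have hpairs : Fintype.card {p : Fin n × Fin n // p.2 < p.1} = n * (n - 1) / 2 := by
    rw [Fintype.card_congr (Equiv.ofBijective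
      (fun p : {p : Fin n × Fin n // p.2 < p.1} => (⟨p.1.1, ⟨p.1.2, p.2⟩⟩ : Σ i : Fin n, Fin i))
      ⟨?_, ?_⟩), Fintype.card_sigma, ← Finset.sum_range_id]
    · simp only [Fintype.card_fin]
      exact Fin.sum_univ_eq_sum_range (fun i => i) n
    · rintro ⟨⟨a, b⟩, hab⟩ ⟨⟨c, d⟩, hcd⟩ h
      simp only [Sigma.mk.injEq] at h
      obtain ⟨rfl, h2⟩ := h
      simp only [heq_eq_eq, Fin.mk.injEq] at h2
      exact Subtype.ext (Prod.ext rfl (Fin.ext h2))
    · rintro ⟨i, j⟩
      exact ⟨⟨(i, ⟨j, j.2.trans i.2⟩), j.2⟩, rfl⟩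
  rw [Nat.card_congr e, Nat.card_prod, Nat.card_fun, Nat.card_fun, Nat.card_units,
    Nat.card_eq_fintype_card, Nat.card_eq_fintype_card, Nat.card_eq_fintype_card, hpairs, Fintype.card_fin]

end Cfsg.Agent.S0769
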