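import Cfsg.Statements.S0770
import Mathlib

set_option autoImplicit false
open Cfsg

namespace Cfsg.Agent.S0770

/-- For a field with at least 3 elements, an invertible matrix normalises the subgroup of invertible diagonal matrices of GL_n if and only if it is monomial (exactly one non-zero entry in each row). -/
theorem result {F : Type*} [Field F] (hF : ∃ a : F, a ≠ 0 ∧ a ≠ 1) (n : ℕ) (g : Matrix.GeneralLinearGroup (Fin n) F) : g ∈ Subgroup.normalizer ((Units.map (Matrix.diagonalRingHom (Fin n) F).toMonoidHom).range : Subgroup (Matrix.GeneralLinearGroup (Fin n) F)) ↔ ∀ i : Fin n, ∃! j : Fin n, (g : Matrix (Fin n) (Fin n) F) i j ≠ 0 := by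
  classical
  obtain ⟨a, ha0, ha1⟩ := hF
  obtain ⟨M, hM⟩ : ∃ M, M = (g : Matrix (Fin n) (Fin n) F) := ⟨_, rfl⟩
  rw [← hM]
  set D := (Units.map (Matrix.diagonalRingHom (Fin n) F).toMonoidHom).range with hD
  constructor
  · intro hg i
    obtain ⟨j, hj⟩ : ∃ j, M i j ≠ 0 := by
      by_contra! h
      have := congrFun (congrFun (show M * ((g⁻¹ : Matrix.GeneralLinearGroup (Fin n) F) : Matrix (Fin n) (Fin n) F) = 1 by
        rw [hM, ← Units.val_mul, mul_inv_cancel, Units.val_one]) i) i
      simp [Matrix.mul_apply, h] at this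
    refine ⟨j, hj, fun k hk => ?_⟩
    by_contra hne
    let d : Fin n → Fˣ := Function.update (fun _ => 1) k (Units.mk0 a ha0)
    have hd : (Units.map (Matrix.diagonalRingHom (Fin n) F).toMonoidHom)
        (MulEquiv.piUnits.symm d) ∈ D := ⟨_, rfl⟩
    obtain ⟨d', hd'⟩ := ((Subgroup.mem_normalizer_iff.mp hg) _).mp hd
    have h := congrArg Units.val (mul_inv_eq_iff_eq_mul.mp hd'.symm)
    rw [Units.val_mul, Units.val_mul, ← hM] at h
    change M * Matrix.diagonal (fun t => ((d t : Fˣ) : F)) = Matrix.diagonal ((d' : Fin n → F)) * M at h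
    have e1 := congrFun (congrFun h i) j
    have e2 := congrFun (congrFun h i) k
    simp only [Matrix.mul_diagonal, Matrix.diagonal_mul, d, Function.update_self,
      Function.update_of_ne (Ne.symm hne), Units.val_one, Units.val_mk0, mul_one] at e1 e2
    have e3 : (d' : Fin n → F) i = 1 := by
      refine mul_right_cancel₀ hj ?_
      rw [one_mul]; exact e1.symm
    rw [e3, one_mul] at e2
    exact ha1 (mul_left_cancel₀ hk (by rw [e2, mul_one]))
  · intro hmono
    choose σ hσ hσu using hmono
    have hdd : ∀ d : Fin n → F, M * Matrix.diagonal d = Matrix.diagonal (fun i => d (σ i)) * M := fun d => by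
      ext i j
      rw [Matrix.mul_diagonal, Matrix.diagonal_mul]
      by_cases hj : M i j = 0
      · rw [hj]; ring
      · rw [hσu i j hj]; ring
    have hinj : Function.Injective σ := by
      intro i i' h
      by_contra hne
      obtain ⟨N, hN⟩ : ∃ N, N = ((g⁻¹ : Matrix.GeneralLinearGroup (Fin n) F) : Matrix (Fin n) (Fin n) F) := ⟨_, rfl⟩
      have hMN : M * N = 1 := by rw [hM, hN, ← Units.val_mul, mul_inv_cancel, Units.val_one]
      have row : ∀ r, (M * N) r = fun c => M r (σ r) * N (σ r) c := fun r => funext fun c => by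
        rw [Matrix.mul_apply]
        refine Finset.sum_eq_single _ (fun b _ hb => ?_) (by simp)
        rw [show M r b = 0 from by_contra fun h' => hb (hσu r b h'), zero_mul]
      have e1 := congrFun (row i) i
      have e2 := congrFun (row i') i
      rw [hMN] at e1 e2
      rw [Matrix.one_apply_eq, h] at e1
      rw [Matrix.one_apply_ne (Ne.symm hne)] at e2
      rcases mul_eq_zero.mp e2.symm with h' | h'
      · exact hσ i' h'
      · rw [h', mul_zero] at e1; exact one_ne_zero e1
    rw [Subgroup.mem_normalizer_iff]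
    intro x
    constructor
    · rintro ⟨d, rfl⟩
      refine ⟨MulEquiv.piUnits.symm fun i => MulEquiv.piUnits d (σ i), ?_⟩
      rw [eq_mul_inv_iff_mul_eq]
      refine Units.ext ?_
      rw [Units.val_mul, Units.val_mul, ← hM]
      exact (hdd (d : Fin n → F)).symm
    · rintro ⟨d, hd⟩
      obtain ⟨τ, hτ⟩ : ∃ τ : Fin n ≃ Fin n, ∀ i, τ i = σ i :=
        ⟨Equiv.ofBijective σ (Finite.injective_iff_bijective.mp hinj), fun i => rfl⟩
      refine ⟨MulEquiv.piUnits.symm fun i => MulEquiv.piUnits d (τ.symm i), ?_⟩
      have h : (g : Matrix.GeneralLinearGroup (Fin n) F) * x = (Units.map (Matrix.diagonalRingHom (Fin n) F).toMonoidHom) d * g := by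
        rw [hd, inv_mul_cancel_right]
      refine mul_left_cancel (a := g) ?_
      rw [h]
      refine Units.ext ?_
      rw [Units.val_mul, Units.val_mul, ← hM]
      refine (hdd _).trans ?_
      congr 1
      show Matrix.diagonal _ = Matrix.diagonal _
      congr 1
      funext i
      show ((MulEquiv.piUnits d (τ.symm (σ i)) : Fˣ) : F) = _
      rw [← hτ, Equiv.symm_apply_apply]
      rfl

end Cfsg.Agent.S0770
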