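import Cfsg.Statements.S0774
import Cfsg.Agent.Lib.ClassicalSpParabolic

set_option autoImplicit false
open Cfsg

namespace Cfsg.Agent.S0774

/-- Borel subgroup of the symplectic group: the elements of Sp_2m(q) stabilising each of the totally isotropic coordinate subspaces ⟨e_0, ..., e_k⟩ (k < m) form a subgroup of order q^(m²) (q − 1)^m. -/
theorem result {F : Type*} [Field F] [Fintype F] {q : ℕ} (hF : Fintype.card F = q) (m : ℕ) : Nat.card ↥(⨅ k : Fin m, Cfsg.stabilizing (Cfsg.spToMat m F) {v : Fin m ⊕ Fin m → F | (∀ i : Fin m, (k : ℕ) < (i : ℕ) → v (Sum.inl i) = 0) ∧ ∀ i : Fin m, v (Sum.inr i) = 0}) = q ^ (m ^ 2) * (q - 1) ^ m := by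
  classical
  let e : CfsgLib.SpPar.Frame F m m :=
    ⟨fun i => Pi.single (Sum.inl i) 1,
      by simpa [Function.comp_def] using
        (Pi.basisFun F (Fin m ⊕ Fin m)).linearIndependent.comp _ Sum.inl_injective,
      fun i j => by simp [CfsgLib.Classical.sympForm_apply]⟩
  let A : CfsgLib.SpPar.Frame F m m → Prop := fun v =>
    ∀ j : Fin m, (∀ i : Fin m, (j : ℕ) < i → v.1 j (Sum.inl i) = 0) ∧ ∀ i, v.1 j (Sum.inr i) = 0
  have hmem : ∀ g : Matrix.symplecticGroup (Fin m) F,
      g ∈ (⨅ k : Fin m, Cfsg.stabilizing (Cfsg.spToMat m F) {v : Fin m ⊕ Fin m → F |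
        (∀ i : Fin m, (k : ℕ) < (i : ℕ) → v (Sum.inl i) = 0) ∧ ∀ i : Fin m, v (Sum.inr i) = 0}) ↔
        A (CfsgLib.SpPar.move g e) := by
    intro g
    simp only [Subgroup.mem_iInf]
    constructor
    · intro h j
      refine (h j _).mp ⟨fun i hi => ?_, fun i => ?_⟩
      · exact Pi.single_eq_of_ne (fun h => by rw [Sum.inl.injEq] at h; omega) _
      · show (Pi.single (Sum.inl j) (1 : F) : Fin m ⊕ Fin m → F) (Sum.inr i) = 0
        exact Pi.single_eq_of_ne Sum.inr_ne_inl _
    · intro h k
      let W : Submodule F (Fin m ⊕ Fin m → F) :=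
        { carrier := {v | (∀ i : Fin m, (k : ℕ) < (i : ℕ) → v (Sum.inl i) = 0) ∧ ∀ i : Fin m, v (Sum.inr i) = 0}
          add_mem' := fun {a b} ha hb => ⟨fun i hi => by simp [ha.1 i hi, hb.1 i hi], fun i => by simp [ha.2 i, hb.2 i]⟩
          zero_mem' := ⟨fun i _ => rfl, fun i => rfl⟩
          smul_mem' := fun c a ha => ⟨fun i hi => by simp [ha.1 i hi], fun i => by simp [ha.2 i]⟩ }
      let L := Matrix.mulVecLin g.1
      have hle : W.map L ≤ W := by
        rintro _ ⟨x, hx, rfl⟩
        have hx' : x = ∑ j : Fin m, x (Sum.inl j) • (Pi.single (Sum.inl j) (1 : F) : Fin m ⊕ Fin m → F) := by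
          funext t
          rcases t with t | t
          · simp [Finset.sum_apply, Pi.single_apply]
          · simp [Finset.sum_apply, Pi.single_apply, hx.2 t]
        rw [hx', map_sum]
        refine Submodule.sum_mem _ fun j _ => ?_
        rw [map_smul]
        by_cases hj : (k : ℕ) < j
        · rw [hx.1 j hj, zero_smul]; exact W.zero_mem
        · exact W.smul_mem _ ⟨fun i hi => (h j).1 i (by omega), (h j).2⟩
      have hinj : Function.Injective L := CfsgLib.SpPar.mulVec_injective g
      have heq : W.map L = W := Submodule.eq_of_le_of_finrank_le hle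
        (Submodule.equivMapOfInjective L hinj W).finrank_eq.le
      intro v
      refine ⟨fun hv => hle ⟨v, hv, rfl⟩, fun hv => ?_⟩
      obtain ⟨x, hx, hxv⟩ : L v ∈ W.map L := by rw [heq]; exact hv
      rw [← hinj hxv]; exact hx
  have hLI : ∀ v : Fin m → Fin m ⊕ Fin m → F,
      (∀ j : Fin m, (∀ i : Fin m, (j : ℕ) < i → v j (Sum.inl i) = 0) ∧ ∀ i, v j (Sum.inr i) = 0) →
      (LinearIndependent F v ↔ ∀ j, v j (Sum.inl j) ≠ 0) := by
    intro v hv
    let M : Matrix (Fin m) (Fin m) F := Matrix.of fun j i => v j (Sum.inl i)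
    have hdet : M.det = ∏ j, v j (Sum.inl j) := Matrix.det_of_isLowerTriangular M (fun i j hij => (hv i).1 j hij)
    have h1 : LinearIndependent F v ↔ LinearIndependent F M.row := by
      rw [Fintype.linearIndependent_iff, Fintype.linearIndependent_iff]
      refine forall_congr' fun g => imp_congr_left ?_
      constructor
      · intro hg; funext i; simpa [Finset.sum_apply, M] using congrFun hg (Sum.inl i)
      · intro hg; funext t
        rcases t with i | i
        · simpa [Finset.sum_apply, M] using congrFun hg i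
        · simp [Finset.sum_apply, (hv _).2 i]
    rw [h1, Matrix.linearIndependent_rows_iff_isUnit, Matrix.isUnit_iff_isUnit_det, isUnit_iff_ne_zero,
      hdet, Finset.prod_ne_zero_iff]
    simp
  have hA : Nat.card {v : CfsgLib.SpPar.Frame F m m // A v} = ∏ j : Fin m, ((q - 1) * q ^ (j : ℕ)) := by
    let ee : {v : CfsgLib.SpPar.Frame F m m // A v} ≃
        ((j : Fin m) → {c : F // c ≠ 0} × (Fin (j : ℕ) → F)) :=
      { toFun := fun v j => (⟨v.1.1 j (Sum.inl j), (hLI v.1.1 v.2).mp v.1.2.1 j⟩,
          fun i => v.1.1 j (Sum.inl ⟨i, i.2.trans j.2⟩))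
        invFun := fun p => ⟨⟨fun j => Sum.elim (fun i => if h : (i : ℕ) < j then (p j).2 ⟨i, h⟩
              else if i = j then (p j).1.1 else 0) (fun _ => 0),
            (hLI _ fun j => ⟨fun i hi => by
              simp only [Sum.elim_inl]
              rw [dif_neg (by omega), if_neg (fun h => by rw [h] at hi; omega)], fun i => rfl⟩).mpr
              (fun j => by simp [(p j).1.2]),
            fun i j => by simp [CfsgLib.Classical.sympForm_apply]⟩,
          fun j => ⟨fun i hi => by
              simp only [Sum.elim_inl]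
              rw [dif_neg (by omega), if_neg (fun h => by rw [h] at hi; omega)], fun i => rfl⟩⟩
        left_inv := fun v => by
          refine Subtype.ext (Subtype.ext (funext fun j => funext fun t => ?_))
          rcases t with i | i
          · simp only [Sum.elim_inl]
            split_ifs with h h'
            · rfl
            · rw [h']
            · exact ((v.2 j).1 i (by omega)).symm
          · exact ((v.2 j).2 i).symm
        right_inv := fun p => by
          funext j
          refine Prod.ext (Subtype.ext (by simp)) (funext fun i => ?_)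
          simp only [Sum.elim_inl]
          rw [dif_pos i.2] }
    rw [Nat.card_congr ee, Nat.card_pi]
    refine Finset.prod_congr rfl fun j _ => ?_
    rw [Nat.card_prod, Nat.card_fun, Nat.card_fin, Nat.card_eq_fintype_card, Fintype.card_subtype_compl,
      Fintype.card_subtype_eq, Nat.card_eq_fintype_card, hF]
  show Nat.card {g // g ∈ (⨅ k : Fin m, Cfsg.stabilizing (Cfsg.spToMat m F) {v : Fin m ⊕ Fin m → F |
        (∀ i : Fin m, (k : ℕ) < (i : ℕ) → v (Sum.inl i) = 0) ∧ ∀ i : Fin m, v (Sum.inr i) = 0})} = _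
  rw [Nat.card_congr (Equiv.subtypeEquivRight hmem), CfsgLib.SpPar.card_move_mem e A, hA,
    CfsgLib.SpPar.card_fixer q hF le_rfl e, Finset.prod_mul_distrib, Finset.prod_const,
    Finset.card_univ, Fintype.card_fin, Finset.prod_pow_eq_pow_sum,
    Fin.sum_univ_eq_sum_range (fun i => i), Finset.sum_range_id, Nat.sub_self]
  simp only [Finset.range_zero, Finset.prod_empty, mul_zero, add_zero, mul_one, ne_eq,
    OfNat.ofNat_ne_zero, not_false_eq_true, zero_pow, pow_zero]
  have hexp : m * (m - 1) / 2 + m * (m + 1) / 2 = m ^ 2 := by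
    rcases m with _ | n
    · simp
    · rw [Nat.add_sub_cancel, ← Nat.add_div_of_dvd_left (Nat.even_mul_succ_self (n + 1)).two_dvd,
        show (n + 1) * n + (n + 1) * (n + 1 + 1) = 2 * (n + 1) ^ 2 by ring,
        Nat.mul_div_cancel_left _ two_pos]
  rw [← hexp, pow_add]
  ring

end Cfsg.Agent.S0774
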