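import Cfsg.Statements.S0775
import Cfsg.Agent.Lib.ClassicalSpParabolic

set_option autoImplicit false
open Cfsg

namespace Cfsg.Agent.S0775

/-- Maximal parabolics of the symplectic group: if W is a k-dimensional subspace of F^(2m) on which the symplectic form vanishes identically, its stabiliser in Sp_2m(q) has order q^(k(k+1)/2 + 2k(m−k)) · |Sp_(2m−2k)(q)| · |GL_k(q)|. -/
theorem result {F : Type*} [Field F] [Fintype F] {q : ℕ} (hF : Fintype.card F = q) (m k : ℕ) (hk : k ≤ m) (W : Submodule F (Fin m ⊕ Fin m → F)) (hWk : Module.finrank F W = k) (hW : ∀ u ∈ W, ∀ v ∈ W, Cfsg.sympForm m F u v = 0) : Nat.card ↥(Cfsg.stabilizing (Cfsg.spToMat m F) (W : Set (Fin m ⊕ Fin m → F))) = q ^ (k * (k + 1) / 2 + 2 * k * (m - k)) * (q ^ ((m - k) ^ 2) * ∏ i ∈ Finset.range (m - k), (q ^ (2 * (i + 1)) - 1)) * ∏ i : Fin k, (q ^ k - q ^ (i : ℕ)) := by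
  classical
  open CfsgLib.SpPar in
  let b : Module.Basis (Fin k) F W := (Module.finBasisOfFinrankEq F W hWk)
  let e : CfsgLib.SpPar.Frame F m k :=
    ⟨fun i => (b i : Fin m ⊕ Fin m → F), b.linearIndependent.map' W.subtype W.ker_subtype,
      fun i j => hW _ (b i).2 _ (b j).2⟩
  have hcard : Nat.card {v : CfsgLib.SpPar.Frame F m k // ∀ i, v.1 i ∈ W} =
      ∏ i : Fin k, (q ^ k - q ^ (i : ℕ)) := by
    let ee : {v : CfsgLib.SpPar.Frame F m k // ∀ i, v.1 i ∈ W} ≃ {s : Fin k → W // LinearIndependent F s} :=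
      { toFun := fun v => ⟨fun i => ⟨v.1.1 i, v.2 i⟩, LinearIndependent.of_comp W.subtype v.1.2.1⟩
        invFun := fun s => ⟨⟨fun i => (s.1 i : Fin m ⊕ Fin m → F), s.2.map' W.subtype W.ker_subtype,
          fun i j => hW _ (s.1 i).2 _ (s.1 j).2⟩, fun i => (s.1 i).2⟩
        left_inv := fun v => rfl
        right_inv := fun s => rfl }
    rw [Nat.card_congr ee, card_linearIndependent hWk.ge, hWk]
    simp [hF]
  have hmem : ∀ g : Matrix.symplecticGroup (Fin m) F,
      g ∈ Cfsg.stabilizing (Cfsg.spToMat m F) (W : Set (Fin m ⊕ Fin m → F)) ↔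
        ∀ i, (CfsgLib.SpPar.move g e).1 i ∈ W := by
    intro g
    refine ⟨fun h i => (h _).mp (b i).2, fun h v => ?_⟩
    let L := Matrix.mulVecLin g.1
    have hle : W.map L ≤ W := by
      rintro _ ⟨x, hx, rfl⟩
      have hb := b.sum_repr ⟨x, hx⟩
      have hx' : x = ∑ i, b.repr ⟨x, hx⟩ i • (b i : Fin m ⊕ Fin m → F) := by
        have h2 := (congrArg Subtype.val hb).symm
        simp only [Submodule.coe_sum, Submodule.coe_smul] at h2
        exact h2
      rw [hx', map_sum]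
      exact Submodule.sum_mem _ fun i _ => by rw [map_smul]; exact W.smul_mem _ (h i)
    have hinj : Function.Injective L := CfsgLib.SpPar.mulVec_injective g
    have heq : W.map L = W := Submodule.eq_of_le_of_finrank_le hle
      (Submodule.equivMapOfInjective L hinj W).finrank_eq.le
    refine ⟨fun hv => hle ⟨v, hv, rfl⟩, fun hv => ?_⟩
    obtain ⟨x, hx, hxv⟩ : L v ∈ W.map L := by rw [heq]; exact hv
    rwa [← hinj hxv]
  show Nat.card {g // g ∈ Cfsg.stabilizing (Cfsg.spToMat m F) (W : Set (Fin m ⊕ Fin m → F))} = _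
  rw [Nat.card_congr (Equiv.subtypeEquivRight hmem),
    CfsgLib.SpPar.card_move_mem e (fun v => ∀ i, v.1 i ∈ W), hcard, CfsgLib.SpPar.card_fixer q hF hk e]
  ring

end Cfsg.Agent.S0775
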