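import Cfsg.Statements.S0776
import Cfsg.Agent.Lib.ClassicalStabProd
import Cfsg.Agent.Lib.ClassicalSpStd
import Cfsg.Agent.Lib.ClassicalAlt

set_option autoImplicit false
open Cfsg

namespace Cfsg.Agent.S0776

open CfsgLib.StabProd CfsgLib.Classical Module Matrix

/-- If W ≤ F^(2m) is a 2k-dimensional subspace on which the symplectic form is non-degenerate, then the stabiliser of W in Sp_2m(F) is isomorphic to Sp_2k(F) × Sp_(2m−2k)(F). -/
theorem result {F : Type*} [Field F] (m k : ℕ) (hk : k ≤ m) (W : Submodule F (Fin m ⊕ Fin m → F)) (hWk : Module.finrank F W = 2 * k) (hW : ∀ u ∈ W, (∀ v ∈ W, Cfsg.sympForm m F u v = 0) → u = 0) : Nonempty (↥(Cfsg.stabilizing (Cfsg.spToMat m F) (W : Set (Fin m ⊕ Fin m → F))) ≃* Matrix.symplecticGroup (Fin k) F × Matrix.symplecticGroup (Fin (m - k)) F) := by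
  classical
  have hsf := isSymplecticForm_sympForm (F := F) (m := m)
  set B := toBil hsf.bilinear with hBdef
  have hB : ∀ u v, B u v = Cfsg.sympForm m F u v := fun u v => rfl
  have hA : B.IsAlt := toBil_isAlt hsf
  have hneg : ∀ x y, B y x = -B x y := fun x y => (alt_neg hA x y).symm
  have hNd : NondegOn B W := fun w hw hw0 => by
    by_contra h
    push_neg at h
    exact hw0 (hW w hw fun v hv => by rw [← hB, hneg, h v hv, neg_zero])
  obtain ⟨k', b, hb, hk'⟩ := exists_hypBasis hA W hNd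
  obtain rfl : k = k' := by omega
  let P : Submodule F (Fin m ⊕ Fin m → F) := ⨅ w : W, LinearMap.ker (B (w : Fin m ⊕ Fin m → F))
  have hP : ∀ v, v ∈ P ↔ ∀ w ∈ W, B w v = 0 := fun v => by simp [P, Submodule.mem_iInf]
  have hc : IsCompl W P := by
    refine ⟨?_, codisjoint_iff.2 (eq_top_iff.2 fun v _ => ?_)⟩
    · rw [Submodule.disjoint_def]
      exact fun v hv hvP => hW v hv fun w hw => by rw [← hB, hneg, (hP v).1 hvP w hw, neg_zero]
    · obtain ⟨w, hw, h⟩ := exists_decomp hNd v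
      rw [← add_sub_cancel w v]
      exact Submodule.add_mem_sup hw ((hP _).2 h)
  have hPNd : NondegOn B P := fun u hu hu0 => by
    obtain ⟨y, -, hy⟩ := nondegOn_top hsf u Submodule.mem_top hu0
    obtain ⟨a, ha, c, hc', rfl⟩ := Submodule.mem_sup.1 (show y ∈ W ⊔ P by rw [hc.sup_eq_top]; exact Submodule.mem_top)
    exact ⟨c, hc', by rwa [← hBdef, map_add, LinearMap.add_apply, (hP u).1 hu a ha, zero_add] at hy⟩
  obtain ⟨l, b', hb', hl⟩ := exists_hypBasis hA P hPNd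
  have hPk : l = m - k := by
    have h := Submodule.finrank_add_eq_of_isCompl hc
    rw [hWk, ← hl, Module.finrank_fintype_fun_eq_card, Fintype.card_sum, Fintype.card_fin] at h
    omega
  subst hPk
  let s₁ : Fin k ⊕ Fin k ≃ Fin k ⊕ Fin k := Equiv.sumComm _ _
  let s₂ : Fin (m - k) ⊕ Fin (m - k) ≃ Fin (m - k) ⊕ Fin (m - k) := Equiv.sumComm _ _
  let E₁ : (Fin k ⊕ Fin k → F) ≃ₗ[F] W := (b.reindex s₁).equivFun.symm
  let E₂ : (Fin (m - k) ⊕ Fin (m - k) → F) ≃ₗ[F] P := (b'.reindex s₂).equivFun.symm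
  let Φ : ((Fin k ⊕ Fin k → F) × (Fin (m - k) ⊕ Fin (m - k) → F)) ≃ₗ[F] (Fin m ⊕ Fin m → F) :=
    (E₁.prodCongr E₂).trans (Submodule.prodEquivOfIsCompl W P hc)
  have hΦ : ∀ u v, Φ (u, v) = (E₁ u : Fin m ⊕ Fin m → F) + (E₂ v : Fin m ⊕ Fin m → F) := fun u v => by simp [Φ]
  have bee : ∀ i j, B (b (Sum.inl i) : Fin m ⊕ Fin m → F) (b (Sum.inl j) : Fin m ⊕ Fin m → F) = 0 := hb.ee
  have bhh : ∀ i j, B (b (Sum.inr i) : Fin m ⊕ Fin m → F) (b (Sum.inr j) : Fin m ⊕ Fin m → F) = 0 := hb.hh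
  have beh : ∀ i j, B (b (Sum.inl i) : Fin m ⊕ Fin m → F) (b (Sum.inr j) : Fin m ⊕ Fin m → F) = if i = j then 1 else 0 := hb.eh
  have bhe : ∀ i j, B (b (Sum.inr i) : Fin m ⊕ Fin m → F) (b (Sum.inl j) : Fin m ⊕ Fin m → F) = -(if j = i then 1 else 0) := fun i j => by rw [hneg, beh]
  have bee' : ∀ i j, B (b' (Sum.inl i) : Fin m ⊕ Fin m → F) (b' (Sum.inl j) : Fin m ⊕ Fin m → F) = 0 := hb'.ee
  have bhh' : ∀ i j, B (b' (Sum.inr i) : Fin m ⊕ Fin m → F) (b' (Sum.inr j) : Fin m ⊕ Fin m → F) = 0 := hb'.hh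
  have beh' : ∀ i j, B (b' (Sum.inl i) : Fin m ⊕ Fin m → F) (b' (Sum.inr j) : Fin m ⊕ Fin m → F) = if i = j then 1 else 0 := hb'.eh
  have bhe' : ∀ i j, B (b' (Sum.inr i) : Fin m ⊕ Fin m → F) (b' (Sum.inl j) : Fin m ⊕ Fin m → F) = -(if j = i then 1 else 0) := fun i j => by rw [hneg, beh']
  have calc1 : ∀ u u', Cfsg.sympForm m F (E₁ u : Fin m ⊕ Fin m → F) (E₁ u' : Fin m ⊕ Fin m → F) = Cfsg.sympForm k F u u' := by
    have hE : ∀ i, (E₁ (Pi.single i 1) : Fin m ⊕ Fin m → F) = (b (Sum.swap i) : Fin m ⊕ Fin m → F) := fun i => by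
      simp [E₁, s₁]
    have h : LinearMap.compl₁₂ B (Submodule.subtype _ ∘ₗ E₁.toLinearMap) (Submodule.subtype _ ∘ₗ E₁.toLinearMap) =
        toBil (isSymplecticForm_sympForm (F := F) (m := k)).bilinear := by
      refine LinearMap.ext_basis (Pi.basisFun F _) (Pi.basisFun F _) fun i j => ?_
      show B (E₁ (Pi.basisFun F _ i) : Fin m ⊕ Fin m → F) (E₁ (Pi.basisFun F _ j) : Fin m ⊕ Fin m → F) =
        Cfsg.sympForm k F (Pi.basisFun F _ i) (Pi.basisFun F _ j)
      rw [Pi.basisFun_apply, Pi.basisFun_apply, hE, hE, sympForm_apply]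
      rcases i with i | i <;> rcases j with j | j
      · rw [Sum.swap_inl, Sum.swap_inl, bhh]; simp
      · rw [Sum.swap_inl, Sum.swap_inr, bhe]; simp [Pi.single_apply, eq_comm]
      · rw [Sum.swap_inr, Sum.swap_inl, beh]; simp [Pi.single_apply, eq_comm]
      · rw [Sum.swap_inr, Sum.swap_inr, bee]; simp
    exact fun u u' => LinearMap.congr_fun₂ h u u'
  have calc2 : ∀ u u', Cfsg.sympForm m F (E₂ u : Fin m ⊕ Fin m → F) (E₂ u' : Fin m ⊕ Fin m → F) = Cfsg.sympForm (m - k) F u u' := by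
    have hE : ∀ i, (E₂ (Pi.single i 1) : Fin m ⊕ Fin m → F) = (b' (Sum.swap i) : Fin m ⊕ Fin m → F) := fun i => by
      simp [E₂, s₂]
    have h : LinearMap.compl₁₂ B (Submodule.subtype _ ∘ₗ E₂.toLinearMap) (Submodule.subtype _ ∘ₗ E₂.toLinearMap) =
        toBil (isSymplecticForm_sympForm (F := F) (m := (m - k))).bilinear := by
      refine LinearMap.ext_basis (Pi.basisFun F _) (Pi.basisFun F _) fun i j => ?_
      show B (E₂ (Pi.basisFun F _ i) : Fin m ⊕ Fin m → F) (E₂ (Pi.basisFun F _ j) : Fin m ⊕ Fin m → F) =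
        Cfsg.sympForm (m - k) F (Pi.basisFun F _ i) (Pi.basisFun F _ j)
      rw [Pi.basisFun_apply, Pi.basisFun_apply, hE, hE, sympForm_apply]
      rcases i with i | i <;> rcases j with j | j
      · rw [Sum.swap_inl, Sum.swap_inl, bhh']; simp
      · rw [Sum.swap_inl, Sum.swap_inr, bhe']; simp [Pi.single_apply, eq_comm]
      · rw [Sum.swap_inr, Sum.swap_inl, beh']; simp [Pi.single_apply, eq_comm]
      · rw [Sum.swap_inr, Sum.swap_inr, bee']; simp
    exact fun u u' => LinearMap.congr_fun₂ h u u'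
  have hcr : ∀ (w : W) (p : P), B (w : Fin m ⊕ Fin m → F) (p : Fin m ⊕ Fin m → F) = 0 ∧ B (p : Fin m ⊕ Fin m → F) (w : Fin m ⊕ Fin m → F) = 0 := fun w p => by
    have h := (hP _).1 p.2 w w.2
    exact ⟨h, by rw [hneg, h, neg_zero]⟩
  have h0 : ∀ (j : ℕ) (u : Fin j ⊕ Fin j → F), Cfsg.sympForm j F 0 u = 0 ∧ Cfsg.sympForm j F u 0 = 0 := fun j u => by
    simp [sympForm_apply]
  obtain ⟨e⟩ := stab_equiv (Cfsg.sympForm m F) (Cfsg.sympForm k F) (Cfsg.sympForm (m - k) F) Φ (by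
      intro u v u' v'
      rw [hΦ, hΦ, ← calc1, ← calc2, ← hB, ← hB, ← hB]
      simp only [map_add, LinearMap.add_apply, (hcr _ _).1, (hcr _ _).2]
      ring) (h0 k) (h0 (m - k)) (fun u h => by
      by_contra hu
      obtain ⟨y, hy⟩ := ((isSymplecticForm_sympForm (F := F) (m := k)).nondegenerate u hu).2
      first
        | exact hy (h y)
        | exact hy (((isSymplecticForm_sympForm (F := F) (m := k)).skew y u).trans (by rw [h y, neg_zero]))) W (by
      intro u v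
      rw [hΦ, W.add_mem_iff_right (E₁ u).2]
      refine ⟨fun h => ?_, fun h => by rw [h]; simp⟩
      exact E₂.map_eq_zero_iff.1 (Subtype.ext (Submodule.disjoint_def.1 hc.disjoint _ h (E₂ v).2)))
  let θ := spToGL m F
  have e' : ↥(Cfsg.stabilizing (Cfsg.spToMat m F) (W : Set (Fin m ⊕ Fin m → F))) ≃*
      ↥((Cfsg.stabilizing (Units.coeHom (Matrix (Fin m ⊕ Fin m) (Fin m ⊕ Fin m) F)) (W : Set (Fin m ⊕ Fin m → F))).subgroupOf
        (Cfsg.spGL m F)) :=
    { toFun := fun x => ⟨θ x.1, x.2⟩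
      invFun := fun y => ⟨θ.symm y.1, y.2⟩
      left_inv := fun x => Subtype.ext (θ.symm_apply_apply x.1)
      right_inv := fun y => Subtype.ext (θ.apply_symm_apply y.1)
      map_mul' := fun x y => Subtype.ext (map_mul θ x.1 y.1) }
  exact ⟨(e'.trans e).trans ((spToGL k F).symm.prodCongr (spToGL (m - k) F).symm)⟩

end Cfsg.Agent.S0776
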