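import Cfsg.Statements.S0777
import Cfsg.Agent.Lib.ClassicalSpStd
import Cfsg.Agent.Lib.ClassicalSymp

set_option autoImplicit false
open Cfsg

namespace Cfsg.Agent.S0777

namespace CfsgS0777

open Matrix CfsgLib.Classical

variable {F : Type*} [Field F] {m : ℕ}

local notation "II" => Fin m ⊕ Fin m
local notation "VV" => Fin m ⊕ Fin m → F

lemma form_single (a b : II) :
    Cfsg.sympForm m F (Pi.single a 1) (Pi.single b 1) = Matrix.J (Fin m) F a b := by
  simp [Cfsg.sympForm, single_dotProduct, mulVec_single]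

lemma J_ne (a b : II) : Matrix.J (Fin m) F a b ≠ 0 ↔ b = a.swap := by
  rcases a with i | i <;> rcases b with j | j <;> simp [Matrix.J, Matrix.one_apply, eq_comm]

/-- where a basis vector goes -/
def tgt (p : Equiv.Perm (Fin m) × (Fin m → Bool)) (i : Fin m) : II :=
  if p.2 i then Sum.inr (p.1 i) else Sum.inl (p.1 i)

/-- the induced map of indices -/
def sig (p : Equiv.Perm (Fin m) × (Fin m → Bool)) : II → II :=
  Sum.elim (fun i => tgt p i) (fun i => (tgt p i).swap)

lemma sig_swap (p : Equiv.Perm (Fin m) × (Fin m → Bool)) (a : II) : sig p a.swap = (sig p a).swap := by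
  rcases a with i | i <;> simp [sig]

lemma sig_injective (p : Equiv.Perm (Fin m) × (Fin m → Bool)) : Function.Injective (sig p) := by
  rintro (i | i) (j | j) h
  all_goals
    simp only [sig, Sum.elim_inl, Sum.elim_inr, tgt] at h
    split_ifs at h <;> simp_all

/-- the coefficients -/
def cof (p : Equiv.Perm (Fin m) × (Fin m → Bool)) (c : Fin m → Fˣ) : II → F :=
  Sum.elim (fun i => (c i : F)) (fun i =>
    Matrix.J (Fin m) F (Sum.inl i) (Sum.inr i) /
      ((c i : F) * Matrix.J (Fin m) F (tgt p i) (tgt p i).swap))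

lemma cof_rel (p : Equiv.Perm (Fin m) × (Fin m → Bool)) (c : Fin m → Fˣ) (a : II) :
    cof p c a * cof p c a.swap * Matrix.J (Fin m) F (sig p a) (sig p a).swap =
      Matrix.J (Fin m) F a a.swap := by
  have hanti : ∀ x : II, Matrix.J (Fin m) F x.swap x = - Matrix.J (Fin m) F x x.swap := by
    rintro (i | i) <;> simp [Matrix.J]
  rcases a with i | i
  · have h : Matrix.J (Fin m) F (tgt p i) (tgt p i).swap ≠ 0 := (J_ne _ _).mpr rfl
    have hc : (c i : F) ≠ 0 := (c i).ne_zero
    simp only [cof, sig, Sum.swap_inl, Sum.elim_inl, Sum.elim_inr]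
    field_simp
  · have h : Matrix.J (Fin m) F (tgt p i) (tgt p i).swap ≠ 0 := (J_ne _ _).mpr rfl
    have hc : (c i : F) ≠ 0 := (c i).ne_zero
    simp only [cof, sig, Sum.swap_inr, Sum.elim_inl, Sum.elim_inr, Sum.swap_swap, hanti]
    rw [show Matrix.J (Fin m) F (Sum.inr i) (Sum.inl i) = - Matrix.J (Fin m) F (Sum.inl i) (Sum.inr i) from
      hanti (Sum.inl i)]
    field_simp

/-- the signed monomial matrix -/
def mono (p : Equiv.Perm (Fin m) × (Fin m → Bool)) (c : Fin m → Fˣ) : Matrix II II F :=
  Matrix.of fun x a => if x = sig p a then cof p c a else 0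

lemma mono_single (p : Equiv.Perm (Fin m) × (Fin m → Bool)) (c : Fin m → Fˣ) (a : II) :
    mono p c *ᵥ Pi.single a 1 = cof p c a • Pi.single (sig p a) 1 := by
  funext x
  simp [mono, mulVec_single, Pi.single_apply]

lemma mono_mem (p : Equiv.Perm (Fin m) × (Fin m → Bool)) (c : Fin m → Fˣ) :
    mono p c ∈ Matrix.symplecticGroup (Fin m) F := by
  rw [mem_symplecticGroup_iff]
  let B := toBil (isSymplecticForm_sympForm (F := F) (m := m)).bilinear
  have h : B.compl₁₂ (Matrix.mulVecLin (mono p c)) (Matrix.mulVecLin (mono p c)) = B := by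
    refine LinearMap.ext_basis (Pi.basisFun F II) (Pi.basisFun F II) fun a b => ?_
    simp only [Pi.basisFun_apply, LinearMap.compl₁₂_apply, Matrix.mulVecLin_apply]
    rw [mono_single, mono_single, map_smul, map_smul, LinearMap.smul_apply, smul_eq_mul, smul_eq_mul]
    show _ * (_ * Cfsg.sympForm m F _ _) = Cfsg.sympForm m F _ _
    rw [form_single, form_single]
    by_cases hb : b = a.swap
    · subst hb
      rw [sig_swap, ← cof_rel p c a]
      ring
    · rw [not_not.mp (fun h => hb ((J_ne a b).mp h)),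
        not_not.mp (fun h => hb (sig_injective p (((J_ne _ _).mp h).trans (sig_swap p a).symm)))]
      ring
  exact fun u v => LinearMap.congr_fun (LinearMap.congr_fun h u) v

/-- as a group element -/
def monoEl (p : (Equiv.Perm (Fin m) × (Fin m → Bool)) × (Fin m → Fˣ)) :
    Matrix.symplecticGroup (Fin m) F := ⟨mono p.1 p.2, mono_mem p.1 p.2⟩

lemma mem_axes {t : Matrix.symplecticGroup (Fin m) F} :
    t ∈ (⨅ i : II, Cfsg.stabilizing (Cfsg.spToMat m F)
      ((Submodule.span F {(Pi.single i (1 : F) : VV)} : Submodule F VV) : Set VV)) ↔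
      ∀ a : II, ∃ l : F, t.1 *ᵥ Pi.single a 1 = l • Pi.single a 1 := by
  simp only [Subgroup.mem_iInf]
  constructor
  · intro h a
    obtain ⟨l, hl⟩ := Submodule.mem_span_singleton.mp ((h a _).mp (Submodule.mem_span_singleton_self _))
    exact ⟨l, hl.symm⟩
  · intro h a v
    obtain ⟨l, hl⟩ := h a
    have hl0 : l ≠ 0 := fun h0 => by
      have e : (t⁻¹.1 * t.1) = 1 := congrArg Subtype.val (inv_mul_cancel t)
      have := congrArg (t⁻¹.1 *ᵥ ·) hl
      simp only [h0, zero_smul, mulVec_zero, mulVec_mulVec, e, one_mulVec] at this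
      simpa using congrFun this a
    show v ∈ Submodule.span F {(Pi.single a (1 : F) : VV)} ↔ t.1 *ᵥ v ∈ Submodule.span F {(Pi.single a (1 : F) : VV)}
    constructor
    · intro hv
      obtain ⟨s, rfl⟩ := Submodule.mem_span_singleton.mp hv
      rw [mulVec_smul, hl, smul_smul]
      exact Submodule.smul_mem _ _ (Submodule.mem_span_singleton_self _)
    · intro hv
      obtain ⟨s, hs⟩ := Submodule.mem_span_singleton.mp hv
      refine Submodule.mem_span_singleton.mpr ⟨s / l, ?_⟩
      have e : (t⁻¹.1 * t.1) = 1 := congrArg Subtype.val (inv_mul_cancel t)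
      have h' : t.1 *ᵥ ((s / l) • Pi.single a 1) = t.1 *ᵥ v := by
        rw [mulVec_smul, hl, smul_smul, div_mul_cancel₀ _ hl0, hs]
      simpa [mulVec_mulVec, e] using congrArg (t⁻¹.1 *ᵥ ·) h'

theorem norm_iff [Fintype F] (hq : 4 ≤ Fintype.card F) (g : Matrix.symplecticGroup (Fin m) F) :
    g ∈ Subgroup.normalizer ((⨅ i : II, Cfsg.stabilizing (Cfsg.spToMat m F)
      ((Submodule.span F {(Pi.single i (1 : F) : VV)} : Submodule F VV) : Set VV)) : Set (Matrix.symplecticGroup (Fin m) F)) ↔
      g ∈ Set.range (monoEl (F := F) (m := m)) := by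
  classical
  have einv : ∀ (x : Matrix.symplecticGroup (Fin m) F) (v : VV), x⁻¹.1 *ᵥ (x.1 *ᵥ v) = v := fun x v => by
    rw [mulVec_mulVec, show x⁻¹.1 * x.1 = 1 from congrArg Subtype.val (inv_mul_cancel x), one_mulVec]
  have einv' : ∀ (x : Matrix.symplecticGroup (Fin m) F) (v : VV), x.1 *ᵥ (x⁻¹.1 *ᵥ v) = v := fun x v => by
    rw [mulVec_mulVec, show x.1 * x⁻¹.1 = 1 from congrArg Subtype.val (mul_inv_cancel x), one_mulVec]
  have emul : ∀ (x y : Matrix.symplecticGroup (Fin m) F) (v : VV), (x * y).1 *ᵥ v = x.1 *ᵥ (y.1 *ᵥ v) :=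
    fun x y v => (mulVec_mulVec v x.1 y.1).symm
  rw [Set.iInf_eq_iInter, ← Subgroup.coe_iInf, Subgroup.mem_normalizer_iff]
  simp only [SetLike.mem_coe, mem_axes]
  constructor
  · intro hg
    have hax : ∀ a : II, ∃ b : II, ∀ x, x ≠ b → (g.1 *ᵥ Pi.single a 1) x = 0 := by
      intro a
      have hnz : g.1 *ᵥ Pi.single a 1 ≠ 0 := fun h0 => by
        have := einv g (Pi.single a 1)
        rw [h0, mulVec_zero] at this
        simpa using congrFun this a
      obtain ⟨b, hb⟩ := Function.ne_iff.mp hnz
      refine ⟨b, fun x hx => ?_⟩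
      by_contra hx0
      obtain ⟨s, hs1, hs2⟩ : ∃ s : Fˣ, (s : F) ≠ 1 ∧ (s : F) ≠ (s : F)⁻¹ := by
        have hcard : ({0, 1, -1} : Finset F).card < Fintype.card F :=
          (Finset.card_le_three).trans_lt (by omega)
        obtain ⟨s, hs⟩ : ∃ s, s ∉ ({0, 1, -1} : Finset F) := by
          by_contra! hall
          rw [Finset.eq_univ_iff_forall.mpr hall, Finset.card_univ] at hcard
          omega
        simp only [Finset.mem_insert, Finset.mem_singleton, not_or] at hs
        refine ⟨Units.mk0 s hs.1, hs.2.1, fun h => ?_⟩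
        have : s * s = 1 := by
          have h' : s = s⁻¹ := h
          conv_lhs => arg 2; rw [h']
          exact mul_inv_cancel₀ hs.1
        rcases mul_self_eq_one_iff.mp this with h' | h'
        · exact hs.2.1 h'
        · exact hs.2.2 h'
      have hidx : ∀ (y : II), ∃ i : Fin m, y = Sum.inl i ∨ y = Sum.inr i := by
        rintro (i | i)
        · exact ⟨i, Or.inl rfl⟩
        · exact ⟨i, Or.inr rfl⟩
      obtain ⟨i, hi⟩ := hidx b
      let c : Fin m → Fˣ := Function.update 1 i s
      let t : Matrix.symplecticGroup (Fin m) F := monoEl ((1, fun _ => false), c)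
      have ht : ∀ y, t.1 *ᵥ Pi.single y 1 = cof (1, fun _ => false) c y • Pi.single y 1 := fun y => by
        show mono _ c *ᵥ _ = _
        rw [mono_single]
        rcases y with j | j <;> simp [sig, tgt]
      have ht' : ∀ (v : VV) (y : II), (t.1 *ᵥ v) y = cof (1, fun _ => false) c y * v y := fun v y => by
        show (mono _ c *ᵥ v) y = _
        simp only [mono, mulVec, dotProduct, of_apply]
        rw [Finset.sum_eq_single y (fun z _ hz => by
          rw [if_neg, zero_mul]
          intro h; apply hz; rcases z with j | j <;> simpa [sig, tgt] using h.symm) (fun h => absurd (Finset.mem_univ y) h)]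
        rw [if_pos (by rcases y with j | j <;> simp [sig, tgt])]
      have hT : ∀ a : II, ∃ l : F, (g⁻¹ * t * g).1 *ᵥ Pi.single a 1 = l • Pi.single a 1 := by
        refine (hg _).mpr ?_
        intro y
        rw [show g * (g⁻¹ * t * g) * g⁻¹ = t by group]
        exact ⟨_, ht y⟩
      obtain ⟨l, hl⟩ := hT a
      have hkey : t.1 *ᵥ (g.1 *ᵥ Pi.single a 1) = l • (g.1 *ᵥ Pi.single a 1) := by
        rw [← mulVec_smul, ← hl, ← emul, ← emul]
        congr 2
        group
      have k1 := congrFun hkey b
      have k2 := congrFun hkey x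
      rw [ht', Pi.smul_apply, smul_eq_mul] at k1 k2
      have hlb := mul_right_cancel₀ hb k1
      have hlx := mul_right_cancel₀ hx0 k2
      have hne : cof (1, fun _ => false) c b ≠ cof (1, fun _ => false) c x := by
        have hsJ : ∀ j : Fin m, cof (1, fun _ => false) c (Sum.inr j) = (c j : F)⁻¹ := fun j => by
          simp [cof, tgt, Matrix.J]
        have hsl : ∀ j : Fin m, cof (1, fun _ => false) c (Sum.inl j) = (c j : F) := fun j => rfl
        have hci : (c i : F) = s := by simp [c]
        have hcj : ∀ j, j ≠ i → (c j : F) = 1 := fun j hj => by simp [c, hj]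
        have hs1' : (s : F)⁻¹ ≠ 1 := fun h => hs1 (inv_eq_one.mp h)
        obtain ⟨j, hj⟩ := hidx x
        by_cases hji : j = i
        · subst hji
          rcases hi with rfl | rfl <;> rcases hj with rfl | rfl
          · exact absurd rfl hx
          · rw [hsl, hsJ, hci]; exact hs2
          · rw [hsl, hsJ, hci]; exact hs2.symm
          · exact absurd rfl hx
        · rcases hi with rfl | rfl <;> rcases hj with rfl | rfl <;>
            simp [hsl, hsJ, hci, hcj j hji, hs1, hs1']
      exact hne (hlb.trans hlx.symm)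
    choose σ hσ using hax
    have hcol : ∀ a, g.1 *ᵥ Pi.single a 1 = (g.1 (σ a) a) • Pi.single (σ a) 1 := fun a => by
      funext x
      by_cases hx : x = σ a
      · subst hx; simp [mulVec_single]
      · rw [hσ a x hx]; simp [hx]
    have hd0 : ∀ a, g.1 (σ a) a ≠ 0 := fun a h0 => by
      have := einv g (Pi.single a 1)
      rw [hcol, h0, zero_smul, mulVec_zero] at this
      simpa using congrFun this a
    have hrel : ∀ a b, g.1 (σ a) a * g.1 (σ b) b * Matrix.J (Fin m) F (σ a) (σ b) = Matrix.J (Fin m) F a b := by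
      intro a b
      have h := mem_symplecticGroup_iff.1 g.2 (Pi.single a 1) (Pi.single b 1)
      rw [hcol, hcol, form_single, isSymplecticForm_sympForm.bilinear.smul_left,
        isSymplecticForm_sympForm.bilinear.smul_right, form_single] at h
      linear_combination h
    have hswap : ∀ a : II, σ a.swap = (σ a).swap := fun a => (J_ne _ _).mp fun h0 => by
      have := hrel a a.swap
      rw [h0, mul_zero] at this
      exact (J_ne a a.swap).mpr rfl this.symm
    have hinj : Function.Injective σ := by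
      intro a b hab
      by_contra hne
      have h1 := hrel a a.swap
      have h2 := hrel b a.swap
      rw [hab] at h1
      have h3 : Matrix.J (Fin m) F b a.swap = 0 :=
        not_not.mp fun h => hne (Sum.swap_leftInverse.injective ((J_ne _ _).mp h))
      rw [h3] at h2
      rcases mul_eq_zero.mp h2 with h | h
      · rcases mul_eq_zero.mp h with h | h
        · exact hd0 _ h
        · exact hd0 _ h
      · rw [h, mul_zero] at h1; exact (J_ne a a.swap).mpr rfl h1.symm
    let π₀ : Fin m → Fin m := fun i => Sum.elim id id (σ (Sum.inl i))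
    have hπ : Function.Injective π₀ := by
      intro i j h
      simp only [π₀] at h
      rcases hi : σ (Sum.inl i) with x | x <;> rcases hj : σ (Sum.inl j) with y | y <;>
        rw [hi, hj] at h <;> simp only [Sum.elim_inl, Sum.elim_inr, id] at h <;> subst h
      · exact Sum.inl_injective (hinj (hi.trans hj.symm))
      · have := hswap (Sum.inl i)
        rw [hi, Sum.swap_inl, Sum.swap_inl, ← hj] at this
        exact absurd (hinj this) Sum.inr_ne_inl
      · have := hswap (Sum.inl i)
        rw [hi, Sum.swap_inl, Sum.swap_inr, ← hj] at this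
        exact absurd (hinj this) Sum.inr_ne_inl
      · exact Sum.inl_injective (hinj (hi.trans hj.symm))
    let p : Equiv.Perm (Fin m) × (Fin m → Bool) :=
      (Equiv.ofBijective π₀ (Finite.injective_iff_bijective.mp hπ), fun i => (σ (Sum.inl i)).isRight)
    let c : Fin m → Fˣ := fun i => Units.mk0 (g.1 (σ (Sum.inl i)) (Sum.inl i)) (hd0 _)
    have hsig : ∀ a, sig p a = σ a := by
      have hl : ∀ i, tgt p i = σ (Sum.inl i) := fun i => by
        show (if (σ (Sum.inl i)).isRight then Sum.inr (π₀ i) else Sum.inl (π₀ i)) = σ (Sum.inl i)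
        simp only [π₀]
        rcases σ (Sum.inl i) with x | x <;> simp
      rintro (i | i)
      · exact hl i
      · show (tgt p i).swap = _
        rw [hl, ← hswap]; rfl
    refine ⟨(p, c), Subtype.ext (Matrix.ext_of_mulVec_single fun a => ?_)⟩
    show mono p c *ᵥ _ = g.1 *ᵥ _
    rw [mono_single, hcol, hsig]
    congr 1
    rcases a with i | i
    · rfl
    · have h1 := hrel (Sum.inl i) (Sum.inl i).swap
      have h2 := cof_rel p c (Sum.inl i)
      rw [hsig] at h2
      rw [hswap] at h1
      have hne : cof p c (Sum.inl i) * Matrix.J (Fin m) F (σ (Sum.inl i)) (σ (Sum.inl i)).swap ≠ 0 :=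
        mul_ne_zero (hd0 _) ((J_ne _ _).mpr rfl)
      refine mul_left_cancel₀ hne ?_
      have h3 : σ (Sum.inr i) = (σ (Sum.inl i)).swap := hswap (Sum.inl i)
      rw [h3]
      simp only [Sum.swap_inl] at h1 h2
      rw [show cof p c (Sum.inl i) = g.1 (σ (Sum.inl i)) (Sum.inl i) from rfl] at h2 ⊢
      linear_combination h2 - h1
  · rintro ⟨⟨p, c⟩, rfl⟩ x
    obtain ⟨σe, hσe⟩ : ∃ σe : II ≃ II, ∀ a, σe a = sig p a :=
      ⟨Equiv.ofBijective _ (Finite.injective_iff_bijective.mp (sig_injective p)), fun a => rfl⟩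
    have hM : ∀ a, (monoEl (p, c)).1 *ᵥ Pi.single a 1 = cof p c a • Pi.single (sig p a) 1 := mono_single p c
    have hc0 : ∀ a, cof p c a ≠ 0 := fun a h0 => by
      have := cof_rel p c a
      rw [h0, zero_mul, zero_mul] at this
      exact (J_ne a a.swap).mpr rfl this.symm
    have hMi : ∀ a, (monoEl (p, c))⁻¹.1 *ᵥ Pi.single (sig p a) 1 = (cof p c a)⁻¹ • Pi.single a 1 := fun a => by
      have h := congrArg ((monoEl (p, c))⁻¹.1 *ᵥ ·) (hM a)
      simp only [einv, mulVec_smul] at h
      rw [eq_inv_smul_iff₀ (hc0 a)]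
      exact h.symm
    constructor
    · intro hx y
      obtain ⟨a, rfl⟩ : ∃ a, sig p a = y := ⟨σe.symm y, by rw [← hσe, Equiv.apply_symm_apply]⟩
      obtain ⟨l, hl⟩ := hx a
      refine ⟨l, ?_⟩
      rw [emul, emul, hMi, mulVec_smul, hl, mulVec_smul, mulVec_smul, hM, smul_smul, smul_smul]
      congr 1
      field_simp [hc0 a]
    · intro hx a
      obtain ⟨l, hl⟩ := hx (sig p a)
      refine ⟨l, ?_⟩
      rw [emul, emul, hMi, mulVec_smul, mulVec_smul] at hl
      have h := congrArg ((monoEl (p, c))⁻¹.1 *ᵥ ·) hl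
      simp only [einv, mulVec_smul, hMi, smul_smul] at h
      have h' := congrArg (cof p c a • ·) h
      simp only [smul_smul, mul_inv_cancel₀ (hc0 a), one_smul] at h'
      rw [h']
      congr 1
      field_simp [hc0 a]

lemma monoEl_injective : Function.Injective (monoEl (F := F) (m := m)) := by
  rintro ⟨⟨π, ε⟩, c⟩ ⟨⟨π', ε'⟩, c'⟩ h
  have key : ∀ i, tgt (π, ε) i = tgt (π', ε') i ∧ c i = c' i := fun i => by
    have h1 : mono (π, ε) c *ᵥ Pi.single (Sum.inl i) (1 : F) = mono (π', ε') c' *ᵥ Pi.single (Sum.inl i) 1 :=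
      congrArg (fun g : Matrix.symplecticGroup (Fin m) F => g.1 *ᵥ Pi.single (Sum.inl i) (1 : F)) h
    rw [mono_single, mono_single] at h1
    have h2 := congrFun h1 (tgt (π, ε) i)
    simp only [cof, sig, Sum.elim_inl, Pi.smul_apply, Pi.single_eq_same, smul_eq_mul, mul_one] at h2
    by_cases ht : tgt (π, ε) i = tgt (π', ε') i
    · refine ⟨ht, Units.ext ?_⟩
      simpa [ht] using h2
    · simp [Pi.single_eq_of_ne ht, (c i).ne_zero] at h2
  have e1 : ∀ i, π i = π' i ∧ ε i = ε' i := fun i => by
    have := (key i).1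
    simp only [tgt] at this
    rcases hb : ε i <;> rcases hb' : ε' i <;> simp_all
  simp only [Prod.mk.injEq]
  exact ⟨⟨Equiv.ext fun i => (e1 i).1, funext fun i => (e1 i).2⟩, funext fun i => (key i).2⟩

end CfsgS0777

/-- Weyl group of type C_m: for q ≥ 4 the diagonal matrices of Sp_2m(q) form a torus T ≅ (C_(q−1))^m (the elements stabilising every coordinate axis), and the normaliser of T in Sp_2m(q) has order 2^m · m! · (q − 1)^m. -/
theorem result {F : Type*} [Field F] [Fintype F] {q : ℕ} (hF : Fintype.card F = q) (hq : 4 ≤ q) (m : ℕ) : Nat.card ↥(Subgroup.normalizer (⨅ i : Fin m ⊕ Fin m, Cfsg.stabilizing (Cfsg.spToMat m F) ((Submodule.span F {(Pi.single i (1 : F) : Fin m ⊕ Fin m → F)} : Submodule F (Fin m ⊕ Fin m → F)) : Set (Fin m ⊕ Fin m → F)) : Set (Matrix.symplecticGroup (Fin m) F))) = 2 ^ m * Nat.factorial m * (q - 1) ^ m := by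
  classical
  have h4 : 4 ≤ Fintype.card F := hF ▸ hq
  show Nat.card {g // g ∈ Subgroup.normalizer ((⨅ i : Fin m ⊕ Fin m, Cfsg.stabilizing (Cfsg.spToMat m F) ((Submodule.span F {(Pi.single i (1 : F) : Fin m ⊕ Fin m → F)} : Submodule F (Fin m ⊕ Fin m → F)) : Set (Fin m ⊕ Fin m → F))) : Set (Matrix.symplecticGroup (Fin m) F))} = _
  rw [Nat.card_congr (Equiv.subtypeEquivRight (CfsgS0777.norm_iff h4))]
  show Nat.card (Set.range (CfsgS0777.monoEl (F := F) (m := m))) = _
  rw [Nat.card_range_of_injective CfsgS0777.monoEl_injective, Nat.card_prod, Nat.card_prod, Nat.card_fun,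
    Nat.card_fun, Nat.card_perm, Nat.card_units]
  simp only [Nat.card_eq_fintype_card, Fintype.card_fin, Fintype.card_bool, hF]
  ring

end Cfsg.Agent.S0777
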