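import Cfsg.Statements.S0778
import Mathlib.LinearAlgebra.SymplecticGroup

set_option autoImplicit false
open Cfsg

namespace Cfsg.Agent.S0778

/-- The elements of Sp_2m(F) stabilising both W = ⟨e_1..e_m⟩ and U = ⟨f_1..f_m⟩ form a subgroup isomorphic to GL_m(F) (block-diagonal matrices diag(X, X^(−ᵀ)) up to the sign convention of J), for m ≥ 1 or m = 0 alike. -/
theorem result {F : Type*} [Field F] (m : ℕ) : Nonempty (↥(Cfsg.stabilizing (Cfsg.spToMat m F) {v : Fin m ⊕ Fin m → F | ∀ i : Fin m, v (Sum.inr i) = 0} ⊓ Cfsg.stabilizing (Cfsg.spToMat m F) {v : Fin m ⊕ Fin m → F | ∀ i : Fin m, v (Sum.inl i) = 0}) ≃* Matrix.GeneralLinearGroup (Fin m) F) := by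
  classical
  let φ : Matrix.GeneralLinearGroup (Fin m) F →* Matrix.symplecticGroup (Fin m) F :=
  { toFun := fun X => ⟨Matrix.fromBlocks (X : Matrix (Fin m) (Fin m) F) 0 0
      ((↑X⁻¹ : Matrix (Fin m) (Fin m) F)).transpose, by
      rw [SymplecticGroup.mem_iff]
      simp [Matrix.J, Matrix.fromBlocks_transpose, Matrix.fromBlocks_multiply, ← Matrix.transpose_mul]⟩
    map_one' := by
      refine Subtype.ext ?_
      simp [Matrix.fromBlocks_one]
    map_mul' := fun X Y => by
      refine Subtype.ext ?_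
      simp [Matrix.fromBlocks_multiply, Matrix.transpose_mul, Units.val_mul, mul_inv_rev] }
  have hφ : ∀ X, φ X ∈ Cfsg.stabilizing (Cfsg.spToMat m F) {v : Fin m ⊕ Fin m → F | ∀ i, v (Sum.inr i) = 0} ⊓
      Cfsg.stabilizing (Cfsg.spToMat m F) {v : Fin m ⊕ Fin m → F | ∀ i, v (Sum.inl i) = 0} := by
    intro X
    have key : ∀ (A : Matrix (Fin m) (Fin m) F) (B : Matrix (Fin m) (Fin m) F) (v : Fin m ⊕ Fin m → F),
        ((∀ i, v (Sum.inr i) = 0) → ∀ i, (Matrix.fromBlocks A 0 0 B).mulVec v (Sum.inr i) = 0) ∧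
        ((∀ i, v (Sum.inl i) = 0) → ∀ i, (Matrix.fromBlocks A 0 0 B).mulVec v (Sum.inl i) = 0) := by
      intro A B v
      refine ⟨fun h i => ?_, fun h i => ?_⟩ <;>
        simp [Matrix.mulVec, dotProduct, Fintype.sum_sum_type, h]
    constructor <;> intro v
    · refine ⟨(key _ _ v).1, fun h => ?_⟩
      have h' := (key (↑X⁻¹ : Matrix (Fin m) (Fin m) F) (X : Matrix (Fin m) (Fin m) F).transpose _).1 h
      simpa [φ, Matrix.mulVec_mulVec, Matrix.fromBlocks_multiply, ← Matrix.transpose_mul, Matrix.fromBlocks_one] using h'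
    · refine ⟨(key _ _ v).2, fun h => ?_⟩
      have h' := (key (↑X⁻¹ : Matrix (Fin m) (Fin m) F) (X : Matrix (Fin m) (Fin m) F).transpose _).2 h
      simpa [φ, Matrix.mulVec_mulVec, Matrix.fromBlocks_multiply, ← Matrix.transpose_mul, Matrix.fromBlocks_one] using h'
  refine ⟨(MulEquiv.ofBijective (φ.codRestrict _ hφ) ⟨fun X Y h => ?_, ?_⟩).symm⟩
  · have := congrArg (fun g => ((g : Matrix.symplecticGroup (Fin m) F) : Matrix (Fin m ⊕ Fin m) (Fin m ⊕ Fin m) F).toBlocks₁₁)
      (congrArg Subtype.val h)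
    exact Units.ext (by simpa [φ] using this)
  · rintro ⟨⟨A, hA⟩, h1, h2⟩
    have hC : A.toBlocks₂₁ = 0 := by
      ext i j
      have := (h1 (Pi.single (Sum.inl j) 1)).mp (fun i => Pi.single_eq_of_ne (by simp) _) i
      simpa [Matrix.toBlocks₂₁] using this
    have hB : A.toBlocks₁₂ = 0 := by
      ext i j
      have := (h2 (Pi.single (Sum.inr j) 1)).mp (fun i => Pi.single_eq_of_ne (by simp) _) i
      simpa [Matrix.toBlocks₁₂] using this
    have hA' := Matrix.fromBlocks_toBlocks A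
    rw [hB, hC] at hA'
    have hsym := SymplecticGroup.mem_iff.mp hA
    rw [← hA', Matrix.J, Matrix.fromBlocks_transpose, Matrix.fromBlocks_multiply, Matrix.fromBlocks_multiply,
      Matrix.fromBlocks_inj] at hsym
    have hDX : A.toBlocks₂₂ * A.toBlocks₁₁.transpose = 1 := by simpa using hsym.2.2.1
    have hXD : A.toBlocks₁₁ * A.toBlocks₂₂.transpose = 1 := by
      have := congrArg Matrix.transpose hDX
      rwa [Matrix.transpose_mul, Matrix.transpose_transpose, Matrix.transpose_one] at this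
    refine ⟨⟨A.toBlocks₁₁, A.toBlocks₂₂.transpose, hXD, mul_eq_one_comm.mp hXD⟩, Subtype.ext (Subtype.ext ?_)⟩
    show Matrix.fromBlocks A.toBlocks₁₁ 0 0 A.toBlocks₂₂.transpose.transpose = A
    rwa [Matrix.transpose_transpose]

end Cfsg.Agent.S0778
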