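import Cfsg.Statements.S0779
import Cfsg.Agent.Lib.ClassicalPSU

set_option autoImplicit false
open Cfsg

namespace Cfsg.Agent.S0779

/-- Unitary transvections: let |F| = q², h the standard Hermitian form Σ x_i y_i^q and v ≠ 0 with h(v, v) = 0. The linear map x ↦ x + c h(x, v) v is an isometry of h if and only if c = 0 or c^(q−1) = −1. -/
theorem result {F : Type*} [Field F] [Fintype F] {q : ℕ} (hF : Fintype.card F = q ^ 2) (n : ℕ) (v : Fin n → F) (hv : v ≠ 0) (hv0 : Cfsg.hermForm n F q v v = 0) (c : F) : (∀ x y : Fin n → F, Cfsg.hermForm n F q ((Cfsg.unitaryTransvection n q v c).mulVec x) ((Cfsg.unitaryTransvection n q v c).mulVec y) = Cfsg.hermForm n F q x y) ↔ (c = 0 ∨ c ^ (q - 1) = -1) := by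
  obtain ⟨σ, hσ, hf⟩ := CfsgLib.Classical.exists_isUnitaryForm_hermForm n q hF
  have hq := CfsgLib.Classical.two_le_q hF
  have hiff : σ c = -c ↔ (c = 0 ∨ c ^ (q - 1) = -1) := by
    rw [hσ]
    by_cases hc : c = 0
    · simp [hc, zero_pow (by omega : q ≠ 0)]
    · rw [show c ^ q = c ^ (q - 1) * c by rw [← pow_succ, Nat.sub_add_cancel (by omega)]]
      constructor
      · intro h; exact Or.inr (mul_right_cancel₀ hc (by rw [h, neg_one_mul]))
      · rintro (h | h)
        · exact absurd h hc
        · rw [h, neg_one_mul]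
  rw [← hiff]
  constructor
  · intro h
    refine CfsgLib.Classical.skew_of_utv_mem hf hv0 hv ?_
    intro x y
    change Cfsg.hermForm n F q (Matrix.mulVec (CfsgLib.Classical.utv (Cfsg.hermForm n F q) v c :
      Matrix (Fin n) (Fin n) F) x) (Matrix.mulVec (CfsgLib.Classical.utv (Cfsg.hermForm n F q) v c :
      Matrix (Fin n) (Fin n) F) y) = _
    rw [CfsgLib.Classical.coe_utv_hermForm hF hv0]
    exact h x y
  · intro h x y
    rw [← CfsgLib.Classical.coe_utv_hermForm hF hv0]
    exact CfsgLib.Classical.utv_preserves hf hv0 h x y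

end Cfsg.Agent.S0779
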