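import Cfsg.Statements.S0780
import Cfsg.Agent.Lib.ClassicalPSU

set_option autoImplicit false
open Cfsg

namespace Cfsg.Agent.S0780

/-- Generation of SU_n(q), n ≥ 3, (n, q) ≠ (3, 2), by unitary transvections: the subgroup generated by the elements whose matrix is x ↦ x + c h(x, v) v with v isotropic is all of SU_n(q). -/
theorem result {F : Type*} [Field F] [Fintype F] {q : ℕ} (hF : Fintype.card F = q ^ 2) (n : ℕ) (hn : 3 ≤ n) (h32 : ¬ (n = 3 ∧ q = 2)) : Subgroup.closure {A : ↥(Cfsg.SU n F q) | ∃ (v : Fin n → F) (c : F), Cfsg.hermForm n F q v v = 0 ∧ ((A : Matrix.SpecialLinearGroup (Fin n) F) : Matrix (Fin n) (Fin n) F) = Cfsg.unitaryTransvection n q v c} = ⊤ := by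
  obtain ⟨σ, hσ, hf⟩ := CfsgLib.Classical.exists_isUnitaryForm_hermForm n q hF
  rw [eq_top_iff]
  rintro A -
  have hmem : ((CfsgLib.Classical.suEquiv n F q A : Matrix.GeneralLinearGroup (Fin n) F)) ∈
      (Subgroup.closure {A : ↥(Cfsg.SU n F q) | ∃ (v : Fin n → F) (c : F),
        Cfsg.hermForm n F q v v = 0 ∧ ((A : Matrix.SpecialLinearGroup (Fin n) F) :
          Matrix (Fin n) (Fin n) F) = Cfsg.unitaryTransvection n q v c}).map
        ((CfsgLib.Classical.hSU (Cfsg.hermForm n F q)).subtype.comp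
          (CfsgLib.Classical.suEquiv n F q).toMonoidHom) := by
    refine CfsgLib.Classical.uGen_le (σ := σ) (fun u _ hu μ hμ => ?_)
      (CfsgLib.Classical.hSU_le_uGen hf (by simpa using hn)
        (CfsgLib.Classical.hq_hermForm hF hn h32 hσ) (CfsgLib.Classical.suEquiv n F q A).2)
    have he : (((CfsgLib.Classical.suEquiv n F q) ((CfsgLib.Classical.suEquiv n F q).symm
        ⟨_, CfsgLib.Classical.utv_mem_hSU hf hu hμ⟩) :
          Matrix.GeneralLinearGroup (Fin n) F)) = CfsgLib.Classical.utv (Cfsg.hermForm n F q) u μ := by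
      rw [MulEquiv.apply_symm_apply]
    refine ⟨_, Subgroup.subset_closure ⟨u, μ, hu, ?_⟩, he⟩
    rw [← CfsgLib.Classical.coe_suEquiv, he, CfsgLib.Classical.coe_utv_hermForm hF hu]
  obtain ⟨B, hB, hBA⟩ := hmem
  rwa [← (CfsgLib.Classical.suEquiv n F q).injective (Subtype.ext hBA)]

end Cfsg.Agent.S0780
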