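import Cfsg.Statements.S0781
import Cfsg.Agent.Lib.ClassicalPSU

set_option autoImplicit false
open Cfsg

namespace Cfsg.Agent.S0781

/-- In SU_n(q) with n ≥ 4, or n = 3 and q > 2, every element whose matrix is a unitary transvection x ↦ x + c h(x, v) v (v isotropic) is a commutator ⁅B, C⁆ of two elements of SU_n(q). -/
theorem result {F : Type*} [Field F] [Fintype F] {q : ℕ} (hF : Fintype.card F = q ^ 2) (n : ℕ) (hn : 4 ≤ n ∨ (n = 3 ∧ 3 ≤ q)) (A : ↥(Cfsg.SU n F q)) (v : Fin n → F) (c : F) (hv0 : Cfsg.hermForm n F q v v = 0) (hA : ((A : Matrix.SpecialLinearGroup (Fin n) F) : Matrix (Fin n) (Fin n) F) = Cfsg.unitaryTransvection n q v c) : A ∈ commutatorSet ↥(Cfsg.SU n F q) := by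
  obtain ⟨σ, hσ, hf⟩ := CfsgLib.Classical.exists_isUnitaryForm_hermForm n q hF
  have h3 : 3 ≤ Fintype.card (Fin n) := by rcases hn with h | ⟨h, -⟩ <;> simp <;> omega
  by_cases hv : v = 0
  · have : A = 1 := Subtype.ext (Subtype.ext (by rw [hA, hv]; simp [Cfsg.unitaryTransvection]))
    exact ⟨1, 1, by rw [this]; simp⟩
  have hval : ((CfsgLib.Classical.suEquiv n F q A : Matrix.GeneralLinearGroup (Fin n) F)) =
      CfsgLib.Classical.utv (Cfsg.hermForm n F q) v c := Units.ext (by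
    rw [CfsgLib.Classical.coe_suEquiv, hA, CfsgLib.Classical.coe_utv_hermForm hF hv0])
  have hI := (CfsgLib.Classical.suEquiv n F q A).2
  rw [hval] at hI
  obtain ⟨x, hx, y, hy, e⟩ := CfsgLib.Classical.utv_eq_commutator hf h3 hv0
    (CfsgLib.Classical.skew_of_utv_mem hf hv0 hv hI.1)
  refine ⟨(CfsgLib.Classical.suEquiv n F q).symm ⟨x, hx⟩,
    (CfsgLib.Classical.suEquiv n F q).symm ⟨y, hy⟩, ?_⟩
  rw [← map_commutatorElement, MulEquiv.symm_apply_eq]
  exact Subtype.ext (by rw [hval, e]; rfl)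

end Cfsg.Agent.S0781
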