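import Cfsg.Statements.S0782
import Cfsg.Agent.Lib.ClassicalGUParabolic

set_option autoImplicit false
open Cfsg

namespace Cfsg.Agent.S0782

/-- Maximal parabolics of SU_n(q): if W is a k-dimensional subspace of F^n (n ≥ 1, |F| = q²) on which the Hermitian form vanishes, then (q + 1) times the order of its stabiliser in SU_n(q) equals q^(k(2n−3k)) · |GL_k(q²)| · |GU_(n−2k)(q)|, where |GU_m(q)| = q^(m(m−1)/2) Π_(i=1..m) (q^i − (−1)^i). -/
theorem result {F : Type*} [Field F] [Fintype F] {q : ℕ} (hF : Fintype.card F = q ^ 2) (n k : ℕ) (hn : 1 ≤ n) (hk : 2 * k ≤ n) (W : Submodule F (Fin n → F)) (hWk : Module.finrank F W = k) (hW : ∀ u ∈ W, ∀ v ∈ W, Cfsg.hermForm n F q u v = 0) : (q + 1) * Nat.card ↥((Cfsg.stabilizing (Cfsg.slToMat n F) (W : Set (Fin n → F))).subgroupOf (Cfsg.SU n F q)) = q ^ (k * (2 * n - 3 * k)) * (∏ i : Fin k, ((q ^ 2) ^ k - (q ^ 2) ^ (i : ℕ))) * (q ^ ((n - 2 * k) * ((n - 2 * k) - 1) / 2) * ∏ i ∈ Finset.range (n - 2 * k), (if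 Even i then q ^ (i + 1) + 1 else q ^ (i + 1) - 1)) := by
  classical
  obtain ⟨σ, hσ, -, -⟩ := CfsgLib.Classical.Orders.exists_sigma hF
  let b : Module.Basis (Fin k) F W := Module.finBasisOfFinrankEq F W hWk
  let e : CfsgLib.GUPar.Frame F q n k :=
    ⟨fun i => (b i : Fin n → F), b.linearIndependent.map' W.subtype W.ker_subtype,
      fun i j => hW _ (b i).2 _ (b j).2⟩
  have hcard : Nat.card {v : CfsgLib.GUPar.Frame F q n k // ∀ i, v.1 i ∈ W} =
      ∏ i : Fin k, ((q ^ 2) ^ k - (q ^ 2) ^ (i : ℕ)) := by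
    let ee : {v : CfsgLib.GUPar.Frame F q n k // ∀ i, v.1 i ∈ W} ≃ {s : Fin k → W // LinearIndependent F s} :=
      { toFun := fun v => ⟨fun i => ⟨v.1.1 i, v.2 i⟩, LinearIndependent.of_comp W.subtype v.1.2.1⟩
        invFun := fun s => ⟨⟨fun i => (s.1 i : Fin n → F), s.2.map' W.subtype W.ker_subtype,
          fun i j => hW _ (s.1 i).2 _ (s.1 j).2⟩, fun i => (s.1 i).2⟩
        left_inv := fun v => rfl
        right_inv := fun s => rfl }
    rw [Nat.card_congr ee, card_linearIndependent hWk.ge, hWk]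
    simp [hF]
  have hmaps : ∀ g : Matrix.GeneralLinearGroup (Fin n) F,
      (∀ i, (g : Matrix (Fin n) (Fin n) F).mulVec (b i) ∈ W) ↔
        ∀ v, v ∈ (W : Set (Fin n → F)) ↔ (g : Matrix (Fin n) (Fin n) F).mulVec v ∈ (W : Set (Fin n → F)) := by
    intro g
    refine ⟨fun h => ?_, fun h i => (h _).mp (b i).2⟩
    let L := Matrix.mulVecLin (g : Matrix (Fin n) (Fin n) F)
    have hle : W.map L ≤ W := by
      rintro _ ⟨x, hx, rfl⟩
      have hb := b.sum_repr ⟨x, hx⟩
      have hx' : x = ∑ i, b.repr ⟨x, hx⟩ i • (b i : Fin n → F) := by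
        have h2 := (congrArg Subtype.val hb).symm
        simp only [Submodule.coe_sum, Submodule.coe_smul] at h2
        exact h2
      rw [hx', map_sum]
      exact Submodule.sum_mem _ fun i _ => by rw [map_smul]; exact W.smul_mem _ (h i)
    have hinj : Function.Injective L := CfsgLib.GUPar.mulVec_injective g
    have heq : W.map L = W := Submodule.eq_of_le_of_finrank_le hle
      (Submodule.equivMapOfInjective L hinj W).finrank_eq.le
    intro v
    refine ⟨fun hv => hle ⟨v, hv, rfl⟩, fun hv => ?_⟩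
    obtain ⟨x, hx, hxv⟩ : L v ∈ W.map L := by rw [heq]; exact hv
    rw [← hinj hxv]; exact hx
  let S : Subgroup (Cfsg.GU n F q) :=
    (Cfsg.stabilizing (Units.coeHom (Matrix (Fin n) (Fin n) F)) (W : Set (Fin n → F))).subgroupOf (Cfsg.GU n F q)
  have hmem : ∀ g : Cfsg.GU n F q, g ∈ S ↔ ∀ i, (CfsgLib.GUPar.move g e).1 i ∈ W := fun g =>
    (hmaps g.1).symm
  have hS : Nat.card S = (∏ i : Fin k, ((q ^ 2) ^ k - (q ^ 2) ^ (i : ℕ))) * Nat.card (CfsgLib.GUPar.fixer e) := by
    rw [← hcard, ← CfsgLib.GUPar.card_move_mem hF e (fun v => ∀ i, v.1 i ∈ W)]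
    exact Nat.card_congr (Equiv.subtypeEquivRight hmem)
  let d : S →* Fˣ := Matrix.GeneralLinearGroup.det.comp ((Cfsg.GU n F q).subtype.comp S.subtype)
  have hK : Nat.card (powMonoidHom (q + 1) : Fˣ →* Fˣ).ker = q + 1 := by
    rw [IsCyclic.card_powMonoidHom_ker, Nat.card_units, Nat.card_eq_fintype_card, hF,
      show q ^ 2 - 1 = (q + 1) * (q - 1) by rw [← Nat.sq_sub_sq, one_pow],
      Nat.gcd_eq_right (dvd_mul_right _ _)]
  have hrange : d.range = (powMonoidHom (q + 1) : Fˣ →* Fˣ).ker := by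
    refine le_antisymm ?_ fun u hu => ?_
    · rintro _ ⟨g, rfl⟩
      refine MonoidHom.mem_ker.mpr (Units.ext ?_)
      simpa [d, Matrix.GeneralLinearGroup.val_det_apply] using CfsgLib.Classical.Orders.det_pow_of_mem_GU hσ g.1.2
    · have hu' : (u : F) ^ (q + 1) = 1 := by simpa using congrArg Units.val (MonoidHom.mem_ker.mp hu)
      obtain ⟨g, hg, hgW, hdet⟩ := CfsgLib.GUPar.exists_det_element hF W hn hW hu'
      exact ⟨⟨⟨g, hg⟩, (hmaps g).mp fun i => hgW _ (b i).2⟩, Units.ext hdet⟩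
  have hker : Nat.card d.ker = Nat.card ↥((Cfsg.stabilizing (Cfsg.slToMat n F) (W : Set (Fin n → F))).subgroupOf (Cfsg.SU n F q)) := by
    refine Nat.card_congr
      { toFun := fun g => ⟨⟨⟨((g.1.1 : Cfsg.GU n F q) : Matrix.GeneralLinearGroup (Fin n) F), by
            simpa [d, Matrix.GeneralLinearGroup.val_det_apply] using congrArg Units.val (MonoidHom.mem_ker.mp g.2)⟩,
          g.1.1.2⟩, g.1.2⟩
        invFun := fun g => ⟨⟨⟨Matrix.SpecialLinearGroup.toGL g.1.1, g.1.2⟩, g.2⟩,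
          MonoidHom.mem_ker.mpr (Units.ext (by simp [d, Matrix.GeneralLinearGroup.val_det_apply]))⟩
        left_inv := fun g => by
          refine Subtype.ext (Subtype.ext (Subtype.ext (Units.ext ?_)))
          rfl
        right_inv := fun g => rfl }
  rw [← hker, ← hK, ← hrange, ← Subgroup.index_ker, Subgroup.index_mul_card, hS,
    CfsgLib.GUPar.card_fixer hF hk e]
  ring

end Cfsg.Agent.S0782
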