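import Cfsg.Statements.S0783
import Cfsg.Agent.Lib.ClassicalOrdersGU

set_option autoImplicit false
open Cfsg

namespace Cfsg.Agent.S0783

open Matrix in
lemma center_scalar {F : Type*} [Field F] [Fintype F] {q n : ℕ} (hF : Fintype.card F = q ^ 2)
    {z : Cfsg.GU n F q} (hz : z ∈ Subgroup.center ↥(Cfsg.GU n F q)) :
    ∃ c : F, ((z : GL (Fin n) F) : Matrix (Fin n) (Fin n) F) = Matrix.diagonal (fun _ => c) := by
  classical
  obtain ⟨σ, hσ, -, -⟩ := CfsgLib.Classical.Orders.exists_sigma hF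
  have hq := CfsgLib.Classical.two_le_q hF
  have hK : Nat.card (powMonoidHom (q + 1) : Fˣ →* Fˣ).ker = q + 1 := by
    rw [IsCyclic.card_powMonoidHom_ker, Nat.card_units, Nat.card_eq_fintype_card, hF,
      show q ^ 2 - 1 = (q + 1) * (q - 1) by rw [← Nat.sq_sub_sq, one_pow],
      Nat.gcd_eq_right (dvd_mul_right _ _)]
  haveI : Nontrivial (powMonoidHom (q + 1) : Fˣ →* Fˣ).ker :=
    Finite.one_lt_card_iff_nontrivial.mp (by omega)
  obtain ⟨l, hl⟩ := exists_ne (1 : (powMonoidHom (q + 1) : Fˣ →* Fˣ).ker)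
  have hl1 : ((l : Fˣ) : F) ^ (q + 1) = 1 := by
    simpa using congrArg Units.val (MonoidHom.mem_ker.mp l.2)
  have hlne : ((l : Fˣ) : F) ≠ 1 := fun h => hl (Subtype.ext (Units.ext h))
  obtain ⟨M, hM⟩ : ∃ M, M = ((z : GL (Fin n) F) : Matrix (Fin n) (Fin n) F) := ⟨_, rfl⟩
  have hcomm : ∀ (A : GL (Fin n) F), A ∈ Cfsg.GU n F q →
      (A : Matrix (Fin n) (Fin n) F) * M = M * (A : Matrix (Fin n) (Fin n) F) := fun A hA => by
    rw [hM]
    exact congrArg Units.val (congrArg Subtype.val (Subgroup.mem_center_iff.mp hz ⟨A, hA⟩))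
  have hoff : ∀ i j, i ≠ j → M i j = 0 := by
    intro i j hij
    have hdet : (diagonal (Function.update (fun _ => (1 : F)) i ((l : Fˣ) : F))).det ≠ 0 := by
      rw [det_diagonal]
      simp [Finset.prod_update_of_mem]
    have hmem : GeneralLinearGroup.mkOfDetNeZero _ hdet ∈ Cfsg.GU n F q := by
      rw [CfsgLib.Classical.Orders.mem_GU]
      intro u v
      simp only [GeneralLinearGroup.val_mkOfDetNeZero, Cfsg.hermForm, mulVec_diagonal]
      refine Finset.sum_congr rfl fun k _ => ?_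
      by_cases hk : k = i
      · subst hk
        rw [Function.update_self, mul_pow, show ∀ a b c e : F, a * b * (c * e) = a * c * (b * e) from
          fun a b c e => by ring, ← pow_succ', hl1, one_mul]
      · rw [Function.update_of_ne hk, one_mul, one_mul]
    have h := congrFun (congrFun (hcomm _ hmem) i) j
    simp only [GeneralLinearGroup.val_mkOfDetNeZero, diagonal_mul, mul_diagonal,
      Function.update_self, Function.update_of_ne (Ne.symm hij), mul_one] at h
    exact (mul_eq_zero.mp (show (((l : Fˣ) : F) - 1) * M i j = 0 by linear_combination h)).resolve_left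
      (sub_ne_zero.mpr hlne)
  by_cases hn : n = 0
  · subst hn; exact ⟨1, Matrix.ext fun i => i.elim0⟩
  refine ⟨M ⟨0, by omega⟩ ⟨0, by omega⟩, ?_⟩
  rw [← hM]
  ext i j
  by_cases hij : i = j
  · subst hij
    rw [diagonal_apply_eq]
    obtain ⟨i₀, hi₀⟩ : ∃ i₀ : Fin n, i₀ = ⟨0, by omega⟩ := ⟨_, rfl⟩
    rw [← hi₀]
    have hdet : ((Equiv.swap i i₀).permMatrix F).det ≠ 0 := by
      rw [Matrix.det_permutation]
      rcases Int.units_eq_one_or (Equiv.Perm.sign (Equiv.swap i i₀)) with h | h <;> simp [h]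
    have hmem : GeneralLinearGroup.mkOfDetNeZero _ hdet ∈ Cfsg.GU n F q := by
      rw [CfsgLib.Classical.Orders.mem_GU]
      intro u v
      simp only [GeneralLinearGroup.val_mkOfDetNeZero, Cfsg.hermForm, permMatrix_mulVec, Function.comp_apply]
      exact Equiv.sum_comp (Equiv.swap i i₀) fun k => u k * v k ^ q
    have h := congrFun (congrFun (hcomm _ hmem) i) i₀
    simp only [GeneralLinearGroup.val_mkOfDetNeZero, Equiv.Perm.permMatrix, PEquiv.toMatrix_toPEquiv_mul,
      PEquiv.mul_toMatrix_toPEquiv, submatrix_apply, id_eq, Equiv.symm_swap, Equiv.swap_apply_left,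
      Equiv.swap_apply_right] at h
    exact h.symm
  · rw [diagonal_apply_ne _ hij, hoff i j hij]

/-- PGU_n(q)/PSU_n(q) is cyclic of order (n, q+1): for n ≥ 2 and |F| = q² there is a surjective homomorphism from GU_n(q) onto the cyclic group of order gcd(n, q + 1) whose kernel is generated by the determinant-one elements together with the centre. -/
theorem result {F : Type*} [Field F] [Fintype F] {q : ℕ} (hF : Fintype.card F = q ^ 2) (n : ℕ) (hn : 2 ≤ n) : ∃ φ : ↥(Cfsg.GU n F q) →* Multiplicative (ZMod (Nat.gcd n (q + 1))), Function.Surjective φ ∧ φ.ker = (Matrix.GeneralLinearGroup.det : Matrix.GeneralLinearGroup (Fin n) F →* Fˣ).ker.subgroupOf (Cfsg.GU n F q) ⊔ Subgroup.center ↥(Cfsg.GU n F q) := by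
  classical
  obtain ⟨σ, hσ, -, -⟩ := CfsgLib.Classical.Orders.exists_sigma hF
  obtain ⟨μ, hμ⟩ : ∃ μ, μ = (powMonoidHom (q + 1) : Fˣ →* Fˣ).ker := ⟨_, rfl⟩
  have hK : Nat.card μ = q + 1 := by
    rw [hμ, IsCyclic.card_powMonoidHom_ker, Nat.card_units, Nat.card_eq_fintype_card, hF,
      show q ^ 2 - 1 = (q + 1) * (q - 1) by rw [← Nat.sq_sub_sq, one_pow],
      Nat.gcd_eq_right (dvd_mul_right _ _)]
  obtain ⟨d, hd⟩ : ∃ d, d = (Matrix.GeneralLinearGroup.det.comp (Cfsg.GU n F q).subtype :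
      ↥(Cfsg.GU n F q) →* Fˣ) := ⟨_, rfl⟩
  have hdmem : ∀ g, d g ∈ μ := fun g => by
    rw [hμ, hd]
    refine MonoidHom.mem_ker.mpr (Units.ext ?_)
    simpa [Matrix.GeneralLinearGroup.val_det_apply] using CfsgLib.Classical.Orders.det_pow_of_mem_GU hσ g.2
  obtain ⟨d', hd'⟩ : ∃ d' : ↥(Cfsg.GU n F q) →* μ, ∀ g, (d' g : Fˣ) = d g :=
    ⟨d.codRestrict μ hdmem, fun g => rfl⟩
  obtain ⟨ψ⟩ : Nonempty (μ ≃* Multiplicative (ZMod (q + 1))) :=
    ⟨(hK ▸ (zmodCyclicMulEquiv (inferInstance : IsCyclic μ)).symm)⟩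
  obtain ⟨π, hπ⟩ : ∃ π : Multiplicative (ZMod (q + 1)) →* Multiplicative (ZMod (Nat.gcd n (q + 1))),
      π = AddMonoidHom.toMultiplicative
        (ZMod.castHom (Nat.gcd_dvd_right n (q + 1)) (ZMod (Nat.gcd n (q + 1)))).toAddMonoidHom := ⟨_, rfl⟩
  -- the scalars of norm one
  have hscal : ∀ u : μ, ∃ z ∈ Subgroup.center ↥(Cfsg.GU n F q), d' z = u ^ n := by
    intro u
    have hu : ((u : Fˣ) : F) ^ (q + 1) = 1 := by
      simpa using congrArg Units.val (MonoidHom.mem_ker.mp (show (u : Fˣ) ∈ (powMonoidHom (q + 1) : Fˣ →* Fˣ).ker by rw [← hμ]; exact u.2))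
    obtain ⟨g, hg⟩ : ∃ g : GL (Fin n) F, g = Units.map (Matrix.scalar (Fin n)).toMonoidHom (u : Fˣ) := ⟨_, rfl⟩
    have hgv : (g : Matrix (Fin n) (Fin n) F) = Matrix.diagonal fun _ => ((u : Fˣ) : F) := by rw [hg]; rfl
    have hgm : g ∈ Cfsg.GU n F q := by
      rw [CfsgLib.Classical.Orders.mem_GU]
      intro x y
      simp only [hgv, Cfsg.hermForm, Matrix.mulVec_diagonal]
      refine Finset.sum_congr rfl fun k _ => ?_
      rw [mul_pow, show ∀ a b c e : F, a * b * (c * e) = a * c * (b * e) from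
          fun a b c e => by ring, ← pow_succ', hu, one_mul]
    refine ⟨⟨g, hgm⟩, Subgroup.mem_center_iff.mpr fun k => Subtype.ext (Units.ext ?_), Subtype.ext (Units.ext ?_)⟩
    · show (((k : Matrix.GeneralLinearGroup (Fin n) F)) : Matrix (Fin n) (Fin n) F) * g = g * ((k : Matrix.GeneralLinearGroup (Fin n) F) : Matrix (Fin n) (Fin n) F)
      rw [hgv, ← Matrix.scalar_apply]
      exact ((Matrix.scalar_commute _ (fun r => Commute.all _ _) _).symm).eq
    · rw [hd', hd]
      simp [hgv, Matrix.GeneralLinearGroup.val_det_apply]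
  refine ⟨π.comp (ψ.toMonoidHom.comp d'), ?_, ?_⟩
  · have h1 : Function.Surjective d' := by
      intro u
      have hu : ((u : Fˣ) : F) ^ (q + 1) = 1 := by
        simpa using congrArg Units.val (MonoidHom.mem_ker.mp (show (u : Fˣ) ∈ (powMonoidHom (q + 1) : Fˣ →* Fˣ).ker by rw [← hμ]; exact u.2))
      have hdet : (Matrix.diagonal (Function.update (fun _ => (1 : F)) (⟨0, by omega⟩ : Fin n) ((u : Fˣ) : F))).det = ((u : Fˣ) : F) := by
        simp [Matrix.det_diagonal, Finset.prod_update_of_mem]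
      refine ⟨⟨Matrix.GeneralLinearGroup.mkOfDetNeZero _ (by rw [hdet]; exact (u : Fˣ).ne_zero),
        CfsgLib.Classical.Orders.mem_GU.mpr fun x y => ?_⟩, Subtype.ext (Units.ext ?_)⟩
      · simp only [Matrix.GeneralLinearGroup.val_mkOfDetNeZero, Cfsg.hermForm, Matrix.mulVec_diagonal]
        refine Finset.sum_congr rfl fun k _ => ?_
        by_cases hk : k = (⟨0, by omega⟩ : Fin n)
        · subst hk
          rw [Function.update_self, mul_pow, show ∀ a b c e : F, a * b * (c * e) = a * c * (b * e) from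
            fun a b c e => by ring, ← pow_succ', hu, one_mul]
        · rw [Function.update_of_ne hk, one_mul, one_mul]
      · rw [hd', hd]; exact hdet
    have h2 : Function.Surjective π := by
      rw [hπ]
      exact fun x => ZMod.castHom_surjective (Nat.gcd_dvd_right n (q + 1)) x
    exact h2.comp (ψ.surjective.comp h1)
  · have hker : ∀ x : ZMod (q + 1), π (Multiplicative.ofAdd x) = 1 → ∃ y : ZMod (q + 1), x = (n : ZMod (q + 1)) * y := by
      intro x hx
      rw [hπ] at hx
      have hx' : ((x.val : ℕ) : ZMod (Nat.gcd n (q + 1))) = 0 := by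
        have : ZMod.castHom (Nat.gcd_dvd_right n (q + 1)) (ZMod (Nat.gcd n (q + 1))) x = 0 := hx
        rwa [← ZMod.natCast_zmod_val x, map_natCast] at this
      rw [ZMod.natCast_eq_zero_iff] at hx'
      obtain ⟨t, ht⟩ := hx'
      refine ⟨(Nat.gcdA n (q + 1) : ZMod (q + 1)) * (t : ZMod (q + 1)), ?_⟩
      have hb := congrArg (fun z : ℤ => (z : ZMod (q + 1))) (Nat.gcd_eq_gcd_ab n (q + 1))
      simp only [Int.cast_natCast, Int.cast_add, Int.cast_mul, ZMod.natCast_self, zero_mul, add_zero] at hb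
      rw [← ZMod.natCast_zmod_val x, ht, Nat.cast_mul, hb]
      ring
    apply le_antisymm
    · intro g hg
      obtain ⟨y, hy⟩ := hker (ψ (d' g)).toAdd (by simpa [MonoidHom.mem_ker] using hg)
      obtain ⟨z, hz, hzd⟩ := hscal (ψ.symm (Multiplicative.ofAdd y))
      have hdz : d' z = d' g := by
        refine ψ.injective ?_
        rw [hzd, map_pow, MulEquiv.apply_symm_apply, ← ofAdd_nsmul, nsmul_eq_mul, ← hy, ofAdd_toAdd]
      rw [← mul_inv_cancel_right g z⁻¹, inv_inv]
      refine Subgroup.mul_mem_sup ?_ hz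
      have h1 : d' (g * z⁻¹) = 1 := by rw [map_mul, map_inv, hdz, mul_inv_cancel]
      have h2 := congrArg Subtype.val h1
      rw [hd', hd] at h2
      exact h2
    · refine sup_le (fun g hg => ?_) fun z hz => ?_
      · have h1 : d' g = 1 := Subtype.ext (by rw [hd', hd]; exact hg)
        simp [MonoidHom.mem_ker, h1]
      · obtain ⟨c, hc⟩ := center_scalar hF hz
        rw [MonoidHom.mem_ker]
        have hc1 : c ^ (q + 1) = 1 := by
          have h := CfsgLib.Classical.Orders.mem_GU.mp z.2 (Pi.single (⟨0, by omega⟩ : Fin n) 1) (Pi.single (⟨0, by omega⟩ : Fin n) 1)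
          simp only [hc, Cfsg.hermForm, Matrix.mulVec_diagonal] at h
          rw [Finset.sum_eq_single (⟨0, by omega⟩ : Fin n) (fun b _ hb => by simp [hb]) (by simp),
            Finset.sum_eq_single (⟨0, by omega⟩ : Fin n) (fun b _ hb => by simp [hb]) (by simp)] at h
          simpa [← pow_succ'] using h
        have hc0 : c ≠ 0 := fun h => by rw [h, zero_pow (by omega)] at hc1; exact zero_ne_one hc1
        obtain ⟨u, hu⟩ : ∃ u : μ, ((u : Fˣ) : F) = c := ⟨⟨Units.mk0 c hc0, by
          rw [hμ]; exact MonoidHom.mem_ker.mpr (Units.ext (by simpa using hc1))⟩, rfl⟩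
        have h1 : d' z = u ^ n := Subtype.ext (Units.ext (by
          rw [hd', hd]; simp [hc, hu, Matrix.GeneralLinearGroup.val_det_apply]))
        rw [MonoidHom.comp_apply, MonoidHom.comp_apply, h1, map_pow, map_pow, hπ]
        refine Multiplicative.toAdd.injective ?_
        rw [toAdd_pow, toAdd_one, nsmul_eq_mul]
        have hn0 : ((n : ℕ) : ZMod (Nat.gcd n (q + 1))) = 0 :=
          (ZMod.natCast_eq_zero_iff _ _).mpr (Nat.gcd_dvd_left n (q + 1))
        rw [hn0, zero_mul]

end Cfsg.Agent.S0783
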