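import Cfsg.Statements.S0785
import Cfsg.Agent.Lib.ClassicalPolarVec

set_option autoImplicit false
open Cfsg

namespace Cfsg.Agent.S0785

/-- det(I) = {±1}: for a quadratic form on F^n whose polar form is non-degenerate, every element of the isometry group has determinant 1 or −1, and as soon as Q takes a non-zero value some isometry has determinant −1. -/
theorem result {F : Type*} [Field F] {n : ℕ} (Q : QuadraticForm F (Fin n → F)) (hQ : (QuadraticMap.polarBilin Q).Nondegenerate) : (∀ g : ↥(Cfsg.isometryGroup F ⇑Q), ((g : Matrix.GeneralLinearGroup (Fin n) F) : Matrix (Fin n) (Fin n) F).det = 1 ∨ ((g : Matrix.GeneralLinearGroup (Fin n) F) : Matrix (Fin n) (Fin n) F).det = -1) ∧ ((∃ v, Q v ≠ 0) → ∃ g : ↥(Cfsg.isometryGroup F ⇑Q), ((g : Matrix.GeneralLinearGroup (Fin n) F) : Matrix (Fin n) (Fin n) F).det = -1) := by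
  classical
  refine ⟨fun g => ?_, ?_⟩
  · set M := ((g : Matrix.GeneralLinearGroup (Fin n) F) : Matrix (Fin n) (Fin n) F) with hM
    have hg : ∀ x, Q (M.mulVec x) = Q x := fun x => g.2 x x
    set P := LinearMap.toMatrix₂' F (QuadraticMap.polarBilin Q) with hP
    have hPd : P.det ≠ 0 := (LinearMap.nondegenerate_toMatrix₂'_iff.mpr hQ).det_ne_zero
    have key : M.transpose * P * M = P := by
      rw [hP, ← (Matrix.toLinearMap₂' F (S₁ := F) (S₂ := F) (N₂ := F)).injective.eq_iff, Matrix.toLinearMap₂'_toMatrix',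
        ← Matrix.toLinearMap₂'_comp, Matrix.toLinearMap₂'_toMatrix']
      refine LinearMap.ext fun x => LinearMap.ext fun y => ?_
      simp only [LinearMap.compl₁₂_apply, QuadraticMap.polarBilin_apply_apply, Matrix.toLin'_apply,
        QuadraticMap.polar, ← Matrix.mulVec_add, hg]
    have hd := congrArg Matrix.det key
    rw [Matrix.det_mul, Matrix.det_mul, Matrix.det_transpose] at hd
    exact mul_self_eq_one_iff.mp (mul_right_cancel₀ hPd (by linear_combination hd))
  · rintro ⟨v, hv⟩
    have hd := CfsgLib.Classical.reflectionMatrix_det Q hv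
    refine ⟨⟨Matrix.GeneralLinearGroup.mkOfDetNeZero (Cfsg.reflectionMatrix ⇑Q v)
      (by rw [hd]; exact neg_ne_zero.mpr one_ne_zero), ?_⟩, hd⟩
    exact fun x _ => CfsgLib.Classical.reflectionMatrix_preserves Q hv x

end Cfsg.Agent.S0785
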