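import Cfsg.Statements.S0787
import Cfsg.Agent.Lib.ClassicalSpinorFacts

set_option autoImplicit false
open Cfsg

namespace Cfsg.Agent.S0787

/-- Existence and uniqueness of Ω: if F is finite, n ≥ 2, Q is a quadratic form on F^n with non-degenerate polar form and (|F|, n) ≠ (2, 4), then the group of isometries of determinant one has a unique subgroup of index 2. -/
theorem result {F : Type*} [Field F] [Fintype F] {n : ℕ} (hn : 2 ≤ n) (Q : QuadraticForm F (Fin n → F)) (hQ : (QuadraticMap.polarBilin Q).Nondegenerate) (h : Fintype.card F ≠ 2 ∨ n ≠ 4) : ∃! H : Subgroup ↥(Cfsg.specialIsometryGroup F ⇑Q), H.index = 2 := by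
  exact CfsgLib.Classical.existsUnique_index_two (CfsgLib.Classical.isNondegenerateQuadraticForm_coe Q hQ) (by simpa using hn)
    (by simpa [Nat.card_eq_fintype_card] using h)

end Cfsg.Agent.S0787
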