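import Cfsg.Statements.S0794
import Cfsg.Agent.Lib.ClassicalSiegel

set_option autoImplicit false
open Cfsg

namespace Cfsg.Agent.S0794

/-- For q odd, n ≥ 5 and Q with non-degenerate polar form: an isometry whose matrix is a Siegel transformation T_(u,v)(c) (u, v singular and orthogonal) is a commutator in the isometry group, so lies in Ω. -/
theorem result {F : Type*} [Field F] [Fintype F] (h2 : (2 : F) ≠ 0) {n : ℕ} (hn : 5 ≤ n) (Q : QuadraticForm F (Fin n → F)) (hQ : (QuadraticMap.polarBilin Q).Nondegenerate) (u v : Fin n → F) (hu : Q u = 0) (hv : Q v = 0) (huv : QuadraticMap.polar ⇑Q u v = 0) (c : F) (g : ↥(Cfsg.isometryGroup F ⇑Q)) (hg : ((g : Matrix.GeneralLinearGroup (Fin n) F) : Matrix (Fin n) (Fin n) F) = Cfsg.siegelMatrix ⇑Q u v c) : g ∈ commutatorSet ↥(Cfsg.isometryGroup F ⇑Q) ∧ g ∈ Cfsg.Omega F ⇑Q := by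
  have hQ' := CfsgLib.Classical.isNondegenerateQuadraticForm_coe Q hQ
  refine ⟨?_, ?_⟩
  · have hvu : QuadraticMap.polar (⇑Q) ((-c) • v) u = 0 := by
      rw [QuadraticMap.polar_smul_left, QuadraticMap.polar_comm, huv, smul_zero]
    have e : g = ⟨CfsgLib.Classical.qE (⇑Q) u ((-c) • v), CfsgLib.Classical.qE_mem_isometry hQ' hu hvu⟩ :=
      Subtype.ext (Units.ext (hg.trans (CfsgLib.Classical.qE_val_siegel hQ' hu hv huv c).symm))
    rw [e]
    exact CfsgLib.Classical.siegel_mem_commutatorSet hQ' h2 hu (by rw [QuadraticMap.map_smul, hv, smul_zero]) hvu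
  · rw [CfsgLib.Classical.omega_eq_closure_siegel hQ' h2 (by simpa using hn)]
    exact Subgroup.subset_closure ⟨u, v, c, hu, hv, huv, hg⟩

end Cfsg.Agent.S0794
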