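import Cfsg.Statements.S0798
import Cfsg.Agent.Lib.ClassicalReflClass

set_option autoImplicit false
open Cfsg

namespace Cfsg.Agent.S0798

/-- For q odd, n ≥ 2 even, Q with non-degenerate polar form (n, |F|) ≠ (4, 3), and a fixed c ≠ 0: the subgroup of the isometry group generated by the reflections r_v with Q(v) ∈ c·(F^×)² has index 2. -/
theorem result {F : Type*} [Field F] [Fintype F] (h2 : (2 : F) ≠ 0) {n : ℕ} (hn : 2 ≤ n) (heven : Even n) (Q : QuadraticForm F (Fin n → F)) (hQ : (QuadraticMap.polarBilin Q).Nondegenerate) (h43 : ¬ (n = 4 ∧ Fintype.card F = 3)) (c : F) (hc : c ≠ 0) : (Subgroup.closure {g : ↥(Cfsg.isometryGroup F ⇑Q) | ∃ (v : Fin n → F) (t : F), t ≠ 0 ∧ Q v = c * t ^ 2 ∧ ((g : Matrix.GeneralLinearGroup (Fin n) F) : Matrix (Fin n) (Fin n) F) = Cfsg.reflectionMatrix ⇑Q v}).index = 2 := by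
  have hQ' := CfsgLib.Classical.isNondegenerateQuadraticForm_coe Q hQ
  refine CfsgLib.ReflClass.index_closure hQ' h2 c hc (by simpa using heven) (by simpa using hn)
    (by simpa using h43) _ fun g => ⟨?_, ?_⟩
  · rintro ⟨v, t, ht, hv, hg⟩
    have hv0 : Q v ≠ 0 := by rw [hv]; exact mul_ne_zero hc (pow_ne_zero 2 ht)
    exact ⟨v, hv0, ⟨t, by rw [hv, mul_div_cancel_left₀ _ hc, sq]⟩, CfsgLib.Classical.rI_eq_of_matrix hQ' hv0 hg⟩
  · rintro ⟨d, hd, ⟨t, ht⟩, rfl⟩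
    refine ⟨d, t, fun h => hd ?_, ?_, CfsgLib.Classical.qR_val hQ' hd⟩
    · rw [h, mul_zero, div_eq_zero_iff] at ht
      exact ht.resolve_right hc
    · rw [sq, ← ht, mul_div_cancel₀ _ hc]

end Cfsg.Agent.S0798
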