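import Cfsg.Statements.S0800
import Mathlib.FieldTheory.Finite.Basic
import Mathlib.RingTheory.AdjoinRoot

set_option autoImplicit false
open Cfsg

namespace Cfsg.Agent.S0800

/-- Tori of SL_2(q): if g ∈ SL_2(q) has order coprime to the characteristic p, then the order of g divides q − 1 or q + 1. -/
theorem result {F : Type*} [Field F] [Fintype F] {q : ℕ} (hF : Fintype.card F = q) (p : ℕ) [Fact p.Prime] [CharP F p] (g : Matrix.SpecialLinearGroup (Fin 2) F) (hg : Nat.Coprime (orderOf g) p) : orderOf g ∣ q - 1 ∨ orderOf g ∣ q + 1 := by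
  classical
  subst hF
  set M := (g : Matrix (Fin 2) (Fin 2) F) with hM
  set t := M 0 0 + M 1 1 with ht
  have hd : M 0 0 * M 1 1 - M 0 1 * M 1 0 = 1 := by rw [← Matrix.det_fin_two]; exact g.2
  have hsq : M * M = t • M - 1 := by
    ext i j
    fin_cases i <;> fin_cases j <;> simp [Matrix.mul_apply, Fin.sum_univ_two, ht] <;>
      first | linear_combination -hd | ring1
  set P : Polynomial F := Polynomial.X ^ 2 - Polynomial.C t * Polynomial.X + 1 with hP
  have hP0 : Polynomial.aeval M P = 0 := by
    simp [hP, pow_two, hsq, Algebra.smul_def]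
  have hone : ∀ m, M ^ m = 1 → orderOf g ∣ m := fun m h => orderOf_dvd_of_pow_eq_one
    (Subtype.ext (by rw [Matrix.SpecialLinearGroup.coe_pow, h, Matrix.SpecialLinearGroup.coe_one]))
  have hq := Fintype.one_lt_card (α := F)
  by_cases hroot : ∃ a : F, a ^ 2 - t * a + 1 = 0
  · left
    obtain ⟨a, ha⟩ := hroot
    have hab : a * (t - a) = 1 := by linear_combination -ha
    have hfac : P = (Polynomial.X - Polynomial.C a) * (Polynomial.X - Polynomial.C (t - a)) := by
      rw [hP, ← Polynomial.C_1, ← hab]
      simp only [map_sub, map_mul]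
      ring
    have hdiv : ∀ b : F, b ≠ 0 →
        (Polynomial.X - Polynomial.C b) ∣ (Polynomial.X ^ (Fintype.card F - 1) - 1 : Polynomial F) := by
      intro b hb
      have := sub_dvd_pow_sub_pow Polynomial.X (Polynomial.C b) (Fintype.card F - 1)
      rwa [← Polynomial.C_pow, FiniteField.pow_card_sub_one_eq_one b hb, Polynomial.C_1] at this
    obtain ⟨R, hR⟩ : P ∣ (Polynomial.X ^ (Fintype.card F - 1) - 1) ^ 2 := by
      rw [hfac, sq]
      exact mul_dvd_mul (hdiv a (left_ne_zero_of_mul_eq_one hab)) (hdiv _ (right_ne_zero_of_mul_eq_one hab))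
    have hu : (M ^ (Fintype.card F - 1) - 1) ^ 2 = 0 := by
      have := congrArg (Polynomial.aeval M) hR
      simpa [hP0] using this
    have hp : (M ^ (Fintype.card F - 1)) ^ p = 1 := by
      have h := sub_pow_char_of_commute (p := p) (Commute.one_right (M ^ (Fintype.card F - 1)))
      rw [one_pow, show p = 2 + (p - 2) from (Nat.add_sub_cancel' (Fact.out : p.Prime).two_le).symm, pow_add,
        hu, zero_mul] at h
      rw [show p = 2 + (p - 2) from (Nat.add_sub_cancel' (Fact.out : p.Prime).two_le).symm]
      exact sub_eq_zero.mp h.symm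
    exact hg.dvd_of_dvd_mul_right (hone _ (by rw [pow_mul, hp]))
  · haveI hirr : Fact (Irreducible P) := ⟨by
      have hdeg : P.natDegree = 2 := by rw [hP]; compute_degree!
      rw [Polynomial.irreducible_iff_roots_eq_zero_of_degree_le_three (by omega) (by omega)]
      refine Multiset.eq_zero_of_forall_notMem fun a ha => hroot ⟨a, ?_⟩
      simpa [hP] using Polynomial.isRoot_of_mem_roots ha⟩
    set ζ := AdjoinRoot.root P with hζ
    have hz : ζ ^ 2 - algebraMap F (AdjoinRoot P) t * ζ + 1 = 0 := by
      simpa [hP, AdjoinRoot.algebraMap_eq] using AdjoinRoot.eval₂_root P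
    have hz' := congrArg (FiniteField.frobeniusAlgHom F (AdjoinRoot P)) hz
    simp only [map_add, map_sub, map_mul, map_pow, map_one, map_zero, AlgHom.commutes,
      FiniteField.coe_frobeniusAlgHom] at hz'
    have hcases : (ζ ^ Fintype.card F - ζ) *
        (ζ ^ Fintype.card F + ζ - algebraMap F (AdjoinRoot P) t) = 0 := by
      linear_combination hz' - hz
    have hker : ∀ R : Polynomial F, Polynomial.aeval ζ R = 0 → Polynomial.aeval M R = 0 := by
      intro R hR
      rw [hζ, AdjoinRoot.aeval_eq] at hR
      obtain ⟨S, rfl⟩ := AdjoinRoot.mk_eq_zero.mp hR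
      rw [map_mul, hP0, zero_mul]
    have hunit : IsUnit M := (Matrix.isUnit_iff_isUnit_det M).mpr (by rw [show M.det = 1 from g.2]; exact isUnit_one)
    rcases mul_eq_zero.mp hcases with h | h
    · left
      have := hker (Polynomial.X ^ Fintype.card F - Polynomial.X) (by simpa using h)
      simp only [map_sub, map_pow, Polynomial.aeval_X] at this
      refine hone _ (hunit.mul_right_cancel ?_)
      rw [← pow_succ, Nat.sub_add_cancel hq.le, one_mul]
      exact sub_eq_zero.mp this
    · right
      have := hker (Polynomial.X ^ Fintype.card F + Polynomial.X - Polynomial.C t) (by simpa using h)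
      simp only [map_sub, map_add, map_pow, Polynomial.aeval_X, Polynomial.aeval_C] at this
      refine hone _ ?_
      rw [pow_succ, eq_sub_of_add_eq (sub_eq_zero.mp this), sub_mul, Algebra.algebraMap_eq_smul_one,
        Matrix.smul_mul, one_mul, hsq, sub_sub_cancel]

end Cfsg.Agent.S0800
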