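import Cfsg.Statements.S0802
import Cfsg.Agent.Lib.ClassicalPSLTwoPoly

set_option autoImplicit false
open Cfsg

namespace Cfsg.Agent.S0802

/-- PSL_2(p^n) has a subgroup isomorphic to A_4 if and only if it is not the case that p = 2 and n is odd. -/
theorem result {F : Type*} [Field F] [Fintype F] (p n : ℕ) [Fact p.Prime] [CharP F p] (hF : Fintype.card F = p ^ n) : (∃ H : Subgroup (Matrix.ProjectiveSpecialLinearGroup (Fin 2) F), Nonempty (H ≃* alternatingGroup (Fin 4))) ↔ ¬ (p = 2 ∧ Odd n) := by
  classical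
  constructor
  · rintro hH ⟨rfl, hn⟩
    exact CfsgLib.Classical.no_alt_four hn hF hH
  · intro h
    by_cases hodd : Odd (Fintype.card F)
    · obtain ⟨H, -, e⟩ := CfsgLib.Classical.exists_alt_four_of_odd hodd
      exact ⟨H, e⟩
    have hp2 : p = 2 := by
      rcases (Fact.out : p.Prime).eq_two_or_odd' with h' | h'
      · exact h'
      · exact absurd (hF ▸ h'.pow) hodd
    subst hp2
    have hn : Even n := Nat.not_odd_iff_even.mp fun hn => h ⟨rfl, hn⟩
    obtain ⟨H, ⟨e⟩⟩ := CfsgLib.Classical.exists_alt_five_of_even hn hF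
    obtain ⟨T, ⟨e'⟩⟩ := CfsgLib.Classical.exists_alt_four_in_alt_five
    let f := H.subtype.comp (e.symm.toMonoidHom.comp T.subtype)
    have hf : Function.Injective f := Subtype.val_injective.comp (e.symm.injective.comp Subtype.val_injective)
    exact ⟨f.range, ⟨(MonoidHom.ofInjective hf).symm.trans e'⟩⟩

end Cfsg.Agent.S0802
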