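import Cfsg.Statements.S0805
import Cfsg.Agent.Lib.DicksonSubfieldMax

set_option autoImplicit false
open Cfsg

namespace Cfsg.Agent.S0805

/-- Subfield subgroups: let F be a finite field of odd order q and K a finite field with |K|^m = q, m ≥ 1. Then PSL_2(F) has a subgroup isomorphic to PSL_2(K), and has a subgroup isomorphic to PGL_2(K) if and only if m is even. -/
theorem result {F K : Type*} [Field F] [Fintype F] [Field K] [Fintype K] {q : ℕ} (hF : Fintype.card F = q) (hodd : Odd q) (m : ℕ) (hm : 1 ≤ m) (hK : Fintype.card K ^ m = q) : (∃ H : Subgroup (Matrix.ProjectiveSpecialLinearGroup (Fin 2) F), Nonempty (H ≃* Matrix.ProjectiveSpecialLinearGroup (Fin 2) K)) ∧ ((∃ H : Subgroup (Matrix.ProjectiveSpecialLinearGroup (Fin 2) F), Nonempty (H ≃* Matrix.ProjGenLinGroup (Fin 2) K)) ↔ Even m) := by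
  classical
  obtain ⟨p, hchar⟩ := CharP.exists F
  obtain ⟨b, hp, -⟩ := FiniteField.card F p
  haveI := Fact.mk hp
  have hm0 : m ≠ 0 := by omega
  have hFm : Fintype.card F = Fintype.card K ^ m := hF.trans hK.symm
  obtain ⟨φ⟩ := CfsgLib.Dickson.exists_field_hom rfl hFm hm0
  have hkodd : Odd (Fintype.card K) := (Nat.odd_pow_iff hm0).mp (by rw [hK]; exact hodd)
  refine ⟨?_, fun h => ?_, fun h => ?_⟩
  · obtain ⟨f, hf, -⟩ := CfsgLib.Dickson.exists_psl_hom_map φ
    exact ⟨f.range, ⟨(MonoidHom.ofInjective hf).symm⟩⟩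
  · obtain ⟨H, ⟨e⟩⟩ := h
    by_contra hme
    exact CfsgLib.Dickson.no_pgl_of_odd rfl hFm (Nat.not_even_iff_odd.mp hme) hkodd H e
  · obtain ⟨f, hf, -⟩ := CfsgLib.Dickson.exists_pgl_hom_sq φ
      (fun a => CfsgLib.Dickson.isSquare_of_even rfl hFm h hkodd φ a)
    exact ⟨f.range, ⟨(MonoidHom.ofInjective hf).symm⟩⟩

end Cfsg.Agent.S0805
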