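import Cfsg.Statements.S0806
import Cfsg.Agent.Lib.DicksonCor

set_option autoImplicit false
open Cfsg

namespace Cfsg.Agent.S0806

/-- Minimal index (Galois): if q ∉ {2, 3, 5, 7, 9, 11} then every proper subgroup of PSL_2(q) has index ≥ q + 1, and some subgroup has index exactly q + 1. -/
theorem result {F : Type*} [Field F] [Fintype F] {q : ℕ} (hF : Fintype.card F = q) (hq : q ∉ ({2, 3, 5, 7, 9, 11} : Finset ℕ)) : (∀ H : Subgroup (Matrix.ProjectiveSpecialLinearGroup (Fin 2) F), H ≠ ⊤ → q + 1 ≤ H.index) ∧ ∃ H : Subgroup (Matrix.ProjectiveSpecialLinearGroup (Fin 2) F), H.index = q + 1 := by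
  classical
  obtain ⟨p, hchar⟩ := CharP.exists F
  obtain ⟨b, hp, hb⟩ := FiniteField.card F p
  haveI := Fact.mk hp
  simp only [Finset.mem_insert, Finset.mem_singleton, not_or] at hq
  obtain ⟨hq2, hq3, hq5, hq7, hq9, hq11⟩ := hq
  have hq1 : 1 < q := hF ▸ Fintype.one_lt_card
  obtain ⟨P₀⟩ : Nonempty (Sylow p (Matrix.ProjectiveSpecialLinearGroup (Fin 2) F)) := inferInstance
  refine ⟨fun H hH => ?_, _, CfsgLib.Dickson.borel_index hF P₀⟩
  have hG : Nat.card (Matrix.ProjectiveSpecialLinearGroup (Fin 2) F) * Nat.gcd 2 (q - 1) = q * (q - 1) * (q + 1) :=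
    CfsgLib.Dickson.card_psl hF (p := p)
  have hidx := H.index_mul_card
  have hd : Nat.gcd 2 (q - 1) ≤ 2 := Nat.le_of_dvd two_pos (Nat.gcd_dvd_left 2 _)
  have hd0 : 0 < Nat.gcd 2 (q - 1) := Nat.gcd_pos_of_pos_left _ two_pos
  have hsmall : q = 4 ∨ (q % 2 = 0 ∧ 8 ≤ q) ∨ (q % 2 = 1 ∧ 13 ≤ q) := by
    have h6 : ∀ n, (n = 6 ∨ n = 10 ∨ n = 12) → q ≠ n := by
      intro n hn hqn
      subst hqn
      rw [hF] at hb
      have h2 : 2 ∣ p := Nat.prime_two.dvd_of_dvd_pow (hb ▸ (by omega : 2 ∣ q))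
      have hp2 := (Nat.prime_dvd_prime_iff_eq Nat.prime_two hp).mp h2
      subst hp2
      rcases hn with rfl | rfl | rfl
      · exact absurd (Nat.prime_three.dvd_of_dvd_pow (hb ▸ (by norm_num : 3 ∣ 6))) (by norm_num)
      · exact absurd (Nat.prime_five.dvd_of_dvd_pow (hb ▸ (by norm_num : 5 ∣ 10))) (by norm_num)
      · exact absurd (Nat.prime_three.dvd_of_dvd_pow (hb ▸ (by norm_num : 3 ∣ 12))) (by norm_num)
    have := h6 6 (by omega)
    omega
  -- it suffices to bound the order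
  suffices hb' : Nat.card H * Nat.gcd 2 (q - 1) ≤ q * (q - 1) by
    have h : H.index * (Nat.card H * Nat.gcd 2 (q - 1)) = (q + 1) * (q * (q - 1)) := by
      rw [← mul_assoc, hidx, hG]; ring
    have hpos : 0 < q * (q - 1) := Nat.mul_pos (by omega) (by omega)
    exact Nat.le_of_mul_le_mul_right (h.ge.trans (Nat.mul_le_mul_left _ hb')) hpos
  have hq12 : 4 * 3 ≤ q * (q - 1) := Nat.mul_le_mul (by omega) (by omega)
  rcases CfsgLib.Dickson.dickson_list hF p H with ⟨k, hk, h⟩ | ⟨P, hP⟩ | ⟨⟨e⟩⟩ | ⟨⟨e⟩⟩ | ⟨⟨e⟩⟩ | ⟨K, hK, hKf, m, hm, hiso⟩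
  · have hkb := CfsgLib.Dickson.card_cyclic_dihedral_le hF hk
    have hcard : Nat.card H ≤ 2 * k := by
      rcases h with ⟨-, h⟩ | ⟨⟨e⟩⟩
      · omega
      · rw [Nat.card_congr e.toEquiv, DihedralGroup.nat_card]
    have h2 : 2 * (q + 1) ≤ q * (q - 1) := by
      have := Nat.mul_le_mul_right (q - 1) (show 4 ≤ q by omega)
      omega
    have := Nat.mul_le_mul_right (Nat.gcd 2 (q - 1)) hcard
    rw [mul_assoc] at this
    omega
  · rw [← CfsgLib.Dickson.borel_card hF P]
    exact Nat.mul_le_mul_right _ (Subgroup.card_le_of_le hP)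
  · rw [Nat.card_congr e.toEquiv, nat_card_alternatingGroup, Nat.card_fin, show (4 : ℕ).factorial / 2 = 12 from rfl]
    rcases hsmall with h | ⟨he, h8⟩ | ⟨ho, h13⟩
    · subst h; norm_num
    · have := Nat.mul_le_mul h8 (show 7 ≤ q - 1 by omega)
      omega
    · have := Nat.mul_le_mul h13 (show 12 ≤ q - 1 by omega)
      omega
  · rw [Nat.card_congr e.toEquiv, Nat.card_perm, Nat.card_fin, show (4 : ℕ).factorial = 24 from rfl]
    rcases hsmall with h | ⟨he, h8⟩ | ⟨ho, h13⟩
    · subst h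
      have := (Cfsg.Agent.S0803.result hF).mp ⟨H, ⟨e⟩⟩
      norm_num at this
    · have := Nat.mul_le_mul h8 (show 7 ≤ q - 1 by omega)
      omega
    · have := Nat.mul_le_mul h13 (show 12 ≤ q - 1 by omega)
      omega
  · rw [Nat.card_congr e.toEquiv, nat_card_alternatingGroup, Nat.card_fin, show (5 : ℕ).factorial / 2 = 60 from rfl]
    rcases hsmall with h | ⟨he, h8⟩ | ⟨ho, h13⟩
    · subst h
      refine absurd (Subgroup.eq_top_of_card_eq _ ?_) hH
      rw [Nat.card_congr e.toEquiv, nat_card_alternatingGroup, Nat.card_fin]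
      rw [show Nat.gcd 2 (4 - 1) = 1 from rfl] at hG
      rw [show (5 : ℕ).factorial / 2 = 60 from rfl]
      omega
    · by_cases h16 : q = 8
      · subst h16
        have := (Cfsg.Agent.S0804.result hF).mp ⟨H, ⟨e⟩⟩
        norm_num at this
      · have hne : Nat.gcd 2 (q - 1) = 1 := Nat.coprime_two_left.mpr (Nat.odd_iff.mpr (by omega))
        have := Nat.mul_le_mul (show 9 ≤ q by omega) (show 8 ≤ q - 1 by omega)
        rw [hne]
        omega
    · have := Nat.mul_le_mul h13 (show 12 ≤ q - 1 by omega)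
      omega
  · by_cases hKq : Fintype.card K = q
    · exact absurd (CfsgLib.Dickson.eq_top_of_subfield (p := p) hF hKq hiso) hH
    · have hk1 : 1 < Fintype.card K := Fintype.one_lt_card
      have hle := CfsgLib.Dickson.subfield_card_le hiso
      have hm2 : 2 ≤ m := by
        rcases m with _ | _ | m
        · rw [pow_zero] at hm; omega
        · rw [pow_one] at hm; exact absurd hm hKq
        · omega
      have hkk : Fintype.card K * Fintype.card K ≤ q := by
        rw [← hm, ← pow_two]; exact Nat.pow_le_pow_right (by omega) hm2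
      set k := Fintype.card K
      obtain ⟨j, hj⟩ : ∃ j, k = j + 2 := ⟨k - 2, by omega⟩
      obtain ⟨i, hi⟩ : ∃ i, q = i + 1 := ⟨q - 1, by omega⟩
      rw [hj, show j + 2 - 1 = j + 1 by omega] at hle
      rw [hj] at hkk
      rw [hi] at hkk hd ⊢
      simp only [Nat.add_sub_cancel] at hd ⊢
      calc Nat.card H * Nat.gcd 2 i ≤ (j + 2) * (j + 1) * (j + 2 + 1) * 2 := Nat.mul_le_mul hle hd
        _ ≤ ((j + 2) * (j + 2)) * ((j + 2) * (j + 2) - 1) := by
          rw [show (j + 2) * (j + 2) - 1 = (j + 1) * (j + 3) by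
            have : (j + 2) * (j + 2) = (j + 1) * (j + 3) + 1 := by ring
            omega]
          nlinarith [Nat.zero_le j]
        _ ≤ (i + 1) * i := Nat.mul_le_mul hkk (by omega)

end Cfsg.Agent.S0806
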