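import Cfsg.Statements.S0808
import Cfsg.Agent.Lib.DicksonFourGroups

set_option autoImplicit false
open Cfsg

namespace Cfsg.Agent.S0808

open CfsgLib.Dickson

/-- Conjugacy classes of four-groups in PSL_2(q), q odd: if q ≡ 3 or 5 (mod 8) all Klein four-subgroups are conjugate; if q ≡ 1 or 7 (mod 8) there are two Klein four-subgroups which are not conjugate, and every Klein four-subgroup is conjugate to one of them. -/
theorem result {F : Type*} [Field F] [Fintype F] {q : ℕ} (hF : Fintype.card F = q) (hodd : Odd q) : ((q % 8 = 3 ∨ q % 8 = 5) → ∀ V W : Subgroup (Matrix.ProjectiveSpecialLinearGroup (Fin 2) F), IsKleinFour V → IsKleinFour W → ∃ g : Matrix.ProjectiveSpecialLinearGroup (Fin 2) F, W = V.map (MulAut.conj g).toMonoidHom) ∧ ((q % 8 = 1 ∨ q % 8 = 7) → ∃ V₁ V₂ : Subgroup (Matrix.ProjectiveSpecialLinearGroup (Fin 2) F), IsKleinFour V₁ ∧ IsKleinFour V₂ ∧ (¬ ∃ g : Matrix.ProjectiveSpecialLinearGroup (Fin 2) F, V₂ = V₁.map (MulAut.conj g).toMonoidHom) ∧ ∀ W : Subgroup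 (Matrix.ProjectiveSpecialLinearGroup (Fin 2) F), IsKleinFour W → (∃ g : Matrix.ProjectiveSpecialLinearGroup (Fin 2) F, W = V₁.map (MulAut.conj g).toMonoidHom) ∨ (∃ g : Matrix.ProjectiveSpecialLinearGroup (Fin 2) F, W = V₂.map (MulAut.conj g).toMonoidHom)) := by
  classical
  subst hF
  have hq := Nat.odd_iff.1 hodd
  obtain ⟨H, hH, ⟨eH⟩⟩ := CfsgLib.Classical.exists_alt_four_of_odd (F := F) hodd
  have h12 : Nat.card (alternatingGroup (Fin 4)) = 12 := by
    rw [nat_card_alternatingGroup, Nat.card_fin]; rfl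
  have h24 : Nat.card (Equiv.Perm (Fin 4)) = 24 := by rw [Nat.card_perm, Nat.card_fin]; rfl
  have hK := card_klein (F := F) hodd
  have hN : ∀ V : Subgroup (PSL F), IsKleinFour V →
      ((Fintype.card F % 8 = 3 ∨ Fintype.card F % 8 = 5) → Nat.card (Subgroup.normalizer (V : Set (PSL F))) = 12) ∧
      ((Fintype.card F % 8 = 1 ∨ Fintype.card F % 8 = 7) → Nat.card (Subgroup.normalizer (V : Set (PSL F))) = 24) := by
    intro V hV
    obtain ⟨u, v, h, rfl⟩ := exists_pair hV
    have hle := card_normalizer_le hodd h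
    have hd := dvd_normalizer hodd eH klein_alt_four h
    rw [h12] at hd
    refine ⟨fun h35 => ?_, fun h17 => ?_⟩
    · have hpos : 0 < Nat.card (Subgroup.normalizer ((kleinOf h : Subgroup (PSL F)) : Set (PSL F))) := Nat.card_pos
      by_contra hne
      have h24' : 24 ∣ Nat.card (PSL F) := by
        have h' : Nat.card (Subgroup.normalizer ((kleinOf h : Subgroup (PSL F)) : Set (PSL F))) = 24 := by omega
        rw [← h']; exact Subgroup.card_subgroup_dvd_card _
      obtain ⟨p, hchar⟩ := CharP.exists F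
      obtain ⟨n, hp, -⟩ := FiniteField.card F p
      haveI := Fact.mk hp
      have hG := card_psl (F := F) rfl (p := p)
      rw [Nat.gcd_eq_left (show 2 ∣ Fintype.card F - 1 by omega)] at hG
      have h48 : 48 ∣ Fintype.card F * (Fintype.card F - 1) * (Fintype.card F + 1) := by
        rw [← hG]; exact Nat.mul_dvd_mul_right h24' 2
      rw [mul_assoc] at h48
      have h16 : 16 ∣ (Fintype.card F - 1) * (Fintype.card F + 1) :=
        (Nat.Coprime.dvd_of_dvd_mul_left (Nat.Coprime.pow_left 4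
          (Nat.coprime_two_left.2 hodd) : Nat.Coprime (2 ^ 4) (Fintype.card F))
          ((show 2 ^ 4 ∣ 48 by norm_num).trans h48))
      rw [Nat.dvd_iff_mod_eq_zero, Nat.mul_mod] at h16
      have h1 : (Fintype.card F - 1) % 16 = 2 ∨ (Fintype.card F - 1) % 16 = 10 ∨ (Fintype.card F - 1) % 16 = 4 ∨ (Fintype.card F - 1) % 16 = 12 := by omega
      have h2 : (Fintype.card F + 1) % 16 = ((Fintype.card F - 1) % 16 + 2) % 16 := by omega
      rw [h2] at h16
      rcases h1 with e | e | e | e <;> rw [e] at h16 <;> omega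
    · obtain ⟨t, ht⟩ := FiniteField.isSquare_two_iff.mpr (show Fintype.card F % 8 ≠ 3 ∧ Fintype.card F % 8 ≠ 5 by omega)
      obtain ⟨S, -, ⟨eS⟩⟩ := CfsgLib.Classical.exists_sym_four_of_sqrt (F := F) hodd ht.symm
      obtain ⟨a, b, _, _, hr⟩ := klein_sign_four
      have hd' := dvd_normalizer hodd eS ⟨a, b, hr⟩ h
      rw [h24] at hd'
      exact le_antisymm hle (Nat.le_of_dvd Nat.card_pos hd')
  have hsub : ∀ V : Subgroup (PSL F), IsKleinFour V → ∀ W : Subgroup (PSL F),
      (∃ g : PSL F, W = V.map (MulAut.conj g).toMonoidHom) → IsKleinFour W := by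
    rintro V hV W ⟨g, rfl⟩
    let e := V.equivMapOfInjective (MulAut.conj g).toMonoidHom (MulAut.conj g).injective
    haveI := hV
    exact ⟨by rw [← Nat.card_congr e.toEquiv]; exact hV.card_four,
      by rw [← Monoid.exponent_eq_of_mulEquiv e]; exact hV.exponent_two⟩
  haveI := Fintype.ofFinite {V : Subgroup (PSL F) // IsKleinFour V}
  let cls : ∀ V : Subgroup (PSL F), IsKleinFour V → Finset {V : Subgroup (PSL F) // IsKleinFour V} := fun V _ =>
    Finset.univ.filter fun W => ∃ g : PSL F, W.1 = V.map (MulAut.conj g).toMonoidHom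
  have hcls : ∀ (V : Subgroup (PSL F)) (hV : IsKleinFour V), (cls V hV).card * Nat.card (Subgroup.normalizer (V : Set (PSL F))) = Nat.card (PSL F) := by
    intro V hV
    rw [← card_class V, ← Nat.card_eq_finsetCard]
    congr 1
    exact Nat.card_congr
      { toFun := fun W => ⟨W.1.1, (Finset.mem_filter.1 W.2).2⟩
        invFun := fun W => ⟨⟨W.1, hsub V hV W.1 W.2⟩, Finset.mem_filter.2 ⟨Finset.mem_univ _, W.2⟩⟩
        left_inv := fun W => rfl
        right_inv := fun W => rfl }
  rw [Nat.card_eq_fintype_card] at hK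
  have hGpos : 0 < Nat.card (PSL F) := Nat.card_pos
  constructor
  · intro h35 V W hV hW
    have h1 := hcls V hV
    rw [(hN V hV).1 h35] at h1
    have hall : cls V hV = Finset.univ := Finset.eq_univ_of_card _ (by omega)
    have hm : (⟨W, hW⟩ : {V : Subgroup (PSL F) // IsKleinFour V}) ∈ cls V hV := hall ▸ Finset.mem_univ _
    exact (Finset.mem_filter.1 hm).2
  · intro h17
    obtain ⟨V₁, hV₁⟩ : ∃ V : Subgroup (PSL F), IsKleinFour V := by
      obtain ⟨⟨V, hV⟩⟩ : Nonempty {V : Subgroup (PSL F) // IsKleinFour V} :=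
        Fintype.card_pos_iff.1 (by omega)
      exact ⟨V, hV⟩
    have h1 := hcls V₁ hV₁
    rw [(hN V₁ hV₁).2 h17] at h1
    obtain ⟨⟨V₂, hV₂⟩, hn⟩ : ∃ W, W ∉ cls V₁ hV₁ := by
      by_contra! hall
      rw [Finset.eq_univ_of_forall hall, Finset.card_univ] at h1
      omega
    have h2 := hcls V₂ hV₂
    rw [(hN V₂ hV₂).2 h17] at h2
    have hmul : ∀ (V : Subgroup (PSL F)) (g k : PSL F),
        (V.map (MulAut.conj g).toMonoidHom).map (MulAut.conj k).toMonoidHom = V.map (MulAut.conj (k * g)).toMonoidHom := by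
      intro V g k
      rw [Subgroup.map_map]
      congr 1
      ext x
      simp [mul_assoc]
    have hone : ∀ V : Subgroup (PSL F), V.map (MulAut.conj (1 : PSL F)).toMonoidHom = V := by
      intro V; ext x; simp
    have hdisj : Disjoint (cls V₁ hV₁) (cls V₂ hV₂) := by
      rw [Finset.disjoint_left]
      intro W hW₁ hW₂
      obtain ⟨g, hg⟩ := (Finset.mem_filter.1 hW₁).2
      obtain ⟨k, hk⟩ := (Finset.mem_filter.1 hW₂).2
      refine hn (Finset.mem_filter.2 ⟨Finset.mem_univ _, k⁻¹ * g, ?_⟩)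
      rw [← hmul, ← hg, hk, hmul, inv_mul_cancel, hone]
    have hall : cls V₁ hV₁ ∪ cls V₂ hV₂ = Finset.univ := Finset.eq_univ_of_card _ (by
      rw [Finset.card_union_of_disjoint hdisj]; omega)
    refine ⟨V₁, V₂, hV₁, hV₂, fun ⟨g, hg⟩ => hn (Finset.mem_filter.2 ⟨Finset.mem_univ _, g, hg⟩), fun W hW => ?_⟩
    have hm : (⟨W, hW⟩ : {V : Subgroup (PSL F) // IsKleinFour V}) ∈ cls V₁ hV₁ ∪ cls V₂ hV₂ := hall ▸ Finset.mem_univ _
    rcases Finset.mem_union.1 hm with h | h
    · exact Or.inl (Finset.mem_filter.1 h).2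
    · exact Or.inr (Finset.mem_filter.1 h).2

end Cfsg.Agent.S0808
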