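import Cfsg.Statements.S0809
import Cfsg.Agent.Lib.DicksonFourGroups

set_option autoImplicit false
open Cfsg

namespace Cfsg.Agent.S0809

open CfsgLib.Dickson

/-- In SL_2(q), q odd: any two subgroups of order 4 are conjugate, and the normaliser of a subgroup of order 4 has order 2(q − 1) if q ≡ 1 (mod 4) and 2(q + 1) if q ≡ 3 (mod 4); consequently all involutions of PSL_2(q) are conjugate. -/
theorem result {F : Type*} [Field F] [Fintype F] {q : ℕ} (hF : Fintype.card F = q) (hodd : Odd q) (A : Subgroup (Matrix.SpecialLinearGroup (Fin 2) F)) (hA : Nat.card A = 4) : (∀ B : Subgroup (Matrix.SpecialLinearGroup (Fin 2) F), Nat.card B = 4 → ∃ g : Matrix.SpecialLinearGroup (Fin 2) F, B = A.map (MulAut.conj g).toMonoidHom) ∧ (q % 4 = 1 → Nat.card ↥(Subgroup.normalizer (A : Set (Matrix.SpecialLinearGroup (Fin 2) F))) = 2 * (q - 1)) ∧ (q % 4 = 3 → Nat.card ↥(Subgroup.normalizer (A : Set (Matrix.SpecialLinearGroup (Fin 2) F))) = 2 * (q + 1)) ∧ (∀ x y : Matrix.ProjectiveSpecialLinearGroup (Fin 2) F, orderOf x = 2 → orderOf y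 = 2 → IsConj x y) := by
  classical
  subst hF
  have h2 := CfsgLib.Classical.two_ne_zero_of_odd hodd
  have four : ∀ B : Subgroup (Matrix.SpecialLinearGroup (Fin 2) F), Nat.card B = 4 →
      ∃ P : SL F, B = (Subgroup.zpowers stdI).map (MulAut.conj P).toMonoidHom := by
    intro B hB
    obtain ⟨C, hCB, hC⟩ : ∃ C ∈ B, ¬ IsScal C := by
      by_contra! hall
      have h : Nat.card B ≤ Nat.card ({1, -1} : Set (SL F)) := Nat.card_le_card_of_injective
        (fun x : B => (⟨x.1, CfsgLib.Classical.eq_one_or_neg_one_of_isScal (hall x.1 x.2)⟩ : ({1, -1} : Set (SL F))))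
        fun a b h => Subtype.ext (congrArg (fun y : ({1, -1} : Set (SL F)) => y.1) h)
      rw [hB, Nat.card_coe_set_eq] at h
      have := Set.ncard_insert_le (1 : SL F) {-1}
      rw [Set.ncard_singleton] at this
      omega
    have h4 : C ^ 4 = 1 := by
      have := Subgroup.orderOf_dvd_natCard B hCB
      rw [hB] at this
      exact orderOf_dvd_iff_pow_eq_one.1 this
    have hsq : IsScal (C * C) := by
      by_contra hs
      have h0 := tr_of_sq hs (by
        rw [show C * C * (C * C) = C ^ 4 by simp [pow_succ, mul_assoc], h4]; exact isScal_one)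
      have hneg : C * C * (C * C) = -1 := by
        apply Subtype.ext
        rw [Matrix.SpecialLinearGroup.coe_mul, mul_self_eq, h0, zero_smul, zero_sub,
          Matrix.SpecialLinearGroup.coe_neg, Matrix.SpecialLinearGroup.coe_one]
      rw [show C * C * (C * C) = C ^ 4 by simp [pow_succ, mul_assoc], h4] at hneg
      have := congrArg (fun g : SL F => g.1 0 0) hneg
      simp at this
      exact h2 (by linear_combination this)
    obtain ⟨P, hP⟩ := exists_conj_stdI hodd hC (tr_of_sq hC hsq)
    refine ⟨P, (Subgroup.eq_of_le_of_card_ge ?_ ?_).symm⟩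
    · rw [MonoidHom.map_zpowers, Subgroup.zpowers_le]
      show P * stdI * P⁻¹ ∈ B
      rw [hP]; exact hCB
    · rw [hB, ← Nat.card_congr ((Subgroup.zpowers (stdI : SL F)).equivMapOfInjective _ (MulAut.conj P).injective).toEquiv,
        Nat.card_zpowers]
      have hne : (stdI : SL F) ^ (2 : ℕ) ^ 1 ≠ 1 := by
        rw [pow_one, pow_two, stdI_mul_self]
        intro h
        have := congrArg (fun g : SL F => g.1 0 0) h
        simp at this
        exact h2 (by linear_combination -this)
      haveI := Fact.mk Nat.prime_two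
      rw [orderOf_eq_prime_pow hne (by
        rw [show (2 : ℕ) ^ (1 + 1) = 2 * 2 from rfl, pow_mul, pow_two (stdI : SL F), stdI_mul_self, pow_two]
        exact Subtype.ext (by simp))]
      norm_num
  have hN : Subgroup.normalizer ((Subgroup.zpowers stdI : Subgroup (SL F)) : Set (SL F)) = (centU F).comap mkP := by
    have hI : (stdI : SL F) ∈ Subgroup.zpowers stdI := Subgroup.mem_zpowers _
    ext g
    rw [mem_comap_centU]
    constructor
    · intro hg
      obtain ⟨i, hi⟩ := (Subgroup.mem_normalizer_iff.1 hg _).1 hI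
      have hu : ∀ j : ℤ, (mkP (stdI : SL F)) ^ j = 1 ∨ (mkP (stdI : SL F)) ^ j = mkP stdI := by
        intro j
        rcases Int.even_or_odd j with ⟨l, rfl⟩ | ⟨l, rfl⟩
        · left; rw [← two_mul, zpow_mul, zpow_two, mkP_stdI_sq, _root_.one_zpow]
        · right; rw [_root_.zpow_add_one, zpow_mul, zpow_two, mkP_stdI_sq, _root_.one_zpow, one_mul]
      have h' := congrArg mkP hi
      rw [map_zpow, map_mul, map_mul, map_inv] at h'
      rcases hu i with e | e <;> rw [e] at h'
      · exact absurd (conj_eq_one_iff.1 h'.symm) mkP_stdI_ne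
      · have : mkP (g * stdI) = mkP (stdI * g) := by
          rw [map_mul, map_mul]
          exact (eq_mul_inv_iff_mul_eq.1 h').symm
        exact mkP_eq_iff.1 this
    · intro hg
      have hneg : (-1 : SL F) ∈ Subgroup.zpowers stdI := ⟨2, (zpow_two _).trans stdI_mul_self⟩
      rw [Subgroup.mem_normalizer_iff]
      have hle : (Subgroup.zpowers (stdI : SL F)).map (MulAut.conj g).toMonoidHom ≤ Subgroup.zpowers stdI := by
        rw [MonoidHom.map_zpowers, Subgroup.zpowers_le]
        show g * stdI * g⁻¹ ∈ _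
        rcases hg with e | e
        · rw [e, mul_inv_cancel_right]; exact hI
        · rw [e, show -(stdI * g) = -1 * (stdI * g) from Subtype.ext (by simp), mul_assoc, mul_inv_cancel_right]
          exact mul_mem hneg hI
      have heq := Subgroup.eq_of_le_of_card_ge hle (le_of_eq (Nat.card_congr
        ((Subgroup.zpowers (stdI : SL F)).equivMapOfInjective _ (MulAut.conj g).injective).toEquiv))
      intro x
      conv_rhs => rw [← heq]
      exact (Subgroup.mem_map_iff_mem (MulAut.conj g).injective).symm
  obtain ⟨P, rfl⟩ := four A hA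
  have hcard : Nat.card (Subgroup.normalizer (((Subgroup.zpowers stdI).map (MulAut.conj P).toMonoidHom : Subgroup (SL F)) : Set (SL F)))
      = 2 * Nat.card (centI F) := by
    rw [← Subgroup.map_equiv_normalizer_eq, ← Nat.card_congr (Subgroup.equivMapOfInjective _ _ (MulAut.conj P).injective).toEquiv,
      hN, card_comap_mkP hodd, card_centU hodd]
  refine ⟨fun B hB => ?_, fun h => ?_, fun h => ?_, fun x y hx hy => ?_⟩
  · obtain ⟨Q, rfl⟩ := four B hB
    refine ⟨Q * P⁻¹, ?_⟩
    rw [Subgroup.map_map]
    congr 1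
    ext z
    simp [mul_assoc]
  · rw [hcard, (card_centI hodd).1 h]
  · rw [hcard, (card_centI hodd).2 h]
  · have inv : ∀ z : PSL F, orderOf z = 2 → z * z = 1 ∧ z ≠ 1 := fun z hz =>
      ⟨by have h := pow_orderOf_eq_one z; rw [hz, pow_two] at h; exact h, fun e => by rw [e, orderOf_one] at hz; omega⟩
    obtain ⟨a, ha⟩ := invol_conj hodd (inv x hx).1 (inv x hx).2
    obtain ⟨b, hb⟩ := invol_conj hodd (inv y hy).1 (inv y hy).2
    exact isConj_iff.2 ⟨b * a⁻¹, by rw [← ha, ← hb]; group⟩

end Cfsg.Agent.S0809
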