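import Cfsg.Statements.S0810
import Cfsg.Agent.Lib.DicksonCor

set_option autoImplicit false
open Cfsg

namespace Cfsg.Agent.S0810

/-- PSL_2(q) is minimal simple iff q is 2^r (r prime), 3^r (r an odd prime), a prime greater than 5 congruent to 2 or 3 mod 5, or 5. -/
theorem result {F : Type*} [Field F] [Fintype F] {q : ℕ} (hF : Fintype.card F = q) : Cfsg.IsMinimalSimple (Matrix.ProjectiveSpecialLinearGroup (Fin 2) F) ↔ ((∃ r : ℕ, r.Prime ∧ q = 2 ^ r) ∨ (∃ r : ℕ, r.Prime ∧ r ≠ 2 ∧ q = 3 ^ r) ∨ (q.Prime ∧ 5 < q ∧ (q % 5 = 2 ∨ q % 5 = 3)) ∨ q = 5) := by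
  classical
  obtain ⟨p, hchar⟩ := CharP.exists F
  obtain ⟨b, hp, hb⟩ := FiniteField.card F p
  haveI := Fact.mk hp
  rw [hF] at hb
  have hq1 : 1 < q := hF ▸ Fintype.one_lt_card
  have hG : Nat.card (Matrix.ProjectiveSpecialLinearGroup (Fin 2) F) * Nat.gcd 2 (q - 1) = q * (q - 1) * (q + 1) :=
    CfsgLib.Dickson.card_psl hF (p := p)
  constructor
  · rintro ⟨hsimple, hnc, hsolv⟩
    have h4 : 4 ≤ q := by
      by_contra hlt
      apply hnc
      have hle : Nat.card (Matrix.ProjectiveSpecialLinearGroup (Fin 2) F) ≤ 12 := by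
        rcases (show q = 2 ∨ q = 3 by omega) with h | h <;> subst h
        · rw [show Nat.gcd 2 (2 - 1) = 1 from rfl] at hG; omega
        · rw [show Nat.gcd 2 (3 - 1) = 2 from rfl] at hG; omega
      -- a simple group with a subgroup of index at most four is abelian
      by_contra hnc'
      obtain ⟨x, hx⟩ : ∃ x : Matrix.ProjectiveSpecialLinearGroup (Fin 2) F, orderOf x = p := by
        refine exists_prime_orderOf_dvd_card' p ?_
        have hpq : p ∣ q := hb ▸ dvd_pow_self p b.ne_zero
        rcases (show q = 2 ∨ q = 3 by omega) with h | h <;> subst h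
        · rw [show Nat.gcd 2 (2 - 1) = 1 from rfl] at hG
          exact hpq.trans ⟨3, by omega⟩
        · rw [show Nat.gcd 2 (3 - 1) = 2 from rfl] at hG
          exact hpq.trans ⟨4, by omega⟩
      have hx2 : 2 ≤ p := hp.two_le
      have hne : Subgroup.zpowers x ≠ ⊤ := fun h => hnc' (by
        have hc : IsCyclic (Matrix.ProjectiveSpecialLinearGroup (Fin 2) F) :=
          ⟨⟨x, fun y => (show y ∈ Subgroup.zpowers x by rw [h]; exact Subgroup.mem_top y)⟩⟩
        exact ⟨⟨(IsCyclic.commGroup (α := Matrix.ProjectiveSpecialLinearGroup (Fin 2) F)).mul_comm⟩⟩)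
      have h5 := CfsgLib.Perm.five_le_index hnc' _ hne
      have hi := (Subgroup.zpowers x).index_mul_card
      rw [Nat.card_zpowers, hx] at hi
      rcases (show q = 2 ∨ q = 3 by omega) with h | h
      · subst h
        rw [show Nat.gcd 2 (2 - 1) = 1 from rfl] at hG
        have := Nat.mul_le_mul h5 hx2
        omega
      · subst h
        have hp3 : p = 3 := ((Nat.prime_dvd_prime_iff_eq hp Nat.prime_three).mp (hb ▸ dvd_pow_self p b.ne_zero))
        subst hp3
        omega
    -- subfields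
    have hsub : ∀ a c : ℕ, (b : ℕ) = a * c → 2 ≤ c → 4 ≤ p ^ a → False := by
      intro a c hac hc2 ha4
      have ha : a ≠ 0 := fun e => by subst e; simp at ha4
      let K := GaloisField p a
      haveI : Fintype K := Fintype.ofFinite K
      have hK : Fintype.card K = p ^ a := by rw [← Nat.card_eq_fintype_card]; exact GaloisField.card p a ha
      obtain ⟨φ⟩ := CfsgLib.Dickson.exists_field_hom (F := F) hK (m := c) (by rw [hF, hb, hac, pow_mul]) (by omega)
      obtain ⟨f, hf, -⟩ := CfsgLib.Dickson.exists_psl_hom_map φ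
      have hne : f.range ≠ ⊤ := fun h => by
        haveI : CharP K p := CfsgLib.Dickson.char_eq_of_pow (F := F) hK (m := c) (by rw [hF, hb, hac, pow_mul]) (by omega) p
        have h1 := CfsgLib.Dickson.card_psl hK (p := p)
        rw [Nat.card_congr (MonoidHom.ofInjective hf).toEquiv, h, Subgroup.card_top] at h1
        have hlt : p ^ a * 2 ≤ q := by
          rw [hb, hac]
          calc p ^ a * 2 ≤ p ^ a * p ^ a := Nat.mul_le_mul_left _ (le_trans (by norm_num) ha4)
            _ = p ^ (a * 2) := by rw [pow_mul, pow_two]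
            _ ≤ p ^ (a * c) := Nat.pow_le_pow_right hp.pos (Nat.mul_le_mul_left a hc2)
        have hdK : Nat.gcd 2 (p ^ a - 1) ≤ 2 := Nat.le_of_dvd two_pos (Nat.gcd_dvd_left 2 _)
        have hdF : Nat.gcd 2 (q - 1) ≤ 2 := Nat.le_of_dvd two_pos (Nat.gcd_dvd_left 2 _)
        have hlt2 : p ^ a * 2 * (p ^ a - 1) * (p ^ a + 1) < q * (q - 1) * (q + 1) :=
          Nat.mul_lt_mul_of_le_of_lt (Nat.mul_le_mul hlt (by omega)) (by omega) (Nat.mul_pos (by omega) (by omega))
        rw [show p ^ a * 2 * (p ^ a - 1) * (p ^ a + 1) = 2 * (p ^ a * (p ^ a - 1) * (p ^ a + 1)) by ring, ← h1, ← hG] at hlt2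
        have hdK0 : 0 < Nat.gcd 2 (p ^ a - 1) := Nat.gcd_pos_of_pos_left _ two_pos
        have := Nat.mul_le_mul_left (Nat.card (Matrix.ProjectiveSpecialLinearGroup (Fin 2) F)) (show Nat.gcd 2 (q - 1) ≤ 2 * Nat.gcd 2 (p ^ a - 1) by omega)
        linarith
      refine CfsgLib.Dickson.psl_not_isSolvable (K := K) (by rw [hK]; exact ha4) ?_
      haveI := hsolv _ hne
      exact CfsgLib.Dickson.isSolvable_of_iso (MonoidHom.ofInjective hf) inferInstance
    have hA5 : 9 ≤ q → 5 ∣ q * (q ^ 2 - 1) → False := by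
      intro h9 h5
      obtain ⟨H, ⟨e⟩⟩ := (Cfsg.Agent.S0804.result hF).mpr h5
      refine CfsgLib.Dickson.not_isSolvable_alt_five (CfsgLib.Dickson.isSolvable_of_iso e.symm (hsolv H fun h => ?_))
      have hc : Nat.card H = 60 := by
        rw [Nat.card_congr e.toEquiv, nat_card_alternatingGroup, Nat.card_fin]; rfl
      rw [h, Subgroup.card_top] at hc
      rw [hc] at hG
      have h1 : 9 * 8 * 10 ≤ q * (q - 1) * (q + 1) := Nat.mul_le_mul (Nat.mul_le_mul h9 (by omega)) (by omega)
      have := Nat.le_of_dvd two_pos (Nat.gcd_dvd_left 2 (q - 1))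
      omega
    have hbpos : 0 < (b : ℕ) := b.pos
    rcases Nat.lt_or_ge (b : ℕ) 2 with hb1 | hb2
    · have hb1' : (b : ℕ) = 1 := by omega
      rw [hb1', pow_one] at hb
      subst hb
      by_cases h5 : q = 5
      · exact Or.inr (Or.inr (Or.inr h5))
      · refine Or.inr (Or.inr (Or.inl ⟨hp, ?_, ?_⟩))
        · have hq4 : q ≠ 4 := fun e => by rw [e] at hp; norm_num at hp
          omega
        · by_contra h23
          have hq5 : q % 5 ≠ 0 := fun e => h5 ((Nat.prime_dvd_prime_iff_eq Nat.prime_five hp).mp (Nat.dvd_of_mod_eq_zero e)).symm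
          have hq4 : q ≠ 4 := fun e => by rw [e] at hp; norm_num at hp
          have hq6 : q ≠ 6 := fun e => by rw [e] at hp; norm_num at hp
          exact hA5 (by omega) ((CfsgLib.Dickson.five_dvd_iff q hp).mpr (Or.inr (by omega)))
    · -- proper powers
      have hp3 : p = 2 ∨ p = 3 := by
        by_contra h
        push Not at h
        have := hp.two_le
        have h4 : p ≠ 4 := fun e => by rw [e] at hp; norm_num at hp
        exact hsub 1 b (one_mul _).symm hb2 (by rw [pow_one]; omega)
      have hbp : (b : ℕ).Prime := by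
        refine Nat.prime_def.mpr ⟨hb2, fun a ha => ?_⟩
        obtain ⟨c, hc⟩ := ha
        by_contra hne
        push Not at hne
        have hc0 : c ≠ 0 := fun e => by rw [e, mul_zero] at hc; omega
        have hc1 : c ≠ 1 := fun e => hne.2 (by rw [hc, e, mul_one])
        have ha0 : a ≠ 0 := fun e => by rw [e, zero_mul] at hc; omega
        have ha2 : 2 ≤ a := by omega
        refine hsub a c hc (by omega) ?_
        calc 4 = 2 ^ 2 := rfl
          _ ≤ p ^ 2 := Nat.pow_le_pow_left hp.two_le 2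
          _ ≤ p ^ a := Nat.pow_le_pow_right hp.pos ha2
      rcases hp3 with h | h
      · exact Or.inl ⟨b, hbp, by rw [hb, h]⟩
      · refine Or.inr (Or.inl ⟨b, hbp, fun h2 => ?_, by rw [hb, h]⟩)
        rw [h, h2] at hb
        subst hb
        exact hA5 (by norm_num) (by norm_num)
  · intro hcases
    have h4 : 4 ≤ q := by
      rcases hcases with ⟨r, hr, h⟩ | ⟨r, hr, -, h⟩ | ⟨-, h, -⟩ | h
      · rw [h]; exact le_trans (by norm_num) (Nat.pow_le_pow_right (show 0 < 2 by norm_num) hr.two_le)
      · rw [h]; exact le_trans (by norm_num) (Nat.pow_le_pow_right (show 0 < 3 by norm_num) hr.two_le)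
      · omega
      · omega
    have h5free : q = 4 ∨ q = 5 ∨ ¬ 5 ∣ q * (q ^ 2 - 1) := by
      have hodd : ∀ a i : ℕ, (a = 2 ∨ a = 3) → ¬ 5 ∣ a ^ (2 * i + 1) * ((a ^ (2 * i + 1)) ^ 2 - 1) := by
        intro a i ha h5
        have hQ : a ^ (2 * i + 1) % 5 = 3 ∨ a ^ (2 * i + 1) % 5 = 2 := by
          clear h5
          induction i with
          | zero => rcases ha with rfl | rfl <;> simp
          | succ i ih =>
            rw [show 2 * (i + 1) + 1 = 2 * i + 1 + 2 by ring, pow_add, Nat.mul_mod]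
            rcases ih with h | h <;> rw [h] <;> rcases ha with rfl | rfl <;> norm_num
        rw [Nat.dvd_iff_mod_eq_zero, Nat.mul_mod] at h5
        have h1 : 1 ≤ (a ^ (2 * i + 1)) ^ 2 := Nat.one_le_pow _ _ (by rcases ha with rfl | rfl <;> positivity)
        have hsq : (a ^ (2 * i + 1)) ^ 2 % 5 = 4 := by
          rw [Nat.pow_mod]; rcases hQ with h | h <;> rw [h] <;> norm_num
        rw [show ((a ^ (2 * i + 1)) ^ 2 - 1) % 5 = 3 by omega] at h5
        rcases hQ with h | h <;> rw [h] at h5 <;> norm_num at h5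
      rcases hcases with ⟨r, hr, h⟩ | ⟨r, hr, hr2, h⟩ | ⟨hqp, h5, hm⟩ | h
      · rcases hr.eq_two_or_odd' with rfl | ⟨i, rfl⟩
        · exact Or.inl (by rw [h]; norm_num)
        · exact Or.inr (Or.inr (h ▸ hodd 2 i (Or.inl rfl)))
      · obtain ⟨i, rfl⟩ := hr.odd_of_ne_two hr2
        exact Or.inr (Or.inr (h ▸ hodd 3 i (Or.inr rfl)))
      · refine Or.inr (Or.inr fun h => ?_)
        have := (CfsgLib.Dickson.five_dvd_iff q hqp).mp h
        omega
      · exact Or.inr (Or.inl h)
    refine ⟨CfsgLib.Dickson.psl_card_pos (by rw [hF]; exact h4), CfsgLib.Dickson.psl_not_comm, fun H hH => ?_⟩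
    rcases CfsgLib.Dickson.dickson_list hF p H with ⟨k, -, ⟨hc, -⟩ | ⟨⟨e⟩⟩⟩ | ⟨P, hP⟩ | ⟨⟨e⟩⟩ | ⟨⟨e⟩⟩ | ⟨⟨e⟩⟩ | ⟨K, hK, hKf, m, hm, hiso⟩
    · exact Group.isSolvable_of_comm (IsCyclic.commGroup (α := H)).mul_comm
    · exact CfsgLib.Dickson.isSolvable_of_iso e (CfsgLib.Dickson.isSolvable_dihedral k)
    · haveI := CfsgLib.Dickson.borel_isSolvable P
      exact Group.isSolvable_of_isSolvable_injective (Subgroup.inclusion_injective hP)
    · exact CfsgLib.Dickson.isSolvable_of_iso e CfsgLib.Perm.isSolvable_alternating_four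
    · exact CfsgLib.Dickson.isSolvable_of_iso e CfsgLib.Dickson.isSolvable_perm_four
    · exfalso
      rcases h5free with h | h | h
      · refine hH (Subgroup.eq_top_of_card_eq _ ?_)
        rw [Nat.card_congr e.toEquiv, nat_card_alternatingGroup, Nat.card_fin, show (5 : ℕ).factorial / 2 = 60 from rfl]
        subst h
        rw [show Nat.gcd 2 (4 - 1) = 1 from rfl] at hG
        omega
      · refine hH (Subgroup.eq_top_of_card_eq _ ?_)
        rw [Nat.card_congr e.toEquiv, nat_card_alternatingGroup, Nat.card_fin, show (5 : ℕ).factorial / 2 = 60 from rfl,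
          CfsgLib.Dickson.card_top_of_five p hF h]
      · exact h ((Cfsg.Agent.S0804.result hF).mp ⟨H, ⟨e⟩⟩)
    · have hk : Fintype.card K = q ∨ Fintype.card K = 2 ∨ Fintype.card K = 3 := by
        have hk1 : 1 < Fintype.card K := Fintype.one_lt_card
        have hm0 : m ≠ 0 := fun e => by rw [e, pow_zero] at hm; omega
        have hd : Fintype.card K ∣ q := hm ▸ dvd_pow_self _ hm0
        obtain ⟨i, hi, hie⟩ := (Nat.dvd_prime_pow hp).mp (hb ▸ hd)
        have hbp : (b : ℕ) = 1 ∨ ((p = 2 ∨ p = 3) ∧ (b : ℕ).Prime) := by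
          rcases hcases with ⟨r, hr, h⟩ | ⟨r, hr, -, h⟩ | ⟨hqp, -, -⟩ | h
          · right
            have h' : p ^ (b : ℕ) = 2 ^ r := hb.symm.trans h
            have hp2 : p = 2 := (Nat.prime_dvd_prime_iff_eq hp Nat.prime_two).mp (hp.dvd_of_dvd_pow (h' ▸ dvd_pow_self p b.ne_zero))
            subst hp2
            exact ⟨Or.inl rfl, Nat.pow_right_injective le_rfl h' ▸ hr⟩
          · right
            have h' : p ^ (b : ℕ) = 3 ^ r := hb.symm.trans h
            have hp2 : p = 3 := (Nat.prime_dvd_prime_iff_eq hp Nat.prime_three).mp (hp.dvd_of_dvd_pow (h' ▸ dvd_pow_self p b.ne_zero))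
            subst hp2
            exact ⟨Or.inr rfl, Nat.pow_right_injective (by norm_num) h' ▸ hr⟩
          · exact Or.inl (Nat.Prime.pow_eq_iff (hb ▸ hqp) |>.mp (hb ▸ rfl : p ^ (b : ℕ) = q) |>.2)
          · left
            subst h
            have hp5 : p = 5 := (Nat.prime_dvd_prime_iff_eq hp Nat.prime_five).mp (hb ▸ dvd_pow_self p b.ne_zero)
            subst hp5
            exact Nat.pow_right_injective (by norm_num) (show 5 ^ (b : ℕ) = 5 ^ 1 by omega)
        rcases i with _ | i
        · rw [pow_zero] at hie; omega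
        rcases hbp with h1 | ⟨hp23, hbp⟩
        · left; rw [hie, hb, h1]; congr 1; omega
        · by_cases hib : i + 1 = b
          · left; rw [hie, hb, hib]
          · have hdiv : i + 1 ∣ (b : ℕ) := by
              have : p ^ ((i + 1) * m) = p ^ (b : ℕ) := by rw [pow_mul, ← hie, hm, hb]
              exact ⟨m, (Nat.pow_right_injective hp.two_le this).symm⟩
            rcases (Nat.dvd_prime hbp).mp hdiv with h | h
            · rw [h, pow_one] at hie
              rcases hp23 with e | e
              · exact Or.inr (Or.inl (hie.trans e))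
              · exact Or.inr (Or.inr (hie.trans e))
            · exact absurd h hib
      rcases hk with h | h
      · exact absurd (CfsgLib.Dickson.eq_top_of_subfield (p := p) hF h hiso) hH
      · exact CfsgLib.Dickson.isSolvable_subfield_small h hiso

end Cfsg.Agent.S0810
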