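import Cfsg.Statements.S0811
import Cfsg.Agent.Lib.DicksonDihedralMax

set_option autoImplicit false
open Cfsg

namespace Cfsg.Agent.S0811

/-- For q ∉ {2, 7, 9}, PSL_2(q) has a maximal subgroup isomorphic to the dihedral group of order 2(q + 1)/d, d = gcd(2, q − 1). -/
theorem result {F : Type*} [Field F] [Fintype F] {q : ℕ} (hF : Fintype.card F = q) (hq : q ∉ ({2, 7, 9} : Finset ℕ)) : ∃ H : Subgroup (Matrix.ProjectiveSpecialLinearGroup (Fin 2) F), IsCoatom H ∧ Nonempty (H ≃* DihedralGroup ((q + 1) / Nat.gcd 2 (q - 1))) := by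
  simp only [Finset.mem_insert, Finset.mem_singleton, not_or] at hq
  obtain ⟨h2, h7, h9⟩ := hq
  have hq1 : 1 < q := hF ▸ Fintype.one_lt_card
  by_cases h3 : q = 3
  · subst h3
    exact CfsgLib.Dickson.psl_two_three hF rfl
  refine CfsgLib.Dickson.exists_dihedral_max hF (by omega) (q + 1) (Or.inr rfl) h9 ?_
  obtain ⟨p, hchar⟩ := CharP.exists F
  obtain ⟨m, hp, hm⟩ := FiniteField.card F p
  rcases CfsgLib.Dickson.gcd_two_cases (q := q) (by omega) with ⟨ho, hd⟩ | ⟨ho, hd⟩ <;> rw [hd]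
  · by_cases h4 : q = 4
    · subst h4; exact Or.inr (by norm_num)
    · left; omega
  · by_cases h5 : q = 5
    · subst h5; exact Or.inr (by norm_num)
    · left; omega

end Cfsg.Agent.S0811
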