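import Cfsg.Statements.S0812
import Cfsg.Agent.Lib.DicksonDihedralMax

set_option autoImplicit false
open Cfsg

namespace Cfsg.Agent.S0812

/-- For q ∉ {2, 3, 5, 7, 9, 11}, PSL_2(q) has a maximal subgroup isomorphic to the dihedral group of order 2(q − 1)/d, d = gcd(2, q − 1). -/
theorem result {F : Type*} [Field F] [Fintype F] {q : ℕ} (hF : Fintype.card F = q) (hq : q ∉ ({2, 3, 5, 7, 9, 11} : Finset ℕ)) : ∃ H : Subgroup (Matrix.ProjectiveSpecialLinearGroup (Fin 2) F), IsCoatom H ∧ Nonempty (H ≃* DihedralGroup ((q - 1) / Nat.gcd 2 (q - 1))) := by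
  simp only [Finset.mem_insert, Finset.mem_singleton, not_or] at hq
  obtain ⟨h2, h3, h5, h7, h9, h11⟩ := hq
  have hq1 : 1 < q := hF ▸ Fintype.one_lt_card
  refine CfsgLib.Dickson.exists_dihedral_max hF (by omega) (q - 1) (Or.inl rfl) h9 ?_
  rcases CfsgLib.Dickson.gcd_two_cases (q := q) (by omega) with ⟨ho, hd⟩ | ⟨ho, hd⟩ <;> rw [hd]
  · by_cases h4 : q = 4
    · subst h4; exact Or.inr (by norm_num)
    · have : q ≠ 6 := by
        obtain ⟨p, hchar⟩ := CharP.exists F
        obtain ⟨m, hp, hm⟩ := FiniteField.card F p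
        intro h6
        rw [hF, h6] at hm
        have hp2 : 2 ∣ p := Nat.prime_two.dvd_of_dvd_pow (hm ▸ (by norm_num : 2 ∣ 6))
        have hp3 : 3 ∣ p := Nat.prime_three.dvd_of_dvd_pow (hm ▸ (by norm_num : 3 ∣ 6))
        have e2 := (Nat.prime_dvd_prime_iff_eq Nat.prime_two hp).1 hp2
        omega
      left; omega
  · left; omega

end Cfsg.Agent.S0812
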