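import Cfsg.Statements.S0819
import Mathlib

set_option autoImplicit false
open Cfsg

namespace Cfsg.Agent.S0819

open Matrix

variable {F : Type*} [Field F] [Fintype F]

theorem cayley3 (M : Matrix (Fin 3) (Fin 3) F) :
    M * M * M = M.trace • (M * M) - (M 0 0 * M 1 1 - M 0 1 * M 1 0 + (M 0 0 * M 2 2 - M 0 2 * M 2 0) + (M 1 1 * M 2 2 - M 1 2 * M 2 1)) • M + M.det • 1 := by
  ext i j
  fin_cases i <;> fin_cases j <;>
    simp [Matrix.mul_apply, Fin.sum_univ_three, Matrix.trace, Matrix.det_fin_three] <;> ring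

theorem pow_scalar (M : Matrix (Fin 3) (Fin 3) F) (t s : F) (h2 : (2 : F) = 0) (hF : ∀ x : F, x ≠ 0 → x ^ 3 = 1)
    (h : M * M * M = t • (M * M) + s • M + 1) :
    ∃ k ∈ [3, 4, 5, 7], ∃ c : F, M ^ k = c • (1 : Matrix (Fin 3) (Fin 3) F) := by
  have step : ∀ a b c : F, M * (a • (M * M) + b • M + c • 1) = (a * t + b) • (M * M) + (a * s + c) • M + a • 1 := by
    intro a b c
    rw [mul_add, mul_add, Matrix.mul_smul, Matrix.mul_smul, Matrix.mul_smul, ← mul_assoc, h, mul_one]
    module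
  have p3 : M ^ 3 = t • (M * M) + s • M + (1 : F) • 1 := by rw [pow_succ, pow_two, h, one_smul]
  have p4 : M ^ 4 = (t * t + s) • (M * M) + (t * s + 1) • M + t • 1 := by rw [pow_succ', p3, step]
  have p5 := pow_succ' M 4
  rw [p4, step] at p5
  have p6 := pow_succ' M 5
  rw [p5, step] at p6
  have p7 := pow_succ' M 6
  rw [p6, step] at p7
  by_cases ht : t = 0
  · by_cases hs : s = 0
    · exact ⟨3, by simp, 1, by rw [p3, ht, hs]; simp⟩
    · refine ⟨7, by simp, (((t * t + s) * t + (t * s + 1)) * t + ((t * t + s) * s + t)), ?_⟩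
      have e : s ^ 3 = 1 := hF s hs
      rw [show M ^ 7 = _ from p7, ht]
      match_scalars <;> grobner
  · have et : t ^ 3 = 1 := hF t ht
    by_cases hs : s = 0
    · refine ⟨7, by simp, (((t * t + s) * t + (t * s + 1)) * t + ((t * t + s) * s + t)), ?_⟩
      rw [show M ^ 7 = _ from p7, hs]
      match_scalars <;> grobner
    · have es : s ^ 3 = 1 := hF s hs
      by_cases hst : s = t ^ 2
      · refine ⟨4, by simp, t, ?_⟩
        rw [p4, hst]
        match_scalars <;> grobner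
      · refine ⟨5, by simp, t * t + s, ?_⟩
        have hu : (s - t ^ 2) * (s ^ 2 + s * t ^ 2 + t) = 0 := by grobner
        have := (mul_eq_zero.1 hu).resolve_left (sub_ne_zero.2 hst)
        rw [show M ^ 5 = _ from p5]
        match_scalars <;> grobner

/-- No element of PSL_3(4) has order 15. -/
theorem result {F : Type*} [Field F] [Fintype F] (hF : Fintype.card F = 4) (g : Matrix.ProjectiveSpecialLinearGroup (Fin 3) F) : orderOf g ≠ 15 := by
  intro hg
  have h2 : (2 : F) = 0 := by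
    have h0 := FiniteField.cast_card_eq_zero F
    rw [hF] at h0
    have : (2 : F) * 2 = 0 := by norm_num; exact_mod_cast h0
    exact mul_self_eq_zero.1 this
  obtain ⟨A, rfl⟩ := QuotientGroup.mk_surjective g
  have hF3 : ∀ x : F, x ≠ 0 → x ^ 3 = 1 := fun x hx => by
    have := FiniteField.pow_card_sub_one_eq_one x hx; rwa [hF] at this
  have hA : A.1 * A.1 * A.1 = A.1.trace • (A.1 * A.1) + (A.1 0 0 * A.1 1 1 - A.1 0 1 * A.1 1 0 +
      (A.1 0 0 * A.1 2 2 - A.1 0 2 * A.1 2 0) + (A.1 1 1 * A.1 2 2 - A.1 1 2 * A.1 2 1)) • A.1 + 1 := by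
    haveI : CharP F 2 := CharTwo.of_one_ne_zero_of_two_eq_zero one_ne_zero h2
    rw [cayley3 A.1, A.2, one_smul, sub_eq_add_neg, ← neg_smul, CharTwo.neg_eq]
  obtain ⟨k, hk, c, hc⟩ := pow_scalar A.1 _ _ h2 hF3 hA
  have hmem : A ^ k ∈ Subgroup.center (Matrix.SpecialLinearGroup (Fin 3) F) := by
    refine Subgroup.mem_center_iff.2 fun B => Subtype.ext ?_
    rw [Matrix.SpecialLinearGroup.coe_mul, Matrix.SpecialLinearGroup.coe_mul, Matrix.SpecialLinearGroup.coe_pow, hc]
    simp
  have hd : orderOf (QuotientGroup.mk A : Matrix.ProjectiveSpecialLinearGroup (Fin 3) F) ∣ k := by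
    apply orderOf_dvd_of_pow_eq_one
    rw [← QuotientGroup.mk_pow, QuotientGroup.eq_one_iff]
    exact hmem
  rw [hg] at hd
  fin_cases hk <;> norm_num at hd

end Cfsg.Agent.S0819
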