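import Cfsg.Statements.S0820
import Mathlib

set_option autoImplicit false
open Cfsg

namespace Cfsg.Agent.S0820

open Matrix

variable {F : Type*} [Field F] [Fintype F]

theorem isConj_std {F : Type*} [Field F] (h2 : (2 : F) = 0) (A : SpecialLinearGroup (Fin 3) F) (hA : A * A = 1) (hA1 : A ≠ 1) :
    IsConj (SpecialLinearGroup.transvection (show (0 : Fin 3) ≠ 1 by decide) (1 : F)) A := by
  classical
  set N : Matrix (Fin 3) (Fin 3) F := A.1 - 1 with hN
  have hNN : N * N = 0 := by
    have e : A.1 * A.1 = 1 := congrArg Subtype.val hA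
    rw [hN, sub_mul, mul_sub, one_mul, mul_one, e]
    have : (2 : F) • A.1 = 0 := by rw [h2, zero_smul]
    rw [two_smul] at this
    have h11 : (2 : F) • (1 : Matrix (Fin 3) (Fin 3) F) = 0 := by rw [h2, zero_smul]
    rw [two_smul] at h11
    calc (1 - A.1) - (A.1 - 1) = (1 + 1) - (A.1 + A.1) := by abel
      _ = 0 := by rw [this, h11, sub_zero]
  have hN0 : N ≠ 0 := fun h => hA1 (Subtype.ext (sub_eq_zero.1 h))
  set L := Matrix.toLin' N with hL
  have hle : LinearMap.range L ≤ LinearMap.ker L := by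
    rintro _ ⟨x, rfl⟩
    rw [LinearMap.mem_ker, hL, Matrix.toLin'_apply, Matrix.toLin'_apply, mulVec_mulVec, hNN, zero_mulVec]
  obtain ⟨x0, hx0⟩ : ∃ x, L x ≠ 0 := by
    by_contra! h
    exact hN0 (Matrix.toLin'.injective (by rw [map_zero]; exact LinearMap.ext h))
  set a := L x0 with ha
  have hr1 : Module.finrank F (LinearMap.range L) ≤ 1 := by
    have h1 := LinearMap.finrank_range_add_finrank_ker L
    have h2' := Submodule.finrank_mono hle
    rw [Module.finrank_fin_fun] at h1
    omega
  have hline : ∀ x, ∃ c : F, c • a = L x := by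
    intro x
    have hs : Submodule.span F {a} = LinearMap.range L := by
      refine Submodule.eq_of_le_of_finrank_le ?_ (by rw [finrank_span_singleton hx0]; exact hr1)
      rw [Submodule.span_le]; rintro _ rfl; exact ⟨x0, rfl⟩
    exact Submodule.mem_span_singleton.1 (hs ▸ ⟨x, rfl⟩ : L x ∈ Submodule.span F {a})
  choose φf hφf using hline
  have hlin : ∀ x, L x = (∑ i, x i * φf (Pi.single i 1)) • a := by
    intro x
    conv_lhs => rw [pi_eq_sum_univ' x]
    rw [map_sum, Finset.sum_smul]
    exact Finset.sum_congr rfl fun i _ => by rw [map_smul, ← hφf, smul_smul]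
  set φ : Fin 3 → F := fun i => φf (Pi.single i 1) with hφ
  have hlin' : ∀ x, L x = (x ⬝ᵥ φ) • a := hlin
  have hφa : a ⬝ᵥ φ = 0 := by
    have h := hlin' a
    rw [show L a = 0 from hle ⟨x0, rfl⟩] at h
    exact (smul_eq_zero.1 h.symm).resolve_right hx0
  have hx0φ : x0 ⬝ᵥ φ = 1 := by
    have h := hlin' x0
    rw [← ha] at h
    have : (x0 ⬝ᵥ φ - 1) • a = 0 := by rw [sub_smul, one_smul, ← h, sub_self]
    exact sub_eq_zero.1 ((smul_eq_zero.1 this).resolve_right hx0)
  obtain ⟨u, -, hu⟩ := SetLike.exists_of_lt (lt_top_iff_ne_top.2 (show Submodule.span F ({a, x0} : Set (Fin 3 → F)) ≠ ⊤ from fun h => by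
    have h1 : Module.finrank F (Submodule.span F ({a, x0} : Set (Fin 3 → F))) ≤ 2 := by
      refine (finrank_span_le_card _).trans ?_
      rw [Set.toFinset_card]
      simpa using Finset.card_le_two (a := a) (b := x0)
    rw [h, finrank_top, Module.finrank_fin_fun] at h1
    omega))
  set w := u - (u ⬝ᵥ φ) • x0 with hw
  have hwφ : w ⬝ᵥ φ = 0 := by rw [hw, sub_dotProduct, smul_dotProduct, hx0φ, smul_eq_mul, mul_one, sub_self]
  have hli : LinearIndependent F ![a, x0, w] := by
    rw [Fintype.linearIndependent_iff]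
    intro c hc
    simp only [Fin.sum_univ_three, Matrix.cons_val_zero, Matrix.cons_val_one, Matrix.cons_val_two, Matrix.head_cons, Matrix.tail_cons] at hc
    have h1 := congrArg (· ⬝ᵥ φ) hc
    simp [add_dotProduct, smul_dotProduct, hφa, hx0φ, hwφ] at h1
    by_cases hc2 : c 2 = 0
    · rw [hc2, h1] at hc
      simp at hc
      intro i
      fin_cases i
      · exact hc.resolve_right hx0
      · exact h1
      · exact hc2
    · refine absurd ?_ hu
      have hwmem : w ∈ Submodule.span F ({a, x0} : Set (Fin 3 → F)) := by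
        have : w = (c 2)⁻¹ • (-(c 0 • a + c 1 • x0)) := by
          rw [eq_inv_smul_iff₀ hc2]; exact eq_neg_of_add_eq_zero_right hc
        rw [this]
        exact Submodule.smul_mem _ _ (Submodule.neg_mem _ (Submodule.add_mem _
          (Submodule.smul_mem _ _ (Submodule.subset_span (by simp))) (Submodule.smul_mem _ _ (Submodule.subset_span (by simp)))))
      rw [show u = w + (u ⬝ᵥ φ) • x0 by rw [hw]; abel]
      exact Submodule.add_mem _ hwmem (Submodule.smul_mem _ _ (Submodule.subset_span (by simp)))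
  set P : Matrix (Fin 3) (Fin 3) F := (Matrix.of ![a, x0, w])ᵀ with hP
  have hdet : P.det ≠ 0 := by
    rw [hP, Matrix.det_transpose, ← isUnit_iff_ne_zero, ← Matrix.isUnit_iff_isUnit_det, ← Matrix.linearIndependent_rows_iff_isUnit]
    exact hli
  set P' : Matrix (Fin 3) (Fin 3) F := P * Matrix.diagonal ![1, 1, P.det⁻¹] with hP'
  have hd1 : P'.det = 1 := by
    rw [hP', det_mul, det_diagonal, Fin.prod_univ_three]
    simp [mul_inv_cancel₀ hdet]
  rw [isConj_iff]
  refine ⟨(⟨P', hd1⟩ : SpecialLinearGroup (Fin 3) F), mul_inv_eq_iff_eq_mul.2 ?_⟩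
  refine Subtype.ext (Matrix.ext_of_mulVec_single fun j => ?_)
  show (P' * (SpecialLinearGroup.transvection (show (0 : Fin 3) ≠ 1 by decide) (1 : F)).1) *ᵥ _ = (A.1 * P') *ᵥ _
  rw [SpecialLinearGroup.transvection_coe, ← mulVec_mulVec _ P' _, ← mulVec_mulVec _ A.1 P']
  have hcol : ∀ i, P' *ᵥ Pi.single i 1 = ![a, x0, P.det⁻¹ • w] i := by
    intro i
    rw [hP', ← mulVec_mulVec, mulVec_single_one]
    ext l
    fin_cases i <;> simp [hP, Matrix.mulVec, dotProduct, Fin.sum_univ_three, mul_comm]
  have hNv : ∀ v, A.1 *ᵥ v = v + (v ⬝ᵥ φ) • a := by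
    intro v
    rw [← hlin', hL, Matrix.toLin'_apply, hN, sub_mulVec, one_mulVec]
    abel
  rw [hNv, hcol, add_mulVec, one_mulVec, mulVec_add, hcol, single_mulVec_eq]
  fin_cases j <;> simp [hcol, hφa, hx0φ, hwφ, mulVec_smul, smul_dotProduct]

/-- Any two elements of order 2 of PSL_3(4) are conjugate. -/
theorem result {F : Type*} [Field F] [Fintype F] (hF : Fintype.card F = 4) (x y : Matrix.ProjectiveSpecialLinearGroup (Fin 3) F) (hx : orderOf x = 2) (hy : orderOf y = 2) : IsConj x y := by
  classical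
  have h2 : (2 : F) = 0 := by
    have h0 := FiniteField.cast_card_eq_zero F
    rw [hF] at h0
    have : (2 : F) * 2 = 0 := by norm_num; exact_mod_cast h0
    exact mul_self_eq_zero.1 this
  have key : ∀ x : Matrix.ProjectiveSpecialLinearGroup (Fin 3) F, orderOf x = 2 →
      IsConj (QuotientGroup.mk (SpecialLinearGroup.transvection (show (0 : Fin 3) ≠ 1 by decide) (1 : F)) : Matrix.ProjectiveSpecialLinearGroup (Fin 3) F) x := by
    intro x hx
    obtain ⟨A, rfl⟩ := QuotientGroup.mk_surjective x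
    have hz : A * A ∈ Subgroup.center (SpecialLinearGroup (Fin 3) F) := by
      rw [← QuotientGroup.eq_one_iff, QuotientGroup.mk_mul, ← pow_two, ← hx, pow_orderOf_eq_one]
    have hz3 : (A * A) ^ 3 = 1 := by
      obtain ⟨r, hr, hrA⟩ := Matrix.SpecialLinearGroup.mem_center_iff.1 hz
      refine Subtype.ext ?_
      show (A * A).1 ^ 3 = 1
      rw [← hrA, ← map_pow]
      rw [Fintype.card_fin] at hr
      rw [hr, map_one]
    have hmk : (QuotientGroup.mk (A ^ 3) : Matrix.ProjectiveSpecialLinearGroup (Fin 3) F) = QuotientGroup.mk A := by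
      rw [pow_succ, pow_two, QuotientGroup.mk_mul, (QuotientGroup.eq_one_iff _).2 hz, one_mul]
    rw [← hmk]
    refine MonoidHom.map_isConj (QuotientGroup.mk' _) (isConj_std h2 _ ?_ ?_)
    · rw [← hz3, ← pow_two, ← pow_two, ← pow_mul, ← pow_mul]
    · intro h
      rw [h] at hmk
      rw [← hmk] at hx
      rw [QuotientGroup.mk_one, orderOf_one] at hx
      omega
  exact (key x hx).symm.trans (key y hy)

end Cfsg.Agent.S0820
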