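import Cfsg.Statements.S0821
import Cfsg.Agent.Lib.ClassicalInvolClasses

set_option autoImplicit false
open Cfsg

namespace Cfsg.Agent.S0821

set_option maxHeartbeats 800000

open Matrix Module CfsgLib.Classical CfsgLib.Classical.Invol

variable {F : Type*} [Field F] [Fintype F] {m : ℕ}

abbrev Idx (m : ℕ) : Type := Unit ⊕ (Fin m ⊕ Fin m)

theorem card_Idx (m : ℕ) : Fintype.card (Idx m) = 2 * m + 1 := by
  simp only [Idx, Fintype.card_sum, Fintype.card_unit, Fintype.card_fin]; omega

/-- an orthogonal basis -/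
def ee (F : Type*) [Field F] (m : ℕ) : Idx m → Idx m → F
  | .inl () => Pi.single (.inl ()) 1
  | .inr (.inl i) => Pi.single (.inr (.inl i)) 1 + Pi.single (.inr (.inr i)) 1
  | .inr (.inr i) => Pi.single (.inr (.inl i)) 1 - Pi.single (.inr (.inr i)) 1

/-- the sign of a basis vector -/
def eq' (F : Type*) [Field F] (m : ℕ) : Idx m → F
  | .inr (.inr _) => -1
  | _ => 1

theorem q_ee (j : Idx m) : Cfsg.quadFormOdd m F (ee F m j) = eq' F m j := by
  rcases j with ⟨⟩ | i | i <;> simp [ee, eq', Cfsg.quadFormOdd, Pi.single_apply]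

theorem polar_ee (j k : Idx m) (h : j ≠ k) : QuadraticMap.polar (Cfsg.quadFormOdd m F) (ee F m j) (ee F m k) = 0 := by
  rcases j with ⟨⟩ | i | i <;> rcases k with ⟨⟩ | l | l <;>
    simp [ee, polar_quadFormOdd, Pi.single_apply, Finset.sum_add_distrib, Finset.sum_sub_distrib, add_mul, sub_mul, mul_add, mul_sub] <;>
    first
    | (exfalso; exact h rfl)
    | (by_cases hil : i = l <;> simp_all [eq_comm])

/-- the `i`-th pair of vectors of equal value -/
def pairIdx (m : ℕ) (i : Fin m) (t : Fin 2) : Idx m :=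
  if hev : i.val % 2 = 0 then
    (if h : i.val + t.val = 0 then .inl () else .inr (.inl ⟨i.val + t.val - 1, by omega⟩))
  else .inr (.inr ⟨i.val - 1 + t.val, by omega⟩)

theorem pairIdx_inj {i i' : Fin m} {t t' : Fin 2} (h : pairIdx m i t = pairIdx m i' t') : i = i' ∧ t = t' := by
  unfold pairIdx at h
  split_ifs at h
  all_goals simp only [Sum.inl.injEq, Sum.inr.injEq, Fin.mk.injEq, reduceCtorEq] at h
  all_goals exact ⟨Fin.ext (by omega), Fin.ext (by omega)⟩

theorem pairIdx_val (i : Fin m) : eq' F m (pairIdx m i 1) = eq' F m (pairIdx m i 0) := by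
  unfold pairIdx
  split_ifs <;> rfl

theorem hQ0 (h2 : (2 : F) ≠ 0) : Cfsg.Geo.IsNondegenerateQuadraticForm (Cfsg.quadFormOdd m F) :=
  isNondegenerate_quadFormOdd h2 m

theorem ee_ne (h2 : (2 : F) ≠ 0) (j : Idx m) : Cfsg.quadFormOdd m F (ee F m j) ≠ 0 := by
  rw [q_ee]; rcases j with ⟨⟩ | i | i <;> simp [eq']

theorem ee_li (h2 : (2 : F) ≠ 0) : LinearIndependent F (ee F m) := by
  classical
  rw [Fintype.linearIndependent_iff]
  intro c hc i
  obtain ⟨B, hB⟩ : ∃ B : (Idx m → F) →ₗ[F] F, ∀ x, B x = QuadraticMap.polar (Cfsg.quadFormOdd m F) x (ee F m i) :=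
    ⟨(toBil (hQ0 h2).polar_bilinear).flip (ee F m i), fun x => rfl⟩
  have h := congrArg B hc
  rw [map_sum, map_zero, Finset.sum_eq_single i (fun j _ hj => by
    rw [map_smul, hB, polar_ee j i hj, smul_zero]) (by simp), map_smul, hB, pf_self (hQ0 h2)] at h
  exact (mul_eq_zero.mp h).resolve_right (mul_ne_zero h2 (ee_ne h2 i))

/-- negated set -/
def negSet (m k : ℕ) : Finset (Idx m) :=
  ((Finset.univ.filter fun i : Fin m => i.val < k) ×ˢ Finset.univ).image fun p => pairIdx m p.1 p.2

theorem exists_elt (h2 : (2 : F) ≠ 0) (hm : 3 ≤ m) : ∀ k ≤ m, ∃ g ∈ Cfsg.Geo.omegaGL (Cfsg.quadFormOdd m F),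
    ∀ j, (g : Matrix (Idx m) (Idx m) F) *ᵥ ee F m j = if j ∈ negSet m k then -ee F m j else ee F m j := by
  intro k
  induction k with
  | zero => exact fun _ => ⟨1, one_mem _, fun j => by simp [negSet]⟩
  | succ k ih =>
    intro hk
    obtain ⟨g, hg, hgj⟩ := ih (by omega)
    have hQ := hQ0 (F := F) (m := m) h2
    set a := pairIdx m ⟨k, by omega⟩ 0 with ha
    set b := pairIdx m ⟨k, by omega⟩ 1 with hb
    have hab : a ≠ b := fun h => absurd (pairIdx_inj h).2 (by decide)
    have h7 : 7 ≤ Fintype.card (Idx m) := by simp only [Idx, Fintype.card_sum, Fintype.card_unit, Fintype.card_fin]; omega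
    have he : Cfsg.quadFormOdd m F (ee F m b) = Cfsg.quadFormOdd m F (ee F m a) := by
      rw [q_ee, q_ee, hb, pairIdx_val]
    refine ⟨(qR hQ (ee F m a) * qR hQ (ee F m b)) * g, mul_mem (qR_mul_mem_omega hQ h7 (ee_ne h2 a) he) hg, fun j => ?_⟩
    have hr : ∀ c l : Idx m, (qR hQ (ee F m c) : Matrix (Idx m) (Idx m) F) *ᵥ ee F m l =
        if l = c then -ee F m l else ee F m l := by
      intro c l
      rw [qR_mulVec hQ (ee_ne h2 c)]
      by_cases hlc : l = c
      · subst hlc
        rw [if_pos rfl, pf_self hQ]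
        match_scalars
        field_simp [ee_ne h2 l]
        ring
      · rw [if_neg hlc, polar_ee l c hlc]; simp
    have hmem : ∀ l, l ∈ negSet m (k + 1) ↔ l ∈ negSet m k ∨ l = a ∨ l = b := by
      intro l
      simp only [negSet, Finset.mem_image, Finset.mem_product, Finset.mem_filter, Finset.mem_univ, true_and, and_true, Prod.exists]
      constructor
      · rintro ⟨i, t, hi, rfl⟩
        rcases Nat.lt_succ_iff_lt_or_eq.1 hi with h | h
        · exact Or.inl ⟨i, t, h, rfl⟩
        · rw [show i = ⟨k, by omega⟩ from Fin.ext h]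
          fin_cases t
          · exact Or.inr (Or.inl rfl)
          · exact Or.inr (Or.inr rfl)
      · rintro (⟨i, t, hi, rfl⟩ | rfl | rfl)
        · exact ⟨i, t, by omega, rfl⟩
        · exact ⟨⟨k, by omega⟩, 0, Nat.lt_succ_self k, rfl⟩
        · exact ⟨⟨k, by omega⟩, 1, Nat.lt_succ_self k, rfl⟩
    have hnot : ∀ t : Fin 2, pairIdx m ⟨k, by omega⟩ t ∉ negSet m k := by
      intro t ht
      simp only [negSet, Finset.mem_image, Finset.mem_product, Finset.mem_filter, Finset.mem_univ, true_and, and_true, Prod.exists] at ht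
      obtain ⟨i, t', hi, e⟩ := ht
      obtain ⟨rfl, -⟩ := pairIdx_inj e
      exact lt_irrefl _ hi
    rw [Units.val_mul, ← mulVec_mulVec, hgj, Units.val_mul, ← mulVec_mulVec]
    by_cases hj : j ∈ negSet m k
    · have hja : j ≠ a := fun h => by rw [h, ha] at hj; exact hnot 0 hj
      have hjb : j ≠ b := fun h => by rw [h, hb] at hj; exact hnot 1 hj
      rw [if_pos hj, if_pos ((hmem j).2 (Or.inl hj)), mulVec_neg, hr, if_neg hjb, mulVec_neg, hr, if_neg hja]
    · rw [if_neg hj, hr]
      by_cases hjb : j = b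
      · subst hjb
        rw [if_pos rfl, if_pos ((hmem _).2 (Or.inr (Or.inr rfl))), mulVec_neg, hr, if_neg (Ne.symm hab)]
      · rw [if_neg hjb, hr]
        by_cases hja : j = a
        · subst hja
          rw [if_pos rfl, if_pos ((hmem _).2 (Or.inr (Or.inl rfl)))]
        · rw [if_neg hja, if_neg fun h => by rcases (hmem j).1 h with h | h | h <;> contradiction]

theorem negN_conj {κ : Type} [Fintype κ] [DecidableEq κ] (C G : GL κ F) :
    finrank F (negN (Matrix.toLin' ((C * G * C⁻¹ : GL κ F) : Matrix κ κ F))) = finrank F (negN (Matrix.toLin' (G : Matrix κ κ F))) := by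
  have hinj : Function.Injective (Matrix.toLin' (C : Matrix κ κ F)) := fun a b h =>
    mulVec_injective C (by simpa [Matrix.toLin'_apply] using h)
  have hmap : negN (Matrix.toLin' ((C * G * C⁻¹ : GL κ F) : Matrix κ κ F)) =
      (negN (Matrix.toLin' (G : Matrix κ κ F))).map (Matrix.toLin' (C : Matrix κ κ F)) := ?_
  · rw [hmap]
    exact (Submodule.equivMapOfInjective _ hinj (negN (Matrix.toLin' (G : Matrix κ κ F)))).finrank_eq.symm
  ext x
  rw [mem_negN, Matrix.toLin'_apply, Submodule.mem_map, Units.val_mul, Units.val_mul, ← mulVec_mulVec, ← mulVec_mulVec]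
  constructor
  · intro h
    refine ⟨((C⁻¹ : GL κ F) : Matrix κ κ F) *ᵥ x, mem_negN.2 ?_, by rw [Matrix.toLin'_apply, mulVec_inv_mulVec]⟩
    rw [Matrix.toLin'_apply]
    apply mulVec_injective C
    simp only [mulVec_neg, mulVec_inv_mulVec]
    exact h
  · rintro ⟨y, hy, rfl⟩
    rw [mem_negN, Matrix.toLin'_apply] at hy
    rw [Matrix.toLin'_apply, inv_mulVec_mulVec, hy, mulVec_neg]

theorem elt_facts (h2 : (2 : F) ≠ 0) {k : ℕ} (hk : k ≤ m) {g : GL (Idx m) F}
    (hg : ∀ j, (g : Matrix (Idx m) (Idx m) F) *ᵥ ee F m j = if j ∈ negSet m k then -ee F m j else ee F m j) :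
    g * g = 1 ∧ finrank F (negN (Matrix.toLin' (g : Matrix (Idx m) (Idx m) F))) = 2 * k ∧
      finrank F (fixP (Matrix.toLin' (g : Matrix (Idx m) (Idx m) F))) = 2 * m + 1 - 2 * k := by
  classical
  have hsp : Submodule.span F (Set.range (ee F m)) = ⊤ :=
    (ee_li h2).span_eq_top_of_card_eq_finrank' (by rw [Module.finrank_pi])
  set T := Matrix.toLin' (g : Matrix (Idx m) (Idx m) F) with hT
  have hTj : ∀ j, T (ee F m j) = if j ∈ negSet m k then -ee F m j else ee F m j := fun j => by
    rw [hT, Matrix.toLin'_apply, hg]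
  have hTT : ∀ x, T (T x) = x := by
    have : T ∘ₗ T = LinearMap.id := LinearMap.ext_on_range hsp fun j => by
      rw [LinearMap.comp_apply, hTj, LinearMap.id_apply]
      split_ifs with h
      · rw [map_neg, hTj, if_pos h, neg_neg]
      · rw [hTj, if_neg h]
    exact fun x => LinearMap.congr_fun this x
  refine ⟨gl_ext_mulVec fun x => ?_, ?_⟩
  · rw [Units.val_mul, Units.val_one, one_mulVec, ← mulVec_mulVec]
    have := hTT x
    rwa [hT, Matrix.toLin'_apply, Matrix.toLin'_apply] at this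
  have hcard : (negSet m k).card = 2 * k := by
    rw [negSet, Finset.card_image_of_injective _ (fun p q h => Prod.ext (pairIdx_inj h).1 (pairIdx_inj h).2),
      Finset.card_product, Finset.card_univ, Fintype.card_fin, mul_comm]
    congr 1
    rw [Fin.card_filter_val_lt]
    omega
  have hge : ∀ (S : Finset (Idx m)) (W : Submodule F (Idx m → F)), (∀ j ∈ S, ee F m j ∈ W) → S.card ≤ finrank F W := by
    intro S W hS
    have hli : LinearIndependent F (fun j : S => (⟨ee F m j.1, hS j.1 j.2⟩ : W)) :=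
      LinearIndependent.of_comp W.subtype ((ee_li h2).comp _ Subtype.val_injective)
    simpa using hli.fintype_card_le_finrank
  have h1 := hge (negSet m k) (negN T) (fun j hj => mem_negN.2 (by rw [hTj, if_pos hj]))
  have h2' := hge (negSet m k)ᶜ (fixP T) (fun j hj => mem_fixP.2 (by rw [hTj, if_neg (Finset.mem_compl.1 hj)]))
  have hsum := finrank_eigen h2 hTT
  rw [Module.finrank_pi] at hsum
  rw [Finset.card_compl, hcard] at h2'
  rw [card_Idx] at hsum h2'
  omega

/-- PSp_2m(q) ≇ PΩ_(2m+1)(q) for q odd and m ≥ 3 (they have the same order). -/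
theorem result {F : Type*} [Field F] [Fintype F] (hodd : Odd (Fintype.card F)) (m : ℕ) (hm : 3 ≤ m) : IsEmpty (Cfsg.PSp m F ≃* Cfsg.POmega F (Cfsg.quadFormOdd m F)) := by
  classical
  refine ⟨fun e => ?_⟩
  have h2 : (2 : F) ≠ 0 := two_ne_zero_of_odd_card hodd
  have h7 : 7 ≤ Fintype.card (Idx m) := by simp only [Idx, Fintype.card_sum, Fintype.card_unit, Fintype.card_fin]; omega
  have hQ := hQ0 (F := F) (m := m) h2
  choose g hgo hgj using fun k : Fin m => exists_elt (F := F) h2 hm (k.val + 1) k.isLt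
  have hf := fun k : Fin m => elt_facts h2 (k.isLt : k.val + 1 ≤ m) (hgj k)
  choose x hx hxg using fun k => hgo k
  let ω : Fin m → Cfsg.Omega F (Cfsg.quadFormOdd m F) := fun k => ⟨x k, hx k⟩
  let y : Fin m → Cfsg.POmega F (Cfsg.quadFormOdd m F) := fun k => QuotientGroup.mk (ω k)
  have hgl : ∀ z : Cfsg.Omega F (Cfsg.quadFormOdd m F), z ∈ Subgroup.center (Cfsg.Omega F (Cfsg.quadFormOdd m F)) →
      ((z.1.1 : GL (Idx m) F) : Matrix (Idx m) (Idx m) F) = 1 ∨ ((z.1.1 : GL (Idx m) F) : Matrix (Idx m) (Idx m) F) = -1 := by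
    intro z hz
    rcases center_omega_scalar hQ h7 hz with h | h <;> rw [h]
    · exact Or.inl rfl
    · exact Or.inr rfl
  have key : ∀ (k : Fin m) (z : Cfsg.Omega F (Cfsg.quadFormOdd m F)) (c : Cfsg.Omega F (Cfsg.quadFormOdd m F)) (l : Fin m),
      z ∈ Subgroup.center (Cfsg.Omega F (Cfsg.quadFormOdd m F)) → c * ω k * c⁻¹ * z = ω l → k = l := by
    intro k z c l hz he
    have he' : (c.1.1 : GL (Idx m) F) * g k * (c.1.1)⁻¹ * z.1.1 = g l := by
      rw [← hxg k, ← hxg l]
      exact congrArg (fun w : Cfsg.Omega F (Cfsg.quadFormOdd m F) => (w.1.1 : GL (Idx m) F)) he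
    have hd := negN_conj (c.1.1 : GL (Idx m) F) (g k)
    rw [(hf k).2.1] at hd
    have hl := (hf l).2.1
    rw [← he'] at hl
    obtain h | h : (z.1.1 : GL (Idx m) F) = 1 ∨ (z.1.1 : GL (Idx m) F) = -1 :=
      (hgl z hz).imp (fun h => Units.ext h) (fun h => Units.ext (by rw [h]; rfl))
    · rw [h, mul_one] at hl
      have heq : 2 * (k.val + 1) = 2 * (l.val + 1) := hd.symm.trans hl
      exact Fin.ext (by omega)
    · rw [h, mul_neg, mul_one, Units.val_neg, map_neg, negN_neg] at hl
      have hTT : ∀ v, Matrix.toLin' (((c.1.1 : GL (Idx m) F) * g k * (c.1.1)⁻¹ : GL (Idx m) F) : Matrix (Idx m) (Idx m) F)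
          (Matrix.toLin' (((c.1.1 : GL (Idx m) F) * g k * (c.1.1)⁻¹ : GL (Idx m) F) : Matrix (Idx m) (Idx m) F) v) = v := by
        intro v
        rw [Matrix.toLin'_apply, Matrix.toLin'_apply, mulVec_mulVec, ← Units.val_mul]
        rw [show (c.1.1 : GL (Idx m) F) * g k * (c.1.1)⁻¹ * ((c.1.1 : GL (Idx m) F) * g k * (c.1.1)⁻¹) = 1 by
          rw [show (c.1.1 : GL (Idx m) F) * g k * (c.1.1)⁻¹ * ((c.1.1 : GL (Idx m) F) * g k * (c.1.1)⁻¹) = (c.1.1 : GL (Idx m) F) * (g k * g k) * (c.1.1)⁻¹ by group,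
            (hf k).1, mul_one, mul_inv_cancel]]
        rw [Units.val_one, one_mulVec]
      have := finrank_eigen h2 hTT
      rw [Module.finrank_pi, hd, hl] at this
      rw [card_Idx] at this
      omega
  have hy1 : ∀ k, e.symm (y k) ≠ 1 := by
    intro k h
    rw [MulEquiv.map_eq_one_iff, QuotientGroup.eq_one_iff] at h
    have hg1 : (g k : Matrix (Idx m) (Idx m) F) = 1 ∨ (g k : Matrix (Idx m) (Idx m) F) = -1 := by
      rw [← hxg k]; exact hgl _ h
    have hk1 : k.val + 1 ≤ m := k.isLt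
    rcases hg1 with hg | hg
    · have := (hf k).2.2
      rw [hg, Matrix.toLin'_one] at this
      rw [show fixP (LinearMap.id : (Idx m → F) →ₗ[F] (Idx m → F)) = ⊤ from eq_top_iff.2 fun v _ => mem_fixP.2 rfl,
        finrank_top, Module.finrank_pi] at this
      rw [card_Idx] at this
      omega
    · have := (hf k).2.1
      rw [hg, map_neg, negN_neg, Matrix.toLin'_one] at this
      rw [show fixP (LinearMap.id : (Idx m → F) →ₗ[F] (Idx m → F)) = ⊤ from eq_top_iff.2 fun v _ => mem_fixP.2 rfl,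
        finrank_top, Module.finrank_pi] at this
      rw [card_Idx] at this
      omega
  have hy2 : ∀ k, e.symm (y k) * e.symm (y k) = 1 := by
    intro k
    rw [← map_mul, MulEquiv.map_eq_one_iff]
    show ((ω k * ω k : Cfsg.Omega F (Cfsg.quadFormOdd m F)) : Cfsg.POmega F (Cfsg.quadFormOdd m F)) = 1
    rw [show ω k * ω k = 1 from Subtype.ext (Subtype.ext (by
      show (x k).1 * (x k).1 = 1
      rw [show (x k).1 = g k from hxg k]; exact (hf k).1))]
    rfl
  have hne : ∀ i j, IsConj (e.symm (y i)) (e.symm (y j)) → i = j := by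
    intro i j h
    have h' := MonoidHom.map_isConj e.toMonoidHom h
    simp only [MulEquiv.coe_toMonoidHom, MulEquiv.apply_symm_apply] at h'
    obtain ⟨c, hc⟩ := isConj_iff.1 h'
    obtain ⟨c', rfl⟩ := QuotientGroup.mk_surjective c
    have hz : (c' * ω i * c'⁻¹)⁻¹ * ω j ∈ Subgroup.center (Cfsg.Omega F (Cfsg.quadFormOdd m F)) := by
      rw [← QuotientGroup.eq]
      simpa only [QuotientGroup.mk_mul, QuotientGroup.mk_inv] using hc
    exact key i _ c' j hz (mul_inv_cancel_left _ _)
  have := card_le_of_nonconj h2 (by omega : 1 ≤ m) (fun k => e.symm (y k)) hy1 hy2 hne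
  rw [Fintype.card_fin] at this
  omega

end Cfsg.Agent.S0821
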