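import Cfsg.Statements.S0823
import Cfsg.Agent.Lib.ClassicalOrdersO

set_option autoImplicit false
open Cfsg

namespace Cfsg.Agent.S0823

namespace CfsgS0823

open Matrix

variable {F : Type*} [Field F] [Fintype F]

abbrev I3 : Type := Unit ⊕ (Fin 1 ⊕ Fin 1)

def vec (a b c : F) : I3 → F := Sum.elim (fun _ => a) (Sum.elim (fun _ => b) (fun _ => c))

def u : Fin 4 → I3 → F := ![vec 0 1 0, vec 0 0 1, vec 1 (-1) 1, vec 1 1 (-1)]

lemma cases3 (hF : Fintype.card F = 3) (x : F) : x = 0 ∨ x = 1 ∨ x = -1 := by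
  classical
  by_contra! h
  have h11 : (1 : F) ≠ -1 := fun e => by
    have h2 : (2 : F) = 0 := by linear_combination e
    have hp : (((3 : ℕ)) : F) = 0 := by rw [← hF]; exact FiniteField.cast_card_eq_zero F
    norm_num at hp
    exact one_ne_zero (α := F) (by linear_combination hp - h2)
  have : ({0, 1, -1, x} : Finset F).card = 4 := by
    rw [Finset.card_insert_of_notMem (by simp [h.1.symm]),
      Finset.card_insert_of_notMem (by simp [h11, h.2.1.symm]),
      Finset.card_pair h.2.2.symm]
  have := Finset.card_le_univ ({0, 1, -1, x} : Finset F)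
  omega

lemma three (hF : Fintype.card F = 3) : (3 : F) = 0 := by
  have hp : (((3 : ℕ)) : F) = 0 := by rw [← hF]; exact FiniteField.cast_card_eq_zero F
  simpa using hp

lemma two (hF : Fintype.card F = 3) : (2 : F) ≠ 0 := fun h =>
  one_ne_zero (α := F) (by linear_combination three hF - h)

lemma eq_vec (v : I3 → F) : v = vec (v (.inl ())) (v (.inr (.inl 0))) (v (.inr (.inr 0))) := by
  funext i
  rcases i with _ | i | i <;> simp [vec, Fin.fin_one_eq_zero]

lemma Q_vec (a b c : F) : Cfsg.quadFormOdd 1 F (vec a b c) = a ^ 2 + b * c := by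
  simp [Cfsg.quadFormOdd, vec]

lemma u_iso (i : Fin 4) : Cfsg.quadFormOdd 1 F (u i) = 0 ∧ u (F := F) i ≠ 0 := by
  fin_cases i <;> refine ⟨?_, fun h => ?_⟩
  all_goals first
    | (show Cfsg.quadFormOdd 1 F (vec _ _ _) = 0; rw [Q_vec]; ring)
    | exact one_ne_zero (congrFun h (.inr (.inl 0)) : (1 : F) = 0)
    | exact one_ne_zero (congrFun h (.inr (.inr 0)) : (1 : F) = 0)
    | exact one_ne_zero (congrFun h (.inl ()) : (1 : F) = 0)

lemma classify (hF : Fintype.card F = 3) (v : I3 → F) (hv : Cfsg.quadFormOdd 1 F v = 0) (hv0 : v ≠ 0) :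
    ∃ i, ∃ c : F, c ≠ 0 ∧ v = c • u i := by
  have e := eq_vec v
  have hm : (-1 : F) ≠ 0 := neg_ne_zero.mpr one_ne_zero
  have h2 := two hF
  have h11 : (1 : F) + 1 ≠ 0 := by rwa [one_add_one_eq_two]
  have h11' : (-1 : F) + -1 ≠ 0 := fun h => h11 (by linear_combination -h)
  rw [e] at hv hv0
  rw [Q_vec] at hv
  generalize v (.inl ()) = a at e hv hv0
  generalize v (.inr (.inl 0)) = b at e hv hv0
  generalize v (.inr (.inr 0)) = c at e hv hv0
  rw [e]
  have sv : ∀ (r x y z : F), r • vec x y z = vec (r * x) (r * y) (r * z) := fun r x y z => by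
    funext i; rcases i with _ | i | i <;> simp [vec]
  rcases cases3 hF a with rfl | rfl | rfl <;> rcases cases3 hF b with rfl | rfl | rfl <;>
    rcases cases3 hF c with rfl | rfl | rfl
  all_goals first
    | (exfalso; apply hv0; funext i; (rcases i with _ | i | i <;> simp [vec]); done)
    | (exfalso; norm_num [h2, h11, h11'] at hv; done)
    | (refine ⟨0, 1, one_ne_zero, ?_⟩; funext t; (rcases t with _ | t | t <;> simp [u, vec]); done)
    | (refine ⟨0, -1, hm, ?_⟩; funext t; (rcases t with _ | t | t <;> simp [u, vec]); done)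
    | (refine ⟨1, 1, one_ne_zero, ?_⟩; funext t; (rcases t with _ | t | t <;> simp [u, vec]); done)
    | (refine ⟨1, -1, hm, ?_⟩; funext t; (rcases t with _ | t | t <;> simp [u, vec]); done)
    | (refine ⟨2, 1, one_ne_zero, ?_⟩; funext t; (rcases t with _ | t | t <;> simp [u, vec]); done)
    | (refine ⟨2, -1, hm, ?_⟩; funext t; (rcases t with _ | t | t <;> simp [u, vec]); done)
    | (refine ⟨3, 1, one_ne_zero, ?_⟩; funext t; (rcases t with _ | t | t <;> simp [u, vec]); done)
    | (refine ⟨3, -1, hm, ?_⟩; funext t; (rcases t with _ | t | t <;> simp [u, vec]); done)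

omit [Fintype F] in
lemma unique_idx (h2F : (2 : F) ≠ 0) {i j : Fin 4} {c : F} (h : (u i : I3 → F) = c • u j) : i = j := by
  have h0 := congrFun h (.inl ())
  have h1 := congrFun h (.inr (.inl 0))
  have h2 := congrFun h (.inr (.inr 0))
  fin_cases i <;> fin_cases j
  all_goals simp [u, vec] at h0 h1 h2 ⊢
  all_goals first
    | (subst h0; simp at h1; done)
    | (subst h0; simp at h2; done)
    | (rw [← h0] at h1; exact h2F (by linear_combination h1))
    | (rw [← h0] at h1; exact h2F (by linear_combination -h1))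

theorem equiv (hF : Fintype.card F = 3) :
    Nonempty (↥(Cfsg.specialIsometryGroup F (Cfsg.quadFormOdd 1 F)) ≃* Equiv.Perm (Fin 4)) := by
  classical
  let S := Cfsg.specialIsometryGroup F (Cfsg.quadFormOdd 1 F)
  let M : S → Matrix I3 I3 F := fun g => ((g.1 : Matrix.GeneralLinearGroup I3 F) : Matrix I3 I3 F)
  have hQ : ∀ (g : S) v, Cfsg.quadFormOdd 1 F (M g *ᵥ v) = Cfsg.quadFormOdd 1 F v := fun g v => g.1.2 v v
  have hinv : ∀ (g : S) v, M g⁻¹ *ᵥ (M g *ᵥ v) = v := fun g v => by
    rw [mulVec_mulVec]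
    show ((g.1 : Matrix.GeneralLinearGroup I3 F)⁻¹ * (g.1 : Matrix.GeneralLinearGroup I3 F) : Matrix.GeneralLinearGroup I3 F).1 *ᵥ v = v
    rw [inv_mul_cancel, Units.val_one, one_mulVec]
  have hmul : ∀ (g h : S) v, M (g * h) *ᵥ v = M g *ᵥ (M h *ᵥ v) := fun g h v => (mulVec_mulVec v _ _).symm
  have hex : ∀ (g : S) i, ∃ j, ∃ c : F, c ≠ 0 ∧ M g *ᵥ u i = c • u j := fun g i =>
    classify hF _ (by rw [hQ]; exact (u_iso i).1) (fun h => (u_iso (F := F) i).2 (by
      have := congrArg (M g⁻¹ *ᵥ ·) h
      simpa [hinv] using this))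
  choose π c hc hπ using hex
  have hπmul : ∀ g h i, π (g * h) i = π g (π h i) := fun g h i => by
    refine unique_idx (two hF) (c := (c (g * h) i)⁻¹ * (c h i * c g (π h i))) ?_
    rw [← smul_smul, ← smul_smul, ← hπ g, ← mulVec_smul, ← hπ h, ← hmul, hπ, inv_smul_smul₀ (hc _ _)]
  have hπ1 : ∀ i, π 1 i = i := fun i => by
    refine unique_idx (two hF) (c := (c 1 i)⁻¹) ?_
    have h := hπ 1 i
    rw [show M 1 = 1 from rfl, one_mulVec] at h
    conv_rhs => rw [h]
    rw [inv_smul_smul₀ (hc _ _)]
  let φ : S →* Equiv.Perm (Fin 4) :=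
    { toFun := fun g => ⟨π g, π g⁻¹, fun i => by rw [← hπmul, inv_mul_cancel, hπ1],
        fun i => by rw [← hπmul, mul_inv_cancel, hπ1]⟩
      map_one' := Equiv.ext hπ1
      map_mul' := fun g h => Equiv.ext fun i => hπmul g h i }
  have hφ : Function.Injective φ := by
    rw [injective_iff_map_eq_one]
    intro g hg
    have hgi : ∀ i, M g *ᵥ u i = c g i • u i := fun i => by
      rw [hπ g i, show π g i = i from DFunLike.congr_fun hg i]
    have hlin : M g *ᵥ (u 2 - u 3) = c g 2 • u 2 - c g 3 • u 3 := by rw [mulVec_sub, hgi, hgi]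
    have h23 : (u 2 - u 3 : I3 → F) = (-2 : F) • u 0 + (2 : F) • u 1 := by
      funext i; rcases i with _ | i | i <;> simp [u, vec] <;> ring
    rw [h23, mulVec_add, mulVec_smul, mulVec_smul, hgi, hgi] at hlin
    have k0 := congrFun hlin (.inl ())
    have k1 := congrFun hlin (.inr (.inl 0))
    have k2 := congrFun hlin (.inr (.inr 0))
    simp [u, vec] at k0 k1 k2
    have h2 := two hF
    have e23 : c g 3 = c g 2 := by first | linear_combination k0 | linear_combination -k0
    rw [e23] at k1 k2
    have e0 : c g 0 = c g 2 := mul_left_cancel₀ h2 (by first | linear_combination k1 | linear_combination -k1)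
    have e1 : c g 1 = c g 2 := mul_left_cancel₀ h2 (by first | linear_combination k2 | linear_combination -k2)
    set k := c g 2 with hk
    have hbasis : ∀ v : I3 → F, M g *ᵥ v = k • v := by
      intro v
      have hs : (vec 1 0 0 : I3 → F) = (2 : F)⁻¹ • (u 2 + u 3) := by
        funext i; rcases i with _ | i | i <;> simp [u, vec, h2] <;> field_simp <;> ring
      have he : v = v (.inl ()) • ((2 : F)⁻¹ • (u 2 + u 3)) + v (.inr (.inl 0)) • u 0 + v (.inr (.inr 0)) • u 1 := by
        rw [← hs]; funext i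
        rcases i with _ | i | i <;> simp [u, vec, Fin.fin_one_eq_zero]
      rw [he]
      simp only [mulVec_add, mulVec_smul, hgi, e23, e0, e1, ← hk, smul_add, smul_smul]
      congr 1
      · congr 1
        · congr 1 <;> ring_nf
        · ring_nf
      · ring_nf
    have hM : M g = k • (1 : Matrix I3 I3 F) := by
      refine Matrix.ext_of_mulVec_single fun i => ?_
      rw [hbasis, smul_mulVec, one_mulVec]
    have hdet : (M g).det = 1 := by
      have h := congrArg Units.val (MonoidHom.mem_ker.mp g.2)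
      simpa [Matrix.GeneralLinearGroup.val_det_apply] using h
    rw [hM, det_smul, det_one, mul_one, show Fintype.card I3 = 3 from rfl] at hdet
    have hk1 : k = 1 := by
      rcases cases3 hF k with h | h | h
      · rw [h] at hdet; simp at hdet
      · exact h
      · rw [h] at hdet; exfalso; exact h2 (by linear_combination -hdet)
    rw [hk1, one_smul] at hM
    exact Subtype.ext (Subtype.ext (Units.ext hM))
  have hcard : 24 ≤ Nat.card S := by
    have h := CfsgLib.Classical.Orders.card_O_odd (F := F) (two hF) 1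
    rw [hF, show (2 * 3 ^ 1 ^ 2 * ∏ i ∈ Finset.range 1, (3 ^ (2 * (i + 1)) - 1) : ℕ) = 48 by decide] at h
    let d : Cfsg.isometryGroup F (Cfsg.quadFormOdd 1 F) →* Fˣ :=
      Matrix.GeneralLinearGroup.det.comp (Cfsg.isometryGroup F (Cfsg.quadFormOdd 1 F)).subtype
    have h1 := Subgroup.index_mul_card d.ker
    rw [h] at h1
    have h2 : d.ker.index ≤ 2 := by
      rw [Subgroup.index_ker]
      refine (Subgroup.card_le_card_group d.range).trans ?_
      rw [Nat.card_units, Nat.card_eq_fintype_card, hF]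
    show 24 ≤ Nat.card d.ker
    nlinarith
  have hbij : Function.Bijective φ := (Nat.bijective_iff_injective_and_card φ).mpr ⟨hφ, le_antisymm
    (Nat.card_le_card_of_injective φ hφ) (by rw [Nat.card_perm, Nat.card_fin, show Nat.factorial 4 = 24 by decide]; exact hcard)⟩
  exact ⟨MulEquiv.ofBijective φ hbij⟩

end CfsgS0823

/-- SO_3(3) ≅ S_4: the determinant-one isometries of the form x_0² + x_1y_1 over the field with 3 elements form a group isomorphic to the symmetric group on 4 letters. -/
theorem result {F : Type*} [Field F] [Fintype F] (hF : Fintype.card F = 3) : Nonempty (↥(Cfsg.specialIsometryGroup F (Cfsg.quadFormOdd 1 F)) ≃* Equiv.Perm (Fin 4)) := by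
  exact CfsgS0823.equiv hF

end Cfsg.Agent.S0823
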