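import Cfsg.Statements.S0828
import Cfsg.Agent.Lib.ClassicalLineCount
import Cfsg.Agent.Lib.ClassicalSymp
import Cfsg.Agent.Lib.ClassicalSpStd

set_option autoImplicit false
open Cfsg

namespace Cfsg.Agent.S0828

/-- The symplectic generalised quadrangle over a field with q elements: the number of 2-dimensional subspaces of F^4 on which the symplectic form vanishes is (q + 1)(q² + 1), and every non-zero vector lies in exactly q + 1 of them. -/
theorem result {F : Type*} [Field F] [Fintype F] {q : ℕ} (hF : Fintype.card F = q) : Nat.card {W : Submodule F (Fin 2 ⊕ Fin 2 → F) // Module.finrank F W = 2 ∧ ∀ u ∈ W, ∀ v ∈ W, Cfsg.sympForm 2 F u v = 0} = (q + 1) * (q ^ 2 + 1) ∧ ∀ v : Fin 2 ⊕ Fin 2 → F, v ≠ 0 → Nat.card {W : Submodule F (Fin 2 ⊕ Fin 2 → F) // Module.finrank F W = 2 ∧ v ∈ W ∧ ∀ u ∈ W, ∀ w ∈ W, Cfsg.sympForm 2 F u w = 0} = q + 1 := by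
  classical
  obtain ⟨hq, hf⟩ : 2 ≤ q ∧ Cfsg.Geo.IsSymplecticForm (Cfsg.sympForm 2 F) :=
    ⟨hF ▸ Fintype.one_lt_card, CfsgLib.Classical.isSymplecticForm_sympForm⟩
  let B := CfsgLib.Classical.toBil hf.bilinear
  have hB : ∀ x y, B x y = Cfsg.sympForm 2 F x y := fun _ _ => rfl
  have hneg : ∀ x y, Cfsg.sympForm 2 F y x = - Cfsg.sympForm 2 F x y := fun x y => by
    rw [← hB, ← hB, ← LinearMap.IsAlt.neg (CfsgLib.Classical.toBil_isAlt hf) x y]
  have hR : ∀ v w, Cfsg.sympForm 2 F v v = 0 → Cfsg.sympForm 2 F v w = 0 → Cfsg.sympForm 2 F w v = 0 →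
      Cfsg.sympForm 2 F w w = 0 → ∀ a ∈ Submodule.span F {v, w}, ∀ b ∈ Submodule.span F {v, w},
      Cfsg.sympForm 2 F a b = 0 := by
    intro v w h1 h2 h3 h4 a ha b hb
    obtain ⟨s, t, rfl⟩ := Submodule.mem_span_pair.mp ha
    obtain ⟨u, z, rfl⟩ := Submodule.mem_span_pair.mp hb
    simp [hf.bilinear.add_left, hf.bilinear.smul_left, hf.bilinear.add_right,
      hf.bilinear.smul_right, h1, h2, h3, h4]
  have hV : Nat.card (Fin 2 ⊕ Fin 2 → F) = q ^ 4 := by
    simp [Nat.card_eq_fintype_card, hF]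
  have hthrough : ∀ v : Fin 2 ⊕ Fin 2 → F, v ≠ 0 →
      Nat.card {W : Submodule F (Fin 2 ⊕ Fin 2 → F) // Module.finrank F W = 2 ∧ v ∈ W ∧
        ∀ u ∈ W, ∀ w ∈ W, Cfsg.sympForm 2 F u w = 0} = q + 1 := by
    intro v hv
    have h := CfsgLib.LineCount.card_through (R := fun a b => Cfsg.sympForm 2 F a b = 0) hR hv
      (hf.alternating v)
    rw [hF] at h
    have hφ : B v ≠ 0 := fun h0 => by
      obtain ⟨w, hw⟩ := (hf.nondegenerate v hv).2
      exact hw (by rw [← hB, h0, LinearMap.zero_apply])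
    have hk : Nat.card (LinearMap.ker (B v)) = q ^ 3 := by
      rw [Module.natCard_eq_pow_finrank (K := F), Nat.card_eq_fintype_card, hF]
      congr 1
      have h1 := LinearMap.finrank_range_add_finrank_ker (B v)
      rw [LinearMap.range_eq_top.mpr (LinearMap.surjective hφ), finrank_top, Module.finrank_self,
        Module.finrank_pi] at h1
      simp at h1
      omega
    have hc : Nat.card {w : Fin 2 ⊕ Fin 2 → F // w ∉ Submodule.span F {v} ∧
        Cfsg.sympForm 2 F v w = 0 ∧ Cfsg.sympForm 2 F w v = 0 ∧ Cfsg.sympForm 2 F w w = 0} =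
        q ^ 3 - q := by
      rw [← hk, ← hF, ← CfsgLib.LineCount.card_span_singleton (F := F) hv,
        ← CfsgLib.LineCount.card_sdiff ((Submodule.span_singleton_le_iff_mem _ _).mpr
          (LinearMap.mem_ker.mpr (hf.alternating v)))]
      refine Nat.card_congr (Equiv.subtypeEquivRight fun w => ?_)
      constructor
      · rintro ⟨h1, h2, -, -⟩; exact ⟨LinearMap.mem_ker.mpr h2, h1⟩
      · rintro ⟨h2, h1⟩
        have h2' : Cfsg.sympForm 2 F v w = 0 := LinearMap.mem_ker.mp h2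
        exact ⟨h1, h2', by rw [hneg v w, h2', neg_zero], hf.alternating w⟩
    rw [hc] at h
    refine Nat.eq_of_mul_eq_mul_right (Nat.sub_pos_of_lt (show q < q ^ 2 by nlinarith)) (h.trans ?_)
    obtain ⟨d, rfl⟩ := Nat.exists_eq_add_of_le hq
    rw [Nat.sub_eq_iff_eq_add (Nat.le_self_pow (by norm_num) _)]
    have e : (2 + d) ^ 2 - (2 + d) = (2 + d) * (1 + d) := by
      rw [Nat.sub_eq_iff_eq_add (by nlinarith)]; ring
    rw [e]; ring
  refine ⟨?_, hthrough⟩
  have h := CfsgLib.LineCount.card_incidence (R := fun a b => Cfsg.sympForm 2 F a b = 0)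
    (fun v hv _ => hthrough v hv)
  have hZ : Nat.card {v : Fin 2 ⊕ Fin 2 → F // v ≠ 0 ∧ Cfsg.sympForm 2 F v v = 0} = q ^ 4 - 1 := by
    rw [Nat.card_congr (Equiv.subtypeEquivRight (q := fun v => v ≠ 0)
      fun v => ⟨fun h => h.1, fun h => ⟨h, hf.alternating v⟩⟩), Nat.card_eq_fintype_card,
      Fintype.card_subtype_compl, Fintype.card_subtype_eq, ← Nat.card_eq_fintype_card, hV]
  rw [hF, hZ] at h
  refine Nat.eq_of_mul_eq_mul_right (Nat.sub_pos_of_lt (show 1 < q ^ 2 by nlinarith)) (h.trans ?_)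
  obtain ⟨d, hd⟩ : ∃ d, q ^ 2 = 1 + d := Nat.exists_eq_add_of_le (by nlinarith)
  rw [show q ^ 4 = (q ^ 2) ^ 2 by ring, hd, Nat.add_sub_cancel_left,
    show (1 + d) ^ 2 = 1 + (2 * d + d * d) by ring, Nat.add_sub_cancel_left]
  ring

end Cfsg.Agent.S0828
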