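import Cfsg.Statements.S0830
import Cfsg.Agent.Lib.ClassicalLineCount

set_option autoImplicit false
open Cfsg

namespace Cfsg.Agent.S0830

/-- The unitary quadrangle of PSU_5(q): with |F| = q², the number of 2-dimensional subspaces of F^5 on which the Hermitian form vanishes is (q³ + 1)(q⁵ + 1). -/
theorem result {F : Type*} [Field F] [Fintype F] {q : ℕ} (hF : Fintype.card F = q ^ 2) : Nat.card {W : Submodule F (Fin 5 → F) // Module.finrank F W = 2 ∧ ∀ u ∈ W, ∀ v ∈ W, Cfsg.hermForm 5 F q u v = 0} = (q ^ 3 + 1) * (q ^ 5 + 1) := by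
  classical
  have hq : 2 ≤ q := by
    have := Fintype.one_lt_card (α := F)
    rw [hF] at this
    nlinarith
  have h := CfsgLib.LineCount.card_herm_lines hF 3
  have h4 := (CfsgLib.Classical.Count.card_herm hF 5).1
  have h2 := (CfsgLib.Classical.Count.card_herm hF 3).1
  show Nat.card {W : Submodule F (Fin (3 + 2) → F) // Module.finrank F W = 2 ∧
    ∀ u ∈ W, ∀ v ∈ W, Cfsg.hermForm (3 + 2) F q u v = 0} = _
  generalize Nat.card {W : Submodule F (Fin (3 + 2) → F) // Module.finrank F W = 2 ∧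
    ∀ u ∈ W, ∀ v ∈ W, Cfsg.hermForm (3 + 2) F q u v = 0} = N at h ⊢
  generalize Nat.card {v : Fin (3 + 2) → F // Cfsg.hermForm (3 + 2) F q v v = 0} = Z at h h4
  generalize Nat.card {v : Fin 3 → F // Cfsg.hermForm 3 F q v v = 0} = Y at h h2
  have hqz : (q : ℤ) ≠ 0 := by exact_mod_cast (by omega : q ≠ 0)
  have hq' : (2 : ℤ) ≤ q := by exact_mod_cast hq
  have hZ : (Z : ℤ) - 1 = ((q : ℤ) ^ 4 - 1) * ((q : ℤ) ^ 5 + 1) := by
    apply mul_left_cancel₀ hqz
    linear_combination h4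
  have hY : (Y : ℤ) - 1 = ((q : ℤ) ^ 2 - 1) * ((q : ℤ) ^ 3 + 1) := by
    apply mul_left_cancel₀ hqz
    linear_combination h2
  have hp1 : (1 : ℤ) < (q : ℤ) ^ 4 := one_lt_pow₀ (by omega) (by norm_num)
  have hp2 : (0 : ℤ) < (q : ℤ) ^ 4 - (q : ℤ) ^ 2 := by
    have := pow_lt_pow_right₀ (show (1 : ℤ) < q by omega) (show 2 < 4 by norm_num)
    omega
  have hZ1 : 1 ≤ Z := by
    have : (0 : ℤ) ≤ (Z : ℤ) - 1 := by rw [hZ]; exact mul_nonneg (by omega) (by positivity)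
    omega
  have hY1 : 1 ≤ Y := by
    have h' : (1 : ℤ) ≤ (q : ℤ) ^ 2 := one_le_pow₀ (by omega)
    have : (0 : ℤ) ≤ (Y : ℤ) - 1 := by rw [hY]; exact mul_nonneg (by omega) (by positivity)
    omega
  apply_fun (Nat.cast : ℕ → ℤ) at h
  push_cast [Nat.cast_sub (Nat.one_le_pow 4 q (by omega)),
    Nat.cast_sub (Nat.pow_le_pow_right (show 0 < q by omega) (show 2 ≤ 4 by norm_num)),
    Nat.cast_sub hZ1, Nat.cast_sub (Nat.le_mul_of_pos_right (q ^ 2) (show 0 < Y by omega))] at h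
  rw [hZ, show (q : ℤ) ^ 2 * Y - (q : ℤ) ^ 2 = (q : ℤ) ^ 2 * ((Y : ℤ) - 1) by ring, hY] at h
  suffices (N : ℤ) = ((q ^ 3 + 1) * (q ^ 5 + 1) : ℕ) by exact_mod_cast this
  push_cast
  apply mul_right_cancel₀ (show (((q : ℤ) ^ 4 - 1) * ((q : ℤ) ^ 4 - (q : ℤ) ^ 2)) ≠ 0 from
    mul_ne_zero (by omega) (by omega))
  linear_combination h

end Cfsg.Agent.S0830
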