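import Cfsg.Statements.S0831
import Cfsg.Agent.Lib.ClassicalHalfTS

set_option autoImplicit false
open Cfsg

namespace Cfsg.Agent.S0831

/-- The two families of maximal totally singular subspaces of the hyperbolic quadric: for the form Σ x_i y_i on F^(2m), m ≥ 1, and m-dimensional subspaces U, W, X on which it vanishes, the parities of m − dim(U ∩ W), m − dim(W ∩ X) and m − dim(U ∩ X) sum to an even number (so 'even codimension of the intersection' is an equivalence relation), and there exist two such subspaces meeting in codimension 1 (so there are exactly two classes). -/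
theorem result {F : Type*} [Field F] (m : ℕ) (hm : 1 ≤ m) : (∀ U W X : Submodule F (Fin m ⊕ Fin m → F), (Module.finrank F U = m ∧ ∀ w ∈ U, Cfsg.quadFormPlus m F w = 0) → (Module.finrank F W = m ∧ ∀ w ∈ W, Cfsg.quadFormPlus m F w = 0) → (Module.finrank F X = m ∧ ∀ w ∈ X, Cfsg.quadFormPlus m F w = 0) → Even ((m - Module.finrank F ↥(U ⊓ W)) + (m - Module.finrank F ↥(W ⊓ X)) + (m - Module.finrank F ↥(U ⊓ X)))) ∧ ∃ U W : Submodule F (Fin m ⊕ Fin m → F), (Module.finrank F U = m ∧ ∀ w ∈ U, Cfsg.quadFormPlus m F w = 0) ∧ (Module.finrank F W = m ∧ ∀ w ∈ W, Cfsg.quadFormPlus m F w = 0) ∧ Module.finrank F ↥(U ⊓ W) + 1 = m := by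
  classical
  refine ⟨fun U W X hU hW hX => ?_, ?_⟩
  · have hQ := CfsgLib.Classical.isNondegenerate_quadFormPlus (F := F) m
    have h := CfsgLib.Classical.halfTS_parity hQ (U := U) (W := W) (X := X)
      ⟨hU.2, by rw [hU.1]; simp [two_mul]⟩ ⟨hW.2, by rw [hW.1]; simp [two_mul]⟩
      ⟨hX.2, by rw [hX.1]; simp [two_mul]⟩
    rw [hX.1] at h
    have := (Submodule.finrank_mono (inf_le_left : U ⊓ W ≤ U)).trans_eq hU.1
    have := (Submodule.finrank_mono (inf_le_left : W ⊓ X ≤ W)).trans_eq hW.1
    have := (Submodule.finrank_mono (inf_le_left : U ⊓ X ≤ U)).trans_eq hU.1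
    rw [Nat.even_iff]
    omega
  · refine ⟨CfsgLib.Classical.coordHalf F m ∅, CfsgLib.Classical.coordHalf F m {⟨0, hm⟩},
      ⟨CfsgLib.Classical.finrank_coordHalf m _, CfsgLib.Classical.coordHalf_ts m _⟩,
      ⟨CfsgLib.Classical.finrank_coordHalf m _, CfsgLib.Classical.coordHalf_ts m _⟩, ?_⟩
    let e : ↥(CfsgLib.Classical.coordHalf F m ∅ ⊓ CfsgLib.Classical.coordHalf F m {⟨0, hm⟩}) ≃ₗ[F]
        ({i : Fin m // i ≠ ⟨0, hm⟩} → F) :=
      { toFun := fun v i => v.1 (.inl i.1)
        map_add' := fun _ _ => rfl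
        map_smul' := fun _ _ => rfl
        invFun := fun x => ⟨Sum.elim (fun i => if h : i = ⟨0, hm⟩ then 0 else x ⟨i, h⟩) 0,
          fun i => ⟨fun h => absurd h (by simp), fun _ => rfl⟩,
          fun i => ⟨fun h => by simp [Finset.mem_singleton.mp h], fun _ => rfl⟩⟩
        left_inv := fun v => Subtype.ext (funext fun j => by
          rcases j with i | i
          · by_cases h : i = ⟨0, hm⟩
            · subst h
              simp [(v.2.2 _).1 (Finset.mem_singleton_self _)]
            · simp [h]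
          · exact ((v.2.1 i).2 (by simp)).symm)
        right_inv := fun x => funext fun i => by simp [i.2] }
    rw [e.finrank_eq, Module.finrank_fintype_fun_eq_card, Fintype.card_subtype_compl,
      Fintype.card_subtype_eq, Fintype.card_fin]
    omega

end Cfsg.Agent.S0831
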