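import Cfsg.Statements.S0832
import Cfsg.Agent.Lib.ClassicalHalfTS

set_option autoImplicit false
open Cfsg

namespace Cfsg.Agent.S0832

/-- For the form Σ x_i y_i on F^(2m) over a finite field, m ≥ 1: an (m−1)-dimensional subspace on which the form vanishes is contained in exactly two m-dimensional subspaces on which it vanishes. -/
theorem result {F : Type*} [Field F] [Finite F] (m : ℕ) (hm : 1 ≤ m) (U : Submodule F (Fin m ⊕ Fin m → F)) (hU : Module.finrank F U + 1 = m ∧ ∀ u ∈ U, Cfsg.quadFormPlus m F u = 0) : Nat.card {W : Submodule F (Fin m ⊕ Fin m → F) // Module.finrank F W = m ∧ (∀ w ∈ W, Cfsg.quadFormPlus m F w = 0) ∧ U ≤ W} = 2 := by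
  classical
  have hQ := CfsgLib.Classical.isNondegenerate_quadFormPlus (F := F) m
  rw [← CfsgLib.Classical.card_halfTS_containing hQ
    (W₀ := CfsgLib.Classical.coordHalf F m ∅)
    ⟨CfsgLib.Classical.coordHalf_ts m _, by rw [CfsgLib.Classical.finrank_coordHalf]; simp [two_mul]⟩
    hU.2 (by have := hU.1; simp only [Fintype.card_sum, Fintype.card_fin]; omega)]
  refine Nat.card_congr (Equiv.subtypeEquivRight fun W => ?_)
  constructor
  · rintro ⟨h1, h2, h3⟩
    exact ⟨⟨h2, by rw [h1]; simp [two_mul]⟩, h3⟩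
  · rintro ⟨⟨h2, h1⟩, h3⟩
    refine ⟨?_, h2, h3⟩
    simp only [Fintype.card_sum, Fintype.card_fin] at h1
    omega

end Cfsg.Agent.S0832
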