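import Cfsg.Statements.S0833
import Cfsg.Agent.Lib.ClassicalAlt

set_option autoImplicit false
open Cfsg

namespace Cfsg.Agent.S0833

open scoped TensorProduct
open Module

/-- If B₁, B₂ are non-degenerate alternating forms on U (dim 2k) and W (dim 2l), then B₁ ⊗ B₂ on U ⊗ W is symmetric, non-degenerate, and vanishes identically on some subspace of dimension 2kl (half of dim U ⊗ W). -/
theorem result {F U W : Type*} [Field F] [Fintype F] [AddCommGroup U] [Module F U] [FiniteDimensional F U] [AddCommGroup W] [Module F W] [FiniteDimensional F W] (B₁ : LinearMap.BilinForm F U) (B₂ : LinearMap.BilinForm F W) (h₁ : B₁.Nondegenerate) (h₂ : B₂.Nondegenerate) (hA₁ : B₁.IsAlt) (hA₂ : B₂.IsAlt) (k l : ℕ) (hU : Module.finrank F U = 2 * k) (hW : Module.finrank F W = 2 * l) : (B₁.tmul B₂).IsSymm ∧ (B₁.tmul B₂).Nondegenerate ∧ (∃ X : Submodule F (TensorProduct F U W), Module.finrank F X = 2 * k * l ∧ ∀ x ∈ X, ∀ y ∈ X, (B₁.tmul B₂) x y = 0) := by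
  classical
  have hsym : (B₁.tmul B₂).IsSymm := by
    refine ⟨fun x y => ?_⟩
    induction x using TensorProduct.induction_on with
    | zero => simp
    | add a b ha hb => simp_all [map_add]
    | tmul u w =>
      induction y using TensorProduct.induction_on with
      | zero => simp
      | add a b ha hb => simp_all [map_add]
      | tmul u' w' =>
        have e1 : B₁ u' u = - B₁ u u' := (LinearMap.IsAlt.neg hA₁ u u').symm
        have e2 : B₂ w' w = - B₂ w w' := (LinearMap.IsAlt.neg hA₂ w w').symm
        simp [LinearMap.BilinForm.tensorDistrib_tmul, e1, e2, smul_eq_mul]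
  refine ⟨hsym, ?_, ?_⟩
  · let bU := Module.finBasis F U
    let bW := Module.finBasis F W
    let b := bU.tensorProduct bW
    refine (LinearMap.BilinForm.nondegenerate_toMatrix_iff b).1 ?_
    rw [Matrix.nondegenerate_iff_det_ne_zero]
    have e : LinearMap.BilinForm.toMatrix b (B₁.tmul B₂) =
        Matrix.kroneckerMap (· * ·) (LinearMap.BilinForm.toMatrix bU B₁) (LinearMap.BilinForm.toMatrix bW B₂) := by
      ext ⟨i, j⟩ ⟨i', j'⟩
      simp [b, LinearMap.BilinForm.toMatrix_apply, Basis.tensorProduct_apply, LinearMap.BilinForm.tensorDistrib_tmul, smul_eq_mul, mul_comm]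
    rw [e, Matrix.det_kronecker]
    refine mul_ne_zero (pow_ne_zero _ ?_) (pow_ne_zero _ ?_)
    · rw [← Matrix.nondegenerate_iff_det_ne_zero]; exact (LinearMap.BilinForm.nondegenerate_toMatrix_iff bU).2 h₁
    · rw [← Matrix.nondegenerate_iff_det_ne_zero]; exact (LinearMap.BilinForm.nondegenerate_toMatrix_iff bW).2 h₂
  · have hnd : CfsgLib.Classical.NondegOn B₁ ⊤ := fun w _ hw => by
      by_contra hall
      push_neg at hall
      exact hw (h₁.2 w fun x => hall x Submodule.mem_top)
    obtain ⟨m, e, h, hfam, -, -, hm⟩ := CfsgLib.Classical.exists_hypFamily hA₁ ⊤ hnd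
    rw [finrank_top, hU] at hm
    obtain rfl : m = k := by omega
    have hli : LinearIndependent F e := by
      rw [Fintype.linearIndependent_iff]
      intro g hg i
      have := congrArg (fun u => B₁ u (h i)) hg
      simpa [hfam.eh] using this
    let X0 : Submodule F U := Submodule.span F (Set.range e)
    let T : (X0 ⊗[F] W) →ₗ[F] U ⊗[F] W := X0.subtype.rTensor W
    have hTinj : Function.Injective T := Module.Flat.rTensor_preserves_injective_linearMap X0.subtype X0.injective_subtype
    refine ⟨LinearMap.range T, ?_, ?_⟩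
    · rw [LinearMap.finrank_range_of_inj hTinj, Module.finrank_tensorProduct, hW,
        show finrank F X0 = m by rw [finrank_span_eq_card hli, Fintype.card_fin]]
      ring
    · have hX0 : ∀ a ∈ X0, ∀ b ∈ X0, B₁ a b = 0 := by
        intro a ha b hb
        have h1 : ∀ i, X0 ≤ LinearMap.ker (B₁ (e i)) := fun i => Submodule.span_le.2 (by rintro _ ⟨j, rfl⟩; exact hfam.ee i j)
        have h2 : X0 ≤ LinearMap.ker (B₁.flip b) := Submodule.span_le.2 (by rintro _ ⟨i, rfl⟩; simpa using h1 i hb)
        simpa using h2 ha
      rintro _ ⟨x, rfl⟩ _ ⟨y, rfl⟩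
      induction x using TensorProduct.induction_on with
      | zero => simp
      | add a b ha hb => simp_all [map_add]
      | tmul a w =>
        induction y using TensorProduct.induction_on with
        | zero => simp
        | add a b ha hb => simp_all [map_add]
        | tmul a' w' => simp [T, LinearMap.BilinForm.tensorDistrib_tmul, hX0 a.1 a.2 a'.1 a'.2]

end Cfsg.Agent.S0833
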