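import Cfsg.Statements.S0835
import Cfsg.Agent.Lib.ClassicalPlusType

set_option autoImplicit false
open Cfsg

namespace Cfsg.Agent.S0835

open CfsgLib.PlusType Module

/-- Over a finite field with 2 ≠ 0: if B₁ on U (dim 2k, k ≥ 1) is non-degenerate symmetric of minus type (no totally isotropic k-subspace) and B₂ on W (dim 2l + 1) is non-degenerate symmetric, then B₁ ⊗ B₂ (dimension 2k(2l+1)) admits no totally isotropic subspace of dimension k(2l+1) (minus type). -/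
theorem result {F U W : Type*} [Field F] [Fintype F] [AddCommGroup U] [Module F U] [FiniteDimensional F U] [AddCommGroup W] [Module F W] [FiniteDimensional F W] (h2 : (2 : F) ≠ 0) (B₁ : LinearMap.BilinForm F U) (B₂ : LinearMap.BilinForm F W) (h₁ : B₁.Nondegenerate) (h₂ : B₂.Nondegenerate) (hS₁ : B₁.IsSymm) (hS₂ : B₂.IsSymm) (k l : ℕ) (hk : 1 ≤ k) (hU : Module.finrank F U = 2 * k) (hW : Module.finrank F W = 2 * l + 1) (hm₁ : ¬ (∃ X : Submodule F (U), Module.finrank F X = k ∧ ∀ x ∈ X, ∀ y ∈ X, (B₁) x y = 0)) : ¬ (∃ X : Submodule F (TensorProduct F U W), Module.finrank F X = k * (2 * l + 1) ∧ ∀ x ∈ X, ∀ y ∈ X, (B₁.tmul B₂) x y = 0) := by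
  classical
  rintro ⟨X, hX, hXi⟩
  obtain ⟨hs, -, hdet⟩ := tmul_facts B₁ B₂ h₁ h₂ hS₁ hS₂
  have hsq := disc_of_isotropic (B₁.tmul B₂) hs (N := k * (2 * l + 1)) (by rw [Module.finrank_tensorProduct, hU, hW]; ring) hX hXi
    ((Module.finBasis F U).tensorProduct (Module.finBasis F W))
  rw [hdet] at hsq
  apply hm₁
  refine exists_isotropic_of_disc h2 B₁ (fun u v => hS₁.eq u v) h₁ hU (Module.finBasis F U) ?_
  set A := (LinearMap.BilinForm.toMatrix (Module.finBasis F U) B₁).det with hA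
  set C := (LinearMap.BilinForm.toMatrix (Module.finBasis F W) B₂).det with hC
  have hA0 : A ≠ 0 := Matrix.nondegenerate_iff_det_ne_zero.1 ((LinearMap.BilinForm.nondegenerate_toMatrix_iff _).2 h₁)
  have hC0 : C ≠ 0 := Matrix.nondegenerate_iff_det_ne_zero.1 ((LinearMap.BilinForm.nondegenerate_toMatrix_iff _).2 h₂)
  clear_value A C
  rw [hU, hW] at hsq
  obtain ⟨r, hr⟩ := hsq
  refine ⟨r / ((-1) ^ (k * l) * A ^ l * C ^ k), ?_⟩
  have hne : ((-1 : F) ^ (k * l) * A ^ l * C ^ k) ≠ 0 :=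
    mul_ne_zero (mul_ne_zero (pow_ne_zero _ (neg_ne_zero.2 one_ne_zero)) (pow_ne_zero _ hA0)) (pow_ne_zero _ hC0)
  rw [div_mul_div_comm, eq_div_iff (mul_ne_zero hne hne), ← hr]
  ring

end Cfsg.Agent.S0835
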