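import Cfsg.Statements.S0837
import Cfsg.Agent.Lib.ClassicalStabProd
import Cfsg.Agent.Lib.ClassicalDiag
import Cfsg.Agent.Lib.ClassicalUnitary

set_option autoImplicit false
open Cfsg

namespace Cfsg.Agent.S0837

open CfsgLib.StabProd CfsgLib.Classical Module

/-- If W ≤ F^n (|F| = q²) is a k-dimensional subspace on which the Hermitian form Σ x_i y_i^q is non-degenerate, then the stabiliser of W in GU_n(q) is isomorphic to GU_k(q) × GU_(n−k)(q). -/
theorem result {F : Type*} [Field F] [Fintype F] {q : ℕ} (hF : Fintype.card F = q ^ 2) (n k : ℕ) (hk : k ≤ n) (W : Submodule F (Fin n → F)) (hWk : Module.finrank F W = k) (hW : ∀ u ∈ W, (∀ v ∈ W, Cfsg.hermForm n F q u v = 0) → u = 0) : Nonempty (↥((Cfsg.stabilizing (Cfsg.glToMat (Fin n) F) (W : Set (Fin n → F))).subgroupOf (Cfsg.GU n F q)) ≃* ↥(Cfsg.GU k F q) × ↥(Cfsg.GU (n - k) F q)) := by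
  classical
  obtain ⟨σ, hσ, hf⟩ := exists_isUnitaryForm_hermForm n q hF
  have hq0 : q ≠ 0 := by
    rintro rfl
    have := Fintype.card_pos (α := F)
    rw [hF] at this; simp at this
  have hne : (σ : F →+* F) ≠ RingHom.id F := fun h => hf.ne_refl (RingEquiv.ext fun a => by
    have := RingHom.congr_fun h a; simpa using this)
  let B : (Fin n → F) →ₛₗ[(σ : F →+* F)] (Fin n → F) →ₗ[F] F := LinearMap.mk₂'ₛₗ (σ : F →+* F) (RingHom.id F)
    (fun u v => Cfsg.hermForm n F q v u)
    (fun u u' v => herm_add_right hf v u u')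
    (fun c u v => by simp only [herm_smul_right hf v c u, smul_eq_mul]; rfl)
    (fun u v v' => hf.add_left v v' u)
    (fun c u v => by simp only [hf.smul_left c v u, smul_eq_mul, RingHom.id_apply])
  have hs : ∀ u v, (σ : F →+* F) (B u v) = B v u := fun u v => (hf.herm u v).symm
  have hNd : Diag.NdOn B W := fun w hw h => hW w hw fun v hv => by
    have : B v w = 0 := by rw [← hs, h v hv, map_zero]
    exact this
  obtain ⟨b, hb⟩ := Diag.exists_orthonormal_basis hne hf.involutive B hs W hNd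
  -- the orthogonal complement
  let P : Submodule F (Fin n → F) := ⨅ w : W, LinearMap.ker (B (w : Fin n → F))
  have hP : ∀ v, v ∈ P ↔ ∀ w ∈ W, B w v = 0 := fun v => by simp [P, Submodule.mem_iInf]
  have hc : IsCompl W P := by
    refine ⟨?_, codisjoint_iff.2 (eq_top_iff.2 fun v _ => ?_)⟩
    · rw [Submodule.disjoint_def]
      exact fun v hv hvP => hNd v hv fun w hw => by rw [← hs, (hP v).1 hvP w hw, map_zero]
    · rw [← add_sub_cancel (∑ i, B (b i : Fin n → F) v • (b i : Fin n → F)) v]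
      refine Submodule.add_mem_sup (Submodule.sum_mem _ fun i _ => W.smul_mem _ (b i).2) ((hP _).2 fun w hw => ?_)
      have key : ∀ j, B (b j : Fin n → F) (v - ∑ i, B (b i : Fin n → F) v • (b i : Fin n → F)) = 0 := fun j => by
        simp [map_sum, hb]
      have hw' : w = ∑ i, b.repr ⟨w, hw⟩ i • (b i : Fin n → F) := by
        conv_lhs => rw [show w = ((⟨w, hw⟩ : W) : Fin n → F) from rfl, ← b.sum_repr ⟨w, hw⟩]
        simp [-Basis.sum_repr]
      rw [hw']
      simp only [map_sum, map_smulₛₗ, LinearMap.sum_apply, LinearMap.smul_apply, key, smul_zero, Finset.sum_const_zero]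
  have hPNd : Diag.NdOn B P := fun u hu h => by
    by_contra hu0
    obtain ⟨y, hy⟩ := (hf.nondegenerate u hu0).1
    obtain ⟨a, ha, c, hc', rfl⟩ := Submodule.mem_sup.1 (show y ∈ W ⊔ P by rw [hc.sup_eq_top]; exact Submodule.mem_top)
    refine hy ?_
    show B u (a + c) = 0
    rw [map_add, h c hc', add_zero, ← hs, (hP u).1 hu a ha, map_zero]
  obtain ⟨b', hb'⟩ := Diag.exists_orthonormal_basis hne hf.involutive B hs P hPNd
  have hPk : finrank F P = n - k := by
    have h := Submodule.finrank_add_eq_of_isCompl hc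
    rw [hWk, Module.finrank_fin_fun] at h
    omega
  let e₁ : (Fin k → F) ≃ₗ[F] W := (b.reindex (finCongr hWk)).equivFun.symm
  let e₂ : (Fin (n - k) → F) ≃ₗ[F] P := (b'.reindex (finCongr hPk)).equivFun.symm
  let Φ : ((Fin k → F) × (Fin (n - k) → F)) ≃ₗ[F] (Fin n → F) := (e₁.prodCongr e₂).trans (Submodule.prodEquivOfIsCompl W P hc)
  have hΦ : ∀ u v, Φ (u, v) = (e₁ u : Fin n → F) + (e₂ v : Fin n → F) := fun u v => by simp [Φ]
  have hpow : ∀ x : F, x ^ q = σ x := fun x => (hσ x).symm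
  have calc1 : ∀ u u', Cfsg.hermForm n F q (e₁ u : Fin n → F) (e₁ u' : Fin n → F) = Cfsg.hermForm k F q u u' := fun u u' => by
    show B (e₁ u' : Fin n → F) (e₁ u : Fin n → F) = _
    simp only [e₁, Basis.equivFun_symm_apply, Submodule.coe_sum, Submodule.coe_smul, map_sum, map_smulₛₗ, LinearMap.sum_apply,
      LinearMap.smul_apply, RingHom.id_apply, smul_eq_mul, Basis.reindex_apply, hb, Cfsg.hermForm, hpow]
    simp [Finset.sum_ite_eq, Finset.sum_ite_eq', EmbeddingLike.apply_eq_iff_eq, mul_comm]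
  have calc2 : ∀ u u', Cfsg.hermForm n F q (e₂ u : Fin n → F) (e₂ u' : Fin n → F) = Cfsg.hermForm (n - k) F q u u' := fun u u' => by
    show B (e₂ u' : Fin n → F) (e₂ u : Fin n → F) = _
    simp only [e₂, Basis.equivFun_symm_apply, Submodule.coe_sum, Submodule.coe_smul, map_sum, map_smulₛₗ, LinearMap.sum_apply,
      LinearMap.smul_apply, RingHom.id_apply, smul_eq_mul, Basis.reindex_apply, hb', Cfsg.hermForm, hpow]
    simp [Finset.sum_ite_eq, Finset.sum_ite_eq', EmbeddingLike.apply_eq_iff_eq, mul_comm]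
  have hcr : ∀ (w : W) (p : P), Cfsg.hermForm n F q (w : Fin n → F) (p : Fin n → F) = 0 ∧ Cfsg.hermForm n F q (p : Fin n → F) (w : Fin n → F) = 0 := fun w p => by
    have h : B (w : Fin n → F) (p : Fin n → F) = 0 := (hP _).1 p.2 w w.2
    refine ⟨?_, h⟩
    show B (p : Fin n → F) (w : Fin n → F) = 0
    rw [← hs, h, map_zero]
  have h0 : ∀ (m : ℕ) (u : Fin m → F), Cfsg.hermForm m F q 0 u = 0 ∧ Cfsg.hermForm m F q u 0 = 0 := fun m u => by
    simp [Cfsg.hermForm, zero_pow hq0]
  refine stab_equiv (Cfsg.hermForm n F q) (Cfsg.hermForm k F q) (Cfsg.hermForm (n - k) F q) Φ ?_ (h0 k) (h0 (n - k)) ?_ W ?_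
  · intro u v u' v'
    rw [hΦ, hΦ, hf.add_left, herm_add_right hf, herm_add_right hf, calc1, calc2, (hcr _ _).1, (hcr _ _).2]
    ring
  · intro u h
    funext i
    have := h (Pi.single i 1)
    rw [Cfsg.hermForm, Finset.sum_eq_single i (fun j _ hj => by rw [Pi.single_eq_of_ne hj, zero_pow hq0, mul_zero])
      (fun h' => absurd (Finset.mem_univ i) h')] at this
    simpa using this
  · intro u v
    rw [hΦ, W.add_mem_iff_right (e₁ u).2]
    refine ⟨fun h => ?_, fun h => by rw [h]; simp⟩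
    exact e₂.map_eq_zero_iff.1 (Subtype.ext (Submodule.disjoint_def.1 hc.disjoint _ h (e₂ v).2))

end Cfsg.Agent.S0837
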