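import Cfsg.Statements.S0838
import Cfsg.Agent.Lib.ClassicalDiag

set_option autoImplicit false
open Cfsg

namespace Cfsg.Agent.S0838

/-- Over a finite field with 2 ≠ 0 and n odd: two quadratic forms Q₁, Q₂ on F^n with non-degenerate polar forms are similar — there are an invertible linear map g and a scalar c ≠ 0 with Q₂ (g v) = c · Q₁ v for all v. -/
theorem result {F : Type*} [Field F] [Fintype F] (h2 : (2 : F) ≠ 0) {n : ℕ} (hn : Odd n) (Q₁ Q₂ : QuadraticForm F (Fin n → F)) (h₁ : (QuadraticMap.polarBilin Q₁).Nondegenerate) (h₂ : (QuadraticMap.polarBilin Q₂).Nondegenerate) : ∃ (g : (Fin n → F) ≃ₗ[F] (Fin n → F)) (c : F), c ≠ 0 ∧ ∀ v, Q₂ (g v) = c * Q₁ v := by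
  classical
  obtain ⟨α, hα⟩ := FiniteField.exists_nonsquare (F := F) (fun h => h2 (by
    have := ringChar.Nat.cast_ringChar (R := F); rw [h] at this; exact_mod_cast this))
  have hα0 : α ≠ 0 := fun h => hα ⟨0, by simp [h]⟩
  obtain ⟨k, rfl⟩ : ∃ k, n = 2 * k + 1 := hn
  -- a basis diagonalising `polarBilin Q`, normalised
  have key : ∀ Q : QuadraticForm F (Fin (2 * k + 1) → F), (QuadraticMap.polarBilin Q).Nondegenerate →
      ∃ (b : Module.Basis (Fin (2 * k + 1)) F (Fin (2 * k + 1) → F)) (c : F), (c = 1 ∨ c = α) ∧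
        ∀ x : Fin (2 * k + 1) → F, 2 * Q (∑ i, x i • b i) = ∑ i, (if i = Fin.last (2 * k) then c else 1) * (x i * x i) := by
    intro Q hQ
    obtain ⟨b, h0, h1, hl⟩ := CfsgLib.Classical.Diag.exists_diag_basis h2 (QuadraticMap.polarBilin Q)
      (fun u v => QuadraticMap.polar_comm _ u v) hα ⊤
      (CfsgLib.Classical.Diag.ndOn_top fun w hw => hQ.1 w hw) (n := 2 * k) (by simp)
    refine ⟨b.map (Submodule.topEquiv : _ ≃ₗ[F] (Fin (2 * k + 1) → F)),
      QuadraticMap.polarBilin Q (b (Fin.last (2 * k)) : Fin (2 * k + 1) → F) (b (Fin.last (2 * k))),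
      hl, fun x => ?_⟩
    have hp : ∀ v, QuadraticMap.polarBilin Q v v = 2 * Q v := fun v => by
      rw [QuadraticMap.polarBilin_apply_apply, QuadraticMap.polar_self, nsmul_eq_mul]; norm_num
    rw [← hp]
    simp only [map_sum, LinearMap.sum_apply, map_smul, LinearMap.smul_apply, smul_eq_mul,
      Module.Basis.map_apply, Submodule.topEquiv_apply]
    refine Finset.sum_congr rfl fun i _ => ?_
    rw [Finset.sum_eq_single i (fun j _ hj => by rw [h0 j i hj]; ring) (by simp)]
    split_ifs with hi
    · subst hi; ring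
    · rw [h1 i hi]; ring
  obtain ⟨b₁, c₁, hc₁, e₁⟩ := key Q₁ h₁
  obtain ⟨b₂, c₂, hc₂, e₂⟩ := key Q₂ h₂
  by_cases hcc : c₁ = c₂
  · refine ⟨b₁.equiv b₂ (Equiv.refl _), 1, one_ne_zero, fun v => ?_⟩
    have hv := b₁.sum_repr v
    conv_lhs => rw [← hv]
    conv_rhs => rw [← hv]
    simp only [map_sum, map_smul, Module.Basis.equiv_apply, Equiv.refl_apply, one_mul]
    exact mul_left_cancel₀ h2 (by rw [e₁, e₂, hcc])
  -- otherwise rescale: `α * Q₁` has discriminant class of `Q₂`
  · have hQ' : (QuadraticMap.polarBilin (α • Q₁)).Nondegenerate := by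
      have e : ∀ x y, QuadraticMap.polarBilin (α • Q₁) x y = α * QuadraticMap.polarBilin Q₁ x y :=
        fun x y => by
          simp only [QuadraticMap.polarBilin_apply_apply, QuadraticMap.polar, smul_apply, smul_eq_mul]
          ring
      constructor
      · exact fun x hx => h₁.1 x fun y => (mul_eq_zero.mp ((e x y).symm.trans (hx y))).resolve_left hα0
      · exact fun y hy => h₁.2 y fun x => (mul_eq_zero.mp ((e x y).symm.trans (hy x))).resolve_left hα0
    obtain ⟨b₃, c₃, hc₃, e₃⟩ := key (α • Q₁) hQ'
    -- discriminants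
    have hdet : ∃ t : F, t ≠ 0 ∧ α ^ (2 * k + 1) * c₁ = c₃ * (t * t) := by
      set M := b₃.toMatrix b₁ with hM
      have hM' : M.transpose * Matrix.diagonal (fun i => if i = Fin.last (2 * k) then c₃ else 1) * M =
          Matrix.diagonal (fun i => α * if i = Fin.last (2 * k) then c₁ else 1) := by
        ext i j
        have hB : ∀ x y : Fin (2 * k + 1) → F,
            2 * (α • Q₁) (∑ l, x l • b₁ l) = ∑ l, (α * if l = Fin.last (2 * k) then c₁ else 1) * (x l * x l) :=
          fun x _ => by
            rw [smul_apply, smul_eq_mul, mul_left_comm, e₁, Finset.mul_sum]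
            exact Finset.sum_congr rfl fun l _ => by ring
        have hC : ∀ x : Fin (2 * k + 1) → F, ∑ l, x l • b₁ l = ∑ l, (M.mulVec x) l • b₃ l := fun x => by
          conv_lhs => arg 2; ext l; rw [← b₃.sum_toMatrix_smul_self b₁ l]
          simp only [Finset.smul_sum, smul_smul, Matrix.mulVec, dotProduct, Finset.sum_smul, hM]
          rw [Finset.sum_comm]
          exact Finset.sum_congr rfl fun a _ => Finset.sum_congr rfl fun c _ => congrArg (· • b₃ a) (mul_comm _ _)
        have hE : ∀ x, ∑ l, (if l = Fin.last (2 * k) then c₃ else 1) * ((M.mulVec x) l * (M.mulVec x) l) =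
            ∑ l, (α * if l = Fin.last (2 * k) then c₁ else 1) * (x l * x l) := fun x => by
          rw [← e₃, ← hC, hB x x]
        have g1 := hE (Pi.single i 1 + Pi.single j 1)
        have g2 := hE (Pi.single i 1)
        have g3 := hE (Pi.single j 1)
        simp only [Matrix.mulVec_add, Matrix.mulVec_single_one, Pi.add_apply, Matrix.col_apply, add_mul,
          mul_add, Finset.sum_add_distrib] at g1 g2 g3
        refine mul_left_cancel₀ h2 ?_
        have t1 : (M.transpose * Matrix.diagonal (fun l => if l = Fin.last (2 * k) then c₃ else 1) * M) i j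
            = ∑ l, (if l = Fin.last (2 * k) then c₃ else 1) * (M l i * M l j) := by
          rw [Matrix.mul_apply]
          exact Finset.sum_congr rfl fun l _ => by rw [Matrix.mul_diagonal, Matrix.transpose_apply]; ring
        have t2 : ∑ l, (if l = Fin.last (2 * k) then c₃ else 1) * (M l j * M l i) =
            ∑ l, (if l = Fin.last (2 * k) then c₃ else 1) * (M l i * M l j) :=
          Finset.sum_congr rfl fun l _ => by ring
        have t3 : ∑ l, (α * if l = Fin.last (2 * k) then c₁ else 1) *
            ((Pi.single i (1 : F) : Fin (2 * k + 1) → F) l * (Pi.single j (1 : F) : Fin (2 * k + 1) → F) l) =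
            Matrix.diagonal (fun l => α * if l = Fin.last (2 * k) then c₁ else 1) i j := by
          rcases eq_or_ne i j with rfl | h
          · simp [Pi.single_apply, Matrix.diagonal_apply]
          · rw [Matrix.diagonal_apply_ne _ h]
            refine Finset.sum_eq_zero fun l _ => ?_
            by_cases hl : l = i
            · subst hl; simp [h]
            · simp [hl]
        have t4 : ∑ l, (α * if l = Fin.last (2 * k) then c₁ else 1) *
            ((Pi.single j (1 : F) : Fin (2 * k + 1) → F) l * (Pi.single i (1 : F) : Fin (2 * k + 1) → F) l) =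
            Matrix.diagonal (fun l => α * if l = Fin.last (2 * k) then c₁ else 1) i j := by
          rw [← t3]; exact Finset.sum_congr rfl fun l _ => by ring
        rw [t1]
        linear_combination g1 - g2 - g3 - t2 + t3 + t4
      have hd := congrArg Matrix.det hM'
      rw [Matrix.det_mul, Matrix.det_mul, Matrix.det_transpose, Matrix.det_diagonal, Matrix.det_diagonal,
        Finset.prod_mul_distrib, Finset.prod_const, Finset.card_univ, Fintype.card_fin,
        Finset.prod_ite_eq' Finset.univ (Fin.last (2 * k)) (fun _ => c₃),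
        Finset.prod_ite_eq' Finset.univ (Fin.last (2 * k)) (fun _ => c₁)] at hd
      simp only [Finset.mem_univ, if_true] at hd
      refine ⟨M.det, fun h0 => ?_, by linear_combination -hd⟩
      rw [h0] at hd
      have hc10 : c₁ ≠ 0 := by rcases hc₁ with rfl | rfl <;> simp [hα0]
      exact mul_ne_zero (pow_ne_zero (2 * k + 1) hα0) hc10 (by linear_combination -hd)
    have hc32 : c₃ = c₂ := by
      by_contra hne
      obtain ⟨t, ht0, ht⟩ := hdet
      have h13 : c₁ = c₃ := by
        rcases hc₁ with h | h <;> rcases hc₂ with h' | h' <;> rcases hc₃ with h'' | h'' <;> simp_all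
      rw [← h13, mul_comm c₁] at ht
      have hc10 : c₁ ≠ 0 := by rcases hc₁ with rfl | rfl <;> simp [hα0]
      exact hα ⟨t / α ^ k, by
        have := mul_right_cancel₀ hc10 ht
        field_simp
        rw [pow_succ] at this
        linear_combination (exp := 1) this⟩
    refine ⟨b₃.equiv b₂ (Equiv.refl _), α, hα0, fun v => ?_⟩
    have hv := b₃.sum_repr v
    conv_lhs => rw [← hv]
    conv_rhs => rw [← hv]
    simp only [map_sum, map_smul, Module.Basis.equiv_apply, Equiv.refl_apply]
    exact mul_left_cancel₀ h2 (by rw [e₂, ← hc32, ← e₃, smul_apply, smul_eq_mul])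

end Cfsg.Agent.S0838
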