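import Cfsg.Statements.S0839
import Mathlib.LinearAlgebra.Projectivization.Action

set_option autoImplicit false
open Cfsg

namespace Cfsg.Agent.S0839

/-- Every transvection t ∈ SL_(n+2)(F) (rank(t − 1) = 1, (t − 1)² = 0) is conjugate in SL_(n+2)(F) to 1 + v·e_0ᵀ for some column vector v with v_0 = 0 (the group A of matrices that are the identity except in the first column below the diagonal); the dimension is written n + 2 ≥ 2. -/
theorem result {F : Type*} [Field F] (n : ℕ) (t : Matrix.SpecialLinearGroup (Fin (n + 2)) F) (ht : Cfsg.IsTransvection (t : Matrix (Fin (n + 2)) (Fin (n + 2)) F)) : ∃ (g : Matrix.SpecialLinearGroup (Fin (n + 2)) F) (v : Fin (n + 2) → F), v 0 = 0 ∧ ((g⁻¹ * t * g : Matrix.SpecialLinearGroup (Fin (n + 2)) F) : Matrix (Fin (n + 2)) (Fin (n + 2)) F) = 1 + Matrix.vecMulVec v (Pi.single 0 1) := by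
  classical
  obtain ⟨hr, hsq⟩ := ht
  set N := (t : Matrix (Fin (n + 2)) (Fin (n + 2)) F) - 1 with hN
  obtain ⟨⟨a, ha⟩, ha0, hspan⟩ := finrank_eq_one_iff'.mp (hr : Module.finrank F (LinearMap.range N.mulVecLin) = 1)
  have hc : ∀ j, ∃ r : F, r • a = N.mulVec (Pi.single j 1) := fun j => by
    obtain ⟨r, hr'⟩ := hspan ⟨_, ⟨Pi.single j 1, rfl⟩⟩
    exact ⟨r, congrArg Subtype.val hr'⟩
  choose c hc using hc
  have ha' : a ≠ 0 := fun h => ha0 (Subtype.ext h)
  have hNac : N = Matrix.vecMulVec a c := by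
    refine Matrix.ext_of_mulVec_single fun j => ?_
    rw [← hc j, Matrix.vecMulVec_mulVec, dotProduct_single, mul_one, op_smul_eq_smul]
  have hc0 : c ≠ 0 := fun h => by
    obtain ⟨x, hx⟩ := ha
    rw [hNac, h, Matrix.vecMulVec_zero, Matrix.mulVecLin_zero, LinearMap.zero_apply] at hx
    exact ha' hx.symm
  have hca : c ⬝ᵥ a = 0 := by
    have h1 : N.mulVec (N.mulVec (Pi.single (Classical.choose (Function.ne_iff.mp hc0)) 1)) = 0 := by
      rw [Matrix.mulVec_mulVec, hsq, Matrix.zero_mulVec]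
    rw [← hc, Matrix.mulVec_smul, hNac, Matrix.vecMulVec_mulVec, op_smul_eq_smul, smul_smul,
      smul_eq_zero, or_iff_left ha', mul_eq_zero] at h1
    exact h1.resolve_left (Classical.choose_spec (Function.ne_iff.mp hc0))
  have hs0 : (Pi.single 0 1 : Fin (n + 2) → F) ≠ 0 := fun h => by simpa using congrFun h 0
  obtain ⟨s, hs⟩ := MulAction.exists_smul_eq (Matrix.SpecialLinearGroup (Fin (n + 2)) F)
    (Projectivization.mk F (Pi.single 0 1 : Fin (n + 2) → F) hs0) (Projectivization.mk F c hc0)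
  rw [Projectivization.smul_mk, Projectivization.mk_eq_mk_iff'] at hs
  obtain ⟨r, hr'⟩ := hs
  set S := (s : Matrix (Fin (n + 2)) (Fin (n + 2)) F) with hS
  replace hr' : r • c = S.mulVec (Pi.single 0 1) := hr'
  have hr0 : r ≠ 0 := fun h => by
    have : (1 : F) = 0 := by
      have := congrArg S.adjugate.mulVec hr'
      rw [h, zero_smul, Matrix.mulVec_zero, Matrix.mulVec_mulVec, Matrix.adjugate_mul, s.2, one_smul,
        Matrix.one_mulVec] at this
      simpa using (congrFun this 0).symm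
    exact one_ne_zero this
  set h : Matrix.SpecialLinearGroup (Fin (n + 2)) F := ⟨S.transpose, by rw [Matrix.det_transpose]; exact s.2⟩
  refine ⟨h⁻¹, (h : Matrix (Fin (n + 2)) (Fin (n + 2)) F).mulVec (r⁻¹ • a), ?_, ?_⟩
  · show Matrix.mulVec S.transpose (r⁻¹ • a) 0 = 0
    have hcol : (fun j => S j 0) = r • c := by
      rw [hr', Matrix.mulVec_single_one]; rfl
    rw [Matrix.mulVec, show (fun j => S.transpose 0 j) = r • c from hcol, dotProduct_smul, smul_dotProduct,
      hca, smul_zero, smul_zero]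
  · have ht' : (t : Matrix (Fin (n + 2)) (Fin (n + 2)) F) = 1 + Matrix.vecMulVec (r⁻¹ • a) (r • c) := by
      rw [Matrix.smul_vecMulVec, Matrix.vecMulVec_smul, smul_smul, inv_mul_cancel₀ hr0, one_smul, ← hNac, hN,
        add_sub_cancel]
    have hrow : r • c = Matrix.vecMul (Pi.single 0 1) (h : Matrix (Fin (n + 2)) (Fin (n + 2)) F) := by
      rw [show (h : Matrix (Fin (n + 2)) (Fin (n + 2)) F) = S.transpose from rfl, Matrix.vecMul_transpose, ← hr']
    rw [inv_inv, Matrix.SpecialLinearGroup.coe_mul, Matrix.SpecialLinearGroup.coe_mul, ht', hrow, mul_add, mul_one,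
      add_mul, Matrix.mul_vecMulVec, Matrix.vecMulVec_mul, Matrix.vecMul_vecMul,
      ← Matrix.SpecialLinearGroup.coe_mul, mul_inv_cancel, Matrix.SpecialLinearGroup.coe_one, Matrix.vecMul_one]

end Cfsg.Agent.S0839
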