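import Cfsg.Statements.S0840
import Cfsg.Agent.Lib.CharMult
import Cfsg.Agent.Lib.CharPerm

set_option autoImplicit false
open scoped ComplexConjugate
open Cfsg

namespace Cfsg.Agent.S0840

/-- Class multiplication coefficients from the character table: for elements a, b, c of a finite group G, the number of ordered pairs (x, y) with x conjugate to a, y conjugate to b and x * y = c equals the product of the sizes of the conjugacy classes of a and b, divided by the order of G, times the sum over the irreducible characters χ of χ a * χ b * conj (χ c) / χ 1. -/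
theorem result {G : Type*} [Group G] [Finite G] (a b c : G) : (Nat.card {p : G × G // IsConj a p.1 ∧ IsConj b p.2 ∧ p.1 * p.2 = c} : ℂ) = (Nat.card {x : G // IsConj a x} : ℂ) * (Nat.card {x : G // IsConj b x} : ℂ) / (Nat.card G : ℂ) * ∑ᶠ χ : Cfsg.IrrCharacter G, (χ : G → ℂ) a * (χ : G → ℂ) b * conj ((χ : G → ℂ) c) / (χ : G → ℂ) 1 := by
  classical
  haveI := Fintype.ofFinite G
  rw [finsum_eq_sum_of_fintype]
  have hCa := CfsgLib.Char.natCard_ne_zero (Subgroup.centralizer ({a} : Set G))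
  have hCb := CfsgLib.Char.natCard_ne_zero (Subgroup.centralizer ({b} : Set G))
  have hclass : ∀ a : G, (Nat.card (Subgroup.centralizer ({a} : Set G)) : ℂ) *
      (Nat.card {x : G // IsConj a x} : ℂ) = (Nat.card G : ℂ) := fun a => by
    have h2 := CfsgLib.Char.inner_classDelta a (fun _ => (1 : ℂ)) (fun _ _ => rfl)
    simp only [Cfsg.classInner, map_one, mul_one] at h2
    rw [inv_mul_eq_iff_eq_mul₀ (CfsgLib.Char.natCard_ne_zero G), mul_one] at h2
    rw [← h2, Nat.card_eq_fintype_card (α := {x : G // IsConj a x}), Fintype.card_subtype,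
      ← Finset.sum_filter_of_ne (p := fun y => IsConj a y)
        (fun y _ hy => by_contra fun hn => hy (CfsgLib.Char.classDelta_of_not_isConj hn)),
      Finset.sum_congr rfl fun y hy => CfsgLib.Char.classDelta_of_isConj (Finset.mem_filter.mp hy).2,
      Finset.sum_const, nsmul_eq_mul, mul_comm]
  have hN : (Nat.card {p : G × G // p.1 * a * p.1⁻¹ * (p.2 * b * p.2⁻¹) = c} : ℂ) =
      (Nat.card (Subgroup.centralizer ({a} : Set G)) : ℂ) *
      (Nat.card (Subgroup.centralizer ({b} : Set G)) : ℂ) *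
      (Nat.card {p : G × G // IsConj a p.1 ∧ IsConj b p.2 ∧ p.1 * p.2 = c} : ℂ) := by
    have h1 : ∀ q : {p : G × G // IsConj a p.1 ∧ IsConj b p.2 ∧ p.1 * p.2 = c},
        Nat.card {x : G // x * a * x⁻¹ = q.1.1} * Nat.card {y : G // y * b * y⁻¹ = q.1.2} =
          Nat.card (Subgroup.centralizer ({a} : Set G)) *
            Nat.card (Subgroup.centralizer ({b} : Set G)) := fun q => by
      have ha := CfsgLib.Char.classDelta_of_isConj q.2.1
      have hb := CfsgLib.Char.classDelta_of_isConj q.2.2.1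
      simp only [CfsgLib.Char.classDelta, Nat.cast_inj] at ha hb
      rw [ha, hb]
    have e : {p : G × G // p.1 * a * p.1⁻¹ * (p.2 * b * p.2⁻¹) = c} ≃
        Σ q : {p : G × G // IsConj a p.1 ∧ IsConj b p.2 ∧ p.1 * p.2 = c},
          {x : G // x * a * x⁻¹ = q.1.1} × {y : G // y * b * y⁻¹ = q.1.2} :=
      { toFun := fun p => ⟨⟨(p.1.1 * a * p.1.1⁻¹, p.1.2 * b * p.1.2⁻¹),
          isConj_iff.mpr ⟨_, rfl⟩, isConj_iff.mpr ⟨_, rfl⟩, p.2⟩, ⟨p.1.1, rfl⟩, ⟨p.1.2, rfl⟩⟩
        invFun := fun s => ⟨(s.2.1.1, s.2.2.1), by rw [s.2.1.2, s.2.2.2]; exact s.1.2.2.2⟩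
        left_inv := fun p => rfl
        right_inv := fun ⟨⟨⟨q1, q2⟩, hq⟩, ⟨x, hx⟩, ⟨y, hy⟩⟩ => by
          simp only at hx hy
          subst hx hy
          rfl }
    rw [Nat.card_congr e, Nat.card_sigma]
    simp only [Nat.card_prod, h1, Finset.sum_const, smul_eq_mul, Finset.card_univ,
      ← Nat.card_eq_fintype_card, Nat.cast_mul]
    ring
  have hmain := CfsgLib.Char.count_conj_mul a b c
  rw [hN] at hmain
  have hconj : conj (∑ χ : Cfsg.IrrCharacter G, conj ((χ : G → ℂ) a) * conj ((χ : G → ℂ) b) *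
      (χ : G → ℂ) c / (χ : G → ℂ) 1) =
      ∑ χ : Cfsg.IrrCharacter G,
        (χ : G → ℂ) a * (χ : G → ℂ) b * conj ((χ : G → ℂ) c) / (χ : G → ℂ) 1 := by
    rw [map_sum]
    refine Finset.sum_congr rfl fun χ _ => ?_
    obtain ⟨d, hd⟩ := CfsgLib.Char.exists_degree χ.2.isCharacter'
    simp only [map_div₀, map_mul, Complex.conj_conj, hd, Complex.conj_natCast]
  have hmain' := congrArg (starRingEnd ℂ) hmain
  simp only [map_mul, Complex.conj_natCast] at hmain'
  rw [hconj] at hmain'
  have hG := CfsgLib.Char.natCard_ne_zero G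
  have h1 := hclass a
  have h2 := hclass b
  field_simp
  apply mul_left_cancel₀ (mul_ne_zero hCa hCb)
  linear_combination (Nat.card G : ℂ) * hmain' -
    ((Nat.card (Subgroup.centralizer ({b} : Set G)) : ℂ) *
      (Nat.card {x : G // IsConj b x} : ℂ) *
      ∑ χ : Cfsg.IrrCharacter G,
        (χ : G → ℂ) a * (χ : G → ℂ) b * conj ((χ : G → ℂ) c) / (χ : G → ℂ) 1) * h1 -
    ((Nat.card G : ℂ) * ∑ χ : Cfsg.IrrCharacter G,
        (χ : G → ℂ) a * (χ : G → ℂ) b * conj ((χ : G → ℂ) c) / (χ : G → ℂ) 1) * h2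

end Cfsg.Agent.S0840
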