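import Cfsg.Statements.S0841
import Mathlib.Tactic.Group
import Mathlib.Algebra.BigOperators.Intervals
import Mathlib.GroupTheory.Commutator.Basic

set_option autoImplicit false
open scoped commutatorElement
open Cfsg

namespace Cfsg.Agent.S0841

/-- If the commutator subgroup of G lies in the centre, then for all x, y in G and every natural number n one has (x * y) ^ n = x ^ n * y ^ n * c ^ (n * (n - 1) / 2) with c = y⁻¹ * x⁻¹ * y * x. -/
theorem result {G : Type*} [Group G] (hG : commutator G ≤ Subgroup.center G) (x y : G) (n : ℕ) : (x * y) ^ n = x ^ n * y ^ n * (y⁻¹ * x⁻¹ * y * x) ^ (n * (n - 1) / 2) := by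
  have hc : ∀ a b z : G, ⁅a, b⁆ * z = z * ⁅a, b⁆ := fun a b z => by
    have h : ⁅a, b⁆ ∈ commutator G :=
      Subgroup.commutator_mem_commutator (Subgroup.mem_top a) (Subgroup.mem_top b)
    exact (Subgroup.mem_center_iff.mp (hG h) z).symm
  set c := y⁻¹ * x⁻¹ * y * x with hcdef
  have hc' : ∀ z : G, Commute c z := fun z => by
    have : c = ⁅y⁻¹, x⁻¹⁆ := by rw [commutatorElement_def, inv_inv, inv_inv, hcdef]
    rw [this]; exact hc _ _ z
  have hyx : y * x = x * y * c := by rw [hcdef]; group
  have hpow : ∀ k : ℕ, y ^ k * x = x * y ^ k * c ^ k := by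
    intro k
    induction k with
    | zero => simp
    | succ k ih =>
      rw [pow_succ', mul_assoc, ih, ← mul_assoc, ← mul_assoc, hyx]
      calc x * y * c * y ^ k * c ^ k = x * y * (c * y ^ k) * c ^ k := by group
        _ = x * y * (y ^ k * c) * c ^ k := by rw [(hc' (y ^ k)).eq]
        _ = x * (y * y ^ k) * (c * c ^ k) := by group
        _ = x * (y * y ^ k) * c ^ (k + 1) := by rw [← pow_succ' c k]
  induction n with
  | zero => simp
  | succ n ih =>
    have he : (n + 1) * (n + 1 - 1) / 2 = n * (n - 1) / 2 + n := by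
      rw [← Finset.sum_range_id, ← Finset.sum_range_id, Finset.sum_range_succ]
    rw [pow_succ, ih, he, pow_add (a := c)]
    have h1 : Commute (c ^ (n * (n - 1) / 2)) (x * y) := (hc' _).pow_left _
    calc x ^ n * y ^ n * c ^ (n * (n - 1) / 2) * (x * y)
        = x ^ n * (y ^ n * x) * y * c ^ (n * (n - 1) / 2) := by
          rw [mul_assoc _ _ (x * y), h1.eq]; group
      _ = x ^ n * (x * y ^ n * c ^ n) * y * c ^ (n * (n - 1) / 2) := by rw [hpow]
      _ = x ^ n * x * y ^ n * (c ^ n * y) * c ^ (n * (n - 1) / 2) := by group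
      _ = x ^ n * x * y ^ n * (y * c ^ n) * c ^ (n * (n - 1) / 2) := by
          rw [((hc' y).pow_left n).eq]
      _ = (x ^ n * x) * (y ^ n * y) * (c ^ n * c ^ (n * (n - 1) / 2)) := by group
      _ = x ^ (n + 1) * y ^ (n + 1) * (c ^ (n * (n - 1) / 2) * c ^ n) := by
          rw [← pow_succ, ← pow_succ, ← pow_add, ← pow_add, add_comm n (n * (n - 1) / 2)]

end Cfsg.Agent.S0841
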