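import Cfsg.Statements.S0842
import Cfsg.Agent.Lib.ZStarQuatLarge

set_option autoImplicit false
open Cfsg

namespace Cfsg.Agent.S0842

/-- Suppose a Sylow 2-subgroup S of the finite group G is generalized quaternion of order at least 16, and let D be the commutator subgroup of S, C its centralizer and N its normalizer in G. Then there is a subgroup K of odd order, contained in C and normalized by N, with K ⊔ S = N and K ⊔ (S ⊓ C) = C, and C has index 2 in N. -/
theorem result {G : Type*} [Group G] [Finite G] (S : Sylow 2 G) (n : ℕ) (e : (S : Subgroup G) ≃* QuaternionGroup (2 ^ (n + 2))) (D : Subgroup G) (hD : D = ⁅(S : Subgroup G), (S : Subgroup G)⁆) : ∃ K : Subgroup G, Odd (Nat.card K) ∧ K ≤ Subgroup.centralizer (D : Set G) ∧ Subgroup.normalizer (D : Set G) ≤ Subgroup.normalizer (K : Set G) ∧ K ⊔ (S : Subgroup G) = Subgroup.normalizer (D : Set G) ∧ K ⊔ ((S : Subgroup G) ⊓ Subgroup.centralizer (D : Set G)) = Subgroup.centralizer (D : Set G) ∧ ((Subgroup.centralizer (D : Set G)).subgroupOf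 (Subgroup.normalizer (D : Set G))).index = 2 := by
  haveI : Fact (Nat.Prime 2) := ⟨Nat.prime_two⟩
  obtain ⟨x, b, h⟩ := CfsgLib.BrauerSuzuki.exists_qData (S : Subgroup G) n e
  obtain rfl : D = Subgroup.zpowers (x ^ 2) := hD.trans h.comm
  obtain ⟨K, hK, hKodd, hKi, hKmem, hcases⟩ := h.complement
  have hcard : Nat.card ↥(K.map (Subgroup.centralizer (Subgroup.zpowers (x ^ 2) : Set G)).subtype)
      = Nat.card K :=
    Subgroup.card_map_of_injective (Subgroup.subtype_injective _)
  have hKN : Subgroup.normalizer (Subgroup.zpowers (x ^ 2) : Set G) ≤ Subgroup.normalizer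
      (K.map (Subgroup.centralizer (Subgroup.zpowers (x ^ 2) : Set G)).subtype : Set G) := by
    have key : ∀ g ∈ Subgroup.normalizer (Subgroup.zpowers (x ^ 2) : Set G),
        ∀ w ∈ K.map (Subgroup.centralizer (Subgroup.zpowers (x ^ 2) : Set G)).subtype,
          g * w * g⁻¹ ∈ K.map (Subgroup.centralizer (Subgroup.zpowers (x ^ 2) : Set G)).subtype := by
      rintro g hg w ⟨v, hv, rfl⟩
      have hmem : g * (v : G) * g⁻¹ ∈ Subgroup.centralizer (Subgroup.zpowers (x ^ 2) : Set G) := by
        rw [Subgroup.mem_centralizer_iff]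
        intro d hd
        have hd' : g⁻¹ * d * g ∈ Subgroup.zpowers (x ^ 2) :=
          (Subgroup.mem_normalizer_iff''.1 hg d).1 hd
        have h1 : g⁻¹ * d * g * (v : G) = (v : G) * (g⁻¹ * d * g) :=
          (Subgroup.mem_centralizer_iff.1 v.2) _ hd'
        calc d * (g * (v : G) * g⁻¹) = g * (g⁻¹ * d * g * (v : G)) * g⁻¹ := by group
          _ = g * ((v : G) * (g⁻¹ * d * g)) * g⁻¹ := by rw [h1]
          _ = _ := by group
      refine ⟨⟨_, hmem⟩, (hKmem _).2 ?_, rfl⟩
      rw [← Subgroup.orderOf_coe]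
      show Odd (orderOf (g * (v : G) * g⁻¹))
      rw [CfsgLib.Invol.orderOf_conj, Subgroup.orderOf_coe]
      exact (hKmem _).1 hv
    intro g hg
    rw [Subgroup.mem_normalizer_iff]
    intro w
    refine ⟨key g hg w, fun hw => ?_⟩
    have := key g⁻¹ (inv_mem hg) _ hw
    simpa [mul_assoc] using this
  have hleC : K.map (Subgroup.centralizer (Subgroup.zpowers (x ^ 2) : Set G)).subtype ≤
      Subgroup.centralizer (Subgroup.zpowers (x ^ 2) : Set G) := Subgroup.map_subtype_le _
  have hCN : Subgroup.centralizer (Subgroup.zpowers (x ^ 2) : Set G) ≤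
      Subgroup.normalizer (Subgroup.zpowers (x ^ 2) : Set G) := Subgroup.centralizer_le_normalizer _
  have hCcard : Nat.card ↥(Subgroup.centralizer (Subgroup.zpowers (x ^ 2) : Set G)) =
      Nat.card K * 2 ^ (n + 3) := by rw [← Subgroup.card_mul_index K, hKi]
  refine ⟨K.map (Subgroup.centralizer (Subgroup.zpowers (x ^ 2) : Set G)).subtype,
    hcard ▸ hKodd, hleC, hKN, ?_, ?_, h.card_normalizer⟩
  · refine Subgroup.eq_of_le_of_card_ge (sup_le (hleC.trans hCN) h.le_normalizer) ?_
    rw [← Subgroup.card_mul_index ((Subgroup.centralizer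
      (Subgroup.zpowers (x ^ 2) : Set G)).subgroupOf
        (Subgroup.normalizer (Subgroup.zpowers (x ^ 2) : Set G))), h.card_normalizer,
      Nat.card_congr (Subgroup.subgroupOfEquivOfLe hCN).toEquiv, hCcard, mul_assoc, ← pow_succ]
    refine Nat.le_of_dvd Nat.card_pos ((Nat.coprime_two_right.2 hKodd).pow_right _ |>.mul_dvd_of_dvd_of_dvd ?_ ?_)
    · rw [← hcard]; exact Subgroup.card_dvd_of_le le_sup_left
    · rw [← h.card]; exact Subgroup.card_dvd_of_le le_sup_right
  · refine Subgroup.eq_of_le_of_card_ge (sup_le hleC inf_le_right) ?_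
    rw [hCcard]
    refine Nat.le_of_dvd Nat.card_pos ((Nat.coprime_two_right.2 hKodd).pow_right _ |>.mul_dvd_of_dvd_of_dvd ?_ ?_)
    · rw [← hcard]; exact Subgroup.card_dvd_of_le le_sup_left
    · rw [← h.order_x]
      exact Subgroup.orderOf_dvd_natCard _ (Subgroup.mem_sup_right ⟨h.x_mem, h.x_mem_C⟩)

end Cfsg.Agent.S0842
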