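import Cfsg.Statements.S0845
import Cfsg.Agent.Lib.ZStarCorollaries

set_option autoImplicit false
open Cfsg

namespace Cfsg.Agent.S0845

/-- Suppose a Sylow 2-subgroup S of the finite group G is generalized quaternion of order at least 16. Then G has a normal subgroup M of even order such that G / M is non-abelian, that is, M does not contain the commutator subgroup of G. -/
theorem result {G : Type*} [Group G] [Finite G] (S : Sylow 2 G) (n : ℕ) (e : (S : Subgroup G) ≃* QuaternionGroup (2 ^ (n + 2))) : ∃ M : Subgroup G, M.Normal ∧ Even (Nat.card M) ∧ ¬ commutator G ≤ M := by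
  haveI : Fact (Nat.Prime 2) := ⟨Nat.prime_two⟩
  haveI : NeZero (2 ^ (n + 2)) := ⟨by positivity⟩
  obtain ⟨x, b, h⟩ := CfsgLib.BrauerSuzuki.exists_qData (S : Subgroup G) n e
  obtain ⟨z, hzS, hz, huniq⟩ := CfsgLib.ZStar.exists_involution_of_quaternion (S : Subgroup G) e
  have hZ := CfsgLib.ZStar.inZStar_of_iso (CfsgLib.ZStar.iso_of_unique S hzS hz huniq)
  refine ⟨Cfsg.pPrimeCore 2 G ⊔ Subgroup.zpowers z, CfsgLib.ZStar.sup_zpowers_normal hZ, ?_, ?_⟩
  · rw [even_iff_two_dvd, ← hz]
    exact Subgroup.orderOf_dvd_natCard _ (Subgroup.mem_sup_right (Subgroup.mem_zpowers z))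
  · intro hle
    have hmem : x ^ 2 ∈ Cfsg.pPrimeCore 2 G ⊔ Subgroup.zpowers z := by
      refine hle ?_
      rw [commutator_def]
      refine Subgroup.commutator_mono (H₁ := (S : Subgroup G)) (H₂ := (S : Subgroup G)) le_top le_top ?_
      rw [h.comm]
      exact Subgroup.mem_zpowers _
    have hd := (Subgroup.orderOf_dvd_natCard _ hmem).trans
      (CfsgLib.ZStar.card_sup_zpowers_dvd hz)
    rw [h.order_sq] at hd
    have h4 : (4 : ℕ) ∣ Nat.card (Cfsg.pPrimeCore 2 G) * 2 := Dvd.dvd.trans ⟨2 ^ n, by ring⟩ hd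
    obtain ⟨k, hk⟩ := CfsgLib.Core.odd_card_pPrimeCore_two (G := G)
    omega

end Cfsg.Agent.S0845
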