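import Cfsg.Statements.S0846
import Cfsg.Agent.Lib.ZStarCorollaries

set_option autoImplicit false
open Cfsg

namespace Cfsg.Agent.S0846

/-- Suppose a Sylow 2-subgroup S of the finite group G is generalized quaternion of order at least 16. Then every Sylow 2-subgroup of the subgroup generated by the involutions of G is cyclic. -/
theorem result {G : Type*} [Group G] [Finite G] (S : Sylow 2 G) (n : ℕ) (e : (S : Subgroup G) ≃* QuaternionGroup (2 ^ (n + 2))) (Q : Sylow 2 ↥(Subgroup.closure {g : G | orderOf g = 2})) : IsCyclic Q := by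
  haveI : Fact (Nat.Prime 2) := ⟨Nat.prime_two⟩
  haveI : NeZero (2 ^ (n + 2)) := ⟨by positivity⟩
  obtain ⟨z, hzS, hz, huniq⟩ := CfsgLib.ZStar.exists_involution_of_quaternion (S : Subgroup G) e
  have hZ := CfsgLib.ZStar.inZStar_of_iso (CfsgLib.ZStar.iso_of_unique S hzS hz huniq)
  have hn := CfsgLib.ZStar.sup_zpowers_normal hZ
  have hle : Subgroup.closure {g : G | orderOf g = 2} ≤
      Cfsg.pPrimeCore 2 G ⊔ Subgroup.zpowers z := by
    rw [Subgroup.closure_le]
    intro t ht
    obtain ⟨g, rfl⟩ := CfsgLib.ZStar.isConj_of_unique S huniq ht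
    exact hn.conj_mem z (Subgroup.mem_sup_right (Subgroup.mem_zpowers z)) g
  have hd : Nat.card (Q : Subgroup ↥(Subgroup.closure {g : G | orderOf g = 2})) ∣
      Nat.card (Cfsg.pPrimeCore 2 G) * 2 :=
    (Subgroup.card_subgroup_dvd_card _).trans ((Subgroup.card_dvd_of_le hle).trans
      (CfsgLib.ZStar.card_sup_zpowers_dvd hz))
  obtain ⟨j, hj⟩ := IsPGroup.iff_card.1 Q.2
  rw [hj] at hd
  have hd2 : 2 ^ j ∣ 2 ^ 1 := by
    rw [pow_one]
    exact (Nat.Coprime.pow_left j (Nat.coprime_two_left.2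
      CfsgLib.Core.odd_card_pPrimeCore_two)).dvd_of_dvd_mul_left hd
  rw [Nat.pow_dvd_pow_iff_le_right one_lt_two] at hd2
  rcases Nat.lt_or_ge j 1 with h0 | h1
  · haveI : Subsingleton (Q : Subgroup ↥(Subgroup.closure {g : G | orderOf g = 2})) :=
      (Nat.card_eq_one_iff_unique.1 (by rw [hj, show j = 0 by omega, pow_zero])).1
    infer_instance
  · exact isCyclic_of_prime_card (p := 2) (by rw [hj, show j = 1 by omega, pow_one])

end Cfsg.Agent.S0846
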