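import Cfsg.Statements.S0851
import Cfsg.Agent.Lib.CharFrobCoh3

set_option autoImplicit false
open Cfsg

namespace Cfsg.Agent.S0851

/-- Let K be a subgroup of the finite group G that meets each conjugate by an element outside its normalizer N trivially, is properly contained in N, and contains the centralizer of each of its non-identity elements (a T.I. subgroup with Frobenius normalizer). Suppose K is abelian, let e be the index of K in N, and call an irreducible character of N relevant when it takes at some element of K a value different from its degree. Then either there is exactly one relevant character and K is an elementary abelian p-group of order e + 1 for some prime p, or there are a sign ε and an injective map f from the relevant characters to the irreducible characters of G such that inducing χ - ξ to G gives ε (f χ - f ξ) for all relevant χ and ξ. -/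
theorem result {G : Type*} [Group G] [Fintype G] (K : Subgroup G) (hTI : ∀ g : G, g ∉ Subgroup.normalizer (K : Set G) → ∀ k ∈ K, g * k * g⁻¹ ∈ K → k = 1) (hlt : K < Subgroup.normalizer (K : Set G)) (hC : ∀ k ∈ K, k ≠ 1 → Subgroup.centralizer ({k} : Set G) ≤ K) (hab : ∀ a ∈ K, ∀ b ∈ K, a * b = b * a) : (Nat.card {χ : Cfsg.IrrCharacter (Subgroup.normalizer (K : Set G)) // ∃ k : Subgroup.normalizer (K : Set G), (k : G) ∈ K ∧ (χ : ↥(Subgroup.normalizer (K : Set G)) → ℂ) k ≠ (χ : ↥(Subgroup.normalizer (K : Set G)) → ℂ) 1} = 1 ∧ ∃ p : ℕ, p.Prime ∧ Cfsg.IsElementaryAbelian p K ∧ Nat.card K = (K.subgroupOf (Subgroup.normalizer (K : Set G))).index + 1) ∨ ∃ (ε : ℂ) (f : {χ : Cfsg.IrrCharacter (Subgroup.normalizer (K : Set G)) // ∃ k : Subgroup.normalizer (K : Set G), (k : G) ∈ K ∧ (χ : ↥(Subgroup.normalizer (K : Set G)) → ℂ) k ≠ (χ : ↥(Subgroup.normalizer (K : Set G)) → ℂ) 1} → Cfsg.IrrCharacter G), (ε = 1 ∨ ε = -1) ∧ Function.Injective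 f ∧ ∀ χ ξ, Cfsg.indFun (Subgroup.normalizer (K : Set G)) ((χ.1 : ↥(Subgroup.normalizer (K : Set G)) → ℂ) - (ξ.1 : ↥(Subgroup.normalizer (K : Set G)) → ℂ)) = ε • ((f χ : G → ℂ) - (f ξ : G → ℂ)) := by
  classical
  set N := Subgroup.normalizer (K : Set G) with hNdef
  haveI : Fintype N := Fintype.ofFinite _
  set K' := K.subgroupOf N with hK'
  have hKN : K ≤ N := Subgroup.le_normalizer
  haveI hn : K'.Normal := Subgroup.normal_in_normalizer
  have hC' : ∀ k ∈ K', k ≠ 1 → Subgroup.centralizer ({k} : Set N) ≤ K' :=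
    CfsgLib.Char.centralizer_le_subgroupOf hC
  have hab' : ∀ a ∈ K', ∀ b ∈ K', a * b = b * a := fun a ha b hb => Subtype.ext (hab _ ha _ hb)
  set S := CfsgLib.Char.relChars K' ⊥ with hS
  have hmem : ∀ χ : IrrCharacter N,
      (∃ k : N, (k : G) ∈ K ∧ (χ : N → ℂ) k ≠ (χ : N → ℂ) 1) ↔ (χ : N → ℂ) ∈ S := fun χ => by
    rw [hS, CfsgLib.Char.mem_relChars]
    exact ⟨fun ⟨k, h1, h2⟩ => ⟨χ.2, ⟨k, h1, h2⟩, fun a ha => by rw [Subgroup.mem_bot.mp ha]⟩,
      fun ⟨_, ⟨k, h1, h2⟩, _⟩ => ⟨k, h1, h2⟩⟩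
  let eS : {χ : IrrCharacter N // ∃ k : N, (k : G) ∈ K ∧ (χ : N → ℂ) k ≠ (χ : N → ℂ) 1} ≃ S :=
    { toFun := fun χ => ⟨χ.1, (hmem χ.1).mp χ.2⟩
      invFun := fun χ => ⟨⟨χ.1, CfsgLib.Char.relChars_irr χ.1 χ.2⟩, (hmem _).mpr χ.2⟩
      left_inv := fun _ => rfl
      right_inv := fun _ => rfl }
  by_cases hone : S.card = 1
  · refine Or.inl ⟨by rw [Nat.card_congr eS, Nat.card_eq_fintype_card, Fintype.card_coe, hone], ?_⟩
    obtain ⟨hcard, q, hq, -, hexp⟩ := CfsgLib.Char.elementary_of_card_one hC' hab' hone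
    refine ⟨q, hq, ⟨⟨⟨fun a b => Subtype.ext (hab _ a.2 _ b.2)⟩⟩,
      fun a ha => congrArg Subtype.val (hexp ⟨a, hKN ha⟩ ha)⟩, ?_⟩
    rw [← Nat.card_congr (Subgroup.subgroupOfEquivOfLe hKN).toEquiv]
    exact hcard
  refine Or.inr ?_
  by_cases hK : K' = ⊥
  · have hempty : IsEmpty S := ⟨fun χ => by
      obtain ⟨-, ⟨k, hk, hk1⟩, -⟩ := CfsgLib.Char.mem_relChars.mp χ.2
      rw [hK] at hk
      exact hk1 (by rw [Subgroup.mem_bot.mp hk])⟩
    exact ⟨1, fun χ => (hempty.false (eS χ)).elim, .inl rfl,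
      fun χ => (hempty.false (eS χ)).elim, fun χ => (hempty.false (eS χ)).elim⟩
  obtain ⟨g, hg⟩ := CfsgLib.Char.abelian_coherent K N hTI hC' hab' hK
  have hτ := CfsgLib.Char.isoZero_relChars K N hTI hC'
  have hd : ∀ χ ∈ S, χ 1 = (K'.index : ℂ) := fun χ h => by
    rw [CfsgLib.Char.natDeg_spec (CfsgLib.Char.relChars_irr χ h).isCharacter',
      CfsgLib.Char.natDeg_of_abelian hC' hab' χ h]
  have hrel : ∀ χ ∈ S, ∀ ξ ∈ S, indFun N (χ - ξ) = g χ - g ξ := fun χ hχ ξ hξ => by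
    have h := hg.rel χ hχ ξ hξ 1 1 (by rw [hd χ hχ, hd ξ hξ])
    simpa only [one_smul] using h
  have h10 : ∀ χ ∈ S, ∀ ξ ∈ S, g χ 1 = g ξ 1 := fun χ hχ ξ hξ => by
    have h := congrFun (hrel χ hχ ξ hξ) 1
    rw [CfsgLib.Char.indFun_one_apply, Pi.sub_apply, hd χ hχ, hd ξ hξ, sub_self, mul_zero,
      Pi.sub_apply] at h
    exact sub_eq_zero.mp h.symm
  have hnorm : ∀ χ ∈ S, classInner (g χ) (g χ) = 1 := fun χ hχ => by
    rw [hg.inner χ hχ χ hχ, CfsgLib.Char.irr_inner_self (CfsgLib.Char.relChars_irr χ hχ)]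
  obtain ⟨χ₀, h₀⟩ := CfsgLib.Char.relChars_nonempty hC' hK
  obtain ⟨ε, hε, hεirr⟩ : ∃ ε : ℂ, (ε = 1 ∨ ε = -1) ∧ ∀ χ ∈ S, IsIrrCharacter G (ε • g χ) := by
    have hpos : ∀ ψ : G → ℂ, IsIrrCharacter G ψ → 0 < (ψ 1).re := fun ψ hψ => by
      obtain ⟨d, hd0, hd1⟩ := CfsgLib.Char.exists_degree_pos hψ
      rw [hd1, Complex.natCast_re]
      exact_mod_cast hd0
    rcases CfsgLib.Char.genChar_norm_one (hg.gen χ₀ h₀) (hnorm χ₀ h₀) with h0 | h0
    · refine ⟨1, .inl rfl, fun χ hχ => ?_⟩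
      rw [one_smul]
      rcases CfsgLib.Char.genChar_norm_one (hg.gen χ hχ) (hnorm χ hχ) with h | h
      · exact h
      · have h1 := hpos _ h
        have h2 := hpos _ h0
        rw [Pi.neg_apply, Complex.neg_re, h10 χ hχ χ₀ h₀] at h1
        linarith
    · refine ⟨-1, .inr rfl, fun χ hχ => ?_⟩
      rw [neg_one_smul]
      rcases CfsgLib.Char.genChar_norm_one (hg.gen χ hχ) (hnorm χ hχ) with h | h
      · have h1 := hpos _ h
        have h2 := hpos _ h0
        rw [Pi.neg_apply, Complex.neg_re] at h2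
        rw [h10 χ hχ χ₀ h₀] at h1
        linarith
      · exact h
  have hε2 : ε * ε = 1 := by rcases hε with rfl | rfl <;> norm_num
  refine ⟨ε, fun χ => ⟨ε • g (eS χ), hεirr _ (eS χ).2⟩, hε, fun χ ξ h => ?_, fun χ ξ => ?_⟩
  · by_contra hne
    have h' : ε • g (eS χ) = ε • g (eS ξ) := congrArg Subtype.val h
    have hgg : g (eS χ : N → ℂ) = g (eS ξ : N → ℂ) := by
      have := congrArg (ε • ·) h'
      simpa only [smul_smul, hε2, one_smul] using this
    have h1 := hnorm _ (eS χ).2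
    nth_rewrite 2 [hgg] at h1
    rw [hg.inner _ (eS χ).2 _ (eS ξ).2, CfsgLib.Char.irr_inner_ne
      (CfsgLib.Char.relChars_irr _ (eS χ).2) (CfsgLib.Char.relChars_irr _ (eS ξ).2)
      fun e => hne (eS.injective (Subtype.ext e))] at h1
    exact zero_ne_one h1
  · show indFun N ((eS χ : N → ℂ) - (eS ξ : N → ℂ)) = ε • (ε • g (eS χ) - ε • g (eS ξ))
    rw [hrel _ (eS χ).2 _ (eS ξ).2, ← smul_sub, smul_smul, hε2, one_smul]

end Cfsg.Agent.S0851
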