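import Cfsg.Statements.S0852
import Cfsg.Agent.Lib.CharExceptional

set_option autoImplicit false
open Cfsg

namespace Cfsg.Agent.S0852

/-- Let K be a subgroup of the finite group G that meets each conjugate by an element outside its normalizer N trivially, is properly contained in N, and contains the centralizer of each of its non-identity elements (a T.I. subgroup with Frobenius normalizer). Let S be the set of irreducible characters of N taking at some element of K a value different from their degree, suppose S has at least two members, and let star be a linear isometry on the integer span of S into the generalized characters of G that agrees with induction on the members vanishing at the identity (so S is coherent, with star as the extending isometry). Then an irreducible character ψ of G is of the form star χ or -star χ for some χ in S if and only if ψ is not constant on the non-identity elements of K. -/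
theorem result {G : Type*} [Group G] [Fintype G] (K : Subgroup G) (hTI : ∀ g : G, g ∉ Subgroup.normalizer (K : Set G) → ∀ k ∈ K, g * k * g⁻¹ ∈ K → k = 1) (hlt : K < Subgroup.normalizer (K : Set G)) (hC : ∀ k ∈ K, k ≠ 1 → Subgroup.centralizer ({k} : Set G) ≤ K) [Fintype ↥(Subgroup.normalizer (K : Set G))] (S : Set (↥(Subgroup.normalizer (K : Set G)) → ℂ)) (hS : S = {χ : ↥(Subgroup.normalizer (K : Set G)) → ℂ | Cfsg.IsIrrCharacter ↥(Subgroup.normalizer (K : Set G)) χ ∧ ∃ k : ↥(Subgroup.normalizer (K : Set G)), (k : G) ∈ K ∧ χ k ≠ χ 1}) (htwo : ∃ χ ∈ S, ∃ ξ ∈ S, χ ≠ ξ) (star : (↥(Subgroup.normalizer (K : Set G)) → ℂ) → (G → ℂ)) (hstar : Cfsg.IsLinearIsometryOn (Cfsg.zspan S) star) (hext : ∀ α ∈ Cfsg.zspanOn S ({1}ᶜ : Set ↥(Subgroup.normalizer (K : Set G))), star α = Cfsg.indFun (Subgroup.normalizer (K : Set G)) α) (ψ : G → ℂ) (hψ : Cfsg.IsIrrCharacter G ψ) : (∃ χ ∈ S, ψ = star χ ∨ ψ = -star χ) ↔ ∃ a ∈ K, ∃ b ∈ K, a ≠ 1 ∧ b ≠ 1 ∧ ψ a ≠ ψ b := by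
  classical
  have hKN : K ≤ Subgroup.normalizer (K : Set G) := Subgroup.le_normalizer
  haveI : (K.subgroupOf (Subgroup.normalizer (K : Set G))).Normal := Subgroup.normal_in_normalizer
  have hset : S = (↑(CfsgLib.Char.relChars (K.subgroupOf (Subgroup.normalizer (K : Set G))) ⊥) :
      Set (↥(Subgroup.normalizer (K : Set G)) → ℂ)) := by
    rw [hS]; ext χ
    rw [Finset.mem_coe, CfsgLib.Char.mem_relChars]
    exact ⟨fun ⟨h1, x, hx, h2⟩ => ⟨h1, ⟨x, hx, h2⟩, fun a ha => by rw [Subgroup.mem_bot.mp ha]⟩,
      fun ⟨h1, ⟨x, hx, h2⟩, _⟩ => ⟨h1, x, hx, h2⟩⟩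
  rw [hset] at hstar hext htwo ⊢
  have h : CfsgLib.Char.ExcSetting K (Subgroup.normalizer (K : Set G)) star :=
    ⟨hTI, CfsgLib.Char.centralizer_le_subgroupOf hC,
      fun e => hlt.not_ge (Subgroup.subgroupOf_eq_top.mp e),
      Finset.one_lt_card.mpr (by
        obtain ⟨χ, hχ, ξ, hξ, hne⟩ := htwo
        exact ⟨χ, Finset.mem_coe.mp hχ, ξ, Finset.mem_coe.mp hξ, hne⟩), hstar, hext⟩
  exact CfsgLib.Char.exceptional_iff h hKN hψ

end Cfsg.Agent.S0852
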