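import Cfsg.Statements.S0859
import Cfsg.Agent.Lib.CharMGroupAbSylow

set_option autoImplicit false
open Cfsg

namespace Cfsg.Agent.S0859

/-- Let G be a finite solvable group and N a normal subgroup such that for every prime p every Sylow p-subgroup of N is abelian. Suppose every irreducible character of G is induced from an irreducible character of some subgroup containing N whose restriction to N is irreducible. Then every irreducible character of G is induced from a character of degree 1 of some subgroup. -/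
theorem result {G : Type*} [Group G] [Fintype G] [Group.IsSolvable G] (N : Subgroup G) [N.Normal] (hab : ∀ (p : ℕ) [Fact p.Prime] (P : Sylow p N), ∀ a ∈ P, ∀ b ∈ P, a * b = b * a) (hrel : ∀ χ : G → ℂ, Cfsg.IsIrrCharacter G χ → ∃ (H : Subgroup G) (hNH : N ≤ H) (ψ : H → ℂ), Cfsg.IsIrrCharacter H ψ ∧ Cfsg.indFun H ψ = χ ∧ Cfsg.IsIrrCharacter N (fun n : N => ψ ⟨(n : G), hNH n.2⟩)) (χ : G → ℂ) (hχ : Cfsg.IsIrrCharacter G χ) : ∃ (U : Subgroup G) (lam : U → ℂ), Cfsg.IsCharacter U lam ∧ lam 1 = 1 ∧ Cfsg.indFun U lam = χ := by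
  obtain ⟨H, hNH, ψ, hψ, hind, hψN⟩ := hrel χ hχ
  haveI := Fintype.ofFinite H
  haveI := Fintype.ofFinite N
  have hab' : ∀ p : ℕ, p.Prime → ∀ Q : Subgroup H, Q ≤ N.subgroupOf H → IsPGroup p Q →
      ∀ a ∈ Q, ∀ b ∈ Q, a * b = b * a := by
    intro p hp Q hQ hQp a ha b hb
    haveI := Fact.mk hp
    have hle : Q.map H.subtype ≤ N := by
      rintro _ ⟨x, hx, rfl⟩
      exact hQ hx
    obtain ⟨P, hP⟩ := IsPGroup.exists_le_sylow ((hQp.map H.subtype).of_equiv
      (Subgroup.subgroupOfEquivOfLe hle).symm)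
    have h := hab p P ⟨(a : G), hQ ha⟩ (hP ⟨a, ha, rfl⟩) ⟨(b : G), hQ hb⟩ (hP ⟨b, hb, rfl⟩)
    exact Subtype.ext (congrArg Subtype.val h :)
  have hψN' : Cfsg.IsIrrCharacter (N.subgroupOf H) (fun x : N.subgroupOf H => ψ x) :=
    CfsgLib.Char.isIrrCharacter_comp_equiv hψN (Subgroup.subgroupOfEquivOfLe hNH)
  have h := CfsgLib.Char.monomial_of_restrict _ rfl (N.subgroupOf H) hab' ψ hψ hψN'
  exact hind ▸ CfsgLib.Char.isMonomialChar_indFun h

end Cfsg.Agent.S0859
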