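import Cfsg.Statements.S0862
import Cfsg.Agent.Lib.CharDet

set_option autoImplicit false
open Cfsg

namespace Cfsg.Agent.S0862

/-- Let N be a normal subgroup of the finite group G and ϑ an irreducible character of N of degree d coprime to the index of N, which is the restriction of some irreducible character of G. Let μ be a character of G of degree 1 whose restriction to N is the determinantal character of ϑ. Then there is exactly one irreducible character χ of G restricting to ϑ whose determinantal character is μ. -/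
theorem result {G : Type*} [Group G] [Finite G] (N : Subgroup G) [N.Normal] (ϑ : N → ℂ) (hϑ : Cfsg.IsIrrCharacter N ϑ) (d : ℕ) (hd : ϑ 1 = d) (hcop : Nat.Coprime N.index d) (hext : ∃ η : G → ℂ, Cfsg.IsIrrCharacter G η ∧ (∀ n : N, η n = ϑ n)) (μ : G → ℂ) (hμ : Cfsg.IsCharacter G μ ∧ μ 1 = 1) (hμN : ∀ n : N, μ n = Cfsg.detChar ϑ n) : ∃! χ : G → ℂ, Cfsg.IsIrrCharacter G χ ∧ (∀ n : N, χ n = ϑ n) ∧ Cfsg.detChar χ = μ := by
  classical
  obtain ⟨m, ρ, hρ, rfl⟩ := hϑ
  haveI := hρ
  have hm : m = d := by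
    rw [Representation.char_one, Module.finrank_fin_fun] at hd
    exact_mod_cast hd
  subst hm
  obtain ⟨η, hη, hres⟩ := hext
  obtain ⟨l, rfl⟩ := CfsgLib.Char.exists_hom_of_degree_one hμ.1 hμ.2
  have hinv : ∀ (g : G) (n : N), ρ.character (MulAut.conjNormal g n) = ρ.character n := by
    intro g n
    rw [← hres, ← hres, MulAut.conjNormal_apply]
    exact CfsgLib.Char.isCharacter_classFunction hη.isCharacter' n g
  obtain ⟨τ, hτ, hτN, hdet⟩ := CfsgLib.Char.exists_extension_det ρ hinv hcop l
    (fun n => (hμN n).trans (CfsgLib.Char.detChar_eq_det ρ n))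
  have hτd : detChar τ.character = fun g => (l g : ℂ) :=
    funext fun g => (CfsgLib.Char.detChar_eq_det τ g).trans (hdet g)
  refine ⟨τ.character, ⟨⟨m, τ, hτ, rfl⟩, fun n => congrArg (LinearMap.trace ℂ _) (hτN n), hτd⟩,
    fun χ ⟨hχ, hχN, hχd⟩ => ?_⟩
  exact CfsgLib.Char.extension_unique_det ρ hcop hχ.isCharacter' ⟨m, τ, rfl⟩ hχN
    (fun n => congrArg (LinearMap.trace ℂ _) (hτN n)) (hχd.trans hτd.symm)

end Cfsg.Agent.S0862
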