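import Cfsg.Statements.S0863
import Cfsg.Agent.Lib.CharDet

set_option autoImplicit false
open Cfsg

namespace Cfsg.Agent.S0863

/-- Let N be a normal subgroup of the finite group G with G / N solvable, and ϑ an irreducible character of N, invariant under conjugation by G, of degree d coprime to the index of N. Then ϑ is the restriction of an irreducible character of G if and only if the determinantal character of ϑ is the restriction of a character of G of degree 1. -/
theorem result {G : Type*} [Group G] [Finite G] (N : Subgroup G) [hN : N.Normal] (hsolv : Group.IsSolvable (G ⧸ N)) (ϑ : N → ℂ) (hϑ : Cfsg.IsIrrCharacter N ϑ) (hinv : ∀ (g : G) (n : N), ϑ ⟨g * n * g⁻¹, hN.conj_mem (n : G) n.2 g⟩ = ϑ n) (d : ℕ) (hd : ϑ 1 = d) (hcop : Nat.Coprime N.index d) : (∃ χ : G → ℂ, Cfsg.IsIrrCharacter G χ ∧ (∀ n : N, χ n = ϑ n)) ↔ ∃ μ : G → ℂ, Cfsg.IsCharacter G μ ∧ μ 1 = 1 ∧ ∀ n : N, μ n = Cfsg.detChar ϑ n := by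
  classical
  obtain ⟨m, ρ, hρ, rfl⟩ := hϑ
  haveI := hρ
  have hm : m = d := by
    rw [Representation.char_one, Module.finrank_fin_fun] at hd
    exact_mod_cast hd
  subst hm
  constructor
  · rintro ⟨_, ⟨k, τ, hτ, rfl⟩, hres⟩
    obtain ⟨e⟩ := CfsgLib.Char.equiv_of_char_eq _ (Fin m → ℂ) (Fin k → ℂ) ρ (τ.comp N.subtype) rfl
      (funext fun n => (hres n).symm)
    let l : G →* ℂˣ := (Units.map LinearMap.det).comp τ.toHomUnits
    refine ⟨fun g => (l g : ℂ), CfsgLib.Char.isCharacter_hom l, by simp, fun n => ?_⟩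
    rw [CfsgLib.Char.detChar_eq_det]
    show LinearMap.det (τ n) = LinearMap.det (ρ n)
    rw [show τ (n : G) = e.toLinearEquiv.toLinearMap ∘ₗ ρ n ∘ₗ
      e.toLinearEquiv.symm.toLinearMap from LinearMap.ext fun v => ?_, LinearMap.det_conj]
    show τ (n : G) v = e.toLinearEquiv (ρ n (e.toLinearEquiv.symm v))
    rw [show e.toLinearEquiv (ρ n (e.toLinearEquiv.symm v)) =
      τ (n : G) (e.toLinearEquiv (e.toLinearEquiv.symm v)) from
      Representation.IntertwiningMap.isIntertwining ρ (τ.comp N.subtype) e.toIntertwiningMap n _,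
      LinearEquiv.apply_symm_apply]
  · rintro ⟨μ, hμ, hμ1, hμN⟩
    obtain ⟨l, rfl⟩ := CfsgLib.Char.exists_hom_of_degree_one hμ hμ1
    obtain ⟨τ, hτ, hτN, -⟩ := CfsgLib.Char.exists_extension_det ρ
      (fun g n => (congrArg ρ.character (Subtype.ext (MulAut.conjNormal_apply g n))).trans (hinv g n))
      hcop l (fun n => (hμN n).trans (CfsgLib.Char.detChar_eq_det ρ n))
    exact ⟨τ.character, ⟨m, τ, hτ, rfl⟩, fun n => congrArg (LinearMap.trace ℂ _) (hτN n)⟩

end Cfsg.Agent.S0863
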