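import Cfsg.Statements.S0864
import Cfsg.Agent.Lib.CharExtend
import Cfsg.Agent.Lib.CharLinear

set_option autoImplicit false
open Cfsg

namespace Cfsg.Agent.S0864

/-- Let N be a normal subgroup of the finite group G and λ a character of N of degree 1 invariant under conjugation by G. Suppose that for every prime p dividing the order of λ (in the group of functions under pointwise multiplication) there is a subgroup H containing N, of index prime to p and with the index of N in H a power of p, together with a character of H of degree 1 restricting to λ. Then λ is the restriction of a character of G of degree 1. -/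
theorem result {G : Type*} [Group G] [Finite G] (N : Subgroup G) [hN : N.Normal] (lam : N → ℂ) (hlam : Cfsg.IsCharacter N lam ∧ lam 1 = 1) (hinv : ∀ (g : G) (n : N), lam ⟨g * n * g⁻¹, hN.conj_mem (n : G) n.2 g⟩ = lam n) (hsyl : ∀ p : ℕ, p.Prime → p ∣ orderOf lam → ∃ (H : Subgroup G) (hNH : N ≤ H) (ν : H → ℂ), Nat.Coprime H.index p ∧ (∃ k : ℕ, N.relIndex H = p ^ k) ∧ Cfsg.IsCharacter H ν ∧ ν 1 = 1 ∧ ∀ n : N, ν ⟨(n : G), hNH n.2⟩ = lam n) : ∃ μ : G → ℂ, Cfsg.IsCharacter G μ ∧ μ 1 = 1 ∧ ∀ n : N, μ n = lam n := by
  classical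
  obtain ⟨l, hl⟩ := CfsgLib.Char.exists_hom_of_degree_one hlam.1 hlam.2
  subst hl
  let ι : (N →* ℂˣ) →* (N → ℂ) :=
    { toFun := fun f n => (f n : ℂ)
      map_one' := rfl
      map_mul' := fun f g => rfl }
  have hinj : Function.Injective ι := fun f g h =>
    MonoidHom.ext fun n => Units.ext (congrFun h n)
  have ho : orderOf (ι l) = orderOf l := orderOf_injective ι hinj l
  obtain ⟨μ, hμ⟩ := CfsgLib.Char.exists_linear_extension l
    (fun g n => Units.ext ((congrArg (fun m => (l m : ℂ))
      (Subtype.ext (MulAut.conjNormal_apply g n))).trans (hinv g n))) fun p hp hpl => by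
      obtain ⟨H, hNH, ν, hcop, -, hν, hν1, hres⟩ := hsyl p hp (by
        rw [← ho] at hpl; exact hpl)
      obtain ⟨ν', rfl⟩ := CfsgLib.Char.exists_hom_of_degree_one hν hν1
      exact ⟨H, hNH, ν', hcop, fun n => Units.ext (hres n)⟩
  exact ⟨fun g => (μ g : ℂ), CfsgLib.Char.isCharacter_hom μ, by simp,
    fun n => congrArg Units.val (hμ n)⟩

end Cfsg.Agent.S0864
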