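import Cfsg.Statements.S0875
import Cfsg.Agent.Lib.CharBrauer3

set_option autoImplicit false
open Cfsg

namespace Cfsg.Agent.S0875

/-- Let G be a finite group of order m * n with m and n coprime, and g an element whose order is coprime to m. Every x in G factors uniquely as x = u * v with u, v commuting, the order of u coprime to n and the order of v coprime to m; let ϑ be the function on G equal to n at those x whose factor v is conjugate to g and equal to 0 elsewhere. Then ϑ is a linear combination of the irreducible characters of G with algebraic-integer coefficients. -/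
theorem result {G : Type*} [Group G] [Fintype G] (m n : ℕ) (hmn : Nat.card G = m * n) (hcop : Nat.Coprime m n) (g : G) (hg : Nat.Coprime (orderOf g) m) (ϑ : G → ℂ) (hϑ1 : ∀ x : G, (∃ v : G, IsConj v g ∧ (∃ u : G, x = u * v ∧ Commute u v ∧ Nat.Coprime (orderOf u) n ∧ Nat.Coprime (orderOf v) m)) → ϑ x = n) (hϑ0 : ∀ x : G, (¬ ∃ v : G, IsConj v g ∧ (∃ u : G, x = u * v ∧ Commute u v ∧ Nat.Coprime (orderOf u) n ∧ Nat.Coprime (orderOf v) m)) → ϑ x = 0) : ∃ c : Cfsg.IrrCharacter G → ℂ, (∀ χ, c χ ∈ Cfsg.AlgInt) ∧ ϑ = ∑ᶠ χ : Cfsg.IrrCharacter G, c χ • (χ : G → ℂ) := by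
  classical
  obtain ⟨a, ha⟩ := CfsgLib.Char.exists_partExp hcop
  have hpow : ∀ x : G, x ^ (m * n) = 1 := fun x => by rw [← hmn]; exact pow_card_eq_one'
  have hg' : orderOf g ∣ n := hg.dvd_of_dvd_mul_left (hmn ▸ orderOf_dvd_natCard g)
  have hiff : ∀ x : G, (∃ v : G, IsConj v g ∧ (∃ u : G, x = u * v ∧ Commute u v ∧
      Nat.Coprime (orderOf u) n ∧ Nat.Coprime (orderOf v) m)) ↔ IsConj (x ^ a) g := by
    intro x
    constructor
    · rintro ⟨v, hv, u, rfl, hc, hu, hv'⟩
      rw [hc.mul_pow, ha.eq_one, ha.eq_self, one_mul]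
      · exact hv
      · exact orderOf_dvd_iff_pow_eq_one.mp (hv'.dvd_of_dvd_mul_left (hmn ▸ orderOf_dvd_natCard v))
      · exact orderOf_dvd_iff_pow_eq_one.mp (hu.dvd_of_dvd_mul_right (hmn ▸ orderOf_dvd_natCard u))
    · intro h
      obtain ⟨b, hb⟩ := CfsgLib.Char.exists_partExp hcop.symm
      have hva : orderOf (x ^ a) ∣ n := orderOf_dvd_of_pow_eq_one (ha.pow_n (hpow x))
      have hub : orderOf (x ^ b) ∣ m :=
        orderOf_dvd_of_pow_eq_one (hb.pow_n (by rw [mul_comm]; exact hpow x))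
      refine ⟨x ^ a, h, x ^ b, ?_, (Commute.refl x).pow_pow b a, hcop.coprime_dvd_left hub,
        hcop.symm.coprime_dvd_left hva⟩
      rw [← pow_add]
      have h1 : b + a ≡ 1 [MOD m] := by
        simpa using hb.2.add (Nat.modEq_zero_iff_dvd.mpr ha.1)
      have h2 : b + a ≡ 1 [MOD n] := by
        simpa using (Nat.modEq_zero_iff_dvd.mpr hb.1).add ha.2
      have h3 : b + a ≡ 1 [MOD m * n] := (Nat.modEq_and_modEq_iff_modEq_mul hcop).mp ⟨h1, h2⟩
      rw [pow_eq_pow_mod (b + a) (hpow x), h3, ← pow_eq_pow_mod 1 (hpow x), pow_one]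
  have heq : ϑ = CfsgLib.Char.sectionFn n a g := funext fun x => by
    unfold CfsgLib.Char.sectionFn
    split_ifs with h
    · exact hϑ1 x ((hiff x).mpr h)
    · exact hϑ0 x fun h' => h ((hiff x).mp h')
  have hcl : Cfsg.IsClassFunction G ϑ := by
    intro x y
    have h : IsConj ((y * x * y⁻¹) ^ a) g ↔ IsConj (x ^ a) g := by
      rw [conj_pow]
      exact ⟨(isConj_iff.mpr ⟨y, rfl⟩ : IsConj (x ^ a) _).trans,
        (isConj_iff.mpr ⟨y, rfl⟩ : IsConj (x ^ a) _).symm.trans⟩
    simp only [heq, CfsgLib.Char.sectionFn, h]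
  haveI := CfsgLib.Char.finite_irrCharacter (G := G)
  haveI := Fintype.ofFinite (Cfsg.IrrCharacter G)
  refine ⟨fun χ => Cfsg.classInner ϑ χ, fun χ => ?_, ?_⟩
  · rw [heq]; exact CfsgLib.Char.sectionFn_integral hmn hcop ha g χ
  · rw [finsum_eq_sum_of_fintype]
    convert CfsgLib.Char.classFunction_eq_sum ϑ hcl

end Cfsg.Agent.S0875
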