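import Cfsg.Statements.S0892
import Cfsg.Agent.Lib.CharAltMultiplier

set_option autoImplicit false
open Cfsg

namespace Cfsg.Agent.S0892

/-- Let n ≥ 4 with n ≠ 6 and n ≠ 7, and let Γ be a finite group with a subgroup Z contained in both the centre and the commutator subgroup of Γ such that Γ / Z is isomorphic to the alternating group on n letters. Then Z has order at most 2. -/
theorem result (n : ℕ) (hn : 4 ≤ n) (h6 : n ≠ 6) (h7 : n ≠ 7) {Γ : Type*} [Group Γ] [Finite Γ] (Z : Subgroup Γ) [Z.Normal] (hZc : Z ≤ Subgroup.center Γ) (hZd : Z ≤ commutator Γ) (e : Γ ⧸ Z ≃* alternatingGroup (Fin n)) : Nat.card Z ≤ 2 := by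
  by_cases h8 : 8 ≤ n
  · let π : Γ →* alternatingGroup (Fin n) := e.toMonoidHom.comp (QuotientGroup.mk' Z)
    have hker : π.ker = Z := by
      ext x
      simp [π, MonoidHom.mem_ker, QuotientGroup.eq_one_iff]
    rw [← hker] at hZc hZd ⊢
    exact CfsgLib.AltMult.card_le_two_large (by rw [Fintype.card_fin]; exact h8) π
      (e.surjective.comp (QuotientGroup.mk'_surjective Z)) hZc hZd
  · haveI : Nontrivial (Fin n) := ⟨⟨⟨0, by omega⟩, ⟨1, by omega⟩, by simp⟩⟩
    have hcard : 2 * Nat.card (Γ ⧸ Z) = Nat.factorial n := by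
      rw [Nat.card_congr e.toEquiv, Nat.card_eq_fintype_card, two_mul_card_alternatingGroup,
        Fintype.card_perm, Fintype.card_fin]
    have h60 : Nat.card (Γ ⧸ Z) ∣ 60 := by
      obtain rfl | rfl : n = 4 ∨ n = 5 := by omega
      · exact ⟨5, by rw [show Nat.factorial 4 = 24 from rfl] at hcard; omega⟩
      · exact ⟨1, by rw [show Nat.factorial 5 = 120 from rfl] at hcard; omega⟩
    refine CfsgLib.AltMult.card_le_two_small Z hZc hZd (fun p k hp hpk => ?_)
    have hd : p ^ k ∣ 60 := hpk.trans h60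
    by_cases hk : k ≤ 1
    · exact Or.inl hk
    have h2 : p ^ 2 ∣ 60 := (pow_dvd_pow p (by omega)).trans hd
    have hp8 : p < 8 := by
      have := Nat.le_of_dvd (by norm_num) h2
      nlinarith
    have hp2 : p = 2 := by
      interval_cases p <;> first | rfl | (revert h2; decide) | (exfalso; revert hp; decide)
    subst hp2
    refine Or.inr ⟨rfl, ?_⟩
    by_contra hk3
    have h8' : 2 ^ 3 ∣ 60 := (pow_dvd_pow 2 (by omega)).trans hd
    revert h8'
    decide

end Cfsg.Agent.S0892
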