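import Cfsg.Statements.S0901
import Cfsg.Agent.Lib.BlockCore
import Mathlib.Algebra.Algebra.ZMod
import Mathlib.RingTheory.RootsOfUnity.Complex

set_option autoImplicit false
open Cfsg
open CfsgLib.Block CfsgLib.Char
open scoped Classical


namespace Cfsg.Agent.S0901

/-- Let M be a maximal ideal of the ring of algebraic integers containing the prime p, and let U be the set of complex roots of unity of order prime to p. Then reduction modulo M is injective on U, and every algebraic integer not in M is congruent modulo M to an element of U (so U maps bijectively onto the nonzero residues). -/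
theorem result (p : ℕ) [Fact p.Prime] (M : Ideal Cfsg.AlgInt) (hM : Cfsg.IsPModular p M) : (∀ ε₁ ε₂ : Cfsg.AlgInt, (∃ m : ℕ, ¬ p ∣ m ∧ (ε₁ : ℂ) ^ m = 1) → (∃ m : ℕ, ¬ p ∣ m ∧ (ε₂ : ℂ) ^ m = 1) → ε₁ - ε₂ ∈ M → ε₁ = ε₂) ∧ (∀ a : Cfsg.AlgInt, a ∉ M → ∃ ε : Cfsg.AlgInt, (∃ m : ℕ, ¬ p ∣ m ∧ (ε : ℂ) ^ m = 1) ∧ a - ε ∈ M) := by
  have hp := (Fact.out : p.Prime)
  haveI := hM.2.1
  haveI := hM.2.1.isPrime
  haveI := charP_resField hM
  have huniq : ∀ ε₁ ε₂ : Cfsg.AlgInt, (∃ m : ℕ, ¬ p ∣ m ∧ (ε₁ : ℂ) ^ m = 1) →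
      (∃ m : ℕ, ¬ p ∣ m ∧ (ε₂ : ℂ) ^ m = 1) → ε₁ - ε₂ ∈ M → ε₁ = ε₂ := by
    rintro a b ⟨m₁, hm₁, ha⟩ ⟨m₂, hm₂, hb⟩ hab
    have hm : ¬ p ∣ m₁ * m₂ := fun h => (hp.dvd_mul.1 h).elim hm₁ hm₂
    have ha' : a ^ (m₁ * m₂) = 1 := Subtype.ext (by
      rw [SubmonoidClass.coe_pow, OneMemClass.coe_one, pow_mul, ha, one_pow])
    have hb' : b ^ (m₁ * m₂) = 1 := Subtype.ext (by
      rw [SubmonoidClass.coe_pow, OneMemClass.coe_one, mul_comm m₁, pow_mul, hb, one_pow])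
    by_contra hne
    have h0 : (∑ i ∈ Finset.range (m₁ * m₂), a ^ i * b ^ (m₁ * m₂ - 1 - i)) * (a - b) = 0 := by
      rw [geom_sum₂_mul, ha', hb', sub_self]
    have h1 := congrArg (Ideal.Quotient.mk M)
      ((mul_eq_zero.1 h0).resolve_right (sub_ne_zero.2 hne))
    simp only [map_sum, map_mul, map_pow, Ideal.Quotient.eq.2 hab, map_zero] at h1
    rw [geom_sum₂_self, mul_eq_zero] at h1
    rcases h1 with h1 | h1
    · exact hm ((CharP.cast_eq_zero_iff (CfsgLib.Block.ResField M) p _).1 h1)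
    · have h2 := congrArg (Ideal.Quotient.mk M) hb'
      have hn0 : m₁ * m₂ ≠ 0 := fun e => hm (by rw [e]; exact dvd_zero p)
      have hn : m₁ * m₂ - 1 + 1 = m₁ * m₂ := Nat.succ_pred_eq_of_pos (Nat.pos_of_ne_zero hn0)
      rw [map_pow, map_one, ← hn, pow_succ, h1, zero_mul] at h2
      exact zero_ne_one h2
  refine ⟨huniq, fun a ha => ?_⟩
  letI : Field (CfsgLib.Block.ResField M) := Ideal.Quotient.field M
  letI : Algebra (ZMod p) (CfsgLib.Block.ResField M) := ZMod.algebra _ p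
  set x : CfsgLib.Block.ResField M := Ideal.Quotient.mk M a with hx
  have hx0 : x ≠ 0 := fun h => ha (Ideal.Quotient.eq_zero_iff_mem.1 h)
  have haint : IsIntegral ℤ a :=
    (isIntegral_algHom_iff (integralClosure ℤ ℂ).val Subtype.val_injective).1 a.2
  have hxint : IsIntegral (ZMod p) x :=
    (haint.map (Ideal.Quotient.mk M).toIntAlgHom).tower_top
  haveI : Module.Finite (ZMod p) ↥(Algebra.adjoin (ZMod p) ({x} : Set (CfsgLib.Block.ResField M))) :=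
    Module.Finite.iff_fg.2 hxint.fg_adjoin_singleton
  haveI : Finite ↥(Algebra.adjoin (ZMod p) ({x} : Set (CfsgLib.Block.ResField M))) :=
    Module.finite_of_finite (ZMod p)
  obtain ⟨i, j, hij, heq⟩ := Finite.exists_ne_map_eq_of_infinite (fun k : ℕ =>
    (⟨x ^ k, pow_mem (Algebra.self_mem_adjoin_singleton _ _) k⟩ :
      ↥(Algebra.adjoin (ZMod p) ({x} : Set (CfsgLib.Block.ResField M)))))
  obtain ⟨r, hr0, hr⟩ : ∃ r : ℕ, r ≠ 0 ∧ x ^ r = 1 := by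
    have heq' : x ^ i = x ^ j := congrArg Subtype.val heq
    rcases Nat.lt_or_ge i j with h | h
    · exact ⟨j - i, by omega, by rw [pow_sub₀ x hx0 h.le, heq', mul_inv_cancel₀ (pow_ne_zero _ hx0)]⟩
    · exact ⟨i - j, by omega, by rw [pow_sub₀ x hx0 h, heq', mul_inv_cancel₀ (pow_ne_zero _ hx0)]⟩
  obtain ⟨k, m, hm, hrm⟩ := Nat.exists_eq_pow_mul_and_not_dvd hr0 p hp.ne_one
  have hxm : x ^ m = 1 := by
    rw [← sub_eq_zero]
    refine (pow_eq_zero_iff (pow_ne_zero k hp.ne_zero)).1 ?_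
    rw [sub_pow_char_pow, one_pow, ← pow_mul, mul_comm m, ← hrm, hr, sub_self]
  have hm0 : m ≠ 0 := fun e => hm (by rw [e]; exact dvd_zero p)
  haveI : NeZero m := ⟨hm0⟩
  obtain ⟨z, hζ⟩ : ∃ z : ℂ, IsPrimitiveRoot z m := ⟨_, Complex.isPrimitiveRoot_exp m hm0⟩
  obtain ⟨ζ, hζv⟩ : ∃ ζ : Cfsg.AlgInt, (ζ : ℂ) = z :=
    ⟨⟨z, IsIntegral.of_pow (Nat.pos_of_ne_zero hm0) (by rw [hζ.pow_eq_one]; exact isIntegral_one)⟩, rfl⟩
  have hprim : IsPrimitiveRoot (Ideal.Quotient.mk M ζ) m := by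
    refine ⟨?_, fun l hl => ?_⟩
    · rw [← map_pow, show ζ ^ m = 1 from Subtype.ext (by simp [hζv, hζ.pow_eq_one]), map_one]
    · rw [← map_pow, ← map_one (Ideal.Quotient.mk M), Ideal.Quotient.eq] at hl
      have h := huniq (ζ ^ l) 1 ⟨m, hm, by
          rw [SubmonoidClass.coe_pow, hζv, ← pow_mul, mul_comm, pow_mul, hζ.pow_eq_one, one_pow]⟩
        ⟨m, hm, by simp⟩ hl
      refine hζ.dvd_of_pow_eq_one l ?_
      rw [← hζv, ← SubmonoidClass.coe_pow, h]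
      rfl
  obtain ⟨l, -, hl⟩ := hprim.eq_pow_of_pow_eq_one hxm
  refine ⟨ζ ^ l, ⟨m, hm, ?_⟩, ?_⟩
  · rw [SubmonoidClass.coe_pow, hζv, ← pow_mul, mul_comm, pow_mul, hζ.pow_eq_one, one_pow]
  · rw [← Ideal.Quotient.eq, map_pow, hl]

end Cfsg.Agent.S0901
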