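import Cfsg.Statements.S0903
import Cfsg.Agent.Lib.BlockRegular

set_option autoImplicit false
open Cfsg

namespace Cfsg.Agent.S0903

/-- Let P be a p-subgroup of the finite group G, let c centralize P and let g, h ∈ G. The number of pairs (x, y) with x conjugate to g, y conjugate to h and x * y = c is congruent modulo p to the number of such pairs in which x and y both centralize P. (This is why the Brauer map on class sums is multiplicative.) -/
theorem result {G : Type*} [Group G] [Finite G] (p : ℕ) [Fact p.Prime] (P : Subgroup G) (hP : IsPGroup p P) (c : G) (hc : c ∈ Subgroup.centralizer (P : Set G)) (g h : G) : Nat.card {xy : G × G // IsConj g xy.1 ∧ IsConj h xy.2 ∧ xy.1 * xy.2 = c} ≡ Nat.card {xy : G × G // IsConj g xy.1 ∧ IsConj h xy.2 ∧ xy.1 * xy.2 = c ∧ xy.1 ∈ Subgroup.centralizer (P : Set G) ∧ xy.2 ∈ Subgroup.centralizer (P : Set G)} [MOD p] := by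
  have hp := (Fact.out : p.Prime)
  haveI := Fintype.ofFinite G
  set X := {xy : G × G // IsConj g xy.1 ∧ IsConj h xy.2 ∧ xy.1 * xy.2 = c} with hX
  have hconj : ∀ (a x : G), IsConj a x → ∀ u : G, IsConj a (u * x * u⁻¹) := fun a x h u =>
    h.trans (isConj_iff.mpr ⟨u, rfl⟩)
  have hcc : ∀ u ∈ P, u * c * u⁻¹ = c := fun u hu => by
    rw [Subgroup.mem_centralizer_iff.mp hc u hu, mul_inv_cancel_right]
  letI : MulAction ↥P X :=
    { smul := fun u x => ⟨((u : G) * x.1.1 * (u : G)⁻¹, (u : G) * x.1.2 * (u : G)⁻¹),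
        hconj _ _ x.2.1 _, hconj _ _ x.2.2.1 _, by
          show (u : G) * x.1.1 * (u : G)⁻¹ * ((u : G) * x.1.2 * (u : G)⁻¹) = c
          calc (u : G) * x.1.1 * (u : G)⁻¹ * ((u : G) * x.1.2 * (u : G)⁻¹)
              = (u : G) * (x.1.1 * x.1.2) * (u : G)⁻¹ := by group
            _ = c := by rw [x.2.2.2, hcc u u.2]⟩
      one_smul := fun x => Subtype.ext (Prod.ext
        (show ((1 : ↥P) : G) * x.1.1 * ((1 : ↥P) : G)⁻¹ = _ by simp)
        (show ((1 : ↥P) : G) * x.1.2 * ((1 : ↥P) : G)⁻¹ = _ by simp))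
      mul_smul := fun u v x => Subtype.ext (Prod.ext
        (show ((u * v : ↥P) : G) * x.1.1 * ((u * v : ↥P) : G)⁻¹ =
          (u : G) * ((v : G) * x.1.1 * (v : G)⁻¹) * (u : G)⁻¹ by rw [Subgroup.coe_mul]; group)
        (show ((u * v : ↥P) : G) * x.1.2 * ((u * v : ↥P) : G)⁻¹ =
          (u : G) * ((v : G) * x.1.2 * (v : G)⁻¹) * (u : G)⁻¹ by rw [Subgroup.coe_mul]; group)) }
  refine (hP.card_modEq_card_fixedPoints X).trans (congrArg (· % p) ?_)
  refine Nat.card_congr ?_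
  refine ⟨fun x => ⟨x.1.1, x.1.2.1, x.1.2.2.1, x.1.2.2.2,
      Subgroup.mem_centralizer_iff.mpr fun u hu => mul_inv_eq_iff_eq_mul.mp
        (congrArg (fun z : X => z.1.1) (x.2 ⟨u, hu⟩)),
      Subgroup.mem_centralizer_iff.mpr fun u hu => mul_inv_eq_iff_eq_mul.mp
        (congrArg (fun z : X => z.1.2) (x.2 ⟨u, hu⟩))⟩,
    fun y => ⟨⟨y.1, y.2.1, y.2.2.1, y.2.2.2.1⟩, fun u => Subtype.ext (Prod.ext
      (mul_inv_eq_iff_eq_mul.mpr (Subgroup.mem_centralizer_iff.mp y.2.2.2.2.1 u u.2))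
      (mul_inv_eq_iff_eq_mul.mpr (Subgroup.mem_centralizer_iff.mp y.2.2.2.2.2 u u.2)))⟩,
    fun x => rfl, fun y => rfl⟩

end Cfsg.Agent.S0903
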