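import Cfsg.Statements.S0905
import Cfsg.Agent.Lib.CoreBasic
import Cfsg.Agent.Lib.LocalBase

set_option autoImplicit false
open Cfsg
open scoped Classical


namespace Cfsg.Agent.S0905

/-- Let F be a field of characteristic p and let g be an element of the finite group G no conjugate of which centralizes O_p(G). Then the class sum of g is a nilpotent element of the group algebra F[G]. -/
theorem result {G : Type*} [Group G] [Finite G] (p : ℕ) [Fact p.Prime] (F : Type*) [Field F] [CharP F p] (g : G) (hg : ∀ x : G, IsConj g x → x ∉ Subgroup.centralizer (Cfsg.pCore p G : Set G)) : IsNilpotent (∑ᶠ x ∈ ConjClasses.carrier (ConjClasses.mk g), MonoidAlgebra.single x (1 : F) : MonoidAlgebra F G) := by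
  haveI := Fintype.ofFinite G
  have hp := (Fact.out : p.Prime)
  set P := Cfsg.pCore p G with hPdef
  haveI : P.Normal := CfsgLib.Local.pCore_normal' p
  haveI := Fintype.ofFinite P
  have hP : IsPGroup p P := CfsgLib.Core.isPGroup_pCore p
  set K := ConjClasses.carrier (ConjClasses.mk g) with hK
  set s : MonoidAlgebra F G := ∑ x ∈ K.toFinset, MonoidAlgebra.single x (1 : F) with hs
  rw [finsum_mem_eq_toFinset_sum, ← hs]
  have hKc : ∀ x ∈ K, ∀ q : G, q * x * q⁻¹ ∈ K := by
    intro x hx q
    rw [hK, ConjClasses.mem_carrier_iff_mk_eq] at hx ⊢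
    rw [← hx, ConjClasses.mk_eq_mk_iff_isConj]
    exact (isConj_iff.2 ⟨q, rfl⟩ : IsConj x (q * x * q⁻¹)).symm
  -- the class sum is central
  have hcomm : ∀ (a : G) (v : MonoidAlgebra F G),
      MonoidAlgebra.single a 1 * (s * v) = s * (MonoidAlgebra.single a 1 * v) := by
    intro a v
    rw [← mul_assoc, ← mul_assoc]
    congr 1
    rw [hs, Finset.mul_sum, Finset.sum_mul]
    simp only [MonoidAlgebra.single_mul_single, one_mul]
    refine Finset.sum_bij' (fun x _ => a * x * a⁻¹) (fun x _ => a⁻¹ * x * a) ?_ ?_ ?_ ?_ ?_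
    · intro x hx; exact Set.mem_toFinset.2 (hKc x (Set.mem_toFinset.1 hx) a)
    · intro x hx
      refine Set.mem_toFinset.2 ?_
      simpa using hKc x (Set.mem_toFinset.1 hx) a⁻¹
    · intro x _; group
    · intro x _; group
    · intro x _; congr 1; group
  have hcommN : ∀ (n : ℕ) (a : G) (v : MonoidAlgebra F G),
      MonoidAlgebra.single a 1 * (s ^ n * v) = s ^ n * (MonoidAlgebra.single a 1 * v) := by
    intro n a v
    induction n with
    | zero => simp
    | succ n ih => rw [pow_succ', mul_assoc, mul_assoc, hcomm, ih]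
  -- it kills vectors fixed by the core
  have hkill : ∀ v : MonoidAlgebra F G, (∀ q ∈ P, MonoidAlgebra.single q (1 : F) * v = v) →
      s * v = 0 := by
    intro v hv
    rw [hs, Finset.sum_mul]
    let X := {x : G // x ∈ K}
    let σ : P → X → X := fun q x => ⟨(q : G) * x.1 * (q : G)⁻¹, hKc x.1 x.2 q⟩
    letI : MulAction P X :=
      { smul := σ
        one_smul := fun x => Subtype.ext (show ((1 : P) : G) * x.1 * ((1 : P) : G)⁻¹ = x.1 by simp)
        mul_smul := fun a b x => Subtype.ext (show ((a * b : P) : G) * x.1 * ((a * b : P) : G)⁻¹ =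
          (a : G) * ((b : G) * x.1 * (b : G)⁻¹) * (a : G)⁻¹ by push_cast; group) }
    have hconst : ∀ (q : P) (x : X), MonoidAlgebra.single (q • x).1 (1 : F) * v =
        MonoidAlgebra.single x.1 1 * v := by
      intro q x
      show MonoidAlgebra.single ((q : G) * x.1 * (q : G)⁻¹) (1 : F) * v = _
      have hq' : x.1⁻¹ * (q : G) * x.1 ∈ P := by
        simpa using ‹P.Normal›.conj_mem q q.2 x.1⁻¹
      have h1 : MonoidAlgebra.single ((q : G) * x.1 * (q : G)⁻¹) (1 : F) =
          MonoidAlgebra.single x.1 1 * MonoidAlgebra.single (x.1⁻¹ * (q : G) * x.1) 1 *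
            MonoidAlgebra.single (q : G)⁻¹ 1 := by
        simp only [MonoidAlgebra.single_mul_single, one_mul]
        congr 1; group
      rw [h1, mul_assoc, mul_assoc, hv _ (inv_mem q.2), hv _ hq']
    haveI : Fintype (MulAction.orbitRel.Quotient P X) := Fintype.ofFinite _
    haveI : Fintype X := Fintype.ofFinite _
    refine Eq.trans (Finset.sum_bij' (t := (Finset.univ : Finset X)) (g := fun x : X => MonoidAlgebra.single x.1 (1 : F) * v)
      (fun x hx => ⟨x, by simpa using hx⟩) (fun x _ => x.1) (fun _ _ => Finset.mem_univ _)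
      (fun x _ => by simpa using x.2) (fun _ _ => rfl) (fun _ _ => rfl) (fun _ _ => rfl)) ?_
    rw [← (MulAction.selfEquivSigmaOrbits P X).symm.sum_comp, Fintype.sum_sigma]
    refine Finset.sum_eq_zero fun ω _ => ?_
    have he : ∀ y : MulAction.orbit P ω.out,
        MonoidAlgebra.single (((MulAction.selfEquivSigmaOrbits P X).symm ⟨ω, y⟩ : X) : G) (1 : F) * v =
          MonoidAlgebra.single (ω.out : X).1 1 * v := by
      intro y
      obtain ⟨q, hq⟩ := y.2
      show MonoidAlgebra.single (y.1 : X).1 (1 : F) * v = _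
      rw [← hq]
      exact hconst q _
    rw [Finset.sum_congr rfl (fun y _ => he y), Finset.sum_const, Finset.card_univ]
    obtain ⟨k, hk⟩ := hP.card_orbit (ω.out : X)
    rw [← Nat.card_eq_fintype_card, hk]
    rcases k with _ | k
    · exfalso
      have hfix : ∀ q : P, q • (ω.out : X) = ω.out := fun q => by
        have hss : Subsingleton (MulAction.orbit P (ω.out : X)) :=
          Finite.card_le_one_iff_subsingleton.1 (by rw [hk]; simp)
        exact congrArg Subtype.val (hss.elim ⟨_, MulAction.mem_orbit _ q⟩ ⟨_, MulAction.mem_orbit_self _⟩)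
      refine hg (ω.out : X).1 ?_ (Subgroup.mem_centralizer_iff.2 fun q hq => ?_)
      · have h' : (ω.out : X).1 ∈ (ConjClasses.mk g).carrier := (ω.out : X).2
        rw [ConjClasses.mem_carrier_iff_mk_eq, ConjClasses.mk_eq_mk_iff_isConj] at h'
        exact h'.symm
      · have := congrArg Subtype.val (hfix ⟨q, hq⟩)
        exact mul_inv_eq_iff_eq_mul.1 this
    · rw [pow_succ, mul_smul, ← Nat.cast_smul_eq_nsmul F p, CharP.cast_eq_zero F p, zero_smul, smul_zero]
  -- powers of a map without fixed vectors in its stable range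
  let L : MonoidAlgebra F G →ₗ[F] MonoidAlgebra F G :=
    { toFun := fun v => s * v
      map_add' := mul_add s
      map_smul' := fun c v => mul_smul_comm c s v }
  have hL : ∀ n v, (L ^ n) v = s ^ n * v := by
    intro n
    induction n with
    | zero => intro v; simp
    | succ n ih =>
      intro v
      rw [pow_succ', Module.End.mul_apply, ih, pow_succ', mul_assoc]
      rfl
  haveI : FiniteDimensional F (MonoidAlgebra F G) := Module.Finite.of_basis (MonoidAlgebra.basis G F)
  obtain ⟨n, hn, hnpos⟩ := ((Module.End.eventually_disjoint_ker_pow_range_pow L).and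
    (Filter.eventually_ge_atTop 1)).exists
  refine ⟨n, ?_⟩
  by_contra hne
  set W := LinearMap.range (L ^ n) with hW
  have hWP : ∀ q ∈ P, ∀ w ∈ W, MonoidAlgebra.single q (1 : F) * w ∈ W := by
    rintro q - _ ⟨v, rfl⟩
    refine ⟨MonoidAlgebra.single q 1 * v, ?_⟩
    rw [hL, hL, hcommN n]
  have hw : s ^ n ∈ W := ⟨1, by rw [hL, mul_one]⟩
  let Φ : (P → ZMod p) →+ MonoidAlgebra F G :=
    AddMonoidHom.mk' (fun f => ∑ q : P, ZMod.castHom dvd_rfl F (f q) •
      (MonoidAlgebra.single (q : G) (1 : F) * s ^ n)) fun f f' => by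
        rw [← Finset.sum_add_distrib]
        exact Finset.sum_congr rfl fun q _ => by rw [Pi.add_apply, map_add, add_smul]
  set A := Φ.range with hA
  haveI : Finite A := Finite.of_surjective Φ.rangeRestrict Φ.rangeRestrict_surjective
  have hstable : ∀ (q : P), ∀ a ∈ A, MonoidAlgebra.single (q : G) (1 : F) * a ∈ A := by
    rintro q _ ⟨f, rfl⟩
    refine ⟨fun r => f (q⁻¹ * r), ?_⟩
    show ∑ r : P, ZMod.castHom dvd_rfl F (f (q⁻¹ * r)) • (MonoidAlgebra.single (r : G) (1 : F) * s ^ n) =
      MonoidAlgebra.single (q : G) (1 : F) * ∑ r : P, ZMod.castHom dvd_rfl F (f r) •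
        (MonoidAlgebra.single (r : G) (1 : F) * s ^ n)
    rw [Finset.mul_sum]
    refine Fintype.sum_equiv (Equiv.mulLeft q⁻¹) _ _ fun r => ?_
    rw [Equiv.coe_mulLeft, mul_smul_comm, ← mul_assoc, MonoidAlgebra.single_mul_single, one_mul]
    congr 3
    simp
  letI : MulAction P A :=
    { smul := fun q a => ⟨MonoidAlgebra.single (q : G) (1 : F) * a.1, hstable q _ a.2⟩
      one_smul := fun a => Subtype.ext (by
        show MonoidAlgebra.single ((1 : P) : G) (1 : F) * a.1 = a.1
        rw [OneMemClass.coe_one, ← MonoidAlgebra.one_def, one_mul])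
      mul_smul := fun q r a => Subtype.ext (by
        show MonoidAlgebra.single ((q * r : P) : G) (1 : F) * a.1 =
          MonoidAlgebra.single (q : G) (1 : F) * (MonoidAlgebra.single (r : G) (1 : F) * a.1)
        rw [← mul_assoc, MonoidAlgebra.single_mul_single, one_mul, Subgroup.coe_mul]) }
  have hwA : s ^ n ∈ A := by
    refine ⟨fun r => if r = 1 then 1 else 0, ?_⟩
    show ∑ r : P, ZMod.castHom dvd_rfl F (if r = 1 then (1 : ZMod p) else 0) •
      (MonoidAlgebra.single (r : G) (1 : F) * s ^ n) = s ^ n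
    rw [Finset.sum_eq_single 1 (fun r _ hr => by rw [if_neg hr, map_zero, zero_smul])
      (fun h => absurd (Finset.mem_univ _) h), if_pos rfl, map_one, one_smul, OneMemClass.coe_one,
      ← MonoidAlgebra.one_def, one_mul]
  haveI : Nontrivial A := ⟨⟨⟨_, hwA⟩, 0, fun h => hne (congrArg Subtype.val h)⟩⟩
  have hdvd : p ∣ Nat.card A := by
    have h1 : Nat.card A ∣ Nat.card (P → ZMod p) := AddSubgroup.card_range_dvd Φ
    rw [Nat.card_fun, Nat.card_zmod] at h1
    obtain ⟨i, -, hi⟩ := (Nat.dvd_prime_pow hp).1 h1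
    rw [hi]
    refine dvd_pow_self p fun h0 => ?_
    rw [h0, pow_zero] at hi
    exact absurd hi Finite.one_lt_card.ne'
  have h0fix : (0 : A) ∈ MulAction.fixedPoints P A := fun q => Subtype.ext (mul_zero _)
  obtain ⟨a, ha, hane⟩ := hP.exists_fixed_point_of_prime_dvd_card_of_fixed_point A hdvd h0fix
  have haW : a.1 ∈ W := by
    obtain ⟨f, hf⟩ := a.2
    rw [← hf]
    exact Submodule.sum_mem _ fun q _ => Submodule.smul_mem _ _ (hWP q q.2 _ hw)
  have hsa : L a.1 = 0 := hkill a.1 fun q hq => congrArg Subtype.val (ha ⟨q, hq⟩)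
  have haK : a.1 ∈ LinearMap.ker (L ^ n) := by
    rcases n with _ | m
    · omega
    · rw [LinearMap.mem_ker, pow_succ, Module.End.mul_apply, hsa, map_zero]
  exact hane (Subtype.ext ((Submodule.disjoint_def.1 hn) _ haK haW).symm)

end Cfsg.Agent.S0905
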