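import Cfsg.Statements.S0910
import Cfsg.Agent.Lib.BlockPrincipal
import Cfsg.Agent.Lib.BlockCoverUnique
import Cfsg.Agent.Lib.CharBurnside
-- import your own Cfsg.Agent.* helpers here

set_option autoImplicit false
open Cfsg

namespace Cfsg.Agent.S0910

/-- Let G be a non-abelian finite simple group and p a prime. If an irreducible character χ lies in the principal block (relative to a maximal ideal of the algebraic integers containing p) and χ 1 is a power of p, then χ is the principal character. -/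
theorem result {G : Type*} [Group G] [Finite G] (p : ℕ) [Fact p.Prime] (M : Ideal Cfsg.AlgInt) (hM : Cfsg.IsPModular p M) [IsSimpleGroup G] (hna : ∃ a b : G, a * b ≠ b * a) (χ : Cfsg.IrrCharacter G) (hχ : χ ∈ Cfsg.principalBlock M G) (k : ℕ) (hdeg : (χ : G → ℂ) 1 = (p : ℂ) ^ k) : (χ : G → ℂ) = fun _ => 1 := by
  have : Fintype G := Fintype.ofFinite G
  have hp : p.Prime := Fact.out
  by_contra hne
  by_cases hpG : p ∣ Nat.card G
  swap
  · have h := CfsgLib.Block.eq_singleton_of_coprime hM hpG
      (CfsgLib.Block.isPBlock_principal (G := G) M) (CfsgLib.Block.trivIrr_mem_principal hM)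
    rw [h, Set.mem_singleton_iff] at hχ
    exact hne (by rw [hχ]; rfl)
  obtain ⟨n, ρ, hρi, hρ⟩ := χ.2
  haveI := hρi
  have hns : ∀ {g : G}, g ≠ 1 → ∀ ω : ℂ, ρ g ≠ ω • LinearMap.id := fun hg =>
    CfsgLib.Char.simple_no_scalar (fun h => hna.elim fun a ⟨b, hab⟩ => hab (h a b)) ρ
      (fun e => hne (hρ.symm.trans e)) hg
  obtain ⟨P⟩ := (inferInstance : Nonempty (Sylow p G))
  haveI : Nontrivial (P : Subgroup G) := by
    rw [Subgroup.nontrivial_iff_ne_bot]
    exact P.ne_bot_of_dvd_card hpG
  haveI := P.isPGroup'.center_nontrivial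
  obtain ⟨⟨z, hzc⟩, hz1⟩ := exists_ne (1 : Subgroup.center (P : Subgroup G))
  have hzne : (z : G) ≠ 1 := fun h => hz1 (Subtype.ext (Subtype.ext h))
  -- the class of z has size prime to p
  have hidx : ¬ p ∣ (Subgroup.centralizer ({(z : G)} : Set G)).index := by
    intro h
    refine P.not_dvd_index (h.trans (Subgroup.index_dvd_of_le ?_))
    intro w hw
    rw [Subgroup.mem_centralizer_singleton_iff]
    exact congrArg Subtype.val (Subgroup.mem_center_iff.1 hzc ⟨w, hw⟩)
  have hfr : (Module.finrank ℂ (Fin n → ℂ) : ℂ) = ((p ^ k : ℕ) : ℂ) := by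
    rw [← Representation.char_one ρ, hρ, hdeg, Nat.cast_pow]
  have hfr' : Module.finrank ℂ (Fin n → ℂ) = p ^ k := Nat.cast_injective hfr
  rcases CfsgLib.Char.burnside_zero_or_scalar ρ (z : G)
    (by rw [hfr']; exact Nat.Coprime.pow_left k (hp.coprime_iff_not_dvd.2 hidx)) with h | h
  · -- the central character vanishes at z
    have h1 := hχ (z : G)
    have h2 : centralChar (χ : G → ℂ) (z : G) = 0 := by
      rw [centralChar, ← hρ, h, mul_zero, zero_div]
    rw [h2, sub_zero, centralChar, mul_one, div_one,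
      CfsgLib.Block.memLocalIdeal_natCast_iff hM] at h1
    exact hidx h1
  · obtain ⟨ω, hω⟩ := (CfsgLib.Char.norm_rep_char_eq_iff ρ (z : G)).mp h
    exact hns hzne ω hω

end Cfsg.Agent.S0910
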