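import Cfsg.Statements.S0911
import Cfsg.Agent.Lib.BlockDefect

set_option autoImplicit false
open Cfsg

namespace Cfsg.Agent.S0911

/-- The min–max Theorem for defect classes. Let B be a block of the finite group G relative to a maximal ideal M of the algebraic integers containing the prime p, let g represent a defect class of B and let D be a Sylow p-subgroup of the centralizer of g (viewed in G). For any h: (a) if the idempotent coefficient of B at h is a local integer outside the local ideal, then some conjugate of D contains a Sylow p-subgroup of the centralizer of h; (b) if the central character of some member of B at h is outside the local ideal, then some conjugate of D is contained in a Sylow p-subgroup of the centralizer of h. -/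
theorem result {G : Type*} [Group G] [Finite G] (p : ℕ) [Fact p.Prime] (M : Ideal Cfsg.AlgInt) (hM : Cfsg.IsPModular p M) (B : Set (Cfsg.IrrCharacter G)) (hB : Cfsg.IsPBlock M B) (g : G) (hg : Cfsg.IsDefectClass M B g) (D : Sylow p (Subgroup.centralizer ({g} : Set G))) (h : G) : (Cfsg.MemLocalRing M (Cfsg.blockCoeff B h) → ¬ Cfsg.MemLocalIdeal M (Cfsg.blockCoeff B h) → ∃ (x : G) (Q : Sylow p (Subgroup.centralizer ({h} : Set G))), (Q : Subgroup (Subgroup.centralizer ({h} : Set G))).map (Subgroup.centralizer ({h} : Set G)).subtype ≤ ((D : Subgroup (Subgroup.centralizer ({g} : Set G))).map (Subgroup.centralizer ({g} : Set G)).subtype).map (MulAut.conj x).toMonoidHom) ∧ ((∃ χ ∈ B, ¬ Cfsg.MemLocalIdeal M (Cfsg.centralChar (χ : G → ℂ) h)) → ∃ (x : G) (Q : Sylow p (Subgroup.centralizer ({h} : Set G))), ((D : Subgroup (Subgroup.centralizer ({g} : Set G))).map (Subgroup.centralizer ({g} : Set G)).subtype).map (MulAut.conj x).toMonoidHom ≤ (Q : Subgroup (Subgroup.centralizer ({h} : Set G))).map (Subgroup.centralizer ({h} : Set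 G)).subtype) := by
  haveI := Fintype.ofFinite G
  classical
  set D' := (D : Subgroup (Subgroup.centralizer ({g} : Set G))).map
    (Subgroup.centralizer ({g} : Set G)).subtype with hD'def
  have hD' : IsDefectGroup p M B D' := ⟨g, hg, D, rfl⟩
  refine ⟨fun _ hne => ?_, fun ⟨χ, hχ, hne⟩ => ?_⟩
  · obtain ⟨Q⟩ : Nonempty (Sylow p (Subgroup.centralizer ({h} : Set G))) := inferInstance
    have hB0 : CfsgLib.Block.BrauerNonzero hM hB
        ((Q : Subgroup (Subgroup.centralizer ({h} : Set G))).map
          (Subgroup.centralizer ({h} : Set G)).subtype) := by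
      refine ⟨h, Subgroup.mem_centralizer_iff.2 ?_,
        (CfsgLib.Block.cred_bIdem_ne_zero_iff hM hB h).2 hne⟩
      rintro _ ⟨q, -, rfl⟩
      exact Subgroup.mem_centralizer_singleton_iff.1 q.2
    obtain ⟨x, hx⟩ := CfsgLib.Block.conjLE_defectGroup_of_brauerNonzero hM hB hD'
      (Q.isPGroup'.map _) hB0
    refine ⟨x⁻¹, Q, fun q hq => ?_⟩
    exact ⟨x * q * x⁻¹, hx ⟨q, hq, rfl⟩, by simp [mul_assoc]⟩
  · obtain ⟨h', hc, hmem⟩ := CfsgLib.Block.exists_conj_mem_centralizer hM hB
      (CfsgLib.Block.isPGroup_defectGroup hM hB hD')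
      (CfsgLib.Block.brauerNonzero_defectGroup hM hB hD') hχ
      ((CfsgLib.Block.ev_cl_ne_zero_iff hM χ h).2 hne)
    obtain ⟨x, hx⟩ := isConj_iff.1 hc
    have hle := CfsgLib.Block.map_conj_le_centralizer hx hmem
    obtain ⟨Q, hQ⟩ := ((CfsgLib.Block.isPGroup_map_conj
      (CfsgLib.Block.isPGroup_defectGroup hM hB hD') x⁻¹).of_equiv
        (Subgroup.subgroupOfEquivOfLe hle).symm).exists_le_sylow
    exact ⟨x⁻¹, Q, fun q hq => ⟨⟨q, hle hq⟩, hQ (Subgroup.mem_subgroupOf.2 hq), rfl⟩⟩

end Cfsg.Agent.S0911
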