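import Cfsg.Statements.S4487
import Cfsg.Agent.Lib.BlockFn
import Cfsg.Agent.Lib.BlockFirstMain
import Cfsg.Agent.Lib.CoreBasic
import Cfsg.Agent.Lib.LocalBase

set_option autoImplicit false
open Cfsg
open CfsgLib.Block CfsgLib.Char
open scoped Classical


namespace Cfsg.Agent.S4487

/-- Let G be a finite group and p a prime such that G has no non-trivial normal subgroup of order prime to p and C_G(O_p(G)) ≤ O_p(G). Then G has a single p-block: any two irreducible characters lie in the same block relative to every maximal ideal M of the algebraic integers containing p. -/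
theorem result {G : Type*} [Group G] [Finite G] (p : ℕ) [Fact p.Prime] (M : Ideal Cfsg.AlgInt) (hM : Cfsg.IsPModular p M) (hcore : Cfsg.pPrimeCore p G = ⊥) (hconstr : Subgroup.centralizer ((Cfsg.pCore p G) : Set G) ≤ Cfsg.pCore p G) (χ ψ : Cfsg.IrrCharacter G) : Cfsg.SameBlock M (χ : G → ℂ) (ψ : G → ℂ) := by
  haveI := Fintype.ofFinite G
  haveI : (Cfsg.pCore p G).Normal := CfsgLib.Local.pCore_normal' p
  haveI := nontrivial_resField hM
  haveI : M.IsMaximal := hM.2.1
  letI : Field (ResField M) := @Ideal.Quotient.field _ _ M hM.2.1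
  have hP : IsPGroup p (Cfsg.pCore p G) := CfsgLib.Core.isPGroup_pCore p
  have key : ∀ B : Set (IrrCharacter G), IsPBlock M B → gFn hM B = gone := by
    intro B hB
    have hsupp : ∀ g : G, g ≠ 1 → gFn hM B g = 0 := by
      intro g hg
      rw [gFn_block hM hB]
      by_cases hgC : g ∈ Subgroup.centralizer (Cfsg.pCore p G : Set G)
      · refine cred_bIdem_singular hM hB ?_
        obtain ⟨k, hk⟩ := IsPGroup.iff_orderOf.1 hP ⟨g, hconstr hgC⟩
        rw [Subgroup.orderOf_mk] at hk
        rw [hk]
        refine dvd_pow_self p fun h0 => hg (orderOf_eq_one_iff.1 (by rw [hk, h0, pow_zero]))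
      · exact cred_bIdem_eq_zero_of_notMem hM _ hP hB hgC
    have hf : gFn hM B = fun g => if g = 1 then gFn hM B 1 else 0 := by
      funext g
      by_cases h : g = 1
      · rw [if_pos h, h]
      · rw [if_neg h, hsupp g h]
    have hsq : gFn hM B 1 * gFn hM B 1 = gFn hM B 1 := by
      have h := congrFun ((gFn_mul_gFn hM hB hB).trans (if_pos rfl)) 1
      rw [gconv, Finset.sum_eq_single 1 (fun x _ hx => by rw [hsupp x hx, zero_mul])
        (fun h => absurd (Finset.mem_univ _) h)] at h
      simpa using h
    rcases eq_or_ne (gFn hM B 1) 0 with h | h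
    · exfalso
      refine gFn_ne_zero hM hB ?_
      rw [hf, h]; funext g; simp
    · rw [hf, mul_left_eq_self₀.1 hsq |>.resolve_right h]
      funext g; rfl
  have e : blockOf M (χ : G → ℂ) = blockOf M (ψ : G → ℂ) :=
    gFn_injOn hM (isPBlock_blockOf χ) (isPBlock_blockOf ψ)
      ((key _ (isPBlock_blockOf χ)).trans (key _ (isPBlock_blockOf ψ)).symm)
  exact (e.symm ▸ mem_blockOf_self hM ψ : ψ ∈ blockOf M (χ : G → ℂ))

end Cfsg.Agent.S4487
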