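import Cfsg.Statements.S0916
import Cfsg.Agent.Lib.BlockFirstMain

set_option autoImplicit false
open Cfsg
open CfsgLib.Block CfsgLib.Char
open scoped Classical


namespace Cfsg.Agent.S0916

/-- Let P be a p-subgroup of the finite group G, C its centralizer and N its normalizer. Say that a conjugacy class (of G, or of N) has defect group P when P is a Sylow p-subgroup of the centralizer (in G, respectively in N) of some element of the class. Then: (i) if the class of g in G has defect group P, the elements of that class lying in C form a single N-class, again with defect group P; (ii) every N-class with defect group P arises this way from exactly one G-class with defect group P. -/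
theorem result {G : Type*} [Group G] [Finite G] (p : ℕ) [Fact p.Prime] (P : Subgroup G) (hP : IsPGroup p P) : (∀ g : G, (∃ S : Sylow p (Subgroup.centralizer ({g} : Set G)), (S : Subgroup (Subgroup.centralizer ({g} : Set G))).map (Subgroup.centralizer ({g} : Set G)).subtype = P) → (∃ c : G, IsConj g c ∧ c ∈ Subgroup.centralizer (P : Set G)) ∧ (∀ c₁ c₂ : G, IsConj g c₁ → IsConj g c₂ → c₁ ∈ Subgroup.centralizer (P : Set G) → c₂ ∈ Subgroup.centralizer (P : Set G) → ∃ n ∈ Subgroup.normalizer (P : Set G), n * c₁ * n⁻¹ = c₂)) ∧ (∀ c : G, c ∈ Subgroup.centralizer (P : Set G) → (∃ S : Sylow p (Subgroup.centralizer ({c} : Set G) ⊓ Subgroup.normalizer (P : Set G) : Subgroup G), (S : Subgroup ↥(Subgroup.centralizer ({c} : Set G) ⊓ Subgroup.normalizer (P : Set G))).map (Subgroup.centralizer ({c} : Set G) ⊓ Subgroup.normalizer (P : Set G)).subtype = P) → ∃ S : Sylow p (Subgroup.centralizer ({c} : Set G)), (S : Subgroup (Subgroup.centralizer ({c} : Set G))).map (Subgroup.centralizer ({c} : Set G)).subtype = P) := by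
  haveI := Fintype.ofFinite G
  refine ⟨fun g hg => ?_, fun c hc hS => ?_⟩
  · obtain ⟨S, hS⟩ := hg
    have hgC : g ∈ Subgroup.centralizer (P : Set G) := by
      rw [Subgroup.mem_centralizer_iff, ← hS]
      rintro _ ⟨z, -, rfl⟩
      exact Subgroup.mem_centralizer_singleton_iff.1 z.2
    refine ⟨⟨g, IsConj.refl g, hgC⟩, fun c₁ c₂ h₁ h₂ hc₁ hc₂ => ?_⟩
    refine exists_normalizer_conj hP hc₁ hc₂ ?_ (h₁.symm.trans h₂)
    have hcard : Nat.card (Subgroup.centralizer ({g} : Set G)) = Nat.card (Subgroup.centralizer ({c₂} : Set G)) := by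
      obtain ⟨x, hx⟩ := isConj_iff.1 h₂
      rw [← card_map_conj (Subgroup.centralizer ({g} : Set G)) x]
      congr 2
      ext z
      rw [← hx, Subgroup.mem_centralizer_singleton_iff]
      constructor
      · rintro ⟨w, hw, rfl⟩
        have h := Subgroup.mem_centralizer_singleton_iff.1 hw
        show x * w * x⁻¹ * (x * g * x⁻¹) = x * g * x⁻¹ * (x * w * x⁻¹)
        simp only [mul_assoc, inv_mul_cancel_left, ← mul_assoc w g, h]
      · intro h
        refine ⟨x⁻¹ * z * x, Subgroup.mem_centralizer_singleton_iff.2 ?_, by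
          show x * (x⁻¹ * z * x) * x⁻¹ = z; group⟩
        calc x⁻¹ * z * x * g = x⁻¹ * (z * (x * g * x⁻¹)) * x := by group
          _ = g * (x⁻¹ * z * x) := by rw [h]; group
    rw [← hcard, ← hS, Subgroup.card_subtype, S.card_eq_multiplicity]
  · obtain ⟨S, hS⟩ := hS
    have hN : Nat.card P = p ^ (Nat.card (Subgroup.centralizer ({c} : Set G) ⊓
        Subgroup.normalizer (P : Set G) : Subgroup G)).factorization p := by
      rw [← S.card_eq_multiplicity, ← Subgroup.card_subtype, hS]
    have h := card_eq_of_normalizer hP hc hN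
    obtain ⟨T, hT⟩ := exists_sylow_map_eq (fun z hz => Subgroup.mem_centralizer_singleton_iff.2
      (Subgroup.mem_centralizer_iff.1 hc z hz)) h
    exact ⟨T, hT.symm⟩

end Cfsg.Agent.S0916
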