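import Cfsg.Statements.S0918
import Cfsg.Agent.Lib.BlockBrauer

set_option autoImplicit false
open Cfsg

namespace Cfsg.Agent.S0918

/-- Let P be a p-subgroup of the finite group G and H a subgroup with P·C_G(P) ≤ H ≤ N_G(P); let b be a block of H and B a block of G relative to a maximal ideal M of the algebraic integers containing p. Then b induces B if and only if, for every g ∈ G, every ξ ∈ b and every χ ∈ B, the central character of χ at g is congruent modulo the local ideal at M to the sum of ξ h / ξ 1 over the elements h of H conjugate in G to g and centralizing P. -/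
theorem result {G : Type*} [Group G] [Finite G] (p : ℕ) [Fact p.Prime] (M : Ideal Cfsg.AlgInt) (hM : Cfsg.IsPModular p M) (P H : Subgroup G) (hP : IsPGroup p P) (hPH : P ≤ H) (hCH : Subgroup.centralizer (P : Set G) ≤ H) (hHN : H ≤ Subgroup.normalizer (P : Set G)) (b : Set (Cfsg.IrrCharacter H)) (hb : Cfsg.IsPBlock M b) (B : Set (Cfsg.IrrCharacter G)) (hB : Cfsg.IsPBlock M B) : Cfsg.IsInducedBlock M H b B ↔ ∀ ξ ∈ b, ∀ χ ∈ B, ∀ g : G, Cfsg.MemLocalIdeal M (Cfsg.brauerCentralChar P H (ξ : H → ℂ) g - Cfsg.centralChar (χ : G → ℂ) g) := by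
  haveI := Fintype.ofFinite G
  haveI := Fintype.ofFinite H
  have key : ∀ (ξ : IrrCharacter H) (g : G),
      MemLocalIdeal M (inducedCentralChar H (ξ : H → ℂ) g - brauerCentralChar P H (ξ : H → ℂ) g) := by
    intro ξ g
    rw [← CfsgLib.Block.resLift_cl hM H g ξ, ← CfsgLib.Block.brLift_cl hM hHN g ξ]
    exact (CfsgLib.Block.memLocalIdeal_sub_iff hM (CfsgLib.Block.val_mem hM (SetLike.coe_mem _) ξ)
      (CfsgLib.Block.val_mem hM (SetLike.coe_mem _) ξ)).2
      (CfsgLib.Block.ev_resLift_eq_brLift hM hP hHN hPH (CfsgLib.Block.cl hM g) ξ)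
  have hadd : ∀ {z w : ℂ}, MemLocalIdeal M z → MemLocalIdeal M w → MemLocalIdeal M (z + w) := by
    intro z w hz hw
    obtain ⟨a, ha⟩ := (CfsgLib.Block.memLocalIdeal_iff_exists hM).1 hz
    obtain ⟨b, hb⟩ := (CfsgLib.Block.memLocalIdeal_iff_exists hM).1 hw
    refine (CfsgLib.Block.memLocalIdeal_iff_exists hM).2 ⟨add_mem a b, ?_⟩
    rw [show (⟨z + w, add_mem a b⟩ : CfsgLib.Block.locRing hM) = ⟨z, a⟩ + ⟨w, b⟩ from rfl,
      map_add, ha, hb, add_zero]
  have hneg : ∀ {z : ℂ}, MemLocalIdeal M z → MemLocalIdeal M (-z) := by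
    intro z hz
    obtain ⟨a, ha⟩ := (CfsgLib.Block.memLocalIdeal_iff_exists hM).1 hz
    refine (CfsgLib.Block.memLocalIdeal_iff_exists hM).2 ⟨neg_mem a, ?_⟩
    rw [show (⟨-z, neg_mem a⟩ : CfsgLib.Block.locRing hM) = -⟨z, a⟩ from rfl, map_neg, ha,
      neg_zero]
  constructor
  · rintro ⟨-, -, h⟩ ξ hξ χ hχ g
    have := hadd (h ξ hξ χ hχ g) (hneg (key ξ g))
    convert this using 1
    ring
  · refine fun h => ⟨hb, hB, fun ξ hξ χ hχ g => ?_⟩
    have := hadd (key ξ g) (h ξ hξ χ hχ g)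
    convert this using 1
    ring

end Cfsg.Agent.S0918
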