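import Cfsg.Statements.S0920
import Cfsg.Agent.Lib.BlockFirstMain

set_option autoImplicit false
open Cfsg
open CfsgLib.Block CfsgLib.Char
open scoped Classical


namespace Cfsg.Agent.S0920

/-- Brauer's First Main Theorem. Let D be a p-subgroup of the finite group G with normalizer N, and fix a maximal ideal M of the algebraic integers containing p. Then (i) every block b of N having D as a defect group induces some block B of G having D as a defect group; (ii) every block of G with defect group D is induced by exactly one block of N with defect group D. -/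
theorem result {G : Type*} [Group G] [Finite G] (p : ℕ) [Fact p.Prime] (M : Ideal Cfsg.AlgInt) (hM : Cfsg.IsPModular p M) (D : Subgroup G) (hD : IsPGroup p D) : (∀ b : Set (Cfsg.IrrCharacter (Subgroup.normalizer (D : Set G))), Cfsg.IsPBlock M b → Cfsg.IsDefectGroup p M b (D.subgroupOf (Subgroup.normalizer (D : Set G))) → ∃ B : Set (Cfsg.IrrCharacter G), Cfsg.IsPBlock M B ∧ Cfsg.IsDefectGroup p M B D ∧ Cfsg.IsInducedBlock M (Subgroup.normalizer (D : Set G)) b B) ∧ (∀ B : Set (Cfsg.IrrCharacter G), Cfsg.IsPBlock M B → Cfsg.IsDefectGroup p M B D → ∃! b : Set (Cfsg.IrrCharacter (Subgroup.normalizer (D : Set G))), Cfsg.IsPBlock M b ∧ Cfsg.IsDefectGroup p M b (D.subgroupOf (Subgroup.normalizer (D : Set G))) ∧ Cfsg.IsInducedBlock M (Subgroup.normalizer (D : Set G)) b B) := by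
  haveI := Fintype.ofFinite G
  obtain ⟨N, hN⟩ : ∃ N : Subgroup G, N = Subgroup.normalizer (D : Set G) := ⟨_, rfl⟩
  rw [← hN]
  have hDN : D ≤ N := hN ▸ Subgroup.le_normalizer
  have hC : Subgroup.centralizer (D : Set G) ≤ N := hN ▸ Subgroup.centralizer_le_normalizer (D : Set G)
  haveI : (D.subgroupOf N).Normal := (Subgroup.normal_subgroupOf_iff_le_normalizer hDN).2 hN.le
  have hD' : IsPGroup p (D.subgroupOf N) := hD.of_equiv (Subgroup.subgroupOfEquivOfLe hDN).symm
  refine ⟨fun b hb hbD => ?_, fun B hB hBD => ?_⟩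
  · obtain ⟨B, hB⟩ := inducedBlockDefined_brauer hM hD hC hN.le hDN hb
    exact ⟨B, hB.2.1, defectGroup_of_induced hM hD hC hN.le hDN hN hB
      ((isDefectGroup_iff_card hM _ hD' hb).1 hbD), hB⟩
  · obtain ⟨b, hb⟩ := exists_induced hM hD hC hN.le hDN hB hBD
    have hd := card_defect_of_induced hM hD hN.le hDN hb hBD
    exact ⟨b, ⟨hb.1, (isDefectGroup_iff_card hM _ hD' hb.1).2 hd, hb⟩,
      fun b' hb' => eq_of_induced hM hD hC hN.le hDN hN hb hd hb'.2.2⟩

end Cfsg.Agent.S0920
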