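import Cfsg.Statements.S0921
import Cfsg.Agent.Lib.BlockCovering
import Cfsg.Agent.Lib.CoreBasic

set_option autoImplicit false
open Cfsg
open CfsgLib.Block CfsgLib.Char
open scoped Classical


namespace Cfsg.Agent.S0921

/-- Let N = O_p'(G) be the largest normal subgroup of the finite group G of order prime to p, and fix a maximal ideal M of the algebraic integers containing p. If two irreducible characters χ, ψ of G lie in the same block relative to M, then an irreducible character of N occurs in the restriction of χ exactly when it occurs in the restriction of ψ. -/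
theorem result {G : Type*} [Group G] [Finite G] (p : ℕ) [Fact p.Prime] (M : Ideal Cfsg.AlgInt) (hM : Cfsg.IsPModular p M) [Fintype G] (χ ψ : Cfsg.IrrCharacter G) (h : Cfsg.SameBlock M (χ : G → ℂ) (ψ : G → ℂ)) (θ : Cfsg.IrrCharacter (Cfsg.pPrimeCore p G)) [Fintype (Cfsg.pPrimeCore p G)] : Cfsg.classInner (fun n : Cfsg.pPrimeCore p G => (χ : G → ℂ) n) (θ : Cfsg.pPrimeCore p G → ℂ) ≠ 0 ↔ Cfsg.classInner (fun n : Cfsg.pPrimeCore p G => (ψ : G → ℂ) n) (θ : Cfsg.pPrimeCore p G → ℂ) ≠ 0 := by
  haveI := CfsgLib.Core.normal_pPrimeCore (G := G) p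
  have key : ∀ a c : Cfsg.IrrCharacter G, Cfsg.SameBlock M (a : G → ℂ) (c : G → ℂ) →
      Over (Cfsg.pPrimeCore p G) a θ → Over (Cfsg.pPrimeCore p G) c θ := by
    intro a c hac ha
    have hnd : ¬ p ∣ Nat.card (Cfsg.pPrimeCore p G) := CfsgLib.Core.not_dvd_card_pPrimeCore p
    have hA : ∀ A : Set (Cfsg.IrrCharacter (Cfsg.pPrimeCore p G)), indVal A ∈ intRing hM := by
      intro A n
      simp only [coef]
      refine mul_mem (natCast_inv_mem hM hnd) (sum_mem fun φ _ => mul_mem (mul_mem ?_ (irr_mem hM φ 1)) ?_)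
      · simp only [indVal]
        split_ifs
        · exact one_mem _
        · exact zero_mem _
      · rw [← isCharacter_inv_eq_conj φ.2.isCharacter']
        exact irr_mem hM φ _
    have hmem := indVal_covSet_mem (G := G) hM (hA (orbitSet {θ})) (orbitSet_orbitSet' _)
    have haA : a ∈ covSet (orbitSet ({θ} : Set (Cfsg.IrrCharacter (Cfsg.pPrimeCore p G)))) := fun φ hφ => by
      obtain ⟨g, hg⟩ := exists_conj_of_over ha hφ
      exact ⟨g, θ, rfl, hg⟩
    obtain ⟨φ, hφ⟩ := exists_over (N := Cfsg.pPrimeCore p G) c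
    obtain ⟨g, θ', rfl, hg⟩ := blockOf_subset_of_indVal_mem hM hmem haA hac φ hφ
    exact (over_conj g hg).1 hφ
  exact ⟨key χ ψ h, key ψ χ (sameBlock_symm hM h)⟩

end Cfsg.Agent.S0921
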