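import Cfsg.Statements.S0925
import Cfsg.Agent.Lib.BlockOrth

set_option autoImplicit false
open Cfsg
open scoped ComplexConjugate

namespace Cfsg.Agent.S0925

/-- (i) Let ϑ be a class function on the finite group G and x a p-element, and suppose ϑ vanishes at every element whose p-part is conjugate to x. Then for every block B (relative to a maximal ideal M of the algebraic integers containing p) the B-part of ϑ — the sum over χ ∈ B of the inner product of ϑ with χ, times χ — also vanishes at every such element. (ii) Block orthogonality, its corollary: if the p-parts of g and h are not conjugate, then the sum over χ ∈ B of χ g * χ h⁻¹ is zero for every block B. -/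
theorem result {G : Type*} [Group G] [Finite G] (p : ℕ) [Fact p.Prime] (M : Ideal Cfsg.AlgInt) (hM : Cfsg.IsPModular p M) : (∀ (ϑ : G → ℂ), Cfsg.IsClassFunction G ϑ → ∀ x : G, (∃ k : ℕ, orderOf x = p ^ k) → (∀ u z : G, Cfsg.IsPPart p u z → IsConj x z → ϑ u = 0) → ∀ B : Set (Cfsg.IrrCharacter G), Cfsg.IsPBlock M B → ∀ u z : G, Cfsg.IsPPart p u z → IsConj x z → Cfsg.blockPart B ϑ u = 0) ∧ (∀ g h x y : G, Cfsg.IsPPart p g x → Cfsg.IsPPart p h y → ¬ IsConj x y → ∀ B : Set (Cfsg.IrrCharacter G), Cfsg.IsPBlock M B → ∑ᶠ χ ∈ B, (χ : G → ℂ) g * (χ : G → ℂ) h⁻¹ = 0) := by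
  haveI := Fintype.ofFinite G
  refine ⟨?_, ?_⟩
  · intro ϑ _ x _ hzero B hB u z hu hxz
    rw [CfsgLib.Block.blockPart_eq]
    have e : ∀ χ : IrrCharacter G, CfsgLib.Block.indVal B χ *
        (classInner ϑ (χ : G → ℂ) * (χ : G → ℂ) u) =
        (Nat.card G : ℂ)⁻¹ * ∑ g, ϑ g *
          (CfsgLib.Block.indVal B χ * (χ : G → ℂ) u * conj ((χ : G → ℂ) g)) := by
      intro χ
      simp only [classInner, Finset.mul_sum, Finset.sum_mul]
      exact Finset.sum_congr rfl fun g _ => by ring
    simp only [e, ← Finset.mul_sum]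
    rw [Finset.sum_comm]
    simp only [← Finset.mul_sum]
    refine mul_eq_zero_of_right _ (Finset.sum_eq_zero fun g _ => ?_)
    obtain ⟨w, hw⟩ := CfsgLib.Block.exists_isPPart hM.1 g
    by_cases hc : IsConj x w
    · rw [hzero g w hw hc, zero_mul]
    · rw [CfsgLib.Block.block_sum_pPart_eq_zero hM hB hu hw fun h => hc (hxz.trans h.symm),
        mul_zero]
  · intro g h x y hx hy hne B hB
    rw [CfsgLib.Block.finsum_mem_eq_indVal,
      ← CfsgLib.Block.block_sum_pPart_eq_zero hM hB hx hy fun e => hne e.symm]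
    refine Finset.sum_congr rfl fun χ _ => ?_
    rw [CfsgLib.Char.isCharacter_inv_eq_conj χ.2.isCharacter' h, mul_assoc]

end Cfsg.Agent.S0925
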