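import Cfsg.Statements.S0926
import Cfsg.Agent.Lib.BlockDefect2

set_option autoImplicit false
open Cfsg

namespace Cfsg.Agent.S0926

/-- Let B be a block of the finite group G with defect group D (relative to a maximal ideal M of the algebraic integers containing p), let χ ∈ B have height zero, and let x be a p-element. Then some conjugate of x lies in D if and only if χ does not vanish on the whole p-section of x (the elements whose p-part is conjugate to x). -/
theorem result {G : Type*} [Group G] [Finite G] (p : ℕ) [Fact p.Prime] (M : Ideal Cfsg.AlgInt) (hM : Cfsg.IsPModular p M) (B : Set (Cfsg.IrrCharacter G)) (hB : Cfsg.IsPBlock M B) (D : Subgroup G) (hD : Cfsg.IsDefectGroup p M B D) (χ : Cfsg.IrrCharacter G) (hχ : χ ∈ B) (h0 : Cfsg.blockHeight p B (χ : G → ℂ) = 0) (x : G) (hx : ∃ k : ℕ, orderOf x = p ^ k) : (∃ g : G, g * x * g⁻¹ ∈ D) ↔ ∃ u : G, (∃ z : G, Cfsg.IsPPart p u z ∧ IsConj x z) ∧ (χ : G → ℂ) u ≠ 0 := by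
  haveI := Fintype.ofFinite G
  classical
  have h0' := h0
  have hp : p.Prime := Fact.out
  constructor
  · rintro ⟨a, ha⟩
    obtain ⟨y, hy, hle, -⟩ := (CfsgLib.Block.isDefectGroup_data hM hB).1 hD
    set x' := a * x * a⁻¹ with hx'
    have hc : Commute x' y := (Subgroup.mem_centralizer_singleton_iff.1 (hle ha) : _)
    have hk : ∃ k, orderOf x' = p ^ k := by
      obtain ⟨k, hk⟩ := hx
      exact ⟨k, by rw [hx', CfsgLib.Block.orderOf_conj_eq, hk]⟩
    refine ⟨x' * y, ⟨x', ⟨y, rfl, hc, hk, CfsgLib.Block.defectClass_regular hM hB hy⟩,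
      isConj_iff.2 ⟨a, rfl⟩⟩, fun h0 => ?_⟩
    refine CfsgLib.Block.height_zero_apply_ne_zero hM hB hy hχ h0' hc hk ?_
    rw [h0, CfsgLib.Block.memLocalIdeal_iff_exists hM]
    exact ⟨zero_mem _, map_zero _⟩
  · rintro ⟨u, ⟨z, hz, hxz⟩, hne⟩
    obtain ⟨E, hE, hzE⟩ := CfsgLib.Block.exists_defectGroup_mem_of_apply_ne_zero hM hB hχ hz hne
    obtain ⟨a, ha⟩ := CfsgLib.Block.defectGroup_eq_conj hM hB hE hD
    obtain ⟨c, hc⟩ := isConj_iff.1 hxz
    refine ⟨a * c, ?_⟩
    rw [← ha]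
    exact ⟨z, hzE, by rw [← hc]; simp [mul_assoc]⟩

end Cfsg.Agent.S0926
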