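import Cfsg.Statements.S0927
import Cfsg.Agent.Lib.BlockDefect2

set_option autoImplicit false
open Cfsg

namespace Cfsg.Agent.S0927

/-- Let B be a block of the finite group G relative to a maximal ideal M of the algebraic integers containing p, let y represent a defect class of B and let P be a Sylow p-subgroup of the centralizer of y. (a) If x ∈ P and χ ∈ B has height zero, then χ (x * y) is not in the local ideal at M. (b) If x lies in the centre of P, then for every χ ∈ B the central character of χ at x * y is not in the local ideal at M. -/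
theorem result {G : Type*} [Group G] [Finite G] (p : ℕ) [Fact p.Prime] (M : Ideal Cfsg.AlgInt) (hM : Cfsg.IsPModular p M) (B : Set (Cfsg.IrrCharacter G)) (hB : Cfsg.IsPBlock M B) (y : G) (hy : Cfsg.IsDefectClass M B y) (P : Sylow p (Subgroup.centralizer ({y} : Set G))) (x : Subgroup.centralizer ({y} : Set G)) (hx : x ∈ (P : Subgroup (Subgroup.centralizer ({y} : Set G)))) : (∀ χ ∈ B, Cfsg.blockHeight p B (χ : G → ℂ) = 0 → ¬ Cfsg.MemLocalIdeal M ((χ : G → ℂ) ((x : G) * y))) ∧ ((∀ w ∈ (P : Subgroup (Subgroup.centralizer ({y} : Set G))), x * w = w * x) → ∀ χ ∈ B, ¬ Cfsg.MemLocalIdeal M (Cfsg.centralChar (χ : G → ℂ) ((x : G) * y))) := by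
  haveI := Fintype.ofFinite G
  have hp : p.Prime := Fact.out
  set D := (P : Subgroup (Subgroup.centralizer ({y} : Set G))).map
    (Subgroup.centralizer ({y} : Set G)).subtype with hDdef
  have hD : IsDefectGroup p M B D := ⟨y, hy, P, rfl⟩
  have hcard := CfsgLib.Block.card_defectGroup hM hB hD
  have hxD : (x : G) ∈ D := ⟨x, hx, rfl⟩
  have hle : D ≤ Subgroup.centralizer ({y} : Set G) := Subgroup.map_subtype_le _
  have hc : Commute (x : G) y := (Subgroup.mem_centralizer_singleton_iff.1 x.2 : _)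
  have hk : ∃ k, orderOf (x : G) = p ^ k := by
    obtain ⟨k, hk⟩ := (IsPGroup.iff_orderOf (p := p)).1 P.isPGroup' ⟨x, hx⟩
    exact ⟨k, by rw [Subgroup.orderOf_mk] at hk; rw [Subgroup.orderOf_coe]; exact hk⟩
  refine ⟨fun χ hχ h0 => CfsgLib.Block.height_zero_apply_ne_zero hM hB hy hχ h0 hc hk,
    fun hcen χ hχ => ?_⟩
  refine (CfsgLib.Block.ev_cl_ne_zero_iff hM χ _).1
    (CfsgLib.Block.ev_cl_mul_defectClass hM hB hy hle hcard hxD ?_ hχ)
  rintro _ ⟨w, hw, rfl⟩
  exact congrArg Subtype.val (hcen w hw)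

end Cfsg.Agent.S0927
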