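import Cfsg.Statements.S0928
import Cfsg.Agent.Lib.BlockSection
import Cfsg.Agent.Lib.BlockDefect
import Cfsg.Agent.Lib.BlockSubFacts
import Cfsg.Agent.Lib.BlockRegular
import Cfsg.Agent.Lib.BlockBrauer
import Cfsg.Agent.Lib.CharLinear

set_option autoImplicit false
open Cfsg
open CfsgLib.Block CfsgLib.Char
open scoped Classical


namespace Cfsg.Agent.S0928

/-- Let χ be an irreducible character of the finite group G and p a prime. If χ g = 0 for every element g of order p, then the exponent of p in the degree χ(1) equals the exponent of p in the order of G (χ has p-defect zero). -/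
theorem result {G : Type*} [Group G] [Finite G] (p : ℕ) [Fact p.Prime] (χ : Cfsg.IrrCharacter G) (hvan : ∀ g : G, orderOf g = p → (χ : G → ℂ) g = 0) : (Cfsg.charDegree (χ : G → ℂ)).factorization p = (Nat.card G).factorization p := by
  haveI := Fintype.ofFinite G
  have hp : p.Prime := Fact.out
  obtain ⟨M, hM⟩ := exists_isPModular hp
  set B := blockOf M (χ : G → ℂ) with hBdef
  have hB : IsPBlock M B := isPBlock_blockOf χ
  have hχB : χ ∈ B := mem_blockOf_self hM χ
  refine le_antisymm ((Nat.factorization_le_iff_dvd (charDegree_pos χ).ne' Nat.card_pos.ne').2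
    (charDegree_dvd_card χ) p) ?_
  obtain ⟨D, hD⟩ := exists_defectGroup hM hB
  by_contra hlt
  have hD1 : Nat.card D ≠ 1 := by
    rw [card_defectGroup hM hB hD]
    intro h
    have h0 : blockDefect p B = 0 := by
      by_contra h0
      exact absurd h (Nat.one_lt_pow h0 hp.one_lt).ne'
    have h1 := defect_add_min hM hB
    have h2 := blockMin_le (p := p) hχB
    omega
  obtain ⟨z, hzD, hz⟩ : ∃ z ∈ D, orderOf z = p := by
    have hdvd : p ∣ Nat.card D := by
      obtain ⟨j, hj⟩ : ∃ j, Nat.card D = p ^ j := ⟨_, card_defectGroup hM hB hD⟩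
      rw [hj] at hD1 ⊢
      exact dvd_pow_self p (fun h => hD1 (by rw [h, pow_zero]))
    obtain ⟨z, hz⟩ := exists_prime_orderOf_dvd_card' p hdvd
    exact ⟨z, z.2, by rw [Subgroup.orderOf_coe]; exact hz⟩
  have hu : ∃ k, orderOf z = p ^ k := ⟨1, by rw [hz, pow_one]⟩
  haveI := nontrivial_resField hM
  obtain ⟨ξ₀, hξ₀⟩ : ∃ ξ, ξ ∈ secSet M z B := by
    obtain ⟨g, hg, hne⟩ := brauerNonzero_defectGroup hM hB hD
    have hgz : g ∈ Subgroup.centralizer ({z} : Set G) :=
      Subgroup.mem_centralizer_singleton_iff.2 (Subgroup.mem_centralizer_iff.1 hg z hzD).symm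
    by_contra hem
    push_neg at hem
    apply hne
    have h1 := cred_secSet hM hu hB ⟨g, hgz⟩
    rw [show (g : G) = ((⟨g, hgz⟩ : Subgroup.centralizer ({z} : Set G)) : G) from rfl, ← h1]
    have h0 : (⟨_, secSet_mem hM hu hB⟩ :
        intRing (G := Subgroup.centralizer ({z} : Set G)) hM) = 0 :=
      Subtype.ext (funext fun ξ => by
        show indVal (secSet M z B) ξ = 0
        exact if_neg (hem ξ))
    rw [h0, cred_zero_eq]
    rfl
  set z' : Subgroup.centralizer ({z} : Set G) :=
    ⟨z, Subgroup.mem_centralizer_singleton_iff.2 rfl⟩ with hz'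
  have hz'c : z' ∈ Subgroup.center (Subgroup.centralizer ({z} : Set G)) :=
    Subgroup.mem_center_iff.2 fun g =>
      Subtype.ext (Subgroup.mem_centralizer_singleton_iff.1 g.2)
  have hz'o : orderOf z' = p := by rw [← Subgroup.orderOf_coe]; exact hz
  set e := blockOf M (ξ₀ : Subgroup.centralizer ({z} : Set G) → ℂ) with he
  have heB : IsPBlock M e := isPBlock_blockOf ξ₀
  -- a character of the block with the central element in its kernel
  obtain ⟨θ, hθe, hθz⟩ : ∃ θ ∈ e, centVal θ z' = 1 := by
    by_contra hno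
    push_neg at hno
    have hsum : ∀ i ∈ Finset.range p,
        ∑ θ : IrrCharacter (Subgroup.centralizer ({z} : Set G)), indVal e θ *
          (θ : Subgroup.centralizer ({z} : Set G) → ℂ) 1 *
          (θ : Subgroup.centralizer ({z} : Set G) → ℂ) 1 * centVal θ z' ^ i =
        if i = 0 then ∑ θ : IrrCharacter (Subgroup.centralizer ({z} : Set G)), indVal e θ *
          (θ : Subgroup.centralizer ({z} : Set G) → ℂ) 1 *
          (θ : Subgroup.centralizer ({z} : Set G) → ℂ) 1 else 0 := by
      intro i hi
      split_ifs with h0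
      · simp [h0]
      · have hne : z' ^ i ≠ 1 := by
          intro h
          rw [← orderOf_dvd_iff_pow_eq_one, hz'o] at h
          exact absurd (Nat.le_of_dvd (Nat.pos_of_ne_zero h0) h) (not_le.2 (Finset.mem_range.1 hi))
        have h := block_sum_eq_zero (p := p) heB (u := z' ^ i) (u' := 1) (y := 1) (y' := 1)
          (by
            have hdvd : orderOf (z' ^ i) ∣ p ^ 1 := by
              rw [pow_one]; exact (orderOf_pow_dvd i).trans hz'o.dvd
            obtain ⟨j, -, hj⟩ := (Nat.dvd_prime_pow hp).1 hdvd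
            exact ⟨j, hj⟩)
          ⟨0, by simp⟩ (by simpa using hp.not_dvd_one) (by simpa using hp.not_dvd_one)
          (Commute.one_right _) (Commute.one_right _)
          (fun hc => hne (isConj_one_right.1 hc)) hM
        rw [← h]
        refine Finset.sum_congr rfl fun θ _ => ?_
        rw [(centVal_spec θ (Subgroup.pow_mem _ hz'c i)).2 1, centVal_pow θ hz'c,
          mul_one (1 : Subgroup.centralizer ({z} : Set G)), irr_conj_one]
        ring
    have h1 := Finset.sum_congr (rfl : Finset.range p = _) hsum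
    rw [Finset.sum_comm, Finset.sum_ite_eq' (Finset.range p) 0, if_pos (Finset.mem_range.2 hp.pos)]
      at h1
    have h2 : ∑ θ : IrrCharacter (Subgroup.centralizer ({z} : Set G)), ∑ i ∈ Finset.range p,
        indVal e θ * (θ : Subgroup.centralizer ({z} : Set G) → ℂ) 1 *
          (θ : Subgroup.centralizer ({z} : Set G) → ℂ) 1 * centVal θ z' ^ i = 0 :=
      Finset.sum_eq_zero fun θ _ => by
        by_cases hθ : θ ∈ e
        · have hs := (centVal_spec θ hz'c).1
          rw [hz'o] at hs
          rw [← Finset.mul_sum, geom_sum_eq (hno θ hθ), hs, sub_self, zero_div, mul_zero]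
        · simp [indVal, hθ]
    rw [h2] at h1
    have h3 : (0 : ℕ) < ∑ θ ∈ Finset.univ.filter (fun θ => θ ∈ e),
        charDegree (θ : Subgroup.centralizer ({z} : Set G) → ℂ) ^ 2 :=
      Finset.sum_pos (fun θ _ => pow_pos (charDegree_pos θ) 2)
        ⟨ξ₀, Finset.mem_filter.2 ⟨Finset.mem_univ _, mem_blockOf_self hM ξ₀⟩⟩
    apply h3.ne
    have h4 : ((∑ θ ∈ Finset.univ.filter (fun θ => θ ∈ e),
        charDegree (θ : Subgroup.centralizer ({z} : Set G) → ℂ) ^ 2 : ℕ) : ℂ) = 0 := by
      rw [h1, Finset.sum_filter]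
      push_cast
      refine Finset.sum_congr rfl fun θ _ => ?_
      rw [indVal]
      split_ifs with h
      · push_cast [CfsgLib.Block.charDegree_cast θ.2.isCharacter']
        ring
      · simp
    exact (Nat.cast_eq_zero.1 h4).symm
  have hθs : θ ∈ secSet M z B := by
    show IsInducedBlock M _ (blockOf M (θ : Subgroup.centralizer ({z} : Set G) → ℂ)) B
    rw [← isPBlock_eq_blockOf hM heB hθe]
    exact hξ₀
  -- the class function of the solutions of `g ^ p = 1`
  set v : intRing (G := G) hM := ofFun hM (fun g => if g ^ p = 1 then 1 else 0)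
    (fun g x => by
      have e' : (x * g * x⁻¹) ^ p = 1 ↔ g ^ p = 1 := by rw [conj_pow, conj_eq_one_iff]
      simp only [e'])
    (fun g => by split_ifs <;> simp [one_mem, zero_mem]) with hv
  have hv1 : ev hM χ v = 1 := by
    have h1 : (v : IrrCharacter G → ℂ) χ = 1 := by
      show om (χ : G → ℂ) _ = 1
      rw [om, div_eq_one_iff_eq (irr_one_ne_zero χ)]
      rw [Finset.sum_eq_single 1]
      · simp
      · intro g _ hg
        split_ifs with h
        · rw [hvan g (orderOf_eq_prime h hg), mul_zero]
        · rw [zero_mul]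
      · simp
    show res hM (evO hM χ v) = 1
    rw [show evO hM χ v = 1 from Subtype.ext h1, map_one]
  have hbr : θ ∈ brSet hM (isPGroup_zpowers hu) (centralizer_zpowers z).le
      (centralizer_le_normalizer_zpowers z) hB := secSet_eq_brSet hM hu hB ▸ hθs
  obtain ⟨χ', hχ'⟩ := exists_ev_eq_brLam hM (isPGroup_zpowers hu) (centralizer_zpowers z).le
    (centralizer_le_normalizer_zpowers z) θ
  have hχ'B : χ' ∈ B := by
    by_contra h
    have h1 : brLam hM (isPGroup_zpowers hu) (centralizer_zpowers z).le
        (centralizer_le_normalizer_zpowers z) θ (bIdem hM hB) = 1 := hbr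
    rw [hχ', ev_bIdem, if_neg h] at h1
    exact zero_ne_one h1
  have hkey : ev hM θ (brLift hM (centralizer_le_normalizer_zpowers z) v) = 1 := by
    rw [← brLam_apply hM (isPGroup_zpowers hu) (centralizer_zpowers z).le
      (centralizer_le_normalizer_zpowers z), hχ', ev_eq_of_mem hM hB hχ'B hχB]
    exact hv1
  -- descend to the quotient by the central subgroup of order `p`
  set N := Subgroup.zpowers z' with hN
  haveI : N.Normal := ⟨fun x hx g => by
    have hc : x ∈ Subgroup.center _ := (Subgroup.zpowers_le.2 hz'c) hx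
    rw [← (Subgroup.mem_center_iff.1 hc g).symm, mul_assoc, mul_inv_cancel, mul_one]
    exact hx⟩
  haveI := Fintype.ofFinite (Subgroup.centralizer ({z} : Set G) ⧸ N)
  set f := QuotientGroup.mk' N with hf
  have hker : ∀ k ∈ f.ker, (θ : Subgroup.centralizer ({z} : Set G) → ℂ) k =
      (θ : Subgroup.centralizer ({z} : Set G) → ℂ) 1 := by
    intro k hk
    rw [hf, QuotientGroup.ker_mk', hN, Subgroup.mem_zpowers_iff] at hk
    obtain ⟨n, rfl⟩ := hk
    obtain ⟨m, hm⟩ : ∃ m : ℕ, z' ^ n = z' ^ m := by
      have := (isOfFinOrder_of_finite z').mem_powers_iff_mem_zpowers.2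
        (Subgroup.zpow_mem_zpowers z' n)
      obtain ⟨m, hm⟩ := this
      exact ⟨m, hm.symm⟩
    rw [hm, ← mul_one (z' ^ m), (centVal_spec θ (Subgroup.pow_mem _ hz'c m)).2 1,
      centVal_pow θ hz'c, hθz, one_pow, one_mul]
  obtain ⟨θ', -, hcomp, hirr⟩ :=
    exists_deflate θ.2.isCharacter' f (QuotientGroup.mk'_surjective N) hker
  set θb : IrrCharacter (Subgroup.centralizer ({z} : Set G) ⧸ N) := ⟨θ', hirr θ.2⟩ with hθb
  set hq : Subgroup.centralizer ({z} : Set G) ⧸ N → ℂ := fun x =>
    if ∃ y : Subgroup.centralizer ({z} : Set G), f y = x ∧ y ^ p = 1 then 1 else 0 with hhq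
  have hlift : ∀ y : Subgroup.centralizer ({z} : Set G),
      hq (f y) = if y ^ p = 1 then 1 else 0 := by
    intro y
    have e' : (∃ y' : Subgroup.centralizer ({z} : Set G), f y' = f y ∧ y' ^ p = 1) ↔ y ^ p = 1 := by
      refine ⟨?_, fun h => ⟨y, rfl, h⟩⟩
      rintro ⟨y', hy', hp'⟩
      rw [hf, QuotientGroup.mk'_apply, QuotientGroup.mk'_apply, QuotientGroup.eq, hN] at hy'
      obtain ⟨n, hn⟩ := Subgroup.mem_zpowers_iff.1 hy'
      have hcomm : Commute y' (z' ^ n) :=
        Subgroup.mem_center_iff.1 (Subgroup.zpow_mem _ hz'c n) y'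
      have hzp : (z' ^ n) ^ p = 1 := by
        rw [← zpow_natCast, ← zpow_mul, mul_comm, zpow_mul, zpow_natCast, ← hz'o,
          pow_orderOf_eq_one, one_zpow]
      rw [show y = y' * z' ^ n by rw [hn, mul_inv_cancel_left], hcomm.mul_pow, hp', hzp, one_mul]
    simp only [hhq, e']
  set w : intRing (G := Subgroup.centralizer ({z} : Set G) ⧸ N) hM := ofFun hM hq
    (fun x y => by
      obtain ⟨a, rfl⟩ := QuotientGroup.mk'_surjective N x
      obtain ⟨c, rfl⟩ := QuotientGroup.mk'_surjective N y
      rw [← map_mul, ← map_inv, ← map_mul, hlift, hlift]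
      have e' : (c * a * c⁻¹) ^ p = 1 ↔ a ^ p = 1 := by rw [conj_pow, conj_eq_one_iff]
      simp only [e'])
    (fun x => by simp only [hhq]; split_ifs <;> simp [one_mem, zero_mem]) with hw
  have hval : ((brLift hM (centralizer_le_normalizer_zpowers z) v :
      intRing (G := Subgroup.centralizer ({z} : Set G)) hM) :
        IrrCharacter (Subgroup.centralizer ({z} : Set G)) → ℂ) θ =
      (p : ℂ) * (w : IrrCharacter (Subgroup.centralizer ({z} : Set G) ⧸ N) → ℂ) θb := by
    have hcoef : ∀ h : Subgroup.centralizer ({z} : Set G),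
        coef ((brLift hM (centralizer_le_normalizer_zpowers z) v :
          intRing (G := Subgroup.centralizer ({z} : Set G)) hM) :
            IrrCharacter (Subgroup.centralizer ({z} : Set G)) → ℂ) h = hq (f h) := by
      intro h
      have hmem : (h : G) ∈ Subgroup.centralizer ((Subgroup.zpowers z : Subgroup G) : Set G) := by
        rw [centralizer_zpowers]; exact h.2
      have e2 : (h : G) ^ p = 1 ↔ h ^ p = 1 := by
        rw [← SubmonoidClass.coe_pow, OneMemClass.coe_eq_one]
      rw [coef_brLift, if_pos hmem, hlift]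
      erw [coef_ofFun]
      simp only [e2]
    rw [← om_coef ((brLift hM (centralizer_le_normalizer_zpowers z) v :
      intRing (G := Subgroup.centralizer ({z} : Set G)) hM) :
        IrrCharacter (Subgroup.centralizer ({z} : Set G)) → ℂ) θ]
    show _ = (p : ℂ) * om (θb : _ → ℂ) hq
    rw [om, om, ← mul_div_assoc]
    have h1 : (θ : Subgroup.centralizer ({z} : Set G) → ℂ) 1 = θ' 1 := by
      rw [← hcomp]; simp
    rw [show (θb : Subgroup.centralizer ({z} : Set G) ⧸ N → ℂ) = θ' from rfl, ← h1]
    congr 1
    rw [← Finset.sum_fiberwise Finset.univ (f : Subgroup.centralizer ({z} : Set G) → _),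
      Finset.mul_sum]
    refine Finset.sum_congr rfl fun x _ => ?_
    rw [Finset.sum_congr rfl (g := fun _ => hq x * θ' x) fun y hy => by
      rw [hcoef, (Finset.mem_filter.1 hy).2, ← congrFun hcomp y, Function.comp_apply,
        (Finset.mem_filter.1 hy).2], Finset.sum_const, nsmul_eq_mul]
    congr 2
    obtain ⟨a, rfl⟩ := QuotientGroup.mk'_surjective N x
    rw [← Fintype.card_subtype, ← Nat.card_eq_fintype_card, ← hz'o, ← Nat.card_zpowers z']
    exact Nat.card_congr (Equiv.subtypeEquiv (Equiv.mulLeft a⁻¹) fun k => by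
      rw [Equiv.coe_mulLeft, ← hN, hf, QuotientGroup.mk'_apply, QuotientGroup.mk'_apply, eq_comm,
        QuotientGroup.eq])
  have hzero : ev hM θ (brLift hM (centralizer_le_normalizer_zpowers z) v) = 0 := by
    show res hM (evO hM θ (brLift hM (centralizer_le_normalizer_zpowers z) v)) = 0
    have e' : evO hM θ (brLift hM (centralizer_le_normalizer_zpowers z) v) =
        (p : locRing hM) * evO hM θb w := by
      apply Subtype.ext
      simpa [evO] using hval
    haveI := charP_resField hM
    rw [e', map_mul, map_natCast, CharP.cast_eq_zero, zero_mul]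
  rw [hzero] at hkey
  exact zero_ne_one hkey

end Cfsg.Agent.S0928
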