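import Cfsg.Statements.S0930
import Cfsg.Agent.Lib.BlockDefect2

set_option autoImplicit false
open Cfsg

namespace Cfsg.Agent.S0930

/-- Let H be a subgroup of the finite group G and fix a maximal ideal M of the algebraic integers containing the prime p. If the block b of H with defect group D induces the block B of G with defect group P, then every element of the centre of P is conjugate in G to an element of the centre of D. -/
theorem result {G : Type*} [Group G] [Finite G] (p : ℕ) [Fact p.Prime] (M : Ideal Cfsg.AlgInt) (hM : Cfsg.IsPModular p M) (H : Subgroup G) (b : Set (Cfsg.IrrCharacter H)) (B : Set (Cfsg.IrrCharacter G)) (hind : Cfsg.IsInducedBlock M H b B) (D : Subgroup H) (hD : Cfsg.IsDefectGroup p M b D) (P : Subgroup G) (hP : Cfsg.IsDefectGroup p M B P) (x : G) (hx : x ∈ P) (hxc : ∀ w ∈ P, x * w = w * x) : ∃ g : G, g * x * g⁻¹ ∈ D.map H.subtype ∧ ∀ w ∈ D.map H.subtype, (g * x * g⁻¹) * w = w * (g * x * g⁻¹) := by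
  haveI := Fintype.ofFinite G
  haveI := Fintype.ofFinite H
  classical
  obtain ⟨hb, hB, hev⟩ := (CfsgLib.Block.isInducedBlock_iff hM H b B).1 hind
  obtain ⟨y, hy, hle, hcard⟩ := (CfsgLib.Block.isDefectGroup_data hM hB).1 hP
  obtain ⟨χ, hχ⟩ := CfsgLib.Block.isPBlock_nonempty hM hB
  obtain ⟨ξ, hξ⟩ := CfsgLib.Block.isPBlock_nonempty hM hb
  have hne := CfsgLib.Block.ev_cl_mul_defectClass hM hB hy hle hcard hx hxc hχ
  rw [← hev ξ hξ χ hχ, CfsgLib.Block.ev_eq_sum] at hne
  obtain ⟨K, -, hK⟩ := Finset.exists_ne_zero_of_sum_ne_zero hne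
  have h1 := left_ne_zero_of_mul hK
  rw [CfsgLib.Block.cred_resLift, CfsgLib.Block.cred_cl] at h1
  have hconj : IsConj (x * y) ((Quotient.out K : H) : G) := by
    by_contra hn
    exact h1 (if_neg hn)
  obtain ⟨h', hh', -, hz⟩ := CfsgLib.Block.exists_conj_pPart_center hM hb hD hξ
    (right_ne_zero_of_mul hK)
  obtain ⟨z, hzp⟩ := CfsgLib.Block.exists_isPPart (p := p) hM.1 h'
  obtain ⟨hzD, hzc⟩ := hz z hzp
  obtain ⟨a, ha⟩ := isConj_iff.1 hconj
  obtain ⟨c, hc⟩ := isConj_iff.1 hh'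
  have hxp : IsPPart p (x * y) x := ⟨y, rfl,
    (Subgroup.mem_centralizer_singleton_iff.1 (hle hx) : _), by
      obtain ⟨k, hk⟩ := (IsPGroup.iff_orderOf (p := p)).1
        (CfsgLib.Block.isPGroup_defectGroup hM hB hP) ⟨x, hx⟩
      exact ⟨k, by rw [← hk, Subgroup.orderOf_mk]⟩,
    CfsgLib.Block.defectClass_regular hM hB hy⟩
  have hzx : (z : G) = ((c : G) * a) * x * ((c : G) * a)⁻¹ := by
    refine CfsgLib.Block.isPPart_unique hM.1 (CfsgLib.Block.isPPart_coe_iff hzp) ?_
    have h2 : (h' : G) = ((c : G) * a) * (x * y) * ((c : G) * a)⁻¹ := by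
      rw [← hc]
      push_cast
      rw [← ha]
      group
    rw [h2]
    exact CfsgLib.Block.isPPart_conj hxp _
  refine ⟨(c : G) * a, hzx ▸ ⟨z, hzD, rfl⟩, ?_⟩
  rintro _ ⟨w, hw, rfl⟩
  rw [← hzx]
  exact congrArg Subtype.val (hzc w hw)

end Cfsg.Agent.S0930
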