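import Cfsg.Statements.S0931
import Cfsg.Agent.Lib.BlockDefect2
import Cfsg.Agent.S0930

set_option autoImplicit false
open Cfsg

namespace Cfsg.Agent.S0931

/-- Let H be a subgroup of the finite group G and fix a maximal ideal M of the algebraic integers containing the prime p. If the block b of H induces the block B of G, then b has defect 0 if and only if B has defect 0. -/
theorem result {G : Type*} [Group G] [Finite G] (p : ℕ) [Fact p.Prime] (M : Ideal Cfsg.AlgInt) (hM : Cfsg.IsPModular p M) (H : Subgroup G) (b : Set (Cfsg.IrrCharacter H)) (B : Set (Cfsg.IrrCharacter G)) (hind : Cfsg.IsInducedBlock M H b B) : Cfsg.blockDefect p b = 0 ↔ Cfsg.blockDefect p B = 0 := by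
  haveI := Fintype.ofFinite G
  classical
  haveI := Fintype.ofFinite H
  have hp : p.Prime := Fact.out
  have key : ∀ (P : Subgroup G) (D : Subgroup H), IsDefectGroup p M B P → IsDefectGroup p M b D →
      Nat.card D = 1 → Nat.card P = 1 := by
    intro P D hP hD hD1
    by_contra hne
    haveI : Nontrivial P := (Finite.one_lt_card_iff_nontrivial).1
      (lt_of_le_of_ne Nat.card_pos (Ne.symm hne))
    haveI := (CfsgLib.Block.isPGroup_defectGroup hM hind.2.1 hP).center_nontrivial
    obtain ⟨⟨x, hxc⟩, hx1⟩ := exists_ne (1 : Subgroup.center P)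
    have hcomm : ∀ w ∈ P, (x : G) * w = w * x := fun w hw =>
      (congrArg Subtype.val (Subgroup.mem_center_iff.1 hxc ⟨w, hw⟩)).symm
    obtain ⟨g, ⟨d, hd, hdx⟩, -⟩ :=
      Cfsg.Agent.S0930.result p M hM H b B hind D hD P hP (x : G) x.2 hcomm
    have hd1 : D = ⊥ := Subgroup.eq_bot_of_card_eq D hD1
    subst hd1
    have hd' : d = 1 := by simpa using hd
    subst hd'
    refine hx1 (Subtype.ext (Subtype.ext ?_))
    have h1 : g * (x : G) * g⁻¹ = 1 := by simpa using hdx.symm
    have : (x : G) = g⁻¹ * (g * x * g⁻¹) * g := by group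
    rw [this, h1]
    simp
  constructor
  · intro h0
    obtain ⟨P, hP⟩ := CfsgLib.Block.exists_defectGroup hM hind.2.1
    obtain ⟨D, hD⟩ := CfsgLib.Block.exists_defectGroup hM hind.1
    have hD1 : Nat.card D = 1 := by rw [CfsgLib.Block.card_defectGroup hM hind.1 hD, h0, pow_zero]
    have h1 := key P D hP hD hD1
    rw [CfsgLib.Block.card_defectGroup hM hind.2.1 hP] at h1
    exact (Nat.pow_eq_one.1 h1).resolve_left hp.ne_one
  · intro h0
    obtain ⟨D, hD⟩ := CfsgLib.Block.exists_defectGroup hM hind.1
    obtain ⟨E, hE, hle⟩ := CfsgLib.Block.exists_defectGroup_ge_induced hM hind hD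
    have h1 := Subgroup.card_le_of_le hle
    rw [CfsgLib.Block.card_defectGroup hM hind.2.1 hE, h0, pow_zero,
      Nat.card_congr (D.equivMapOfInjective _ (Subgroup.subtype_injective H)).toEquiv.symm,
      CfsgLib.Block.card_defectGroup hM hind.1 hD] at h1
    by_contra hne
    exact absurd h1 (not_le.2 (Nat.one_lt_pow hne hp.one_lt))

end Cfsg.Agent.S0931
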