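import Cfsg.Statements.S0932
import Cfsg.Agent.Lib.BlockTraceIdem
import Cfsg.Agent.Lib.CharInd

set_option autoImplicit false
open Cfsg
open CfsgLib.Block CfsgLib.Char
open scoped Classical


namespace Cfsg.Agent.S0932

/-- Let H be a subgroup of the finite group G and ξ a character of H. For every g ∈ G, the sum of ξ h / ξ 1 over the elements h ∈ H that are conjugate in G to g equals the central character at g of the character of G induced from ξ (class size times value divided by degree). -/
theorem result {G : Type*} [Group G] [Fintype G] (H : Subgroup G) (ξ : H → ℂ) (hξ : Cfsg.IsCharacter H ξ) (g : G) : Cfsg.inducedCentralChar H ξ g = Cfsg.centralChar (Cfsg.indFun H ξ) g := by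
  classical
  obtain ⟨d, hd⟩ := exists_degree hξ
  have h1 : ∀ y : G, ∑ x : G, (if x * g * x⁻¹ = y then (1 : ℂ) else 0) =
      if IsConj g y then (Nat.card ↥(Subgroup.centralizer ({g} : Set G)) : ℂ) else 0 := by
    intro y
    rw [sum_conj_indicator, sum_irr_mul_conj]
    split_ifs with h
    · exact classDelta_of_isConj h
    · exact classDelta_of_not_isConj h
  have hval : indFun H ξ g = (Nat.card ↥H : ℂ)⁻¹ *
      ((Nat.card ↥(Subgroup.centralizer ({g} : Set G)) : ℂ) *
        ∑ h : H, (if IsConj g (h : G) then ξ h else 0)) := by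
    rw [indFun_apply]
    congr 1
    calc ∑ x : G, extendByZero H ξ (x⁻¹ * g * x)
        = ∑ x : G, extendByZero H ξ (x * g * x⁻¹) :=
          Fintype.sum_equiv (Equiv.inv G) _ _ fun x => by simp [inv_inv]
      _ = ∑ y : G, extendByZero H ξ y * ∑ x : G, (if x * g * x⁻¹ = y then (1 : ℂ) else 0) := by
          simp only [Finset.mul_sum, mul_ite, mul_one, mul_zero]
          rw [Finset.sum_comm]
          simp
      _ = ∑ y : G, (Nat.card ↥(Subgroup.centralizer ({g} : Set G)) : ℂ) *
            (if IsConj g y then extendByZero H ξ y else 0) := by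
          refine Finset.sum_congr rfl fun y _ => ?_
          rw [h1 y]
          split_ifs <;> ring
      _ = _ := by
          rw [← Finset.mul_sum]
          congr 1
          rw [← Finset.sum_filter_add_sum_filter_not Finset.univ (fun y : G => y ∈ H),
            Finset.sum_eq_zero (s := Finset.univ.filter fun y : G => ¬ y ∈ H) (fun y hy => by
              rw [extendByZero_not_mem _ (Finset.mem_filter.mp hy).2, ite_self]), add_zero,
            Finset.sum_subtype (p := fun y => y ∈ H) _ (fun y => by simp)]
          exact Finset.sum_congr rfl fun y _ => by rw [extendByZero_mem _ y.2]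
  have h2 : indFun H ξ 1 = (Nat.card ↥H : ℂ)⁻¹ * ((Nat.card G : ℂ) * ξ 1) := by
    rw [indFun_apply]
    congr 1
    rw [Finset.sum_congr (g := fun _ => ξ 1) rfl (fun x _ => by
      rw [mul_one, inv_mul_cancel, extendByZero_mem _ H.one_mem]
      rfl), Finset.sum_const, Finset.card_univ, nsmul_eq_mul, Nat.card_eq_fintype_card]
  rw [Cfsg.inducedCentralChar, Cfsg.centralChar, finsum_mem_def, finsum_eq_sum_of_fintype, hval, h2]
  have hC := (Subgroup.centralizer ({g} : Set G)).index_mul_card
  have hH := natCard_ne_zero ↥H
  have hG := natCard_ne_zero G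
  rcases eq_or_ne (ξ 1) 0 with h0 | h0
  · simp [h0, Set.indicator_apply]
  rw [Finset.sum_congr (g := fun h : H => (if IsConj g (h : G) then ξ h else 0) / ξ 1) rfl
    (fun h _ => by rw [Set.indicator_apply]; simp only [Set.mem_ofPred_eq]; split_ifs <;> simp),
    ← Finset.sum_div]
  have hC' : ((Subgroup.centralizer ({g} : Set G)).index : ℂ) *
      (Nat.card ↥(Subgroup.centralizer ({g} : Set G)) : ℂ) = (Nat.card G : ℂ) := by exact_mod_cast hC
  rw [← hC'] at hG ⊢
  have hG1 := (mul_ne_zero_iff.mp hG).1
  have hG2 := (mul_ne_zero_iff.mp hG).2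
  field_simp

end Cfsg.Agent.S0932
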