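import Cfsg.Statements.S0936
import Cfsg.Agent.Lib.BlockHeight

set_option autoImplicit false
open Cfsg

namespace Cfsg.Agent.S0936

/-- Brauer's Third Main Theorem. Let H be a subgroup of the finite group G and b a block of H (relative to a maximal ideal M of the algebraic integers containing the prime p) whose induced block in G is defined. Then b induces the principal block of G if and only if b is the principal block of H. -/
theorem result {G : Type*} [Group G] [Finite G] (p : ℕ) [Fact p.Prime] (M : Ideal Cfsg.AlgInt) (hM : Cfsg.IsPModular p M) (H : Subgroup G) (b : Set (Cfsg.IrrCharacter H)) (hdef : Cfsg.InducedBlockDefined M H b) : Cfsg.IsInducedBlock M H b (Cfsg.principalBlock M G) ↔ b = Cfsg.principalBlock M H := by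
  haveI := Fintype.ofFinite G
  haveI := Fintype.ofFinite H
  rw [CfsgLib.Block.principalBlock_eq, CfsgLib.Block.principalBlock_eq]
  refine CfsgLib.Block.induces_iff_of_restrict hM (CfsgLib.Block.trivIrr G)
    (CfsgLib.Block.trivIrr H) rfl ?_ ?_ b hdef
  · rw [← CfsgLib.Block.principalBlock_eq]
    exact CfsgLib.Block.blockHeight_triv hM
  · rw [← CfsgLib.Block.principalBlock_eq]
    exact CfsgLib.Block.blockHeight_triv hM

end Cfsg.Agent.S0936
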