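import Cfsg.Statements.S0938
import Cfsg.Agent.Lib.BlockCoverUnique
import Cfsg.Agent.Lib.BlockOrth
import Cfsg.Agent.Lib.CharLinear
import Cfsg.Agent.Lib.BlockPPart

set_option autoImplicit false
open Cfsg
open CfsgLib.Block CfsgLib.Char
open scoped Classical


namespace Cfsg.Agent.S0938

/-- Let B be a block of the finite group G relative to a maximal ideal M of the algebraic integers containing the prime p, and let χ ∈ B. Then the kernel of B (the set of g with ψ g = ψ 1 for all ψ ∈ B) is a normal subgroup of order prime to p contained in the kernel of χ, and it contains every normal subgroup of order prime to p on which χ takes the value χ(1); that is, it is O_p' of the kernel of χ. -/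
theorem result {G : Type*} [Group G] [Finite G] (p : ℕ) [Fact p.Prime] (M : Ideal Cfsg.AlgInt) (hM : Cfsg.IsPModular p M) (B : Set (Cfsg.IrrCharacter G)) (hB : Cfsg.IsPBlock M B) (χ : Cfsg.IrrCharacter G) (hχ : χ ∈ B) : ∃ K : Subgroup G, K.Normal ∧ (K : Set G) = Cfsg.blockKer B ∧ ¬ p ∣ Nat.card K ∧ (∀ g ∈ K, (χ : G → ℂ) g = (χ : G → ℂ) 1) ∧ ∀ N : Subgroup G, N.Normal → ¬ p ∣ Nat.card N → (∀ g ∈ N, (χ : G → ℂ) g = (χ : G → ℂ) 1) → N ≤ K := by
  haveI := Fintype.ofFinite G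
  have hp := (Fact.out : p.Prime)
  set K : Subgroup G := ⨅ ψ : {ψ : IrrCharacter G // ψ ∈ B}, charKer ψ.1.2.isCharacter' with hK
  have hmem : ∀ g, g ∈ K ↔ ∀ ψ ∈ B, (ψ : G → ℂ) g = (ψ : G → ℂ) 1 := fun g => by
    rw [hK, Subgroup.mem_iInf]
    exact ⟨fun h ψ hψ => mem_charKer.1 (h ⟨ψ, hψ⟩), fun h ψ => mem_charKer.2 (h ψ.1 ψ.2)⟩
  refine ⟨K, ⟨fun n hn g => ?_⟩, Set.ext fun g => hmem g, ?_, fun g hg => (hmem g).1 hg χ hχ, ?_⟩
  · rw [hmem] at hn ⊢
    intro ψ hψ
    rw [irr_classFunction ψ n g, hn ψ hψ]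
  · intro hdvd
    obtain ⟨u, hu⟩ := exists_prime_orderOf_dvd_card' p hdvd
    have hzero := block_sum_regular_singular hM hB (x := (1 : G)) (y := (u : G))
      (by rw [orderOf_one]; exact hp.not_dvd_one) (by rw [Subgroup.orderOf_coe, hu])
    have hpos : (0 : ℕ) < ∑ ψ ∈ Finset.univ.filter (fun ψ : IrrCharacter G => ψ ∈ B),
        Cfsg.charDegree (ψ : G → ℂ) ^ 2 :=
      Finset.sum_pos (fun ψ _ => pow_pos (charDegree_pos ψ) 2)
        ⟨χ, Finset.mem_filter.2 ⟨Finset.mem_univ _, hχ⟩⟩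
    apply hpos.ne'
    apply Nat.cast_injective (R := ℂ)
    rw [Nat.cast_zero, ← hzero, Nat.cast_sum, Finset.sum_filter]
    refine Finset.sum_congr rfl fun ψ _ => ?_
    by_cases hψ : ψ ∈ B
    · rw [if_pos hψ, (hmem u).1 u.2 ψ hψ, irr_conj_one, Nat.cast_pow,
        charDegree_cast ψ.2.isCharacter', indVal, if_pos hψ]
      ring
    · simp [indVal, hψ]
  · intro N hN hN' hker g hg
    haveI := hN
    exact (hmem g).2 fun ψ hψ => apply_eq_of_ker hM hN' hB hχ hker hψ hg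

end Cfsg.Agent.S0938
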