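import Cfsg.Statements.S0939
import Cfsg.Agent.Lib.BlockCoverUnique
import Cfsg.Agent.Lib.BlockPrincipal
import Cfsg.Agent.Lib.CoreBasic

set_option autoImplicit false
open Cfsg
open CfsgLib.Block CfsgLib.Char
open scoped Classical


namespace Cfsg.Agent.S0939

/-- Let G be a finite group with a normal p-complement (the largest normal subgroup O_p'(G) of order prime to p has p-power index). Then, relative to any maximal ideal M of the algebraic integers containing p, the principal block of G is the set of irreducible characters χ with χ n = χ 1 for every n ∈ O_p'(G). -/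
theorem result {G : Type*} [Group G] [Finite G] (p : ℕ) [Fact p.Prime] (M : Ideal Cfsg.AlgInt) (hM : Cfsg.IsPModular p M) (hnc : ∃ k : ℕ, (Cfsg.pPrimeCore p G).index = p ^ k) : Cfsg.principalBlock M G = {χ : Cfsg.IrrCharacter G | ∀ n ∈ Cfsg.pPrimeCore p G, (χ : G → ℂ) n = (χ : G → ℂ) 1} := by
  haveI := Fintype.ofFinite G
  set N := Cfsg.pPrimeCore p G with hNdef
  haveI := CfsgLib.Core.normal_pPrimeCore (G := G) p
  haveI := Fintype.ofFinite N
  have hN : ¬ p ∣ Nat.card N := CfsgLib.Core.not_dvd_card_pPrimeCore p
  have hover : Over N (trivIrr G) (trivIrr N) := by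
    show classInner (fun _ : N => (1 : ℂ)) (fun _ => 1) ≠ 0
    rw [irr_inner_self (isIrrCharacter_one (G := N))]
    exact one_ne_zero
  have hb := eq_singleton_of_coprime hM hN (isPBlock_principal (G := N) M) (trivIrr_mem_principal hM)
  ext χ
  constructor
  · intro hχ n hn
    obtain ⟨η, hη⟩ := exists_over (N := N) χ
    obtain ⟨g, θ', hθ', e⟩ := mem_orbitSet_of_covers hM (isPBlock_principal M)
      (isPBlock_principal (G := N) M) (trivIrr_mem_principal hM) (trivIrr_mem_principal hM) hover hχ hη
    rw [hb, Set.mem_singleton_iff] at hθ'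
    subst hθ'
    have hT : Over N χ (trivIrr N) := (over_conj g e).1 hη
    have horb : ∀ φ ∈ conjOrbit ((trivIrr N : IrrCharacter N) : N → ℂ), φ = fun _ : N => (1 : ℂ) := by
      intro φ hφ
      obtain ⟨x, rfl⟩ := mem_conjOrbit.1 hφ
      rfl
    have hc := clifford χ.2 (trivIrr N).2 hT
    have h1 := congrFun hc ⟨n, hn⟩
    have h2 := congrFun hc 1
    simp only [Pi.smul_apply, Finset.sum_apply, smul_eq_mul, OneMemClass.coe_one] at h1 h2
    rw [h1, h2]
    exact congrArg _ (Finset.sum_congr rfl fun φ hφ => by rw [horb φ hφ])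
  · intro hχ
    have hT : Over N χ (trivIrr N) := by
      show classInner (fun n : N => (χ : G → ℂ) n) (fun _ => 1) ≠ 0
      rw [show (fun n : N => (χ : G → ℂ) n) = (χ : G → ℂ) 1 • fun _ : N => (1 : ℂ) from
        funext fun n => by simp [hχ n n.2], CfsgLib.Char.inner_smul_left, irr_inner_self (isIrrCharacter_one (G := N)),
        mul_one]
      exact irr_apply_one_ne_zero χ.2
    rw [eq_of_covers_pPower_index hM hnc (isPBlock_principal (G := N) M) (isPBlock_principal M)
      (isPBlock_blockOf χ) ⟨_, trivIrr_mem_principal hM, _, trivIrr_mem_principal hM, hover⟩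
      ⟨χ, mem_blockOf_self hM χ, _, trivIrr_mem_principal hM, hT⟩]
    exact mem_blockOf_self hM χ

end Cfsg.Agent.S0939
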