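import Cfsg.Statements.S0940
import Cfsg.Agent.Lib.BlockPrincipal
import Cfsg.Agent.Lib.BlockOrth
import Cfsg.Agent.Lib.CharBrauer3
-- import your own Cfsg.Agent.* helpers here

set_option autoImplicit false
open Cfsg

namespace Cfsg.Agent.S0940

/-- Let G be a finite group and M a maximal ideal of the algebraic integers containing the prime p. For every p-regular g, the idempotent coefficient of the principal block at g (the inverse of the group order times the sum over χ in the principal block of χ 1 * conj (χ g)) is congruent modulo the local ideal at M to N / R, where N is the number of pairs (x, y) with x of p-power order, y of order prime to p and x * y = g, and R is the number of elements of G of order prime to p. -/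
theorem result {G : Type*} [Group G] [Finite G] (p : ℕ) [Fact p.Prime] (M : Ideal Cfsg.AlgInt) (hM : Cfsg.IsPModular p M) (g : G) (hg : ¬ p ∣ orderOf g) : Cfsg.MemLocalIdeal M (Cfsg.blockCoeff (Cfsg.principalBlock M G) g - (Nat.card {xy : G × G // (∃ k : ℕ, orderOf xy.1 = p ^ k) ∧ ¬ p ∣ orderOf xy.2 ∧ xy.1 * xy.2 = g} : ℂ) / (Nat.card {y : G // ¬ p ∣ orderOf y} : ℂ)) := by
  classical
  have : Fintype G := Fintype.ofFinite G
  have hp : p.Prime := Fact.out
  set U : G → ℂ := fun x => if ∃ k, orderOf x = p ^ k then 1 else 0 with hU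
  set r : G → ℂ := fun x => if p ∣ orderOf x then 0 else 1 with hr
  have hUcl : IsClassFunction G U := by
    intro x c
    have ho : orderOf (c * x * c⁻¹) = orderOf x := (MulAut.conj c).orderOf_eq x
    simp only [hU, ho]
  have hrcl : IsClassFunction G r := by
    intro x c
    have ho : orderOf (c * x * c⁻¹) = orderOf x := (MulAut.conj c).orderOf_eq x
    simp only [hr, ho]
  have hrint : ∀ x, r x ∈ CfsgLib.Block.locRing hM := fun x => by
    simp only [hr]; split_ifs
    · exact zero_mem _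
    · exact one_mem _
  let B := principalBlock M G
  set R : ℂ := (Nat.card {y : G // ¬ p ∣ orderOf y} : ℂ) with hR
  let c : IrrCharacter G → ℂ := fun χ => (Nat.card G : ℂ)⁻¹ * ∑ x, U x * (χ : G → ℂ) x
  let w : IrrCharacter G → ℂ := fun χ => CfsgLib.Block.om (χ : G → ℂ) r
  -- local integrality of the averages over p-elements
  have hc : ∀ χ, c χ ∈ CfsgLib.Block.locRing hM := by
    intro χ
    set A := (Nat.card G).factorization p
    set n := Nat.card G / p ^ A
    have hnd : ¬ p ∣ n := Nat.not_dvd_ordCompl hp Nat.card_pos.ne'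
    have hcard : Nat.card G = p ^ A * n := (Nat.ordProj_mul_ordCompl_eq_self _ _).symm
    have hcop : (p ^ A).Coprime n := (hp.coprime_iff_not_dvd.2 hnd).pow_left A
    obtain ⟨a, ha⟩ := CfsgLib.Char.exists_partExp hcop
    have hiff : ∀ x : G, IsConj (x ^ a) 1 ↔ ∃ k, orderOf x = p ^ k := by
      intro x
      rw [isConj_one_left]
      have hd : orderOf x ∣ p ^ A * n := hcard ▸ orderOf_dvd_natCard x
      constructor
      · intro h
        have h1 := orderOf_dvd_of_pow_eq_one h
        have h2 : (orderOf x).Coprime n := Nat.Coprime.coprime_dvd_left h1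
          ((Nat.Coprime.symm (by rw [Nat.coprime_iff_gcd_eq_one, Nat.gcd_comm, ha.2.gcd_eq,
            Nat.gcd_one_left])))
        obtain ⟨k, -, hk⟩ := (Nat.dvd_prime_pow hp).1 (h2.dvd_of_dvd_mul_right hd)
        exact ⟨k, hk⟩
      · rintro ⟨k, hk⟩
        refine ha.eq_one (orderOf_dvd_iff_pow_eq_one.1 ?_)
        exact ((hk ▸ (hp.coprime_iff_not_dvd.2 hnd).pow_left k) : (orderOf x).Coprime n
          ).dvd_of_dvd_mul_right hd
    have hint := CfsgLib.Char.sectionFn_integral hcard hcop ha (1 : G) χ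
    have hmem := CfsgLib.Block.isIntegral_mem hM (hint.map (starRingEnd ℂ).toIntAlgHom)
    have heq : (starRingEnd ℂ).toIntAlgHom
        (classInner (CfsgLib.Char.sectionFn n a (1 : G)) (χ : G → ℂ)) = (n : ℂ) * c χ := by
      show (starRingEnd ℂ) _ = _
      simp only [classInner, CfsgLib.Char.sectionFn, map_mul, map_sum, map_inv₀,
        Complex.conj_natCast, Complex.conj_conj, c, Finset.mul_sum]
      refine Finset.sum_congr rfl fun x _ => ?_
      simp only [hiff, hU]
      split_ifs <;> simp <;> ring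
    rw [heq] at hmem
    have hn0 : (n : ℂ) ≠ 0 := Nat.cast_ne_zero.2 fun h => hnd (h ▸ dvd_zero p)
    have hinv := CfsgLib.Block.inv_mem_of_not_memLocalIdeal hM (natCast_mem _ n)
      fun h => hnd ((CfsgLib.Block.memLocalIdeal_natCast_iff hM n).1 h)
    have h := mul_mem hinv hmem
    rwa [inv_mul_cancel_left₀ hn0] at h
  -- the eigenvalues of the sum of the regular elements
  have hwmem : ∀ χ, w χ ∈ CfsgLib.Block.locRing hM := fun χ =>
    CfsgLib.Block.val_mem hM (CfsgLib.Block.ofFun hM r hrcl hrint).2 χ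
  have hwR : w (CfsgLib.Block.trivIrr G) = R := by
    simp only [w, CfsgLib.Block.om, CfsgLib.Block.trivIrr, mul_one, div_one, hr, hR,
      Nat.card_eq_fintype_card, Fintype.card_subtype]
    rw [Finset.sum_ite, Finset.sum_const_zero, zero_add, Finset.sum_const, nsmul_eq_mul, mul_one]
  have hwB : ∀ χ ∈ B, MemLocalIdeal M (w χ - R) := by
    intro χ hχ
    have h := (CfsgLib.Block.sameBlock_iff_ev hM (CfsgLib.Block.trivIrr G) χ).1 hχ
      (CfsgLib.Block.ofFun hM r hrcl hrint)
    rw [← hwR]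
    exact (CfsgLib.Block.res_eq_res_iff hM ⟨w χ, hwmem χ⟩ ⟨w _, hwmem _⟩).1 h.symm
  have hwnot : ∀ χ, χ ∉ B → w χ = 0 := by
    intro χ hχ
    have h := CfsgLib.Block.classInner_regPart_eq_zero (p := p) hM (χ := χ)
      (ψ := CfsgLib.Block.trivIrr G) (fun h => hχ fun x => ?_)
    · rw [CfsgLib.Block.classInner_regPart] at h
      have h2 := (mul_eq_zero.1 h).resolve_left (inv_ne_zero (CfsgLib.Char.natCard_ne_zero G))
      simp only [w, CfsgLib.Block.om, hr, ite_mul, zero_mul, one_mul]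
      rw [Finset.sum_ite, Finset.sum_const_zero, zero_add]
      simp only [CfsgLib.Block.trivIrr, map_one, mul_one] at h2
      rw [h2, zero_div]
    · exact ((CfsgLib.Block.sameBlock_iff hM _ _).2
        fun y => ((CfsgLib.Block.sameBlock_iff hM _ _).1 h y).symm) x
  -- the count
  have hN : ∀ z : G, (Nat.card {xy : G × G // (∃ k : ℕ, orderOf xy.1 = p ^ k) ∧
      ¬ p ∣ orderOf xy.2 ∧ xy.1 * xy.2 = z} : ℂ) =
      ∑ χ : IrrCharacter G, CfsgLib.Block.indVal B χ *
        (c χ * w χ * (starRingEnd ℂ) ((χ : G → ℂ) z)) := by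
    intro z
    have h1 : (Nat.card {xy : G × G // (∃ k : ℕ, orderOf xy.1 = p ^ k) ∧
        ¬ p ∣ orderOf xy.2 ∧ xy.1 * xy.2 = z} : ℂ) = CfsgLib.Block.conv U r z := by
      let e : {xy : G × G // (∃ k : ℕ, orderOf xy.1 = p ^ k) ∧
          ¬ p ∣ orderOf xy.2 ∧ xy.1 * xy.2 = z} ≃
          {x : G // (∃ k : ℕ, orderOf x = p ^ k) ∧ ¬ p ∣ orderOf (x⁻¹ * z)} :=
        { toFun := fun q => ⟨q.1.1, q.2.1, by rw [inv_mul_eq_iff_eq_mul.2 q.2.2.2.symm]; exact q.2.2.1⟩
          invFun := fun x => ⟨(x.1, x.1⁻¹ * z), x.2.1, x.2.2, mul_inv_cancel_left _ _⟩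
          left_inv := fun q => Subtype.ext (Prod.ext rfl (by
            show q.1.1⁻¹ * z = q.1.2
            exact inv_mul_eq_iff_eq_mul.2 q.2.2.2.symm))
          right_inv := fun x => rfl }
      rw [Nat.card_congr e, Nat.card_eq_fintype_card, Fintype.card_subtype,
        ← Finset.sum_boole]
      refine Finset.sum_congr rfl fun x _ => ?_
      simp only [hU, hr]
      split_ifs <;> simp_all
    rw [h1, ← CfsgLib.Block.coef_om hUcl, ← CfsgLib.Block.coef_om hrcl, ← CfsgLib.Block.coef_mul]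
    simp only [CfsgLib.Block.coef, Finset.mul_sum, Pi.mul_apply]
    refine Finset.sum_congr rfl fun χ _ => ?_
    by_cases hχ : χ ∈ B
    · simp only [CfsgLib.Block.indVal, if_pos hχ, one_mul, c, w, CfsgLib.Block.om]
      field_simp [CfsgLib.Block.irr_one_ne_zero χ]
    · rw [show CfsgLib.Block.om (χ : G → ℂ) r = 0 from hwnot χ hχ]
      simp [CfsgLib.Block.indVal, hχ]
  have hcoef : ∀ z : G, ¬ p ∣ orderOf z → blockCoeff B z =
      ∑ χ : IrrCharacter G, CfsgLib.Block.indVal B χ *
        (c χ * (starRingEnd ℂ) ((χ : G → ℂ) z)) := by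
    intro z hz
    have h1 : ∀ x ∈ Finset.univ, x ≠ (1 : G) → U x * ∑ χ : IrrCharacter G,
        CfsgLib.Block.indVal B χ * (χ : G → ℂ) x * (starRingEnd ℂ) ((χ : G → ℂ) z) = 0 := by
      intro x _ hx
      by_cases hxU : ∃ k, orderOf x = p ^ k
      · rw [CfsgLib.Block.block_sum_pPart_eq_zero hM (CfsgLib.Block.isPBlock_principal M)
          ⟨1, mul_one x, Commute.one_right x, hxU, by rw [orderOf_one]; exact hp.not_dvd_one⟩
          (CfsgLib.Block.isPPart_self_of_pRegular hz) (fun h => hx (isConj_one_right.1 h)), mul_zero]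
      · simp [hU, hxU]
    have h2 := Finset.sum_eq_single (1 : G) h1 (fun h => absurd (Finset.mem_univ _) h)
    rw [show U 1 = 1 from if_pos ⟨0, by simp⟩, one_mul] at h2
    rw [blockCoeff, CfsgLib.Block.finsum_mem_eq_indVal]
    simp only [mul_assoc] at h2 ⊢
    rw [← h2]
    simp only [c, Finset.mul_sum, Finset.sum_mul]
    rw [Finset.sum_comm]
    exact Finset.sum_congr rfl fun χ _ => Finset.sum_congr rfl fun x _ => by ring
  -- the residue of R is not zero
  let t : ∀ z : G, IrrCharacter G → CfsgLib.Block.locRing hM := fun z χ =>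
    if χ ∈ B then ⟨c χ, hc χ⟩ * ⟨(starRingEnd ℂ) ((χ : G → ℂ) z), CfsgLib.Block.isIntegral_mem hM
      ((CfsgLib.Char.isCharacter_isIntegral χ.2.isCharacter' z).map
        (starRingEnd ℂ).toIntAlgHom)⟩ else 0
  have hRmem : R ∈ CfsgLib.Block.locRing hM := natCast_mem _ _
  have hNres : ∀ z : G, CfsgLib.Block.res hM ((Nat.card {xy : G × G //
      (∃ k : ℕ, orderOf xy.1 = p ^ k) ∧ ¬ p ∣ orderOf xy.2 ∧ xy.1 * xy.2 = z} : ℕ) :
        CfsgLib.Block.locRing hM) =
      CfsgLib.Block.res hM ⟨R, hRmem⟩ * CfsgLib.Block.res hM (∑ χ, t z χ) := by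
    intro z
    rw [show ((Nat.card {xy : G × G // (∃ k : ℕ, orderOf xy.1 = p ^ k) ∧ ¬ p ∣ orderOf xy.2 ∧
        xy.1 * xy.2 = z} : ℕ) : CfsgLib.Block.locRing hM) =
        ∑ χ, (⟨w χ, hwmem χ⟩ : CfsgLib.Block.locRing hM) * t z χ from Subtype.ext (by
      rw [AddSubmonoidClass.coe_finsetSum, SubringClass.coe_natCast, hN z]
      refine Finset.sum_congr rfl fun χ _ => ?_
      simp only [t, CfsgLib.Block.indVal]
      split_ifs <;> simp; ring), map_sum, map_sum, Finset.mul_sum]
    refine Finset.sum_congr rfl fun χ _ => ?_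
    by_cases hχ : χ ∈ B
    · rw [map_mul, (CfsgLib.Block.res_eq_res_iff hM ⟨w χ, hwmem χ⟩ ⟨R, hRmem⟩).2 (hwB χ hχ)]
    · simp [t, hχ]
  have hR0 : CfsgLib.Block.res hM ⟨R, hRmem⟩ ≠ 0 := by
    intro h0
    have h := hNres 1
    have hone : Nat.card {xy : G × G // (∃ k : ℕ, orderOf xy.1 = p ^ k) ∧ ¬ p ∣ orderOf xy.2 ∧
        xy.1 * xy.2 = 1} = 1 := by
      refine Nat.card_eq_one_iff_unique.2 ⟨⟨?_⟩, ⟨((1 : G), (1 : G)), ⟨0, by simp⟩,
        by simpa using hp.not_dvd_one, one_mul 1⟩⟩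
      have key : ∀ q : {xy : G × G // (∃ k : ℕ, orderOf xy.1 = p ^ k) ∧ ¬ p ∣ orderOf xy.2 ∧
          xy.1 * xy.2 = 1}, q.1 = (1, 1) := by
        rintro ⟨⟨x, y⟩, ⟨k, hk⟩, hy, hxy⟩
        simp only at hxy hk hy ⊢
        obtain rfl := eq_inv_of_mul_eq_one_right hxy
        rw [orderOf_inv, hk] at hy
        have hk0 : k = 0 := by
          by_contra hk0
          exact hy (dvd_pow_self p hk0)
        rw [hk0, pow_zero, orderOf_eq_one_iff] at hk
        simp [hk]
      intro q q'
      exact Subtype.ext (by rw [key q, key q'])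
    rw [hone, Nat.cast_one, map_one, h0, zero_mul] at h
    exact hp.not_dvd_one ((CfsgLib.Block.res_natCast_eq_zero_iff hM 1).1
      (by rw [Nat.cast_one, map_one]; exact h))
  have hRinv : R⁻¹ ∈ CfsgLib.Block.locRing hM :=
    CfsgLib.Block.inv_mem_of_not_memLocalIdeal hM hRmem fun h =>
      hR0 ((CfsgLib.Block.res_eq_zero_iff hM ⟨R, hRmem⟩).2 h)
  have hR' : R ≠ 0 := fun h => hR0 (by
    rw [show (⟨R, hRmem⟩ : CfsgLib.Block.locRing hM) = 0 from Subtype.ext h, map_zero])
  set Ng : CfsgLib.Block.locRing hM := ((Nat.card {xy : G × G //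
    (∃ k : ℕ, orderOf xy.1 = p ^ k) ∧ ¬ p ∣ orderOf xy.2 ∧ xy.1 * xy.2 = g} : ℕ) :
      CfsgLib.Block.locRing hM) with hNg
  have hfin : CfsgLib.Block.res hM (∑ χ, t g χ) =
      CfsgLib.Block.res hM (Ng * ⟨R⁻¹, hRinv⟩) := by
    rw [map_mul, hNres g, mul_right_comm, ← map_mul,
      show (⟨R, hRmem⟩ : CfsgLib.Block.locRing hM) * ⟨R⁻¹, hRinv⟩ = 1 from
        Subtype.ext (mul_inv_cancel₀ hR'), map_one, one_mul]
  have h := (CfsgLib.Block.res_eq_res_iff hM _ _).1 hfin
  rw [hcoef g hg]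
  convert h using 2
  · rw [AddSubmonoidClass.coe_finsetSum]
    refine Finset.sum_congr rfl fun χ _ => ?_
    simp only [t, CfsgLib.Block.indVal]
    split_ifs <;> simp
  · rw [hNg]
    simp [div_eq_mul_inv, hR]

end Cfsg.Agent.S0940
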