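import Cfsg.Statements.S0942
import Cfsg.Agent.Lib.BlockPrinSection
import Cfsg.Agent.Lib.BlockCoverUnique
import Cfsg.Agent.Lib.CoreBasic

set_option autoImplicit false
open Cfsg
open CfsgLib.Block CfsgLib.Char
open scoped Classical


namespace Cfsg.Agent.S0942

/-- Let u be a p-element of the finite group G, let v lie in the largest normal subgroup of C_G(u) of order prime to p, and let χ belong to the principal block (relative to a maximal ideal M of the algebraic integers containing p). Then χ (u * v) = χ u. -/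
theorem result {G : Type*} [Group G] [Finite G] (p : ℕ) [Fact p.Prime] (M : Ideal Cfsg.AlgInt) (hM : Cfsg.IsPModular p M) (u : G) (hu : ∃ k : ℕ, orderOf u = p ^ k) (v : G) (hv : v ∈ Cfsg.centralizerPPrimeCore p u) (χ : Cfsg.IrrCharacter G) (hχ : χ ∈ Cfsg.principalBlock M G) : (χ : G → ℂ) (u * v) = (χ : G → ℂ) u := by
  haveI := Fintype.ofFinite G
  obtain ⟨w, hw, rfl⟩ := hv
  haveI := CfsgLib.Core.normal_pPrimeCore (G := Subgroup.centralizer ({u} : Set G)) p
  have hcore : ¬ p ∣ Nat.card (Cfsg.pPrimeCore p (Subgroup.centralizer ({u} : Set G))) :=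
    CfsgLib.Core.not_dvd_card_pPrimeCore p
  have hreg : ¬ p ∣ orderOf w := fun h => hcore (h.trans (Subgroup.orderOf_dvd_natCard _ hw))
  have e1 := apply_mul_eq_sum_secSet hM hu (isPBlock_principal M) hχ w hreg
  have e2 := apply_mul_eq_sum_secSet hM hu (isPBlock_principal M) hχ
    (1 : Subgroup.centralizer ({u} : Set G)) (by rw [orderOf_one]; exact (Fact.out : p.Prime).not_dvd_one)
  rw [secSet_principal hM hu] at e1 e2
  rw [OneMemClass.coe_one, mul_one] at e2
  show (χ : G → ℂ) (u * (w : G)) = _
  rw [e1, e2]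
  refine Finset.sum_congr rfl fun ξ _ => ?_
  by_cases hξ : ξ ∈ principalBlock M (Subgroup.centralizer ({u} : Set G))
  · rw [apply_eq_of_principal hM hcore hξ hw]
  · simp [indVal, hξ]

end Cfsg.Agent.S0942
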