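import Cfsg.Statements.S0944
import Cfsg.Agent.Lib.BlockRegular
import Cfsg.Agent.Lib.CharRep

set_option autoImplicit false
open Cfsg
open CfsgLib.Block CfsgLib.Char
open scoped Classical


namespace Cfsg.Agent.S0944

/-- Let χ be an irreducible character of the finite group G and u an involution. Then χ u is a rational integer n with n ≡ χ 1 (mod 2). -/
theorem result {G : Type*} [Group G] [Finite G] (χ : Cfsg.IrrCharacter G) (u : G) (hu : orderOf u = 2) : ∃ n : ℤ, (χ : G → ℂ) u = (n : ℂ) ∧ (2 : ℤ) ∣ (Cfsg.charDegree (χ : G → ℂ) : ℤ) - n := by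
  haveI := Fintype.ofFinite G
  obtain ⟨n, ρ, hρ, he⟩ := χ.2
  haveI := hρ
  obtain ⟨b, μ, -, hμ, hpw⟩ := exists_rep_eigenbasis ρ u
  have hμ' : ∀ i, μ i = ((if μ i = 1 then 1 else -1 : ℤ) : ℂ) := fun i => by
    by_cases h : μ i = 1
    · simp [h]
    · have h2 := hμ i
      rw [hu, sq_eq_one_iff] at h2
      simp [h, h2.resolve_left h]
  refine ⟨∑ i, if μ i = 1 then 1 else -1, ?_, ?_⟩
  · have h1 := hpw 1
    simp only [pow_one] at h1
    rw [← he, h1, Int.cast_sum]
    exact Finset.sum_congr rfl fun i _ => hμ' i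
  · have hd : Cfsg.charDegree (χ : G → ℂ) = Module.finrank ℂ (Fin n → ℂ) := by
      have h := charDegree_cast χ.2.isCharacter'
      rw [← he, ρ.char_one] at h
      rw [← he]
      exact_mod_cast h
    rw [hd, show (Module.finrank ℂ (Fin n → ℂ) : ℤ) = ∑ i : Fin (Module.finrank ℂ (Fin n → ℂ)), (1 : ℤ) by simp,
      ← Finset.sum_sub_distrib]
    exact Finset.dvd_sum fun i _ => by split_ifs <;> norm_num

end Cfsg.Agent.S0944
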