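import Cfsg.Statements.S0945
import Cfsg.Agent.Lib.FgsHomocyclicTwo

set_option autoImplicit false
open Cfsg

namespace Cfsg.Agent.S0945

/-- Let P be a Sylow 2-subgroup of the finite group G isomorphic to Z/2^m × Z/2^m with m ≥ 1. Then (i) the index of C_G(P) in N_G(P) is 1 or 3, and (ii) if it is not 1, then for every z ≠ 1 in P, C_G(z) ∩ N_G(P) = C_G(P). -/
theorem result {G : Type*} [Group G] [Finite G] (P : Sylow 2 G) (m : ℕ) (hm : 1 ≤ m) (e : (P : Subgroup G) ≃* Multiplicative (ZMod (2 ^ m) × ZMod (2 ^ m))) : ((Subgroup.centralizer (P : Set G)).relIndex (Subgroup.normalizer (P : Set G)) = 1 ∨ (Subgroup.centralizer (P : Set G)).relIndex (Subgroup.normalizer (P : Set G)) = 3) ∧ ((Subgroup.centralizer (P : Set G)).relIndex (Subgroup.normalizer (P : Set G)) ≠ 1 → ∀ z ∈ (P : Subgroup G), z ≠ 1 → Subgroup.centralizer ({z} : Set G) ⊓ Subgroup.normalizer (P : Set G) = Subgroup.centralizer (P : Set G)) := by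
  classical
  haveI : Fact (Nat.Prime 2) := ⟨Nat.prime_two⟩
  have hcomm : ∀ x ∈ (P : Subgroup G), ∀ y ∈ (P : Subgroup G), x * y = y * x := fun x hx y hy =>
    congrArg Subtype.val (e.injective (by rw [map_mul, map_mul, mul_comm]) : (⟨x, hx⟩ * ⟨y, hy⟩ : (P : Subgroup G)) = ⟨y, hy⟩ * ⟨x, hx⟩)
  set N := Subgroup.normalizer ((P : Subgroup G) : Set G) with hN
  set C := Subgroup.centralizer ((P : Subgroup G) : Set G) with hC
  show (C.relIndex N = 1 ∨ C.relIndex N = 3) ∧ (C.relIndex N ≠ 1 → ∀ z ∈ (P : Subgroup G), z ≠ 1 →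
    Subgroup.centralizer ({z} : Set G) ⊓ N = C)
  have hodd : ¬ 2 ∣ C.relIndex N := CfsgLib.HomocyclicTwo.odd_index P hcomm
  let I := {a : (P : Subgroup G) // a ^ 2 = 1 ∧ a ≠ 1}
  haveI : Fintype I := Fintype.ofFinite I
  have hI : Nat.card I ≤ 3 := by
    have h1 : Nat.card I + 1 ≤ Nat.card {a : (P : Subgroup G) // a ^ 2 = 1} := by
      rw [← Finite.card_option]
      refine Nat.card_le_card_of_injective (fun o => o.elim ⟨1, one_pow 2⟩ (fun a => ⟨a.1, a.2.1⟩)) ?_
      rintro (_ | a) (_ | b) hab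
      · rfl
      · exact absurd (congrArg Subtype.val hab).symm b.2.2
      · exact absurd (congrArg Subtype.val hab) a.2.2
      · exact congrArg some (Subtype.ext (congrArg Subtype.val hab :))
    have := CfsgLib.HomocyclicTwo.card_sq_le hm e
    omega
  letI : MulAction N I :=
    { smul := fun n a => ⟨⟨(n : G) * a.1 * (n : G)⁻¹, (Subgroup.mem_normalizer_iff.mp n.2 _).mp a.1.2⟩, by
        refine ⟨Subtype.ext ?_, fun h => a.2.2 (Subtype.ext ?_)⟩
        · show ((n : G) * a.1 * (n : G)⁻¹) ^ 2 = 1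
          rw [conj_pow, ← SubgroupClass.coe_pow, a.2.1]; simp
        · have h' : (n : G) * a.1 * (n : G)⁻¹ = 1 := congrArg Subtype.val h
          rw [mul_inv_eq_one, mul_eq_left] at h'
          exact h'⟩
      one_smul := fun a => Subtype.ext (Subtype.ext (by show ((1 : N) : G) * a.1 * ((1 : N) : G)⁻¹ = a.1; simp))
      mul_smul := fun x y a => Subtype.ext (Subtype.ext (by
        show ((x * y : N) : G) * a.1 * ((x * y : N) : G)⁻¹ = (x : G) * ((y : G) * a.1 * (y : G)⁻¹) * (x : G)⁻¹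
        simp [mul_assoc])) }
  set f := MulAction.toPermHom N I with hf
  have hker : ∀ n : N, f n = 1 → (n : G) ∈ C := by
    intro n hn
    refine CfsgLib.HomocyclicTwo.fix_all P hcomm n.2 fun a ha ha2 => ?_
    by_cases ha1 : a = 1
    · rw [ha1]; simp
    exact congrArg (fun z : I => ((z.1 : (P : Subgroup G)) : G))
      (Equiv.Perm.ext_iff.mp hn ⟨⟨a, ha⟩, Subtype.ext ha2, fun h => ha1 (congrArg Subtype.val h)⟩)
  have hfix : ∀ n : N, (n : G) ∈ C → f n = 1 := fun n hn => Equiv.ext fun a => Subtype.ext (Subtype.ext (by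
    show (n : G) * a.1 * (n : G)⁻¹ = a.1
    rw [← hn _ a.1.2, mul_inv_cancel_right]))
  have hkereq : f.ker = C.subgroupOf N := Subgroup.ext fun n => ⟨hker n, hfix n⟩
  have hdvd : C.relIndex N ∣ (Nat.card I).factorial := by
    rw [Subgroup.relIndex, ← hkereq, Subgroup.index_ker, ← Nat.card_perm]
    exact Subgroup.card_subgroup_dvd_card _
  have h6 : C.relIndex N ∣ 6 := hdvd.trans ((Nat.factorial_dvd_factorial hI).trans (dvd_of_eq (by decide)))
  refine ⟨?_, fun _ z hz hz1 => ?_⟩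
  · have hmem : C.relIndex N ∈ Nat.divisors 6 := Nat.mem_divisors.mpr ⟨h6, by norm_num⟩
    rw [show Nat.divisors 6 = {1, 2, 3, 6} by decide] at hmem
    simp only [Finset.mem_insert, Finset.mem_singleton] at hmem
    omega
  refine le_antisymm ?_ fun x hx => ⟨Subgroup.mem_centralizer_iff.mpr ?_, ?_⟩
  · rintro x ⟨hxz, hxN⟩
    obtain ⟨k, hk⟩ := P.2.exists_card_eq
    obtain ⟨j, hjle, hj⟩ := (Nat.dvd_prime_pow Nat.prime_two).mp
      (hk ▸ Subgroup.orderOf_dvd_natCard _ hz : orderOf z ∣ 2 ^ k)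
    obtain ⟨i, rfl⟩ : ∃ i, j = i + 1 := Nat.exists_eq_succ_of_ne_zero (fun h0 => by
      rw [h0, pow_zero, orderOf_eq_one_iff] at hj; exact hz1 hj)
    set w := z ^ 2 ^ i with hw
    have hwo : orderOf w = 2 := by
      rw [hw, orderOf_pow_of_dvd (by positivity) (hj ▸ pow_dvd_pow 2 (Nat.le_succ i)), hj, pow_succ,
        Nat.mul_div_cancel_left _ (by positivity)]
    let aw : I := ⟨⟨w, (P : Subgroup G).pow_mem hz _⟩, Subtype.ext (orderOf_dvd_iff_pow_eq_one.mp (dvd_of_eq hwo)), fun h => by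
      have h' : w = 1 := congrArg Subtype.val h
      rw [h', orderOf_one] at hwo; omega⟩
    have hxw : f ⟨x, hxN⟩ aw = aw := Subtype.ext (Subtype.ext (by
      show x * w * x⁻¹ = w
      have hc : Commute z x := (Subgroup.mem_centralizer_iff.mp hxz z rfl)
      rw [← (hc.pow_left (2 ^ i)).eq, mul_inv_cancel_right]))
    have hsq : f (⟨x, hxN⟩ ^ 2) = 1 := by
      rw [map_pow]
      refine Equiv.ext fun a => ?_
      set σ := f ⟨x, hxN⟩ with hσ
      show (σ ^ 2) a = a
      rw [pow_two, Equiv.Perm.mul_apply]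
      by_contra hne
      have h1 : σ a ≠ a := fun h => hne (by rw [h, h])
      have h2 : a ≠ aw := fun h => h1 (by rw [h, hxw])
      have h3 : σ a ≠ aw := fun h => h2 (σ.injective (h.trans hxw.symm))
      have h4 : σ (σ a) ≠ aw := fun h => h3 (σ.injective (h.trans hxw.symm))
      have h5 : σ (σ a) ≠ σ a := fun h => h1 (σ.injective h)
      have h6 : ({aw, a, σ a, σ (σ a)} : Finset I).card = 4 := by
        rw [Finset.card_insert_of_notMem, Finset.card_insert_of_notMem, Finset.card_insert_of_notMem,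
          Finset.card_singleton] <;> simp [h1.symm, h2.symm, h3.symm, h4.symm, h5.symm, Ne.symm hne]
      have := Finset.card_le_univ ({aw, a, σ a, σ (σ a)} : Finset I)
      rw [← Nat.card_eq_fintype_card] at this
      omega
    haveI : (C.subgroupOf N).Normal := by rw [hC, ← Subgroup.normalizerMonoidHom_ker]; infer_instance
    have h1 : (⟨x, hxN⟩ : N) ^ C.relIndex N ∈ C.subgroupOf N := (C.subgroupOf N).pow_index_mem _
    have h2 : (⟨x, hxN⟩ : N) ^ 2 ∈ C.subgroupOf N := hkereq ▸ hsq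
    obtain ⟨q, hq⟩ : ∃ q, C.relIndex N = 2 * q + 1 := ⟨C.relIndex N / 2, by omega⟩
    rw [hq, pow_succ, pow_mul, Subgroup.mul_mem_cancel_left _ (Subgroup.pow_mem _ h2 q)] at h1
    exact h1
  · rintro y rfl
    exact hx y hz
  · refine Subgroup.mem_normalizer_iff.mpr fun y => ⟨fun hy => ?_, fun hy => ?_⟩
    · rw [← hx y hy, mul_inv_cancel_right]; exact hy
    · have h1 := hx _ hy
      rw [inv_mul_cancel_right] at h1
      rwa [← mul_left_cancel h1] at hy

end Cfsg.Agent.S0945
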