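import Cfsg.Statements.S0946
import Mathlib

set_option autoImplicit false
open Cfsg

namespace Cfsg.Agent.S0946

open Subgroup

theorem two_torsion {m : ℕ} (hm : 1 ≤ m) (z : ZMod (2 ^ m)) (h : z + z = 0) : z.val = 0 ∨ z.val = 2 ^ (m - 1) := by
  haveI : NeZero (2 ^ m) := ⟨by positivity⟩
  have h1 : ((z.val + z.val : ℕ) : ZMod (2 ^ m)) = 0 := by
    rw [Nat.cast_add, ZMod.natCast_zmod_val, h]
  rw [ZMod.natCast_eq_zero_iff] at h1
  obtain ⟨c, hc⟩ := h1
  have hlt := ZMod.val_lt z
  have hm' : 2 ^ m = 2 * 2 ^ (m - 1) := by rw [← pow_succ']; congr 1; omega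
  have hc2 : c < 2 := by
    by_contra hcc
    have := Nat.mul_le_mul_left (2 ^ m) (not_lt.mp hcc)
    omega
  interval_cases c <;> omega

/-- At most four elements square to one. -/
theorem card_sq_le {A : Type*} [Group A] [Finite A] {m : ℕ} (hm : 1 ≤ m)
    (e : A ≃* Multiplicative (ZMod (2 ^ m) × ZMod (2 ^ m))) : Nat.card {x : A // x ^ 2 = 1} ≤ 4 := by
  haveI : NeZero (2 ^ m) := ⟨by positivity⟩
  have h4 : Nat.card (Bool × Bool) = 4 := by simp
  rw [← h4]
  refine Nat.card_le_card_of_injective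
    (fun x => (decide ((Multiplicative.toAdd (e x.1)).1.val = 0), decide ((Multiplicative.toAdd (e x.1)).2.val = 0))) ?_
  intro x y hxy
  have key : ∀ x : {x : A // x ^ 2 = 1}, (Multiplicative.toAdd (e x.1)).1 + (Multiplicative.toAdd (e x.1)).1 = 0 ∧
      (Multiplicative.toAdd (e x.1)).2 + (Multiplicative.toAdd (e x.1)).2 = 0 := by
    intro x
    have h1 : Multiplicative.toAdd (e x.1) + Multiplicative.toAdd (e x.1) = 0 := by
      rw [← toAdd_mul, ← map_mul, ← pow_two, x.2, map_one, toAdd_one]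
    exact ⟨congrArg Prod.fst h1, congrArg Prod.snd h1⟩
  simp only [Prod.mk.injEq, decide_eq_decide] at hxy
  have h1 := two_torsion hm _ (key x).1
  have h2 := two_torsion hm _ (key x).2
  have h3 := two_torsion hm _ (key y).1
  have h5 := two_torsion hm _ (key y).2
  have hp : 0 < 2 ^ (m - 1) := by positivity
  refine Subtype.ext (e.injective (Multiplicative.toAdd.injective (Prod.ext (ZMod.val_injective _ ?_) (ZMod.val_injective _ ?_))))
  · omega
  · omega

/-- Let P be a Sylow 2-subgroup of the finite group G isomorphic to Z/2^m × Z/2^m with m ≥ 1. Then either P has a normal complement in G, or all involutions of G are conjugate. -/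
theorem result {G : Type*} [Group G] [Finite G] (P : Sylow 2 G) (m : ℕ) (hm : 1 ≤ m) (e : (P : Subgroup G) ≃* Multiplicative (ZMod (2 ^ m) × ZMod (2 ^ m))) : (∃ N : Subgroup G, N.Normal ∧ Subgroup.IsComplement' N (P : Subgroup G)) ∨ ∀ s t : G, orderOf s = 2 → orderOf t = 2 → IsConj s t := by
  classical
  haveI : Fact (Nat.Prime 2) := ⟨Nat.prime_two⟩
  have hcomm : ∀ x ∈ (P : Subgroup G), ∀ y ∈ (P : Subgroup G), x * y = y * x := fun x hx y hy =>
    congrArg Subtype.val (e.injective (by rw [map_mul, map_mul, mul_comm]) : (⟨x, hx⟩ * ⟨y, hy⟩ : (P : Subgroup G)) = ⟨y, hy⟩ * ⟨x, hx⟩)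
  by_cases hle : normalizer ((P : Subgroup G) : Set G) ≤ centralizer ((P : Subgroup G) : Set G)
  · exact Or.inl ⟨_, inferInstance, MonoidHom.ker_transferSylow_isComplement' P hle⟩
  right
  obtain ⟨g, hgN, hgC⟩ := SetLike.not_le_iff_exists.mp hle
  set N := normalizer ((P : Subgroup G) : Set G) with hN
  set Cn := (centralizer ((P : Subgroup G) : Set G)).subgroupOf N with hCn
  haveI : Cn.Normal := by rw [hCn, ← Subgroup.normalizerMonoidHom_ker]; infer_instance
  have hodd : ¬ 2 ∣ Cn.index := by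
    intro h2
    refine P.not_dvd_index (h2.trans (dvd_trans (Subgroup.index_dvd_of_le (?_ : (P : Subgroup G).subgroupOf N ≤ Cn))
      ⟨N.index, (Subgroup.relIndex_mul_index Subgroup.le_normalizer).symm⟩))
    intro x hx y hy
    exact hcomm y hy (x : G) hx
  have hgr : g ^ Cn.index ∈ centralizer ((P : Subgroup G) : Set G) := Cn.pow_index_mem ⟨g, hgN⟩
  have hconjP : ∀ x ∈ (P : Subgroup G), g * x * g⁻¹ ∈ (P : Subgroup G) := fun x hx => (mem_normalizer_iff.mp hgN x).mp hx
  obtain ⟨a, haP, ha2, hab⟩ : ∃ a ∈ (P : Subgroup G), a ^ 2 = 1 ∧ g * a * g⁻¹ ≠ a := by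
    by_contra hc
    push Not at hc
    have key : ∀ k : ℕ, ∀ x ∈ (P : Subgroup G), x ^ 2 ^ k = 1 → g * x * g⁻¹ = x := by
      intro k
      induction k with
      | zero => intro x _ hx; rw [pow_zero, pow_one] at hx; rw [hx]; simp
      | succ k ih =>
        intro x hx hxk
        set t := x⁻¹ * (g * x * g⁻¹) with ht
        have htP : t ∈ (P : Subgroup G) := mul_mem ((P : Subgroup G).inv_mem hx) (hconjP x hx)
        have hx2 : g * x ^ 2 * g⁻¹ = x ^ 2 := ih _ ((P : Subgroup G).pow_mem hx 2) (by rw [← pow_mul, ← pow_succ']; exact hxk)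
        have ht2 : t ^ 2 = 1 := by
          have hcm : Commute x⁻¹ (g * x * g⁻¹) := hcomm _ ((P : Subgroup G).inv_mem hx) _ (hconjP x hx)
          rw [ht, hcm.mul_pow, inv_pow, conj_pow, hx2, inv_mul_cancel]
        have htfix := hc t htP ht2
        have hj : ∀ j : ℕ, g ^ j * x * (g ^ j)⁻¹ = x * t ^ j := by
          intro j
          induction j with
          | zero => simp
          | succ j ihj =>
            calc g ^ (j + 1) * x * (g ^ (j + 1))⁻¹ = g * (g ^ j * x * (g ^ j)⁻¹) * g⁻¹ := by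
                  simp [pow_succ', mul_assoc]
              _ = g * (x * t ^ j) * g⁻¹ := by rw [ihj]
              _ = (g * x * g⁻¹) * (g * t ^ j * g⁻¹) := by simp [mul_assoc]
              _ = (x * t) * t ^ j := by rw [← conj_pow, htfix, ht, mul_inv_cancel_left]
              _ = x * t ^ (j + 1) := by rw [pow_succ', mul_assoc]
        have h1 := hj Cn.index
        rw [← hgr x hx, mul_inv_cancel_right] at h1
        have h2 : t ^ Cn.index = 1 := by
          have h3 := h1.symm
          rwa [mul_eq_left] at h3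
        obtain ⟨j, hj'⟩ : ∃ j, Cn.index = 2 * j + 1 := ⟨Cn.index / 2, by omega⟩
        rw [hj', pow_succ, pow_mul, ht2, one_pow, one_mul] at h2
        rw [ht, inv_mul_eq_one] at h2
        exact h2.symm
    obtain ⟨k, hk⟩ := P.2.exists_card_eq
    refine hgC (mem_centralizer_iff.mpr fun x hx => ?_)
    have := key k x hx (hk ▸ orderOf_dvd_iff_pow_eq_one.mp (Subgroup.orderOf_dvd_natCard _ hx))
    exact (mul_inv_eq_iff_eq_mul.mp this).symm
  set b := g * a * g⁻¹ with hb
  set c := g * b * g⁻¹ with hc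
  have hbP : b ∈ (P : Subgroup G) := hconjP a haP
  have hcP : c ∈ (P : Subgroup G) := hconjP b hbP
  have hb2 : b ^ 2 = 1 := by rw [hb, conj_pow, ha2, mul_one, mul_inv_cancel]
  have hc2 : c ^ 2 = 1 := by rw [hc, conj_pow, hb2, mul_one, mul_inv_cancel]
  have hca : c ≠ a := by
    intro e
    obtain ⟨j, hj'⟩ : ∃ j, Cn.index = 2 * j + 1 := ⟨Cn.index / 2, by omega⟩
    have hsq : ∀ i : ℕ, (g * g) ^ i * a * ((g * g) ^ i)⁻¹ = a := by
      intro i
      induction i with
      | zero => simp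
      | succ i ihi =>
        calc (g * g) ^ (i + 1) * a * ((g * g) ^ (i + 1))⁻¹ = g * (g * ((g * g) ^ i * a * ((g * g) ^ i)⁻¹) * g⁻¹) * g⁻¹ := by
              simp [pow_succ', mul_assoc]
          _ = a := by rw [ihi, ← hb, ← hc, e]
    have h1 : g ^ Cn.index * a * (g ^ Cn.index)⁻¹ = a := by rw [← hgr a haP, mul_inv_cancel_right]
    rw [hj', pow_succ', pow_mul, pow_two] at h1
    apply hab
    calc b = g * ((g * g) ^ j * a * ((g * g) ^ j)⁻¹) * g⁻¹ := by rw [hb, hsq]
      _ = g * (g * g) ^ j * a * (g * (g * g) ^ j)⁻¹ := by simp [mul_assoc]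
      _ = a := h1
  have hcb : c ≠ b := fun e => hab (by
    have : g * b * g⁻¹ = g * a * g⁻¹ := by rw [← hc, e, hb]
    exact mul_left_cancel (mul_right_cancel this))
  have ha1 : a ≠ 1 := fun e => hab (by rw [hb, e]; simp)
  have hb1 : b ≠ 1 := fun e => ha1 (by
    have : g * a * g⁻¹ = g * 1 * g⁻¹ := by rw [← hb, e]; simp
    exact mul_left_cancel (mul_right_cancel this))
  have hc1 : c ≠ 1 := fun e => hb1 (by
    have : g * b * g⁻¹ = g * 1 * g⁻¹ := by rw [← hc, e]; simp
    exact mul_left_cancel (mul_right_cancel this))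
  have hall : ∀ x ∈ (P : Subgroup G), x ^ 2 = 1 → x ≠ 1 → IsConj a x := by
    intro x hx hx2 hx1
    have hab' : IsConj a b := isConj_iff.mpr ⟨g, hb.symm⟩
    have hac : IsConj a c := hab'.trans (isConj_iff.mpr ⟨g, hc.symm⟩)
    by_contra hno
    have hxa : x ≠ a := fun e => hno (e ▸ IsConj.refl a)
    have hxb : x ≠ b := fun e => hno (e ▸ hab')
    have hxc : x ≠ c := fun e => hno (e ▸ hac)
    haveI := Fintype.ofFinite (P : Subgroup G)
    have h4 := card_sq_le hm e
    let el : ∀ z : G, z ∈ (P : Subgroup G) → z ^ 2 = 1 → {y : (P : Subgroup G) // y ^ 2 = 1} :=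
      fun z hz hz2 => ⟨⟨z, hz⟩, Subtype.ext hz2⟩
    have h5 : ({el 1 (one_mem _) (one_pow 2), el a haP ha2, el b hbP hb2, el c hcP hc2, el x hx hx2} :
        Finset {y : (P : Subgroup G) // y ^ 2 = 1}).card = 5 := by
      rw [Finset.card_insert_of_notMem, Finset.card_insert_of_notMem, Finset.card_insert_of_notMem,
        Finset.card_insert_of_notMem, Finset.card_singleton] <;>
        simp [el, Subtype.ext_iff, ha1.symm, hb1.symm, hc1.symm, hx1.symm, hab.symm, hca.symm, hcb.symm, hxa.symm, hxb.symm, hxc.symm]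
    have h6 := Finset.card_le_univ ({el 1 (one_mem _) (one_pow 2), el a haP ha2, el b hbP hb2, el c hcP hc2, el x hx hx2} :
        Finset {y : (P : Subgroup G) // y ^ 2 = 1})
    rw [← Nat.card_eq_fintype_card] at h6
    omega
  have hinv : ∀ s : G, orderOf s = 2 → IsConj a s := by
    intro s hs
    obtain ⟨Q, hQ⟩ := (IsPGroup.of_card (p := 2) (n := 1) (G := Subgroup.zpowers s)
      (by rw [Nat.card_zpowers, hs, pow_one])).exists_le_sylow
    obtain ⟨h, rfl⟩ := MulAction.exists_smul_eq G P Q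
    obtain ⟨y, hy, hys⟩ := (Subgroup.mem_smul_pointwise_iff_exists _ _ _).mp (hQ (Subgroup.mem_zpowers s))
    have hys' : h * y * h⁻¹ = s := hys
    refine (hall y hy ?_ ?_).trans (isConj_iff.mpr ⟨h, hys'⟩)
    · have h1 : s ^ 2 = 1 := hs ▸ pow_orderOf_eq_one s
      rw [← hys', conj_pow] at h1
      have h2 : h * y ^ 2 * h⁻¹ = h * 1 * h⁻¹ := by rw [h1]; simp
      exact mul_left_cancel (mul_right_cancel h2)
    · intro e
      rw [e, mul_one, mul_inv_cancel] at hys'
      rw [← hys', orderOf_one] at hs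
      omega
  exact fun s t hs ht => (hinv s hs).symm.trans (hinv t ht)

end Cfsg.Agent.S0946
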