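import Cfsg.Statements.S0950
import Cfsg.Agent.Lib.CoreTransfer

set_option autoImplicit false
open Cfsg

namespace Cfsg.Agent.S0950

section Aux

theorem commute_two_pow {G : Type*} [Group G] (n x : G) (hn : Odd (orderOf n)) {j : ℕ} (h : Commute (n ^ 2 ^ j) x) :
    Commute n x := by
  obtain ⟨m, hm⟩ := exists_pow_eq_self_of_coprime (x := n) (n := 2 ^ j) ((Nat.coprime_two_left.mpr hn).pow_left j)
  rw [← hm]
  exact h.pow_left m

set_option synthInstance.maxSize 4000 in
set_option synthInstance.maxHeartbeats 400000 in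
set_option maxRecDepth 100000 in
theorem quat_cover :
    ∀ x y w : QuaternionGroup 2, x * x ≠ 1 → y * y ≠ 1 → w * w ≠ 1 → y ≠ x → y ≠ x⁻¹ → w ≠ x →
      w ≠ x⁻¹ → w ≠ y → w ≠ y⁻¹ → ∀ v : QuaternionGroup 2, v * v ≠ 1 →
        v = x ∨ v = x⁻¹ ∨ v = y ∨ v = y⁻¹ ∨ v = w ∨ v = w⁻¹ := by
  decide

end Aux

/-- Let S be a Sylow 2-subgroup of the finite group G that is isomorphic to the quaternion group of order 8, and suppose S has no normal complement in G. Then any two subgroups of order 4 of S are conjugate by an element of the normalizer of S. -/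
theorem result {G : Type*} [Group G] [Finite G] (S : Sylow 2 G) (e : (S : Subgroup G) ≃* QuaternionGroup 2) (hnc : ∀ N : Subgroup G, N.Normal → ¬ Subgroup.IsComplement' N (S : Subgroup G)) (A B : Subgroup G) (hA : A ≤ S) (hB : B ≤ S) (hA4 : Nat.card A = 4) (hB4 : Nat.card B = 4) : ∃ n ∈ Subgroup.normalizer ((S : Subgroup G) : Set G), B = A.map (MulAut.conj n).toMonoidHom := by
  haveI : Fact (Nat.Prime 2) := ⟨Nat.prime_two⟩
  have hno : ¬ Cfsg.HasNormalPComplement 2 G := by
    rintro ⟨P, N, hN, hc⟩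
    refine hnc N hN (Subgroup.isComplement'_of_coprime ?_ ?_)
    · rw [← Nat.card_congr (Sylow.equiv P S).toEquiv]; exact hc.card_mul
    · have h := P.card_coprime_index
      rw [hc.index_eq_card] at h
      rw [← Nat.card_congr (Sylow.equiv P S).toEquiv]; exact h.symm
  have hex : ∃ Q : Subgroup G, Q ≤ (S : Subgroup G) ∧ ∃ n ∈ Subgroup.normalizer (Q : Set G),
      (orderOf n).Coprime 2 ∧ n ∉ Subgroup.centralizer (Q : Set G) := by
    by_contra hcon
    push Not at hcon
    exact hno (CfsgLib.Core.hasNormalPComplement_of_local_le S fun Q hQ n hn hc => hcon Q hQ n hn hc)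
  obtain ⟨Q, hQS, n, hn, hno', hnc'⟩ := hex
  have hnodd : Odd (orderOf n) := Nat.coprime_two_right.1 hno'
  rw [Subgroup.mem_centralizer_iff] at hnc'
  push Not at hnc'
  obtain ⟨x, hxQ, hxn⟩ := hnc'
  set c : G → G := fun a => n * a * n⁻¹ with hc
  have hcQ : ∀ a ∈ Q, c a ∈ Q := fun a ha => (Subgroup.mem_normalizer_iff.1 hn a).1 ha
  have hcinv : ∀ a, c a⁻¹ = (c a)⁻¹ := fun a => by simp only [hc]; group
  have hcmul : ∀ a b, c (a * b) = c a * c b := fun a b => by simp only [hc]; group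
  have hcinj : Function.Injective c := fun a b h => by simpa [hc] using h
  have hnx : ¬ Commute n x := fun h => hxn h.eq.symm
  have hsq1 : ∀ a ∈ (S : Subgroup G), ∀ b ∈ (S : Subgroup G), a * a = 1 → a ≠ 1 → b * b = 1 → b ≠ 1 → a = b := by
    intro a ha b hb haa ha1 hbb hb1
    have key : ∀ u w : QuaternionGroup 2, u * u = 1 → u ≠ 1 → w * w = 1 → w ≠ 1 → u = w := by decide
    have h := key (e ⟨a, ha⟩) (e ⟨b, hb⟩) (by rw [← map_mul, ← e.map_one]; exact congrArg e (Subtype.ext haa))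
      (fun h => ha1 (congrArg Subtype.val (e.injective (h.trans e.map_one.symm))))
      (by rw [← map_mul, ← e.map_one]; exact congrArg e (Subtype.ext hbb))
      (fun h => hb1 (congrArg Subtype.val (e.injective (h.trans e.map_one.symm))))
    exact congrArg Subtype.val (e.injective h)
  have hx2 : x * x ≠ 1 := by
    intro h
    have hx1 : x ≠ 1 := fun h1 => hnx (h1 ▸ Commute.one_right n)
    refine hnx (mul_inv_eq_iff_eq_mul.1 (hsq1 (c x) (hQS (hcQ x hxQ)) x (hQS hxQ) ?_ ?_ h hx1))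
    · rw [← hcmul, h]; simp [hc]
    · exact fun h1 => hx1 (hcinj (h1.trans (by simp [hc])))
  have hc2 : ∀ a, a * a ≠ 1 → c a * c a ≠ 1 := fun a ha h => ha (hcinj (by rw [hcmul, h]; simp [hc]))
  have hne1 : c x ≠ x := fun h => hnx (mul_inv_eq_iff_eq_mul.1 h)
  have hne2 : c x ≠ x⁻¹ := by
    intro h
    refine hnx (commute_two_pow n x hnodd (j := 1) (mul_inv_eq_iff_eq_mul.1 ?_))
    have h2 : c (c x) = x := by rw [h, hcinv, h, inv_inv]
    conv_rhs => rw [← h2]
    simp only [hc, pow_one, pow_two]; group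
  have hne3 : c (c x) ≠ x := by
    intro h
    refine hnx (commute_two_pow n x hnodd (j := 1) (mul_inv_eq_iff_eq_mul.1 ?_))
    conv_rhs => rw [← h]
    simp only [hc, pow_one, pow_two]; group
  have hne4 : c (c x) ≠ x⁻¹ := by
    intro h
    refine hnx (commute_two_pow n x hnodd (j := 2) (mul_inv_eq_iff_eq_mul.1 ?_))
    have h4 : c (c (c (c x))) = x := by rw [h, hcinv, hcinv, h, inv_inv]
    conv_rhs => rw [← h4]
    simp only [hc, show (2 : ℕ) ^ 2 = 2 + 2 from rfl, pow_add, pow_two]; group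
  have hall : ∀ w ∈ (S : Subgroup G), w * w ≠ 1 →
      w = x ∨ w = x⁻¹ ∨ w = c x ∨ w = (c x)⁻¹ ∨ w = c (c x) ∨ w = (c (c x))⁻¹ := by
    intro w hw hw2
    have hsq : ∀ (a : G) (ha : a ∈ (S : Subgroup G)), a * a ≠ 1 → e ⟨a, ha⟩ * e ⟨a, ha⟩ ≠ 1 :=
      fun a ha h1 h => h1 (by rw [← map_mul, ← e.map_one] at h; exact congrArg Subtype.val (e.injective h))
    have hne : ∀ {a b : G} (ha : a ∈ (S : Subgroup G)) (hb : b ∈ (S : Subgroup G)), a ≠ b →
        e ⟨a, ha⟩ ≠ e ⟨b, hb⟩ := fun _ _ hab h => hab (congrArg Subtype.val (e.injective h))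
    have hne' : ∀ {a b : G} (ha : a ∈ (S : Subgroup G)) (hb : b ∈ (S : Subgroup G)), a ≠ b⁻¹ →
        e ⟨a, ha⟩ ≠ (e ⟨b, hb⟩)⁻¹ := fun _ _ hab h => hab (by
      rw [← map_inv e] at h
      exact congrArg Subtype.val (e.injective h))
    have h0 := hQS hxQ
    have h1 := hQS (hcQ x hxQ)
    have h2 := hQS (hcQ _ (hcQ x hxQ))
    have h := quat_cover (e ⟨x, h0⟩) (e ⟨c x, h1⟩) (e ⟨c (c x), h2⟩) (hsq _ _ hx2) (hsq _ _ (hc2 x hx2))
      (hsq _ _ (hc2 _ (hc2 x hx2))) (hne h1 h0 hne1) (hne' h1 h0 hne2) (hne h2 h0 hne3) (hne' h2 h0 hne4)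
      (hne h2 h1 fun h => hne1 (hcinj h)) (hne' h2 h1 fun h => hne2 (hcinj (h.trans (hcinv x).symm)))
      (e ⟨w, hw⟩) (hsq _ _ hw2)
    simp only [← map_inv e, e.injective.eq_iff] at h
    rcases h with h | h | h | h | h | h
    all_goals
      have h' := congrArg Subtype.val h
      simp only [InvMemClass.coe_inv] at h'
      subst h'
      simp
  have hQeq : Q = (S : Subgroup G) := by
    refine le_antisymm hQS fun w hw => ?_
    by_cases hw2 : w * w = 1
    · by_cases hw1 : w = 1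
      · rw [hw1]; exact one_mem Q
      have key : ∀ u : QuaternionGroup 2, u * u * (u * u) = 1 := by decide
      have h4 : x * x * (x * x) = 1 := by
        have := key (e ⟨x, hQS hxQ⟩)
        rw [← map_mul, ← map_mul, ← e.map_one] at this
        exact congrArg Subtype.val (e.injective this)
      rw [hsq1 w hw (x * x) (mul_mem (hQS hxQ) (hQS hxQ)) hw2 hw1 h4 hx2]
      exact mul_mem hxQ hxQ
    · rcases hall w hw hw2 with h | h | h | h | h | h <;> rw [h]
      exacts [hxQ, inv_mem hxQ, hcQ _ hxQ, inv_mem (hcQ _ hxQ), hcQ _ (hcQ _ hxQ), inv_mem (hcQ _ (hcQ _ hxQ))]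
  rw [hQeq] at hn
  have hsub : ∀ C : Subgroup G, C ≤ (S : Subgroup G) → Nat.card C = 4 →
      ∃ i : ℕ, C = (Subgroup.zpowers x).map (MulAut.conj (n ^ i)).toMonoidHom := by
    intro C hC hC4
    obtain ⟨a, haC, ha2⟩ : ∃ a ∈ C, a * a ≠ 1 := by
      by_contra hcon
      push Not at hcon
      haveI := Fintype.ofFinite C
      classical
      obtain ⟨⟨a, haC⟩, ha⟩ : ∃ a : C, a ≠ 1 := by
        haveI : Nontrivial C := Finite.one_lt_card_iff_nontrivial.1 (by omega)
        exact exists_ne 1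
      have hle : (Finset.univ : Finset C) ⊆ {1, ⟨a, haC⟩} := by
        intro b _
        rw [Finset.mem_insert, Finset.mem_singleton]
        by_cases hb : b = 1
        · exact Or.inl hb
        · exact Or.inr (Subtype.ext (hsq1 _ (hC b.2) a (hC haC) (hcon _ b.2) (fun h => hb (Subtype.ext h))
            (hcon a haC) (fun h => ha (Subtype.ext h))))
      have := (Finset.card_le_card hle).trans Finset.card_le_two
      rw [Finset.card_univ, ← Nat.card_eq_fintype_card, hC4] at this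
      omega
    have ho : orderOf a = 4 := by
      have key : ∀ u : QuaternionGroup 2, u ^ 4 = 1 := by decide
      refine orderOf_eq_prime_pow (p := 2) (n := 1) (by rw [pow_one, pow_two]; exact ha2) ?_
      have := key (e ⟨a, hC haC⟩)
      rw [← map_pow, ← e.map_one] at this
      exact congrArg Subtype.val (e.injective this)
    have hCz : C = Subgroup.zpowers a :=
      (Subgroup.eq_of_le_of_card_ge (Subgroup.zpowers_le.2 haC) (by rw [Nat.card_zpowers, ho, hC4])).symm
    have hm : ∀ i : ℕ, (Subgroup.zpowers x).map (MulAut.conj (n ^ i)).toMonoidHom =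
        Subgroup.zpowers (n ^ i * x * (n ^ i)⁻¹) := fun i => by
      rw [MonoidHom.map_zpowers]; rfl
    have e2 : c (c x) = n ^ 2 * x * (n ^ 2)⁻¹ := by simp only [hc, pow_two]; group
    rcases hall a (hC haC) ha2 with h | h | h | h | h | h
    · exact ⟨0, by rw [hm, hCz, h]; simp⟩
    · exact ⟨0, by rw [hm, hCz, h, Subgroup.zpowers_inv]; simp⟩
    · exact ⟨1, by rw [hm, hCz, h, pow_one]⟩
    · exact ⟨1, by rw [hm, hCz, h, Subgroup.zpowers_inv, pow_one]⟩
    · exact ⟨2, by rw [hm, hCz, h, e2]⟩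
    · exact ⟨2, by rw [hm, hCz, h, Subgroup.zpowers_inv, e2]⟩
  obtain ⟨i, hi⟩ := hsub A hA hA4
  obtain ⟨j, hj⟩ := hsub B hB hB4
  refine ⟨n ^ j * (n ^ i)⁻¹, mul_mem (pow_mem hn j) (inv_mem (pow_mem hn i)), ?_⟩
  rw [hi, hj, Subgroup.map_map]
  congr 1
  ext a
  simp [MulAut.conj_apply, mul_assoc]

end Cfsg.Agent.S0950
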