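import Cfsg.Statements.S0951
import Cfsg.Agent.Lib.ZStarCorollaries
import Cfsg.Agent.Lib.BlockKleinPrincipal
import Cfsg.Agent.S4691

set_option autoImplicit false
open Cfsg

namespace Cfsg.Agent.S0951

open CfsgLib.Invol CfsgLib.Block
open scoped ComplexConjugate

universe u

theorem quat_facts :
    (∀ x : QuaternionGroup 2, x * x ≠ 1 → x * x = .a 2) ∧
    (∀ x : QuaternionGroup 2, x * x ≠ 1 → ∃ s, s * x * s⁻¹ = x⁻¹) ∧
    (∀ x w : QuaternionGroup 2, x * x ≠ 1 → w * w ≠ 1 → x * w = w * x → w = x ∨ w = x⁻¹) := by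
  refine ⟨?_, ?_, ?_⟩ <;> decide

set_option synthInstance.maxSize 4000 in
set_option synthInstance.maxHeartbeats 400000 in
set_option maxRecDepth 100000 in
theorem quat_four :
    ∀ x y w : QuaternionGroup 2, x * x ≠ 1 → y * y ≠ 1 → w * w ≠ 1 → y ≠ x → y ≠ x⁻¹ → w ≠ x →
      w ≠ x⁻¹ → w ≠ y → w ≠ y⁻¹ → ∀ v : QuaternionGroup 2, v * v ≠ 1 →
        v = x ∨ v = x⁻¹ ∨ v = y ∨ v = y⁻¹ ∨ v = w ∨ v = w⁻¹ := by
  decide

section

variable {G : Type u} [Group G] [Fintype G]

theorem commute_of_pow_two (n x : G) (hn : Odd (orderOf n)) {j : ℕ} (h : Commute (n ^ 2 ^ j) x) :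
    Commute n x := by
  obtain ⟨m, hm⟩ := exists_pow_eq_self_of_coprime (x := n) (n := 2 ^ j)
    ((Nat.coprime_two_left.mpr hn).pow_left j)
  rw [← hm]
  exact h.pow_left m

/-- Characters of the principal block are constant on the odd section of an element whose
centralizer has a normal `2`-complement. -/
theorem principal_section_const (M : Ideal AlgInt) (hM : IsPModular 2 M) {u : G}
    (hu : ∃ k, orderOf u = 2 ^ k)
    (hcomp : Cfsg.HasNormalPComplement 2 (Subgroup.centralizer ({u} : Set G)))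
    {χ : IrrCharacter G} (hχ : χ ∈ principalBlock M G)
    (y : Subgroup.centralizer ({u} : Set G)) (hy : ¬ 2 ∣ orderOf y) :
    (χ : G → ℂ) (u * y) = (χ : G → ℂ) u := by
  classical
  haveI : Fact (Nat.Prime 2) := ⟨Nat.prime_two⟩
  have hnil := (Cfsg.Agent.S4691.result 2 M hM).1 hcomp
  have hdata := nilData hM (Nat.card (Subgroup.centralizer ({u} : Set G))) le_rfl _ hnil
  obtain ⟨χ₀, -, -, -, hreg⟩ := hdata
  have h1r : ¬ 2 ∣ orderOf (1 : Subgroup.centralizer ({u} : Set G)) := by simp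
  have hconst : ∀ ξ ∈ Cfsg.principalBlock M (Subgroup.centralizer ({u} : Set G)), (ξ : Subgroup.centralizer ({u} : Set G) → ℂ) y = (ξ : Subgroup.centralizer ({u} : Set G) → ℂ) 1 := by
    intro ξ hξ
    obtain ⟨n, hn⟩ := hreg ξ hξ
    obtain ⟨m, hm⟩ := hreg _ (trivIrr_mem_principal (G := Subgroup.centralizer ({u} : Set G)) hM)
    have a1 : (1 : ℂ) = (m : ℂ) * (χ₀ : Subgroup.centralizer ({u} : Set G) → ℂ) y := eq_mul_of_regPart_eq hm hy
    have a2 : (1 : ℂ) = (m : ℂ) * (χ₀ : Subgroup.centralizer ({u} : Set G) → ℂ) 1 := eq_mul_of_regPart_eq hm h1r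
    have hm0 : (m : ℂ) ≠ 0 := left_ne_zero_of_mul (a1 ▸ one_ne_zero : (m : ℂ) * (χ₀ : Subgroup.centralizer ({u} : Set G) → ℂ) y ≠ 0)
    rw [eq_mul_of_regPart_eq hn hy, eq_mul_of_regPart_eq hn h1r,
      mul_left_cancel₀ hm0 (a1.symm.trans a2)]
  have h1 := apply_mul_eq_sum_secSet hM hu (isPBlock_principal (G := G) M) hχ y hy
  have h2 := apply_mul_eq_sum_secSet hM hu (isPBlock_principal (G := G) M) hχ (1 : Subgroup.centralizer ({u} : Set G)) h1r
  rw [secSet_principal hM hu] at h1 h2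
  rw [OneMemClass.coe_one, mul_one] at h2
  rw [h1, h2]
  refine Finset.sum_congr rfl fun ξ _ => ?_
  by_cases hξ : ξ ∈ Cfsg.principalBlock M (Subgroup.centralizer ({u} : Set G))
  · rw [hconst ξ hξ]
  · simp [indVal, hξ]

theorem main (M : Ideal AlgInt) (hM : IsPModular 2 M) (S : Sylow 2 G)
    (e : (S : Subgroup G) ≃* QuaternionGroup 2)
    (hO : ∀ N : Subgroup G, N.Normal → Odd (Nat.card N) → N = ⊥) (hG : (S : Subgroup G) ≠ ⊤) :
    Nat.card (principalBlock M G) = 7 := by
  classical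
  haveI : Fact (Nat.Prime 2) := ⟨Nat.prime_two⟩
  have hcard8 : Nat.card (S : Subgroup G) = 8 := by
    rw [Nat.card_congr e.toEquiv, Nat.card_eq_fintype_card, QuaternionGroup.card]
  obtain ⟨z, hzS, hz, huniq⟩ := CfsgLib.ZStar.exists_involution_of_quaternion (S : Subgroup G) e
  have hzc : z ∈ Subgroup.center G := by
    have h := CfsgLib.ZStar.inZStar_of_iso (CfsgLib.ZStar.iso_of_unique S hzS hz huniq)
    refine Subgroup.mem_center_iff.2 fun g => ?_
    have h1 := h g
    rw [CfsgLib.ZStar.pPrimeCore_eq_bot hO, Subgroup.mem_bot, mul_inv_eq_one,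
      mul_inv_eq_iff_eq_mul] at h1
    exact h1
  have hzcomm : ∀ g : G, Commute g z := fun g => Subgroup.mem_center_iff.1 hzc g
  have hz2 : z * z = 1 := by rw [← pow_two, ← hz, pow_orderOf_eq_one]
  have hz1 : z ≠ 1 := fun h => by rw [h, orderOf_one] at hz; omega
  have hinv : ∀ t : G, orderOf t = 2 → t = z := by
    intro t ht
    obtain ⟨g, hg⟩ := CfsgLib.ZStar.isConj_of_unique S huniq ht
    rw [hg, (hzcomm g).eq, mul_inv_cancel_right]
  -- facts in every Sylow subgroup
  have hA : ∀ (P : Sylow 2 G) (x : G), x ∈ (P : Subgroup G) → x * x ≠ 1 →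
      x * x = z ∧ ∃ s : G, s * x * s⁻¹ = x⁻¹ := by
    intro P x hx hxx
    let f : (P : Subgroup G) ≃* QuaternionGroup 2 := (Sylow.equiv P S).trans e
    have hfx : f ⟨x, hx⟩ * f ⟨x, hx⟩ ≠ 1 := fun h => hxx (by
      rw [← map_mul, ← f.map_one] at h
      exact congrArg Subtype.val (f.injective h))
    refine ⟨hinv _ ?_, ?_⟩
    · refine orderOf_eq_prime ?_ hxx
      have h : f ((⟨x, hx⟩ * ⟨x, hx⟩) * (⟨x, hx⟩ * ⟨x, hx⟩)) = f 1 := by
        rw [map_mul, map_mul, quat_facts.1 _ hfx, map_one]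
        decide
      rw [pow_two]
      exact congrArg Subtype.val (f.injective h)
    · obtain ⟨s, hs⟩ := quat_facts.2.1 _ hfx
      obtain ⟨s', rfl⟩ := f.surjective s
      rw [← map_inv f, ← map_inv f, ← map_mul, ← map_mul] at hs
      exact ⟨s', congrArg Subtype.val (f.injective hs)⟩
  have hfour2 : ∀ x : G, x * x = z → orderOf x = 4 := by
    intro x hx
    refine orderOf_eq_prime_pow (p := 2) (n := 1) ?_ ?_
    · rw [pow_one, pow_two, hx]; exact hz1
    · rw [show (2 : ℕ) ^ (1 + 1) = 2 * 2 from rfl, pow_mul, pow_two, pow_two, hx, hz2]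
  have hfourp : ∀ x : G, x * x = z → ∃ k, orderOf x = 2 ^ k := fun x hx => ⟨2, by rw [hfour2 x hx]; rfl⟩
  have hfour1 : ∀ x : G, x * x = z → x * x ≠ 1 := fun x hx => hx ▸ hz1
  have hsyl : ∀ x : G, (∃ k, orderOf x = 2 ^ k) → ∃ P : Sylow 2 G, x ∈ (P : Subgroup G) := by
    rintro x ⟨k, hk⟩
    obtain ⟨P, hP⟩ := (IsPGroup.of_card (G := Subgroup.zpowers x) (p := 2) (n := k)
      (by rw [Nat.card_zpowers, hk])).exists_le_sylow
    exact ⟨P, hP (Subgroup.mem_zpowers x)⟩
  have htwo : ∀ x : G, (∃ k, orderOf x = 2 ^ k) → x = 1 ∨ x = z ∨ x * x = z := by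
    intro x hx
    by_cases h1 : x * x = 1
    · by_cases hx1 : x = 1
      · exact Or.inl hx1
      · exact Or.inr (Or.inl (hinv x (orderOf_eq_prime (by rw [pow_two]; exact h1) hx1)))
    · obtain ⟨P, hP⟩ := hsyl x hx
      exact Or.inr (Or.inr (hA P x hP h1).1)
  have hflip : ∀ x : G, x * x = z → IsConj x x⁻¹ := fun x hx => by
    obtain ⟨P, hP⟩ := hsyl x (hfourp x hx)
    obtain ⟨s, hs⟩ := (hA P x hP (hfour1 x hx)).2
    exact isConj_iff.2 ⟨s, hs⟩
  have hinvz : ∀ x : G, x * x = z → x⁻¹ = z * x := fun x hx => by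
    refine inv_eq_of_mul_eq_one_right ?_
    rw [← mul_assoc, (hzcomm x).eq, mul_assoc, hx, hz2]
  -- one class of elements of order four
  have hone : ∀ x w : G, x * x = z → w * w = z → IsConj x w := by
    have hno : ¬ Cfsg.HasNormalPComplement 2 G := by
      intro h
      obtain ⟨N, hN, hNc, j, hj⟩ := CfsgLib.Core.hasNormalPComplement_iff.1 h
      have hNb := hO N hN (Nat.coprime_two_right.1 hNc)
      rw [hNb, Subgroup.index_bot] at hj
      refine hG ?_
      exact S.3 (IsPGroup.of_card (G := (⊤ : Subgroup G)) (n := j) (by rw [Subgroup.card_top, hj]))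
        le_top ▸ rfl
    have hex : ∃ Q : Subgroup G, IsPGroup 2 Q ∧ ∃ n ∈ Subgroup.normalizer (Q : Set G),
        (orderOf n).Coprime 2 ∧ n ∉ Subgroup.centralizer (Q : Set G) := by
      by_contra hcon
      push Not at hcon
      exact hno (CfsgLib.Core.hasNormalPComplement_of_local fun Q hQ n hn hc => hcon Q hQ n hn hc)
    obtain ⟨Q, hQ, n, hn, hno', hnc⟩ := hex
    have hnodd : Odd (orderOf n) := Nat.coprime_two_right.1 hno'
    rw [Subgroup.mem_centralizer_iff] at hnc
    push Not at hnc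
    obtain ⟨x, hxQ, hxn⟩ := hnc
    obtain ⟨P, hP⟩ := hQ.exists_le_sylow
    have hx4 : x * x = z := by
      obtain ⟨k, hk⟩ := IsPGroup.iff_orderOf.1 hQ ⟨x, hxQ⟩
      rcases htwo x ⟨k, by rw [← hk, Subgroup.orderOf_mk]⟩ with h | h | h
      · exact absurd (by simp [h]) hxn
      · exact absurd (by rw [h]; exact (hzcomm n).eq.symm) hxn
      · exact h
    set c : G → G := fun a => n * a * n⁻¹ with hc
    have hcQ : ∀ a ∈ Q, c a ∈ Q := fun a ha => (Subgroup.mem_normalizer_iff.1 hn a).1 ha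
    have hnx : ¬ Commute n x := fun h => hxn h.eq.symm
    have hne1 : c x ≠ x := fun h => hnx (mul_inv_eq_iff_eq_mul.1 h)
    have hne2 : c x ≠ x⁻¹ := by
      intro h
      refine hnx (commute_of_pow_two n x hnodd (j := 1) ?_)
      show n ^ 2 ^ 1 * x = x * n ^ 2 ^ 1
      have h2 : c (c x) = x := by
        rw [h]; show n * x⁻¹ * n⁻¹ = x
        rw [show n * x⁻¹ * n⁻¹ = (c x)⁻¹ by simp only [hc]; group, h, inv_inv]
      rw [pow_one, pow_two]
      refine mul_inv_eq_iff_eq_mul.1 ?_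
      conv_rhs => rw [← h2]
      simp only [hc]; group
    have hcinj : Function.Injective c := fun a b h => by simpa [hc] using h
    have hcinv : ∀ a, c a⁻¹ = (c a)⁻¹ := fun a => by simp only [hc]; group
    have hne3 : c (c x) ≠ x := by
      intro h
      refine hnx (commute_of_pow_two n x hnodd (j := 1) (mul_inv_eq_iff_eq_mul.1 ?_))
      conv_rhs => rw [← h]
      simp only [hc, pow_one, pow_two]; group
    have hne4 : c (c x) ≠ x⁻¹ := by
      intro h
      refine hnx (commute_of_pow_two n x hnodd (j := 2) (mul_inv_eq_iff_eq_mul.1 ?_))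
      have h4 : c (c (c (c x))) = x := by rw [h, hcinv, hcinv, h, inv_inv]
      conv_rhs => rw [← h4]
      simp only [hc, show (2 : ℕ) ^ 2 = 2 + 2 from rfl, pow_add, pow_two]; group
    have hc4 : ∀ a, a * a = z → c a * c a = z := fun a ha => by
      rw [show c a * c a = c (a * a) by simp only [hc]; group, ha]
      show n * z * n⁻¹ = z
      rw [(hzcomm n).eq, mul_inv_cancel_right]
    have hall : ∀ w ∈ (P : Subgroup G), w * w = z → IsConj x w := by
      intro w hw hw4
      let f : (P : Subgroup G) ≃* QuaternionGroup 2 := (Sylow.equiv P S).trans e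
      have hsq : ∀ (a : G) (ha : a ∈ (P : Subgroup G)), a * a = z → f ⟨a, ha⟩ * f ⟨a, ha⟩ ≠ 1 :=
        fun a ha haz h => hfour1 a haz (by
          rw [← map_mul, ← f.map_one] at h
          exact congrArg Subtype.val (f.injective h))
      have hne : ∀ {a b : G} (ha : a ∈ (P : Subgroup G)) (hb : b ∈ (P : Subgroup G)), a ≠ b →
          f ⟨a, ha⟩ ≠ f ⟨b, hb⟩ := fun _ _ hab h => hab (congrArg Subtype.val (f.injective h))
      have hne' : ∀ {a b : G} (ha : a ∈ (P : Subgroup G)) (hb : b ∈ (P : Subgroup G)), a ≠ b⁻¹ →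
          f ⟨a, ha⟩ ≠ (f ⟨b, hb⟩)⁻¹ := fun _ _ hab h => hab (by
        rw [← map_inv f] at h
        exact congrArg Subtype.val (f.injective h))
      have hxP := hP hxQ
      have h1P := hP (hcQ x hxQ)
      have h2P := hP (hcQ _ (hcQ x hxQ))
      have h := quat_four (f ⟨x, hxP⟩) (f ⟨c x, h1P⟩) (f ⟨c (c x), h2P⟩) (hsq _ _ hx4)
        (hsq _ _ (hc4 x hx4)) (hsq _ _ (hc4 _ (hc4 x hx4))) (hne h1P hxP hne1) (hne' h1P hxP hne2)
        (hne h2P hxP hne3) (hne' h2P hxP hne4) (hne h2P h1P fun h => hne1 (hcinj h))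
        (hne' h2P h1P fun h => hne2 (hcinj (h.trans (hcinv x).symm))) (f ⟨w, hw⟩) (hsq _ _ hw4)
      have hget : ∀ {a : G} (ha : a ∈ (P : Subgroup G)), f ⟨w, hw⟩ = f ⟨a, ha⟩ → w = a :=
        fun _ h => congrArg Subtype.val (f.injective h)
      have hget' : ∀ {a : G} (ha : a ∈ (P : Subgroup G)), f ⟨w, hw⟩ = (f ⟨a, ha⟩)⁻¹ → w = a⁻¹ :=
        fun _ h => by
          rw [← map_inv f] at h
          exact congrArg Subtype.val (f.injective h)
      have hcx : IsConj x (c x) := isConj_iff.2 ⟨n, rfl⟩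
      have hcx2 : IsConj x (c (c x)) := hcx.trans (isConj_iff.2 ⟨n, rfl⟩)
      rcases h with h | h | h | h | h | h
      · rw [hget hxP h]
      · rw [hget' hxP h]; exact hflip x hx4
      · rw [hget h1P h]; exact hcx
      · rw [hget' h1P h]; exact hcx.trans (hflip _ (hc4 x hx4))
      · rw [hget h2P h]; exact hcx2
      · rw [hget' h2P h]; exact hcx2.trans (hflip _ (hc4 _ (hc4 x hx4)))
    have hx : ∀ w : G, w * w = z → IsConj x w := by
      intro w hw
      obtain ⟨g, hg⟩ := exists_conj_mem_sylow P (p := 2) (k := 2) (x := w) (by rw [hfour2 w hw]; rfl)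
      have h4 : g * w * g⁻¹ * (g * w * g⁻¹) = z := by
        rw [show g * w * g⁻¹ * (g * w * g⁻¹) = g * (w * w) * g⁻¹ by group, hw, (hzcomm g).eq,
          mul_inv_cancel_right]
      exact (hall _ hg h4).trans (isConj_iff.2 ⟨g, rfl⟩ : IsConj w _).symm
    exact fun a b ha hb => (hx a ha).symm.trans (hx b hb)
  -- centralizers of elements of order four
  have hcent : ∀ u : G, u * u = z → ∀ q : G, Commute q u → (∃ k, orderOf q = 2 ^ k) →
      q = 1 ∨ q = z ∨ q = u ∨ q = u⁻¹ := by
    intro u hu q hqu hq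
    rcases htwo q hq with h | h | h
    · exact Or.inl h
    · exact Or.inr (Or.inl h)
    · refine Or.inr (Or.inr ?_)
      have hp : IsPGroup 2 ↥(Subgroup.zpowers q ⊔ Subgroup.zpowers u) := by
        obtain ⟨k, hk⟩ := hq
        refine IsPGroup.to_sup_of_normal_left' (IsPGroup.of_card (n := k) (by rw [Nat.card_zpowers, hk]))
          (IsPGroup.of_card (n := 2) (by rw [Nat.card_zpowers, hfour2 u hu]; rfl)) ?_
        rw [Subgroup.zpowers_le, Subgroup.mem_normalizer_iff]
        have hcm : ∀ i : ℤ, u * q ^ i * u⁻¹ = q ^ i := fun i => by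
          rw [(hqu.symm.zpow_right i).eq, mul_inv_cancel_right]
        intro a
        constructor
        · rintro ⟨i, rfl⟩
          exact ⟨i, (hcm i).symm⟩
        · rintro ⟨i, hi⟩
          refine ⟨i, ?_⟩
          have : u * a * u⁻¹ = u * q ^ i * u⁻¹ := by rw [hcm i]; exact hi.symm
          exact (mul_left_cancel (mul_right_cancel this)).symm
      obtain ⟨P, hP⟩ := hp.exists_le_sylow
      have hqP := hP (Subgroup.mem_sup_left (Subgroup.mem_zpowers q))
      have huP := hP (Subgroup.mem_sup_right (Subgroup.mem_zpowers u))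
      let f : (P : Subgroup G) ≃* QuaternionGroup 2 := (Sylow.equiv P S).trans e
      have hsq : ∀ (a : G) (ha : a ∈ (P : Subgroup G)), a * a = z → f ⟨a, ha⟩ * f ⟨a, ha⟩ ≠ 1 :=
        fun a ha haz h => hfour1 a haz (by
          rw [← map_mul, ← f.map_one] at h
          exact congrArg Subtype.val (f.injective h))
      rcases quat_facts.2.2 (f ⟨u, huP⟩) (f ⟨q, hqP⟩) (hsq _ _ hu) (hsq _ _ h) (by
          rw [← map_mul, ← map_mul]; exact congrArg f (Subtype.ext hqu.symm.eq)) with e1 | e1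
      · exact Or.inl (congrArg Subtype.val (f.injective e1))
      · rw [← map_inv f] at e1
        exact Or.inr (congrArg Subtype.val (f.injective e1))
  have hcomp : ∀ u : G, u * u = z →
      Cfsg.HasNormalPComplement 2 (Subgroup.centralizer ({u} : Set G)) := by
    intro u hu
    refine CfsgLib.Core.hasNormalPComplement_of_local fun Q hQ g _ _ => ?_
    rw [Subgroup.mem_centralizer_iff]
    intro q hq
    obtain ⟨k, hk⟩ := IsPGroup.iff_orderOf.1 hQ ⟨q, hq⟩
    rw [Subgroup.orderOf_mk] at hk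
    have hqu : Commute (q : G) u := Subgroup.mem_centralizer_singleton_iff.1 q.2
    have hgu : Commute (g : G) u := Subgroup.mem_centralizer_singleton_iff.1 g.2
    apply Subtype.ext
    show (q : G) * g = g * q
    rcases hcent u hu q hqu ⟨k, by rw [Subgroup.orderOf_coe]; exact hk⟩ with h | h | h | h <;> rw [h]
    · simp
    · exact (hzcomm g).eq.symm
    · exact hgu.eq.symm
    · exact hgu.inv_right.eq.symm
  have hfac : ∀ u : G, u * u = z →
      (Nat.card (Subgroup.centralizer ({u} : Set G))).factorization 2 = 2 := by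
    intro u hu
    set C := Subgroup.centralizer ({u} : Set G)
    set uC : C := ⟨u, Subgroup.mem_centralizer_singleton_iff.2 rfl⟩
    obtain ⟨R, hR⟩ := (IsPGroup.of_card (G := Subgroup.zpowers uC) (p := 2) (n := 2)
      (by rw [Nat.card_zpowers, Subgroup.orderOf_mk, hfour2 u hu]; rfl)).exists_le_sylow
    have hle : Nat.card (R : Subgroup C) ≤ 4 := by
      have hcover : (((R : Subgroup C).map C.subtype : Subgroup G) : Set G) ⊆ {1, z, u, u⁻¹} := by
        rintro _ ⟨r, hr, rfl⟩
        obtain ⟨k, hk⟩ := IsPGroup.iff_orderOf.1 R.isPGroup' ⟨r, hr⟩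
        rw [Subgroup.orderOf_mk] at hk
        rcases hcent u hu r (Subgroup.mem_centralizer_singleton_iff.1 r.2)
          ⟨k, by rw [Subgroup.orderOf_coe]; exact hk⟩ with h | h | h | h <;> simp [h]
      rw [← Subgroup.card_map_of_injective C.subtype_injective (K := (R : Subgroup C))]
      have h1 := Set.ncard_le_ncard hcover (Set.toFinite _)
      rw [← Nat.card_coe_set_eq] at h1
      refine h1.trans ((Set.ncard_insert_le _ _).trans ?_)
      refine (Nat.add_le_add_right (Set.ncard_insert_le _ _) 1).trans ?_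
      refine (Nat.add_le_add_right (Nat.add_le_add_right (Set.ncard_insert_le _ _) 1) 1).trans ?_
      simp
    have hge : 4 ≤ Nat.card (R : Subgroup C) := by
      have h := Subgroup.card_le_of_le hR
      rwa [Nat.card_zpowers, Subgroup.orderOf_mk, hfour2 u hu] at h
    have h := R.card_eq_multiplicity
    rw [show Nat.card R = 4 from le_antisymm hle hge] at h
    exact Nat.pow_right_injective le_rfl (h.symm.trans (by norm_num : (4 : ℕ) = 2 ^ 2))
  -- the block
  set B : Finset (IrrCharacter G) :=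
    Finset.univ.filter fun χ => χ ∈ principalBlock M G with hB
  have hBmem : ∀ χ, χ ∈ B ↔ χ ∈ principalBlock M G := fun χ => by simp [hB]
  set τ : IrrCharacter G := trivIrr G
  have hτB : τ ∈ B := (hBmem _).2 (trivIrr_mem_principal hM)
  have hτv : ∀ g, (τ : G → ℂ) g = 1 := fun g => rfl
  have hsign : ∀ χ : IrrCharacter G, (∀ v, (χ : G → ℂ) (z * v) = (χ : G → ℂ) v) ∨
      ∀ v, (χ : G → ℂ) (z * v) = -(χ : G → ℂ) v := by
    intro χ
    obtain ⟨ω, hω, hv⟩ := irr_central_mul χ hzc
    rw [hz, sq_eq_one_iff] at hω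
    rcases hω with rfl | rfl
    · exact Or.inl fun v => by rw [hv, one_mul]
    · exact Or.inr fun v => by rw [hv, neg_one_mul]
  set E := B.filter fun χ : IrrCharacter G => ∀ v, (χ : G → ℂ) (z * v) = (χ : G → ℂ) v with hE
  set F := B.filter fun χ : IrrCharacter G => ¬ ∀ v, (χ : G → ℂ) (z * v) = (χ : G → ℂ) v with hF
  have hτE : τ ∈ E := Finset.mem_filter.2 ⟨hτB, fun v => by rw [hτv, hτv]⟩
  have hEv : ∀ χ ∈ E, ∀ v, (χ : G → ℂ) (z * v) = (χ : G → ℂ) v := fun χ h => (Finset.mem_filter.1 h).2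
  have hFv : ∀ χ ∈ F, ∀ v, (χ : G → ℂ) (z * v) = -(χ : G → ℂ) v := fun χ h =>
    (hsign χ).resolve_left (Finset.mem_filter.1 h).2
  have hEB : ∀ χ ∈ E, χ ∈ principalBlock M G := fun χ h => (hBmem χ).1 (Finset.mem_filter.1 h).1
  obtain ⟨u, huS, hu⟩ : ∃ u ∈ (S : Subgroup G), u * u = z := by
    refine ⟨(e.symm (.xa 0) : G), (e.symm _).2, ?_⟩
    refine (hA S _ (e.symm _).2 fun h => ?_).1
    have h' : e.symm (QuaternionGroup.xa 0) * e.symm (QuaternionGroup.xa 0) = 1 := Subtype.ext h
    rw [← map_mul, ← e.symm.map_one] at h'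
    exact absurd (e.symm.injective h') (by decide)
  -- values on elements of order four
  have hu0 : ∀ χ ∈ F, (χ : G → ℂ) u = 0 := by
    intro χ hχ
    obtain ⟨s, hs⟩ := isConj_iff.1 (hflip u hu)
    have h1 : (χ : G → ℂ) u⁻¹ = (χ : G → ℂ) u := by rw [← hs]; exact irr_classFunction χ u s
    rw [hinvz u hu, hFv χ hχ] at h1
    linear_combination (-1 / 2 : ℂ) * h1
  have hui : ∀ χ ∈ E, ∃ a : ℤ, (χ : G → ℂ) u = a ∧ a ≠ 0 := by
    intro χ hχ
    haveI : Fintype (S : Subgroup G) := Fintype.ofFinite _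
    obtain ⟨n, hn⟩ := CfsgLib.Char.inner_character_nat
      (CfsgLib.Char.isCharacter_restrict χ.2.isCharacter' (S : Subgroup G))
      (CfsgLib.Char.isCharacter_one (G := (S : Subgroup G)))
    simp only [classInner, map_one, mul_one, hcard8] at hn
    have hvalS : ∀ s : (S : Subgroup G), (χ : G → ℂ) s =
        if s * s = 1 then (χ : G → ℂ) 1 else (χ : G → ℂ) u := by
      intro s
      split_ifs with h
      · have h' : (s : G) * s = 1 := congrArg Subtype.val h
        by_cases hs1 : (s : G) = 1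
        · rw [hs1]
        · rw [hinv s (orderOf_eq_prime (by rw [pow_two]; exact h') hs1), ← mul_one z, hEv χ hχ]
      · obtain ⟨g, hg⟩ := isConj_iff.1 (hone u s hu (hA S s s.2 fun h' => h (Subtype.ext h')).1)
        rw [← hg]; exact irr_classFunction χ u g
    rw [Finset.sum_congr rfl fun s _ => hvalS s, Finset.sum_ite, Finset.sum_const, Finset.sum_const,
      nsmul_eq_mul, nsmul_eq_mul] at hn
    have hc2 : (Finset.univ.filter fun s : (S : Subgroup G) => s * s = 1).card = 2 := by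
      refine Eq.trans (Finset.card_equiv e.toEquiv fun s => ?_)
        (by decide : (Finset.univ.filter fun q : QuaternionGroup 2 => q * q = 1).card = 2)
      simp only [Finset.mem_filter, Finset.mem_univ, true_and, MulEquiv.toEquiv_eq_coe, EquivLike.coe_coe]
      rw [← map_mul, ← e.map_one, e.injective.eq_iff]
    have hc6 : (Finset.univ.filter fun s : (S : Subgroup G) => ¬ s * s = 1).card = 6 := by
      have := Finset.card_filter_add_card_filter_not (s := (Finset.univ : Finset (S : Subgroup G))) (fun s => s * s = 1)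
      rw [hc2, Finset.card_univ, ← Nat.card_eq_fintype_card, hcard8] at this
      omega
    rw [hc2, hc6] at hn
    push_cast at hn
    have hrat : (χ : G → ℂ) u =
        (((4 * (n : ℚ) - (charDegree (χ : G → ℂ) : ℚ)) / 3 : ℚ) : ℂ) := by
      push_cast
      rw [charDegree_cast χ.2.isCharacter']
      linear_combination (4 / 3 : ℂ) * hn
    obtain ⟨a, ha⟩ := CfsgLib.Char.int_of_isIntegral_rat _
      (hrat ▸ CfsgLib.Char.isCharacter_isIntegral χ.2.isCharacter' u)
    refine ⟨a, by rw [hrat, ← ha]; norm_cast, fun ha0 => ?_⟩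
    have hd : (charDegree (χ : G → ℂ) : ℚ) = 4 * n := by
      rw [ha0] at ha; push_cast at ha; linarith
    have hd' : charDegree (χ : G → ℂ) = 4 * n := by exact_mod_cast hd
    have hv : 2 ≤ (charDegree (χ : G → ℂ)).factorization 2 :=
      (Nat.prime_two.pow_dvd_iff_le_factorization (charDegree_pos χ).ne').1 ⟨n, by rw [hd']; norm_num⟩
    have hinf : sInf ((fun ψ : IrrCharacter G => (charDegree (ψ : G → ℂ)).factorization 2) ''
        principalBlock M G) = 0 := by
      refine Nat.sInf_eq_zero.2 (Or.inl ⟨τ, trivIrr_mem_principal hM, ?_⟩)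
      have : charDegree (τ : G → ℂ) = 1 := by simp [Cfsg.charDegree, hτv]
      simp [this]
    have hh : blockHeight 2 (principalBlock M G) (χ : G → ℂ) =
        (charDegree (χ : G → ℂ)).factorization 2 := by
      rw [Cfsg.blockHeight, hinf, Nat.sub_zero]
    have h2 := (positive_height_data hM (isPBlock_principal M) (hEB χ hχ) (by rw [hh]; omega)).1
    rw [hh, blockDefect_principal hM] at h2
    have h3 : (Nat.card G).factorization 2 = 3 := by
      have h := S.card_eq_multiplicity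
      rw [hcard8] at h
      exact Nat.pow_right_injective le_rfl (h.symm.trans (by norm_num : (8 : ℕ) = 2 ^ 3))
    omega
  choose! a ha ha0 using hui
  have hnorm4 : ∑ χ ∈ B, ‖(χ : G → ℂ) u‖ ^ 2 = 4 := by
    obtain ⟨N, hN, hNc, j, hj⟩ := CfsgLib.Core.hasNormalPComplement_iff.1 (hcomp u hu)
    have hdvd := (Subgroup.index_dvd_of_le (CfsgLib.Core.le_pPrimeCore hN hNc)).trans hj.dvd
    obtain ⟨k, -, hk⟩ := (Nat.dvd_prime_pow Nat.prime_two).1 hdvd
    have h := (Cfsg.Agent.S0947.result 2 M hM u (hfourp u hu) (fun h => hfour1 u hu (by simp [h])) 1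
      (by simp)).2 ⟨k, hk⟩
    rw [hfac u hu, finsum_mem_eq_finite_toFinset_sum _ (Set.toFinite _)] at h
    norm_num at h
    rw [← h]
    exact Finset.sum_congr (by ext χ; simp [hB]) fun χ _ => rfl
  have hsplit : ∀ f : IrrCharacter G → ℂ, ∑ χ ∈ B, f χ = ∑ χ ∈ E, f χ + ∑ χ ∈ F, f χ :=
    fun f => (Finset.sum_filter_add_sum_filter_not B _ f).symm
  have hEsum : ∑ χ ∈ E, a χ ^ 2 = 4 := by
    have h := (Finset.sum_filter_add_sum_filter_not B
      (fun χ : IrrCharacter G => ∀ v, (χ : G → ℂ) (z * v) = (χ : G → ℂ) v)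
      (fun χ => ‖(χ : G → ℂ) u‖ ^ 2)).trans hnorm4
    rw [← hE, ← hF, Finset.sum_eq_zero (s := F) fun χ hχ => by rw [hu0 χ hχ]; simp, add_zero,
      Finset.sum_congr rfl fun χ hχ => by rw [ha χ hχ, Complex.norm_intCast, sq_abs]] at h
    exact_mod_cast h
  have hτa : a τ = 1 := by
    have := ha τ hτE
    rw [hτv] at this
    exact_mod_cast this.symm
  have hunit : ∀ χ ∈ E, a χ ^ 2 = 1 := by
    intro χ hχ
    by_cases hχτ : χ = τ
    · rw [hχτ, hτa]; norm_num
    have h2 : ∑ ξ ∈ ({τ, χ} : Finset (IrrCharacter G)), a ξ ^ 2 ≤ ∑ ξ ∈ E, a ξ ^ 2 :=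
      Finset.sum_le_sum_of_subset_of_nonneg (by
        intro ξ hξ
        simp only [Finset.mem_insert, Finset.mem_singleton] at hξ
        rcases hξ with rfl | rfl <;> assumption) fun _ _ _ => sq_nonneg _
    rw [Finset.sum_pair (Ne.symm hχτ), hEsum, hτa] at h2
    have h0 := ha0 χ hχ
    have hb1 : a χ ≤ 1 := by nlinarith
    have hb2 : -1 ≤ a χ := by nlinarith
    rcases (show a χ = 1 ∨ a χ = -1 by omega) with h | h <;> rw [h] <;> norm_num
  have hEcard : E.card = 4 := by
    have h : ∑ χ ∈ E, a χ ^ 2 = ∑ χ ∈ E, (1 : ℤ) := Finset.sum_congr rfl hunit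
    rw [hEsum, Finset.sum_const, nsmul_eq_mul, mul_one] at h
    exact_mod_cast h.symm
  -- the three kinds of elements
  set R := Finset.univ.filter fun g : G => ¬ 2 ∣ orderOf g with hR
  set T := Finset.univ.filter fun g : G => 2 ∣ orderOf g ∧ 2 ∣ orderOf (z * g) with hT
  have hsum : ∀ f : G → ℂ, ∑ g, f g = ∑ g ∈ R, (f g + f (z * g)) + ∑ g ∈ T, f g := by
    intro f
    have hzz : ∀ g : G, z * (z * g) = g := fun g => by rw [← mul_assoc, hz2, one_mul]
    have h1 : ∑ g ∈ R, f (z * g) = ∑ g ∈ Finset.univ.filter (fun g : G => ¬ 2 ∣ orderOf (z * g)), f g := by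
      refine Finset.sum_equiv (Equiv.mulLeft z) (fun g => ?_) fun g _ => rfl
      simp [hR, hzz]
    have hexcl : ∀ g : G, ¬ 2 ∣ orderOf g → 2 ∣ orderOf (z * g) := by
      intro g hg
      by_contra hzg
      have h := (show Commute (z * g) g⁻¹ from
        ((hzcomm g).symm.inv_right.mul_left (Commute.refl g).inv_right)).orderOf_mul_dvd_lcm
      rw [mul_inv_cancel_right, hz, orderOf_inv] at h
      rcases (Nat.prime_two.dvd_mul).1 (h.trans (Nat.lcm_dvd_mul _ _)) with h' | h'
      · exact hzg h'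
      · exact hg h'
    rw [Finset.sum_add_distrib, h1, ← Finset.sum_filter_add_sum_filter_not Finset.univ
      (fun g : G => ¬ 2 ∣ orderOf g) f, add_assoc]
    congr 1
    rw [← Finset.sum_filter_add_sum_filter_not (Finset.univ.filter fun g : G => ¬¬ 2 ∣ orderOf g)
      (fun g : G => ¬ 2 ∣ orderOf (z * g)) f]
    congr 1
    · refine Finset.sum_congr ?_ fun _ _ => rfl
      ext g
      simp only [Finset.mem_filter, Finset.mem_univ, true_and, not_not]
      exact ⟨fun h => h.2, fun h => ⟨by_contra fun h' => h (hexcl g h'), h⟩⟩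
    · refine Finset.sum_congr ?_ fun _ _ => rfl
      ext g
      simp [hT, Nat.dvd_iff_mod_eq_zero]
  have hTval : ∀ g ∈ T, ∀ χ : IrrCharacter G, χ ∈ principalBlock M G →
      (χ : G → ℂ) g = (χ : G → ℂ) u := by
    intro g hg χ hχ
    obtain ⟨-, hg1, hg2⟩ := Finset.mem_filter.1 hg
    obtain ⟨x, y, hxy, hc, hx, hy⟩ := exists_isPPart Nat.prime_two g
    rcases htwo x hx with rfl | rfl | h
    · rw [one_mul] at hxy; exact absurd (hxy ▸ hg1) hy
    · rw [← hxy, ← mul_assoc, hz2, one_mul] at hg2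
      exact absurd hg2 hy
    · rw [← hxy]
      have := principal_section_const M hM hx (hcomp x h) hχ
        ⟨y, Subgroup.mem_centralizer_singleton_iff.2 hc.eq.symm⟩ (by rw [Subgroup.orderOf_mk]; exact hy)
      rw [this]
      obtain ⟨s, hs⟩ := isConj_iff.1 (hone u x hu h)
      rw [← hs]; exact irr_classFunction χ u s
  have hB' : ∀ f : IrrCharacter G → ℂ, ∑ χ : IrrCharacter G, indVal (principalBlock M G) χ * f χ =
      ∑ χ ∈ B, f χ := fun f => by
    rw [hB, Finset.sum_filter]
    refine Finset.sum_congr rfl fun χ _ => ?_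
    unfold indVal
    split_ifs with h <;> simp [Set.indicator, h]
  have hp0 : ∃ k, orderOf (1 : G) = 2 ^ k := ⟨0, by simp⟩
  have hEF : ∀ g ∈ R, ∑ χ ∈ E, (χ : G → ℂ) g * conj ((χ : G → ℂ) g) =
      ∑ χ ∈ F, (χ : G → ℂ) g * conj ((χ : G → ℂ) g) := by
    intro g hg
    have hg' := (Finset.mem_filter.1 hg).2
    have h := block_sum_eq_zero (isPBlock_principal (G := G) M) (u := 1) (u' := z) hp0
      ⟨1, by rw [hz, pow_one]⟩ hg' hg' (Commute.one_left g) (hzcomm g).symm
      (fun h => hz1 (isConj_one_left.1 h)) hM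
    simp only [mul_assoc, one_mul] at h
    rw [hB', hsplit] at h
    rw [Finset.sum_congr rfl fun χ hχ => by rw [hEv χ hχ],
      Finset.sum_congr (s₁ := F) rfl fun χ hχ => by rw [hFv χ hχ, map_neg, mul_neg],
      Finset.sum_neg_distrib, ← sub_eq_add_neg, sub_eq_zero] at h
    exact h
  have hΦ : ∀ g ∈ R, ∑ χ ∈ E, (a χ : ℂ) * (χ : G → ℂ) g = 0 := by
    intro g hg
    have hg' := (Finset.mem_filter.1 hg).2
    have h := block_sum_eq_zero (isPBlock_principal (G := G) M) (u := u) (u' := 1) (hfourp u hu) hp0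
      (y := 1) (y' := g) (by simp) hg' (Commute.one_right u) (Commute.one_left g)
      (fun h => hfour1 u hu (by rw [isConj_one_right.1 h, one_mul])) hM
    simp only [mul_assoc, one_mul, mul_one] at h
    rw [hB', hsplit, Finset.sum_eq_zero (s := F) fun χ hχ => by rw [hu0 χ hχ, zero_mul],
      add_zero] at h
    have h' := congrArg conj h
    rw [map_sum, map_zero] at h'
    rw [← h']
    exact Finset.sum_congr rfl fun χ hχ => by rw [map_mul, Complex.conj_conj, ha χ hχ, map_intCast]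
  have hirr1 : ∀ χ : IrrCharacter G, χ ≠ τ → ∑ g, (χ : G → ℂ) g = 0 := by
    intro χ hχ
    have h := CfsgLib.Char.irr_inner_ne χ.2 τ.2 (fun h => hχ (Subtype.ext h))
    simp only [classInner, hτv, map_one, mul_one, mul_eq_zero, inv_eq_zero] at h
    exact h.resolve_left (CfsgLib.Char.natCard_ne_zero G)
  have hT4 : (4 : ℂ) * T.card = Nat.card G := by
    have h1 : ∑ g, ∑ χ ∈ E, (a χ : ℂ) * (χ : G → ℂ) g = (Nat.card G : ℂ) := by
      rw [Finset.sum_comm, Finset.sum_eq_single τ]
      · simp [hτa, hτv, Nat.card_eq_fintype_card]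
      · intro χ _ hχ
        rw [← Finset.mul_sum, hirr1 χ hχ, mul_zero]
      · exact fun h => absurd hτE h
    rw [hsum, Finset.sum_eq_zero (s := R) fun g hg => by
      rw [hΦ g hg, zero_add, Finset.sum_congr rfl fun χ hχ => by rw [hEv χ hχ], hΦ g hg], zero_add,
      Finset.sum_congr rfl fun g hg => Finset.sum_congr rfl fun χ hχ => by
        rw [hTval g hg χ (hEB χ hχ), ha χ hχ, ← Int.cast_mul, ← pow_two, hunit χ hχ],
      Finset.sum_const, Finset.sum_const, hEcard] at h1
    rw [← h1]; simp; ring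
  have hself : ∀ χ : IrrCharacter G, ∑ g, (χ : G → ℂ) g * conj ((χ : G → ℂ) g) = (Nat.card G : ℂ) := by
    intro χ
    have h := CfsgLib.Char.irr_inner_self χ.2
    rwa [classInner, inv_mul_eq_one₀ (CfsgLib.Char.natCard_ne_zero G), eq_comm] at h
  set X := ∑ g ∈ R, ∑ χ ∈ E, (χ : G → ℂ) g * conj ((χ : G → ℂ) g) with hX
  have hXE : 2 * X + 4 * T.card = 4 * (Nat.card G : ℂ) := by
    have h1 : ∑ g, ∑ χ ∈ E, (χ : G → ℂ) g * conj ((χ : G → ℂ) g) = 4 * (Nat.card G : ℂ) := by
      rw [Finset.sum_comm, Finset.sum_congr rfl fun χ _ => hself χ, Finset.sum_const, hEcard]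
      simp
    rw [hsum, Finset.sum_add_distrib, ← hX,
      Finset.sum_congr (s₁ := R) rfl fun g _ => Finset.sum_congr rfl fun χ hχ => by rw [hEv χ hχ],
      ← hX, Finset.sum_congr (s₁ := T) rfl fun g hg => Finset.sum_congr rfl fun χ hχ => by
        rw [hTval g hg χ (hEB χ hχ), ha χ hχ, map_intCast, ← Int.cast_mul, ← pow_two, hunit χ hχ],
      Finset.sum_const, Finset.sum_const, hEcard] at h1
    rw [← h1]; simp; ring
  have hXF : 2 * X = (F.card : ℂ) * (Nat.card G : ℂ) := by
    have h1 : ∑ g, ∑ χ ∈ F, (χ : G → ℂ) g * conj ((χ : G → ℂ) g) = (F.card : ℂ) * Nat.card G := by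
      rw [Finset.sum_comm, Finset.sum_congr rfl fun χ _ => hself χ, Finset.sum_const, nsmul_eq_mul]
    rw [hsum, Finset.sum_add_distrib,
      Finset.sum_congr (s₁ := R) (f := fun g => ∑ χ ∈ F, (χ : G → ℂ) (z * g) * conj ((χ : G → ℂ) (z * g)))
        rfl fun g _ => Finset.sum_congr rfl fun χ hχ => by rw [hFv χ hχ, map_neg, neg_mul_neg],
      Finset.sum_congr rfl fun g hg => (hEF g hg).symm, ← hX,
      Finset.sum_eq_zero (s := T) fun g hg => Finset.sum_eq_zero fun χ hχ => by
        rw [hTval g hg χ ((hBmem χ).1 (Finset.mem_filter.1 hχ).1), hu0 χ hχ, zero_mul],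
      add_zero] at h1
    rw [← h1]; ring
  have hFcard : F.card = 3 := by
    have h : ((F.card : ℂ) - 3) * (Nat.card G : ℂ) = 0 := by
      linear_combination hXE - hT4 - hXF
    rcases mul_eq_zero.1 h with h' | h'
    · rw [sub_eq_zero] at h'; exact_mod_cast h'
    · exact absurd h' (CfsgLib.Char.natCard_ne_zero G)
  have hBc : B.card = 7 := by
    rw [← Finset.card_filter_add_card_filter_not (s := B)
      (p := fun χ : IrrCharacter G => ∀ v, (χ : G → ℂ) (z * v) = (χ : G → ℂ) v), ← hE, ← hF, hEcard,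
      hFcard]
  rw [← hBc, Nat.card_coe_set_eq, Set.ncard_eq_toFinset_card' ]
  congr 1
  ext χ
  simp [hB]

end


/-- Let S be a Sylow 2-subgroup of the finite group G isomorphic to the quaternion group of order 8. Suppose G has no nontrivial normal subgroup of odd order and G ≠ S. Then, relative to any maximal ideal M of the algebraic integers containing 2, the principal block of G consists of exactly 7 irreducible characters. -/
theorem result {G : Type*} [Group G] [Finite G] (M : Ideal Cfsg.AlgInt) (hM : Cfsg.IsPModular 2 M) (S : Sylow 2 G) (e : (S : Subgroup G) ≃* QuaternionGroup 2) (hO : ∀ N : Subgroup G, N.Normal → Odd (Nat.card N) → N = ⊥) (hG : (S : Subgroup G) ≠ ⊤) : Nat.card (Cfsg.principalBlock M G) = 7 := by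
  haveI := Fintype.ofFinite G
  exact main M hM S e hO hG

end Cfsg.Agent.S0951
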