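import Cfsg.Statements.S0953
import Cfsg.Agent.Lib.BlockFirstMain
import Cfsg.Agent.Lib.BlockClassForm
import Cfsg.Agent.Lib.BlockClassDefect
import Cfsg.Agent.Lib.BlockBrauer

set_option autoImplicit false
open Cfsg
open CfsgLib.Block CfsgLib.Char
open scoped Classical


namespace Cfsg.Agent.S0953

/-- Let P be a Sylow p-subgroup of the finite group G with normalizer N, and fix a maximal ideal M of the algebraic integers containing p. The number of blocks of G having P as a defect group equals the number of conjugacy classes of N consisting of elements of order prime to p that centralize P. -/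
theorem result {G : Type*} [Group G] [Finite G] (p : ℕ) [Fact p.Prime] (M : Ideal Cfsg.AlgInt) (hM : Cfsg.IsPModular p M) (P : Sylow p G) : Nat.card {B : Set (Cfsg.IrrCharacter G) // Cfsg.IsPBlock M B ∧ Cfsg.IsDefectGroup p M B (P : Subgroup G)} = Nat.card {C : ConjClasses (Subgroup.normalizer ((P : Subgroup G) : Set G)) // ∀ n : Subgroup.normalizer ((P : Subgroup G) : Set G), ConjClasses.mk n = C → ¬ p ∣ orderOf n ∧ (n : G) ∈ Subgroup.centralizer ((P : Subgroup G) : Set G)} := by
  haveI := Fintype.ofFinite G
  set N : Subgroup G := Subgroup.normalizer ((P : Subgroup G) : Set G) with hNdef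
  haveI := Fintype.ofFinite N
  have hp := (Fact.out : p.Prime)
  have hPN : (P : Subgroup G) ≤ N := Subgroup.le_normalizer
  have hPp : IsPGroup p (P : Subgroup G) := P.2
  have hC : Subgroup.centralizer ((P : Subgroup G) : Set G) ≤ N :=
    Subgroup.centralizer_le_normalizer _
  have hPcard : Nat.card (P : Subgroup G) = p ^ (Nat.card G).factorization p := P.card_eq_multiplicity
  -- classes centralizing a Sylow subgroup have full defect
  have hfull : ∀ g : G, g ∈ Subgroup.centralizer ((P : Subgroup G) : Set G) →
      Nat.card (P : Subgroup G) = p ^ (Nat.card (Subgroup.centralizer ({g} : Set G))).factorization p := by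
    intro g hg
    refine le_antisymm (Nat.le_of_dvd (pow_pos hp.pos _) ?_) ?_
    · rw [hPcard]
      refine Nat.pow_dvd_pow p ((hp.pow_dvd_iff_le_factorization Nat.card_pos.ne').1 ?_)
      rw [← hPcard]
      exact Subgroup.card_dvd_of_le fun z hz => Subgroup.mem_centralizer_singleton_iff.2
        (Subgroup.mem_centralizer_iff.1 hg z hz)
    · rw [hPcard]
      exact Nat.pow_le_pow_right hp.pos
        ((Nat.factorization_le_iff_dvd Nat.card_pos.ne' Nat.card_pos.ne').2
          (Subgroup.card_subgroup_dvd_card _) p)
  have hdefB : ∀ {B : Set (IrrCharacter G)}, IsPBlock M B →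
      IsDefectGroup p M B (P : Subgroup G) → blockDefect p B = (Nat.card G).factorization p := by
    intro B hB hD
    have h := card_defectGroup hM hB hD
    rw [hPcard] at h
    exact (Nat.pow_right_injective hp.two_le h).symm
  have hN : N ≤ Subgroup.normalizer ((P : Subgroup G) : Set G) := le_refl _
  apply le_antisymm
  · -- at most as many blocks as classes
    refine (le_trans (le_of_eq ?_) (card_blocks_le_card_classes hM
      {B : Set (IrrCharacter G) | IsPBlock M B ∧ IsDefectGroup p M B (P : Subgroup G)}
      (fun B hB => hB.1)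
      (fun g => ∃ c ∈ Subgroup.centralizer ((P : Subgroup G) : Set G), IsConj c g ∧ ¬ p ∣ orderOf c)
      fun B hB B' hB'2 χ hχ hB' g he hev => ?_)).trans ?_
    · rfl
    · obtain ⟨c, hconj, hc⟩ := exists_conj_mem_centralizer hM hB.1
        (isPGroup_defectGroup hM hB.1 hB.2) (brauerNonzero_defectGroup hM hB.1 hB.2) hχ hev
      refine ⟨c, hc, hconj.symm, fun h => he (cred_bIdem_singular hM hB' ?_)⟩
      obtain ⟨x, hx⟩ := isConj_iff.1 hconj
      rw [← hx] at h
      have e : orderOf (x * g * x⁻¹) = orderOf g := by
        have := orderOf_injective (MulAut.conj x).toMonoidHom (MulAut.conj x).injective g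
        simpa using this
      rwa [e] at h
    · have hgood : ∀ C : {C : ConjClasses G // ∃ g : G, ConjClasses.mk g = C ∧
          ∃ c ∈ Subgroup.centralizer ((P : Subgroup G) : Set G), IsConj c g ∧ ¬ p ∣ orderOf c},
          ∃ c : G, c ∈ Subgroup.centralizer ((P : Subgroup G) : Set G) ∧ ¬ p ∣ orderOf c ∧
            ConjClasses.mk c = C.1 := by
        rintro ⟨C, g, hg, c, hc, hcg, hord⟩
        exact ⟨c, hc, hord, (ConjClasses.mk_eq_mk_iff_isConj.2 hcg).trans hg⟩
      choose c hc hord hmk using hgood
      refine Nat.card_le_card_of_injective (fun C => ⟨ConjClasses.mk (⟨c C, hC (hc C)⟩ : N),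
        fun n hn => ?_⟩) fun C C' h => ?_
      · obtain ⟨x, hx⟩ := isConj_iff.1 (ConjClasses.mk_eq_mk_iff_isConj.1 hn).symm
        have hx' : (x : G) * c C * (x : G)⁻¹ = (n : G) := congrArg Subtype.val hx
        constructor
        · rw [← hx]
          have e := orderOf_injective (MulAut.conj x).toMonoidHom (MulAut.conj x).injective
            (⟨c C, hC (hc C)⟩ : N)
          simp only [MulEquiv.toMonoidHom_eq_coe, MonoidHom.coe_coe, MulAut.conj_apply] at e
          rw [e, ← Subgroup.orderOf_coe]
          exact hord C
        · rw [← hx']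
          exact (conj_mem_centralizer_iff (hN x.2) _).2 (hc C)
      · have h' := ConjClasses.mk_eq_mk_iff_isConj.1 (Subtype.ext_iff.1 h)
        obtain ⟨x, hx⟩ := isConj_iff.1 h'
        have hx' : (x : G) * c C * (x : G)⁻¹ = c C' := congrArg Subtype.val hx
        apply Subtype.ext
        rw [← hmk C, ← hmk C']
        exact ConjClasses.mk_eq_mk_iff_isConj.2 (isConj_iff.2 ⟨x, hx'⟩)
  · -- at least as many
    set T := {C : ConjClasses N // ∀ n : N, ConjClasses.mk n = C →
      ¬ p ∣ orderOf n ∧ (n : G) ∈ Subgroup.centralizer ((P : Subgroup G) : Set G)} with hT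
    haveI : Fintype T := Fintype.ofFinite _
    let ec := Fintype.equivFin T
    set x : Fin (Fintype.card T) → N := fun i => Quotient.out (ec.symm i).1 with hxdef
    have hxmk : ∀ i, ConjClasses.mk (x i) = (ec.symm i).1 := fun i => Quotient.out_eq _
    have hxT := fun i => (ec.symm i).2 (x i) (hxmk i)
    haveI : ((P : Subgroup G).subgroupOf N).Normal :=
      (Subgroup.normal_subgroupOf_iff_le_normalizer hPN).2 hN
    have hPN' : IsPGroup p ((P : Subgroup G).subgroupOf N) :=
      hPp.of_equiv (Subgroup.subgroupOfEquivOfLe hPN).symm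
    have hcard' : Nat.card ((P : Subgroup G).subgroupOf N) = Nat.card (P : Subgroup G) :=
      Nat.card_congr (Subgroup.subgroupOfEquivOfLe hPN).toEquiv
    have hmemP : ∀ u : N, ∀ k : ℕ, orderOf u = p ^ k → (u : G) ∈ (P : Subgroup G) := by
      intro u k hu
      have hR : IsPGroup p (Subgroup.zpowers u) :=
        IsPGroup.of_card (n := k) (by rw [Nat.card_zpowers, hu])
      obtain ⟨S, hS⟩ := hR.exists_le_sylow
      have hsub : (Subgroup.zpowers u).map N.subtype ≤ Subgroup.normalizer ((P : Subgroup G) : Set G) :=
        (Subgroup.map_subtype_le _).trans hN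
      have hj := (hR.map N.subtype).to_sup_of_normal_right' hPp hsub
      have := P.3 hj le_sup_right
      rw [← this]
      exact le_sup_left (α := Subgroup G) (Subgroup.mem_map_of_mem _ (Subgroup.mem_zpowers u))
    obtain ⟨b, hbinj, hb, -⟩ := exists_blocks_separated hM
      ((P : Subgroup G).subgroupOf N) x
      (fun i j h => ec.symm.injective (Subtype.ext (by
        rw [← hxmk i, ← hxmk j]; exact ConjClasses.mk_eq_mk_iff_isConj.2 h)))
      (fun i => by
        refine (fun h => h.imp fun _ e => e.symm) (exists_sylow_map_eq (p := p) (fun (z : N) hz => (Subgroup.mem_centralizer_singleton_iff.2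
          (Subtype.ext (Subgroup.mem_centralizer_iff.1 (hxT i).2 (z : G) (Subgroup.mem_subgroupOf.1 hz)) :
            z * x i = x i * z))) ?_)
        rw [hcard', card_centralizer_subgroup]
        refine le_antisymm ?_ ?_
        · rw [hPcard]
          refine Nat.pow_le_pow_right hp.pos
            ((hp.pow_dvd_iff_le_factorization Nat.card_pos.ne').1 ?_)
          rw [← hPcard]
          exact Subgroup.card_dvd_of_le (le_inf (fun z hz => Subgroup.mem_centralizer_singleton_iff.2
            (Subgroup.mem_centralizer_iff.1 (hxT i).2 z hz)) hPN)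
        · rw [hPcard]
          exact Nat.pow_le_pow_right hp.pos
            ((Nat.factorization_le_iff_dvd Nat.card_pos.ne' Nat.card_pos.ne').2
              (Subgroup.card_subgroup_dvd_card _) p))
      (fun i j g h hg hh k hk e => by
        obtain ⟨hgo, -⟩ := (ec.symm i).2 g ((ConjClasses.mk_eq_mk_iff_isConj.2 hg.symm).trans (hxmk i))
        obtain ⟨hho, hhC⟩ :=
          (ec.symm j).2 h ((ConjClasses.mk_eq_mk_iff_isConj.2 hh.symm).trans (hxmk j))
        have hu := hmemP (g * h⁻¹) k e
        have hcomm : Commute (g * h⁻¹) h :=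
          Subtype.ext (Subgroup.mem_centralizer_iff.1 hhC _ hu)
        have hco : Nat.Coprime (orderOf (g * h⁻¹)) (orderOf h) := by
          rw [e]; exact Nat.Coprime.pow_left k ((hp.coprime_iff_not_dvd).2 hho)
        have := hcomm.orderOf_mul_eq_mul_orderOf_of_coprime hco
        rw [inv_mul_cancel_right, e] at this
        exact hgo (this ▸ (dvd_pow_self p hk.ne').mul_right _))
    have hind : ∀ i, ∃ B, IsInducedBlock M N (b i) B := fun i =>
      inducedBlockDefined_brauer hM hPp hC hN hPN (hb i).1
    choose B hB using hind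
    have hbd : ∀ i, p ^ blockDefect p (b i) = Nat.card ((P : Subgroup G).subgroupOf N) := fun i =>
      ((isDefectGroup_iff_card hM _ hPN' (hb i).1).1 (hb i).2)
    refine le_trans (le_of_eq (by rw [Nat.card_eq_fintype_card, Nat.card_fin]))
      (Nat.card_le_card_of_injective (α := Fin (Fintype.card T))
        (fun i => ⟨B i, (hB i).2.1, defectGroup_of_induced hM hPp hC hN hPN rfl (hB i) (hbd i)⟩)
        fun i j h => hbinj (eq_of_induced hM hPp hC hN hPN rfl (hB j) (hbd j)
          (by have e : B i = B j := Subtype.ext_iff.1 h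
              rw [← e]; exact hB i)))

end Cfsg.Agent.S0953
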