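import Cfsg.Statements.S0954
import Cfsg.Agent.Lib.BlockCoverUnique

set_option autoImplicit false
open Cfsg
open CfsgLib.Block CfsgLib.Char
open scoped Classical


namespace Cfsg.Agent.S0954

/-- Let N be a normal subgroup of the finite group G of order prime to p and of p-power index (a normal p-complement), and fix a maximal ideal M of the algebraic integers containing p. Then two irreducible characters χ, ψ of G lie in the same block if and only if some irreducible character of N has nonzero inner product with both the restriction of χ and the restriction of ψ. -/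
theorem result {G : Type*} [Group G] [Fintype G] (p : ℕ) [Fact p.Prime] (M : Ideal Cfsg.AlgInt) (hM : Cfsg.IsPModular p M) (N : Subgroup G) [N.Normal] [Fintype N] (hN : ¬ p ∣ Nat.card N) (hidx : ∃ k : ℕ, N.index = p ^ k) (χ ψ : Cfsg.IrrCharacter G) : Cfsg.SameBlock M (χ : G → ℂ) (ψ : G → ℂ) ↔ ∃ θ : Cfsg.IrrCharacter N, Cfsg.classInner (fun n : N => (χ : G → ℂ) n) (θ : N → ℂ) ≠ 0 ∧ Cfsg.classInner (fun n : N => (ψ : G → ℂ) n) (θ : N → ℂ) ≠ 0 := by
  have hb : ∀ θ : IrrCharacter N, blockOf M (θ : N → ℂ) = {θ} := fun θ =>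
    eq_singleton_of_coprime hM hN (isPBlock_blockOf θ) (mem_blockOf_self hM θ)
  constructor
  · intro h
    obtain ⟨θ, hθ⟩ := exists_over (N := N) χ
    obtain ⟨η, hη⟩ := exists_over (N := N) ψ
    obtain ⟨g, θ', hθ', e⟩ := mem_orbitSet_of_covers hM (isPBlock_blockOf χ) (isPBlock_blockOf θ)
      (mem_blockOf_self hM χ) (mem_blockOf_self hM θ) hθ (h : ψ ∈ blockOf M (χ : G → ℂ)) hη
    rw [hb θ, Set.mem_singleton_iff] at hθ'
    subst hθ'
    exact ⟨θ', hθ, (over_conj g e).1 hη⟩
  · rintro ⟨θ, h1, h2⟩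
    have e := eq_of_covers_pPower_index hM hidx (isPBlock_blockOf θ) (isPBlock_blockOf χ)
      (isPBlock_blockOf ψ) ⟨χ, mem_blockOf_self hM χ, θ, mem_blockOf_self hM θ, h1⟩
      ⟨ψ, mem_blockOf_self hM ψ, θ, mem_blockOf_self hM θ, h2⟩
    exact (e.symm ▸ mem_blockOf_self hM ψ : ψ ∈ blockOf M (χ : G → ℂ))

end Cfsg.Agent.S0954
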