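import Cfsg.Statements.S0957
-- import your own Cfsg.Agent.* helpers here

set_option autoImplicit false
open Cfsg

namespace Cfsg.Agent.S0957

/-- Let P be a Sylow p-subgroup of the finite group G, let g, h ∈ G and let p ^ d be the order of a Sylow p-subgroup of the centralizer of g. Then the number of pairs (y, z) with y conjugate to g, z conjugate to h and z * y⁻¹ ∈ P is divisible by the order of P divided by p ^ d. -/
theorem result {G : Type*} [Group G] [Finite G] (p : ℕ) [Fact p.Prime] (P : Sylow p G) (g h : G) (S : Sylow p (Subgroup.centralizer ({g} : Set G))) : Nat.card P / Nat.card S ∣ Nat.card {yz : G × G // IsConj g yz.1 ∧ IsConj h yz.2 ∧ yz.2 * yz.1⁻¹ ∈ (P : Subgroup G)} := by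
  classical
  let Y := {yz : G × G // IsConj g yz.1 ∧ IsConj h yz.2 ∧ yz.2 * yz.1⁻¹ ∈ (P : Subgroup G)}
  let φ : ↥(P : Subgroup G) → G × G → G × G := fun u yz =>
    ((u : G) * yz.1 * (u : G)⁻¹, (u : G) * yz.2 * (u : G)⁻¹)
  have hφ : ∀ (u : (P : Subgroup G)) (yz : G × G),
      IsConj g yz.1 ∧ IsConj h yz.2 ∧ yz.2 * yz.1⁻¹ ∈ (P : Subgroup G) →
      IsConj g (φ u yz).1 ∧ IsConj h (φ u yz).2 ∧ (φ u yz).2 * (φ u yz).1⁻¹ ∈ (P : Subgroup G) := by
    rintro u yz ⟨h1, h2, h3⟩
    refine ⟨h1.trans (isConj_iff.2 ⟨u, rfl⟩), h2.trans (isConj_iff.2 ⟨u, rfl⟩), ?_⟩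
    have h4 := mul_mem (mul_mem u.2 h3) (inv_mem u.2)
    convert h4 using 1
    simp only [φ]
    group
  letI : MulAction (P : Subgroup G) Y :=
    { smul := fun u y => ⟨φ u y.1, hφ u y.1 y.2⟩
      one_smul := fun y => Subtype.ext (by
        show φ 1 y.1 = y.1
        simp [φ])
      mul_smul := fun u v y => Subtype.ext (by
        show φ (u * v) y.1 = φ u (φ v y.1)
        simp [φ, mul_assoc]) }
  haveI : Finite Y := inferInstanceAs (Finite {yz : G × G // _})
  show _ ∣ Nat.card Y
  haveI : Fintype Y := Fintype.ofFinite Y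
  rw [Nat.card_congr (MulAction.selfEquivSigmaOrbits (P : Subgroup G) Y), Nat.card_sigma]
  refine Finset.dvd_sum fun ω _ => ?_
  set y := Quotient.out ω
  have hstab : Nat.card (MulAction.stabilizer (P : Subgroup G) y) ∣ Nat.card S := by
    obtain ⟨a, ha⟩ := isConj_iff.1 y.2.1
    have hmem : ∀ u : MulAction.stabilizer (P : Subgroup G) y,
        a⁻¹ * ((u.1 : (P : Subgroup G)) : G) * a ∈ Subgroup.centralizer ({g} : Set G) := by
      rintro ⟨u, hu⟩
      have h1 : (u : G) * y.1.1 * (u : G)⁻¹ = y.1.1 :=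
        congrArg (fun z : Y => z.1.1) (MulAction.mem_stabilizer_iff.1 hu)
      rw [← ha, mul_inv_eq_iff_eq_mul] at h1
      rw [Subgroup.mem_centralizer_singleton_iff]
      calc a⁻¹ * (u : G) * a * g = a⁻¹ * ((u : G) * (a * g * a⁻¹)) * a := by group
        _ = g * (a⁻¹ * (u : G) * a) := by rw [h1]; group
    let f : MulAction.stabilizer (P : Subgroup G) y →* Subgroup.centralizer ({g} : Set G) :=
      { toFun := fun u => ⟨a⁻¹ * ((u.1 : (P : Subgroup G)) : G) * a, hmem u⟩
        map_one' := Subtype.ext (by simp)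
        map_mul' := fun u v => Subtype.ext (by simp [mul_assoc]) }
    have hinj : Function.Injective f := fun u v huv => by
      have h1 := congrArg Subtype.val huv
      simp only [f, MonoidHom.coe_mk, OneHom.coe_mk] at h1
      exact Subtype.ext (Subtype.ext (mul_left_cancel (mul_right_cancel h1)))
    rw [Nat.card_congr (MonoidHom.ofInjective hinj).toEquiv]
    obtain ⟨n, hn⟩ := IsPGroup.iff_card.1
      (((P.isPGroup'.to_subgroup (MulAction.stabilizer (P : Subgroup G) y)).of_equiv
        (MonoidHom.ofInjective hinj)))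
    rw [hn, Sylow.card_eq_multiplicity]
    refine Nat.pow_dvd_pow p ((Nat.Prime.pow_dvd_iff_le_factorization Fact.out
      Nat.card_pos.ne').1 ?_)
    rw [← hn]
    exact Subgroup.card_subgroup_dvd_card _
  obtain ⟨m, hm⟩ := hstab
  have horb := Nat.card_congr (MulAction.orbitEquivQuotientStabilizer (P : Subgroup G) y)
  have hc := Subgroup.card_eq_card_quotient_mul_card_subgroup
    (MulAction.stabilizer (P : Subgroup G) y)
  rw [← horb] at hc
  by_cases hS : Nat.card S ∣ Nat.card P
  · refine ⟨m, Nat.eq_of_mul_eq_mul_right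
      (Nat.card_pos (α := MulAction.stabilizer (P : Subgroup G) y)) ?_⟩
    rw [← hc]
    conv_lhs => rw [← Nat.div_mul_cancel hS]
    rw [hm]
    ring
  · exfalso
    refine hS ?_
    rw [Sylow.card_eq_multiplicity, Sylow.card_eq_multiplicity]
    refine Nat.pow_dvd_pow p ?_
    exact (Nat.factorization_le_iff_dvd Nat.card_pos.ne' Nat.card_pos.ne').2
      (Subgroup.card_subgroup_dvd_card _) p

end Cfsg.Agent.S0957
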