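import Cfsg.Statements.S0965
import Cfsg.Agent.Lib.BlockCovering

set_option autoImplicit false
open Cfsg
open CfsgLib.Block CfsgLib.Char
open scoped Classical


namespace Cfsg.Agent.S0965

/-- Let N be a normal subgroup of the finite group G and let B, b be blocks of G and of N relative to a maximal ideal M of the algebraic integers containing the prime p. Then some χ ∈ B has a constituent in b on restriction to N if and only if, for all χ ∈ B, θ ∈ b and n ∈ N, the central character of χ at n is congruent modulo the local ideal at M to the sum of θ m / θ 1 over the elements m ∈ N conjugate in G to n. -/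
theorem result {G : Type*} [Group G] [Fintype G] (p : ℕ) [Fact p.Prime] (M : Ideal Cfsg.AlgInt) (hM : Cfsg.IsPModular p M) (N : Subgroup G) [N.Normal] [Fintype N] (B : Set (Cfsg.IrrCharacter G)) (hB : Cfsg.IsPBlock M B) (b : Set (Cfsg.IrrCharacter N)) (hb : Cfsg.IsPBlock M b) : (∃ χ ∈ B, ∃ θ ∈ b, Cfsg.classInner (fun n : N => (χ : G → ℂ) n) (θ : N → ℂ) ≠ 0) ↔ ∀ χ ∈ B, ∀ θ ∈ b, ∀ n : N, Cfsg.MemLocalIdeal M (Cfsg.centralChar (χ : G → ℂ) (n : G) - Cfsg.inducedCentralChar N (θ : N → ℂ) (n : G)) := by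
  have hcl : ∀ (n : N) (θ θ' : Cfsg.IrrCharacter N), θ ∈ b → θ' ∈ b →
      Cfsg.MemLocalIdeal M (Cfsg.inducedCentralChar N (θ : N → ℂ) (n : G) - Cfsg.inducedCentralChar N (θ' : N → ℂ) (n : G)) := by
    intro n θ θ' hθ hθ'
    rw [memLocalIdeal_sub_iff hM (inducedCentralChar_mem hM N _ θ) (inducedCentralChar_mem hM N _ θ'),
      ← ev_resLift_cl, ← ev_resLift_cl]
    exact ev_eq_of_mem hM hb hθ hθ' _
  constructor
  · rintro ⟨χ₀, hχ₀, θ₀, hθ₀, hcon⟩ χ hχ θ hθ n
    obtain ⟨φ, hφ⟩ := exists_over (N := N) χ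
    obtain ⟨g, θ₁, hθ₁, hg⟩ := mem_orbitSet_of_covers hM hB hb hχ₀ hθ₀ hcon hχ hφ
    rw [centralChar_over ((over_conj g hg).1 hφ) n]
    exact hcl n θ₁ θ hθ₁ hθ
  · intro h
    obtain ⟨θ, hθ⟩ := isPBlock_nonempty hM hb
    obtain ⟨χ, hχ⟩ := isPBlock_nonempty hM hB
    obtain ⟨χ₀, hχ₀, hθ₀⟩ := exists_irr_over (G := G) θ.2
    let χ' : Cfsg.IrrCharacter G := ⟨χ₀, hχ₀⟩
    have hmem := indVal_covSet_mem (G := G) hM (indVal_orbitSet_mem hM hb) (orbitSet_orbitSet' b)
    let v : intRing (G := G) hM := ⟨_, hmem⟩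
    have e : ev hM χ v = ev hM χ' v := by
      rw [ev_eq_sum hM, ev_eq_sum hM v χ']
      refine Finset.sum_congr rfl fun C _ => ?_
      by_cases hC : Quotient.out C ∈ N
      · congr 1
        rw [ev_cl, ev_cl]
        refine (memLocalIdeal_sub_iff hM _ _).1 ?_
        have e1 := h χ hχ θ hθ ⟨_, hC⟩
        have e2 := centralChar_over (χ := χ') (θ := θ) hθ₀ ⟨_, hC⟩
        simp only at e1 e2
        rwa [e2]
      · have h0 : cred hM v (Quotient.out C) = 0 := by
          rw [cred_eq_zero_iff]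
          show Cfsg.MemLocalIdeal M (coef (indVal (covSet (orbitSet b))) (Quotient.out C))
          rw [coef_covSet (orbitSet_orbitSet' b), extendByZero_not_mem _ hC]
          exact (memLocalIdeal_iff_exists hM).2 ⟨zero_mem _, map_zero _⟩
        rw [h0, zero_mul, zero_mul]
    have hχ' : χ' ∈ covSet (orbitSet b) := fun φ hφ => by
      obtain ⟨g, hg⟩ := exists_conj_of_over (χ := χ') (θ := θ) hθ₀ hφ
      exact ⟨g, θ, hθ, hg⟩
    have hχA : χ ∈ covSet (orbitSet b) := by
      by_contra hne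
      have h1 : ev hM χ' v = 1 := by
        refine (congrArg (res hM) (Subtype.ext ?_)).trans (map_one _)
        show indVal (covSet (orbitSet b)) χ' = 1
        simp [indVal, hχ']
      have h2 : ev hM χ v = 0 := by
        refine (congrArg (res hM) (Subtype.ext ?_)).trans (map_zero _)
        show indVal (covSet (orbitSet b)) χ = 0
        simp [indVal, hne]
      haveI := nontrivial_resField hM
      exact zero_ne_one (h2.symm.trans (e.trans h1))
    obtain ⟨φ, hφ⟩ := exists_over (N := N) χ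
    obtain ⟨g, θ', hθ', hg⟩ := hχA φ hφ
    exact ⟨χ, hχ, θ', hθ', (over_conj g hg).1 hφ⟩

end Cfsg.Agent.S0965
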