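import Cfsg.Statements.S0966
import Cfsg.Agent.Lib.BlockCoverUnique

set_option autoImplicit false
open Cfsg
open CfsgLib.Block CfsgLib.Char
open scoped Classical


namespace Cfsg.Agent.S0966

/-- Let N be a normal subgroup of p-power index in the finite group G and b a block of N relative to a maximal ideal M of the algebraic integers containing p. Then there is exactly one block B of G containing a character whose restriction to N has a constituent in b. -/
theorem result {G : Type*} [Group G] [Fintype G] (p : ℕ) [Fact p.Prime] (M : Ideal Cfsg.AlgInt) (hM : Cfsg.IsPModular p M) (N : Subgroup G) [N.Normal] [Fintype N] (hidx : ∃ k : ℕ, N.index = p ^ k) (b : Set (Cfsg.IrrCharacter N)) (hb : Cfsg.IsPBlock M b) : ∃! B : Set (Cfsg.IrrCharacter G), Cfsg.IsPBlock M B ∧ ∃ χ ∈ B, ∃ θ ∈ b, Cfsg.classInner (fun n : N => (χ : G → ℂ) n) (θ : N → ℂ) ≠ 0 := by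
  obtain ⟨θ, hθ⟩ := isPBlock_nonempty hM hb
  obtain ⟨χ₀, hχ₀, hover⟩ := exists_irr_over (G := G) θ.2
  refine ⟨blockOf M χ₀, ⟨isPBlock_blockOf (⟨χ₀, hχ₀⟩ : IrrCharacter G),
    ⟨χ₀, hχ₀⟩, mem_blockOf_self hM (⟨χ₀, hχ₀⟩ : IrrCharacter G), θ, hθ, hover⟩, ?_⟩
  rintro B ⟨hB, hcov⟩
  exact eq_of_covers_pPower_index hM hidx hb hB (isPBlock_blockOf (⟨χ₀, hχ₀⟩ : IrrCharacter G)) hcov
    ⟨⟨χ₀, hχ₀⟩, mem_blockOf_self hM (⟨χ₀, hχ₀⟩ : IrrCharacter G), θ, hθ, hover⟩

end Cfsg.Agent.S0966
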