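import Cfsg.Statements.S0968
import Cfsg.Agent.Lib.BlockNilBij
import Cfsg.Agent.Lib.CharNormal
import Cfsg.Agent.Lib.CharLinear

set_option autoImplicit false
open Cfsg
open CfsgLib.Block CfsgLib.Char
open scoped Classical


namespace Cfsg.Agent.S0968

/-- Let P be a p-subgroup of the finite group G with P ⊔ C_G(P) = G, and let B be a block with defect group P relative to a maximal ideal M of the algebraic integers containing p. Then there is exactly one θ ∈ B with θ x = θ 1 for all x ∈ P; for this θ the exponent of p in θ(1) equals the exponent of p in the index of P; and the number of members of B equals the number of conjugacy classes of P. -/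
theorem result {G : Type*} [Group G] [Finite G] (p : ℕ) [Fact p.Prime] (M : Ideal Cfsg.AlgInt) (hM : Cfsg.IsPModular p M) (P : Subgroup G) (hP : IsPGroup p P) (hG : P ⊔ Subgroup.centralizer (P : Set G) = ⊤) (B : Set (Cfsg.IrrCharacter G)) (hB : Cfsg.IsPBlock M B) (hD : Cfsg.IsDefectGroup p M B P) : (∃! θ : Cfsg.IrrCharacter G, θ ∈ B ∧ ∀ x ∈ P, (θ : G → ℂ) x = (θ : G → ℂ) 1) ∧ (∀ θ ∈ B, (∀ x ∈ P, (θ : G → ℂ) x = (θ : G → ℂ) 1) → (Cfsg.charDegree (θ : G → ℂ)).factorization p = P.index.factorization p) ∧ Nat.card B = Nat.card (ConjClasses P) := by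
  haveI := Fintype.ofFinite G
  haveI hPn : P.Normal := by
    refine Subgroup.normalizer_eq_top_iff.1 (top_le_iff.1 ?_)
    rw [← hG]
    exact sup_le Subgroup.le_normalizer (Subgroup.centralizer_le_normalizer (P : Set G))
  have hCn : (Subgroup.centralizer (P : Set G)).Normal := inferInstance
  have hdec : ∀ g : G, ∃ u ∈ P, ∃ c ∈ Subgroup.centralizer (P : Set G), u * c = g := fun g => by
    have hg : g ∈ ((P ⊔ Subgroup.centralizer (P : Set G) : Subgroup G) : Set G) := by
      rw [hG]; exact Subgroup.mem_top g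
    rw [Subgroup.normal_mul] at hg
    exact Set.mem_mul.1 hg
  have hreg : ∀ y : G, ¬ p ∣ orderOf y → y ∈ Subgroup.centralizer (P : Set G) := by
    intro y hy
    obtain ⟨u, hu, c, hc, e⟩ := hdec y
    obtain ⟨k, hk⟩ := hP ⟨u, hu⟩
    let π := QuotientGroup.mk' (Subgroup.centralizer (P : Set G))
    have e1 : π y = π u := by
      rw [← e, map_mul, show π c = 1 from (QuotientGroup.eq_one_iff c).2 hc, mul_one]
    have h1 : orderOf (π y) ∣ p ^ k := by
      rw [e1]
      refine orderOf_dvd_of_pow_eq_one ?_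
      rw [← map_pow, show u ^ p ^ k = 1 by simpa using congrArg Subtype.val hk, map_one]
    have h2 : orderOf (π y) ∣ orderOf y := orderOf_map_dvd π y
    have h3 := orderOf_eq_one_iff.1 (Nat.eq_one_of_dvd_coprimes
      (Nat.Coprime.pow_left k ((Fact.out : p.Prime).coprime_iff_not_dvd.2 hy)) h1 h2)
    exact (QuotientGroup.eq_one_iff y).1 h3
  have hnil : Cfsg.IsNilpotentBlock p M B := by
    refine ⟨hB, fun Q e hQ x hx hst hxr => ?_⟩
    have hQ' := ((isBrauerPairOf_iff hM).1 hQ).2
    obtain ⟨y, hy⟩ := conjLE_defectGroup_of_brauerNonzero hM hB hD hQ'.1.1 (PairIn.brauerNonzero hQ')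
    refine Subgroup.mem_centralizer_iff.2 fun z hz => ?_
    have hzP : z ∈ P := by
      have h := hPn.conj_mem _ (hy ⟨z, hz, rfl⟩) y⁻¹
      have e2 : y⁻¹ * (MulAut.conj y).toMonoidHom z * y⁻¹⁻¹ = z := by
        show y⁻¹ * (y * z * y⁻¹) * y⁻¹⁻¹ = z
        group
      rwa [e2] at h
    exact Subgroup.mem_centralizer_iff.1 (hreg x hxr) z hzP
  obtain ⟨ψ, hψ⟩ := exists_maxPair_defectGroup hM hB hD
  obtain ⟨χ₀, hχ₀, h0e⟩ := exists_eq_blockMin hM hB
  have h0 : Cfsg.blockHeight p B (χ₀ : G → ℂ) = 0 := (blockHeight_zero_iff hχ₀).2 h0e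
  have hp := (Fact.out : p.Prime)
  set a := (Nat.card G).factorization p with ha
  have hcP : Nat.card P = p ^ Cfsg.blockDefect p B := card_defectGroup hM hB hD
  have hidx : P.index.factorization p = blockMin p B := by
    have h1 := defect_add_min hM hB
    have h2 : (Nat.card G).factorization p = Cfsg.blockDefect p B + P.index.factorization p := by
      rw [← P.card_mul_index, Nat.factorization_mul Nat.card_pos.ne' Subgroup.index_ne_zero_of_finite,
        Finsupp.add_apply, hcP, hp.factorization_pow, Finsupp.single_eq_same]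
    omega
  -- characters trivial on `P`
  have hval : ∀ θ ∈ B, (∀ x ∈ P, (θ : G → ℂ) x = (θ : G → ℂ) 1) → ∀ g x y : G, x * y = g → Commute x y →
      x ∈ P → (θ : G → ℂ) g = (θ : G → ℂ) y := by
    intro θ hθ hker g x y hg hxy hx
    obtain ⟨d, ρ, hρ⟩ := θ.2.isCharacter'
    have h1 : ρ x = 1 := by
      have h2 := hker x hx
      rw [← hρ] at h2
      exact (char_eq_one_iff ρ x).1 h2
    rw [← hg, ← hρ]
    show LinearMap.trace ℂ _ (ρ (x * y)) = LinearMap.trace ℂ _ (ρ y)
    rw [map_mul, h1, one_mul]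
  have hsupp : ∀ θ ∈ B, ∀ g x y : G, x * y = g → Cfsg.IsPPart p g x → (θ : G → ℂ) g ≠ 0 → x ∈ P := by
    intro θ hθ g x y _ hx hne
    obtain ⟨D', hD', hxD⟩ := exists_defectGroup_mem_of_apply_ne_zero hM hB hθ hx hne
    obtain ⟨z, hz⟩ := defectGroup_eq_conj hM hB hD hD'
    rw [← hz] at hxD
    obtain ⟨w, hw, rfl⟩ := hxD
    exact hPn.conj_mem w hw z
  -- inner products of two such characters
  have hinner : ∀ θ ∈ B, ∀ θ' ∈ B, (∀ x ∈ P, (θ : G → ℂ) x = (θ : G → ℂ) 1) → (∀ x ∈ P, (θ' : G → ℂ) x = (θ' : G → ℂ) 1) →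
      Cfsg.classInner (θ : G → ℂ) (θ' : G → ℂ) = (Nat.card P : ℂ) * Cfsg.classInner (regPart p (θ : G → ℂ)) (θ' : G → ℂ) := by
    intro θ hθ θ' hθ' hk hk'
    have key : ∑ g : G, (θ : G → ℂ) g * (starRingEnd ℂ) ((θ' : G → ℂ) g) =
        ∑ g : G, (Nat.card P : ℂ) * (regPart p (θ : G → ℂ) g * (starRingEnd ℂ) ((θ' : G → ℂ) g)) := by
      let R := Finset.univ.filter (fun y : G => ¬ p ∣ orderOf y)
      let F := fun g : G => (θ : G → ℂ) g * (starRingEnd ℂ) ((θ' : G → ℂ) g)
      have h1 : ∑ g : G, (Nat.card P : ℂ) * (regPart p (θ : G → ℂ) g * (starRingEnd ℂ) ((θ' : G → ℂ) g)) =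
          ∑ x ∈ R ×ˢ (Finset.univ : Finset P), F x.1 := by
        rw [Finset.sum_product]
        simp only [Finset.sum_const, Finset.card_univ, nsmul_eq_mul, ← Nat.card_eq_fintype_card]
        rw [Finset.sum_filter]
        refine Finset.sum_congr rfl fun g _ => ?_
        by_cases h : p ∣ orderOf g <;> simp [regPart, h, F]
      rw [h1]
      symm
      refine Finset.sum_bij_ne_zero (fun x _ _ => (x.2 : G) * x.1) (fun x _ _ => Finset.mem_univ _) ?_ ?_ ?_
      · intro x hx _ y hy _ hxy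
        have hxr := (Finset.mem_filter.1 (Finset.mem_product.1 hx).1).2
        have hyr := (Finset.mem_filter.1 (Finset.mem_product.1 hy).1).2
        have c1 : Commute (x.2 : G) x.1 := Subgroup.mem_centralizer_iff.1 (hreg _ hxr) _ x.2.2
        have c2 : Commute (y.2 : G) y.1 := Subgroup.mem_centralizer_iff.1 (hreg _ hyr) _ y.2.2
        have hord : ∀ u : P, ∃ k, orderOf (u : G) = p ^ k := fun u => by
          obtain ⟨k, hk⟩ := IsPGroup.iff_orderOf.1 hP u
          exact ⟨k, by rwa [Subgroup.orderOf_coe]⟩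
        have h2 := isPPart_unique hp (x := (x.2 : G)) (g := (x.2 : G) * x.1) ⟨x.1, rfl, c1, hord x.2, hxr⟩
          (show Cfsg.IsPPart p ((x.2 : G) * x.1) (y.2 : G) from ⟨y.1, hxy.symm, c2, hord y.2, hyr⟩)
        refine Prod.ext ?_ (Subtype.ext h2)
        rw [h2] at hxy
        exact mul_left_cancel hxy
      · intro g _ hne
        obtain ⟨x, hx⟩ := exists_isPPart hp g
        obtain ⟨y, hy, hc, ho, hyr⟩ := hx
        have hxP : x ∈ P := hsupp θ hθ g x y hy ⟨y, hy, hc, ho, hyr⟩ (left_ne_zero_of_mul hne)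
        refine ⟨(y, ⟨x, hxP⟩), Finset.mem_product.2 ⟨Finset.mem_filter.2 ⟨Finset.mem_univ _, hyr⟩, Finset.mem_univ _⟩, ?_, hy⟩
        show F y ≠ 0
        have e1 := hval θ hθ hk g x y hy hc hxP
        have e2 := hval θ' hθ' hk' g x y hy hc hxP
        show (θ : G → ℂ) y * (starRingEnd ℂ) ((θ' : G → ℂ) y) ≠ 0
        rwa [← e1, ← e2]
      · intro x hx _
        have hxr := (Finset.mem_filter.1 (Finset.mem_product.1 hx).1).2
        have c1 : Commute (x.2 : G) x.1 := Subgroup.mem_centralizer_iff.1 (hreg _ hxr) _ x.2.2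
        show F x.1 = F ((x.2 : G) * x.1)
        simp only [F, hval θ hθ hk _ _ _ rfl c1 x.2.2, hval θ' hθ' hk' _ _ _ rfl c1 x.2.2]
    simp only [Cfsg.classInner, key, ← Finset.mul_sum]
    ring
  refine ⟨?_, fun θ hθ hker => ?_, ?_⟩
  · have hex : ∃ θ ∈ B, ∀ x ∈ P, (θ : G → ℂ) x = (θ : G → ℂ) 1 := by
      by_contra hno
      push Not at hno
      have hz : ∀ χ ∈ B, ∑ u : P, (starRingEnd ℂ) ((χ : G → ℂ) u) = 0 := by
        intro χ hχ
        have h1 : Cfsg.classInner (fun u : P => (χ : G → ℂ) u) (fun _ : P => (1 : ℂ)) = 0 := by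
          by_contra hne
          obtain ⟨x, hx, hxne⟩ := hno χ hχ
          have hcl := clifford χ.2 (CfsgLib.Char.isIrrCharacter_one (G := P)) hne
          have e1 := congrFun hcl ⟨x, hx⟩
          have e2 := congrFun hcl 1
          refine hxne ?_
          simp only [Pi.smul_apply, smul_eq_mul, Finset.sum_apply, OneMemClass.coe_one] at e1 e2
          rw [e1, e2]
          refine congrArg _ (Finset.sum_congr rfl fun φ hφ => ?_)
          obtain ⟨g, rfl⟩ := mem_conjOrbit.1 hφ
          rfl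
        simp only [Cfsg.classInner, map_one, mul_one, mul_eq_zero, inv_eq_zero, natCard_ne_zero, false_or] at h1
        rw [← map_sum, h1, map_zero]
      refine coef_indVal_one_ne_zero (isPBlock_nonempty hM hB) ?_
      have h1 : ∑ u : P, coef (indVal B) (u : G) = coef (indVal B) 1 := by
        rw [Finset.sum_eq_single (1 : P) (fun u _ hu => ?_) (fun h => absurd (Finset.mem_univ _) h)]
        · rfl
        · obtain ⟨n, hn⟩ := hP u
          exact coef_pElement_eq_zero hM (bIdem_sq hM hB) (fun h => hu (Subtype.ext h)) (n := n)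
            (by simpa using congrArg Subtype.val hn)
      rw [← h1]
      simp only [coef, ← Finset.mul_sum]
      rw [Finset.sum_comm, Finset.sum_eq_zero fun χ _ => ?_, mul_zero]
      rw [← Finset.mul_sum]
      by_cases hχ : χ ∈ B
      · rw [hz χ hχ, mul_zero]
      · simp [indVal, hχ]
    obtain ⟨θ, hθ, hker⟩ := hex
    refine ⟨θ, ⟨hθ, hker⟩, fun θ' hθ' => ?_⟩
    obtain ⟨hθ', hker'⟩ := hθ'
    by_contra hne
    have h1 := hinner θ' hθ' θ hθ hker' hker
    rw [irr_inner_ne θ'.2 θ.2 fun h => hne (Subtype.ext h)] at h1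
    have h2 := hinner θ hθ θ hθ hker hker
    rw [irr_inner_self θ.2] at h2
    have h3 : (Nat.card P : ℂ) * Cfsg.classInner (regPart p (θ' : G → ℂ)) (θ' : G → ℂ) = 1 := by
      rw [← hinner θ' hθ' θ' hθ' hker' hker', irr_inner_self θ'.2]
    -- rank one
    have hr := fun {ξ : Cfsg.IrrCharacter G} (hξ : ξ ∈ B) => nil_regPart hψ hnil hχ₀ h0 hξ
    rw [hr hθ', CfsgLib.Char.inner_smul_left] at h1 h3
    rw [hr hθ, CfsgLib.Char.inner_smul_left] at h2
    have hPne : (Nat.card P : ℂ) ≠ 0 := natCard_ne_zero _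
    have hb : blockMat p B θ' χ₀ ≠ 0 := fun h => by simp [h] at h3
    rcases mul_eq_zero.1 h1.symm with h | h
    · exact hPne h
    rcases mul_eq_zero.1 h with h | h
    · exact hb h
    · rw [h, mul_zero, mul_zero] at h2
      exact one_ne_zero h2
  · rw [hidx]
    refine le_antisymm ?_ (blockMin_le hθ)
    have h1 := hinner θ hθ θ hθ hker hker
    rw [irr_inner_self θ.2] at h1
    obtain ⟨n, hn⟩ := exists_int_scaledReg_dvd hp θ θ.2.isCharacter'
    rw [scaledReg_eq, CfsgLib.Char.inner_smul_left] at hn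
    have h2 : (((p ^ (Cfsg.charDegree (θ : G → ℂ)).factorization p : ℕ) : ℤ) * n : ℤ) = (p ^ blockMin p B : ℕ) := by
      have h3 := defect_add_min hM hB
      apply Int.cast_injective (α := ℂ)
      push_cast
      rw [hcP, Nat.cast_pow] at h1
      push_cast at hn
      rw [← hn, ← h3, pow_add]
      linear_combination ((p : ℂ) ^ blockMin p B) * (-h1)
    have h4 := Int.natCast_dvd_natCast.1 (Dvd.intro _ h2)
    exact (Nat.pow_dvd_pow_iff_le_right hp.one_lt).1 h4
  · rw [nil_card hψ hnil hχ₀ h0, card_irrCharacter]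

end Cfsg.Agent.S0968
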