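import Cfsg.Statements.S0969
import Cfsg.Agent.Lib.BlockBound
import Cfsg.Agent.Lib.BlockDefect
import Cfsg.Agent.Lib.BlockPPart
import Cfsg.Agent.Lib.BlockRegular

set_option autoImplicit false
open Cfsg

namespace Cfsg.Agent.S0969

/-- Let D be a central p-subgroup of the finite group G and χ an irreducible character with the exponent of p in χ(1) equal to the exponent of p in the index of D; fix a maximal ideal M of the algebraic integers containing p. Then D is a defect group of the block of χ, and χ g = 0 whenever the p-part of g does not lie in D. -/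
theorem result {G : Type*} [Group G] [Finite G] (p : ℕ) [Fact p.Prime] (M : Ideal Cfsg.AlgInt) (hM : Cfsg.IsPModular p M) (D : Subgroup G) (hD : IsPGroup p D) (hDZ : D ≤ Subgroup.center G) (χ : Cfsg.IrrCharacter G) (hdeg : (Cfsg.charDegree (χ : G → ℂ)).factorization p = D.index.factorization p) : Cfsg.IsDefectGroup p M (Cfsg.blockOf M (χ : G → ℂ)) D ∧ ∀ g x : G, Cfsg.IsPPart p g x → x ∉ D → (χ : G → ℂ) g = 0 := by
  classical
  haveI := Fintype.ofFinite G
  have hp : p.Prime := Fact.out
  obtain ⟨d, hd⟩ := IsPGroup.iff_card.1 hD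
  set a := (Nat.card G).factorization p with ha
  have hDidx : D.index.factorization p + d = a := by
    rw [ha, ← D.card_mul_index, hd, Nat.factorization_mul (pow_ne_zero d hp.ne_zero) Subgroup.index_ne_zero_of_finite,
      Finsupp.add_apply, hp.factorization_pow, Finsupp.single_eq_same, add_comm]
  set B := blockOf M (χ : G → ℂ) with hBdef
  have hB : IsPBlock M B := CfsgLib.Block.isPBlock_blockOf χ
  have hχB : χ ∈ B := CfsgLib.Block.mem_blockOf_self hM χ
  set R := Finset.univ.filter (fun g : G => ¬ p ∣ orderOf g) with hR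
  set S := ∑ g ∈ R, Complex.normSq ((χ : G → ℂ) g) with hS
  have hnorm : ∀ (z : ↥D) (s : G), Complex.normSq ((χ : G → ℂ) ((z : G) * s)) = Complex.normSq ((χ : G → ℂ) s) := by
    intro z s
    obtain ⟨ω, hω, hmul⟩ := CfsgLib.Block.irr_central_mul χ (hDZ z.2)
    rw [hmul s, Complex.normSq_mul, Complex.normSq_eq_norm_sq ω,
      Complex.norm_eq_one_of_pow_eq_one hω (orderOf_pos _).ne', one_pow, one_mul]
  have hpart : ∀ (z : ↥D) (s : G), ¬ p ∣ orderOf s → IsPPart p ((z : G) * s) (z : G) := by
    intro z s hs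
    obtain ⟨k, hk⟩ := (IsPGroup.iff_orderOf.1 hD) z
    exact ⟨s, rfl, (Subgroup.mem_center_iff.1 (hDZ z.2) s).symm, ⟨k, by rw [Subgroup.orderOf_coe]; exact hk⟩, hs⟩
  set T := ((Finset.univ : Finset ↥D) ×ˢ R).image (fun zs : ↥D × G => (zs.1 : G) * zs.2) with hT
  have hinj : Set.InjOn (fun zs : ↥D × G => (zs.1 : G) * zs.2) ((Finset.univ : Finset ↥D) ×ˢ R : Finset (↥D × G)) := by
    rintro ⟨z, s⟩ hs ⟨z', s'⟩ hs' h
    simp only [Finset.coe_product, Set.mem_prod, Finset.mem_coe, hR, Finset.mem_filter, Finset.mem_univ, true_and] at hs hs'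
    change (z : G) * s = (z' : G) * s' at h
    have hz : (z : G) = z' := CfsgLib.Block.isPPart_unique hp (hpart z s hs) (h ▸ hpart z' s' hs')
    rw [hz] at h
    exact Prod.ext (Subtype.ext hz) (mul_left_cancel h)
  have hTsum : ∑ g ∈ T, Complex.normSq ((χ : G → ℂ) g) = (Nat.card ↥D : ℝ) * S := by
    rw [hT, Finset.sum_image hinj, Finset.sum_product]
    simp only [hnorm]
    rw [Finset.sum_const, Finset.card_univ, nsmul_eq_mul, hS, Nat.card_eq_fintype_card]
  have htot : ∑ g : G, Complex.normSq ((χ : G → ℂ) g) = (Nat.card G : ℝ) := by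
    apply Complex.ofReal_injective
    push_cast
    have h := CfsgLib.Char.irr_inner_self χ.2
    rw [classInner, inv_mul_eq_one₀ (CfsgLib.Char.natCard_ne_zero G)] at h
    rw [h]
    exact Finset.sum_congr rfl fun g _ => (Complex.mul_conj _).symm
  obtain ⟨n, hn⟩ := CfsgLib.Block.exists_int_scaledReg_dvd hp χ χ.2.isCharacter'
  have hval : (p : ℝ) ^ a * ((Nat.card G : ℝ)⁻¹ * S) = (p : ℝ) ^ D.index.factorization p * (n : ℝ) := by
    apply Complex.ofReal_injective
    rw [CfsgLib.Block.scaledReg_eq, CfsgLib.Char.inner_smul_left, CfsgLib.Block.classInner_regPart, hdeg,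
      Nat.cast_pow] at hn
    push_cast [hS]
    rw [← hn]
    congr 1
    congr 1
    exact Finset.sum_congr rfl fun g _ => (Complex.mul_conj _).symm
  have hG0 : (0 : ℝ) < Nat.card G := by exact_mod_cast Nat.card_pos
  have hp0 : (0 : ℝ) < p := by exact_mod_cast hp.pos
  have hS0 : 0 < S := by
    refine lt_of_lt_of_le ?_ (Finset.single_le_sum (fun g _ => Complex.normSq_nonneg _)
      (Finset.mem_filter.2 ⟨Finset.mem_univ 1, by rw [orderOf_one]; exact hp.not_dvd_one⟩))
    exact Complex.normSq_pos.2 (CfsgLib.Block.irr_one_ne_zero χ)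
  have hle : (Nat.card ↥D : ℝ) * S ≤ (Nat.card G : ℝ) := by
    rw [← hTsum, ← htot]
    exact Finset.sum_le_univ_sum_of_nonneg fun g => Complex.normSq_nonneg _
  have hnval : (n : ℝ) = (Nat.card ↥D : ℝ) * S / (Nat.card G : ℝ) := by
    rw [hd, Nat.cast_pow]
    field_simp
    rw [← hDidx, pow_add] at hval
    field_simp at hval
    linarith
  have hn1 : n = 1 := by
    have h1 : (0 : ℝ) < n := by rw [hnval]; exact div_pos (mul_pos (by exact_mod_cast Nat.card_pos) hS0) hG0
    have h2 : (n : ℝ) ≤ 1 := by rw [hnval, div_le_one hG0]; exact hle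
    have h3 : (0 : ℤ) < n := by exact_mod_cast h1
    have h4 : n ≤ (1 : ℤ) := by exact_mod_cast h2
    omega
  subst hn1
  refine ⟨?_, fun g x hx hxD => ?_⟩
  · have hadd := CfsgLib.Block.defect_add_min hM hB
    obtain ⟨A, hA⟩ := CfsgLib.Block.exists_int_blockMat hM hB hχB χ
    have hmul := CfsgLib.Block.blockMat_mul_pow hM hB χ χ
    rw [hn, hA, hdeg, Int.cast_one, mul_one, Nat.cast_pow] at hmul
    have hminle : CfsgLib.Block.blockMin p B ≤ D.index.factorization p := by
      rw [← hdeg]; exact Nat.sInf_le ⟨χ, hχB, rfl⟩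
    have hAval : A = (p : ℤ) ^ (D.index.factorization p - CfsgLib.Block.blockMin p B) := by
      refine mul_left_cancel₀ (pow_ne_zero (CfsgLib.Block.blockMin p B) (by exact_mod_cast hp.ne_zero : (p : ℤ) ≠ 0)) ?_
      rw [← pow_add, Nat.add_sub_cancel' hminle]
      exact_mod_cast hmul.symm
    have hh : blockHeight p B (χ : G → ℂ) = D.index.factorization p - CfsgLib.Block.blockMin p B := by
      rw [← hdeg]; rfl
    have h0 : blockHeight p B (χ : G → ℂ) = 0 := by
      by_contra hne
      obtain ⟨-, -, h3⟩ := CfsgLib.Block.intMat_divisibility hM hB hχB hχB hA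
      have h4 := h3 hne
      rw [hAval, ← hh] at h4
      have h5 := Int.natAbs_dvd_natAbs.2 h4
      simp only [Int.natAbs_pow, Int.natAbs_natCast] at h5
      have := (Nat.pow_dvd_pow_iff_le_right hp.one_lt).1 h5
      omega
    have hdef : blockDefect p B = d := by omega
    obtain ⟨D', hD'⟩ := CfsgLib.Block.exists_defectGroup hM hB
    haveI : D.Normal := ⟨fun z hz g => by
      rw [Subgroup.mem_center_iff.1 (hDZ hz) g, mul_inv_cancel_right]; exact hz⟩
    have hsub := CfsgLib.Block.normal_pGroup_le_defectGroup hM D hD hB hD'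
    have heq : D = D' := Subgroup.eq_of_le_of_card_ge hsub (by
      rw [CfsgLib.Block.card_defectGroup hM hB hD', hdef, hd])
    exact heq ▸ hD'
  · have heq : (Nat.card ↥D : ℝ) * S = (Nat.card G : ℝ) := by
      have := hnval
      rw [Int.cast_one, eq_comm, div_eq_one_iff_eq hG0.ne'] at this
      exact this
    have hgT : g ∉ T := by
      intro hg
      obtain ⟨⟨z, s⟩, hs, rfl⟩ := Finset.mem_image.1 hg
      simp only [hR, Finset.mem_product, Finset.mem_filter, Finset.mem_univ, true_and] at hs
      exact hxD ((CfsgLib.Block.isPPart_unique hp hx (hpart z s hs)) ▸ z.2)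
    by_contra hne
    have : ∑ y ∈ T, Complex.normSq ((χ : G → ℂ) y) < ∑ y : G, Complex.normSq ((χ : G → ℂ) y) :=
      Finset.sum_lt_sum_of_subset (Finset.subset_univ _) (Finset.mem_univ g) hgT (Complex.normSq_pos.2 hne)
        fun _ _ _ => Complex.normSq_nonneg _
    rw [hTsum, htot, heq] at this
    exact lt_irrefl _ this

end Cfsg.Agent.S0969
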