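import Cfsg.Statements.S0971
import Cfsg.Agent.Lib.BlockCoverApps

set_option autoImplicit false
open Cfsg
open CfsgLib.Block CfsgLib.Char


namespace Cfsg.Agent.S0971

/-- Let Q be a normal p-subgroup of the finite group G, let N = Q ⊔ C_G(Q) (a normal subgroup) and let b be a block of N relative to a maximal ideal M of the algebraic integers containing p. Then b induces some block of G, and every block B of G containing a character whose restriction to N has a constituent in b is induced by b. -/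
theorem result {G : Type*} [Group G] [Fintype G] (p : ℕ) [Fact p.Prime] (M : Ideal Cfsg.AlgInt) (hM : Cfsg.IsPModular p M) (Q : Subgroup G) [Q.Normal] (hQ : IsPGroup p Q) [Fintype ↥(Q ⊔ Subgroup.centralizer (Q : Set G))] (b : Set (Cfsg.IrrCharacter ↥(Q ⊔ Subgroup.centralizer (Q : Set G)))) (hb : Cfsg.IsPBlock M b) : Cfsg.InducedBlockDefined M (Q ⊔ Subgroup.centralizer (Q : Set G)) b ∧ ∀ B : Set (Cfsg.IrrCharacter G), Cfsg.IsPBlock M B → (∃ χ ∈ B, ∃ θ ∈ b, Cfsg.classInner (fun n : ↥(Q ⊔ Subgroup.centralizer (Q : Set G)) => (χ : G → ℂ) n) (θ : ↥(Q ⊔ Subgroup.centralizer (Q : Set G)) → ℂ) ≠ 0) → Cfsg.IsInducedBlock M (Q ⊔ Subgroup.centralizer (Q : Set G)) b B := by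
  haveI hN : (Q ⊔ Subgroup.centralizer (Q : Set G)).Normal := Subgroup.sup_normal _ _
  refine ⟨?_, fun B hB hc => ?_⟩
  · obtain ⟨θ, hθ⟩ := isPBlock_nonempty hM hb
    obtain ⟨χ, hχ, h⟩ := exists_irr_over (G := G) θ.2
    exact ⟨_, induced_of_covers_normal hM hQ le_sup_right hb (isPBlock_blockOf ⟨χ, hχ⟩)
      (mem_blockOf_self hM ⟨χ, hχ⟩) hθ h⟩
  · obtain ⟨χ, hχ, θ, hθ, h⟩ := hc
    exact induced_of_covers_normal hM hQ le_sup_right hb hB hχ hθ h

end Cfsg.Agent.S0971
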