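import Cfsg.Statements.S0973
import Cfsg.Agent.Lib.BlockExtendedMain

set_option autoImplicit false
open Cfsg
open CfsgLib.Block CfsgLib.Char
open scoped Classical


namespace Cfsg.Agent.S0973

/-- Let B be a block of the finite group G with defect group P (relative to a maximal ideal M of the algebraic integers containing p), and let L = P ⊔ C_G(P). Then (i) some block b of L with defect group P (viewed in L) induces B, and (ii) if b and b' are blocks of L both inducing B, there is n ∈ N_G(P) carrying b to b': for every θ ∈ b there is θ' ∈ b' with θ' x = θ (n x n⁻¹) for all x ∈ L. -/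
theorem result {G : Type*} [Group G] [Finite G] (p : ℕ) [Fact p.Prime] (M : Ideal Cfsg.AlgInt) (hM : Cfsg.IsPModular p M) (B : Set (Cfsg.IrrCharacter G)) (hB : Cfsg.IsPBlock M B) (P : Subgroup G) (hP : Cfsg.IsDefectGroup p M B P) : (∃ b : Set (Cfsg.IrrCharacter ↥(P ⊔ Subgroup.centralizer (P : Set G))), Cfsg.IsDefectGroup p M b (P.subgroupOf (P ⊔ Subgroup.centralizer (P : Set G))) ∧ Cfsg.IsInducedBlock M (P ⊔ Subgroup.centralizer (P : Set G)) b B) ∧ ∀ b b' : Set (Cfsg.IrrCharacter ↥(P ⊔ Subgroup.centralizer (P : Set G))), Cfsg.IsInducedBlock M (P ⊔ Subgroup.centralizer (P : Set G)) b B → Cfsg.IsInducedBlock M (P ⊔ Subgroup.centralizer (P : Set G)) b' B → ∃ n ∈ Subgroup.normalizer (P : Set G), ∀ θ ∈ b, ∃ θ' ∈ b', ∀ x : ↥(P ⊔ Subgroup.centralizer (P : Set G)), ∀ hx : n * (x : G) * n⁻¹ ∈ P ⊔ Subgroup.centralizer (P : Set G), (θ' : ↥(P ⊔ Subgroup.centralizer (P : Set G)) → ℂ) x = (θ : ↥(P ⊔ Subgroup.centralizer (P : Set G)) → ℂ) ⟨n *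 (x : G) * n⁻¹, hx⟩ := by
  haveI := Fintype.ofFinite G
  obtain ⟨L, hL⟩ : ∃ L : Subgroup G, L = P ⊔ Subgroup.centralizer (P : Set G) := ⟨_, rfl⟩
  rw [← hL]
  have hPL : P ≤ L := hL ▸ le_sup_left
  have hCL : Subgroup.centralizer (P : Set G) ≤ L := hL ▸ le_sup_right
  have hLN : L ≤ Subgroup.normalizer (P : Set G) :=
    hL ▸ sup_le Subgroup.le_normalizer (Subgroup.centralizer_le_normalizer (P : Set G))
  have hPp := isPGroup_defectGroup hM hB hP
  haveI : (P.subgroupOf L).Normal := (Subgroup.normal_subgroupOf_iff_le_normalizer hPL).2 hLN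
  refine ⟨?_, fun b b' hb hb' => ?_⟩
  · obtain ⟨b, hb⟩ := exists_induced hM hPp hCL hLN hPL hB hP
    exact ⟨b, (isDefectGroup_iff_card hM _ (hPp.of_equiv (Subgroup.subgroupOfEquivOfLe hPL).symm) hb.1).2
      (card_defect_of_induced hM hPp hLN hPL hb hP), hb⟩
  · have hinv : ∀ x ∈ Subgroup.normalizer (P : Set G), ∀ g ∈ L, x * g * x⁻¹ ∈ L := by
      intro x hx g hg
      have hle : L ≤ L.comap (MulAut.conj x).toMonoidHom := hL.trans_le (sup_le
        (fun z hz => hPL ((Subgroup.mem_normalizer_iff.1 hx z).1 hz))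
        fun z hz => hCL ((conj_mem_centralizer_iff hx z).2 hz))
      exact hle hg
    obtain ⟨x, hx, hcj⟩ := exists_conj_of_induced hM hPp hCL hLN hPL (fun x hx g =>
      ⟨fun hg => by simpa using hinv x⁻¹ (inv_mem hx) g hg, fun hg => by
        have := hinv x hx _ hg
        rwa [show x * (x⁻¹ * g * x) * x⁻¹ = g by group] at this⟩) hP hb hb'
    refine ⟨x⁻¹, inv_mem hx, fun θ hθ => ?_⟩
    let φ : L ≃* L :=
      { toFun := fun c => ⟨x * (c : G) * x⁻¹, hinv x hx _ c.2⟩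
        invFun := fun c => ⟨x⁻¹ * (c : G) * x⁻¹⁻¹, hinv x⁻¹ (inv_mem hx) _ c.2⟩
        left_inv := fun c => Subtype.ext (show x⁻¹ * (x * (c : G) * x⁻¹) * x⁻¹⁻¹ = c by group)
        right_inv := fun c => Subtype.ext (show x * (x⁻¹ * (c : G) * x⁻¹⁻¹) * x⁻¹ = c by group)
        map_mul' := fun a b => Subtype.ext (show x * ((a : G) * b) * x⁻¹ =
          x * (a : G) * x⁻¹ * (x * (b : G) * x⁻¹) by group) }
    refine ⟨irrMap φ θ, hcj ▸ ⟨θ, hθ, fun c c' hc => ?_⟩, fun y hy => ?_⟩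
    · rw [show c' = φ c from Subtype.ext hc, irrMap_apply]
    · have e : φ ⟨x⁻¹ * (y : G) * x⁻¹⁻¹, hy⟩ = y := Subtype.ext
        (show x * (x⁻¹ * (y : G) * x⁻¹⁻¹) * x⁻¹ = y by group)
      conv_lhs => rw [← e, irrMap_apply]

end Cfsg.Agent.S0973
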