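import Cfsg.Statements.S0985
import Mathlib
import Cfsg.Agent.Lib.PermSylow

set_option autoImplicit false
open Cfsg

namespace Cfsg.Agent.S0985

/-- If the number of Sylow p-subgroups of a finite group is not congruent to 1 modulo p^k, then there are two distinct Sylow p-subgroups P and R such that the index of P ∩ R in P is at most p^(k-1). -/
theorem result {G : Type*} [Group G] [Finite G] (p k : ℕ) [Fact p.Prime] (h : ¬ Nat.card (Sylow p G) ≡ 1 [MOD p ^ k]) : ∃ P R : Sylow p G, P ≠ R ∧ ((R : Subgroup G).subgroupOf (P : Subgroup G)).index ≤ p ^ (k - 1) := by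
  classical
  by_contra hcon
  push_neg at hcon
  haveI := Fintype.ofFinite (Sylow p G)
  obtain ⟨P⟩ : Nonempty (Sylow p G) := inferInstance
  refine h (Nat.ModEq.symm ((Nat.modEq_iff_dvd' Nat.card_pos).mpr ?_))
  haveI := Fintype.ofFinite (MulAction.orbitRel.Quotient (P : Subgroup G) (Sylow p G))
  set q0 : MulAction.orbitRel.Quotient (P : Subgroup G) (Sylow p G) := Quotient.mk'' P
  have horb : ∀ R : Sylow p G, R ≠ P → p ^ k ∣ Nat.card (MulAction.orbit (P : Subgroup G) R) := by
    intro R hR
    have he : MulAction.stabilizer (P : Subgroup G) R = (R : Subgroup G).subgroupOf (P : Subgroup G) := by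
      ext x
      rw [MulAction.mem_stabilizer_iff, Subgroup.mem_subgroupOf]
      change (x : G) • R = R ↔ _
      rw [Sylow.smul_eq_iff_mem_normalizer]
      constructor
      · intro hx
        exact ((P.isPGroup'.inf_normalizer_sylow R).le ⟨x.2, hx⟩).2
      · intro hx
        exact Subgroup.le_normalizer hx
    rw [← Nat.card_congr (MulAction.orbitEquivQuotientStabilizer (P : Subgroup G) R).symm, he]
    change p ^ k ∣ ((R : Subgroup G).subgroupOf (P : Subgroup G)).index
    obtain ⟨j, hj⟩ := P.isPGroup'.index ((R : Subgroup G).subgroupOf (P : Subgroup G))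
    rw [hj]
    have := hcon P R hR.symm
    rw [hj] at this
    refine pow_dvd_pow p ?_
    by_contra hlt
    have := Nat.pow_le_pow_right (Fact.out : p.Prime).pos (show j ≤ k - 1 by omega)
    omega
  rw [Nat.card_congr (MulAction.selfEquivSigmaOrbits (P : Subgroup G) (Sylow p G)), Nat.card_sigma,
    ← Finset.add_sum_erase _ _ (Finset.mem_univ q0)]
  have h0 : Nat.card (MulAction.orbit (P : Subgroup G) q0.out) = 1 := by
    have hfix : ∀ x : (P : Subgroup G), x • P = P := fun x => by
      change (x : G) • P = P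
      exact Sylow.smul_eq_iff_mem_normalizer.mpr (Subgroup.le_normalizer x.2)
    have hout : q0.out = P := by
      obtain ⟨x, hx⟩ : q0.out ∈ MulAction.orbit (P : Subgroup G) P :=
        MulAction.orbitRel_apply.mp (Quotient.mk_out' P)
      change x • P = q0.out at hx
      rw [← hx, hfix]
    rw [hout, Nat.card_eq_one_iff_unique]
    refine ⟨⟨?_⟩, ⟨⟨P, MulAction.mem_orbit_self P⟩⟩⟩
    rintro ⟨_, a, rfl⟩ ⟨_, b, rfl⟩
    exact Subtype.ext (show a • P = b • P by rw [hfix, hfix])
  rw [h0, Nat.add_sub_cancel_left]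
  refine Finset.dvd_sum fun q hq => horb _ fun h => ?_
  apply Finset.ne_of_mem_erase hq
  rw [← Quotient.out_eq' q, h]

end Cfsg.Agent.S0985
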