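import Cfsg.Statements.S0986
import Mathlib

set_option autoImplicit false
open Cfsg

namespace Cfsg.Agent.S0986

/-- Let P and Q be distinct Sylow p-subgroups of a finite group G chosen so that the order of P ∩ Q is as large as possible among intersections of two distinct Sylow p-subgroups, and let N be the normalizer of P ∩ Q. Then N has more than one Sylow p-subgroup, any two distinct Sylow p-subgroups of N intersect exactly in P ∩ Q, and each Sylow p-subgroup of N lies in exactly one Sylow p-subgroup of G. -/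
theorem result {G : Type*} [Group G] [Finite G] (p : ℕ) [Fact p.Prime] (P Q : Sylow p G) (hPQ : P ≠ Q) (hmax : ∀ P' Q' : Sylow p G, P' ≠ Q' → Nat.card ↥((P' : Subgroup G) ⊓ (Q' : Subgroup G)) ≤ Nat.card ↥((P : Subgroup G) ⊓ (Q : Subgroup G))) : 1 < Nat.card (Sylow p ↥(Subgroup.normalizer (((P : Subgroup G) ⊓ (Q : Subgroup G) : Subgroup G) : Set G))) ∧ (∀ S T : Sylow p ↥(Subgroup.normalizer (((P : Subgroup G) ⊓ (Q : Subgroup G) : Subgroup G) : Set G)), S ≠ T → (S : Subgroup _) ⊓ (T : Subgroup _) = ((P : Subgroup G) ⊓ (Q : Subgroup G)).subgroupOf (Subgroup.normalizer (((P : Subgroup G) ⊓ (Q : Subgroup G) : Subgroup G) : Set G))) ∧ ∀ S : Sylow p ↥(Subgroup.normalizer (((P : Subgroup G) ⊓ (Q : Subgroup G) : Subgroup G) : Set G)), ∃! T : Sylow p G, (S : Subgroup _).map (Subgroup.normalizer (((P : Subgroup G) ⊓ (Q : Subgroup G) : Subgroup G) : Set G)).subtype ≤ (T : Subgroup G) := by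
  classical
  set D : Subgroup G := (P : Subgroup G) ⊓ (Q : Subgroup G) with hD
  set N : Subgroup G := Subgroup.normalizer (D : Set G) with hN
  have hgrow : ∀ A B : Sylow p G, A ≠ B → D = (A : Subgroup G) ⊓ (B : Subgroup G) →
      Nat.card D < Nat.card ↥((A : Subgroup G) ⊓ N) := by
    intro A B hAB hDA
    have hlt : D.subgroupOf A < ⊤ := by
      refine lt_top_iff_ne_top.mpr fun h => hAB ?_
      rw [Subgroup.subgroupOf_eq_top, hDA] at h
      exact Sylow.ext (A.3 B.isPGroup' (h.trans inf_le_right)).symm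
    haveI : Group.IsNilpotent (A : Subgroup G) := A.isPGroup'.isNilpotent
    obtain ⟨y, hy1, hy2⟩ := SetLike.exists_of_lt
      ((Group.normalizerCondition_of_isNilpotent (G := (A : Subgroup G))) _ hlt)
    have hyN : (y : G) ∈ N := by
      rw [hN, Subgroup.mem_normalizer_iff]
      intro z
      constructor
      · intro hz
        exact (Subgroup.mem_normalizer_iff.mp hy1 ⟨z, (hDA ▸ hz : z ∈ (A : Subgroup G) ⊓ B).1⟩).mp hz
      · intro hz
        have hzA : z ∈ (A : Subgroup G) := by
          have := mul_mem (mul_mem (inv_mem y.2) (hDA ▸ hz : _ ∈ (A : Subgroup G) ⊓ B).1) y.2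
          simpa [mul_assoc] using this
        exact (Subgroup.mem_normalizer_iff.mp hy1 ⟨z, hzA⟩).mpr hz
    have hsub : D < (A : Subgroup G) ⊓ N := by
      refine lt_of_le_of_ne (le_inf (hDA ▸ inf_le_left) Subgroup.le_normalizer) fun h => hy2 ?_
      exact (h ▸ (⟨y.2, hyN⟩ : (y : G) ∈ (A : Subgroup G) ⊓ N) : (y : G) ∈ D)
    have := Set.ncard_lt_ncard (SetLike.coe_ssubset_coe.mpr hsub)
    rwa [← Nat.card_coe_set_eq, ← Nat.card_coe_set_eq] at this
  have hgP := hgrow P Q hPQ hD
  have hgQ := hgrow Q P hPQ.symm (hD.trans (inf_comm _ _))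
  have hDS : ∀ S : Sylow p N, D.subgroupOf N ≤ (S : Subgroup N) := by
    intro S
    haveI : (D.subgroupOf N).Normal := Subgroup.normal_subgroupOf_of_le_normalizer le_rfl
    exact IsPGroup.le_sylow_of_normal (N := D.subgroupOf N) ((P.isPGroup'.to_le inf_le_left).comap_subtype (K := N)) S
  have hbig : ∀ S : Sylow p N, Nat.card D < Nat.card ↥((S : Subgroup N).map N.subtype) := by
    intro S
    obtain ⟨S', hS'⟩ := (P.isPGroup'.comap_subtype (K := N)).exists_le_sylow
    have hc : Nat.card (S : Subgroup N) = Nat.card (S' : Subgroup N) := by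
      rw [S.card_eq_multiplicity, S'.card_eq_multiplicity]
    rw [Subgroup.card_map_of_injective N.subtype_injective, hc]
    refine hgP.trans_le ?_
    refine Nat.card_le_card_of_injective (fun x => (⟨⟨x.1, x.2.2⟩, hS' x.2.1⟩ : (S' : Subgroup N))) ?_
    intro a b h
    exact Subtype.ext (congrArg (fun z => ((z.1 : N) : G)) h)
  have hu : ∀ (S : Sylow p N) (A B : Sylow p G), (S : Subgroup N).map N.subtype ≤ (A : Subgroup G) →
      (S : Subgroup N).map N.subtype ≤ (B : Subgroup G) → A = B := by
    intro S A B hA hB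
    by_contra hne
    have := (hbig S).trans_le (Subgroup.card_le_of_le (le_inf hA hB))
    exact absurd (hmax A B hne) (not_le.mpr this)
  refine ⟨?_, fun S T hST => ?_, fun S => ?_⟩
  · by_contra h
    haveI : Subsingleton (Sylow p N) := Finite.card_le_one_iff_subsingleton.mp (not_lt.mp h)
    obtain ⟨S⟩ : Nonempty (Sylow p N) := inferInstance
    obtain ⟨A, hA⟩ := (S.isPGroup'.map N.subtype).exists_le_sylow
    have hle : ∀ B : Sylow p G, (B : Subgroup G) ⊓ N ≤ (A : Subgroup G) := by
      intro B x hx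
      obtain ⟨S', hS'⟩ := (B.isPGroup'.comap_subtype (K := N)).exists_le_sylow
      rw [Subsingleton.elim S' S] at hS'
      exact hA ⟨⟨x, hx.2⟩, hS' hx.1, rfl⟩
    have key : ∀ B : Sylow p G, Nat.card D < Nat.card ↥((B : Subgroup G) ⊓ N) → B = A := by
      intro B hB
      by_contra hne
      have := hB.trans_le (Subgroup.card_le_of_le (le_inf inf_le_left (hle B)))
      exact absurd (hmax B A hne) (not_le.mpr this)
    exact hPQ ((key P hgP).trans (key Q hgQ).symm)
  · obtain ⟨A, hA⟩ := (S.isPGroup'.map N.subtype).exists_le_sylow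
    obtain ⟨B, hB⟩ := (T.isPGroup'.map N.subtype).exists_le_sylow
    have hAB : A ≠ B := by
      rintro rfl
      apply hST
      have hp' : IsPGroup p ((A : Subgroup G).subgroupOf N) := A.isPGroup'.comap_subtype
      exact Sylow.ext ((S.3 hp' (fun x hx => hA ⟨x, hx, rfl⟩)).symm.trans (T.3 hp' (fun x hx => hB ⟨x, hx, rfl⟩)))
    refine (Subgroup.eq_of_le_of_card_ge (le_inf (hDS S) (hDS T)) ?_).symm
    rw [Nat.card_congr (Subgroup.subgroupOfEquivOfLe (show D ≤ N from Subgroup.le_normalizer)).toEquiv,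
      ← Subgroup.card_map_of_injective N.subtype_injective]
    refine (Subgroup.card_le_of_le ((Subgroup.map_inf_le _ _ _).trans (inf_le_inf hA hB))).trans (hmax A B hAB)
  · obtain ⟨A, hA⟩ := (S.isPGroup'.map N.subtype).exists_le_sylow
    exact ⟨A, hA, fun B hB => hu S B A hB hA⟩

end Cfsg.Agent.S0986
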