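import Cfsg.Statements.S0987
import Mathlib

set_option autoImplicit false
open Cfsg

namespace Cfsg.Agent.S0987

/-- If a finite group has order pqr for primes p < q < r, then its Sylow r-subgroups are normal. -/
theorem result {G : Type*} [Group G] [Finite G] (p q r : ℕ) (hp : p.Prime) (hq : q.Prime) [Fact r.Prime] (hpq : p < q) (hqr : q < r) (hG : Nat.card G = p * q * r) (R : Sylow r G) : (R : Subgroup G).Normal := by
  classical
  haveI : Fact p.Prime := ⟨hp⟩
  obtain ⟨P⟩ : Nonempty (Sylow p G) := inferInstance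
  have hr : r.Prime := Fact.out
  have hcq : Nat.Coprime p q := (Nat.coprime_primes hp hq).mpr hpq.ne
  have hcr : Nat.Coprime p r := (Nat.coprime_primes hp hr).mpr (hpq.trans hqr).ne
  have hPc : Nat.card P = p := by
    rw [P.card_eq_multiplicity, hG, mul_assoc, Nat.factorization_mul hp.ne_zero (mul_ne_zero hq.ne_zero hr.ne_zero),
      Finsupp.add_apply, hp.factorization_self, Nat.factorization_eq_zero_of_not_dvd
        (hp.coprime_iff_not_dvd.mp (Nat.Coprime.mul_right hcq hcr)), pow_one]
  have hmin : (Nat.card G).minFac = p := by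
    refine le_antisymm (Nat.minFac_le_of_dvd hp.two_le (hG ▸ dvd_mul_of_dvd_left (dvd_mul_right p q) r)) ?_
    have hne : Nat.card G ≠ 1 := by
      rw [hG, mul_assoc]
      intro h
      exact hp.ne_one (Nat.eq_one_of_mul_eq_one_right h)
    have hm := Nat.minFac_prime hne
    have hd := Nat.minFac_dvd (Nat.card G)
    nth_rw 2 [hG] at hd
    rcases hm.dvd_mul.mp hd with h | h
    · rcases hm.dvd_mul.mp h with h | h
      · exact ((Nat.prime_dvd_prime_iff_eq hm hp).mp h).ge
      · rw [(Nat.prime_dvd_prime_iff_eq hm hq).mp h]; exact hpq.le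
    · rw [(Nat.prime_dvd_prime_iff_eq hm hr).mp h]; exact (hpq.trans hqr).le
  have hcyc : IsCyclic (P : Subgroup G) := isCyclic_of_prime_card hPc
  obtain ⟨N, hN, hcomp⟩ : ∃ N : Subgroup G, N.Normal ∧ Subgroup.IsComplement' N (P : Subgroup G) :=
    ⟨_, MonoidHom.normal_ker _, hcyc.isComplement' hmin⟩
  have hNc : Nat.card N = q * r := by
    have h := hcomp.card_mul
    rw [hG, mul_comm (Nat.card N)] at h
    exact Nat.eq_of_mul_eq_mul_left hp.pos ((show p * Nat.card N = _ by rw [← h, hPc]).trans (mul_assoc p q r))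
  have hall : ∀ S : Sylow r G, (S : Subgroup G) ≤ N := by
    intro S x hx
    have h1 : orderOf (QuotientGroup.mk' N x) ∣ p := by
      have := orderOf_dvd_natCard (QuotientGroup.mk' N x)
      have hi := N.index_mul_card
      rw [hNc, hG, mul_assoc] at hi
      rwa [show Nat.card (G ⧸ N) = p from Nat.eq_of_mul_eq_mul_right (Nat.mul_pos hq.pos hr.pos) hi] at this
    obtain ⟨j, hj⟩ := IsPGroup.iff_orderOf.mp S.isPGroup' ⟨x, hx⟩
    rw [Subgroup.orderOf_mk] at hj
    have h2 : orderOf (QuotientGroup.mk' N x) ∣ r ^ j := hj ▸ orderOf_map_dvd _ x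
    have h3 := Nat.eq_one_of_dvd_coprimes (hcr.pow_right j) h1 h2
    exact (QuotientGroup.eq_one_iff x).mp (orderOf_eq_one_iff.mp h3)
  have hone : Nat.card (Sylow r N) = 1 := by
    have h1 := card_sylow_modEq_one r N
    have h2 := (R.subtype (hall R)).card_dvd_index
    have hd : ((R.subtype (hall R) : Sylow r N) : Subgroup N).index ∣ q := by
      have h3 := ((R.subtype (hall R) : Sylow r N) : Subgroup N).index_mul_card
      obtain ⟨j, hj⟩ := (R.subtype (hall R)).isPGroup'.exists_card_eq
      rw [hNc, hj] at h3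
      rcases j with _ | j
      · exfalso
        apply (R.subtype (hall R)).not_dvd_index
        rw [pow_zero, mul_one] at h3
        rw [h3]; exact dvd_mul_left r q
      · refine ⟨r ^ j, Nat.eq_of_mul_eq_mul_right hr.pos ?_⟩
        rw [← h3, pow_succ, mul_assoc]
    rcases (Nat.dvd_prime hq).mp (h2.trans hd) with h | h
    · exact h
    · exfalso
      rw [h, Nat.ModEq, Nat.mod_eq_of_lt hqr, Nat.mod_eq_of_lt hr.one_lt] at h1
      exact hq.ne_one h1
  haveI : Subsingleton (Sylow r N) := (Nat.card_eq_one_iff_unique.mp hone).1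
  haveI : Subsingleton (Sylow r G) := ⟨fun S T => Sylow.subtype_injective
    (Subsingleton.elim (S.subtype (hall S)) (T.subtype (hall T)))⟩
  exact Sylow.normal_of_subsingleton R

end Cfsg.Agent.S0987
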