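import Cfsg.Statements.S0988
import Cfsg.Agent.Lib.SmallSimple
import Cfsg.Agent.Lib.SmallSimple168
import Cfsg.Agent.S0144
import Cfsg.Agent.S0992

set_option autoImplicit false
open Cfsg

namespace Cfsg.Agent.S0988

/-- If a finite simple group has order p^2 * q * r with p, q and r prime, then its order is 60. -/
theorem factor_mem {s p q r : ℕ} (hs : s.Prime) (hp : p.Prime) (hq : q.Prime) (hr : r.Prime)
    (h : s ∣ p ^ 2 * q * r) : s = p ∨ s = q ∨ s = r := by
  rcases hs.dvd_mul.mp h with h | h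
  · rcases hs.dvd_mul.mp h with h | h
    · exact Or.inl ((Nat.prime_dvd_prime_iff_eq hs hp).mp (hs.dvd_of_dvd_pow h))
    · exact Or.inr (Or.inl ((Nat.prime_dvd_prime_iff_eq hs hq).mp h))
  · exact Or.inr (Or.inr ((Nat.prime_dvd_prime_iff_eq hs hr).mp h))

theorem not_two_primes {G : Type*} [Group G] [Finite G] [IsSimpleGroup G] (hG : ¬ IsMulCommutative G)
    (p q a b : ℕ) (hp : p.Prime) (hq : q.Prime) (h : Nat.card G = p ^ a * q ^ b) : False := by
  haveI := Cfsg.Agent.S0144.result (G := G) p q a b hp hq h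
  exact hG ⟨⟨fun x y => (IsSimpleGroup.comm_iff_isSolvable (G := G)).mpr inferInstance x y⟩⟩

/-- The smallest prime with exponent two is `2`. -/
theorem minFac_eq_two {G : Type*} [Group G] [Finite G] [IsSimpleGroup G] (hG : ¬ IsMulCommutative G)
    (p q r : ℕ) (hp : p.Prime) (hq : q.Prime) (hr : r.Prime) (hpq : p ≠ q) (hpr : p ≠ r) (hqr : q ≠ r)
    (h : Nat.card G = p ^ 2 * q * r) : p = 2 := by
  classical
  set s := (Nat.card G).minFac with hs
  have hn1 : Nat.card G ≠ 1 := fun e => by
    haveI := (Nat.card_eq_one_iff_unique.mp e).1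
    exact not_nontrivial G inferInstance
  have hsp : s.Prime := Nat.minFac_prime hn1
  haveI : Fact s.Prime := ⟨hsp⟩
  obtain ⟨S⟩ : Nonempty (Sylow s G) := inferInstance
  have hSc : ¬ IsCyclic (S : Subgroup G) := by
    intro hc
    refine CfsgLib.SmallSimple.O168.burnside_false ?_ S ?_ (IsCyclic.normalizer_le_centralizer hs.symm hc)
    · intro e
      exact not_two_primes hG s 2 ((Nat.card G).factorization s) 0 hsp Nat.prime_two (by rw [pow_zero, mul_one]; exact e)
    · intro e
      have := S.card_eq_multiplicity.symm.trans e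
      rw [Nat.pow_eq_one] at this
      rcases this with h1 | h1
      · exact hsp.ne_one h1
      · exact (hsp.factorization_pos_of_dvd Nat.card_pos.ne' (Nat.minFac_dvd _)).ne' h1
  have hsp' : s = p := by
    by_contra hne
    have hd : ¬ s ∣ p ^ 2 := fun hd => hne ((Nat.prime_dvd_prime_iff_eq hsp hp).mp (hsp.dvd_of_dvd_pow hd))
    rcases factor_mem hsp hp hq hr (h ▸ Nat.minFac_dvd _) with e | e | e
    · exact hne e
    · haveI : Fact q.Prime := ⟨hq⟩
      apply hSc
      refine isCyclic_of_prime_card (p := s) ?_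
      rw [CfsgLib.Perm.sylow_card S (k := 1) (m := p ^ 2 * r) (by rw [h, e]; ring) ?_, pow_one]
      intro hd2
      rcases hsp.dvd_mul.mp hd2 with h1 | h1
      · exact hd h1
      · exact hqr (e ▸ (Nat.prime_dvd_prime_iff_eq hsp hr).mp h1)
    · apply hSc
      refine isCyclic_of_prime_card (p := s) ?_
      rw [CfsgLib.Perm.sylow_card S (k := 1) (m := p ^ 2 * q) (by rw [h, e]; ring) ?_, pow_one]
      intro hd2
      rcases hsp.dvd_mul.mp hd2 with h1 | h1
      · exact hd h1
      · exact hqr (e ▸ (Nat.prime_dvd_prime_iff_eq hsp hq).mp h1).symm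
  haveI : Fact p.Prime := ⟨hp⟩
  obtain ⟨P⟩ : Nonempty (Sylow p G) := inferInstance
  have hP : Nat.card P = p ^ 2 := CfsgLib.Perm.sylow_card P (m := q * r) (by rw [h, mul_assoc]) (fun hd => by
    rcases hp.dvd_mul.mp hd with h1 | h1
    · exact hpq ((Nat.prime_dvd_prime_iff_eq hp hq).mp h1)
    · exact hpr ((Nat.prime_dvd_prime_iff_eq hp hr).mp h1))
  haveI hPcomm : IsMulCommutative (P : Subgroup G) := IsPGroup.isMulCommutative_of_card_eq_prime_sq hP
  set N := Subgroup.normalizer ((P : Subgroup G) : Set G)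
  set f := (P : Subgroup G).normalizerMonoidHom with hf
  have hnle : ¬ N ≤ Subgroup.centralizer ((P : Subgroup G) : Set G) := fun hle =>
    CfsgLib.SmallSimple.O168.burnside_false
      (fun e => not_two_primes hG p 2 ((Nat.card G).factorization p) 0 hp Nat.prime_two (by rw [pow_zero, mul_one]; exact e))
      P (by rw [hP]; exact (Nat.one_lt_pow two_ne_zero hp.one_lt).ne') hle
  have hcardne : Nat.card f.range ≠ 1 := by
    rw [← Subgroup.index_ker, Subgroup.normalizerMonoidHom_ker]
    exact fun e => hnle (Subgroup.relIndex_eq_one.mp e)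
  obtain ⟨t, ht, htd⟩ := Nat.exists_prime_and_dvd hcardne
  haveI : Fact t.Prime := ⟨ht⟩
  have hrange : Nat.card f.range ∣ (P : Subgroup G).index := by
    rw [← Subgroup.index_ker, Subgroup.normalizerMonoidHom_ker]
    exact (Subgroup.relIndex_dvd_of_le_left _ (P : Subgroup G).le_centralizer).trans
      (Subgroup.relIndex_dvd_index_of_le Subgroup.le_normalizer)
  have htp : t ≠ p := by
    intro e
    have := htd.trans hrange
    rw [e] at this
    exact P.not_dvd_index this
  have htgt : s < t := lt_of_le_of_ne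
    (Nat.minFac_le_of_dvd ht.two_le ((htd.trans hrange).trans (Subgroup.index_dvd_card _))) (hsp' ▸ htp.symm)
  obtain ⟨σ, hσ⟩ := exists_prime_orderOf_dvd_card' (G := f.range) t htd
  set K := Subgroup.zpowers (σ : MulAut (P : Subgroup G)) with hK
  have hKp : IsPGroup t K := IsPGroup.of_card (n := 1) (by
    rw [hK, Nat.card_zpowers, Subgroup.orderOf_coe, hσ, pow_one])
  have hmod := hKp.card_modEq_card_fixedPoints (P : Subgroup G)
  let F : Subgroup (P : Subgroup G) :=
    { carrier := MulAction.fixedPoints K (P : Subgroup G)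
      mul_mem' := fun {a b} ha hb k => by rw [smul_mul', ha k, hb k]
      one_mem' := fun k => smul_one k
      inv_mem' := fun {a} ha k => by rw [smul_inv', ha k] }
  have hFc : Nat.card F = Nat.card (MulAction.fixedPoints K (P : Subgroup G)) := rfl
  rw [← hFc, hP] at hmod
  obtain ⟨i, hi, hFi⟩ := (Nat.dvd_prime_pow hp).mp (hP ▸ Subgroup.card_subgroup_dvd_card F)
  have hi2 : i ≠ 2 := by
    intro e
    have hFt : F = ⊤ := Subgroup.eq_top_of_card_eq F (by rw [hFi, e, hP])
    have : (σ : MulAut (P : Subgroup G)) = 1 := by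
      ext x
      exact congrArg Subtype.val ((hFt ▸ Subgroup.mem_top x : x ∈ F) ⟨_, Subgroup.mem_zpowers _⟩)
    have h1 := hσ
    rw [← Subgroup.orderOf_coe, this, orderOf_one] at h1
    exact ht.ne_one h1.symm
  have hle : p ^ i ≤ p ^ 2 := Nat.pow_le_pow_right hp.pos hi
  have hd := (Nat.modEq_iff_dvd' (hFi ▸ hle)).mp hmod.symm
  rw [hFi] at hd
  obtain ⟨u, hu⟩ : ∃ u, p = u + 1 := ⟨p - 1, by have := hp.pos; omega⟩
  have h2 := hp.two_le
  have ht1 : ¬ t ∣ u := fun hd => absurd (Nat.le_of_dvd (by omega) hd) (by omega)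
  have htu : t ∣ u + 2 ∨ t ∣ u := by
    rcases (show i = 0 ∨ i = 1 by omega) with rfl | rfl
    · rw [hu, show (u + 1) ^ 2 - (u + 1) ^ 0 = u * (u + 2) by rw [pow_zero, Nat.sub_eq_iff_eq_add (Nat.one_le_pow _ _ (by omega))]; ring] at hd
      exact (ht.dvd_mul.mp hd).symm
    · rw [hu, show (u + 1) ^ 2 - (u + 1) ^ 1 = (u + 1) * u by rw [pow_one, Nat.sub_eq_iff_eq_add (by nlinarith)]; ring] at hd
      rcases ht.dvd_mul.mp hd with h1 | h1
      · exact absurd ((Nat.prime_dvd_prime_iff_eq ht hp).mp (hu ▸ h1)) htp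
      · exact Or.inr h1
  have hle2 := Nat.le_of_dvd (by omega) (htu.resolve_right ht1)
  have hteq : t = p + 1 := by omega
  rcases hp.eq_two_or_odd' with e | ho
  · exact e
  · exfalso
    have he : Even t := hteq ▸ ho.add_one
    have := (Nat.prime_dvd_prime_iff_eq Nat.prime_two ht).mp he.two_dvd
    omega

theorem result {G : Type*} [Group G] [Finite G] [IsSimpleGroup G] (p q r : ℕ) (hp : p.Prime) (hq : q.Prime) (hr : r.Prime) (hG : Nat.card G = p ^ 2 * q * r) : Nat.card G = 60 := by
  classical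
  have hn4 : ¬ (Nat.card G).Prime := by
    rw [hG, mul_assoc, sq, mul_assoc]
    refine Nat.not_prime_mul hp.ne_one ?_
    nlinarith [hp.two_le, Nat.mul_pos hq.pos hr.pos]
  have hnc : ¬ IsMulCommutative G := CfsgLib.SmallSimple.noncomm hn4
  have hpq : p ≠ q := fun e => not_two_primes hnc p r 3 1 hp hr (by rw [hG, ← e]; ring)
  have hpr : p ≠ r := fun e => not_two_primes hnc p q 3 1 hp hq (by rw [hG, ← e]; ring)
  have hqr : q ≠ r := fun e => not_two_primes hnc p q 2 2 hp hq (by rw [hG, ← e]; ring)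
  have hp2 := minFac_eq_two hnc p q r hp hq hr hpq hpr hqr hG
  subst hp2
  haveI : Fact (Nat.Prime 2) := ⟨Nat.prime_two⟩
  obtain ⟨T⟩ : Nonempty (Sylow 2 G) := inferInstance
  have h8 : ¬ 8 ∣ Nat.card G := by
    rintro ⟨c, hc⟩
    rw [hG] at hc
    rcases (Nat.prime_two.dvd_mul.mp (show 2 ∣ q * r from ⟨c, by rw [mul_assoc] at hc; omega⟩)) with h | h
    · exact hpq ((Nat.prime_dvd_prime_iff_eq Nat.prime_two hq).mp h)
    · exact hpr ((Nat.prime_dvd_prime_iff_eq Nat.prime_two hr).mp h)
  obtain ⟨-, h3⟩ := Cfsg.Agent.S0992.result hnc ⟨2 * q * r, by rw [hG]; ring⟩ h8 T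
  have h3d : 3 ∣ Nat.card G := h3 ▸ (Subgroup.relIndex_dvd_card _ _).trans (Subgroup.card_subgroup_dvd_card _)
  wlog hq3 : q = 3 generalizing q r
  · rcases factor_mem Nat.prime_three hp hq hr (hG ▸ h3d) with e | e | e
    · omega
    · exact absurd e.symm hq3
    · exact this r q hr hq hqr.symm (by rw [hG]; ring) hpr hpq e.symm
  subst hq3
  haveI : Fact r.Prime := ⟨hr⟩
  have hr5 : 5 ≤ r := by
    have := hr.two_le
    by_contra
    have h4 : r = 4 := by omega
    exact absurd (h4 ▸ hr) (by norm_num)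
  have hG12 : Nat.card G = r ^ 1 * 12 := by rw [hG]; ring
  obtain ⟨h1, h2, h4⟩ := CfsgLib.SmallSimple.sylow_number (G := G) (p := r) hG12
    (fun hd => by
      rcases factor_mem hr Nat.prime_two Nat.prime_three Nat.prime_three
        (hd.trans (by norm_num : 12 ∣ 2 ^ 2 * 3 * 3)) with e | e | e <;> omega)
    (by norm_num) one_ne_zero
  rw [show Nat.divisors 12 = {1, 2, 3, 4, 6, 12} by decide] at h1
  simp only [Finset.mem_insert, Finset.mem_singleton] at h1
  rcases h1 with e | e | e | e | e | e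
  · exact absurd e h4
  all_goals rw [e] at h2
  iterate 3 (rw [Nat.mod_eq_of_lt (by omega)] at h2; omega)
  · -- six Sylow subgroups
    rcases lt_or_ge 6 r with h6 | h6
    · rw [Nat.mod_eq_of_lt h6] at h2; omega
    · rcases (show r = 5 ∨ r = 6 by omega) with rfl | rfl
      · rw [hG]; norm_num
      · exact absurd hr (by norm_num)
  · -- twelve Sylow subgroups
    exfalso
    have hr11 : r = 11 := by
      rcases lt_or_ge 12 r with h12 | h12
      · rw [Nat.mod_eq_of_lt h12] at h2; omega
      · interval_cases r <;> first | omega | exact absurd hr (by norm_num)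
    subst hr11
    obtain ⟨P⟩ : Nonempty (Sylow 11 G) := inferInstance
    have hP : Nat.card P = 11 := by
      rw [CfsgLib.Perm.sylow_card P (k := 1) (m := 12) hG12 (by norm_num), pow_one]
    have hN : Nat.card (Subgroup.normalizer ((P : Subgroup G) : Set G)) = 11 := by
      have hm := (Subgroup.normalizer ((P : Subgroup G) : Set G)).card_mul_index
      rw [CfsgLib.SmallSimple.index_normalizer P, e, hG] at hm
      omega
    haveI : IsCyclic (P : Subgroup G) := isCyclic_of_prime_card hP
    refine CfsgLib.SmallSimple.O168.burnside_false ?_ P (by rw [hP]; norm_num) ?_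
    · intro e'
      exact not_two_primes hnc 11 2 _ 0 (by norm_num) Nat.prime_two (e'.trans (mul_one _).symm)
    · have hPN : (P : Subgroup G) = Subgroup.normalizer ((P : Subgroup G) : Set G) :=
        Subgroup.eq_of_le_of_card_ge Subgroup.le_normalizer (by rw [hN, hP])
      rw [← hPN]
      exact (P : Subgroup G).le_centralizer

end Cfsg.Agent.S0988
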