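import Cfsg.Statements.S0989
import Mathlib
import Cfsg.Agent.Lib.PermSylow

set_option autoImplicit false
open Cfsg

namespace Cfsg.Agent.S0989

/-- In the symmetric group on p or p + 1 letters, p a prime, the normalizer of a Sylow p-subgroup has order p * (p - 1). -/
theorem result {α : Type*} [Fintype α] [DecidableEq α] (p : ℕ) [Fact p.Prime] (hα : Fintype.card α = p ∨ Fintype.card α = p + 1) (P : Sylow p (Equiv.Perm α)) : Nat.card ↥(Subgroup.normalizer ((P : Subgroup (Equiv.Perm α)) : Set (Equiv.Perm α))) = p * (p - 1) := by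
  classical
  have hp : p.Prime := Fact.out
  obtain ⟨m, hm, hm1⟩ : ∃ m, Fintype.card α = p + m ∧ m ≤ 1 := by
    rcases hα with h | h
    · exact ⟨0, h, by omega⟩
    · exact ⟨1, h, le_rfl⟩
  have hPc : Nat.card P = p := by
    have hp2 := hp.two_le
    have hnd : ∀ k, k < p → ¬ p ∣ Nat.factorial k := fun k hk h => absurd ((hp.dvd_factorial).mp h) (by omega)
    have hkey : Nat.card (Equiv.Perm α) = p ^ 1 * ((p - 1).factorial * (if m = 0 then 1 else p + 1)) := by
      rw [Nat.card_perm, Nat.card_eq_fintype_card, hm, pow_one]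
      have h1 := Nat.mul_factorial_pred hp.ne_zero
      rcases (show m = 0 ∨ m = 1 by omega) with rfl | rfl
      · simp [h1]
      · rw [Nat.factorial_succ, ← h1]; simp; ring
    rw [CfsgLib.Perm.sylow_card P hkey (fun h => ?_), pow_one]
    rcases hp.dvd_mul.mp h with h | h
    · exact hnd _ (by omega) h
    · split_ifs at h
      · exact hp.not_dvd_one h
      · have := (Nat.dvd_add_right (dvd_refl p)).mp h
        exact hp.not_dvd_one this
  have hN := CfsgLib.Perm.card_sylow_mul_card_normalizer P
  have hcount := CfsgLib.Perm.card_orderOf_prime hPc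
  have hset : Nat.card {σ : Equiv.Perm α // orderOf σ = p} =
      (Finset.univ.filter fun σ : Equiv.Perm α => σ.cycleType = {p}).card := by
    rw [Nat.card_eq_fintype_card, Fintype.card_subtype]
    congr 1
    ext σ
    simp only [Finset.mem_filter, Finset.mem_univ, true_and]
    constructor
    · intro h
      obtain ⟨n, hn⟩ := Equiv.Perm.cycleType_prime_order (h ▸ hp)
      rw [h] at hn
      have hle := σ.support.card_le_univ
      rw [← Equiv.Perm.sum_cycleType, hn, Multiset.sum_replicate, smul_eq_mul, hm] at hle
      rcases Nat.eq_zero_or_pos n with rfl | hn0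
      · rw [hn]; rfl
      · exfalso
        have h2 : 2 * p ≤ (n + 1) * p := Nat.mul_le_mul_right p (by omega)
        have := hp.two_le
        omega
    · intro h
      rw [← Equiv.Perm.lcm_cycleType, h, Multiset.lcm_singleton, normalize_eq]
  have hc := Equiv.Perm.card_of_cycleType_mul_eq α {p}
  rw [← hset, hcount] at hc
  have hcond : ({p} : Multiset ℕ).sum ≤ Fintype.card α ∧ ∀ a ∈ ({p} : Multiset ℕ), 2 ≤ a := by
    refine ⟨by simp [hm], fun a ha => ?_⟩
    rw [Multiset.mem_singleton.mp ha]; exact hp.two_le
  rw [if_pos hcond] at hc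
  rw [Nat.card_perm, Nat.card_eq_fintype_card (α := α)] at hN
  simp only [Multiset.sum_singleton, Multiset.prod_singleton, Multiset.toFinset_singleton,
    Finset.prod_singleton, Multiset.count_singleton_self, Nat.factorial_one, mul_one] at hc
  rw [show Fintype.card α - p = m by omega, show m.factorial = 1 from Nat.factorial_eq_one.mpr hm1, one_mul, ← hN] at hc
  refine Nat.eq_of_mul_eq_mul_left (Nat.card_pos (α := Sylow p (Equiv.Perm α))) ?_
  rw [← hc]; ring

end Cfsg.Agent.S0989
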