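import Cfsg.Statements.S0990
import Mathlib

set_option autoImplicit false
open Cfsg

namespace Cfsg.Agent.S0990

/-- Let p be an odd prime and P a Sylow p-subgroup of the symmetric group on a finite set with at least two elements. Then P is contained in the alternating group, and twice the order of the normalizer of P inside the alternating group equals the order of the normalizer of P in the symmetric group. -/
theorem result {α : Type*} [Fintype α] [DecidableEq α] (hα : 2 ≤ Fintype.card α) (p : ℕ) [Fact p.Prime] (hp : p ≠ 2) (P : Sylow p (Equiv.Perm α)) : (P : Subgroup (Equiv.Perm α)) ≤ alternatingGroup α ∧ 2 * Nat.card ↥(Subgroup.normalizer ((((P : Subgroup (Equiv.Perm α)).subgroupOf (alternatingGroup α) : Subgroup ↥(alternatingGroup α)) : Set ↥(alternatingGroup α)))) = Nat.card ↥(Subgroup.normalizer ((P : Subgroup (Equiv.Perm α)) : Set (Equiv.Perm α))) := by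
  classical
  haveI : Nontrivial α := Fintype.one_lt_card_iff_nontrivial.mp hα
  have hp2 : Nat.Coprime 2 p := (Nat.coprime_primes Nat.prime_two Fact.out).mpr (Ne.symm hp)
  have hle : (P : Subgroup (Equiv.Perm α)) ≤ alternatingGroup α := by
    intro x hx
    rw [Equiv.Perm.mem_alternatingGroup]
    obtain ⟨j, hj⟩ := IsPGroup.iff_orderOf.mp P.isPGroup' ⟨x, hx⟩
    rw [Subgroup.orderOf_mk] at hj
    have h1 : orderOf (Equiv.Perm.sign x) ∣ p ^ j := hj ▸ orderOf_map_dvd _ x
    have h2 : orderOf (Equiv.Perm.sign x) ∣ 2 := orderOf_dvd_of_pow_eq_one (Int.units_pow_two _)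
    exact orderOf_eq_one_iff.mp (Nat.eq_one_of_dvd_coprimes (hp2.pow_right j) h2 h1)
  refine ⟨hle, ?_⟩
  set N := Subgroup.normalizer ((P : Subgroup (Equiv.Perm α)) : Set (Equiv.Perm α)) with hN
  have hsub : Subgroup.normalizer ((((P : Subgroup (Equiv.Perm α)).subgroupOf (alternatingGroup α) : Subgroup ↥(alternatingGroup α)) : Set ↥(alternatingGroup α))) = N.subgroupOf (alternatingGroup α) := by
    ext x
    rw [Subgroup.mem_subgroupOf, hN, Subgroup.mem_normalizer_iff, Subgroup.mem_normalizer_iff]
    constructor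
    · intro h z
      constructor
      · intro hz; exact (h ⟨z, hle hz⟩).mp hz
      · intro hz
        have hzA : z ∈ alternatingGroup α := by
          have := mul_mem (mul_mem (inv_mem x.2) (hle hz)) x.2
          simpa [mul_assoc] using this
        exact (h ⟨z, hzA⟩).mpr hz
    · intro h z; exact h z
  rw [hsub]
  have hmap : ∃ g ∈ N, Equiv.Perm.sign g = -1 := by
    by_contra hcon
    push_neg at hcon
    have hNA : N ≤ alternatingGroup α := fun g hg =>
      Equiv.Perm.mem_alternatingGroup.mpr ((Int.units_eq_one_or _).resolve_right (hcon g hg))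
    have h := Sylow.normalizer_sup_eq_top' P hle
    have h2 : alternatingGroup α = ⊤ := top_le_iff.mp (h.symm.le.trans (sup_le hNA le_rfl))
    have h3 := two_mul_card_alternatingGroup (α := α)
    rw [← Nat.card_eq_fintype_card, ← Nat.card_eq_fintype_card, h2, Subgroup.card_top] at h3
    have : 0 < Nat.card (Equiv.Perm α) := Nat.card_pos
    omega
  obtain ⟨g, hg, hgs⟩ := hmap
  set f : N →* ℤˣ := Equiv.Perm.sign.comp N.subtype with hf
  have hrange : f.range = ⊤ := by
    rw [eq_top_iff]
    intro u _
    rcases Int.units_eq_one_or u with rfl | rfl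
    · exact one_mem _
    · exact ⟨⟨g, hg⟩, hgs⟩
  have hidx : f.ker.index = 2 := by
    rw [Subgroup.index_ker, hrange, Subgroup.card_top, Nat.card_eq_fintype_card, Fintype.card_units_int]
  have h := f.ker.index_mul_card
  rw [hidx] at h
  rw [← h]
  congr 1
  exact Nat.card_congr
    { toFun := fun x => ⟨⟨x.1.1, x.2⟩, MonoidHom.mem_ker.mpr x.1.2⟩
      invFun := fun y => ⟨⟨y.1.1, Equiv.Perm.mem_alternatingGroup.mpr (MonoidHom.mem_ker.mp y.2)⟩, y.1.2⟩
      left_inv := fun _ => rfl
      right_inv := fun _ => rfl }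

end Cfsg.Agent.S0990
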