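import Cfsg.Statements.S0995
import Mathlib
import Cfsg.Agent.Lib.InvolBasic
import Cfsg.Agent.Lib.PermSylow

set_option autoImplicit false
open Cfsg

namespace Cfsg.Agent.S0995

/-- Let G be a finite perfect group containing an element z of prime order p whose centralizer is the cyclic group it generates. Let t be the number of conjugacy classes of elements of order p. Then t divides p - 1, the number of Sylow p-subgroups has the form 1 + n * p, and |G| * t = (p - 1) * p * (1 + n * p). -/
theorem result {G : Type*} [Group G] [Finite G] (hperf : commutator G = ⊤) (p : ℕ) [Fact p.Prime] (z : G) (hz : orderOf z = p) (hC : Subgroup.centralizer ({z} : Set G) = Subgroup.zpowers z) : ∃ n t : ℕ, t = Nat.card {c : ConjClasses G // ∃ g : G, ConjClasses.mk g = c ∧ orderOf g = p} ∧ t ∣ p - 1 ∧ Nat.card (Sylow p G) = 1 + n * p ∧ Nat.card G * t = (p - 1) * p * (1 + n * p) := by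
  classical
  haveI := Fintype.ofFinite G
  obtain ⟨P, hP⟩ := (IsPGroup.of_card (p := p) (n := 1) (G := Subgroup.zpowers z)
    (by rw [Nat.card_zpowers, hz, pow_one])).exists_le_sylow
  have hzP : z ∈ (P : Subgroup G) := hP (Subgroup.mem_zpowers z)
  have hz1 : z ≠ 1 := fun h => (Fact.out : p.Prime).ne_one (by rw [← hz, h, orderOf_one])
  have hPc : Nat.card P = p := by
    haveI : Nontrivial (P : Subgroup G) :=
      ⟨⟨⟨z, hzP⟩, 1, fun h => hz1 (congrArg Subtype.val h)⟩⟩
    haveI := P.isPGroup'.center_nontrivial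
    obtain ⟨w, hw⟩ := exists_ne (1 : Subgroup.center (P : Subgroup G))
    have hwz : ((w : (P : Subgroup G)) : G) ∈ Subgroup.zpowers z := hC ▸ by
      rw [Subgroup.mem_centralizer_singleton_iff]
      exact (congrArg Subtype.val (Subgroup.mem_center_iff.mp w.2 ⟨z, hzP⟩)).symm
    have hw1 : ((w : (P : Subgroup G)) : G) ≠ 1 := fun h => hw (Subtype.ext (Subtype.ext h))
    have hgen : Subgroup.zpowers ((w : (P : Subgroup G)) : G) = Subgroup.zpowers z := by
      apply Subgroup.eq_of_le_of_card_ge (Subgroup.zpowers_le.mpr hwz)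
      have h := Subgroup.orderOf_dvd_natCard (Subgroup.zpowers z) hwz
      rw [Nat.card_zpowers, hz] at h
      rcases (Nat.dvd_prime (Fact.out : p.Prime)).mp h with h | h
      · exact absurd (orderOf_eq_one_iff.mp h) hw1
      · rw [Nat.card_zpowers, Nat.card_zpowers, h, hz]
    have hle : (P : Subgroup G) ≤ Subgroup.zpowers z := by
      intro x hx
      rw [← hC, Subgroup.mem_centralizer_singleton_iff]
      obtain ⟨i, hi⟩ : z ∈ Subgroup.zpowers ((w : (P : Subgroup G)) : G) :=
        hgen ▸ Subgroup.mem_zpowers z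
      have hc : Commute x ((w : (P : Subgroup G)) : G) := congrArg Subtype.val (Subgroup.mem_center_iff.mp w.2 ⟨x, hx⟩)
      rw [← hi]
      exact (hc.zpow_right i).eq
    rw [show (P : Subgroup G) = Subgroup.zpowers z from le_antisymm hle hP, Nat.card_zpowers, hz]
  have hcount := CfsgLib.Perm.card_orderOf_prime hPc
  set C := {c : ConjClasses G // ∃ g : G, ConjClasses.mk g = c ∧ orderOf g = p}
  haveI := Fintype.ofFinite C
  have hclass : ∀ x : G, orderOf x = p → Nat.card {g : G // IsConj x g} * p = Nat.card G := by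
    intro x hx
    obtain ⟨Q, hQ⟩ := CfsgLib.Perm.exists_sylow_eq_zpowers hPc hx
    obtain ⟨g, hg⟩ := MulAction.exists_smul_eq G Q P
    have hy : g * x * g⁻¹ ∈ (P : Subgroup G) := by
      rw [← hg]; exact ⟨x, (hQ ▸ Subgroup.mem_zpowers x : x ∈ (Q : Subgroup G)), rfl⟩
    have hcx : Nat.card (Subgroup.centralizer ({g * x * g⁻¹} : Set G)) = p := by
      have ho : orderOf (g * x * g⁻¹) = p := by rw [CfsgLib.Invol.orderOf_conj]; exact hx
      have hzx : Subgroup.zpowers (g * x * g⁻¹) = Subgroup.zpowers z :=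
        (CfsgLib.Perm.zpowers_eq_sylow hPc hy (fun h => (Fact.out : p.Prime).ne_one (by rw [← ho, h, orderOf_one]))).trans
          (CfsgLib.Perm.zpowers_eq_sylow hPc hzP hz1).symm
      have : Subgroup.centralizer ({g * x * g⁻¹} : Set G) = Subgroup.centralizer ({z} : Set G) := by
        rw [← Subgroup.centralizer_closure ({g * x * g⁻¹} : Set G), ← Subgroup.centralizer_closure ({z} : Set G),
          ← Subgroup.zpowers_eq_closure, ← Subgroup.zpowers_eq_closure, hzx]
      rw [this, hC, Nat.card_zpowers, hz]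
    have h := CfsgLib.Invol.card_isConj_mul_card_centralizer (g * x * g⁻¹)
    rw [hcx] at h
    rw [← h]
    congr 1
    exact Nat.card_congr (Equiv.subtypeEquivRight fun y =>
      ⟨fun h => (isConj_iff.mpr ⟨g, rfl⟩ : IsConj x (g * x * g⁻¹)).symm.trans h,
       fun h => (isConj_iff.mpr ⟨g, rfl⟩ : IsConj x (g * x * g⁻¹)).trans h⟩)
  have hmain : Nat.card C * Nat.card G = Nat.card {g : G // orderOf g = p} * p := by
    let f : {g : G // orderOf g = p} → C := fun g => ⟨ConjClasses.mk g.1, g.1, rfl, g.2⟩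
    rw [← Nat.card_congr (Equiv.sigmaFiberEquiv f), Nat.card_sigma, Finset.sum_mul,
      Finset.sum_const_nat (m := Nat.card G), Finset.card_univ, ← Nat.card_eq_fintype_card]
    rintro ⟨c, x, rfl, hx⟩ -
    refine Eq.trans (congrArg (· * p) ?_) (hclass x hx)
    exact Nat.card_congr
      { toFun := fun g => ⟨g.1.1, (ConjClasses.mk_eq_mk_iff_isConj.mp (congrArg Subtype.val g.2)).symm⟩
        invFun := fun y => ⟨⟨y.1, (CfsgLib.Invol.isConj_orderOf_eq y.2).symm.trans hx⟩,
          Subtype.ext (ConjClasses.mk_eq_mk_iff_isConj.mpr y.2.symm)⟩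
        left_inv := fun g => rfl
        right_inv := fun y => rfl }
  rw [hcount] at hmain
  set np := Nat.card (Sylow p G) with hnp
  have hnp1 : 1 ≤ np := Nat.card_pos
  obtain ⟨n, hn⟩ : p ∣ np - 1 := (Nat.modEq_iff_dvd' hnp1).mp (card_sylow_modEq_one p G).symm
  refine ⟨n, Nat.card C, rfl, ?_, by rw [mul_comm n]; omega, ?_⟩
  · have hN := CfsgLib.Perm.card_sylow_mul_card_normalizer P
    obtain ⟨e, he⟩ : p ∣ Nat.card (Subgroup.normalizer ((P : Subgroup G) : Set G)) := by
      exact (dvd_of_eq hPc.symm).trans (Subgroup.card_dvd_of_le Subgroup.le_normalizer)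
    refine ⟨e, Nat.eq_of_mul_eq_mul_left (Nat.mul_pos (Fact.out : p.Prime).pos hnp1) ?_⟩
    calc p * np * (p - 1) = np * (p - 1) * p := by ring
      _ = Nat.card C * Nat.card G := hmain.symm
      _ = p * np * (Nat.card C * e) := by rw [← hN, he]; ring
  · rw [show 1 + n * p = np by rw [mul_comm n]; omega, mul_comm (Nat.card G), hmain]
    ring

end Cfsg.Agent.S0995
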