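import Cfsg.Statements.S1002
import Cfsg.Agent.Lib.CharCN5

set_option autoImplicit false
open Cfsg

namespace Cfsg.Agent.S1002

section Aux

variable {G : Type*} [Group G] [Finite G] [IsSimpleGroup G]

theorem index_ge (hcard : Nat.card G = 1004913) (H : Subgroup G) (hH : H ≠ ⊤) : 409 ≤ H.index := by
  classical
  have hker : (MulAction.toPermHom G (G ⧸ H)).ker = ⊥ := by
    rw [← Subgroup.normalCore_eq_ker]
    refine H.normalCore_normal.eq_bot_or_eq_top.resolve_right fun e => hH ?_
    exact top_le_iff.1 (e ▸ H.normalCore_le)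
  have h := Subgroup.card_dvd_of_injective _ ((MonoidHom.ker_eq_bot_iff _).1 hker)
  haveI := Fintype.ofFinite (G ⧸ H)
  rw [hcard, Nat.card_perm, ← Subgroup.index_eq_card] at h
  exact (Nat.Prime.dvd_factorial (by norm_num : Nat.Prime 409)).1 (dvd_trans (by norm_num) h)

/-- The normalizer of a subgroup of order 7, 13 or 409 has order three times that prime. -/
theorem normalizer_card (hcard : Nat.card G = 1004913) {p : ℕ} [Fact p.Prime]
    (hp : p = 7 ∨ p = 13 ∨ p = 409) (P : Sylow p G) :
    Nat.card P = p ∧ Nat.card (Subgroup.normalizer (P : Set G)) = 3 * p := by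
  have hPc : Nat.card P = p := by
    rw [P.card_eq_multiplicity, hcard, show (1004913 : ℕ) = 3 ^ 3 * 7 * 13 * 409 by norm_num]
    rw [Nat.factorization_mul (by norm_num) (by norm_num), Nat.factorization_mul (by norm_num) (by norm_num),
      Nat.factorization_mul (by norm_num) (by norm_num), Nat.Prime.factorization_pow Nat.prime_three,
      (by norm_num : Nat.Prime 7).factorization, (by norm_num : Nat.Prime 13).factorization,
      (by norm_num : Nat.Prime 409).factorization]
    rcases hp with rfl | rfl | rfl <;> simp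
  refine ⟨hPc, ?_⟩
  have hn := Sylow.card_eq_index_normalizer P
  have hmod := card_sylow_modEq_one p G
  have hidx := (Subgroup.normalizer (P : Set G)).card_mul_index
  have hPN : p ∣ Nat.card (Subgroup.normalizer (P : Set G)) :=
    by have h := Subgroup.card_dvd_of_le (Subgroup.le_normalizer (H := (P : Subgroup G))); rwa [hPc] at h
  have htop : Subgroup.normalizer (P : Set G) ≠ ⊤ := by
    intro e
    haveI := Subgroup.normalizer_eq_top_iff.1 e
    rcases (inferInstance : (P : Subgroup G).Normal).eq_bot_or_eq_top with h | h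
    · rw [h, Subgroup.card_bot] at hPc
      exact (Fact.out : p.Prime).ne_one hPc.symm
    · rw [h, Subgroup.card_top, hcard] at hPc
      omega
  have hge := index_ge hcard _ htop
  obtain ⟨m, hm⟩ := hPN
  rw [hm, hcard] at hidx
  rw [hn] at hmod
  set n := (Subgroup.normalizer (P : Set G)).index
  rw [hm]
  rw [Nat.ModEq, Nat.one_mod_eq_one.2 (Fact.out : p.Prime).ne_one] at hmod
  have hnm : m * n = 1004913 / p := by
    rw [← hidx, mul_assoc, Nat.mul_div_cancel_left _ (Fact.out : p.Prime).pos]
  have hmle : m ≤ 1004913 / p / 409 := by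
    rw [← hnm, Nat.le_div_iff_mul_le (by norm_num)]
    exact Nat.mul_le_mul_left m hge
  have hdiv : n = 1004913 / p / m := by
    rcases Nat.eq_zero_or_pos m with h0 | h0
    · subst h0; rcases hp with rfl | rfl | rfl <;> norm_num at hnm
    · rw [← hnm, Nat.mul_div_cancel_left _ h0]
  have hd : m ∣ 1004913 / p := ⟨n, hnm.symm⟩
  rw [hdiv] at hmod
  suffices m = 3 by rw [this]; ring
  have key7 : ∀ k : Fin 352, (k : ℕ) ∣ 143559 → 143559 / (k : ℕ) % 7 = 1 → (k : ℕ) = 3 := by decide +kernel
  have key13 : ∀ k : Fin 190, (k : ℕ) ∣ 77301 → 77301 / (k : ℕ) % 13 = 1 → (k : ℕ) = 3 := by decide +kernel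
  have key409 : ∀ k : Fin 7, (k : ℕ) ∣ 2457 → 2457 / (k : ℕ) % 409 = 1 → (k : ℕ) = 3 := by decide +kernel
  rcases hp with rfl | rfl | rfl <;> norm_num at hmle hd hmod
  · exact key7 ⟨m, by omega⟩ hd hmod
  · exact key13 ⟨m, by omega⟩ hd hmod
  · exact key409 ⟨m, by omega⟩ hd hmod

theorem centralizer_card (hcard : Nat.card G = 1004913) {p : ℕ} [Fact p.Prime]
    (hp : p = 7 ∨ p = 13 ∨ p = 409) {z : G} (hz : orderOf z = p) :
    Nat.card (Subgroup.centralizer ({z} : Set G)) = p := by
  obtain ⟨P, hP⟩ := (IsPGroup.of_card (p := p) (n := 1)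
    (show Nat.card (Subgroup.zpowers z) = p ^ 1 by rw [Nat.card_zpowers, hz, pow_one])).exists_le_sylow
  obtain ⟨hPc, hN⟩ := normalizer_card hcard hp P
  have heq : Subgroup.zpowers z = (P : Subgroup G) :=
    Subgroup.eq_of_le_of_card_ge hP (by rw [Nat.card_zpowers, hz, hPc])
  have hle : Subgroup.centralizer ({z} : Set G) ≤ Subgroup.normalizer (P : Set G) := by
    intro g hg
    have hc : Commute g z := (Subgroup.mem_centralizer_singleton_iff.1 hg)
    refine Subgroup.mem_normalizer_iff.2 fun x => ?_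
    show x ∈ (P : Subgroup G) ↔ g * x * g⁻¹ ∈ (P : Subgroup G)
    rw [← heq]
    constructor
    · intro hx
      obtain ⟨k, rfl⟩ := Subgroup.mem_zpowers_iff.1 hx
      rw [(hc.zpow_right k).eq, mul_inv_cancel_right]
      exact Subgroup.zpow_mem_zpowers z k
    · intro hx
      obtain ⟨k, hk⟩ := Subgroup.mem_zpowers_iff.1 hx
      have : x = g⁻¹ * z ^ k * g := by rw [hk]; group
      rw [this, mul_assoc, ← (hc.zpow_right k).eq, inv_mul_cancel_left]
      exact Subgroup.zpow_mem_zpowers z k
  have hPC : (P : Subgroup G) ≤ Subgroup.centralizer ({z} : Set G) := heq ▸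
    Subgroup.zpowers_le.2 (Subgroup.mem_centralizer_singleton_iff.2 rfl)
  obtain ⟨m, hm⟩ := hPc ▸ Subgroup.card_dvd_of_le hPC
  have hdvd := Subgroup.card_dvd_of_le hle
  rw [hm, hN, mul_comm 3 p] at hdvd
  have hm3 := (Nat.dvd_prime Nat.prime_three).1 (Nat.dvd_of_mul_dvd_mul_left (Fact.out : p.Prime).pos hdvd)
  rcases hm3 with h1 | h3
  · rw [hm, h1, mul_one]
  exfalso
  have hEq : Subgroup.centralizer ({z} : Set G) = Subgroup.normalizer (P : Set G) :=
    Subgroup.eq_of_le_of_card_ge hle (by rw [hm, hN, h3, mul_comm])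
  have hB : Subgroup.normalizer (P : Set G) ≤ Subgroup.centralizer (P : Set G) := by
    intro g hg
    rw [← hEq] at hg
    refine Subgroup.mem_centralizer_iff.2 fun x hx => ?_
    have hx : x ∈ (P : Subgroup G) := hx
    rw [← heq] at hx
    obtain ⟨k, rfl⟩ := Subgroup.mem_zpowers_iff.1 hx
    exact ((show Commute g z from Subgroup.mem_centralizer_singleton_iff.1 hg).zpow_right k).eq.symm
  have hcompl := MonoidHom.ker_transferSylow_isComplement' P hB
  have hmul := hcompl.card_mul
  rw [hPc, hcard] at hmul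
  rcases (MonoidHom.normal_ker (MonoidHom.transferSylow P hB)).eq_bot_or_eq_top with h | h
  · rw [h, Subgroup.card_bot, one_mul] at hmul
    omega
  · rw [h, Subgroup.card_top, hcard] at hmul
    rcases hp with rfl | rfl | rfl <;> omega

theorem centralizer_nilpotent (hcard : Nat.card G = 1004913) (g : G) (hg : g ≠ 1) :
    Group.IsNilpotent (Subgroup.centralizer ({g} : Set G)) := by
  obtain ⟨r, hr, hrd⟩ := Nat.exists_prime_and_dvd (show orderOf g ≠ 1 from fun e => hg (orderOf_eq_one_iff.1 e))
  haveI := Fact.mk hr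
  set y := g ^ (orderOf g / r) with hy
  have hyo : orderOf y = r := orderOf_pow_orderOf_div (orderOf_pos g).ne' hrd
  have hle : Subgroup.centralizer ({g} : Set G) ≤ Subgroup.centralizer ({y} : Set G) := fun x hx =>
    Subgroup.mem_centralizer_singleton_iff.2
      ((show Commute x g from Subgroup.mem_centralizer_singleton_iff.1 hx).pow_right _).eq
  suffices h : IsPGroup r (Subgroup.centralizer ({y} : Set G)) by
    haveI := h.to_le hle
    exact (h.to_le hle).isNilpotent
  have hrG : r ∣ 1004913 := hcard ▸ hyo ▸ orderOf_dvd_natCard y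
  have hcases : r = 3 ∨ r = 7 ∨ r = 13 ∨ r = 409 := by
    rw [show (1004913 : ℕ) = 3 * 3 * 3 * 7 * 13 * 409 by norm_num] at hrG
    have e := fun q (hq : Nat.Prime q) (h : r ∣ q) => (Nat.prime_dvd_prime_iff_eq hr hq).1 h
    rcases hr.dvd_mul.1 hrG with h | h
    rcases hr.dvd_mul.1 h with h | h
    rcases hr.dvd_mul.1 h with h | h
    rcases hr.dvd_mul.1 h with h | h
    rcases hr.dvd_mul.1 h with h | h
    all_goals first
      | exact Or.inl (e 3 Nat.prime_three h)
      | exact Or.inr (Or.inl (e 7 (by norm_num) h))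
      | exact Or.inr (Or.inr (Or.inl (e 13 (by norm_num) h)))
      | exact Or.inr (Or.inr (Or.inr (e 409 (by norm_num) h)))
  rcases hcases with h3 | h
  · subst h3
    set C := Subgroup.centralizer ({y} : Set G)
    have hno : ∀ q, q = 7 ∨ q = 13 ∨ q = 409 → ¬ q ∣ Nat.card C := by
      intro q hq hqd
      haveI : Fact q.Prime := ⟨by rcases hq with rfl | rfl | rfl <;> norm_num⟩
      obtain ⟨z, hz⟩ := exists_prime_orderOf_dvd_card' q hqd
      have hz' : orderOf (z : G) = q := by rw [Subgroup.orderOf_coe, hz]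
      have hyz : y ∈ Subgroup.centralizer ({(z : G)} : Set G) := Subgroup.mem_centralizer_singleton_iff.2
        (Subgroup.mem_centralizer_singleton_iff.1 z.2).symm
      have := Subgroup.orderOf_dvd_natCard _ hyz
      rw [hyo, centralizer_card hcard hq hz'] at this
      rcases hq with rfl | rfl | rfl <;> norm_num at this
    have hd : Nat.card C ∣ 1004913 := hcard ▸ Subgroup.card_subgroup_dvd_card C
    have cop : ∀ q, Nat.Prime q → (q = 7 ∨ q = 13 ∨ q = 409) → Nat.Coprime (Nat.card C) q := fun q hq h =>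
      ((Nat.Prime.coprime_iff_not_dvd hq).2 (hno q h)).symm
    rw [show (1004913 : ℕ) = 3 ^ 3 * 7 * 13 * 409 by norm_num] at hd
    have h' := (cop 7 (by norm_num) (by simp)).dvd_of_dvd_mul_right
      ((cop 13 (by norm_num) (by simp)).dvd_of_dvd_mul_right
        ((cop 409 (by norm_num) (by simp)).dvd_of_dvd_mul_right hd))
    obtain ⟨k, -, hk⟩ := (Nat.dvd_prime_pow Nat.prime_three).1 h'
    exact IsPGroup.of_card hk
  · exact IsPGroup.of_card (n := 1) (by rw [centralizer_card hcard h hyo, pow_one])

end Aux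

/-- No finite simple group has order 1004913 = 3^3 * 7 * 13 * 409. -/
theorem result {G : Type*} [Group G] [Finite G] [IsSimpleGroup G] : Nat.card G ≠ 1004913 := by
  intro hcard
  haveI : Nontrivial G := Finite.one_lt_card_iff_nontrivial.1 (by rw [hcard]; norm_num)
  have hodd : Odd (Nat.card G) := by rw [hcard]; decide
  have hCN : Cfsg.IsCNGroup G := fun g hg => centralizer_nilpotent hcard g hg
  have hsol := CfsgLib.CN.isSolvable_of_odd (Nat.card G) G rfl hodd hCN
  have hc := IsSimpleGroup.comm_iff_isSolvable.2 hsol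
  letI : CommGroup G := { (inferInstance : Group G) with mul_comm := hc }
  have := IsSimpleGroup.prime_card (α := G)
  rw [hcard] at this
  norm_num at this

end Cfsg.Agent.S1002
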