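import Cfsg.Statements.S1006
import Cfsg.Agent.Lib.SmallSimple168Sub

set_option autoImplicit false
open Cfsg

namespace Cfsg.Agent.S1006

/-- In a simple group of order 168 there are 56 elements of order 3, all conjugate; 42 elements of order 4, all conjugate; and 48 elements of order 7 falling into two conjugacy classes of size 24, an element of order 7 not being conjugate to its inverse. -/
theorem result {G : Type*} [Group G] [Finite G] [IsSimpleGroup G] (h : Nat.card G = 168) : Nat.card {g : G // orderOf g = 3} = 56 ∧ (∀ s t : G, orderOf s = 3 → orderOf t = 3 → IsConj s t) ∧ Nat.card {g : G // orderOf g = 4} = 42 ∧ (∀ s t : G, orderOf s = 4 → orderOf t = 4 → IsConj s t) ∧ Nat.card {g : G // orderOf g = 7} = 48 ∧ ∀ x : G, orderOf x = 7 → Nat.card {g : G // IsConj x g} = 24 ∧ ¬ IsConj x x⁻¹ := by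
  haveI : Fact (Nat.Prime 3) := ⟨Nat.prime_three⟩
  haveI : Fact (Nat.Prime 7) := ⟨by norm_num⟩
  haveI : Fact (Nat.Prime 2) := ⟨Nat.prime_two⟩
  refine ⟨CfsgLib.SmallSimple.O168.card_order_three h, fun s t hs ht => ?_, (CfsgLib.SmallSimple.O168.involution_data h).2.1,
    fun s t => CfsgLib.SmallSimple.O168.isConj_four h, CfsgLib.SmallSimple.O168.card_order_seven h, fun x hx => ⟨?_, ?_⟩⟩
  · obtain ⟨P₀⟩ : Nonempty (Sylow 3 G) := inferInstance
    obtain ⟨P, hP⟩ := CfsgLib.Perm.exists_sylow_eq_zpowers (CfsgLib.SmallSimple.O168.sylow_three_card h P₀) hs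
    obtain ⟨Q, hQ⟩ := CfsgLib.Perm.exists_sylow_eq_zpowers (CfsgLib.SmallSimple.O168.sylow_three_card h P₀) ht
    obtain ⟨g, hg⟩ := MulAction.exists_smul_eq G P Q
    have hm : g * s * g⁻¹ ∈ Subgroup.zpowers t := by
      rw [← hQ, ← hg, Sylow.smul_def]
      exact ⟨s, by rw [SetLike.mem_coe]; exact hP ▸ Subgroup.mem_zpowers s, rfl⟩
    have ho : orderOf (g * s * g⁻¹) = 3 := (MulEquiv.orderOf_eq (MulAut.conj g) s).trans hs
    classical
    rw [mem_zpowers_iff_mem_range_orderOf, Finset.mem_image] at hm
    obtain ⟨i, hi, hi'⟩ := hm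
    rw [Finset.mem_range, ht] at hi
    interval_cases i
    · rw [← hi', pow_zero, orderOf_one] at ho; omega
    · exact isConj_iff.mpr ⟨g, by rw [← hi', pow_one]⟩
    · refine (isConj_iff.mpr ⟨g, hi'.symm⟩).trans ?_
      obtain ⟨y, hy⟩ := exists_prime_orderOf_dvd_card' (G := Subgroup.normalizer ((Q : Subgroup G) : Set G)) 2
        (by rw [CfsgLib.SmallSimple.O168.card_normalizer_three h Q]; norm_num)
      rw [← Subgroup.orderOf_coe] at hy
      have hn : (y : G) * t * (y : G)⁻¹ ∈ Subgroup.zpowers t :=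
        hQ ▸ (Subgroup.mem_normalizer_iff.mp y.2 t).mp (hQ.symm ▸ Subgroup.mem_zpowers t)
      rw [mem_zpowers_iff_mem_range_orderOf, Finset.mem_image] at hn
      obtain ⟨j, hj, hj'⟩ := hn
      rw [Finset.mem_range, ht] at hj
      interval_cases j
      · rw [pow_zero, eq_comm, conj_eq_one_iff] at hj'
        rw [hj', orderOf_one] at ht; omega
      · exfalso
        rw [pow_one] at hj'
        have hc : (y : G) ∈ Subgroup.zpowers t := CfsgLib.SmallSimple.O168.centralizer_three h ht ▸
          Subgroup.mem_centralizer_singleton_iff.mpr (mul_inv_eq_iff_eq_mul.mp hj'.symm)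
        have := Subgroup.orderOf_dvd_natCard _ hc
        rw [Nat.card_zpowers, ht, hy] at this
        norm_num at this
      · exact (isConj_iff.mpr ⟨(y : G), hj'.symm⟩).symm
  · have hc := MulAction.index_stabilizer (ConjAct G) x
    rw [ConjAct.orbit_eq_carrier_conjClasses] at hc
    have hst : Nat.card (MulAction.stabilizer (ConjAct G) x) = 7 := by
      rw [ConjAct.stabilizer_eq_centralizer]
      exact (show Nat.card (Subgroup.centralizer ({x} : Set G)) = 7 by
        rw [CfsgLib.SmallSimple.O168.centralizer_seven h hx, Nat.card_zpowers, hx])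
    have hm := (MulAction.stabilizer (ConjAct G) x).card_mul_index
    rw [hst, hc, show Nat.card (ConjAct G) = 168 from h] at hm
    have e : Nat.card {g : G // IsConj x g} = (ConjClasses.mk x).carrier.ncard := by
      rw [← Nat.card_coe_set_eq]
      refine Nat.card_congr (Equiv.subtypeEquivRight fun g => ?_)
      rw [ConjClasses.mem_carrier_iff_mk_eq, ConjClasses.mk_eq_mk_iff_isConj]
      exact ⟨IsConj.symm, IsConj.symm⟩
    omega
  · intro hc
    obtain ⟨g, hg⟩ := isConj_iff.mp hc
    have hg2 : g ^ 2 ∈ Subgroup.centralizer ({x} : Set G) := by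
      rw [Subgroup.mem_centralizer_singleton_iff, ← mul_inv_eq_iff_eq_mul, sq]
      calc g * g * x * (g * g)⁻¹ = g * (g * x * g⁻¹) * g⁻¹ := by group
        _ = x := by rw [hg, ← conj_inv, hg, inv_inv]
    rw [CfsgLib.SmallSimple.O168.centralizer_seven h hx] at hg2
    have hgo : Odd (orderOf g) := by
      rcases CfsgLib.SmallSimple.O168.orders h g with e | e | e | e | e
      · rw [e]; decide
      · exfalso
        have : g * x * g⁻¹ = x⁻¹ := hg
        have hn : g ∈ Subgroup.normalizer ((Subgroup.zpowers x : Subgroup G) : Set G) := by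
          rw [Subgroup.mem_normalizer_iff_map_conj_eq, MonoidHom.map_zpowers]
          show Subgroup.zpowers (g * x * g⁻¹) = _
          rw [hg, Subgroup.zpowers_inv]
        obtain ⟨S₀⟩ : Nonempty (Sylow 7 G) := inferInstance
        obtain ⟨S, hS⟩ := CfsgLib.Perm.exists_sylow_eq_zpowers (CfsgLib.SmallSimple.O168.sylow_seven_card h S₀) hx
        rw [← hS] at hn
        have := Subgroup.orderOf_dvd_natCard _ hn
        rw [e, CfsgLib.SmallSimple.O168.card_normalizer_seven h S] at this
        norm_num at this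
      · rw [e]; decide
      · exfalso
        have := Subgroup.orderOf_dvd_natCard _ hg2
        rw [Nat.card_zpowers, hx, orderOf_pow' g (by norm_num : (2 : ℕ) ≠ 0), e] at this
        norm_num at this
      · rw [e]; decide
    obtain ⟨m, hm⟩ := hgo
    have hgm : g ∈ Subgroup.zpowers x := by
      have e : g = (g ^ 2) ^ (m + 1) := by
        rw [← pow_mul, show 2 * (m + 1) = orderOf g + 1 by omega, pow_succ, pow_orderOf_eq_one, one_mul]
      rw [e]; exact pow_mem hg2 _
    obtain ⟨i, rfl⟩ := hgm
    rw [((Commute.refl x).zpow_left i).eq, mul_inv_cancel_right] at hg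
    have h2 : x ^ 2 = 1 := by rw [sq]; exact mul_eq_one_iff_eq_inv.mpr hg
    have := Nat.le_of_dvd (by norm_num) (orderOf_dvd_of_pow_eq_one h2)
    omega

end Cfsg.Agent.S1006
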