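import Cfsg.Statements.S1013
import Mathlib
import Cfsg.Agent.Lib.PermSylow

set_option autoImplicit false
open Cfsg

namespace Cfsg.Agent.S1013

/-- Let G be a transitive permutation group of prime degree p having more than one Sylow p-subgroup, and suppose a Sylow p-subgroup P has prime index in its normalizer. Then G is simple. -/
theorem result {α : Type*} [Fintype α] [DecidableEq α] {p : ℕ} [Fact p.Prime] (hα : Fintype.card α = p) (G : Subgroup (Equiv.Perm α)) [MulAction.IsPretransitive ↥G α] (P : Sylow p ↥G) (hn : 1 < Nat.card (Sylow p ↥G)) (ht : (((P : Subgroup ↥G).subgroupOf (Subgroup.normalizer ((P : Subgroup ↥G) : Set ↥G))).index).Prime) : IsSimpleGroup ↥G := by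
  classical
  have hp : p.Prime := Fact.out
  haveI : Finite G := inferInstance
  have key : ∀ (L : Subgroup G) [MulAction.IsPretransitive L α] (K : Subgroup L), K.Normal → K ≠ ⊥ →
      p ∣ Nat.card K := by
    intro L _ K hK hne
    obtain ⟨k, hk, hk1⟩ := K.bot_or_exists_ne_one.resolve_left hne
    obtain ⟨a, ha⟩ : ∃ a : α, k • a ≠ a := by
      by_contra hall
      push Not at hall
      exact hk1 (Subtype.ext (Subtype.ext (Equiv.ext hall)))
    haveI := hK
    have hblock : MulAction.IsBlock L (MulAction.orbit K a) := MulAction.IsBlock.orbit_of_normal a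
    have hd := hblock.ncard_dvd_card ⟨a, MulAction.mem_orbit_self a⟩
    rw [Nat.card_eq_fintype_card, hα] at hd
    rcases (Nat.dvd_prime hp).mp hd with h1 | h1
    · exfalso
      obtain ⟨b, hb⟩ := Set.ncard_eq_one.mp h1
      have e1 : a = b := by
        have := MulAction.mem_orbit_self (M := K) a; rwa [hb] at this
      have e2 : k • a = b := by
        have := MulAction.mem_orbit a (⟨k, hk⟩ : K); rwa [hb] at this
      exact ha (e2.trans e1.symm)
    · rw [← MulAction.index_stabilizer] at h1
      exact h1 ▸ Subgroup.index_dvd_card _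
  obtain ⟨a⟩ : Nonempty α := Fintype.card_pos_iff.mp (by rw [hα]; exact hp.pos)
  have hpG : p ∣ Nat.card G := by
    have := MulAction.index_stabilizer_of_transitive G a
    rw [Nat.card_eq_fintype_card, hα] at this
    exact this ▸ Subgroup.index_dvd_card _
  have hPcard : ∀ Q : Sylow p G, Nat.card Q = p := by
    intro Q
    have h1 : Nat.card Q ∣ p.factorial := by
      refine (Subgroup.card_subgroup_dvd_card (Q : Subgroup G)).trans ?_
      have := Subgroup.card_subgroup_dvd_card G
      rwa [Nat.card_perm, Nat.card_eq_fintype_card (α := α), hα] at this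
    obtain ⟨k, hk⟩ := IsPGroup.iff_card.mp Q.2
    have hpos := Q.dvd_card_of_dvd_card hpG
    rw [hk] at h1 hpos ⊢
    match k, h1, hpos with
    | 0, _, h => rw [pow_zero, Nat.dvd_one] at h; exact absurd h hp.one_lt.ne'
    | 1, _, _ => exact pow_one p
    | k + 2, h, _ =>
      exfalso
      have h2 : p ^ 2 ∣ p.factorial := (pow_dvd_pow p (by omega)).trans h
      rw [← Nat.mul_factorial_pred hp.ne_zero, sq] at h2
      have := (hp.dvd_factorial).mp (Nat.dvd_of_mul_dvd_mul_left hp.pos h2)
      have := hp.pos
      omega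
  have htopne : Nontrivial G := by
    rw [← Finite.one_lt_card_iff_nontrivial]
    exact hp.one_lt.trans_le (Nat.le_of_dvd Nat.card_pos hpG)
  refine ⟨fun N hN => or_iff_not_imp_left.mpr fun hne => ?_⟩
  haveI := hN
  have hpN : p ∣ Nat.card N := by
    haveI : MulAction.IsPretransitive (⊤ : Subgroup G) α :=
      ⟨fun x y => by
        obtain ⟨g, hg⟩ := MulAction.exists_smul_eq G x y
        exact ⟨⟨g, Subgroup.mem_top g⟩, hg⟩⟩
    have h := key ⊤ (N.subgroupOf ⊤) inferInstance (fun h => hne (by simpa using h))
    rwa [Nat.card_congr (Subgroup.subgroupOfEquivOfLe (le_top : N ≤ ⊤)).toEquiv] at h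
  obtain ⟨y, hy⟩ := exists_prime_orderOf_dvd_card' p hpN
  rw [← Subgroup.orderOf_coe] at hy
  obtain ⟨Q, hQ⟩ := CfsgLib.Perm.exists_sylow_eq_zpowers (hPcard P) hy
  have hPN : (P : Subgroup G) ≤ N := by
    obtain ⟨g, hg⟩ := MulAction.exists_smul_eq G Q P
    rw [← hg, Sylow.smul_def]
    rintro _ ⟨z, hz, rfl⟩
    exact hN.conj_mem z ((hQ.trans_le (Subgroup.zpowers_le.mpr y.2)) hz) g
  set M := Subgroup.normalizer ((P : Subgroup G) : Set G) with hM
  haveI : MulAction.IsPretransitive N α := by
    have hone : (MulAction.orbit N a).ncard = p := by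
      obtain ⟨k, hk, hk1⟩ := N.bot_or_exists_ne_one.resolve_left hne
      have hblock : MulAction.IsBlock G (MulAction.orbit N a) := MulAction.IsBlock.orbit_of_normal a
      have hd := hblock.ncard_dvd_card ⟨a, MulAction.mem_orbit_self a⟩
      rw [Nat.card_eq_fintype_card, hα] at hd
      refine ((Nat.dvd_prime hp).mp hd).resolve_left fun h1 => hk1 ?_
      apply Subtype.ext
      apply Equiv.ext
      intro b
      show k • b = b
      obtain ⟨g, rfl⟩ := MulAction.exists_smul_eq G a b
      obtain ⟨c, hc⟩ := Set.ncard_eq_one.mp h1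
      have e1 : a = c := by
        have := MulAction.mem_orbit_self (M := N) a; rwa [hc] at this
      have e2 : (g⁻¹ * k * g) • a = c := by
        have := MulAction.mem_orbit a (⟨g⁻¹ * k * g, by simpa using hN.conj_mem k hk g⁻¹⟩ : N)
        rwa [hc] at this
      have e3 := congrArg (fun z => g • z) (e2.trans e1.symm)
      simp only [← mul_smul, ← mul_assoc, mul_inv_cancel, one_mul] at e3
      rwa [mul_smul] at e3
    refine (MulAction.isPretransitive_iff_orbit_eq_univ a).mpr ?_
    exact Set.eq_of_subset_of_ncard_le (Set.subset_univ _)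
      (by rw [Set.ncard_univ, hone, Nat.card_eq_fintype_card, hα])
  have hPM : (P : Subgroup G) ≤ M := Subgroup.le_normalizer
  have hrel : (N ⊓ M).relIndex M ∣ (P : Subgroup G).relIndex M :=
    ⟨(P : Subgroup G).relIndex (N ⊓ M), by
      rw [mul_comm, Subgroup.relIndex_mul_relIndex _ _ _ (le_inf hPN hPM) inf_le_right]⟩
  rcases (Nat.dvd_prime ht).mp hrel with h1 | h1
  · have hMN : M ≤ N := (Subgroup.relIndex_eq_one.mp h1).trans inf_le_left
    have := Sylow.normalizer_sup_eq_top' P hPN
    refine top_le_iff.mp (this.ge.trans (sup_le hMN le_rfl))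
  · exfalso
    have heq : N ⊓ M = (P : Subgroup G) := by
      refine le_antisymm ?_ (le_inf hPN hPM)
      have h2 := Subgroup.relIndex_mul_relIndex (P : Subgroup G) (N ⊓ M) M (le_inf hPN hPM) inf_le_right
      rw [h1] at h2
      have h3 : (P : Subgroup G).relIndex (N ⊓ M) = 1 :=
        Nat.eq_of_mul_eq_mul_right (show 0 < (P : Subgroup G).relIndex M from
          Nat.pos_of_ne_zero (fun h => ht.ne_zero h)) (h2.trans (one_mul _).symm)
      exact Subgroup.relIndex_eq_one.mp h3
    let PN : Sylow p N := P.subtype hPN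
    have hle : Subgroup.normalizer ((PN : Subgroup N) : Set N) ≤
        Subgroup.centralizer ((PN : Subgroup N) : Set N) := by
      intro x hx
      have hx' : (x : G) ∈ M := by
        rw [hM, Subgroup.mem_normalizer_iff]
        intro z
        constructor
        · intro hz
          exact (Subgroup.mem_normalizer_iff.mp hx ⟨z, hPN hz⟩).mp hz
        · intro hz
          have hzN : z ∈ N := by
            have := hN.conj_mem _ (hPN hz) (x : G)⁻¹
            simpa [mul_assoc] using this
          exact (Subgroup.mem_normalizer_iff.mp hx ⟨z, hzN⟩).mpr hz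
      have hxP : (x : G) ∈ (P : Subgroup G) := heq ▸ ⟨x.2, hx'⟩
      rw [Subgroup.mem_centralizer_iff]
      intro z hz
      haveI : IsCyclic (P : Subgroup G) := isCyclic_of_prime_card (hPcard P)
      letI : CommGroup (P : Subgroup G) := IsCyclic.commGroup
      exact Subtype.ext (congrArg (fun q : (P : Subgroup G) => (q : G))
        (mul_comm (⟨(z : G), hz⟩ : (P : Subgroup G)) ⟨x, hxP⟩))
    have hc := MonoidHom.ker_transferSylow_isComplement' PN hle
    have hKbot : (MonoidHom.transferSylow PN hle).ker = ⊥ := by
      by_contra hK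
      have hd := key N _ (MonoidHom.normal_ker _) hK
      exact PN.not_dvd_index (by rw [hc.index_eq_card]; exact hd)
    have hNP : N ≤ (P : Subgroup G) := by
      have hc' := hc.card_mul_card
      rw [hKbot, Subgroup.card_bot, one_mul] at hc'
      have : (PN : Subgroup N) = ⊤ := Subgroup.eq_top_of_card_eq _ hc'
      intro z hz
      have hz' : (⟨z, hz⟩ : N) ∈ (PN : Subgroup N) := this ▸ Subgroup.mem_top _
      exact hz'
    have hPn : (P : Subgroup G).Normal := le_antisymm hNP hPN ▸ hN
    haveI := Sylow.unique_of_normal P hPn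
    exact absurd (Nat.card_unique (α := Sylow p G)) hn.ne' 

end Cfsg.Agent.S1013
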