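import Cfsg.Statements.S1017
import Cfsg.Agent.Lib.SmallSimple
import Cfsg.Agent.Lib.SmallSimple168

set_option autoImplicit false
open Cfsg

namespace Cfsg.Agent.S1017

/-- No even involution on at most nine points commutes with an element of order seven. -/
theorem no_involution {α : Type*} [Fintype α] [DecidableEq α] (hα : Fintype.card α ≤ 9) {c σ : Equiv.Perm α}
    (hc : orderOf c = 7) (hσ : orderOf σ = 2) (hcomm : Commute σ c) (hsign : Equiv.Perm.sign σ = 1) :
    False := by
  classical
  have hcy : c.IsCycle := Equiv.Perm.isCycle_of_prime_order' (hc ▸ (by norm_num)) (by rw [hc]; omega)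
  have hcs : c.support.card = 7 := by rw [← hcy.orderOf, hc]
  have hcσ : ∀ y, σ (c y) = c (σ y) := fun y => Equiv.ext_iff.mp hcomm.eq y
  have hco : (c.supportᶜ).card ≤ 2 := by rw [Finset.card_compl, hcs]; omega
  obtain ⟨m, hm⟩ := Equiv.Perm.cycleType_prime_order (σ := σ) (by rw [hσ]; exact Nat.prime_two)
  have hs : σ.support.card = (m + 1) * 2 := by
    rw [← Equiv.Perm.sum_cycleType, hm, hσ, Multiset.sum_replicate, smul_eq_mul]
  rw [Equiv.Perm.sign_of_cycleType, hm, hσ] at hsign
  simp only [Multiset.sum_replicate, Multiset.card_replicate, smul_eq_mul] at hsign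
  have hmodd : Even (m + 1) := by
    by_contra hodd
    have ho : Odd ((m + 1) * 2 + (m + 1)) := (even_two.mul_left _).add_odd (Nat.not_even_iff_odd.mp hodd)
    rw [ho.neg_one_pow] at hsign
    exact absurd hsign (by decide)
  have hout : ∀ z, z ∉ c.support → σ z ∉ c.support := fun z hz => by
    rw [Equiv.Perm.notMem_support] at hz ⊢
    rw [← hcσ, hz]
  by_cases hfix : ∃ a ∈ c.support, σ a = a
  · obtain ⟨a, ha, hσa⟩ := hfix
    have hall : σ.support ⊆ c.supportᶜ := fun y hy => by
      rw [Finset.mem_compl]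
      intro hyc
      obtain ⟨k, hk⟩ := hcy.sameCycle (Equiv.Perm.mem_support.mp ha) (Equiv.Perm.mem_support.mp hyc)
      refine Equiv.Perm.mem_support.mp hy ?_
      have := Equiv.ext_iff.mp (hcomm.zpow_right k).eq a
      rw [Equiv.Perm.mul_apply, Equiv.Perm.mul_apply, hσa, hk] at this
      exact this
    have := (Finset.card_le_card hall).trans hco
    obtain ⟨w, hw⟩ := hmodd
    omega
  · push Not at hfix
    have hsub : c.support ⊆ σ.support := fun y hy => Equiv.Perm.mem_support.mpr (hfix y hy)
    obtain ⟨z, hz, hzc⟩ : ∃ z ∈ σ.support, z ∉ c.support := by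
      by_contra hne
      push Not at hne
      have := Finset.card_le_card (show σ.support ⊆ c.support from hne)
      have := Finset.card_le_card hsub
      omega
    have hpair : c.support ∪ {z, σ z} ⊆ σ.support := by
      refine Finset.union_subset hsub ?_
      intro y hy
      simp only [Finset.mem_insert, Finset.mem_singleton] at hy
      rcases hy with rfl | rfl
      · exact hz
      · exact Equiv.Perm.apply_mem_support.mpr hz
    have hc2 := Finset.card_le_card hpair
    rw [Finset.card_union_of_disjoint (by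
      rw [Finset.disjoint_left]
      intro y hy hy2
      simp only [Finset.mem_insert, Finset.mem_singleton] at hy2
      rcases hy2 with rfl | rfl
      exacts [hzc hy, hout z hzc hy]), Finset.card_pair (Equiv.Perm.mem_support.mp hz).symm, hcs] at hc2
    have := Finset.card_le_univ σ.support
    omega

/-- No finite simple group has order 2016 = 2^5 * 3^2 * 7. -/
theorem result {G : Type*} [Group G] [Finite G] [IsSimpleGroup G] : Nat.card G ≠ 2016 := by
  classical
  intro h
  haveI : Fact (Nat.Prime 7) := ⟨by norm_num⟩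
  haveI : Fact (Nat.Prime 2) := ⟨Nat.prime_two⟩
  have hnc : ¬ IsMulCommutative G := CfsgLib.SmallSimple.noncomm (by rw [h]; norm_num)
  have hne : ∀ (p : ℕ), p.Prime → Nat.card G ≠ p ^ (Nat.card G).factorization p := by
    intro p hp e
    have h2 := (Nat.prime_dvd_prime_iff_eq Nat.prime_two hp).mp
      (Nat.prime_two.dvd_of_dvd_pow (show 2 ∣ p ^ (Nat.card G).factorization p by rw [← e, h]; norm_num))
    have h3 := (Nat.prime_dvd_prime_iff_eq Nat.prime_three hp).mp
      (Nat.prime_three.dvd_of_dvd_pow (show 3 ∣ p ^ (Nat.card G).factorization p by rw [← e, h]; norm_num))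
    omega
  obtain ⟨h1, h2, h3⟩ := CfsgLib.SmallSimple.sylow_number (G := G) (p := 7) (k := 1) (m := 288)
    (by rw [h]; norm_num) (by norm_num) (by norm_num) one_ne_zero
  have hP7 : ∀ P : Sylow 7 G, Nat.card P = 7 := fun P => by
    rw [CfsgLib.Perm.sylow_card P (k := 1) (m := 288) (by rw [h]; norm_num) (by norm_num), pow_one]
  have hn : Nat.card (Sylow 7 G) = 8 ∨ Nat.card (Sylow 7 G) = 36 ∨ Nat.card (Sylow 7 G) = 288 := by
    have key : ∀ n ∈ Nat.divisors 288, n % 7 = 1 → n ≠ 1 → n = 8 ∨ n = 36 ∨ n = 288 := by decide +kernel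
    exact key _ h1 h2 h3
  obtain ⟨P⟩ : Nonempty (Sylow 7 G) := inferInstance
  set N := Subgroup.normalizer ((P : Subgroup G) : Set G) with hNdef
  set C := Subgroup.centralizer ((P : Subgroup G) : Set G) with hCdef
  haveI : IsCyclic (P : Subgroup G) := isCyclic_of_prime_card (hP7 P)
  have hNc : Nat.card N * Nat.card (Sylow 7 G) = 2016 := by
    rw [← CfsgLib.SmallSimple.index_normalizer P, Subgroup.card_mul_index, h]
  have hCN : C ≤ N := Subgroup.centralizer_le_normalizer _
  have hnle : ¬ N ≤ C := fun hle =>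
    CfsgLib.SmallSimple.O168.burnside_false (hne 7 (by norm_num)) P (by rw [hP7 P]; norm_num) hle
  rcases hn with hn | hn | hn
  · -- eight
    obtain ⟨x, hx⟩ := exists_prime_orderOf_dvd_card' (G := P) 7 (by rw [hP7 P])
    have hxP : Subgroup.zpowers (x : G) = P := CfsgLib.Perm.zpowers_eq_sylow (hP7 P) x.2 fun e => by
      rw [← Subgroup.orderOf_coe, e, orderOf_one] at hx; omega
    have hd := CfsgLib.SmallSimple.card_normalizer_dvd (P := (P : Subgroup G)) (hP7 P) (by
      intro z hz
      rw [← hxP, ← CfsgLib.SmallSimple.centralizer_eq_zpowers hP7 hn (by rw [Subgroup.orderOf_coe, hx])]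
      exact Subgroup.centralizer_le (Set.singleton_subset_iff.mpr x.2) hz)
    rw [show Nat.card N = 252 by rw [hn] at hNc; omega] at hd
    norm_num at hd
  rotate_left
  · refine hnle ?_
    have hPN : (P : Subgroup G) = N :=
      Subgroup.eq_of_le_of_card_ge Subgroup.le_normalizer (by rw [hP7 P]; rw [hn] at hNc; omega)
    rw [← hPN]
    exact (P : Subgroup G).le_centralizer
  have hN56 : Nat.card N = 56 := by rw [hn] at hNc; omega
  have hrel : C.relIndex N = 2 := by
    have hd6 : C.relIndex N ∣ 6 := by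
      have e := Subgroup.card_subgroup_dvd_card (P : Subgroup G).normalizerMonoidHom.range
      rw [← Subgroup.index_ker, Subgroup.normalizerMonoidHom_ker, IsCyclic.card_mulAut, hP7 P,
        Nat.totient_prime (by norm_num)] at e
      exact e
    have hd56 : C.relIndex N ∣ 56 := hN56 ▸ Subgroup.relIndex_dvd_card C N
    have hd2 : C.relIndex N ∣ 2 := (show Nat.gcd 6 56 = 2 by norm_num) ▸ Nat.dvd_gcd hd6 hd56
    rcases (Nat.dvd_prime Nat.prime_two).mp hd2 with e | e
    · exact absurd (Subgroup.relIndex_eq_one.mp e) hnle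
    · exact e
  have hC28 : Nat.card C = 28 := by
    have := Subgroup.card_mul_index (C.subgroupOf N)
    rw [show (C.subgroupOf N).index = C.relIndex N from rfl, hrel, hN56,
      Nat.card_congr (Subgroup.subgroupOfEquivOfLe hCN).toEquiv] at this
    omega
  -- the Sylow 2-subgroup of the normalizer
  obtain ⟨T0⟩ : Nonempty (Sylow 2 N) := inferInstance
  set T := (T0 : Subgroup N).map N.subtype with hTdef
  have hT8 : Nat.card T = 8 := by
    rw [hTdef, Subgroup.card_map_of_injective N.subtype_injective,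
      CfsgLib.Perm.sylow_card T0 (k := 3) (m := 7) (by rw [hN56]; norm_num) (by norm_num)]
    norm_num
  have hTN : T ≤ N := Subgroup.map_subtype_le _
  have hT2 : IsPGroup 2 T := IsPGroup.of_card (n := 3) (by rw [hT8]; norm_num)
  set K := T ⊓ C with hKdef
  have hK4 : Nat.card K = 4 := by
    have hd : Nat.card K ∣ 4 := (show Nat.gcd 8 28 = 4 by norm_num) ▸
      Nat.dvd_gcd (hT8 ▸ Subgroup.card_dvd_of_le inf_le_left) (hC28 ▸ Subgroup.card_dvd_of_le inf_le_right)
    have hle : C.relIndex T ≤ 2 := hrel ▸ Subgroup.relIndex_le_of_le_right hTN (by rw [hrel]; norm_num)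
    have hm := Subgroup.card_mul_index (K.subgroupOf T)
    rw [show (K.subgroupOf T).index = C.relIndex T by
        change K.relIndex T = _; rw [hKdef, Subgroup.inf_relIndex_left],
      Nat.card_congr (Subgroup.subgroupOfEquivOfLe (show K ≤ T from inf_le_left)).toEquiv, hT8] at hm
    have := Nat.le_of_dvd (by norm_num) hd
    nlinarith
  obtain ⟨S, hS⟩ := hT2.exists_le_sylow
  have hS32 : Nat.card S = 32 := by
    rw [CfsgLib.Perm.sylow_card S (k := 5) (m := 63) (by rw [h]; norm_num) (by norm_num)]; norm_num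
  obtain ⟨s, hsS, hsT, hsn⟩ : ∃ s : G, s ∈ (S : Subgroup G) ∧ s ∉ T ∧ s ∈ Subgroup.normalizer (T : Set G) := by
    haveI : Group.IsNilpotent (S : Subgroup G) := S.isPGroup'.isNilpotent
    have hne' : T.subgroupOf S < ⊤ := by
      rw [lt_top_iff_ne_top]
      intro e
      have := Subgroup.card_le_of_le (Subgroup.subgroupOf_eq_top.mp e)
      omega
    obtain ⟨s, hs1, hs2⟩ := SetLike.exists_of_lt (Group.normalizerCondition_of_isNilpotent _ hne')
    refine ⟨s, s.2, hs2, ?_⟩
    rw [Subgroup.mem_normalizer_iff]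
    intro a
    constructor
    · intro ha
      exact (Subgroup.mem_normalizer_iff.mp hs1 ⟨a, hS ha⟩).mp ha
    · intro ha
      have haS : a ∈ (S : Subgroup G) := by
        have := S.toSubgroup.mul_mem (S.toSubgroup.mul_mem (S.toSubgroup.inv_mem s.2) (hS ha)) s.2
        simpa [mul_assoc] using this
      exact (Subgroup.mem_normalizer_iff.mp hs1 ⟨a, haS⟩).mpr ha
  have hsN : s ∉ N := by
    intro hs
    set U := T ⊔ Subgroup.zpowers s
    have hUS : U ≤ S := sup_le hS (Subgroup.zpowers_le.mpr hsS)
    have hUN : U ≤ N := sup_le hTN (Subgroup.zpowers_le.mpr hs)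
    have hd : Nat.card U ∣ Nat.gcd 32 56 :=
      Nat.dvd_gcd (hS32 ▸ Subgroup.card_dvd_of_le hUS) (hN56 ▸ Subgroup.card_dvd_of_le hUN)
    have e : T = U := Subgroup.eq_of_le_of_card_ge le_sup_left (by
      rw [hT8]; exact Nat.le_of_dvd (by norm_num) (hd.trans (by norm_num)))
    exact hsT (e ▸ Subgroup.mem_sup_right (Subgroup.mem_zpowers s))
  set K' := K.map (MulAut.conj s).toMonoidHom with hK'def
  have hK'T : K' ≤ T := by
    rintro _ ⟨a, ha, rfl⟩
    exact (Subgroup.mem_normalizer_iff.mp hsn a).mp ha.1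
  have hint : K ⊓ K' ≠ ⊥ := by
    intro e
    let φ : K × K' → T := fun x => ⟨x.1 * x.2, T.mul_mem x.1.2.1 (hK'T x.2.2)⟩
    have hφ : Function.Injective φ := fun a b hab =>
      Subgroup.mul_injective_of_disjoint (disjoint_iff.mpr e) (congrArg Subtype.val hab)
    have := Nat.card_le_card_of_injective φ hφ
    rw [Nat.card_prod, hK4, hT8, hK'def, Subgroup.card_map_of_injective (MulAut.conj s).injective, hK4] at this
    omega
  obtain ⟨k, hk⟩ := exists_prime_orderOf_dvd_card' (G := (K ⊓ K' : Subgroup G)) 2 (by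
    obtain ⟨j, hj⟩ := IsPGroup.iff_card.mp (hT2.to_le (show K ⊓ K' ≤ T from inf_le_left.trans inf_le_left))
    rcases j with _ | j
    · exact absurd (Subgroup.card_eq_one.mp hj) hint
    · rw [hj]; exact dvd_pow_self 2 j.succ_ne_zero)
  rw [← Subgroup.orderOf_coe] at hk
  have hkK : (k : G) ∈ K := k.2.1
  set H := Subgroup.centralizer ({(k : G)} : Set G) with hH
  have hk1 : (k : G) ≠ 1 := fun e => by rw [e, orderOf_one] at hk; omega
  have hHtop : H ≠ ⊤ := CfsgLib.Perm.centralizer_ne_top_of_simple hnc hk1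
  have hPH : (P : Subgroup G) ≤ H := fun z hz =>
    Subgroup.mem_centralizer_singleton_iff.mpr (Subgroup.mem_centralizer_iff.mp hkK.2 z hz)
  have hsPH : ((s • P : Sylow 7 G) : Subgroup G) ≤ H := by
    rintro _ ⟨a, ha, rfl⟩
    obtain ⟨b, hb, hbk⟩ := k.2.2
    refine Subgroup.mem_centralizer_singleton_iff.mpr ?_
    rw [← hbk]
    have hab : a * b = b * a := Subgroup.mem_centralizer_iff.mp hb.2 a ha
    show (s * a * s⁻¹) * (s * b * s⁻¹) = (s * b * s⁻¹) * (s * a * s⁻¹)
    calc (s * a * s⁻¹) * (s * b * s⁻¹) = s * (a * b) * s⁻¹ := by group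
      _ = s * (b * a) * s⁻¹ := by rw [hab]
      _ = (s * b * s⁻¹) * (s * a * s⁻¹) := by group
  have hne7 : s • P ≠ P := fun e => hsN (Sylow.smul_eq_iff_mem_normalizer.mp e)
  have hn8 : 8 ≤ Nat.card (Sylow 7 H) := by
    have hm := card_sylow_modEq_one 7 H
    rw [Nat.ModEq] at hm
    by_contra hlt
    have h1' : Nat.card (Sylow 7 H) = 1 := by
      have : 0 < Nat.card (Sylow 7 H) := Nat.card_pos
      omega
    haveI := (Nat.card_eq_one_iff_unique.mp h1').1
    exact hne7 (Sylow.subtype_injective (Subsingleton.elim ((s • P).subtype hsPH) (P.subtype hPH)))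
  have hH224 : 224 ≤ Nat.card H := by
    set PH := P.subtype hPH
    set NH := Subgroup.normalizer ((PH : Subgroup H) : Set H) with hNH
    have e := NH.card_mul_index
    rw [show NH.index = Nat.card (Sylow 7 H) from PH.card_eq_index_normalizer.symm] at e
    have h7 : 7 ∣ Nat.card NH := by
      refine dvd_trans ?_ (Subgroup.card_dvd_of_le (Subgroup.le_normalizer : (PH : Subgroup H) ≤ NH))
      rw [Sylow.coe_subtype, Nat.card_congr (Subgroup.subgroupOfEquivOfLe hPH).toEquiv, hP7 P]
    have hKH : K ≤ H := fun z hz => by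
      haveI : IsMulCommutative K := IsPGroup.isMulCommutative_of_card_eq_prime_sq (p := 2) (by rw [hK4]; norm_num)
      exact Subgroup.mem_centralizer_singleton_iff.mpr
        (congrArg Subtype.val (IsMulCommutative.is_comm.comm (⟨z, hz⟩ : K) ⟨k, hkK⟩))
    have h4 : 4 ∣ Nat.card NH := by
      have hle : K.subgroupOf H ≤ NH := by
        intro z hz
        rw [hNH, Subgroup.mem_normalizer_iff]
        intro a
        show (a : G) ∈ (P : Subgroup G) ↔ (z * a * z⁻¹ : G) ∈ (P : Subgroup G)
        exact Subgroup.mem_normalizer_iff.mp (hCN hz.2) a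
      refine dvd_trans ?_ (Subgroup.card_dvd_of_le hle)
      rw [Nat.card_congr (Subgroup.subgroupOfEquivOfLe hKH).toEquiv, hK4]
    have h28 : 28 ≤ Nat.card NH :=
      Nat.le_of_dvd Nat.card_pos (Nat.Coprime.mul_dvd_of_dvd_of_dvd (show Nat.Coprime 4 7 by norm_num) h4 h7)
    nlinarith
  have hidx : H.index ≤ 9 := by
    have := H.card_mul_index
    nlinarith
  obtain ⟨f, hf⟩ := CfsgLib.Perm.exists_hom_perm H hHtop
  obtain ⟨x, hx⟩ := exists_prime_orderOf_dvd_card' (G := P) 7 (by rw [hP7 P])
  refine no_involution (c := f (x : G)) (σ := f (k : G)) (by rw [Fintype.card_fin]; exact hidx) ?_ ?_ ?_ ?_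
  · rw [orderOf_injective f hf, Subgroup.orderOf_coe, hx]
  · rw [orderOf_injective f hf, hk]
  · exact (Commute.map (show Commute (k : G) x from
      (Subgroup.mem_centralizer_iff.mp hkK.2 x x.2).symm) f)
  · exact DFunLike.congr_fun (CfsgLib.Perm.sign_comp_eq_one hnc (Equiv.Perm.sign.comp f)) (k : G)

end Cfsg.Agent.S1017
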