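import Cfsg.Statements.S1018
import Mathlib
import Cfsg.Agent.Lib.InvolBasic
import Cfsg.Agent.Lib.PermSylow

set_option autoImplicit false
open Cfsg

namespace Cfsg.Agent.S1018

/-- Let P be a Sylow p-subgroup of order p of a finite group G, and consider the action of G on the left cosets of the normalizer N of P. Then every element of order p fixes exactly one coset, and an element of N that does not centralize P fixes at most as many cosets as there are orbits of P. -/
theorem result {G : Type*} [Group G] [Finite G] (p : ℕ) [Fact p.Prime] (P : Sylow p G) (hP : Nat.card ↥(P : Subgroup G) = p) : (∀ y : G, orderOf y = p → Nat.card (MulAction.fixedBy (G ⧸ Subgroup.normalizer ((P : Subgroup G) : Set G)) y) = 1) ∧ ∀ x : G, x ∈ Subgroup.normalizer ((P : Subgroup G) : Set G) → x ∉ Subgroup.centralizer ((P : Subgroup G) : Set G) → Nat.card (MulAction.fixedBy (G ⧸ Subgroup.normalizer ((P : Subgroup G) : Set G)) x) ≤ Nat.card (MulAction.orbitRel.Quotient ↥(P : Subgroup G) (G ⧸ Subgroup.normalizer ((P : Subgroup G) : Set G))) :=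 by
  classical
  have hp : p.Prime := Fact.out
  set N := Subgroup.normalizer ((P : Subgroup G) : Set G) with hN
  have hfix : ∀ (y g : G), y • (g : G ⧸ N) = g ↔ g⁻¹ * y * g ∈ N := fun y g => by
    rw [MulAction.Quotient.smul_coe, eq_comm, QuotientGroup.eq, smul_eq_mul, mul_assoc]
  have hNP : ∀ u : G, orderOf u = p → u ∈ N → u ∈ (P : Subgroup G) := by
    intro u hu huN
    have hp' : IsPGroup p (Subgroup.zpowers u) := IsPGroup.of_card (n := 1) (by rw [Nat.card_zpowers, hu, pow_one])
    exact ((hp'.inf_normalizer_sylow P).le ⟨Subgroup.mem_zpowers u, huN⟩).2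
  -- uniqueness of the fixed coset
  have uniq : ∀ y : G, orderOf y = p → ∀ g g' : G, y • (g : G ⧸ N) = g → y • (g' : G ⧸ N) = g' →
      (g : G ⧸ N) = (g' : G ⧸ N) := by
    intro y hy g g' hg hg'
    have hy1 : y ≠ 1 := fun h => hp.ne_one (by rw [← hy, h, orderOf_one])
    have key : ∀ a : G, y • (a : G ⧸ N) = a →
        Subgroup.zpowers (a⁻¹ * y * a) = (P : Subgroup G) := by
      intro a ha
      have ho : orderOf (a⁻¹ * y * a) = p := by
        rw [← hy]; simpa using CfsgLib.Invol.orderOf_conj a⁻¹ y
      refine CfsgLib.Perm.zpowers_eq_sylow hP (hNP _ ho ((hfix y a).mp ha)) ?_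
      intro h; exact hp.ne_one (by rw [← ho, h, orderOf_one])
    rw [QuotientGroup.eq, hN, Subgroup.mem_normalizer_iff_map_conj_eq]
    conv_lhs => rw [← key g' hg']
    rw [MonoidHom.map_zpowers]
    refine Eq.trans (congrArg Subgroup.zpowers ?_) (key g hg)
    simp [mul_assoc]
  refine ⟨fun y hy => ?_, fun x hxN hxC => ?_⟩
  · rw [Nat.card_eq_one_iff_unique]
    obtain ⟨Q, hQ⟩ := CfsgLib.Perm.exists_sylow_eq_zpowers hP hy
    obtain ⟨a, ha⟩ := MulAction.exists_smul_eq G P Q
    refine ⟨⟨fun c d => ?_⟩, ⟨⟨(a : G ⧸ N), ?_⟩⟩⟩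
    · obtain ⟨c, hc⟩ := c; obtain ⟨d, hd⟩ := d
      induction c using QuotientGroup.induction_on with
      | H g => induction d using QuotientGroup.induction_on with
        | H g' => exact Subtype.ext (uniq y hy g g' hc hd)
    · rw [MulAction.mem_fixedBy, hfix]
      have : y ∈ ((a • P : Sylow p G) : Subgroup G) := by rw [ha, hQ]; exact Subgroup.mem_zpowers y
      obtain ⟨z, hz, rfl⟩ := this
      have : a⁻¹ * (MulAut.conj a).toMonoidHom z * a = z := by simp [mul_assoc]
      rw [hN]
      refine Subgroup.le_normalizer ?_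
      simp [mul_assoc]
      exact hz
  · refine Nat.card_le_card_of_injective (fun c => (Quotient.mk'' c.1 :
      MulAction.orbitRel.Quotient (P : Subgroup G) (G ⧸ N))) ?_
    rintro ⟨c, hc⟩ ⟨d, hd⟩ h
    obtain ⟨⟨u, hu⟩, hud⟩ := MulAction.orbitRel_apply.mp (Quotient.eq''.mp h)
    change u • d = c at hud
    subst hud
    apply Subtype.ext
    change u • d = d
    by_cases hu1 : u = 1
    · rw [hu1, one_smul]
    rw [MulAction.mem_fixedBy] at hc hd
    set w := x⁻¹ * u⁻¹ * x * u with hw
    have hwd : w • d = d := by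
      rw [hw, mul_smul, mul_smul, mul_smul, hc, inv_smul_smul, inv_smul_eq_iff, hd]
    have hwP : w ∈ (P : Subgroup G) := by
      rw [hw]
      refine mul_mem ?_ hu
      have := (Subgroup.mem_normalizer_iff.mp (inv_mem hxN) u⁻¹).mp (inv_mem hu)
      rwa [inv_inv] at this
    have hw1 : w ≠ 1 := by
      intro h1
      apply hxC
      rw [Subgroup.mem_centralizer_iff]
      intro z hz
      obtain ⟨i, rfl⟩ : z ∈ Subgroup.zpowers u :=
        (CfsgLib.Perm.zpowers_eq_sylow hP hu hu1).symm ▸ hz
      have hcom : Commute u x := by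
        have : x * u = u * x := by
          calc x * u = u * x * (x⁻¹ * u⁻¹ * x * u) := by group
            _ = u * x * w := rfl
            _ = u * x := by rw [h1, mul_one]
        exact this.symm
      exact (hcom.zpow_left i).eq
    induction d using QuotientGroup.induction_on with
    | H g =>
      have h1 := uniq w (CfsgLib.Perm.orderOf_eq_prime_of_mem hP hwP hw1) g 1 hwd
        ((hfix w 1).mpr (by rw [inv_one, one_mul, mul_one, hN]; exact Subgroup.le_normalizer hwP))
      rw [h1, hfix, inv_one, one_mul, mul_one, hN]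
      exact Subgroup.le_normalizer hu

end Cfsg.Agent.S1018
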