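import Cfsg.Statements.S1019
import Mathlib
import Cfsg.Agent.Lib.InvolBasic

set_option autoImplicit false
open Cfsg

namespace Cfsg.Agent.S1019

/-- Let H be a subgroup of a finite group G and x an element of H. In the action of G on the left cosets of H, the number of cosets fixed by x, multiplied by the size of the conjugacy class of x, equals the index of H multiplied by the number of conjugates of x that lie in H. -/
theorem result {G : Type*} [Group G] [Finite G] (H : Subgroup G) (x : G) (hx : x ∈ H) : Nat.card (MulAction.fixedBy (G ⧸ H) x) * Nat.card {g : G // IsConj x g} = H.index * Nat.card {g : G // IsConj x g ∧ g ∈ H} := by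
  classical
  haveI := Fintype.ofFinite G
  have h1 : Nat.card {g : G // g⁻¹ * x * g ∈ H} = Nat.card (MulAction.fixedBy (G ⧸ H) x) * Nat.card H := by
    rw [mul_comm, ← Nat.card_prod,
      ← Nat.card_congr (QuotientGroup.preimageMkEquivSubgroupProdSet H (MulAction.fixedBy (G ⧸ H) x))]
    refine Nat.card_congr (Equiv.subtypeEquivRight fun g => ?_)
    simp only [Set.mem_preimage, MulAction.mem_fixedBy, MulAction.Quotient.smul_coe, smul_eq_mul,
      QuotientGroup.eq]
    rw [← inv_mem_iff (x := g⁻¹ * x * g)]
    simp [mul_assoc]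
  have h2 : Nat.card {g : G // g⁻¹ * x * g ∈ H} =
      Nat.card {g : G // IsConj x g ∧ g ∈ H} * Nat.card (Subgroup.centralizer ({x} : Set G)) := by
    let f : {g : G // g⁻¹ * x * g ∈ H} → {g : G // IsConj x g ∧ g ∈ H} := fun g =>
      ⟨g.1⁻¹ * x * g.1, isConj_iff.mpr ⟨g.1⁻¹, by rw [inv_inv]⟩, g.2⟩
    rw [← Nat.card_congr (Equiv.sigmaFiberEquiv f), Nat.card_sigma,
      Finset.sum_const_nat (m := Nat.card (Subgroup.centralizer ({x} : Set G))), Finset.card_univ,
      ← Nat.card_eq_fintype_card]
    rintro ⟨y, hy, hyH⟩ -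
    obtain ⟨c, hc⟩ := isConj_iff.mp hy
    have key : ∀ a : G, a⁻¹ * x * a = y ↔ a * c ∈ Subgroup.centralizer ({x} : Set G) := by
      intro a
      rw [Subgroup.mem_centralizer_singleton_iff, ← hc]
      constructor <;> intro h
      · calc a * c * x = a * (c * x * c⁻¹) * c := by group
          _ = a * (a⁻¹ * x * a) * c := by rw [h]
          _ = x * (a * c) := by group
      · calc a⁻¹ * x * a = a⁻¹ * (x * (a * c)) * c⁻¹ := by group
          _ = a⁻¹ * (a * c * x) * c⁻¹ := by rw [h]
          _ = c * x * c⁻¹ := by group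
    exact Nat.card_congr
      { toFun := fun a => ⟨a.1.1 * c, (key _).mp (congrArg Subtype.val a.2)⟩
        invFun := fun b => ⟨⟨b.1 * c⁻¹, by
          rw [(key (b.1 * c⁻¹)).mpr (by rw [inv_mul_cancel_right]; exact b.2)]; exact hyH⟩,
          Subtype.ext ((key (b.1 * c⁻¹)).mpr (by rw [inv_mul_cancel_right]; exact b.2))⟩
        left_inv := fun a => Subtype.ext (Subtype.ext (mul_inv_cancel_right _ _))
        right_inv := fun b => Subtype.ext (inv_mul_cancel_right _ _) }
  have hK := CfsgLib.Invol.card_isConj_mul_card_centralizer x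
  refine Nat.eq_of_mul_eq_mul_right (Nat.card_pos (α := H)) ?_
  have hi := H.index_mul_card
  calc _ = (Nat.card (MulAction.fixedBy (G ⧸ H) x) * Nat.card H) * Nat.card {g : G // IsConj x g} := by ring
    _ = (Nat.card {g : G // g⁻¹ * x * g ∈ H}) * Nat.card {g : G // IsConj x g} := by rw [h1]
    _ = Nat.card {g : G // IsConj x g ∧ g ∈ H} * (Nat.card {g : G // IsConj x g} * Nat.card (Subgroup.centralizer ({x} : Set G))) := by rw [h2]; ring
    _ = Nat.card {g : G // IsConj x g ∧ g ∈ H} * (H.index * Nat.card H) := by rw [hK, hi]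
    _ = _ := by ring

end Cfsg.Agent.S1019
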