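import Cfsg.Statements.S1026
import Cfsg.Agent.Lib.LieChevStruct

set_option autoImplicit false
open Cfsg

namespace Cfsg.Agent.S1026

/-- Every element of `U` has a unique expression `∏_{r ∈ Φ⁺} x_r(t_r)`, the product over the positive roots in increasing index order (the coefficient family `t`, supported on the positive roots, exists and is unique); and conversely every such ordered product is the matrix of an element of `U`. -/
theorem result {F : Type*} [Field F] (D : Cfsg.Lie.ChevalleyDatum) (hD : D ∈ [Cfsg.Lie.chevG2, Cfsg.Lie.chevB2, Cfsg.Lie.chevD4, Cfsg.Lie.chevF4, Cfsg.Lie.chevE6, Cfsg.Lie.chevE7, Cfsg.Lie.chevE8]) :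
    (∀ g : GL D.Idx F, g ∈ D.posUnipotent F →
      ∃! t : ℕ → F, (∀ r, ¬ D.IsPosRoot r → t r = 0) ∧
        (g : Matrix D.Idx D.Idx F) = D.wordMat F (D.posRoots.map fun r => (r, t r))) ∧
    (∀ t : ℕ → F, ∃ g : GL D.Idx F, g ∈ D.posUnipotent F ∧
      (g : Matrix D.Idx D.Idx F) = D.wordMat F (D.posRoots.map fun r => (r, t r))) := by
  obtain ⟨T, hT⟩ := CfsgLib.Lie.exists_good hD
  open CfsgLib.Lie.Tab in
  refine ⟨fun g hg => ?_, fun t => ?_⟩
  · open CfsgLib.Lie.Tab in
    obtain ⟨f, hf⟩ := (mem_posUnipotent hT.checked hT.extra).1 hg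
    classical
    refine ⟨fun r => if h : r < D.nroots then (if D.IsPosRoot r then f ⟨r, h⟩ else 0) else 0,
      ⟨fun r hr => by simp [hr], ?_⟩, ?_⟩
    · rw [CfsgLib.Lie.Tab.posRoots_eq hT.checked, hf]
      refine CfsgLib.Lie.Tab.coe_uprod hT.checked _ _ _ fun r hr => ?_
      have := (CfsgLib.Lie.Tab.pos_iff_isPosRoot hT.checked r).2 (CfsgLib.Lie.Tab.mem_posFrom.1 hr).1
      simp [this]
    · rintro t ⟨ht0, ht⟩
      rw [CfsgLib.Lie.Tab.posRoots_eq hT.checked,
        ← CfsgLib.Lie.Tab.coe_uprod hT.checked (CfsgLib.Lie.Tab.posFrom T 0) (fun r => t r.val) t (fun r _ => rfl)] at ht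
      have e := Units.ext ht
      funext r
      by_cases hr : r < D.nroots
      · by_cases hp : D.IsPosRoot r
        · have := CfsgLib.Lie.Tab.uprod_injective hT.checked (e.symm.trans hf) ⟨r, hr⟩
            ((CfsgLib.Lie.Tab.pos_iff_isPosRoot hT.checked ⟨r, hr⟩).1 hp)
          simpa [hr, hp] using this
        · simp [hr, hp, ht0 r hp]
      · simp [hr, ht0 r (fun h => hr h.1)]
  · refine ⟨CfsgLib.Lie.Tab.uprod hT.checked (CfsgLib.Lie.Tab.posFrom T 0) (fun r => t r.val),
      (CfsgLib.Lie.Tab.mem_posUnipotent hT.checked hT.extra).2 ⟨_, rfl⟩, ?_⟩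
    rw [CfsgLib.Lie.Tab.posRoots_eq hT.checked]
    exact CfsgLib.Lie.Tab.coe_uprod hT.checked _ _ t (fun r _ => rfl)

end Cfsg.Agent.S1026
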