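import Cfsg.Statements.S1031
import Cfsg.Agent.Lib.LieChevAll

set_option autoImplicit false
open Cfsg

namespace Cfsg.Agent.S1031

/-- For a fundamental root `p = p_{i+1}` and any root `s`: `n_p x_s(t) n_p⁻¹ = x_{w_p(s)}(η t)` with a sign `η = ±1` independent of `t`, where `w_p(s)` is the reflected root (`reflectRoot`). Stated as `n_p x_s(t) = x_{w_p(s)}(η t) n_p`. -/
theorem result {F : Type*} [Field F] (D : Cfsg.Lie.ChevalleyDatum) (hD : D ∈ [Cfsg.Lie.chevG2, Cfsg.Lie.chevB2, Cfsg.Lie.chevD4, Cfsg.Lie.chevF4, Cfsg.Lie.chevE6, Cfsg.Lie.chevE7, Cfsg.Lie.chevE8]) (i s : ℕ) (hi : i < D.rank) (hs : s < D.nroots) :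
    ∃ η : ℤ, (η = 1 ∨ η = -1) ∧
      ∀ t : F, D.nMat F (D.simple i) 1 * D.x F s t = D.x F (D.reflectRoot i s) ((η : F) * t) * D.nMat F (D.simple i) 1 := by
  obtain ⟨T, hT⟩ := CfsgLib.Lie.exists_good hD
  refine ⟨T.η ⟨i, hi⟩ ⟨s, hs⟩, CfsgLib.Lie.Tab.η_or hT.checked _ _, fun t => ?_⟩
  have hn : D.nMat F (D.simple i) 1 = T.S F ⟨i, hi⟩ := by
    rw [← CfsgLib.Lie.Tab.coe_sg hT.checked, CfsgLib.Lie.Tab.sg_eq_nel, CfsgLib.Lie.Tab.coe_nel,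
      show D.simple i = (T.p ⟨i, hi⟩).val from CfsgLib.Lie.Tab.simple_eq hT.checked ⟨i, hi⟩]
    simp
  rw [hn, CfsgLib.Lie.Tab.reflectRoot_eq hT.checked hT.extra ⟨i, hi⟩ ⟨s, hs⟩,
    CfsgLib.Lie.Tab.x_eq hT.checked ⟨s, hs⟩, CfsgLib.Lie.Tab.x_eq hT.checked,
    CfsgLib.Lie.Tab.S_mul_X hT.checked]

end Cfsg.Agent.S1031
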