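import Cfsg.Statements.S1032
import Cfsg.Agent.Lib.LieChevAll

set_option autoImplicit false
open Cfsg

namespace Cfsg.Agent.S1032

/-- For a fundamental root `p`, a root `s` and `c ≠ 0`: `h_p(c) x_s(t) h_p(c)⁻¹ = x_s(c^{A_{p,s}} t)`, stated as `h_p(c) x_s(t) = x_s(c^{A_{p,s}} t) h_p(c)`. -/
theorem result {F : Type*} [Field F] (D : Cfsg.Lie.ChevalleyDatum) (hD : D ∈ [Cfsg.Lie.chevG2, Cfsg.Lie.chevB2, Cfsg.Lie.chevD4, Cfsg.Lie.chevF4, Cfsg.Lie.chevE6, Cfsg.Lie.chevE7, Cfsg.Lie.chevE8]) (i s : ℕ) (hi : i < D.rank) (hs : s < D.nroots) (c : F) (hc : c ≠ 0) (t : F) :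
    D.hMat F (D.simple i) c * D.x F s t = D.x F s (c ^ (D.cartan i s) * t) * D.hMat F (D.simple i) c := by
  obtain ⟨T, hT⟩ := CfsgLib.Lie.exists_good hD
  have hp : D.simple i = (T.p ⟨i, hi⟩).val := CfsgLib.Lie.Tab.simple_eq hT.checked ⟨i, hi⟩
  have hA : D.cartan i s = T.A ⟨i, hi⟩ ⟨s, hs⟩ := CfsgLib.Lie.Tab.cartan_eq hT.checked ⟨i, hi⟩ ⟨s, hs⟩
  have h := congrArg Units.val (mul_inv_eq_iff_eq_mul.1 (CfsgLib.Lie.Tab.dg_conj_u hT.checked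
    (CfsgLib.Lie.Tab.hc_isChar hT.checked (T.p ⟨i, hi⟩) (Units.mk0 c hc)) ⟨s, hs⟩ t))
  rw [← CfsgLib.Lie.Tab.hel_eq hT.checked, Units.val_mul, Units.val_mul, CfsgLib.Lie.Tab.coe_u_eq_x,
    CfsgLib.Lie.Tab.coe_u_eq_x, CfsgLib.Lie.Tab.coe_hel hT.checked] at h
  rw [hp, hA]
  simpa [CfsgLib.Lie.Tab.hc, CfsgLib.Lie.Tab.pair_p hT.checked] using h

end Cfsg.Agent.S1032
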