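import Cfsg.Statements.S1035
import Cfsg.Agent.Lib.LieTorusG2
import Cfsg.Agent.Lib.LieTorusB2
import Cfsg.Agent.Lib.LieTorusD4
import Cfsg.Agent.Lib.LieTorusF4
import Cfsg.Agent.Lib.LieTorusE6
import Cfsg.Agent.Lib.LieTorusE7
import Cfsg.Agent.Lib.LieTorusE8

set_option autoImplicit false
open Cfsg

namespace Cfsg.Agent.S1035

/-- `d · |H| = (q - 1)^rank` over a field with `q` elements, with `d = 1` (G₂, F₄, E₈), `gcd(3, q-1)` (E₆), `gcd(2, q-1)` (E₇, B₂), `gcd(2, q-1)²` (D₄). -/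
theorem result {F : Type*} [Field F] [Fintype F] {q : ℕ} (hq : Fintype.card F = q)
    (p : Cfsg.Lie.ChevalleyDatum × ℕ)
    (hp : p ∈ [(Cfsg.Lie.chevG2, 1), (Cfsg.Lie.chevF4, 1), (Cfsg.Lie.chevE8, 1), (Cfsg.Lie.chevE6, Nat.gcd 3 (q - 1)),
      (Cfsg.Lie.chevE7, Nat.gcd 2 (q - 1)), (Cfsg.Lie.chevB2, Nat.gcd 2 (q - 1)), (Cfsg.Lie.chevD4, Nat.gcd 2 (q - 1) ^ 2)]) :
    p.2 * Nat.card (p.1.diagonalSubgroup F) = (q - 1) ^ p.1.rank := by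
  subst hq
  simp only [List.mem_cons, List.not_mem_nil, or_false] at hp
  rcases hp with rfl | rfl | rfl | rfl | rfl | rfl | rfl
  · simpa [CfsgLib.Lie.kerG2] using CfsgLib.Lie.Tab.card_diagonal (F := F) CfsgLib.Lie.checkedG2 CfsgLib.Lie.G2_ker (by simp [CfsgLib.Lie.kerG2])
  · simpa [CfsgLib.Lie.kerF4] using CfsgLib.Lie.Tab.card_diagonal (F := F) CfsgLib.Lie.checkedF4 CfsgLib.Lie.F4_ker (by simp [CfsgLib.Lie.kerF4])
  · simpa [CfsgLib.Lie.kerE8] using CfsgLib.Lie.Tab.card_diagonal (F := F) CfsgLib.Lie.checkedE8 CfsgLib.Lie.E8_ker (by simp [CfsgLib.Lie.kerE8])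
  · simpa [CfsgLib.Lie.kerE6] using CfsgLib.Lie.Tab.card_diagonal (F := F) CfsgLib.Lie.checkedE6 CfsgLib.Lie.E6_ker (by simp [CfsgLib.Lie.kerE6])
  · simpa [CfsgLib.Lie.kerE7] using CfsgLib.Lie.Tab.card_diagonal (F := F) CfsgLib.Lie.checkedE7 CfsgLib.Lie.E7_ker (by simp [CfsgLib.Lie.kerE7])
  · simpa [CfsgLib.Lie.kerB2] using CfsgLib.Lie.Tab.card_diagonal (F := F) CfsgLib.Lie.checkedB2 CfsgLib.Lie.B2_ker (by simp [CfsgLib.Lie.kerB2])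
  · simpa [CfsgLib.Lie.kerD4] using CfsgLib.Lie.Tab.card_diagonal (F := F) CfsgLib.Lie.checkedD4 CfsgLib.Lie.D4_ker (by simp [CfsgLib.Lie.kerD4])

end Cfsg.Agent.S1035
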