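import Cfsg.Statements.S1044
import Cfsg.Agent.Lib.LieChevStruct

set_option autoImplicit false
open Cfsg

namespace Cfsg.Agent.S1044

/-- For a fundamental root `p` the set `B ∪ B n_p B` is (the carrier of) a subgroup of the general linear group. -/
theorem result {F : Type*} [Field F] (D : Cfsg.Lie.ChevalleyDatum) (hD : D ∈ [Cfsg.Lie.chevG2, Cfsg.Lie.chevB2, Cfsg.Lie.chevD4, Cfsg.Lie.chevF4, Cfsg.Lie.chevE6, Cfsg.Lie.chevE7, Cfsg.Lie.chevE8]) (i : ℕ) (hi : i < D.rank) (n : GL D.Idx F)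
    (hn : (n : Matrix D.Idx D.Idx F) = D.nMat F (D.simple i) 1) :
    ∃ P : Subgroup (GL D.Idx F), (P : Set (GL D.Idx F)) =
      (D.borelSubgroup F : Set (GL D.Idx F)) ∪ DoubleCoset.doubleCoset n (D.borelSubgroup F : Set (GL D.Idx F)) (D.borelSubgroup F) := by
  obtain ⟨T, hT⟩ := CfsgLib.Lie.exists_good hD
  have hc := hT.checked
  have en : n = CfsgLib.Lie.Tab.sg hc ⟨i, hi⟩ := by
    refine Units.ext (hn.trans ?_)
    rw [CfsgLib.Lie.Tab.sg_eq_nel, CfsgLib.Lie.Tab.coe_nel,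
      show D.simple i = (T.p ⟨i, hi⟩).val from CfsgLib.Lie.Tab.simple_eq hc ⟨i, hi⟩]
    simp
  subst en
  set B := D.borelSubgroup F
  set s := CfsgLib.Lie.Tab.sg (F := F) hc ⟨i, hi⟩ with hsdef
  have hs : s * s ∈ B := Subgroup.mem_sup_right (CfsgLib.Lie.Tab.sg_sq_mem hc _)
  have hmem : ∀ {x}, x ∈ DoubleCoset.doubleCoset s (B : Set (GL D.Idx F)) B ↔ ∃ a ∈ B, ∃ b ∈ B, x = a * s * b :=
    fun {x} => DoubleCoset.mem_doubleCoset
  refine ⟨{ carrier := (B : Set (GL D.Idx F)) ∪ DoubleCoset.doubleCoset s (B : Set (GL D.Idx F)) B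
            mul_mem' := ?_, one_mem' := Or.inl B.one_mem, inv_mem' := ?_ }, rfl⟩
  · rintro x y (hx | hx) (hy | hy)
    · exact Or.inl (B.mul_mem hx hy)
    · obtain ⟨a, ha, b, hb, rfl⟩ := hmem.1 hy
      exact Or.inr (hmem.2 ⟨x * a, B.mul_mem hx ha, b, hb, by group⟩)
    · obtain ⟨a, ha, b, hb, rfl⟩ := hmem.1 hx
      exact Or.inr (hmem.2 ⟨a, ha, b * y, B.mul_mem hb hy, by group⟩)
    · obtain ⟨a, ha, b, hb, rfl⟩ := hmem.1 hx
      obtain ⟨a', ha', b', hb', rfl⟩ := hmem.1 hy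
      rcases CfsgLib.Lie.Tab.bnb hc hT.extra ⟨i, hi⟩ (CfsgLib.Lie.Tab.sg_mem_monomial hc ⟨i, hi⟩)
        (B.mul_mem hb ha') with ⟨b₁, h₁, b₂, h₂, e⟩ | ⟨b₁, h₁, b₂, h₂, e⟩
      · refine Or.inl ?_
        have : a * s * b * (a' * s * b') = a * (b₁ * (s * s) * b₂) * b' := by
          rw [← e, hsdef]; group
        rw [SetLike.mem_coe, this]
        exact B.mul_mem (B.mul_mem ha (B.mul_mem (B.mul_mem h₁ hs) h₂)) hb'
      · refine Or.inr (hmem.2 ⟨a * b₁, B.mul_mem ha h₁, b₂ * b', B.mul_mem h₂ hb', ?_⟩)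
        calc a * s * b * (a' * s * b') = a * (s * (b * a') * s) * b' := by group
          _ = _ := by rw [hsdef, e]; group
  · rintro x (hx | hx)
    · exact Or.inl (B.inv_mem hx)
    · obtain ⟨a, ha, b, hb, rfl⟩ := hmem.1 hx
      exact Or.inr (hmem.2 ⟨b⁻¹ * (s * s)⁻¹, B.mul_mem (B.inv_mem hb) (B.inv_mem hs), a⁻¹, B.inv_mem ha, by group⟩)

end Cfsg.Agent.S1044
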