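import Cfsg.Statements.S1045
import Cfsg.Agent.Lib.LieChevStruct

set_option autoImplicit false
open Cfsg

namespace Cfsg.Agent.S1045

/-- For a fundamental root `p`, the subgroup `U_p` generated by the `X_s`, `s` positive and `s ≠ p`, is normalised by `X_p` and `X_{-p}`, and `U = U_p ⊔ X_p`. -/
theorem result {F : Type*} [Field F] (D : Cfsg.Lie.ChevalleyDatum) (hD : D ∈ [Cfsg.Lie.chevG2, Cfsg.Lie.chevB2, Cfsg.Lie.chevD4, Cfsg.Lie.chevF4, Cfsg.Lie.chevE6, Cfsg.Lie.chevE7, Cfsg.Lie.chevE8]) (i : ℕ) (hi : i < D.rank) :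
    D.rootSubgroup F (D.simple i) ⊔ D.rootSubgroup F (D.neg (D.simple i)) ≤
        Subgroup.normalizer (Subgroup.closure {g : GL D.Idx F | ∃ (s : ℕ) (t : F), D.IsPosRoot s ∧ s ≠ D.simple i ∧
          (g : Matrix D.Idx D.Idx F) = D.x F s t} : Set (GL D.Idx F)) ∧
      Subgroup.closure {g : GL D.Idx F | ∃ (s : ℕ) (t : F), D.IsPosRoot s ∧ s ≠ D.simple i ∧
          (g : Matrix D.Idx D.Idx F) = D.x F s t} ⊔ D.rootSubgroup F (D.simple i) = D.posUnipotent F := by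
  obtain ⟨T, hT⟩ := CfsgLib.Lie.exists_good hD
  have hc := hT.checked
  have hp : D.simple i = (T.p ⟨i, hi⟩).val := CfsgLib.Lie.Tab.simple_eq hc ⟨i, hi⟩
  have e : Subgroup.closure {g : GL D.Idx F | ∃ (s : ℕ) (t : F), D.IsPosRoot s ∧ s ≠ D.simple i ∧
      (g : Matrix D.Idx D.Idx F) = D.x F s t} =
      CfsgLib.Lie.Tab.Ugrp hc F (CfsgLib.Lie.Tab.posExcept T ⟨i, hi⟩) := by
    apply le_antisymm
    · refine (Subgroup.closure_le _).2 ?_
      rintro g ⟨s, t, hs, hne, hg⟩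
      rw [SetLike.mem_coe, CfsgLib.Lie.Tab.eq_u hc (r := ⟨s, hs.1⟩) hg]
      exact CfsgLib.Lie.Tab.u_mem_Ugrp hc (S := CfsgLib.Lie.Tab.posExcept T ⟨i, hi⟩)
        (And.intro ((CfsgLib.Lie.Tab.pos_iff_isPosRoot hc ⟨s, hs.1⟩).1 hs) (fun h => hne (by rw [hp, ← h]))) t
    · refine CfsgLib.Lie.Tab.Ugrp_le hc fun r hr t => Subgroup.subset_closure
        ⟨r.val, t, (CfsgLib.Lie.Tab.pos_iff_isPosRoot hc r).2 hr.1, ?_, CfsgLib.Lie.Tab.coe_u_eq_x hc r t⟩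
      rw [hp]
      exact fun h => hr.2 (Fin.ext h)
  rw [e, hp, CfsgLib.Lie.Tab.neg_eq hc]
  exact ⟨CfsgLib.Lie.Tab.normalizer_posExcept hc hT.extra _, CfsgLib.Lie.Tab.posExcept_sup hc hT.extra _⟩

end Cfsg.Agent.S1045
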