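import Cfsg.Statements.S1054
import Cfsg.Agent.Lib.LieChevTypes

set_option autoImplicit false
open Cfsg

namespace Cfsg.Agent.S1054

/-- The Chevalley groups of types D₄, F₄, E₆, E₇, E₈ are simple over every field. -/
theorem result {F : Type*} [Field F] (D : Cfsg.Lie.ChevalleyDatum)
    (hD : D ∈ [Cfsg.Lie.chevD4, Cfsg.Lie.chevF4, Cfsg.Lie.chevE6, Cfsg.Lie.chevE7, Cfsg.Lie.chevE8]) :
    IsSimpleGroup ↥(D.group F) ∧ ¬ IsMulCommutative ↥(D.group F) := by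
  have hD' : D ∈ [Cfsg.Lie.chevG2, Cfsg.Lie.chevB2, Cfsg.Lie.chevD4, Cfsg.Lie.chevF4, Cfsg.Lie.chevE6, Cfsg.Lie.chevE7, Cfsg.Lie.chevE8] :=
    List.mem_cons_of_mem _ (List.mem_cons_of_mem _ hD)
  obtain ⟨T, odd, hT, hE, hc, hP, hl, -, hodd⟩ := CfsgLib.Lie.exists_simple_data hD'
  refine CfsgLib.Lie.Tab.simple hT hE hl hc hP fun h => ?_
  exfalso
  have hn : D.nroots ≠ Cfsg.Lie.chevG2.nroots ∧ D.nroots ≠ Cfsg.Lie.chevB2.nroots := by
    simp only [List.mem_cons, List.not_mem_nil, or_false] at hD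
    rcases hD with rfl | rfl | rfl | rfl | rfl <;> exact ⟨by decide, by decide⟩
  rcases hodd h with rfl | rfl <;> simp at hn

end Cfsg.Agent.S1054
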