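import Cfsg.Statements.S1072
import Cfsg.Agent.Lib.LieTwistF4Fin

set_option autoImplicit false
open Cfsg

namespace Cfsg.Agent.S1072

/-- ²F₄(2^(2m+1)) is simple for `m ≥ 1`. -/
theorem result {K : Type*} [Field K] [Fintype K] {m : ℕ} (hm : 1 ≤ m) (hK : Fintype.card K = 2 ^ (2 * m + 1)) :
    IsSimpleGroup ↥(Cfsg.Lie.twistedF4 K (2 ^ m)) ∧ ¬ IsMulCommutative ↥(Cfsg.Lie.twistedF4 K (2 ^ m)) := by
  obtain ⟨_, _, θ, P⟩ := CfsgLib.Lie.reeF4_setup hK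
  exact (CfsgLib.Lie.genF4 P).simple Nat.zero_lt_two
    (CfsgLib.Lie.Tab.conn_of CfsgLib.Lie.checkedF4 CfsgLib.Lie.twF4_sym CfsgLib.Lie.twF4_orb CfsgLib.Lie.twF4_conn)
    (CfsgLib.Lie.F4_perfect P
      (by calc 2 = 2 ^ 1 := (pow_one 2).symm
            _ ≤ 2 ^ m := Nat.pow_le_pow_right (by norm_num) hm)
      (by rw [hK]; ring))

end Cfsg.Agent.S1072
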