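import Cfsg.Statements.S1073
import Cfsg.Agent.Lib.LieTwistG2Gen

set_option autoImplicit false
open Cfsg

namespace Cfsg.Agent.S1073

/-- ²G₂(3^(2m+1)) is simple for `m ≥ 1`. -/
theorem result {K : Type*} [Field K] [Fintype K] {m : ℕ} (hm : 1 ≤ m) (hK : Fintype.card K = 3 ^ (2 * m + 1)) :
    IsSimpleGroup ↥(Cfsg.Lie.twistedG2 K (3 ^ m)) ∧ ¬ IsMulCommutative ↥(Cfsg.Lie.twistedG2 K (3 ^ m)) := by
  obtain ⟨_, _, θ, P, h3⟩ := CfsgLib.Lie.ree_setup hK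
  exact (CfsgLib.Lie.genG2 P h3).simple Nat.one_pos
    (CfsgLib.Lie.Tab.conn_of CfsgLib.Lie.checkedG2 CfsgLib.Lie.twG2_sym CfsgLib.Lie.twG2_orb CfsgLib.Lie.twG2_conn)
    (CfsgLib.Lie.G2_perfect P h3
      (by calc 3 = 3 ^ 1 := (pow_one 3).symm
            _ ≤ 3 ^ m := Nat.pow_le_pow_right (by norm_num) hm)
      (by rw [hK]; ring))

end Cfsg.Agent.S1073
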