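import Cfsg.Statements.S1080
import Cfsg.Agent.Lib.LieChevAll

set_option autoImplicit false
open Cfsg

namespace Cfsg.Agent.S1080

/-- Field automorphisms: for every field automorphism `f` there is a group automorphism sending each `x_r(t)` to `x_r(f t)`. -/
theorem result {F : Type*} [Field F] (D : Cfsg.Lie.ChevalleyDatum) (hD : D ∈ [Cfsg.Lie.chevG2, Cfsg.Lie.chevB2, Cfsg.Lie.chevD4, Cfsg.Lie.chevF4, Cfsg.Lie.chevE6, Cfsg.Lie.chevE7, Cfsg.Lie.chevE8]) (f : F ≃+* F) :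
    ∃ α : ↥(D.group F) ≃* ↥(D.group F), ∀ (g : ↥(D.group F)) (r : ℕ) (t : F), r < D.nroots →
      ((g : GL D.Idx F) : Matrix D.Idx D.Idx F) = D.x F r t → ((α g : GL D.Idx F) : Matrix D.Idx D.Idx F) = D.x F r (f t) := by
  obtain ⟨T, hT⟩ := CfsgLib.Lie.exists_good hD
  let e : GL D.Idx F ≃* GL D.Idx F := Units.mapEquiv f.mapMatrix.toMulEquiv
  have he : ∀ (r : Fin D.nroots) (t : F), e (CfsgLib.Lie.Tab.u hT.checked r t) =
      CfsgLib.Lie.Tab.u hT.checked r (f t) := fun r t =>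
    Units.ext (CfsgLib.Lie.Tab.X_map f.toRingHom r t)
  have hmap : (D.group F).map e.toMonoidHom = D.group F := by
    refine le_antisymm ?_ ?_
    · rw [Subgroup.map_le_iff_le_comap]
      refine (Subgroup.closure_le _).2 ?_
      rintro g ⟨r, t, hg⟩
      have : g = CfsgLib.Lie.Tab.u hT.checked r t :=
        CfsgLib.Lie.Tab.eq_u hT.checked (by rw [hg]; simp [Cfsg.Lie.ChevalleyDatum.x])
      subst this
      show e (CfsgLib.Lie.Tab.u hT.checked r t) ∈ D.group F
      rw [he]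
      exact CfsgLib.Lie.Tab.u_mem_group hT.checked r _
    · refine (Subgroup.closure_le _).2 ?_
      rintro g ⟨r, t, hg⟩
      have : g = CfsgLib.Lie.Tab.u hT.checked r t :=
        CfsgLib.Lie.Tab.eq_u hT.checked (by rw [hg]; simp [Cfsg.Lie.ChevalleyDatum.x])
      subst this
      exact ⟨_, CfsgLib.Lie.Tab.u_mem_group hT.checked r (f.symm t), (he r _).trans (by simp)⟩
  refine ⟨(e.subgroupMap (D.group F)).trans (MulEquiv.subgroupCongr hmap), fun g r t hr hg => ?_⟩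
  have : (g : GL D.Idx F) = CfsgLib.Lie.Tab.u hT.checked ⟨r, hr⟩ t :=
    CfsgLib.Lie.Tab.eq_u hT.checked hg
  show ((e g.1 : GL D.Idx F) : Matrix D.Idx D.Idx F) = _
  rw [this, he, CfsgLib.Lie.Tab.coe_u_eq_x]

end Cfsg.Agent.S1080
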