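import Cfsg.Statements.S1095
import Cfsg.Agent.Lib.LieChevNMat

set_option autoImplicit false
open Cfsg

namespace Cfsg.Agent.S1095

/-- `n_p` (p = p_{i+1} fundamental) is the signed monomial matrix `h_{p_j} ↦ h_{p_j} - A_{p_j,p} h_p`, `e_s ↦ η_s e_{w_p(s)}`, with `η_s = ±1`, `η_p = η_{-p} = -1`, `η_s η_{w_p(s)} = (-1)^{A_{p,s}}`, `η_s η_{-s} = 1`. -/
theorem result {F : Type*} [Field F] (D : Cfsg.Lie.ChevalleyDatum) (hD : D ∈ [Cfsg.Lie.chevG2, Cfsg.Lie.chevB2, Cfsg.Lie.chevD4, Cfsg.Lie.chevF4, Cfsg.Lie.chevE6, Cfsg.Lie.chevE7, Cfsg.Lie.chevE8]) (i : ℕ) (hi : i < D.rank) :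
    ∃ η : ℕ → ℤ, (∀ s < D.nroots, η s = 1 ∨ η s = -1) ∧ η (D.simple i) = -1 ∧ η (D.neg (D.simple i)) = -1 ∧
      (∀ s < D.nroots, η s * η (D.reflectRoot i s) = (-1) ^ (D.cartan i s).natAbs ∧ η s * η (D.neg s) = 1) ∧
      D.nMat F (D.simple i) 1 = Matrix.of (fun (row col : D.Idx) =>
        Sum.elim
          (fun j' : Fin D.rank => Sum.elim
            (fun j : Fin D.rank => (if j' = j then (1 : F) else 0) - (if (j' : ℕ) = i then ((D.cartan j (D.simple i) : ℤ) : F) else 0))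
            (fun _ => (0 : F)) col)
          (fun s' : Fin D.nroots => Sum.elim
            (fun _ => (0 : F))
            (fun s : Fin D.nroots => if (s' : ℕ) = D.reflectRoot i s then ((η s : ℤ) : F) else 0) col)
          row) := by
  obtain ⟨T, odd, hT, hE, -, -, -, hη, -⟩ := CfsgLib.Lie.exists_simple_data hD
  have hηp : ∀ j : Fin D.rank, T.η j (T.p j) = -1 := by
    simpa [CfsgLib.Lie.Tab.ηpB] using hη
  obtain ⟨i', rfl⟩ : ∃ i' : Fin D.rank, (i' : ℕ) = i := ⟨⟨i, hi⟩, rfl⟩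
  refine ⟨fun s => if h : s < D.nroots then T.η i' ⟨s, h⟩ else 1, fun s hs => ?_, ?_, ?_, fun s hs => ?_, ?_⟩
  · simp only [dif_pos hs]
    exact CfsgLib.Lie.Tab.η_or hT _ _
  · simp only [CfsgLib.Lie.Tab.simple_eq hT, Fin.is_lt, dif_pos, hηp]
  · simp only [CfsgLib.Lie.Tab.simple_eq hT, CfsgLib.Lie.Tab.neg_eq hT, Fin.is_lt, dif_pos]
    rw [CfsgLib.Lie.Tab.η_ng hT, hηp]
  · obtain ⟨s', rfl⟩ : ∃ s' : Fin D.nroots, (s' : ℕ) = s := ⟨⟨s, hs⟩, rfl⟩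
    simp only [CfsgLib.Lie.Tab.reflectRoot_eq hT hE, CfsgLib.Lie.Tab.neg_eq hT, CfsgLib.Lie.Tab.cartan_eq hT,
      Fin.is_lt, dif_pos, CfsgLib.Lie.Tab.η_ng hT]
    exact ⟨CfsgLib.Lie.Tab.η_mul_w hT i' s', CfsgLib.Lie.Tab.η_sq hT _ _⟩
  · rw [CfsgLib.Lie.Tab.nMat_simple hT]
    ext (a | a) (b | b)
    · simp only [CfsgLib.Lie.Tab.coe_sg, CfsgLib.Lie.Tab.S, CfsgLib.Lie.Tab.scol, Matrix.of_apply, Sum.elim_inl,
        CfsgLib.Lie.Tab.simple_eq hT, CfsgLib.Lie.Tab.cartan_eq hT]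
      by_cases h1 : a = b <;> by_cases h2 : a = i' <;>
        simp [CfsgLib.Lie.Tab.scol, h1, h2, Fin.val_inj, eq_comm, sub_eq_add_neg] <;>
        split_ifs <;> simp_all
    · simp [CfsgLib.Lie.Tab.S, CfsgLib.Lie.Tab.scol]
    · simp [CfsgLib.Lie.Tab.S, CfsgLib.Lie.Tab.scol]
    · simp only [CfsgLib.Lie.Tab.coe_sg, CfsgLib.Lie.Tab.S, CfsgLib.Lie.Tab.scol, Matrix.of_apply, Sum.elim_inr,
        CfsgLib.Lie.Tab.reflectRoot_eq hT hE, Fin.is_lt, dif_pos]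
      by_cases h1 : a = T.w i' b
      · simp [CfsgLib.Lie.Tab.scol, h1]
      · simp [CfsgLib.Lie.Tab.scol, h1, Ne.symm h1, Fin.val_inj]

end Cfsg.Agent.S1095
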