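import Cfsg.Statements.S1096
import Cfsg.Agent.Lib.LieChevNMat

set_option autoImplicit false
open Cfsg

namespace Cfsg.Agent.S1096

/-- `n_p h_{p_j}(t) n_p⁻¹ = h_{w_p(p_j)}(t)` for fundamental `p`, `p_j` and `t ≠ 0`, stated as `n_p h_{p_j}(t) = h_{w_p(p_j)}(t) n_p`. -/
theorem result {F : Type*} [Field F] (D : Cfsg.Lie.ChevalleyDatum) (hD : D ∈ [Cfsg.Lie.chevG2, Cfsg.Lie.chevB2, Cfsg.Lie.chevD4, Cfsg.Lie.chevF4, Cfsg.Lie.chevE6, Cfsg.Lie.chevE7, Cfsg.Lie.chevE8]) (i j : ℕ) (hi : i < D.rank) (hj : j < D.rank) (t : F) (ht : t ≠ 0) :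
    D.nMat F (D.simple i) 1 * D.hMat F (D.simple j) t = D.hMat F (D.reflectRoot i (D.simple j)) t * D.nMat F (D.simple i) 1 := by
  obtain ⟨T, odd, hT, hE, -, -, -, -, -⟩ := CfsgLib.Lie.exists_simple_data hD
  obtain ⟨i', rfl⟩ : ∃ i' : Fin D.rank, (i' : ℕ) = i := ⟨⟨i, hi⟩, rfl⟩
  obtain ⟨j', rfl⟩ : ∃ j' : Fin D.rank, (j' : ℕ) = j := ⟨⟨j, hj⟩, rfl⟩
  rw [CfsgLib.Lie.Tab.nMat_simple hT, CfsgLib.Lie.Tab.simple_eq hT j', CfsgLib.Lie.Tab.reflectRoot_eq hT hE,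
    CfsgLib.Lie.Tab.hMat_eq hT _ ht, CfsgLib.Lie.Tab.hMat_eq hT _ ht, ← Units.val_mul, ← Units.val_mul]
  congr 1
  rw [CfsgLib.Lie.Tab.hel_eq, CfsgLib.Lie.Tab.hel_eq, CfsgLib.Lie.Tab.sg_mul_dg]
  congr 2
  funext r
  simp [CfsgLib.Lie.Tab.hc, CfsgLib.Lie.Tab.pair_w hT]

end Cfsg.Agent.S1096
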