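import Cfsg.Statements.S1098
import Cfsg.Agent.Lib.LieIsoTwist
import Cfsg.Agent.Lib.LieIsoDataB2
import Cfsg.Agent.Lib.LieIsoDataF4
import Cfsg.Agent.Lib.LieExtraB2
import Cfsg.Agent.Lib.LieExtraF4

set_option autoImplicit false
open Cfsg

namespace Cfsg.Agent.S1098

/-- Graph automorphisms in characteristic 2 (K perfect): for B₂ (a short, b long) `x_a(t) ↦ x_b(t²)`, `x_b(t) ↦ x_a(t)`, and for F₄ (p₁, p₂ short, p₃, p₄ long) `x_{p₁}(t) ↦ x_{p₄}(t²)`, `x_{p₂}(t) ↦ x_{p₃}(t²)`, `x_{p₃}(t) ↦ x_{p₂}(t)`, `x_{p₄}(t) ↦ x_{p₁}(t)`, likewise on the negatives, extend to an automorphism of the group. -/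
theorem result {K : Type*} [Field K] [CharP K 2] (hperf : ∀ x : K, ∃ y : K, y ^ 2 = x)
    (p : Cfsg.Lie.ChevalleyDatum × List (ℕ × ℕ))
    (hp : p ∈ [(Cfsg.Lie.chevB2, [(1, 2), (0, 1)]), (Cfsg.Lie.chevF4, [(3, 2), (2, 2), (1, 1), (0, 1)])]) :
    ∃ α : ↥(p.1.group K) ≃* ↥(p.1.group K), ∀ (g : ↥(p.1.group K)) (i : ℕ) (t : K), i < p.1.rank →
      (((g : GL p.1.Idx K) : Matrix p.1.Idx p.1.Idx K) = p.1.x K (p.1.simple i) t →
        ((α g : GL p.1.Idx K) : Matrix p.1.Idx p.1.Idx K) = p.1.x K (p.1.simple (p.2.getD i (0, 1)).1) (t ^ (p.2.getD i (0, 1)).2)) ∧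
      (((g : GL p.1.Idx K) : Matrix p.1.Idx p.1.Idx K) = p.1.x K (p.1.neg (p.1.simple i)) t →
        ((α g : GL p.1.Idx K) : Matrix p.1.Idx p.1.Idx K) = p.1.x K (p.1.neg (p.1.simple (p.2.getD i (0, 1)).1)) (t ^ (p.2.getD i (0, 1)).2)) := by
  simp only [List.mem_cons, List.not_mem_nil, or_false] at hp
  rcases hp with rfl | rfl
  · haveI : CharP K CfsgLib.Lie.isoB2.p := ‹CharP K 2›
    obtain ⟨α, hα⟩ := CfsgLib.Lie.Tab.exists_isogenyAut (K := K) CfsgLib.Lie.checkedB2 CfsgLib.Lie.B2_extra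
      CfsgLib.Lie.isoB2_ideal CfsgLib.Lie.isoB2_span CfsgLib.Lie.isoB2_gen hperf Nat.prime_two
    refine ⟨α, fun g i t hi => ?_⟩
    have e : ∀ j : Fin Cfsg.Lie.chevB2.rank, (CfsgLib.Lie.isoB2.rhoi j).val =
        (([(1, 2), (0, 1)] : List (ℕ × ℕ)).getD j.val (0, 1)).1 ∧
        CfsgLib.Lie.isoB2.ex j = (([(1, 2), (0, 1)] : List (ℕ × ℕ)).getD j.val (0, 1)).2 := by decide +kernel
    obtain ⟨e1, e2⟩ := e ⟨i, hi⟩
    have h := hα g i t hi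
    rw [e1, e2] at h
    exact h
  · haveI : CharP K CfsgLib.Lie.isoF4.p := ‹CharP K 2›
    obtain ⟨α, hα⟩ := CfsgLib.Lie.Tab.exists_isogenyAut (K := K) CfsgLib.Lie.checkedF4 CfsgLib.Lie.F4_extra
      CfsgLib.Lie.isoF4_ideal CfsgLib.Lie.isoF4_span CfsgLib.Lie.isoF4_gen hperf Nat.prime_two
    refine ⟨α, fun g i t hi => ?_⟩
    have e : ∀ j : Fin Cfsg.Lie.chevF4.rank, (CfsgLib.Lie.isoF4.rhoi j).val =
        (([(3, 2), (2, 2), (1, 1), (0, 1)] : List (ℕ × ℕ)).getD j.val (0, 1)).1 ∧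
        CfsgLib.Lie.isoF4.ex j = (([(3, 2), (2, 2), (1, 1), (0, 1)] : List (ℕ × ℕ)).getD j.val (0, 1)).2 := by
      decide +kernel
    obtain ⟨e1, e2⟩ := e ⟨i, hi⟩
    have h := hα g i t hi
    rw [e1, e2] at h
    exact h

end Cfsg.Agent.S1098
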