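import Cfsg.Statements.S1099
import Cfsg.Agent.Lib.LieIsoTwist
import Cfsg.Agent.Lib.LieIsoDataG2
import Cfsg.Agent.Lib.LieExtraG2

set_option autoImplicit false
open Cfsg

namespace Cfsg.Agent.S1099

/-- Graph automorphism of G₂ in characteristic 3 (K perfect): `x_a(t) ↦ x_b(t³)`, `x_b(t) ↦ x_a(t)`, `x_{-a}(t) ↦ x_{-b}(t³)`, `x_{-b}(t) ↦ x_{-a}(t)` extend to an automorphism of the group. -/
theorem result {K : Type*} [Field K] [CharP K 3] (hperf : ∀ x : K, ∃ y : K, y ^ 3 = x) :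
    ∃ α : ↥(Cfsg.Lie.chevG2.group K) ≃* ↥(Cfsg.Lie.chevG2.group K), ∀ (g : ↥(Cfsg.Lie.chevG2.group K)) (t : K),
      (((g : GL Cfsg.Lie.chevG2.Idx K) : Matrix _ _ K) = Cfsg.Lie.chevG2.x K Cfsg.Lie.g2a t →
        ((α g : GL Cfsg.Lie.chevG2.Idx K) : Matrix _ _ K) = Cfsg.Lie.chevG2.x K Cfsg.Lie.g2b (t ^ 3)) ∧
      (((g : GL Cfsg.Lie.chevG2.Idx K) : Matrix _ _ K) = Cfsg.Lie.chevG2.x K Cfsg.Lie.g2b t →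
        ((α g : GL Cfsg.Lie.chevG2.Idx K) : Matrix _ _ K) = Cfsg.Lie.chevG2.x K Cfsg.Lie.g2a t) ∧
      (((g : GL Cfsg.Lie.chevG2.Idx K) : Matrix _ _ K) = Cfsg.Lie.chevG2.x K Cfsg.Lie.g2ma t →
        ((α g : GL Cfsg.Lie.chevG2.Idx K) : Matrix _ _ K) = Cfsg.Lie.chevG2.x K Cfsg.Lie.g2mb (t ^ 3)) ∧
      (((g : GL Cfsg.Lie.chevG2.Idx K) : Matrix _ _ K) = Cfsg.Lie.chevG2.x K Cfsg.Lie.g2mb t →
        ((α g : GL Cfsg.Lie.chevG2.Idx K) : Matrix _ _ K) = Cfsg.Lie.chevG2.x K Cfsg.Lie.g2ma t) := by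
  haveI : CharP K CfsgLib.Lie.isoG2.p := ‹CharP K 3›
  obtain ⟨α, hα⟩ := CfsgLib.Lie.Tab.exists_isogenyAut (K := K) CfsgLib.Lie.checkedG2 CfsgLib.Lie.G2_extra
    CfsgLib.Lie.isoG2_ideal CfsgLib.Lie.isoG2_span CfsgLib.Lie.isoG2_gen hperf Nat.prime_three
  have h0 : 0 < Cfsg.Lie.chevG2.rank := by decide +kernel
  have h1 : 1 < Cfsg.Lie.chevG2.rank := by decide +kernel
  have e : Cfsg.Lie.chevG2.simple 0 = Cfsg.Lie.g2a ∧ Cfsg.Lie.chevG2.simple 1 = Cfsg.Lie.g2b ∧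
      Cfsg.Lie.chevG2.neg Cfsg.Lie.g2a = Cfsg.Lie.g2ma ∧ Cfsg.Lie.chevG2.neg Cfsg.Lie.g2b = Cfsg.Lie.g2mb ∧
      (CfsgLib.Lie.isoG2.rhoi ⟨0, h0⟩).val = 1 ∧ (CfsgLib.Lie.isoG2.rhoi ⟨1, h1⟩).val = 0 ∧
      CfsgLib.Lie.isoG2.ex ⟨0, h0⟩ = 3 ∧ CfsgLib.Lie.isoG2.ex ⟨1, h1⟩ = 1 := by decide +kernel +revert
  obtain ⟨e1, e2, e3, e4, e5, e6, e7, e8⟩ := e
  refine ⟨α, fun g t => ?_⟩
  obtain ⟨a1, a2⟩ := hα g 0 t h0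
  obtain ⟨b1, b2⟩ := hα g 1 t h1
  rw [e5, e7, e1, e2] at a1 a2
  rw [e6, e8, e1, e2, pow_one] at b1 b2
  rw [e3, e4] at a2 b2
  exact ⟨a1, b1, a2, b2⟩

end Cfsg.Agent.S1099
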