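import Cfsg.Statements.S1100
import Cfsg.Agent.Lib.LieChevCanon

set_option autoImplicit false
open Cfsg

namespace Cfsg.Agent.S1100

/-- Canonical form `g = b n_w u` (`b ∈ B`, `u ∈ U_w⁻ = ⟨X_r : r > 0, n_w X_r n_w⁻¹ ≤ V⟩`): such a decomposition exists for every element of the group; the coset `n_w H` is determined by `g`; and for a fixed representative `n_w` the factors `b`, `u` are unique. -/
theorem result {F : Type*} [Field F] (D : Cfsg.Lie.ChevalleyDatum) (hD : D ∈ [Cfsg.Lie.chevG2, Cfsg.Lie.chevB2, Cfsg.Lie.chevD4, Cfsg.Lie.chevF4, Cfsg.Lie.chevE6, Cfsg.Lie.chevE7, Cfsg.Lie.chevE8]) :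
    (∀ g ∈ D.group F, ∃ b ∈ D.borelSubgroup F, ∃ n ∈ D.monomialSubgroup F,
      ∃ u ∈ Subgroup.closure {x : GL D.Idx F | ∃ (r : ℕ) (t : F), D.IsPosRoot r ∧
            (D.rootSubgroup F r).map (MulAut.conj n).toMonoidHom ≤ D.negUnipotent F ∧ (x : Matrix D.Idx D.Idx F) = D.x F r t},
        g = b * n * u) ∧
    (∀ (b b' n n' u u' : GL D.Idx F), b ∈ D.borelSubgroup F → b' ∈ D.borelSubgroup F →
      n ∈ D.monomialSubgroup F → n' ∈ D.monomialSubgroup F →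
      u ∈ Subgroup.closure {x : GL D.Idx F | ∃ (r : ℕ) (t : F), D.IsPosRoot r ∧
            (D.rootSubgroup F r).map (MulAut.conj n).toMonoidHom ≤ D.negUnipotent F ∧ (x : Matrix D.Idx D.Idx F) = D.x F r t} →
      u' ∈ Subgroup.closure {x : GL D.Idx F | ∃ (r : ℕ) (t : F), D.IsPosRoot r ∧
            (D.rootSubgroup F r).map (MulAut.conj n').toMonoidHom ≤ D.negUnipotent F ∧ (x : Matrix D.Idx D.Idx F) = D.x F r t} →
      b * n * u = b' * n' * u' → n⁻¹ * n' ∈ D.diagonalSubgroup F ∧ (n = n' → b = b' ∧ u = u')) := by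
  obtain ⟨T, hT⟩ := CfsgLib.Lie.exists_good hD
  have hc := hT.checked
  have hE := hT.extra
  have hset : ∀ (n : GL D.Idx F) (L : List (Fin D.rank)), CfsgLib.Lie.Tab.Acts hc n (CfsgLib.Lie.Tab.pw hc L) →
      Subgroup.closure {x : GL D.Idx F | ∃ (r : ℕ) (t : F), D.IsPosRoot r ∧
        (D.rootSubgroup F r).map (MulAut.conj n).toMonoidHom ≤ D.negUnipotent F ∧
        (x : Matrix D.Idx D.Idx F) = D.x F r t} =
      CfsgLib.Lie.Tab.Ugrp hc F (CfsgLib.Lie.Tab.negSet T (CfsgLib.Lie.Tab.pw hc L)) := by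
    intro n L hL
    apply le_antisymm
    · refine (Subgroup.closure_le _).2 ?_
      rintro x ⟨r, t, hr, hle, hx⟩
      rw [SetLike.mem_coe, CfsgLib.Lie.Tab.eq_u hc (r := ⟨r, hr.1⟩) hx]
      refine CfsgLib.Lie.Tab.u_mem_Ugrp hc (S := CfsgLib.Lie.Tab.negSet T (CfsgLib.Lie.Tab.pw hc L))
        (And.intro ((CfsgLib.Lie.Tab.pos_iff_isPosRoot hc ⟨r, hr.1⟩).1 hr) fun hpos => ?_) t
      obtain ⟨c, hcc⟩ := hL ⟨r, hr.1⟩
      have h1 : n * CfsgLib.Lie.Tab.u hc ⟨r, hr.1⟩ (1 : F) * n⁻¹ ∈ D.negUnipotent F :=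
        hle (Subgroup.mem_map_of_mem _ ((CfsgLib.Lie.Tab.mem_rootSubgroup hc (r := ⟨r, hr.1⟩)).2 ⟨1, rfl⟩))
      rw [hcc] at h1
      have h0 := CfsgLib.Lie.Tab.borel_inf_neg (F := F) hc
      rw [eq_bot_iff] at h0
      have h2 := Subgroup.mem_bot.1 (h0 (Subgroup.mem_inf.2
        ⟨Subgroup.mem_sup_left (CfsgLib.Lie.Tab.u_mem_posUnipotent hc hpos _), h1⟩))
      exact mul_ne_zero c.ne_zero one_ne_zero ((CfsgLib.Lie.Tab.X_eq_one_iff hc).1 (congrArg Units.val h2))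
    · refine CfsgLib.Lie.Tab.Ugrp_le hc fun r hr t => Subgroup.subset_closure
        ⟨r.val, t, (CfsgLib.Lie.Tab.pos_iff_isPosRoot hc r).2 hr.1, ?_, CfsgLib.Lie.Tab.coe_u_eq_x hc r t⟩
      rintro _ ⟨x, hx, rfl⟩
      obtain ⟨v, rfl⟩ := (CfsgLib.Lie.Tab.mem_rootSubgroup hc).1 hx
      obtain ⟨c, hcc⟩ := hL r
      show n * _ * n⁻¹ ∈ _
      rw [hcc]
      exact CfsgLib.Lie.Tab.u_mem_negUnipotent hc hr.2 _
  refine ⟨fun g hg => ?_, fun b b' n n' u u' hb hb' hn hn' hu hu' h => ?_⟩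
  · obtain ⟨b, hb, n, hn, L, hL, c, hcm, e⟩ := CfsgLib.Lie.Tab.canonical_exists hc hE hg
    exact ⟨b, hb, n, hn, c, by rw [hset n L hL]; exact hcm, e⟩
  · obtain ⟨L, hL⟩ := CfsgLib.Lie.Tab.exists_acts hc hn
    obtain ⟨L', hL'⟩ := CfsgLib.Lie.Tab.exists_acts hc hn'
    rw [hset n L hL] at hu
    rw [hset n' L' hL'] at hu'
    have hpos : ∀ {π : Equiv.Perm (Fin D.nroots)} {c : GL D.Idx F},
        c ∈ CfsgLib.Lie.Tab.Ugrp hc F (CfsgLib.Lie.Tab.negSet T π) → c ∈ D.posUnipotent F := by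
      intro π c hmem
      rw [CfsgLib.Lie.Tab.posUnipotent_eq hc]
      exact CfsgLib.Lie.Tab.Ugrp_mono hc (fun r hr => hr.1) hmem
    refine ⟨CfsgLib.Lie.Tab.canonical_class hc hE hb hb' hn hn' (hpos hu) (hpos hu') h, fun he => ?_⟩
    subst he
    rw [CfsgLib.Lie.Tab.Acts.unique hc hL' hL] at hu'
    exact CfsgLib.Lie.Tab.canonical_unique hc hb hb' hL hu hu' h

end Cfsg.Agent.S1100
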