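import Cfsg.Statements.S1101
import Cfsg.Agent.Lib.LieTwistG2Gen

set_option autoImplicit false
open Cfsg

namespace Cfsg.Agent.S1101

/-- For ²G₂ over `K` with `|K| = 3^(2m+1)`, `θ = 3^m`: `U¹ = G¹ ∩ U` consists exactly of the elements `x_a(t^θ) x_b(t) x_{a+b}(t^{θ+1}+u^θ) x_{2a+b}(t^{2θ+1}+v^θ) x_{3a+b}(u) x_{3a+2b}(v)`, `t, u, v ∈ K`, and it has `|K|³` elements. -/
theorem result {K : Type*} [Field K] [Fintype K] {m : ℕ} (hK : Fintype.card K = 3 ^ (2 * m + 1)) :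
    (∀ g : GL Cfsg.Lie.chevG2.Idx K, g ∈ Cfsg.Lie.chevG2.posUnipotent K ⊓ Cfsg.Lie.twistedG2 K (3 ^ m) ↔
      ∃ t u v : K, (g : Matrix Cfsg.Lie.chevG2.Idx Cfsg.Lie.chevG2.Idx K) = Cfsg.Lie.chevG2.wordMat K (Cfsg.Lie.reeWordU (3 ^ m) t u v)) ∧
    Nat.card ↥(Cfsg.Lie.chevG2.posUnipotent K ⊓ Cfsg.Lie.twistedG2 K (3 ^ m)) = (3 ^ (2 * m + 1)) ^ 3 := by
  obtain ⟨_, _, θ, P, h3⟩ := CfsgLib.Lie.ree_setup hK
  have hG := CfsgLib.Lie.genG2 P h3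
  refine ⟨fun g => ⟨fun hg => ?_, ?_⟩, by rw [hG.pos_inf, CfsgLib.Lie.card_pos_fixed P, hK]⟩
  · rw [hG.pos_inf] at hg
    obtain ⟨hg1, hg2⟩ := Subgroup.mem_inf.1 hg
    obtain ⟨t, x, y, e⟩ := CfsgLib.Lie.pos_fixed_words θ P.hθ P.hE hg1 hg2
    exact ⟨t, x, y, by rw [e, CfsgLib.Lie.wordMat_U]⟩
  · rintro ⟨t, x, y, e⟩
    obtain rfl : g = CfsgLib.Lie.wordU (3 ^ m) t x y := Units.ext (e.trans (CfsgLib.Lie.wordMat_U _ t x y).symm)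
    have hmem := CfsgLib.Lie.wordU_mem (3 ^ m) t x y
    refine Subgroup.mem_inf.2 ⟨?_, hmem⟩
    rw [CfsgLib.Lie.Tab.posUnipotent_eq CfsgLib.Lie.checkedG2]
    have hp : ∀ x : ℕ, CfsgLib.Lie.tabG2.posB (CfsgLib.Lie.rtG2 x) = true →
        CfsgLib.Lie.rtG2 x ∈ {r | CfsgLib.Lie.tabG2.Pos r} := fun x hx => (CfsgLib.Lie.Tab.posB_iff _).1 hx
    exact mul_mem (mul_mem (mul_mem (mul_mem (mul_mem
      (CfsgLib.Lie.Tab.u_mem_Ugrp _ (hp 7 (by decide +kernel)) _)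
      (CfsgLib.Lie.Tab.u_mem_Ugrp _ (hp 6 (by decide +kernel)) _))
      (CfsgLib.Lie.Tab.u_mem_Ugrp _ (hp 8 (by decide +kernel)) _))
      (CfsgLib.Lie.Tab.u_mem_Ugrp _ (hp 9 (by decide +kernel)) _))
      (CfsgLib.Lie.Tab.u_mem_Ugrp _ (hp 10 (by decide +kernel)) _))
      (CfsgLib.Lie.Tab.u_mem_Ugrp _ (hp 11 (by decide +kernel)) _)

end Cfsg.Agent.S1101
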