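import Cfsg.Statements.S1107
import Cfsg.Agent.Lib.LieTwistD4
import Cfsg.Agent.Lib.LieWeylG2

set_option autoImplicit false
open Cfsg

namespace Cfsg.Agent.S1107

/-- `N¹/H¹ ≅ W¹`: a surjective homomorphism from `N¹ = G¹ ∩ N` onto the Coxeter group of type G₂ (dihedral of order 12) with kernel `H¹`. -/
theorem result {K : Type*} [Field K] [Fintype K] {q : ℕ} (hq : IsPrimePow q) (hK : Fintype.card K = q ^ 3) :
    ∃ φ : ↥(Cfsg.Lie.chevD4.monomialSubgroup K ⊓ Cfsg.Lie.twistedD4 K q) →* (CoxeterMatrix.G₂).Group, Function.Surjective φ ∧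
      φ.ker = (Cfsg.Lie.chevD4.diagonalSubgroup K ⊓ Cfsg.Lie.twistedD4 K q).subgroupOf (Cfsg.Lie.chevD4.monomialSubgroup K ⊓ Cfsg.Lie.twistedD4 K q) := by
  obtain ⟨σ, hσ, ho⟩ := CfsgLib.Lie.exists_frob Nat.prime_three hq hK
  refine (CfsgLib.Lie.genD4_gen hσ ho).weylHom_cox (M := CoxeterMatrix.G₂)
    (fun a b => CfsgLib.Lie.Tab.wO_pow_one CfsgLib.Lie.checkedD4 CfsgLib.Lie.twD4_sym CfsgLib.Lie.twD4_orb
      CfsgLib.Lie.D4_coxO a b) ?_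
  exact (CfsgLib.Lie.Tab.card_coxeter CfsgLib.Lie.checkedG2 CfsgLib.Lie.G2_extra CfsgLib.Lie.G2_cox
    CfsgLib.Lie.G2_poly).trans
    (CfsgLib.Lie.Tab.card_WF CfsgLib.Lie.checkedD4 CfsgLib.Lie.pos_D4 (by decide +kernel)
      (h := CfsgLib.Lie.twD4_sym) (ho := CfsgLib.Lie.twD4_orb) CfsgLib.Lie.twD4_cert).symm

end Cfsg.Agent.S1107
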