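import Cfsg.Statements.S1112
import Cfsg.Agent.Lib.LieTwistF4Fin

set_option autoImplicit false
open Cfsg

namespace Cfsg.Agent.S1112

/-- ²F₄(2^(2m+1)) (m ≥ 1) equals its derived subgroup. -/
theorem result {K : Type*} [Field K] [Fintype K] {m : ℕ} (hK : Fintype.card K = 2 ^ (2 * m + 1)) (hm : 1 ≤ m) : commutator ↥(Cfsg.Lie.twistedF4 K (2 ^ m)) = ⊤ := by
  obtain ⟨_, _, θ, P⟩ := CfsgLib.Lie.reeF4_setup hK
  exact CfsgLib.Lie.F4_perfect P
    (by calc 2 = 2 ^ 1 := (pow_one 2).symm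
          _ ≤ 2 ^ m := Nat.pow_le_pow_right (by norm_num) hm)
    (by rw [hK]; ring)

end Cfsg.Agent.S1112
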