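import Cfsg.Statements.S1115
import Cfsg.Agent.Lib.LieTwistG2Gen
import Cfsg.Agent.Lib.LieTwistHom

set_option autoImplicit false
open Cfsg

namespace Cfsg.Agent.S1115

/-- `N¹/H¹ ≅ W¹`: a surjective homomorphism from `N¹ = G¹ ∩ N` onto the group of order 2 with kernel `H¹`. -/
theorem result {K : Type*} [Field K] [Fintype K] {m : ℕ} (hK : Fintype.card K = 3 ^ (2 * m + 1)) :
    ∃ φ : ↥(Cfsg.Lie.chevG2.monomialSubgroup K ⊓ Cfsg.Lie.twistedG2 K (3 ^ m)) →* Multiplicative (ZMod 2), Function.Surjective φ ∧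
      φ.ker = (Cfsg.Lie.chevG2.diagonalSubgroup K ⊓ Cfsg.Lie.twistedG2 K (3 ^ m)).subgroupOf (Cfsg.Lie.chevG2.monomialSubgroup K ⊓ Cfsg.Lie.twistedG2 K (3 ^ m)) := by
  obtain ⟨_, _, θ, P, h3⟩ := CfsgLib.Lie.ree_setup hK
  have hG := CfsgLib.Lie.genG2 P h3
  set O := CfsgLib.Lie.orbsG2 θ
  set o := CfsgLib.Lie.oG2 θ
  have hsq : O.wO o * O.wO o = 1 := O.wl_sq o
  have htwo : ∀ x : Multiplicative (ZMod 2), x = 1 ∨ x = Multiplicative.ofAdd 1 := by decide
  have hne : (Multiplicative.ofAdd (1 : ZMod 2)) ≠ 1 := by decide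
  let χ : Multiplicative (ZMod 2) →* Equiv.Perm (Fin Cfsg.Lie.chevG2.nroots) :=
    { toFun := fun x => if x = 1 then 1 else O.wO o
      map_one' := if_pos rfl
      map_mul' := fun x y => by
        have h2 : (Multiplicative.ofAdd (1 : ZMod 2)) * Multiplicative.ofAdd 1 = 1 := by decide
        rcases htwo x with rfl | rfl <;> rcases htwo y with rfl | rfl <;> simp [hne, h2, hsq] }
  refine hG.weylHom χ (fun o' => ⟨Multiplicative.ofAdd 1, ?_⟩) (fun x => ?_) ?_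
  · have e : o' = o := Fin.ext (Nat.lt_one_iff.1 o'.isLt)
    rw [e]
    show (if (Multiplicative.ofAdd (1 : ZMod 2)) = 1 then 1 else O.wO o) = O.wO o
    rw [if_neg hne]
  · show (if x = 1 then 1 else O.wO o) ∈ O.WF
    split_ifs
    · exact O.one_mem_WF
    · exact O.wO_mem o
  · rw [CfsgLib.Lie.G2_WF, Nat.card_eq_fintype_card]
    rfl

end Cfsg.Agent.S1115
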