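import Cfsg.Statements.S1124
import Cfsg.Agent.Lib.LieRankOne

set_option autoImplicit false
open scoped Pointwise
open Cfsg

namespace Cfsg.Agent.S1124

/-- Let `t` be an element of order 2 of a finite group normalising a subgroup `X` of odd order, `Y = C_X(t)` and `Z` the set of elements of `X` inverted by `t`. Then `(y, z) ↦ y z` is a bijection `Y × Z → X`, so `|X| = |Y| |Z|`, and the subgroup generated by `Z` is normal in `X`. -/
theorem result {M : Type*} [Group M] [Finite M]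
    (t : M) (ht : orderOf t = 2) (X : Subgroup M) (hodd : Odd (Nat.card X))
    (hnorm : ∀ x ∈ X, t * x * t⁻¹ ∈ X) :
    (∀ x ∈ X, ∃! p : M × M, p.1 ∈ X ⊓ Subgroup.centralizer {t} ∧ p.2 ∈ Cfsg.invertedBy X t ∧ x = p.1 * p.2) ∧
      Nat.card X = Nat.card ↥(X ⊓ Subgroup.centralizer {t}) * Nat.card (Cfsg.invertedBy X t) ∧
      ∀ x ∈ X, MulAut.conj x • Subgroup.closure (Cfsg.invertedBy X t) = Subgroup.closure (Cfsg.invertedBy X t) := by
  have h2 : t * t = 1 := by rw [← sq, ← ht, pow_orderOf_eq_one]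
  have hf := CfsgLib.Lie.RankOne.factor h2 hodd hnorm
  refine ⟨hf, ?_, fun x hx => CfsgLib.Lie.RankOne.conj_closure_inverted h2 hodd hnorm hx⟩
  rw [← Nat.card_prod]
  symm
  refine Nat.card_eq_of_bijective
    (fun p : ↥(X ⊓ Subgroup.centralizer {t}) × ↥(Cfsg.invertedBy X t) =>
      (⟨(p.1 : M) * p.2, mul_mem p.1.2.1 p.2.2.1⟩ : X)) ⟨?_, ?_⟩
  · intro p p' h
    obtain ⟨_, -, hu⟩ := hf ((p.1 : M) * p.2) (mul_mem p.1.2.1 p.2.2.1)
    have e1 := hu ((p.1 : M), (p.2 : M)) ⟨p.1.2, p.2.2, rfl⟩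
    have e2 := hu ((p'.1 : M), (p'.2 : M)) ⟨p'.1.2, p'.2.2, congrArg Subtype.val h⟩
    have e3 := e1.trans e2.symm
    simp only [Prod.mk.injEq] at e3
    exact Prod.ext (Subtype.ext e3.1) (Subtype.ext e3.2)
  · rintro ⟨x, hx⟩
    obtain ⟨⟨y, z⟩, ⟨hy, hz, e⟩, -⟩ := hf x hx
    exact ⟨(⟨y, hy⟩, ⟨z, hz⟩), Subtype.ext e.symm⟩

end Cfsg.Agent.S1124
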