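import Cfsg.Statements.S1151
import Cfsg.Agent.Lib.LieTwistG2Small

set_option autoImplicit false
open Cfsg

namespace Cfsg.Agent.S1151

/-- In the small Ree group ²G₂(q), q = 3^(2m+1), realised as G¹ inside the Chevalley group G₂ over the field with q elements (θ the 3^m-th power map), with H¹ = G¹ ∩ H and U¹ = G¹ ∩ U the intersections with the ambient diagonal and positive unipotent subgroups: `H¹` has exactly `(q - 1)/2` elements of odd order, and each non-identity one centralises no non-identity element of `U¹`. -/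
theorem result {K : Type*} [Field K] [Fintype K] {m : ℕ} (hK : Fintype.card K = 3 ^ (2 * m + 1)) :
    2 * Nat.card {h : ↥(Cfsg.Lie.chevG2.diagonalSubgroup K ⊓ Cfsg.Lie.twistedG2 K (3 ^ m)) // Odd (orderOf h)} = 3 ^ (2 * m + 1) - 1 ∧
      ∀ h ∈ (Cfsg.Lie.chevG2.diagonalSubgroup K ⊓ Cfsg.Lie.twistedG2 K (3 ^ m)), h ≠ 1 → Odd (orderOf h) →
        (Cfsg.Lie.chevG2.posUnipotent K ⊓ Cfsg.Lie.twistedG2 K (3 ^ m)) ⊓ Subgroup.centralizer {h} = ⊥ := by
  classical
  obtain ⟨_, _, θ, P, h3⟩ := CfsgLib.Lie.ree_setup hK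
  have hq : Fintype.card K = 3 * 3 ^ m * 3 ^ m := by rw [hK]; ring
  refine ⟨?_, fun h hh hne hodd => ?_⟩
  · let f := (CfsgLib.Lie.torG2 θ).codRestrict _ (CfsgLib.Lie.torG2_mem P h3)
    have hf : Function.Bijective f :=
      ⟨fun a b e => CfsgLib.Lie.torG2_inj (Subtype.ext_iff.1 e), fun h => by
        obtain ⟨a, ha⟩ := CfsgLib.Lie.torG2_surj P h.2
        exact ⟨a, Subtype.ext ha.symm⟩⟩
    rw [← hK]
    obtain ⟨k, hk⟩ : ∃ k, Fintype.card K = 4 * k + 3 := ⟨Fintype.card K / 4, by omega⟩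
    have hcard : Nat.card Kˣ = 2 * (2 * k + 1) := by rw [CfsgLib.Lie.card_units_eq, hk]; omega
    have he : ∀ a : Kˣ, Odd (orderOf (f a)) ↔ a ^ (2 * k + 1) = 1 := fun a => by
      rw [orderOf_injective f hf.1 a, ← orderOf_dvd_iff_pow_eq_one]
      refine ⟨fun ho => ?_, fun hd => Odd.of_dvd_nat ⟨k, rfl⟩ hd⟩
      exact (Nat.Coprime.dvd_of_dvd_mul_left (Nat.coprime_two_right.2 ho) (hcard ▸ orderOf_dvd_natCard a))
    have e : Nat.card {h : ↥(Cfsg.Lie.chevG2.diagonalSubgroup K ⊓ Cfsg.Lie.twistedG2 K (3 ^ m)) // Odd (orderOf h)} =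
        Nat.card ↥(powMonoidHom (α := Kˣ) (2 * k + 1)).ker :=
      (Nat.card_congr ((Equiv.ofBijective f hf).subtypeEquiv (fun a => (MonoidHom.mem_ker.trans (he a).symm)))).symm
    rw [e, IsCyclic.card_powMonoidHom_ker, hcard, Nat.gcd_eq_right (Dvd.intro_left 2 rfl), hk]
    omega
  · obtain ⟨a, rfl⟩ := CfsgLib.Lie.torG2_surj P hh
    rw [orderOf_injective _ CfsgLib.Lie.torG2_inj] at hodd
    have ha : a ^ 2 ≠ 1 := fun e => hne (by
      have h1 : orderOf a ∣ 1 := Nat.Coprime.dvd_of_dvd_mul_left (Nat.coprime_two_right.2 hodd)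
        (by rw [mul_one]; exact orderOf_dvd_of_pow_eq_one e)
      rw [orderOf_eq_one_iff.1 (Nat.dvd_one.1 h1), map_one])
    rw [eq_bot_iff]
    intro v hv
    obtain ⟨hv1, hv2⟩ := Subgroup.mem_inf.1 hv
    rw [Subgroup.mem_centralizer_iff] at hv2
    exact Subgroup.mem_bot.2 (CfsgLib.Lie.G2_centralized P hq ha hv1 (hv2 _ rfl))

end Cfsg.Agent.S1151
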