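import Cfsg.Statements.S1163
import Cfsg.Agent.Lib.LieSuzukiBridge
import Cfsg.Agent.Lib.LieSuzukiSylow

set_option autoImplicit false
open Cfsg

namespace Cfsg.Agent.S1163

/-- For the Suzuki group Sz(q), q = 2^(2m+1) ≥ 8, realised as the elements g of Sp₄(F) with g* = g^θ (θ the 2^(m+1)-th power map, so that θ² is squaring): `|Sz(q)| = q² (q - 1) (q² + 1)`, and there is a Sylow 2-subgroup `S` whose normaliser `H` has order `q²(q-1)` and index `q² + 1`, the action of `Sz(q)` on the cosets of `H` is doubly transitive, and `S` acts regularly on the cosets other than `H` itself. -/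
theorem result {F : Type*} [Field F] [Fintype F] {m : ℕ} (hm : 1 ≤ m) (hF : Fintype.card F = 2 ^ (2 * m + 1)) :
    Nat.card ↥(Cfsg.Lie.Sz F (2 ^ (m + 1))) = (2 ^ (2 * m + 1)) ^ 2 * (2 ^ (2 * m + 1) - 1) * ((2 ^ (2 * m + 1)) ^ 2 + 1) ∧
    ∃ S : Sylow 2 ↥(Cfsg.Lie.Sz F (2 ^ (m + 1))),
      Nat.card (Subgroup.normalizer ((S : Subgroup ↥(Cfsg.Lie.Sz F (2 ^ (m + 1)))) : Set ↥(Cfsg.Lie.Sz F (2 ^ (m + 1))))) = (2 ^ (2 * m + 1)) ^ 2 * (2 ^ (2 * m + 1) - 1) ∧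
      (Subgroup.normalizer ((S : Subgroup ↥(Cfsg.Lie.Sz F (2 ^ (m + 1)))) : Set ↥(Cfsg.Lie.Sz F (2 ^ (m + 1))))).index = (2 ^ (2 * m + 1)) ^ 2 + 1 ∧
      MulAction.IsMultiplyPretransitive ↥(Cfsg.Lie.Sz F (2 ^ (m + 1))) (↥(Cfsg.Lie.Sz F (2 ^ (m + 1))) ⧸ Subgroup.normalizer ((S : Subgroup ↥(Cfsg.Lie.Sz F (2 ^ (m + 1)))) : Set ↥(Cfsg.Lie.Sz F (2 ^ (m + 1))))) 2 ∧
      ∀ x y : ↥(Cfsg.Lie.Sz F (2 ^ (m + 1))) ⧸ Subgroup.normalizer ((S : Subgroup ↥(Cfsg.Lie.Sz F (2 ^ (m + 1)))) : Set ↥(Cfsg.Lie.Sz F (2 ^ (m + 1)))),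
        x ≠ (QuotientGroup.mk 1) → y ≠ (QuotientGroup.mk 1) → ∃! s : ↥(S : Subgroup ↥(Cfsg.Lie.Sz F (2 ^ (m + 1)))), (s : ↥(Cfsg.Lie.Sz F (2 ^ (m + 1)))) • x = y := by
  classical
  have hp := CfsgLib.Lie.SzOvoid.par_mk hm hF
  haveI : Fact (Nat.Prime 2) := ⟨Nat.prime_two⟩
  obtain ⟨φ, -⟩ := CfsgLib.Lie.SzOvoid.bridge hp
  haveI : Finite ↥(Cfsg.Lie.Sz F (2 ^ (m + 1))) := Finite.of_equiv _ φ.toEquiv
  have hcard := CfsgLib.Lie.SzOvoid.card_Sz hp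
  rw [hF] at hcard
  have hcL : Nat.card ↥(Cfsg.Lie.Sz F (2 ^ (m + 1))) = Nat.card ↥(Cfsg.Sz F m) := Nat.card_congr φ.symm.toEquiv
  have hSc : Nat.card ↥((CfsgLib.Lie.SzOvoid.uSub hp).map φ.toMonoidHom) =
      2 ^ (Nat.card ↥(Cfsg.Lie.Sz F (2 ^ (m + 1)))).factorization 2 := by
    rw [hcL, ← CfsgLib.Lie.SzOvoid.uSub_val hp]
    exact Nat.card_congr ((CfsgLib.Lie.SzOvoid.uSub hp).equivMapOfInjective φ.toMonoidHom φ.injective).symm.toEquiv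
  refine ⟨by rw [hcL, hcard]; ring, Sylow.ofCard _ hSc, ?_⟩
  set N := Subgroup.normalizer (((Sylow.ofCard _ hSc : Sylow 2 ↥(Cfsg.Lie.Sz F (2 ^ (m + 1)))) :
    Subgroup ↥(Cfsg.Lie.Sz F (2 ^ (m + 1)))) : Set ↥(Cfsg.Lie.Sz F (2 ^ (m + 1))))
  have hN : N = (MulAction.stabilizer ↥(Cfsg.Sz F m) (CfsgLib.Lie.SzOvoid.oInf F m)).map φ.toMonoidHom := by
    rw [← CfsgLib.Lie.SzOvoid.stab_normalizer hp, Subgroup.map_equiv_normalizer_eq]
    rfl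
  have hNc : Nat.card ↥N = (2 ^ (2 * m + 1)) ^ 2 * (2 ^ (2 * m + 1) - 1) := by
    rw [hN, ← hF, ← CfsgLib.Lie.SzOvoid.card_stab hp]
    exact Nat.card_congr ((MulAction.stabilizer ↥(Cfsg.Sz F m) (CfsgLib.Lie.SzOvoid.oInf F m)).equivMapOfInjective
      φ.toMonoidHom φ.injective).symm.toEquiv
  -- cosets as points
  have hmem : ∀ x : ↥(Cfsg.Lie.Sz F (2 ^ (m + 1))), x ∈ N ↔
      φ.symm x • CfsgLib.Lie.SzOvoid.oInf F m = CfsgLib.Lie.SzOvoid.oInf F m := fun x => by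
    rw [hN]
    exact ⟨by rintro ⟨y, hy, rfl⟩; simpa using hy, fun h => ⟨φ.symm x, h, φ.apply_symm_apply x⟩⟩
  let Q : ↥(Cfsg.Lie.Sz F (2 ^ (m + 1))) ⧸ N → ↥(Cfsg.suzukiOvoid F m) :=
    Quotient.lift (fun x => φ.symm x • CfsgLib.Lie.SzOvoid.oInf F m) fun a b h => by
      have h' := (hmem _).1 (QuotientGroup.leftRel_apply.1 h)
      rw [map_mul, map_inv, mul_smul, inv_smul_eq_iff] at h'
      exact h'.symm
  have hQ : ∀ x : ↥(Cfsg.Lie.Sz F (2 ^ (m + 1))), Q (x : _ ⧸ N) = φ.symm x • CfsgLib.Lie.SzOvoid.oInf F m := fun x => rfl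
  have hQeq : ∀ (g : ↥(Cfsg.Lie.Sz F (2 ^ (m + 1)))) (x : _ ⧸ N), Q (g • x) = φ.symm g • Q x := fun g x => by
    induction x using QuotientGroup.induction_on with | H x => ?_
    show φ.symm (g * x) • CfsgLib.Lie.SzOvoid.oInf F m = φ.symm g • φ.symm x • CfsgLib.Lie.SzOvoid.oInf F m
    rw [map_mul, mul_smul]
  have hQinj : Function.Injective Q := fun x y h => by
    induction x using QuotientGroup.induction_on with | H x => ?_
    induction y using QuotientGroup.induction_on with | H y => ?_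
    rw [hQ, hQ] at h
    refine QuotientGroup.eq.2 ((hmem _).2 ?_)
    rw [map_mul, map_inv, mul_smul, inv_smul_eq_iff]
    exact h.symm
  refine ⟨hNc, ?_, ?_, ?_⟩
  · have h := N.card_mul_index
    rw [hNc, hcL, hcard] at h
    have hpos : 0 < (2 ^ (2 * m + 1)) ^ 2 * (2 ^ (2 * m + 1) - 1) := hNc ▸ Nat.card_pos
    exact Nat.eq_of_mul_eq_mul_left hpos (h.trans (by ring))
  · rw [MulAction.is_two_pretransitive_iff]
    intro a b c d hab hcd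
    obtain ⟨g, g1, g2⟩ := CfsgLib.Lie.SzOvoid.to_pair hp (hQinj.ne hab)
    obtain ⟨h, h1, h2⟩ := CfsgLib.Lie.SzOvoid.to_pair hp (hQinj.ne hcd)
    refine ⟨φ (h⁻¹ * g), hQinj ?_, hQinj ?_⟩
    · rw [hQeq, φ.symm_apply_apply, mul_smul, g1, ← h1, inv_smul_smul]
    · rw [hQeq, φ.symm_apply_apply, mul_smul, g2, ← h2, inv_smul_smul]
  · intro x y hx hy
    have hQ1 : Q (QuotientGroup.mk 1) = CfsgLib.Lie.SzOvoid.oInf F m := by rw [hQ, map_one, one_smul]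
    have hpt : ∀ z, z ≠ (QuotientGroup.mk 1 : _ ⧸ N) → ∃ a b : F, (Q z).1 = CfsgLib.Lie.SzOvoid.pt m a b := by
      intro z hz
      rcases CfsgLib.Lie.SzOvoid.mem_ovoid.1 (Q z).2 with e | e
      · exact absurd (hQinj ((Subtype.ext e : Q z = CfsgLib.Lie.SzOvoid.oInf F m).trans hQ1.symm)) hz
      · exact e
    obtain ⟨a, b, ea⟩ := hpt x hx
    obtain ⟨c, d, ec⟩ := hpt y hy
    have key : ∀ p q : F, ((φ (CfsgLib.Lie.SzOvoid.sU hp p q)) • x = y) ↔ (a + p = c ∧ b + p ^ CfsgLib.Lie.SzOvoid.ee m * a + q = d) := by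
      intro p q
      rw [← hQinj.eq_iff, hQeq, φ.symm_apply_apply, Subtype.ext_iff, CfsgLib.Lie.SzOvoid.smul_coe hp, ea, ec,
        CfsgLib.Lie.SzOvoid.sU_pt]
      exact ⟨CfsgLib.Lie.SzOvoid.pt_inj, fun h => by rw [h.1, h.2]⟩
    have two := CfsgLib.Lie.SzOvoid.two_eq hp
    refine ⟨⟨φ (CfsgLib.Lie.SzOvoid.sU hp (a + c) (b + (a + c) ^ CfsgLib.Lie.SzOvoid.ee m * a + d)), ⟨_, ⟨_, _, rfl⟩, rfl⟩⟩,
      (key _ _).2 ⟨by linear_combination a * two, by linear_combination (b + (a + c) ^ CfsgLib.Lie.SzOvoid.ee m * a) * two⟩, ?_⟩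
    rintro ⟨s, u, ⟨p, q, rfl⟩, rfl⟩ hs
    obtain ⟨k1, k2⟩ := (key p q).1 hs
    have hp' : p = a + c := by linear_combination k1 - a * two
    subst hp'
    refine Subtype.ext (congrArg (fun q => φ (CfsgLib.Lie.SzOvoid.sU hp (a + c) q)) ?_)
    linear_combination k2 - (b + (a + c) ^ CfsgLib.Lie.SzOvoid.ee m * a) * two

end Cfsg.Agent.S1163
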