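import Cfsg.Statements.S1242
import Cfsg.Agent.Lib.TwoFusionControl
import Cfsg.Agent.Lib.FusionHyperfocal

set_option autoImplicit false
open Cfsg

namespace Cfsg.Agent.S1242

open scoped commutatorElement in
/-- Let G be a finite group, p a prime and H a subgroup of index prime to p such that any two elements of H of p-power order that are conjugate in G are conjugate in H. Then (O^p(G)·G') ∩ H = O^p(H)·H', where O^p denotes the subgroup generated by the elements of order prime to p. -/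
theorem result {G : Type*} [Group G] [Finite G] {p : ℕ} [Fact p.Prime] (H : Subgroup G) (hidx : Nat.Coprime p H.index) (hfus : ∀ g ∈ H, (∃ k : ℕ, orderOf g = p ^ k) → ∀ a : G, a * g * a⁻¹ ∈ H → ∃ h ∈ H, h * g * h⁻¹ = a * g * a⁻¹) : (Cfsg.pResidual p G ⊔ commutator G) ⊓ H = (Cfsg.pResidual p ↥H ⊔ commutator ↥H).map H.subtype := by
  have hn := CfsgLib.Local.pResidual_normal' p ↥H
  have hn' : (Cfsg.pResidual p ↥H ⊔ commutator ↥H).Normal := by
    haveI := hn
    infer_instance
  set K' := Cfsg.pResidual p ↥H ⊔ commutator ↥H with hK'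
  set K := K'.map H.subtype with hK
  have hKH : K ≤ H := Subgroup.map_subtype_le _
  have hKn : (K.subgroupOf H).Normal := by
    rw [hK, Subgroup.subgroupOf, Subgroup.comap_map_eq_self_of_injective H.subtype_injective]
    exact hn'
  refine le_antisymm ?_ (le_inf ?_ hKH)
  swap
  · rw [hK, hK', Subgroup.map_sup]
    refine sup_le_sup (CfsgLib.Fusion.pResidual_map_le H.subtype) ?_
    rw [commutator_def, commutator_def, Subgroup.map_commutator]
    exact Subgroup.commutator_mono le_top le_top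
  rintro g hg
  obtain ⟨hgL, hgH⟩ := Subgroup.mem_inf.mp hg
  have hp' : ∀ x : H, ∀ m : ℕ, Nat.Coprime m p → orderOf x ∣ m → (x : G) ∈ K := fun x m hm hd =>
    ⟨x, le_sup_left (a := Cfsg.pResidual p ↥H)
      (Subgroup.subset_closure (hm.coprime_dvd_left hd)), rfl⟩
  obtain ⟨a, b, hb, hab⟩ := Nat.exists_eq_pow_mul_and_not_dvd
    (isOfFinOrder_of_finite g).orderOf_pos.ne' p (Fact.out : p.Prime).ne_one
  have hbc : Nat.Coprime b p := ((Fact.out : p.Prime).coprime_iff_not_dvd.mpr hb).symm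
  have h1 : g ^ p ^ a ∈ K := hp' ⟨g ^ p ^ a, pow_mem hgH _⟩ b hbc (by
    rw [← Subgroup.orderOf_coe]
    exact orderOf_dvd_of_pow_eq_one (by rw [← pow_mul, ← hab, pow_orderOf_eq_one]))
  have h2 : g ^ b ∈ K := by
    by_contra hne
    obtain ⟨f, hf, hf1⟩ := CfsgLib.TwoFusion.exists_hom_ne_one H K hKn (fun x hx y hy =>
      ⟨⁅(⟨x, hx⟩ : H), (⟨y, hy⟩ : H)⁆, le_sup_right (a := Cfsg.pResidual p ↥H)
        (Subgroup.commutator_mem_commutator (Subgroup.mem_top _) (Subgroup.mem_top _)), rfl⟩)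
      hidx (pow_mem hgH b) hne
      (by
        obtain ⟨i, -, hi⟩ := (Nat.dvd_prime_pow Fact.out).mp
          (orderOf_dvd_of_pow_eq_one (x := g ^ b) (n := p ^ a)
            (by rw [← pow_mul, mul_comm, ← hab, pow_orderOf_eq_one]))
        exact ⟨i, hi⟩)
      (fun m c hc => by
        obtain ⟨h, hh, he⟩ := hfus ((g ^ b) ^ m) (pow_mem (pow_mem hgH b) m) (by
          obtain ⟨i, -, hi⟩ := (Nat.dvd_prime_pow Fact.out).mp
            (orderOf_dvd_of_pow_eq_one (x := (g ^ b) ^ m) (n := p ^ a)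
              (by rw [← pow_mul, ← pow_mul,
                show b * (m * p ^ a) = p ^ a * b * m by ring, pow_mul, ← hab, pow_orderOf_eq_one,
                one_pow]))
          exact ⟨i, hi⟩) c hc
        rw [← he]
        exact ⟨⁅(⟨h, hh⟩ : H), (⟨(g ^ b) ^ m, pow_mem (pow_mem hgH b) m⟩ : H)⁆,
          le_sup_right (a := Cfsg.pResidual p ↥H)
            (Subgroup.commutator_mem_commutator (Subgroup.mem_top _) (Subgroup.mem_top _)), rfl⟩)
    refine hf1 ?_
    have hle : Cfsg.pResidual p G ⊔ commutator G ≤ f.ker := by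
      refine sup_le ((Subgroup.closure_le _).mpr fun x hx => ?_) fun c hc => hf c hc
      rw [SetLike.mem_coe, MonoidHom.mem_ker, ← orderOf_eq_one_iff]
      obtain ⟨w, hw⟩ := QuotientGroup.mk_surjective (f x)
      obtain ⟨i, j, hj, hij⟩ := Nat.exists_eq_pow_mul_and_not_dvd
        (isOfFinOrder_of_finite w).orderOf_pos.ne' p (Fact.out : p.Prime).ne_one
      have h4 : (f x) ^ p ^ i = 1 := by
        rw [← hw, ← QuotientGroup.mk_pow, QuotientGroup.eq_one_iff, Subgroup.mem_subgroupOf]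
        exact hp' (w ^ p ^ i) j ((Fact.out : p.Prime).coprime_iff_not_dvd.mpr hj).symm
          (orderOf_dvd_of_pow_eq_one (by rw [← pow_mul, ← hij, pow_orderOf_eq_one]))
      exact Nat.eq_one_of_dvd_coprimes (Nat.Coprime.pow_right i hx)
        (orderOf_map_dvd f x) (orderOf_dvd_of_pow_eq_one h4)
    exact hle (pow_mem hgL b)
  have h3 : (QuotientGroup.mk ⟨g, hgH⟩ : ↥H ⧸ K.subgroupOf H) = 1 := by
    rw [← orderOf_eq_one_iff]
    refine Nat.eq_one_of_dvd_coprimes (hbc.pow_right a) (orderOf_dvd_of_pow_eq_one ?_)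
      (orderOf_dvd_of_pow_eq_one ?_)
    · rw [← QuotientGroup.mk_pow, QuotientGroup.eq_one_iff]; exact h2
    · rw [← QuotientGroup.mk_pow, QuotientGroup.eq_one_iff]; exact h1
  rwa [QuotientGroup.eq_one_iff] at h3

end Cfsg.Agent.S1242
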