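import Cfsg.Statements.S1244
import Cfsg.Agent.Lib.TwoFusionStrong

set_option autoImplicit false
open Cfsg

namespace Cfsg.Agent.S1244

/-- Let G be a finite group with no subgroup of index 2 whose Sylow 2-subgroup S is commutative, and let R ≤ S be a subgroup whose 2-rank is exactly one less than the 2-rank r of S. Then every involution of S is conjugate, by an element of N_G(S), to an element of R. -/
theorem result {G : Type*} [Group G] [Finite G] (hG : ∀ H : Subgroup G, H.index ≠ 2) (S : Sylow 2 G) (hS : IsMulCommutative (S : Subgroup G)) (r : ℕ) (hr1 : 1 ≤ r) (hSr : Cfsg.PRankLE 2 r (S : Subgroup G) ∧ ¬ Cfsg.PRankLE 2 (r - 1) (S : Subgroup G)) (R : Subgroup G) (hRS : R ≤ S) (hRr : Cfsg.PRankLE 2 (r - 1) R ∧ (r = 1 ∨ ¬ Cfsg.PRankLE 2 (r - 2) R)) (t : G) (ht : orderOf t = 2) (htS : t ∈ S) : ∃ n ∈ Subgroup.normalizer ((S : Subgroup G) : Set G), n * t * n⁻¹ ∈ R := by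
  haveI : Fact (Nat.Prime 2) := ⟨Nat.prime_two⟩
  let V : Subgroup G :=
    { carrier := {x | x ∈ (S : Subgroup G) ∧ x ^ 2 = 1}
      one_mem' := ⟨one_mem _, one_pow _⟩
      inv_mem' := fun {x} hx => ⟨inv_mem hx.1, by rw [inv_pow, hx.2, inv_one]⟩
      mul_mem' := fun {a b} ha hb => ⟨mul_mem ha.1 hb.1, by
        have hc : Commute a b := congrArg Subtype.val
          (hS.is_comm.comm (⟨a, ha.1⟩ : (S : Subgroup G)) ⟨b, hb.1⟩)
        rw [hc.mul_pow, ha.2, hb.2, one_mul]⟩ }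
  have hVS : V ≤ (S : Subgroup G) := fun x hx => hx.1
  set W := V ⊓ R with hW
  -- orders of maximal elementary subgroups
  have hcard : ∀ (K : Subgroup G) (j : ℕ), (∀ x ∈ K, x ∈ (S : Subgroup G)) →
      Cfsg.PRankLE 2 j K → Nat.card (V ⊓ K : Subgroup G) ≤ 2 ^ j := by
    intro K j hK h
    rw [← Nat.card_congr (Subgroup.subgroupOfEquivOfLe (inf_le_right : V ⊓ K ≤ K)).toEquiv]
    refine h _ ⟨⟨fun a b => Subtype.ext (Subtype.ext ?_)⟩⟩ fun x hx => Subtype.ext ?_
    · show ((a : K) : G) * (b : K) = (b : K) * (a : K)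
      exact congrArg Subtype.val (hS.is_comm.comm
        (⟨_, hK _ (a : K).2⟩ : (S : Subgroup G)) ⟨_, hK _ (b : K).2⟩)
    · exact (Subgroup.mem_inf.mp hx).1.2
  have hcard' : ∀ (K : Subgroup G) (j : ℕ), (∀ x ∈ K, x ∈ (S : Subgroup G)) →
      ¬ Cfsg.PRankLE 2 j K → 2 ^ j < Nat.card (V ⊓ K : Subgroup G) := by
    intro K j hK h
    by_contra hle
    refine h fun A hA hAe => ?_
    refine le_trans ?_ (not_lt.mp hle)
    rw [← Subgroup.card_map_of_injective (f := K.subtype) (Subgroup.subtype_injective K)]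
    refine Subgroup.card_le_of_le (le_inf ?_ (Subgroup.map_subtype_le _))
    rintro _ ⟨a, ha, rfl⟩
    exact ⟨hK _ a.2, congrArg Subtype.val (hAe a ha)⟩
  have hp : ∀ K : Subgroup G, ∃ n, Nat.card (V ⊓ K : Subgroup G) = 2 ^ n := fun K =>
    IsPGroup.iff_card.mp (S.2.to_le (inf_le_left.trans hVS))
  have hVc : Nat.card V = 2 ^ r := by
    have e : V ⊓ (S : Subgroup G) = V := inf_of_le_left hVS
    have h1 := hcard (S : Subgroup G) r (fun _ h => h) hSr.1
    have h2 := hcard' (S : Subgroup G) (r - 1) (fun _ h => h) hSr.2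
    obtain ⟨n, hn⟩ := hp (S : Subgroup G)
    rw [e] at h1 h2 hn
    rw [hn] at h1 h2 ⊢
    rw [Nat.pow_le_pow_iff_right (by norm_num)] at h1
    rw [Nat.pow_lt_pow_iff_right (by norm_num)] at h2
    rw [show n = r by omega]
  have hWc : Nat.card W = 2 ^ (r - 1) := by
    have h1 := hcard R (r - 1) (fun x hx => hRS hx) hRr.1
    obtain ⟨n, hn⟩ := hp R
    rw [hn] at h1
    rw [hW, hn]
    rw [Nat.pow_le_pow_iff_right (by norm_num)] at h1
    rcases hRr.2 with h | h
    · rw [show n = r - 1 by omega]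
    · have h2 := hcard' R (r - 2) (fun x hx => hRS hx) h
      rw [hn, Nat.pow_lt_pow_iff_right (by norm_num)] at h2
      rw [show n = r - 1 by omega]
  have hrel : W.relIndex V = 2 := by
    have h := CfsgLib.Core.card_mul_relIndex (inf_le_left : W ≤ V)
    rw [hWc, hVc] at h
    refine Nat.eq_of_mul_eq_mul_left (Nat.two_pow_pos (r - 1)) (h.trans ?_)
    rw [← pow_succ, show r - 1 + 1 = r by omega]
  obtain ⟨n, hn, hnW⟩ := CfsgLib.TwoFusion.exists_conj_mem_of_abelian hG S hS V W inf_le_left hrel hVS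
    (fun n hn v hv => ⟨(Subgroup.mem_normalizer_iff.mp hn v).mp hv.1,
      by rw [conj_pow, hv.2, mul_one, mul_inv_cancel]⟩)
    t ⟨htS, by rw [← ht, pow_orderOf_eq_one]⟩
  exact ⟨n, hn, (Subgroup.mem_inf.mp hnW).2⟩

end Cfsg.Agent.S1244
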