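import Cfsg.Statements.S1256
import Cfsg.Agent.Lib.TwoFusionDihedral

set_option autoImplicit false
open Cfsg

namespace Cfsg.Agent.S1256

/-- Let X be a finite group whose Sylow 2-subgroup S is dihedral of order 2m ≥ 4. If |S| = 4, any two Klein four-subgroups of X are conjugate; if |S| > 4, there are Klein four-subgroups U₁, U₂ of X that are not conjugate, and every Klein four-subgroup of X is conjugate to U₁ or to U₂. -/
theorem result {X : Type*} [Group X] [Finite X] (S : Sylow 2 X) (m : ℕ) (hm : 2 ≤ m) (eS : (S : Subgroup X) ≃* DihedralGroup m) : (Nat.card S = 4 → ∀ U V : Subgroup X, IsKleinFour U → IsKleinFour V → (∃ x : X, U.map (MulAut.conj x).toMonoidHom = V)) ∧ (4 < Nat.card S → ∃ U₁ U₂ : Subgroup X, IsKleinFour U₁ ∧ IsKleinFour U₂ ∧ ¬ (∃ x : X, U₁.map (MulAut.conj x).toMonoidHom = U₂) ∧ ∀ V : Subgroup X, IsKleinFour V → (∃ x : X, V.map (MulAut.conj x).toMonoidHom = U₁) ∨ (∃ x : X, V.map (MulAut.conj x).toMonoidHom = U₂)) := by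
  haveI : Fact (Nat.Prime 2) := ⟨Nat.prime_two⟩
  obtain ⟨k, rfl⟩ := CfsgLib.TwoFusion.Dihedral.exists_exponent hm eS
  refine ⟨fun h4 U V hU hV => ?_, fun h4 => ?_⟩
  · have hfac : 2 ^ (Nat.card X).factorization 2 = 4 := by
      rw [← Sylow.card_eq_multiplicity S]; exact h4
    have := hU; have := hV
    let P : Sylow 2 X := Sylow.ofCard U (by rw [IsKleinFour.card_four, hfac])
    let R : Sylow 2 X := Sylow.ofCard V (by rw [IsKleinFour.card_four, hfac])
    obtain ⟨g, hg⟩ := MulAction.exists_smul_eq X P R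
    exact ⟨g, congrArg (fun P : Sylow 2 X => (P : Subgroup X)) hg⟩
  · have hk : 1 ≤ k := by
      by_contra hk
      rw [Nat.card_congr eS.toEquiv, DihedralGroup.nat_card, show k = 0 by omega] at h4
      omega
    exact ⟨_, _, CfsgLib.TwoFusion.Dihedral.klein_map eS 0, CfsgLib.TwoFusion.Dihedral.klein_map eS 1,
      CfsgLib.TwoFusion.Dihedral.not_conj_fours eS hk,
      fun V hV => CfsgLib.TwoFusion.Dihedral.klein_classes eS hk hV⟩

end Cfsg.Agent.S1256
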