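import Cfsg.Statements.S1258
import Cfsg.Agent.Lib.CoreLayer

set_option autoImplicit false
open Cfsg

namespace Cfsg.Agent.S1258

/-- If the central quotient of a finite group X is non-abelian simple, then X = X' Z(X) and the commutator subgroup X' is quasisimple. -/
theorem result {X : Type*} [Group X] [Finite X] (hs : IsSimpleGroup (X ⧸ Subgroup.center X)) (hna : ¬ IsMulCommutative (X ⧸ Subgroup.center X)) : commutator X ⊔ Subgroup.center X = ⊤ ∧ Cfsg.IsQuasisimple ↥(commutator X) := by
  open scoped commutatorElement in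
  have hcomm : ∀ a b z w : X, z ∈ Subgroup.center X → w ∈ Subgroup.center X →
      ⁅a * z, b * w⁆ = ⁅a, b⁆ := by
    intro a b z w hz hw
    rw [Subgroup.mem_center_iff] at hz hw
    simp only [commutatorElement_def, mul_inv_rev]
    calc a * z * (b * w) * (z⁻¹ * a⁻¹) * (w⁻¹ * b⁻¹)
        = a * z * b * (w * (z⁻¹ * a⁻¹)) * (w⁻¹ * b⁻¹) := by group
      _ = a * z * b * ((z⁻¹ * a⁻¹) * w) * (w⁻¹ * b⁻¹) := by rw [hw]
      _ = a * (z * (b * z⁻¹)) * a⁻¹ * b⁻¹ := by group
      _ = a * ((b * z⁻¹) * z) * a⁻¹ * b⁻¹ := by rw [← hz]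
      _ = a * b * a⁻¹ * b⁻¹ := by group
  haveI := hs
  have htop : commutator X ⊔ Subgroup.center X = ⊤ := by
    rcases hs.eq_bot_or_eq_top_of_normal ((commutator X).map
      (QuotientGroup.mk' (Subgroup.center X)))
      ((inferInstance : (commutator X).Normal).map _ (QuotientGroup.mk'_surjective _)) with h | h
    · exfalso
      apply hna
      refine ⟨⟨fun a b => ?_⟩⟩
      obtain ⟨a, rfl⟩ := QuotientGroup.mk'_surjective _ a
      obtain ⟨b, rfl⟩ := QuotientGroup.mk'_surjective _ b
      rw [← commutatorElement_eq_one_iff_mul_comm, ← map_commutatorElement, ← Subgroup.mem_bot, ← h]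
      exact Subgroup.mem_map_of_mem _ (Subgroup.commutator_mem_commutator
        (Subgroup.mem_top a) (Subgroup.mem_top b))
    · have h2 := congrArg (Subgroup.comap (QuotientGroup.mk' (Subgroup.center X))) h
      rwa [Subgroup.comap_map_eq, QuotientGroup.ker_mk', Subgroup.comap_top] at h2
  have hdec : ∀ g : X, ∃ a ∈ commutator X, ∃ z ∈ Subgroup.center X, a * z = g := fun g =>
    Subgroup.mem_sup_of_normal_left.mp (htop ▸ Subgroup.mem_top g)
  refine ⟨htop, (Subgroup.isPerfect_iff).mpr (le_antisymm (Subgroup.commutator_le_self _) ?_), ?_⟩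
  · show ⁅(⊤ : Subgroup X), ⊤⁆ ≤ _
    rw [Subgroup.commutator_le]
    intro g _ h _
    obtain ⟨a, ha, z, hz, rfl⟩ := hdec g
    obtain ⟨b, hb, w, hw, rfl⟩ := hdec h
    rw [hcomm a b z w hz hw]
    exact Subgroup.commutator_mem_commutator ha hb
  · set f : ↥(commutator X) →* X ⧸ Subgroup.center X :=
      (QuotientGroup.mk' (Subgroup.center X)).comp (commutator X).subtype
    have hf : Function.Surjective f := fun q => by
      obtain ⟨g, rfl⟩ := QuotientGroup.mk'_surjective _ q
      obtain ⟨a, ha, z, hz, rfl⟩ := hdec g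
      refine ⟨⟨a, ha⟩, ?_⟩
      show QuotientGroup.mk' _ a = QuotientGroup.mk' _ (a * z)
      rw [map_mul]
      simp [(QuotientGroup.eq_one_iff z).mpr hz]
    have hker : f.ker = Subgroup.center ↥(commutator X) := by
      ext ⟨a, ha⟩
      show (QuotientGroup.mk' _ a = 1) ↔ _
      rw [QuotientGroup.mk'_apply, QuotientGroup.eq_one_iff, Subgroup.mem_center_iff,
        Subgroup.mem_center_iff]
      constructor
      · exact fun h b => Subtype.ext (h b)
      · intro h g
        obtain ⟨b, hb, z, hz, rfl⟩ := hdec g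
        have := congrArg Subtype.val (h ⟨b, hb⟩)
        simp only [Subgroup.coe_mul] at this
        rw [Subgroup.mem_center_iff] at hz
        calc b * z * a = b * (z * a) := mul_assoc _ _ _
          _ = b * (a * z) := by rw [hz a]
          _ = a * b * z := by rw [← mul_assoc, this]
          _ = a * (b * z) := mul_assoc _ _ _
    exact ((QuotientGroup.quotientMulEquivOfEq hker.symm).trans
      (QuotientGroup.quotientKerEquivOfSurjective f hf)).isSimpleGroup

end Cfsg.Agent.S1258
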