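import Cfsg.Statements.S1262
import Cfsg.Agent.Lib.CoreLayer

set_option autoImplicit false
open Cfsg

namespace Cfsg.Agent.S1262

/-- Let L be a component of the finite group G and H a solvable subgroup normalized by L. Then ⁅L, H⁆ = 1. -/
theorem result {G : Type*} [Group G] [Finite G] (L H : Subgroup G) (hL : Cfsg.IsComponent L) (hsolv : Group.IsSolvable ↥H) (hinv : L ≤ Subgroup.normalizer (H : Set G)) : ⁅L, H⁆ = ⊥ := by
  have hsub : (H.subgroupOf (L ⊔ H)).Normal :=
    (Subgroup.normal_subgroupOf_iff_le_normalizer le_sup_right).mpr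
      (sup_le hinv Subgroup.le_normalizer)
  haveI : Group.IsSolvable ↥(H.subgroupOf (L ⊔ H)) :=
    Group.isSolvable_of_isSolvable_injective
      (f := (Subgroup.subgroupOfEquivOfLe (le_sup_right : H ≤ L ⊔ H)).toMonoidHom)
      (Subgroup.subgroupOfEquivOfLe (le_sup_right : H ≤ L ⊔ H)).injective
  have h := CfsgLib.Core.commutator_component_of_subnormal_solvable
    (CfsgLib.Core.IsComponent_subgroupOf hL (le_sup_left : L ≤ L ⊔ H)) hsub.isSubnormal inferInstance
  rw [← CfsgLib.Core.commutator_map_subgroupOf (le_sup_left : L ≤ L ⊔ H) le_sup_right, h,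
    Subgroup.map_bot]

end Cfsg.Agent.S1262
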