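import Cfsg.Statements.S1263
import Cfsg.Agent.Lib.CoreLayer

set_option autoImplicit false
open Cfsg

namespace Cfsg.Agent.S1263

/-- For a finite group G, Z(E(G)) is the subgroup generated by the centres Z(L) of the components L of G (all viewed as subgroups of G). -/
theorem result {G : Type*} [Group G] [Finite G] : (Subgroup.center ↥(Cfsg.layer G)).map (Cfsg.layer G).subtype = ⨆ L : {K : Subgroup G // Cfsg.IsComponent K}, (Subgroup.center ↥(L : Subgroup G)).map (L : Subgroup G).subtype := by
  classical
  set R := ⨆ L : {K : Subgroup G // Cfsg.IsComponent K},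
      (Subgroup.center ↥(L : Subgroup G)).map (L : Subgroup G).subtype with hR
  have hcomm : ∀ K L : Subgroup G, Cfsg.IsComponent K → Cfsg.IsComponent L → K ≠ L →
      K ≤ Subgroup.centralizer (L : Set G) := fun K L hK hL h =>
    Subgroup.commutator_eq_bot_iff_le_centralizer.mp (CfsgLib.Core.components_commute hK hL h)
  apply le_antisymm
  · have key : ∀ s : Finset {K : Subgroup G // Cfsg.IsComponent K}, ∀ x : G,
        x ∈ s.sup (fun L => (L : Subgroup G)) →
        (∀ L ∈ s, x ∈ Subgroup.centralizer ((L : Subgroup G) : Set G)) → x ∈ R := by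
      intro s
      induction s using Finset.induction_on with
      | empty =>
        intro x hx _
        rw [Finset.sup_empty, Subgroup.mem_bot] at hx
        rw [hx]; exact one_mem _
      | @insert K t hKt ih =>
        intro x hx hc
        have hS : t.sup (fun L => (L : Subgroup G)) ≤
            Subgroup.centralizer ((K : Subgroup G) : Set G) :=
          Finset.sup_le fun L hL => hcomm _ _ L.2 K.2 fun h => hKt (Subtype.ext h ▸ hL)
        rw [Finset.sup_insert, ← SetLike.mem_coe,
          Subgroup.coe_mul_of_right_le_normalizer_left _ _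
            (hS.trans (Subgroup.centralizer_le_normalizer _))] at hx
        obtain ⟨a, ha, b, hb, rfl⟩ := hx
        have hab := hc K (Finset.mem_insert_self _ _)
        have ha' : a ∈ Subgroup.centralizer ((K : Subgroup G) : Set G) := by
          simpa using mul_mem hab (inv_mem (hS hb))
        have haR : a ∈ R := Subgroup.mem_iSup_of_mem K ⟨⟨a, ha⟩,
          Subgroup.mem_center_iff.mpr fun e =>
            Subtype.ext (Subgroup.mem_centralizer_iff.mp ha' _ e.2), rfl⟩
        refine mul_mem haR (ih b hb fun L hL => ?_)
        have h2 : a ∈ Subgroup.centralizer ((L : Subgroup G) : Set G) :=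
          hcomm _ _ K.2 L.2 (fun h => hKt (Subtype.ext h ▸ hL)) ha
        simpa using mul_mem (inv_mem h2) (hc L (Finset.mem_insert_of_mem hL))
    rintro x ⟨⟨x, hxE⟩, hx, rfl⟩
    haveI := Fintype.ofFinite {K : Subgroup G // Cfsg.IsComponent K}
    refine key Finset.univ x ?_ fun L _ => ?_
    · rw [Finset.sup_univ_eq_iSup]
      have h := hxE
      rw [Cfsg.layer, sSup_eq_iSup'] at h
      exact h
    · rw [Subgroup.mem_centralizer_iff]
      intro l hl
      exact congrArg Subtype.val
        (Subgroup.mem_center_iff.mp hx ⟨l, CfsgLib.Core.component_le_layer L.2 hl⟩)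
  · refine iSup_le fun L => ?_
    rintro x ⟨⟨x, hxL⟩, hx, rfl⟩
    refine ⟨⟨x, CfsgLib.Core.component_le_layer L.2 hxL⟩, Subgroup.mem_center_iff.mpr fun e =>
      Subtype.ext ?_, rfl⟩
    have h1 : Cfsg.layer G ≤ Subgroup.centralizer {x} := sSup_le fun K hK => by
      intro k hk
      rw [Subgroup.mem_centralizer_iff]
      rintro y rfl
      by_cases h : (L : Subgroup G) = K
      · exact (congrArg Subtype.val (Subgroup.mem_center_iff.mp hx ⟨k, h ▸ hk⟩)).symm
      · exact (Subgroup.mem_centralizer_iff.mp (hcomm _ _ L.2 hK h hxL) k hk).symm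
    exact (Subgroup.mem_centralizer_iff.mp (h1 e.2) x rfl).symm

end Cfsg.Agent.S1263
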