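import Cfsg.Statements.S1264
import Cfsg.Agent.Lib.CoreLayer

set_option autoImplicit false
open Cfsg

namespace Cfsg.Agent.S1264

/-- Let G be finite, C = C_G(F(G)) the centralizer of the Fitting subgroup, and N a solvable subgroup of C normalized by C. Then N ≤ Z(F(G)). -/
theorem result {G : Type*} [Group G] [Finite G] (N : Subgroup G) (hN : N ≤ Subgroup.centralizer (Cfsg.fittingSubgroup G : Set G)) (hnorm : Subgroup.centralizer (Cfsg.fittingSubgroup G : Set G) ≤ Subgroup.normalizer (N : Set G)) (hsolv : Group.IsSolvable ↥N) : N ≤ (Subgroup.center ↥(Cfsg.fittingSubgroup G)).map (Cfsg.fittingSubgroup G).subtype := by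
  set F := Cfsg.fittingSubgroup G with hF
  haveI : F.Normal := CfsgLib.Core.normal_fittingSubgroup
  have hNC : N.IsSubnormal := by
    refine Subgroup.IsSubnormal.trans hN ?_ (inferInstance :
      (Subgroup.centralizer (F : Set G)).Normal).isSubnormal
    exact ((Subgroup.normal_subgroupOf_iff_le_normalizer hN).mpr hnorm).isSubnormal
  have key : ∀ M : Subgroup G, M.IsSubnormal → M ≤ Subgroup.centralizer (F : Set G) →
      Group.IsSolvable ↥M → M ≤ F := by
    intro M
    induction M using WellFoundedLT.induction with
    | _ M ih =>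
    intro hsn hMC hsol
    by_cases hM : M = ⊥
    · rw [hM]; exact bot_le
    haveI := hsol
    haveI : Nontrivial ↥M := (Subgroup.nontrivial_iff_ne_bot M).mpr hM
    have hlt : (commutator ↥M).map M.subtype < M := by
      have h := (Subgroup.map_lt_map_iff_of_injective M.subtype_injective).mpr
        (Group.IsSolvable.commutator_lt_top_of_nontrivial ↥M)
      rwa [← MonoidHom.range_eq_map, Subgroup.range_subtype] at h
    have hle := ih _ hlt ((inferInstance : (commutator ↥M).Normal).isSubnormal.trans' hsn)
      (hlt.le.trans hMC) (Group.isSolvable_of_isSolvable_injective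
        (Subgroup.inclusion_injective hlt.le))
    refine CfsgLib.Core.le_fittingSubgroup_of_isSubnormal hsn ?_
    haveI : Group.IsNilpotent (Abelianization ↥M) := CommGroup.isNilpotent
    refine Subgroup.isNilpotent_of_ker_le_center (Abelianization.of (G := ↥M)) ?_
    rw [Abelianization.ker_of]
    intro c hc
    rw [Subgroup.mem_center_iff]
    intro m
    exact Subtype.ext (Subgroup.mem_centralizer_iff.mp (hMC m.2) _ (hle ⟨c, hc, rfl⟩)).symm
  intro x hx
  refine ⟨⟨x, key N hNC hN hsolv hx⟩, Subgroup.mem_center_iff.mpr fun e => Subtype.ext ?_, rfl⟩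
  exact Subgroup.mem_centralizer_iff.mp (hN hx) _ e.2

end Cfsg.Agent.S1264
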