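import Cfsg.Statements.S1270
import Cfsg.Agent.Lib.LocalBalanced

set_option autoImplicit false
open Cfsg
open scoped commutatorElement

namespace Cfsg.Agent.S1270

/-- Let G be finite with O_{p'}(G) = 1, x of order p, and L a component with ⁅L, ⟨x⟩⁆ ≠ L. Then ⁅L, O_{p'}(C_G(x))⁆ = 1. -/
theorem result {G : Type*} [Group G] [Finite G] (p : ℕ) [Fact p.Prime] (hO : Cfsg.pPrimeCore p G = ⊥) (x : G) (hx : orderOf x = p) (L : Subgroup G) (hL : Cfsg.IsComponent L) (hne : ⁅L, Subgroup.zpowers x⁆ ≠ L) : ⁅L, Cfsg.centralizerPPrimeCore p x⁆ = ⊥ := by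
  rw [Subgroup.commutator_eq_bot_iff_le_centralizer, Subgroup.le_centralizer_iff]
  intro d hd
  by_cases hxL : x ∈ Subgroup.normalizer (L : Set G)
  swap
  · exact CfsgLib.Local.Balanced.centralizes_of_moved hO hx hd hL hxL
  refine CfsgLib.Local.Balanced.centralizes_of_centralized hO hx hd hL ?_
  set M := ⁅L, Subgroup.zpowers x⁆ with hM
  have hML : M ≤ L := by
    rw [hM, Subgroup.commutator_le]
    intro l hl y hy
    have hyN : y ∈ Subgroup.normalizer (L : Set G) := Subgroup.zpowers_le.mpr hxL hy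
    rw [commutatorElement_def]
    simpa [mul_assoc] using mul_mem hl ((Subgroup.mem_normalizer_iff.mp hyN _).mp (inv_mem hl))
  have hn : (M.subgroupOf L).Normal := (Subgroup.normal_subgroupOf_iff_le_normalizer hML).mpr
    (CfsgLib.Core.le_normalizer_commutator_left L (Subgroup.zpowers x))
  haveI := hn
  rcases CfsgLib.Core.quasisimple_normal_cases hL.2 (M.subgroupOf L) with h | h
  · exact absurd (le_antisymm hML (Subgroup.subgroupOf_eq_top.mp h)) hne
  refine CfsgLib.Local.Balanced.centralizes_of_mod_center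
    (CfsgLib.Core.isPerfect_of_component hL) fun l hl => ?_
  have hm : ⁅x, l⁆ ∈ M := by
    rw [hM, Subgroup.commutator_comm]
    exact Subgroup.commutator_mem_commutator (Subgroup.mem_zpowers x) hl
  refine Subgroup.mem_inf.mpr ⟨hML hm, Subgroup.mem_centralizer_iff.mpr fun m hm' => ?_⟩
  exact congrArg Subtype.val (Subgroup.mem_center_iff.mp
    (h (show (⟨_, hML hm⟩ : ↥L) ∈ M.subgroupOf L from hm)) ⟨m, hm'⟩)


end Cfsg.Agent.S1270
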