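import Cfsg.Statements.S1271
import Cfsg.Agent.Lib.LocalBalanced

set_option autoImplicit false
open Cfsg

namespace Cfsg.Agent.S1271

/-- Let G be finite with O_{p'}(G) = 1. Suppose that for every component L of G and every subgroup H ≥ L in which L is normal, the quotient H / C_H(L) is balanced for the prime p. Then G is balanced for p. -/
theorem result {G : Type*} [Group G] [Finite G] (p : ℕ) [Fact p.Prime] (hO : Cfsg.pPrimeCore p G = ⊥) (h : ∀ L : Subgroup G, Cfsg.IsComponent L → ∀ H : Subgroup G, L ≤ H → (L.subgroupOf H).Normal → ∀ [((Subgroup.centralizer (L : Set G)).subgroupOf H).Normal], Cfsg.IsBalancedFor p (↥H ⧸ (Subgroup.centralizer (L : Set G)).subgroupOf H)) : Cfsg.IsBalancedFor p G := by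
  have hp : Fact p.Prime := inferInstance
  intro x hx d hd
  rw [hO, Subgroup.mem_bot]
  have hA : Cfsg.IsElementaryAbelian p (Subgroup.zpowers x) := by
    refine ⟨inferInstance, ?_⟩
    rintro _ ⟨i, rfl⟩
    show (x ^ i) ^ p = 1
    rw [← zpow_natCast, ← zpow_mul, mul_comm, zpow_mul, zpow_natCast,
      show x ^ p = 1 from hx ▸ pow_orderOf_eq_one x, one_zpow]
  have hAk : Nat.card ↥(Subgroup.zpowers x) = p ^ 1 := by rw [Nat.card_zpowers, hx, pow_one]
  have hdA : ∀ a ∈ Subgroup.zpowers x, a ≠ 1 → d ∈ Cfsg.centralizerPPrimeCore p a := by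
    intro a ha ha1
    have hz : Subgroup.zpowers a = Subgroup.zpowers x := by
      refine Subgroup.eq_of_le_of_card_ge (Subgroup.zpowers_le.mpr ha) ?_
      rw [Nat.card_zpowers, Nat.card_zpowers, orderOf_eq_prime (hA.2 a ha) ha1, hx]
    have hC : Subgroup.centralizer ({a} : Set G) = Subgroup.centralizer ({x} : Set G) := by
      rw [← CfsgLib.Local.Balanced.centralizer_zpowers, hz, CfsgLib.Local.Balanced.centralizer_zpowers]
    rw [Cfsg.centralizerPPrimeCore, hC]
    exact hd
  have hcF : d ∈ Subgroup.centralizer (Cfsg.generalizedFittingSubgroup G : Set G) := by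
    rw [← Subgroup.zpowers_le, Subgroup.le_centralizer_iff]
    refine sup_le (sSup_le fun L hL => ?_) ?_
    · rw [Subgroup.le_centralizer_iff, Subgroup.zpowers_le]
      refine CfsgLib.Local.Balanced.centralizes_component_of hO hA le_rfl hAk hdA hL
        fun H hLH B hB hBk => ?_
      revert hB hBk
      revert B
      revert hLH
      revert H
      set NL := Subgroup.normalizer (L : Set G) with hNL
      set π := (CfsgLib.Local.LBalance.autModCenter ↥L).comp L.normalizerMonoidHom with hπ
      intro H hLH B hB hBk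
      set H' := H.map NL.subtype with hH'
      have hLH' : L ≤ H' := fun l hl =>
        ⟨⟨l, Subgroup.le_normalizer hl⟩, hLH (Subgroup.mem_subgroupOf.mpr hl), rfl⟩
      have hH'N : H' ≤ NL := Subgroup.map_subtype_le _
      have hLn : (L.subgroupOf H').Normal :=
        (Subgroup.normal_subgroupOf_iff_le_normalizer hLH').mpr hH'N
      haveI hCn : ((Subgroup.centralizer (L : Set G)).subgroupOf H').Normal := by
        refine ⟨fun c hc g => ?_⟩
        exact Subgroup.mem_subgroupOf.mpr ((Subgroup.mem_normalizer_iff.mp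
          (CfsgLib.Core.le_normalizer_centralizer (le_refl NL) (hH'N g.2)) _).mp
            (Subgroup.mem_subgroupOf.mp hc))
      let f : ↥H' →* ↥(H.map π) := (π.subgroupMap H).comp
        (H.equivMapOfInjective NL.subtype NL.subtype_injective).symm.toMonoidHom
      have hfs : Function.Surjective f := (MonoidHom.subgroupMap_surjective π H).comp
        (H.equivMapOfInjective NL.subtype NL.subtype_injective).symm.surjective
      have hker : f.ker = (Subgroup.centralizer (L : Set G)).subgroupOf H' := by
        ext y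
        obtain ⟨y', rfl⟩ := (H.equivMapOfInjective NL.subtype NL.subtype_injective).surjective y
        have e : f ((H.equivMapOfInjective NL.subtype NL.subtype_injective) y') =
            (π.subgroupMap H) y' :=
          congrArg (π.subgroupMap H) (MulEquiv.symm_apply_apply _ y')
        rw [MonoidHom.mem_ker, e, Subgroup.mem_subgroupOf]
        show _ ↔ ((y' : ↥NL) : G) ∈ _
        constructor
        · intro h1
          have h1' : π (y' : ↥NL) = 1 := congrArg Subtype.val h1
          refine CfsgLib.Local.Balanced.centralizes_of_mod_center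
            (CfsgLib.Core.isPerfect_of_component hL) fun l hl => ?_
          have hm : ((y' : ↥NL) : G) * l * ((y' : ↥NL) : G)⁻¹ ∈ L :=
            (Subgroup.mem_normalizer_iff.mp (y' : ↥NL).2 l).mp hl
          have e2 : (π (y' : ↥NL)) (QuotientGroup.mk' (Subgroup.center ↥L) ⟨l, hl⟩) =
              QuotientGroup.mk' (Subgroup.center ↥L) ⟨_, hm⟩ := rfl
          rw [h1'] at e2
          have h2 : (⟨_, hm⟩ : ↥L) * ⟨l, hl⟩⁻¹ ∈ Subgroup.center ↥L := by
            rw [← QuotientGroup.eq_one_iff, QuotientGroup.mk_mul, QuotientGroup.mk_inv,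
              mul_inv_eq_one]
            exact e2.symm
          refine Subgroup.mem_inf.mpr ⟨mul_mem hm (inv_mem hl), Subgroup.mem_centralizer_iff.mpr ?_⟩
          exact fun m hm' => congrArg Subtype.val (Subgroup.mem_center_iff.mp h2 ⟨m, hm'⟩)
        · intro h1
          refine Subtype.ext (MulEquiv.ext fun z => ?_)
          obtain ⟨l, rfl⟩ := QuotientGroup.mk'_surjective (Subgroup.center ↥L) z
          show QuotientGroup.mk' _ ⟨((y' : ↥NL) : G) * l * ((y' : ↥NL) : G)⁻¹, _⟩ =
            QuotientGroup.mk' _ l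
          refine congrArg _ (Subtype.ext ?_)
          show ((y' : ↥NL) : G) * l * ((y' : ↥NL) : G)⁻¹ = l
          rw [← Subgroup.mem_centralizer_iff.mp h1 l l.2, mul_inv_cancel_right]
      set e : (↥H' ⧸ (Subgroup.centralizer (L : Set G)).subgroupOf H') ≃* ↥(H.map π) :=
        (QuotientGroup.quotientMulEquivOfEq hker.symm).trans
          (QuotientGroup.quotientKerEquivOfSurjective f hfs) with he
      have hbal := h L hL H' hLH' hLn
      haveI := hL.2.2
      have hcz : Subgroup.center (↥L ⧸ Subgroup.center ↥L) = ⊥ := by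
        haveI := hL.2.1
        exact Group.IsPerfect.center_quotient_center_eq_bot ↥L
      have hcore : Cfsg.pPrimeCore p ↥(H.map π) = ⊥ := by
        refine CfsgLib.Local.Balanced.core_eq_bot_of_inn_le ?_ hcz
          (CfsgLib.Local.Balanced.inn_le H hLH)
        by_contra hnd
        obtain ⟨P⟩ := (inferInstance : Nonempty (Sylow p ↥L))
        haveI := hL.2.1
        refine CfsgLib.Local.PComp.not_dvd_card_of_center_le p P (fun y hy => ?_)
          (CfsgLib.Local.PComp.dvd_card_component p hO hL)
        obtain ⟨k, hk⟩ := P.isPGroup' ⟨y, hy⟩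
        rw [← QuotientGroup.eq_one_iff, ← orderOf_eq_one_iff]
        refine Nat.eq_one_of_dvd_coprimes ((hp.out.coprime_iff_not_dvd.mpr hnd).symm.pow_right k)
          (orderOf_dvd_natCard _) ((orderOf_map_dvd (QuotientGroup.mk' _) y).trans ?_)
        exact orderOf_dvd_of_pow_eq_one (congrArg Subtype.val hk)
      obtain ⟨⟨a, haB⟩, hne⟩ := Subgroup.ne_bot_iff_exists_ne_one.mp (show B ≠ ⊥ from fun hb => by
        rw [hb, Subgroup.card_bot, pow_one] at hBk
        exact hp.out.one_lt.ne hBk)
      have ha1 : a ≠ 1 := fun hh => hne (Subtype.ext hh)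
      rw [Subgroup.eq_bot_iff_forall]
      intro c hc
      obtain ⟨c', hc', rfl⟩ : c ∈ Cfsg.centralizerPPrimeCore p a :=
        (Subgroup.mem_iInf.mp hc) ⟨a, haB, ha1⟩
      set y := e.symm a with hy
      have hyp : orderOf y = p := by
        rw [hy, MulEquiv.orderOf_eq]; exact orderOf_eq_prime (hB.2 a haB) ha1
      let ec : ↥(Subgroup.centralizer ({a} : Set ↥(H.map π))) →*
          ↥(Subgroup.centralizer ({y} : Set (↥H' ⧸ (Subgroup.centralizer (L : Set G)).subgroupOf H'))) :=
        MonoidHom.mk' (fun t => ⟨e.symm t, Subgroup.mem_centralizer_singleton_iff.mpr (by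
          rw [hy, ← map_mul, ← map_mul, Subgroup.mem_centralizer_singleton_iff.mp t.2])⟩)
          (fun s t => Subtype.ext (map_mul e.symm _ _))
      have hecs : Function.Surjective ec := fun t => ⟨⟨e t, Subgroup.mem_centralizer_singleton_iff.mpr
          (by rw [show a = e y from (e.apply_symm_apply a).symm, ← map_mul, ← map_mul,
            Subgroup.mem_centralizer_singleton_iff.mp t.2])⟩, Subtype.ext (e.symm_apply_apply _)⟩
      have h1 : ((ec c' : _) : ↥H' ⧸ (Subgroup.centralizer (L : Set G)).subgroupOf H') ∈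
          Cfsg.pPrimeCore p (↥H' ⧸ (Subgroup.centralizer (L : Set G)).subgroupOf H') :=
        hbal y hyp ⟨ec c', CfsgLib.Core.map_pPrimeCore_le_of_surjective p ec hecs ⟨c', hc', rfl⟩, rfl⟩
      have h2 : (c' : ↥(H.map π)) ∈ Cfsg.pPrimeCore p ↥(H.map π) :=
        CfsgLib.Core.map_pPrimeCore_le_of_surjective p e.toMonoidHom (fun t => e.surjective t)
          ⟨_, h1, e.apply_symm_apply _⟩
      rwa [hcore, Subgroup.mem_bot] at h2
    · rw [Subgroup.le_centralizer_iff, Subgroup.zpowers_le, CfsgLib.Local.LBalance.fitting_eq hO]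
      exact CfsgLib.Local.LBalance.core_le_centralizer_pCore (p := p)
        (IsPGroup.of_card (n := 1) (by rw [Nat.card_zpowers, hx, pow_one]))
        (CfsgLib.Local.Balanced.core_le_normalizer_core x hd)
  have hdF : d ∈ Cfsg.pCore p G := by
    rw [← CfsgLib.Local.LBalance.fitting_eq hO]
    set F := Cfsg.generalizedFittingSubgroup G with hF
    haveI hFn := CfsgLib.Core.normal_generalizedFittingSubgroup (G := G)
    refine CfsgLib.Core.le_fittingSubgroup (N := F ⊓ Subgroup.centralizer (F : Set G))
      inferInstance ?_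
      (Subgroup.mem_inf.mpr ⟨CfsgLib.Core.centralizer_generalizedFitting_le hcF, hcF⟩)
    letI : CommGroup ↥(F ⊓ Subgroup.centralizer (F : Set G)) :=
      { mul_comm := fun u v => Subtype.ext
          (Subgroup.mem_centralizer_iff.mp (Subgroup.mem_inf.mp v.2).2 _
            (Subgroup.mem_inf.mp u.2).1) }
    infer_instance
  have hcop : (orderOf d).Coprime p := by
    obtain ⟨c, hc, rfl⟩ := hd
    rw [Subgroup.coe_subtype, Subgroup.orderOf_coe]
    exact (CfsgLib.Core.coprime_card_pPrimeCore p).coprime_dvd_left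
      (Subgroup.orderOf_dvd_natCard _ hc)
  obtain ⟨j, hj⟩ := CfsgLib.Core.isPGroup_pCore p ⟨d, hdF⟩
  exact orderOf_eq_one_iff.mp (Nat.eq_one_of_dvd_coprimes (hcop.pow_right j) dvd_rfl
    (orderOf_dvd_of_pow_eq_one (congrArg Subtype.val hj)))


end Cfsg.Agent.S1271
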