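import Cfsg.Statements.S1273
import Cfsg.Agent.Lib.LocalPComponent

set_option autoImplicit false
open Cfsg

namespace Cfsg.Agent.S1273

/-- Let K be a p-component of the finite group X and N a normal subgroup of K whose index in K is prime to p. Then N = K. -/
theorem result {X : Type*} [Group X] [Finite X] (p : ℕ) [Fact p.Prime] (K : Subgroup X) (hK : Cfsg.IsPComponent p K) (N : Subgroup ↥K) [N.Normal] (hidx : (N.index).Coprime p) : N = ⊤ := by
  rw [← top_le_iff]
  intro x _
  have hle : K ≤ N.map K.subtype := by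
    conv_lhs => rw [← CfsgLib.Local.PComp.pGen_self hK]
    rw [CfsgLib.Local.PComp.pGen, Subgroup.closure_le]
    rintro y ⟨hy, k, hk⟩
    refine ⟨⟨y, hy⟩, ?_, rfl⟩
    rw [SetLike.mem_coe, ← QuotientGroup.eq_one_iff, ← orderOf_eq_one_iff]
    refine Nat.eq_one_of_dvd_coprimes ((Nat.Coprime.pow_left k hidx.symm)) ?_
      ((orderOf_dvd_natCard _).trans (Subgroup.index_eq_card N).symm.dvd)
    rw [← hk, ← Subgroup.orderOf_mk y hy]
    exact orderOf_map_dvd (QuotientGroup.mk' N) _
  obtain ⟨y, hy, hyx⟩ := hle x.2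
  exact (Subtype.ext hyx : y = x) ▸ hy

end Cfsg.Agent.S1273
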