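import Cfsg.Statements.S1277
import Cfsg.Agent.Lib.LocalPComponent

set_option autoImplicit false
open Cfsg

namespace Cfsg.Agent.S1277

/-- For a finite group X with core O(X): the image of E(X) in X / O(X) is all of E(X / O(X)) if and only if every 2-component of X is a component, i.e. L_{2'}(X) ≤ E(X). -/
theorem result {X : Type*} [Group X] [Finite X] : (Cfsg.layer X).map (QuotientGroup.mk' (Cfsg.oddCore X)) = Cfsg.layer (X ⧸ Cfsg.oddCore X) ↔ Cfsg.pLayer 2 X ≤ Cfsg.layer X := by
  open scoped commutatorElement in
  haveI : Fact (Nat.Prime 2) := ⟨Nat.prime_two⟩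
  haveI := CfsgLib.Core.normal_pPrimeCore (G := X) 2
  constructor
  · intro h
    refine sSup_le fun K hK => ?_
    rw [← CfsgLib.Local.PComp.pGen_self hK]
    refine (CfsgLib.Local.PComp.pGen_mono 2 ?_).trans
      (CfsgLib.Local.PComp.pGen_sup_le 2 (CfsgLib.Core.normal_layer (G := X)).isSubnormal)
    rw [CfsgLib.Local.PComp.sup_pPrimeCore_eq_comap 2, h]
    exact le_trans (Subgroup.le_comap_map _ _)
      (Subgroup.comap_mono (CfsgLib.Core.component_le_layer hK.2.1))
  · intro h
    refine le_antisymm ?_ ?_
    · conv_lhs => rw [Cfsg.layer, sSup_eq_iSup', Subgroup.map_iSup]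
      refine iSup_le fun ⟨K, hK⟩ => ?_
      by_cases hKO : K ≤ Cfsg.oddCore X
      · exact le_trans ((Subgroup.map_eq_bot_iff _).mpr (by rwa [QuotientGroup.ker_mk'])).le bot_le
      · refine CfsgLib.Core.component_le_layer ⟨hK.1.map (QuotientGroup.mk'_surjective _), ?_⟩
        set g := ((QuotientGroup.mk' (Cfsg.oddCore X)).comp K.subtype).rangeRestrict with hg
        have hrange : ((QuotientGroup.mk' (Cfsg.oddCore X)).comp K.subtype).range =
            K.map (QuotientGroup.mk' (Cfsg.oddCore X)) := by
          rw [MonoidHom.range_comp, Subgroup.range_subtype]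
        refine CfsgLib.Core.quasisimple_congr (MulEquiv.subgroupCongr hrange) ?_
        refine CfsgLib.Core.quasisimple_congr
          (QuotientGroup.quotientKerEquivOfSurjective g (MonoidHom.rangeRestrict_surjective _)) ?_
        have hcen : g.ker ≤ Subgroup.center ↥K := by
          refine (CfsgLib.Core.quasisimple_normal_cases hK.2 g.ker).resolve_left fun ht => hKO ?_
          intro x hx
          have hx' : g ⟨x, hx⟩ = 1 := MonoidHom.mem_ker.mp (ht ▸ Subgroup.mem_top _)
          exact (QuotientGroup.eq_one_iff x).mp (congrArg Subtype.val hx')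
        haveI := hK.2.1
        refine ⟨Group.IsPerfect.ofSurjective (f := QuotientGroup.mk' g.ker)
          (QuotientGroup.mk'_surjective _), ?_⟩
        set f := QuotientGroup.mk' g.ker with hf
        have hc : (Subgroup.center ↥K).map f = Subgroup.center (↥K ⧸ g.ker) := by
          refine le_antisymm ?_ fun q hq => ?_
          · rintro _ ⟨z, hz, rfl⟩
            rw [Subgroup.mem_center_iff]
            intro q
            obtain ⟨k, rfl⟩ := QuotientGroup.mk'_surjective _ q
            rw [← map_mul, ← map_mul, Subgroup.mem_center_iff.mp hz k]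
          · haveI : ((Subgroup.center (↥K ⧸ g.ker)).comap f).Normal := inferInstance
            rcases CfsgLib.Core.quasisimple_normal_cases hK.2
                ((Subgroup.center (↥K ⧸ g.ker)).comap f) with ht | hle
            · exfalso
              have hab : ∀ a b : ↥K, ⁅a, b⁆ ∈ g.ker := fun a b => by
                rw [← QuotientGroup.eq_one_iff]
                show f ⁅a, b⁆ = 1
                rw [map_commutatorElement, commutatorElement_eq_one_iff_mul_comm]
                exact (Subgroup.mem_center_iff.mp
                  (Subgroup.mem_comap.mp (ht ▸ Subgroup.mem_top b)) _)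
              have htop : g.ker = ⊤ := top_le_iff.mp (by
                rw [← hK.2.1.commutator_eq_top]
                exact Subgroup.commutator_le.mpr fun a _ b _ => hab a b)
              exact CfsgLib.Core.quasisimple_center_ne_top hK.2 (top_le_iff.mp (htop ▸ hcen))
            · obtain ⟨k, rfl⟩ := QuotientGroup.mk'_surjective _ q
              exact ⟨k, hle hq, rfl⟩
        haveI := hK.2.2
        exact ((QuotientGroup.quotientMulEquivOfEq hc.symm).trans
          (QuotientGroup.quotientQuotientEquivQuotient g.ker (Subgroup.center ↥K) hcen)).isSimpleGroup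
    · rw [← CfsgLib.Local.PComp.map_pLayer]
      exact Subgroup.map_mono h

end Cfsg.Agent.S1277
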