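import Cfsg.Statements.S1278
import Cfsg.Agent.Lib.LocalPComponent

set_option autoImplicit false
open Cfsg

namespace Cfsg.Agent.S1278

/-- Let K ≠ L be 2-components of the finite group X. Then ⁅K, L⁆ ≤ O(K) ⊓ O(L), and if K is quasisimple then ⁅K, L⁆ = 1. -/
theorem result {X : Type*} [Group X] [Finite X] (K L : Subgroup X) (hK : Cfsg.IsPComponent 2 K) (hL : Cfsg.IsPComponent 2 L) (hne : K ≠ L) : ⁅K, L⁆ ≤ ((Cfsg.oddCore ↥K).map K.subtype) ⊓ ((Cfsg.oddCore ↥L).map L.subtype) ∧ (Cfsg.IsQuasisimple ↥K → ⁅K, L⁆ = ⊥) := by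
  haveI : Fact (Nat.Prime 2) := ⟨Nat.prime_two⟩
  have hO : ∀ M : Subgroup X, M.IsSubnormal →
      (Cfsg.oddCore ↥M).map M.subtype = M ⊓ Cfsg.pPrimeCore 2 X := fun M hM =>
    CfsgLib.Local.PComp.pPrimeCore_subnormal hM
  have hKL : ⁅K, L⁆ ≤ Cfsg.pPrimeCore 2 X := CfsgLib.Local.PComp.commutator_le hK hL hne
  have hK' : ⁅K, L⁆ ≤ K := CfsgLib.Core.commutator_le_of_le_normalizer
    ((show L ≤ Cfsg.pLayer 2 X from le_sSup hL).trans (CfsgLib.Local.PComp.pLayer_le_normalizer hK))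
  have hL' : ⁅K, L⁆ ≤ L := by
    rw [Subgroup.commutator_comm]
    exact CfsgLib.Core.commutator_le_of_le_normalizer
      ((show K ≤ Cfsg.pLayer 2 X from le_sSup hK).trans (CfsgLib.Local.PComp.pLayer_le_normalizer hL))
  refine ⟨?_, fun hq => ?_⟩
  · rw [hO K hK.1, hO L hL.1]
    exact le_inf (le_inf hK' hKL) (le_inf hL' hKL)
  · have h0 : ⁅K, K ⊓ Cfsg.pPrimeCore 2 X⁆ = ⊥ := by
      rw [← hO K hK.1]
      exact (CfsgLib.Local.PComp.quasisimple_iff 2 hK).mp hq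
    have h1 : ⁅⁅K, L⁆, K⁆ = ⊥ := by
      rw [eq_bot_iff, Subgroup.commutator_comm, ← h0]
      exact Subgroup.commutator_mono le_rfl (le_inf hK' hKL)
    have h2 : ⁅⁅L, K⁆, K⁆ = ⊥ := by rwa [Subgroup.commutator_comm L K]
    have h3 := Subgroup.commutator_commutator_eq_bot_of_rotate h1 h2
    rwa [CfsgLib.Local.PComp.isPerfect hK] at h3

end Cfsg.Agent.S1278
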