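import Cfsg.Statements.S1279
import Cfsg.Agent.Lib.LocalSignalizer

set_option autoImplicit false
open Cfsg

namespace Cfsg.Agent.S1279

/-- Let A be a noncyclic elementary abelian p-subgroup of the finite group G such that C_G(a) is solvable for every non-identity a ∈ A. Then a ↦ O_{p'}(C_G(a)) is a solvable A-signalizer functor on G. -/
theorem result {G : Type*} [Group G] [Finite G] (p : ℕ) [Fact p.Prime] (A : Subgroup G) (hA : Cfsg.IsElementaryAbelian p A) (hA2 : p ^ 2 ≤ Nat.card ↥A) (hsolv : ∀ a ∈ A, a ≠ 1 → Group.IsSolvable ↥(Subgroup.centralizer ({a} : Set G))) : Cfsg.IsSolvableSignalizerFunctor p A (fun a => Cfsg.centralizerPPrimeCore p a) := by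
  haveI := hA.1
  refine ⟨⟨fun a _ _ => CfsgLib.Local.KBal.core_le_centralizer a, fun a _ _ => ?_, ?_, ?_⟩, ?_⟩
  · exact CfsgLib.Local.KBal.not_dvd_core a
  · intro a ha _ b hb x hx
    exact CfsgLib.Local.KBal.conj_mem_core (CfsgLib.Local.SF.le_centralizer_self hA ha hb) hx
  · intro a ha ha1 b hb hb1 x hx
    obtain ⟨⟨c, hc, rfl⟩, hxb⟩ := Subgroup.mem_inf.mp hx
    set C := Subgroup.centralizer ({b} : Set G) with hC
    have haC : a ∈ C := CfsgLib.Local.SF.le_centralizer_self hA hb ha
    let a' : ↥C := ⟨a, haC⟩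
    let R : Subgroup ↥C := Subgroup.zpowers a'
    have hR : IsPGroup p ↥R := IsPGroup.of_card (n := 1) (by
      rw [Nat.card_zpowers, pow_one, ← Subgroup.orderOf_coe]
      exact orderOf_eq_prime (hA.2 a ha) ha1)
    haveI := hsolv b hb hb1
    refine ⟨⟨(c : G), hxb⟩, CfsgLib.Local.SF.core_centralizer_le inferInstance hR ?_, rfl⟩
    have hmem : (⟨(c : G), hxb⟩ : ↥C) ∈ Subgroup.centralizer (R : Set ↥C) := by
      rw [Subgroup.mem_centralizer_iff]
      rintro _ ⟨i, rfl⟩
      apply Subtype.ext
      show ((a' ^ i : ↥C) : G) * (c : G) = (c : G) * ((a' ^ i : ↥C) : G)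
      rw [Subgroup.coe_zpow]
      have hca : Commute a (c : G) := (Subgroup.mem_centralizer_singleton_iff.mp c.2).symm
      exact (hca.zpow_left i).eq
    refine ⟨⟨⟨(c : G), hxb⟩, hmem⟩, ?_, rfl⟩
    let K := Subgroup.centralizer (R : Set ↥C)
    let g : ↥K →* ↥(Subgroup.centralizer ({a} : Set G)) :=
      MonoidHom.codRestrict (C.subtype.comp K.subtype) _ (fun y => by
        rw [Subgroup.mem_centralizer_singleton_iff]
        exact congrArg Subtype.val
          (Subgroup.mem_centralizer_iff.mp y.2 a' (Subgroup.mem_zpowers a')).symm)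
    haveI := CfsgLib.Core.normal_pPrimeCore (G := ↥(Subgroup.centralizer ({a} : Set G))) p
    have hN : (Cfsg.pPrimeCore p ↥(Subgroup.centralizer ({a} : Set G))).comap g ≤
        Cfsg.pPrimeCore p ↥K := by
      refine CfsgLib.Core.le_pPrimeCore inferInstance ?_
      refine Nat.Coprime.coprime_dvd_left ?_
        (CfsgLib.Core.coprime_card_pPrimeCore (G := ↥(Subgroup.centralizer ({a} : Set G))) p)
      have hinj : Function.Injective g := fun y z h =>
        Subtype.ext (Subtype.ext (congrArg Subtype.val h :))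
      rw [← Subgroup.card_map_of_injective hinj
        (K := (Cfsg.pPrimeCore p ↥(Subgroup.centralizer ({a} : Set G))).comap g)]
      exact Subgroup.card_dvd_of_le (Subgroup.map_comap_le _ _)
    exact hN hc
  · intro a ha ha1
    haveI := hsolv a ha ha1
    exact Group.isSolvable_of_isSolvable_injective
      (Subgroup.inclusion_injective (CfsgLib.Local.KBal.core_le_centralizer (p := p) a))


end Cfsg.Agent.S1279
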