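import Cfsg.Statements.S1281
import Cfsg.Agent.Lib.LocalSignalizer

set_option autoImplicit false
open Cfsg

namespace Cfsg.Agent.S1281

/-- Let θ be a solvable A-signalizer functor on the finite group G (A a noncyclic elementary abelian p-subgroup) and N a normal subgroup of order prime to p. Then for all non-identity a, b ∈ A, the image of θ a in G / N meets the centralizer of the image of b inside the image of θ b. -/
theorem result {G : Type*} [Group G] [Finite G] (p : ℕ) [Fact p.Prime] (A : Subgroup G) (hA : Cfsg.IsElementaryAbelian p A) (hA2 : p ^ 2 ≤ Nat.card ↥A) (θ : G → Subgroup G) (hθ : Cfsg.IsSolvableSignalizerFunctor p A θ) (N : Subgroup G) [N.Normal] (hN : ¬ p ∣ Nat.card ↥N) (a b : G) (ha : a ∈ A) (ha1 : a ≠ 1) (hb : b ∈ A) (hb1 : b ≠ 1) : (θ a).map (QuotientGroup.mk' N) ⊓ Subgroup.centralizer {QuotientGroup.mk' N b} ≤ (θ b).map (QuotientGroup.mk' N) := by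
  rintro _ ⟨⟨x, hx, rfl⟩, hxc⟩
  have hAθ := CfsgLib.Local.SF.normalizes_of_conj (fun c hc u hu => hθ.1.2.2.1 a ha ha1 c hc u hu)
  have hAN : A ≤ Subgroup.normalizer (N : Set G) := by
    rw [Subgroup.normalizer_eq_top]; exact le_top
  have hfix : b * x * b⁻¹ * x⁻¹ ∈ θ a ⊓ N := by
    refine Subgroup.mem_inf.mpr ⟨mul_mem (hθ.1.2.2.1 a ha ha1 b hb x hx) (inv_mem hx), ?_⟩
    have h1 := Subgroup.mem_centralizer_singleton_iff.mp hxc
    rw [← QuotientGroup.ker_mk' N, MonoidHom.mem_ker, map_mul, map_mul, map_mul, map_inv, map_inv, ← h1,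
      mul_inv_cancel_right, mul_inv_cancel]
  obtain ⟨c, hc, hcN⟩ := CfsgLib.Local.SF.exists_fixed hA hb hAθ (hθ.1.2.1 a ha ha1) inf_le_left
    ((le_inf Subgroup.le_normalizer (by rw [Subgroup.normalizer_eq_top]; exact le_top)).trans
      Subgroup.inf_normalizer_le_normalizer_inf) (CfsgLib.Core.le_normalizer_inf hAθ hAN) hx hfix
  refine ⟨c, hθ.1.2.2.2 a ha ha1 b hb hb1 hc, ?_⟩
  exact (QuotientGroup.eq.mpr hcN.2).symm


end Cfsg.Agent.S1281
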