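import Cfsg.Statements.S1285
import Cfsg.Agent.Lib.LocalSignalizer

set_option autoImplicit false
open Cfsg

namespace Cfsg.Agent.S1285

/-- Let θ be a solvable A-signalizer functor on the finite group G with A elementary abelian of rank at least 3, and suppose that for some prime q every θ a (a ∈ A non-identity) is a q-group. Then θ is complete. -/
theorem result {G : Type*} [Group G] [Finite G] (p : ℕ) [Fact p.Prime] (A : Subgroup G) (hA : Cfsg.IsElementaryAbelian p A) (hA3 : p ^ 3 ≤ Nat.card ↥A) (θ : G → Subgroup G) (hθ : Cfsg.IsSolvableSignalizerFunctor p A θ) (q : ℕ) [Fact q.Prime] (hq : ∀ a ∈ A, a ≠ 1 → IsPGroup q ↥(θ a)) : Cfsg.IsCompleteSignalizerFunctor p A θ := by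
  refine ⟨hθ.1, ?_⟩
  by_cases hqp : q = p
  · refine ⟨⊥, fun b _ x hx => by simp [Subgroup.mem_bot.mp hx], ?_, fun a ha ha1 => ?_⟩
    · simpa using (Fact.out : p.Prime).not_dvd_one
    · rw [bot_inf_eq]
      obtain ⟨k, hk⟩ := IsPGroup.iff_card.mp (hq a ha ha1)
      rcases k with _ | k
      · exact (Subgroup.eq_bot_of_card_eq _ (by simpa using hk)).symm
      · exact absurd (hk ▸ hqp ▸ dvd_pow_self q (Nat.succ_ne_zero k)) (hθ.1.2.1 a ha ha1)
  have hbot : (⊥ : Subgroup G) ∈ Cfsg.signalizerFamily p A θ :=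
    ⟨inferInstance, by simpa using (Fact.out : p.Prime).not_dvd_one,
      fun b _ x hx => by simp [Subgroup.mem_bot.mp hx], fun a _ _ => by simp⟩
  obtain ⟨Q, hQ, hQq, -, hQm⟩ := CfsgLib.Local.SF.exists_maximal (q := q) hbot IsPGroup.of_bot
  refine ⟨Q, hQ.2.2.1, hQ.2.1, fun a ha ha1 => le_antisymm (hQ.2.2.2 a ha ha1) ?_⟩
  obtain ⟨S, hS⟩ := CfsgLib.Local.SF.exists_sylow_centralizer hA hθ hA3 hqp hQ hQq hQm
    (Subgroup.zpowers_le.mpr ha) (by simpa [Subgroup.zpowers_eq_bot] using ha1)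
  intro x hx
  have hxH : x ∈ Cfsg.signalizerInf (Subgroup.zpowers a) θ := by
    refine Subgroup.mem_iInf.mpr fun b => hθ.1.2.2.2 a ha ha1 b
      (Subgroup.zpowers_le.mpr ha b.2.1) b.2.2 (Subgroup.mem_inf.mpr ⟨hx, ?_⟩)
    rw [Subgroup.mem_centralizer_singleton_iff]
    obtain ⟨i, hi⟩ := b.2.1
    rw [← hi]
    have hxa : Commute x a := Subgroup.mem_centralizer_singleton_iff.mp (hθ.1.1 a ha ha1 hx)
    exact (hxa.zpow_right i).eq
  have htop : (S : Subgroup ↥(Cfsg.signalizerInf (Subgroup.zpowers a) θ)) = ⊤ := by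
    refine (S.is_maximal' (Q := ⊤) ?_ le_top).symm
    refine IsPGroup.of_equiv ((hq a ha ha1).to_le ?_) Subgroup.topEquiv.symm
    exact iInf_le_of_le ⟨a, Subgroup.mem_zpowers a, ha1⟩ le_rfl
  have h1 : x ∈ (S : Subgroup ↥(Cfsg.signalizerInf (Subgroup.zpowers a) θ)).map
      (Cfsg.signalizerInf (Subgroup.zpowers a) θ).subtype := ⟨⟨x, hxH⟩, by rw [htop]; trivial, rfl⟩
  rw [hS] at h1
  exact ⟨h1.1, hθ.1.1 a ha ha1 hx⟩


end Cfsg.Agent.S1285
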