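import Cfsg.Statements.S1286
import Cfsg.Agent.Lib.LocalSignalizer

set_option autoImplicit false
open Cfsg

namespace Cfsg.Agent.S1286

/-- There exist a finite group X, an elementary abelian subgroup A of order 4 and a solvable A-signalizer functor θ on X for the prime 2 which is not complete. -/
theorem result : ∃ (X : Type) (_ : Group X) (_ : Finite X) (A : Subgroup X) (θ : X → Subgroup X), Cfsg.IsElementaryAbelian 2 A ∧ Nat.card ↥A = 4 ∧ Cfsg.IsSolvableSignalizerFunctor 2 A θ ∧ ¬ Cfsg.IsCompleteSignalizerFunctor 2 A θ := by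
  let X := Equiv.Perm (Fin 5)
  let t₁ : X := Equiv.swap 0 1
  let t₂ : X := Equiv.swap 2 3
  let u : X := Equiv.swap 2 3 * Equiv.swap 3 4
  let v : X := Equiv.swap 0 1 * Equiv.swap 1 4
  let A : Subgroup X :=
    { carrier := {g | g = 1 ∨ g = t₁ ∨ g = t₂ ∨ g = t₁ * t₂}
      one_mem' := Or.inl rfl
      mul_mem' := by rintro a b (rfl | rfl | rfl | rfl) (rfl | rfl | rfl | rfl) <;> decide
      inv_mem' := by rintro a (rfl | rfl | rfl | rfl) <;> decide }
  let U : Subgroup X :=
    { carrier := {g | g = 1 ∨ g = u ∨ g = u * u}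
      one_mem' := Or.inl rfl
      mul_mem' := by rintro a b (rfl | rfl | rfl) (rfl | rfl | rfl) <;> decide
      inv_mem' := by rintro a (rfl | rfl | rfl) <;> decide }
  let V : Subgroup X :=
    { carrier := {g | g = 1 ∨ g = v ∨ g = v * v}
      one_mem' := Or.inl rfl
      mul_mem' := by rintro a b (rfl | rfl | rfl) (rfl | rfl | rfl) <;> decide
      inv_mem' := by rintro a (rfl | rfl | rfl) <;> decide }
  let θ : X → Subgroup X := fun g => if g = t₁ then U else if g = t₂ then V else ⊥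
  have hU : ∀ g, g ∈ U ↔ g = 1 ∨ g = u ∨ g = u * u := fun g => Iff.rfl
  have hV : ∀ g, g ∈ V ↔ g = 1 ∨ g = v ∨ g = v * v := fun g => Iff.rfl
  have hA' : ∀ g, g ∈ A ↔ g = 1 ∨ g = t₁ ∨ g = t₂ ∨ g = t₁ * t₂ := fun g => Iff.rfl
  have hAc : ∀ a ∈ A, ∀ b ∈ A, a * b = b * a := by
    intro a ha b hb
    rcases (hA' a).mp ha with rfl | rfl | rfl | rfl <;>
      rcases (hA' b).mp hb with rfl | rfl | rfl | rfl <;> decide
  have hθ1 : θ t₁ = U := if_pos rfl
  have hθ2 : θ t₂ = V := by simp only [θ]; rw [if_neg (by decide), if_pos trivial]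
  have hθ3 : θ (t₁ * t₂) = ⊥ := by simp only [θ]; rw [if_neg (by decide), if_neg (by decide)]
  have key : ∀ a : X, a ∈ A → a ≠ 1 → ∀ x ∈ θ a, ∀ b ∈ A, b ≠ 1 →
      (x * a = a * x) ∧ (b * x * b⁻¹ ∈ θ a) ∧ (x * b = b * x → x ∈ θ b) := by
    intro a ha ha1 x hx b hb hb1
    rcases (hA' a).mp ha with rfl | rfl | rfl | rfl
    · exact absurd rfl ha1
    · rw [hθ1] at hx ⊢
      rcases (hA' b).mp hb with rfl | rfl | rfl | rfl
      · exact absurd rfl hb1
      · rw [hθ1]
        rcases (hU x).mp hx with rfl | rfl | rfl <;> simp only [hU] <;> decide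
      · rw [hθ2]
        rcases (hU x).mp hx with rfl | rfl | rfl <;> simp only [hU, hV] <;> decide
      · rw [hθ3]
        rcases (hU x).mp hx with rfl | rfl | rfl <;> simp only [hU, Subgroup.mem_bot] <;> decide
    · rw [hθ2] at hx ⊢
      rcases (hA' b).mp hb with rfl | rfl | rfl | rfl
      · exact absurd rfl hb1
      · rw [hθ1]
        rcases (hV x).mp hx with rfl | rfl | rfl <;> simp only [hU, hV] <;> decide
      · rw [hθ2]
        rcases (hV x).mp hx with rfl | rfl | rfl <;> simp only [hV] <;> decide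
      · rw [hθ3]
        rcases (hV x).mp hx with rfl | rfl | rfl <;> simp only [hV, Subgroup.mem_bot] <;> decide
    · rw [hθ3] at hx ⊢
      obtain rfl := Subgroup.mem_bot.mp hx
      exact ⟨by rw [one_mul, mul_one], Subgroup.mem_bot.mpr (by rw [mul_one, mul_inv_cancel]), fun _ => one_mem _⟩
  have hUc : Nat.card U = 3 := by
    rw [← Nat.card_congr (Equiv.subtypeEquivRight hU).symm, Nat.card_eq_fintype_card]; decide
  have hVc : Nat.card V = 3 := by
    rw [← Nat.card_congr (Equiv.subtypeEquivRight hV).symm, Nat.card_eq_fintype_card]; decide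
  have hcard : ∀ a, Nat.card (θ a) = 1 ∨ Nat.card (θ a) = 3 := by
    intro a
    simp only [θ]
    split_ifs
    · exact Or.inr hUc
    · exact Or.inr hVc
    · exact Or.inl Subgroup.card_bot
  refine ⟨X, inferInstance, inferInstance, A, θ, ⟨⟨⟨fun a b => Subtype.ext (hAc a a.2 b b.2)⟩⟩, ?_⟩,
    ?_, ⟨⟨?_, ?_, ?_, ?_⟩, ?_⟩, ?_⟩
  · intro a ha
    rcases (hA' a).mp ha with rfl | rfl | rfl | rfl <;> decide
  · rw [← Nat.card_congr (Equiv.subtypeEquivRight hA').symm, Nat.card_eq_fintype_card]; decide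
  · intro a ha ha1 x hx
    exact Subgroup.mem_centralizer_singleton_iff.mpr (key a ha ha1 x hx a ha ha1).1
  · intro a _ _
    rcases hcard a with h | h <;> rw [h] <;> norm_num
  · intro a ha ha1 b hb x hx
    by_cases hb1 : b = 1
    · subst hb1; simpa using hx
    exact (key a ha ha1 x hx b hb hb1).2.1
  · intro a ha ha1 b hb hb1 x hx
    obtain ⟨hx1, hx2⟩ := Subgroup.mem_inf.mp hx
    exact (key a ha ha1 x hx1 b hb hb1).2.2 (Subgroup.mem_centralizer_singleton_iff.mp hx2)
  · intro a _ _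
    rcases hcard a with h | h
    · haveI := Subgroup.eq_bot_of_card_eq _ h ▸ (inferInstance : Group.IsSolvable ↥(⊥ : Subgroup X))
      exact this
    · haveI : Fact (Nat.Prime 3) := ⟨Nat.prime_three⟩
      haveI := isCyclic_of_prime_card (α := ↥(θ a)) (p := 3) h
      exact Group.isSolvable_of_comm fun x y => mul_comm' x y
  · rintro ⟨-, Y, hYA, hY2, hY⟩
    have hu : u ∈ Y := by
      have h := hY t₁ ((hA' _).mpr (by decide)) (by decide)
      have h2 : u ∈ Y ⊓ Subgroup.centralizer {t₁} := by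
        rw [h]; simp only [θ, if_pos]; exact (hU _).mpr (by decide)
      exact h2.1
    have hv : v ∈ Y := by
      have h := hY t₂ ((hA' _).mpr (by decide)) (by decide)
      have h2 : v ∈ Y ⊓ Subgroup.centralizer {t₂} := by
        rw [h]; simp only [θ]
        rw [if_neg (by decide), if_pos trivial]; exact (hV _).mpr (by decide)
      exact h2.1
    apply hY2
    have hz : u * v * u * v⁻¹ ∈ Y := mul_mem (mul_mem (mul_mem hu hv) hu) (inv_mem hv)
    have h2 : orderOf (u * v * u * v⁻¹) = 2 := orderOf_eq_prime (by decide) (by decide)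
    rw [← h2, ← Subgroup.orderOf_mk (u * v * u * v⁻¹) hz]
    exact orderOf_dvd_natCard _


end Cfsg.Agent.S1286
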