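import Cfsg.Statements.S1287
import Cfsg.Agent.Lib.LocalFixedPointFormula
import Cfsg.Agent.Lib.CoreThree
import Mathlib

set_option autoImplicit false
open scoped Pointwise
open Cfsg
open scoped commutatorElement Pointwise

namespace Cfsg.Agent.S1287

/-- Let A be a noncyclic elementary abelian p-subgroup of a finite group H normalizing a subgroup K of order prime to p, and X, Y ≤ K subgroups normalized by A with C_K(a) = C_X(a) C_Y(a) (as sets) for every non-identity a ∈ A, where X is also normalized by C_K(A). Then K = XY as sets. -/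
theorem result {H : Type*} [Group H] [Finite H] (p : ℕ) [Fact p.Prime] (A K X Y : Subgroup H) (hA : Cfsg.IsElementaryAbelian p A) (hA2 : p ^ 2 ≤ Nat.card ↥A) (hK : ¬ p ∣ Nat.card ↥K) (hAK : A ≤ Subgroup.normalizer (K : Set H)) (hX : X ≤ K) (hY : Y ≤ K) (hAX : A ≤ Subgroup.normalizer (X : Set H)) (hAY : A ≤ Subgroup.normalizer (Y : Set H)) (hCX : K ⊓ Subgroup.centralizer (A : Set H) ≤ Subgroup.normalizer (X : Set H)) (hfac : ∀ a ∈ A, a ≠ 1 → ((K ⊓ Subgroup.centralizer {a} : Subgroup H) : Set H) = ((X ⊓ Subgroup.centralizer {a} : Subgroup H) : Set H) * ((Y ⊓ Subgroup.centralizer {a} : Subgroup H) : Set H)) : (K : Set H) = (X : Set H) * (Y : Set H) := by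
  classical
  have hpr : p.Prime := Fact.out
  have hexp : ∀ a ∈ A, a ^ p = 1 := hA.2
  have hAp : IsPGroup p A := fun a => ⟨1, Subtype.ext (by simpa using hexp a a.2)⟩
  -- a subgroup of order `p²`
  obtain ⟨m, hm⟩ := IsPGroup.iff_card.mp hAp
  have hdvd : p ^ 2 ∣ Nat.card A := by
    rw [hm] at hA2 ⊢
    exact Nat.pow_dvd_pow p ((Nat.pow_le_pow_iff_right hpr.one_lt).mp hA2)
  obtain ⟨E₀, hE₀⟩ := Sylow.exists_subgroup_card_pow_prime p hdvd
  let E : Subgroup H := E₀.map A.subtype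
  have hEA : E ≤ A := Subgroup.map_subtype_le _
  have hE : Nat.card E = p ^ 2 := by
    rw [Subgroup.card_map_of_injective A.subtype_injective]; exact hE₀
  have hEexp : ∀ e ∈ E, e ^ p = 1 := fun e he => hexp e (hEA he)
  have hEp : IsPGroup p E := IsPGroup.of_card hE
  haveI : Fintype (CfsgLib.Local.FPF.Line ↥E p) := Fintype.ofFinite _
  -- the fixed points of `E` factorise
  let I := X ⊓ Y
  have hI : ¬ p ∣ Nat.card I := fun h => hK (h.trans (Subgroup.card_dvd_of_le (inf_le_left.trans hX)))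
  have hmulcard : ∀ (S : Subgroup E), S ≠ ⊥ →
      Nat.card ↥(K ⊓ Subgroup.centralizer ((S.map E.subtype : Subgroup H) : Set H)) *
        Nat.card ↥(I ⊓ Subgroup.centralizer ((S.map E.subtype : Subgroup H) : Set H)) =
      Nat.card ↥(Y ⊓ Subgroup.centralizer ((S.map E.subtype : Subgroup H) : Set H)) *
        Nat.card ↥(X ⊓ Subgroup.centralizer ((S.map E.subtype : Subgroup H) : Set H)) := by
    intro S hS
    set T : Subgroup H := S.map E.subtype with hT
    have hTA : T ≤ A := (Subgroup.map_subtype_le S).trans hEA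
    set Cn := Subgroup.centralizer (T : Set H) with hCn
    have hfac' : ∀ r ∈ K ⊓ Cn, ∃ x ∈ X ⊓ Cn, ∃ y ∈ Y ⊓ Cn, r = x * y := by
      intro r hr
      obtain ⟨s, hs, hs1⟩ := (Subgroup.bot_or_exists_ne_one S).resolve_left hS
      have ha : (s : H) ∈ T := ⟨s, hs, rfl⟩
      have hr' : r ∈ ((K ⊓ Subgroup.centralizer {(s : H)} : Subgroup H) : Set H) :=
        Subgroup.mem_inf.mpr ⟨(Subgroup.mem_inf.mp hr).1, Subgroup.mem_centralizer_singleton_iff.mpr
          (Subgroup.mem_centralizer_iff.mp (Subgroup.mem_inf.mp hr).2 _ ha).symm⟩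
      rw [hfac s (hTA ha) (fun e => hs1 (Subtype.ext e))] at hr'
      obtain ⟨x, hx, y, hy, rfl⟩ := Set.mem_mul.mp hr'
      have hxX : x ∈ X := (Subgroup.mem_inf.mp hx).1
      have hyY : y ∈ Y := (Subgroup.mem_inf.mp hy).1
      -- fixed point of `T` on the factorisations
      let Fac := {x' : H // x' ∈ X ∧ x'⁻¹ * (x * y) ∈ Y}
      have hcl : ∀ (t : T) (f : Fac), (t : H) * f.1 * (t : H)⁻¹ ∈ X ∧
          ((t : H) * f.1 * (t : H)⁻¹)⁻¹ * (x * y) ∈ Y := by
        intro t f
        refine ⟨(Subgroup.mem_normalizer_iff.mp (hAX (hTA t.2)) _).mp f.2.1, ?_⟩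
        have h1 := (Subgroup.mem_normalizer_iff.mp (hAY (hTA t.2)) _).mp f.2.2
        have hc : (t : H) * (x * y) = (x * y) * t :=
          Subgroup.mem_centralizer_iff.mp (Subgroup.mem_inf.mp hr).2 _ t.2
        have h2 : ((t : H) * f.1 * (t : H)⁻¹)⁻¹ * (x * y) = (t : H) * (f.1⁻¹ * (x * y)) * (t : H)⁻¹ := by
          calc ((t : H) * f.1 * (t : H)⁻¹)⁻¹ * (x * y)
              = (t : H) * f.1⁻¹ * ((t : H)⁻¹ * ((x * y) * t)) * (t : H)⁻¹ := by group
            _ = (t : H) * f.1⁻¹ * ((t : H)⁻¹ * ((t : H) * (x * y))) * (t : H)⁻¹ := by rw [hc]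
            _ = _ := by group
        rwa [h2]
      letI aF : MulAction T Fac :=
        { smul := fun t f => ⟨(t : H) * f.1 * (t : H)⁻¹, hcl t f⟩
          one_smul := fun f => Subtype.ext (by show ((1 : T) : H) * f.1 * ((1 : T) : H)⁻¹ = f.1; simp)
          mul_smul := fun t u f => Subtype.ext (by
            show ((t * u : T) : H) * f.1 * ((t * u : T) : H)⁻¹ = (t : H) * ((u : H) * f.1 * (u : H)⁻¹) * (t : H)⁻¹
            simp [mul_assoc]) }
      have hcardF : Nat.card Fac = Nat.card I := Nat.card_congr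
        { toFun := fun f => ⟨x⁻¹ * f.1, Subgroup.mem_inf.mpr ⟨mul_mem (inv_mem hxX) f.2.1, by
            have := mul_mem hyY (inv_mem f.2.2)
            simpa [mul_assoc] using this⟩⟩
          invFun := fun i => ⟨x * i.1, mul_mem hxX (Subgroup.mem_inf.mp i.2).1, by
            have := mul_mem (inv_mem (Subgroup.mem_inf.mp i.2).2) hyY
            simpa [mul_assoc] using this⟩
          left_inv := fun f => Subtype.ext (mul_inv_cancel_left _ _)
          right_inv := fun i => Subtype.ext (inv_mul_cancel_left _ _) }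
      obtain ⟨f, hf⟩ := (hEp.to_le (Subgroup.map_subtype_le S)).nonempty_fixed_point_of_prime_not_dvd_card
        Fac (by rw [hcardF]; exact hI)
      have hfC : f.1 ∈ Cn := by
        rw [hCn, Subgroup.mem_centralizer_iff]
        intro t ht
        have h1 : t * f.1 * t⁻¹ = f.1 := congrArg Subtype.val (hf ⟨t, ht⟩)
        exact eq_mul_of_mul_inv_eq h1
      exact ⟨f.1, Subgroup.mem_inf.mpr ⟨f.2.1, hfC⟩, f.1⁻¹ * (x * y),
        Subgroup.mem_inf.mpr ⟨f.2.2, mul_mem (inv_mem hfC) (Subgroup.mem_inf.mp hr).2⟩, by group⟩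
    have h1 := CfsgLib.Core.card_mul_card_inf_of_eq_mul (P := Y ⊓ Cn) (Q := X ⊓ Cn) (R := K ⊓ Cn)
      (inf_le_inf_right _ hY) (inf_le_inf_right _ hX) hfac'
    rwa [show (Y ⊓ Cn) ⊓ (X ⊓ Cn) = I ⊓ Cn by
      rw [inf_inf_inf_comm, inf_idem, inf_comm Y X]] at h1
  have hnd : ∀ Z : Subgroup H, Z ≤ K → ¬ p ∣ Nat.card Z := fun Z hZ h =>
    hK (h.trans (Subgroup.card_dvd_of_le hZ))
  have fK := CfsgLib.Local.FPF.formula E K hE hEexp (hEA.trans hAK) hK
  have fX := CfsgLib.Local.FPF.formula E X hE hEexp (hEA.trans hAX) (hnd X hX)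
  have fY := CfsgLib.Local.FPF.formula E Y hE hEexp (hEA.trans hAY) (hnd Y hY)
  have fI := CfsgLib.Local.FPF.formula E I hE hEexp
    (hEA.trans (CfsgLib.Core.le_normalizer_inf hAX hAY)) hI
  have hBne : ∀ B : CfsgLib.Local.FPF.Line ↥E p, B.1 ≠ ⊥ := fun B h => by
    have := B.2
    rw [h, Subgroup.card_bot] at this
    exact hpr.ne_one this.symm
  have htopne : (⊤ : Subgroup E) ≠ ⊥ := by
    intro h
    have := congrArg (fun S : Subgroup E => Nat.card S) h
    simp only [Subgroup.card_top, Subgroup.card_bot, hE] at this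
    exact (Nat.one_lt_pow (by norm_num) hpr.one_lt).ne' this
  have hprod : Nat.card K * Nat.card ↥(K ⊓ Subgroup.centralizer (E : Set H)) ^ p *
      (Nat.card I * Nat.card ↥(I ⊓ Subgroup.centralizer (E : Set H)) ^ p) =
      Nat.card Y * Nat.card ↥(Y ⊓ Subgroup.centralizer (E : Set H)) ^ p *
        (Nat.card X * Nat.card ↥(X ⊓ Subgroup.centralizer (E : Set H)) ^ p) := by
    rw [fK, fX, fY, fI, ← Finset.prod_mul_distrib, ← Finset.prod_mul_distrib]
    exact Finset.prod_congr rfl fun B _ => hmulcard B.1 (hBne B)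
  have htop := hmulcard ⊤ htopne
  rw [← MonoidHom.range_eq_map, Subgroup.range_subtype] at htop
  have hfin : Nat.card K * Nat.card I = Nat.card Y * Nat.card X := by
    refine Nat.eq_of_mul_eq_mul_right (pow_pos (Nat.mul_pos
      (Nat.card_pos (α := ↥(K ⊓ Subgroup.centralizer (E : Set H))))
      (Nat.card_pos (α := ↥(I ⊓ Subgroup.centralizer (E : Set H))))) p) ?_
    conv_rhs => rw [htop]
    linear_combination hprod
  refine CfsgLib.Core.coe_eq_mul_of_card_le hY hX ?_
  rw [inf_comm Y X, hfin]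


end Cfsg.Agent.S1287
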