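import Cfsg.Statements.S1288
import Cfsg.Agent.Lib.LocalCoprimeGen

set_option autoImplicit false
open Cfsg
open scoped commutatorElement Pointwise

namespace Cfsg.Agent.S1288

/-- Let A be a noncyclic elementary abelian p-subgroup of a finite group H normalizing a solvable subgroup K of order prime to p, q a prime dividing |K|, and U ≤ K a subgroup of order prime to q such that ⁅U, C_K(B)⁆ has order prime to q for every subgroup B of index p in A. Then U ≤ O_{q'}(K). -/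
theorem result {H : Type*} [Group H] [Finite H] (p : ℕ) [Fact p.Prime] (A K : Subgroup H) (hA : Cfsg.IsElementaryAbelian p A) (hA2 : p ^ 2 ≤ Nat.card ↥A) (hK : ¬ p ∣ Nat.card ↥K) (hKs : Group.IsSolvable ↥K) (hAK : A ≤ Subgroup.normalizer (K : Set H)) (q : ℕ) [Fact q.Prime] (hqK : q ∣ Nat.card ↥K) (U : Subgroup H) (hU : U ≤ K) (hUq : ¬ q ∣ Nat.card ↥U) (hcomm : ∀ B : Subgroup H, B ≤ A → B.relIndex A = p → ¬ q ∣ Nat.card ↥⁅U, K ⊓ Subgroup.centralizer (B : Set H)⁆) : U ≤ (Cfsg.pPrimeCore q ↥K).map K.subtype := by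
  have hp : Fact p.Prime := inferInstance
  have hq : Fact q.Prime := inferInstance
  haveI := hA.1
  haveI := hKs
  haveI := CfsgLib.Core.normal_pPrimeCore (G := ↥K) q
  set O := Cfsg.pPrimeCore q ↥K with hO
  set f := QuotientGroup.mk' O with hf
  haveI := CfsgLib.Core.normal_pCore (G := ↥K ⧸ O) q
  set Qp := ((Cfsg.pCore q (↥K ⧸ O)).comap f).map K.subtype with hQp
  have hA1 : A ≠ ⊥ := fun h => by
    rw [h, Subgroup.card_bot] at hA2
    nlinarith [hp.out.two_le]
  have hchar : ∀ a ∈ A, ∀ x ∈ Qp, a * x * a⁻¹ ∈ Qp := by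
    intro a ha x hx
    obtain ⟨y, hy, rfl⟩ := hx
    set e : ↥K ≃* ↥K := (MulEquiv.subgroupMap (MulAut.conj a) K).trans
      (MulEquiv.subgroupCongr ((CfsgLib.Core.conj_smul_eq_map _ _).symm.trans
        (CfsgLib.Core.conj_smul_eq_self_iff.mpr (hAK ha)))) with he
    refine ⟨e y, ?_, rfl⟩
    have heO : O ≤ O.comap e.toMonoidHom := fun z hz =>
      CfsgLib.Core.map_pPrimeCore_le_of_surjective q e.toMonoidHom (fun t => e.surjective t)
        ⟨z, hz, rfl⟩
    let eb : ↥K ⧸ O →* ↥K ⧸ O := QuotientGroup.map O O e.toMonoidHom heO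
    have hebs : Function.Surjective eb := fun t => by
      obtain ⟨z, rfl⟩ := QuotientGroup.mk'_surjective O t
      obtain ⟨w, rfl⟩ := e.surjective z
      exact ⟨f w, rfl⟩
    have hn : ((Cfsg.pCore q (↥K ⧸ O)).map eb).Normal :=
      (inferInstance : (Cfsg.pCore q (↥K ⧸ O)).Normal).map eb hebs
    have hle : (Cfsg.pCore q (↥K ⧸ O)).map eb ≤ Cfsg.pCore q (↥K ⧸ O) :=
      le_sSup ⟨hn, (CfsgLib.Core.isPGroup_pCore q).map eb⟩
    exact hle ⟨f y, hy, rfl⟩
  have hAQ : A ≤ Subgroup.normalizer (Qp : Set H) := fun a ha => by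
    rw [Subgroup.mem_normalizer_iff]
    exact fun x => ⟨hchar a ha x, fun hx => by simpa [mul_assoc] using hchar a⁻¹ (inv_mem ha) _ hx⟩
  have hQK : Qp ≤ K := Subgroup.map_subtype_le _
  have hgen := CfsgLib.Core.generated_by_cocyclic hAQ
    (CfsgLib.Local.CoprimeGen.coprime_of_not_dvd hA
      fun hd => hK (hd.trans (Subgroup.card_dvd_of_le hQK)))
  have hcent : ∀ u (hu : u ∈ U), f ⟨u, hU hu⟩ ∈
      Subgroup.centralizer (Cfsg.pCore q (↥K ⧸ O) : Set (↥K ⧸ O)) := by
    intro u hu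
    have key : Qp ≤ (((Subgroup.centralizer ({f ⟨u, hU hu⟩} : Set (↥K ⧸ O))).comap f).map K.subtype) := by
      refine hgen.ge.trans (iSup₂_le fun B hB x hx => ?_)
      obtain ⟨hxQ, hxB⟩ := Subgroup.mem_inf.mp hx
      obtain ⟨y, hy, rfl⟩ := hxQ
      refine ⟨y, ?_, rfl⟩
      rw [SetLike.mem_coe, Subgroup.mem_comap, Subgroup.mem_centralizer_singleton_iff,
        ← commutatorElement_eq_one_iff_mul_comm]
      obtain ⟨B', hB', hB'i⟩ := CfsgLib.Local.CoprimeGen.exists_index_le hA hA1 hB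
      set W := ⁅U, K ⊓ Subgroup.centralizer (B' : Set H)⁆ with hW
      have hmem : ⁅u, (y : H)⁆ ∈ W := Subgroup.commutator_mem_commutator hu
        (Subgroup.mem_inf.mpr ⟨y.2, Subgroup.centralizer_le hB' hxB⟩)
      have h1 : f ⁅(⟨u, hU hu⟩ : ↥K), y⁆ ∈ Cfsg.pCore q (↥K ⧸ O) := by
        rw [map_commutatorElement]
        exact mul_mem ((inferInstance : (Cfsg.pCore q (↥K ⧸ O)).Normal).conj_mem _ hy _) (inv_mem hy)
      obtain ⟨k, hk⟩ := CfsgLib.Core.isPGroup_pCore q ⟨_, h1⟩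
      obtain ⟨j, -, hj⟩ := (Nat.dvd_prime_pow hq.out).mp
        (orderOf_dvd_of_pow_eq_one (congrArg Subtype.val hk))
      have h2 : (orderOf (f ⁅(⟨u, hU hu⟩ : ↥K), y⁆)).Coprime q := by
        refine Nat.Coprime.coprime_dvd_left (orderOf_map_dvd f _) ?_
        rw [← Subgroup.orderOf_coe]
        have hWc : (Nat.card ↥W).Coprime q := (hq.out.coprime_iff_not_dvd.mpr
          (hcomm B' (hB'.trans hB.1) hB'i)).symm
        exact hWc.coprime_dvd_left (by
          have := Subgroup.orderOf_dvd_natCard _ hmem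
          exact this)
      have h3 : f ⁅y, (⟨u, hU hu⟩ : ↥K)⁆ = 1 := by
        rw [← commutatorElement_inv, map_inv, inv_eq_one, ← orderOf_eq_one_iff]
        rw [hj] at h2 ⊢
        exact Nat.eq_one_of_dvd_coprimes (h2.pow_right j) dvd_rfl dvd_rfl
      rw [← map_commutatorElement]
      exact h3
    rw [Subgroup.mem_centralizer_iff]
    intro z hz
    obtain ⟨y, rfl⟩ := QuotientGroup.mk'_surjective O z
    obtain ⟨y', hy', hyy⟩ := key ⟨y, hz, rfl⟩
    rw [← show y' = y from Subtype.ext hyy]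
    exact Subgroup.mem_centralizer_singleton_iff.mp hy'
  intro u hu
  refine ⟨⟨u, hU hu⟩, ?_, rfl⟩
  rw [SetLike.mem_coe, ← QuotientGroup.eq_one_iff, ← orderOf_eq_one_iff]
  haveI : Group.IsSolvable (↥K ⧸ O) := inferInstance
  obtain ⟨k, hk⟩ := CfsgLib.Core.isPGroup_pCore q ⟨_, CfsgLib.Core.centralizer_pCore_le
    (CfsgLib.Core.pPrimeCore_quotient_pPrimeCore q) (hcent u hu)⟩
  refine Nat.eq_one_of_dvd_coprimes (((hq.out.coprime_iff_not_dvd.mpr hUq).symm).pow_right k) ?_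
    (orderOf_dvd_of_pow_eq_one (congrArg Subtype.val hk))
  refine (orderOf_map_dvd f _).trans ?_
  rw [Subgroup.orderOf_mk]
  exact Subgroup.orderOf_dvd_natCard _ hu


end Cfsg.Agent.S1288
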