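import Cfsg.Statements.S1289
import Cfsg.Agent.Lib.LocalPComponent

set_option autoImplicit false
open Cfsg

namespace Cfsg.Agent.S1289

/-- A p-component K of the finite group X is subnormal, perfect, of order divisible by p, and minimal among the subnormal perfect subgroups of X of order divisible by p. -/
theorem result {X : Type*} [Group X] [Finite X] (p : ℕ) [Fact p.Prime] (K : Subgroup X) (hK : Cfsg.IsPComponent p K) : K.IsSubnormal ∧ ⁅K, K⁆ = K ∧ p ∣ Nat.card ↥K ∧ ∀ H : Subgroup X, H ≤ K → H.IsSubnormal → ⁅H, H⁆ = H → p ∣ Nat.card ↥H → H = K := by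
  refine ⟨hK.1, CfsgLib.Local.PComp.isPerfect hK, CfsgLib.Local.PComp.dvd_card hK,
    fun H hHK hH hperf hd => ?_⟩
  haveI := CfsgLib.Core.normal_pPrimeCore (G := X) p
  set f := QuotientGroup.mk' (Cfsg.pPrimeCore p X) with hf
  have hsn : ((H.map f).subgroupOf (K.map f)).IsSubnormal :=
    (hH.map (QuotientGroup.mk'_surjective _)).subgroupOf
  rcases CfsgLib.Core.quasisimple_subnormal_cases hK.2.1.2 hsn with h | h
  · exact hK.2.2 H hH hHK (le_antisymm (Subgroup.map_mono hHK) (Subgroup.subgroupOf_eq_top.mp h))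
  · exfalso
    have hab : ⁅H.map f, H.map f⁆ = ⊥ := by
      rw [Subgroup.commutator_eq_bot_iff_le_centralizer]
      intro x hx
      rw [Subgroup.mem_centralizer_iff]
      intro y hy
      have hxK := Subgroup.map_mono (f := f) hHK hx
      exact congrArg Subtype.val (Subgroup.mem_center_iff.mp
        (h (Subgroup.mem_subgroupOf.mpr hx : (⟨x, hxK⟩ : ↥(K.map f)) ∈ _))
        ⟨y, Subgroup.map_mono (f := f) hHK hy⟩)
    rw [← Subgroup.map_commutator, hperf, Subgroup.map_eq_bot_iff, hf, QuotientGroup.ker_mk'] at hab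
    exact CfsgLib.Core.not_dvd_card_pPrimeCore (G := X) p
      (hd.trans (Subgroup.card_dvd_of_le hab))

end Cfsg.Agent.S1289
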