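import Cfsg.Statements.S1297
import Cfsg.Agent.Lib.LocalBalanced

set_option autoImplicit false
open Cfsg

namespace Cfsg.Agent.S1297

/-- Let G be finite. Suppose that for every involution x, writing C = C_G(x), every component K of C / O(C) has K / Z(K) locally balanced. Then G is balanced. -/
theorem result {G : Type*} [Group G] [Finite G] (h : ∀ x : G, orderOf x = 2 → ∀ K : Subgroup (↥(Subgroup.centralizer ({x} : Set G)) ⧸ Cfsg.oddCore ↥(Subgroup.centralizer ({x} : Set G))), Cfsg.IsComponent K → Cfsg.IsLocallyBalanced (↥K ⧸ Subgroup.center ↥K)) : Cfsg.IsBalanced G := by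
  haveI : Fact (Nat.Prime 2) := ⟨Nat.prime_two⟩
  have hzp : ∀ (H : Type _) [Group H] (x : H), orderOf x = 2 →
      Cfsg.IsElementaryAbelian 2 (Subgroup.zpowers x) ∧ Nat.card ↥(Subgroup.zpowers x) = 2 ^ 1 := by
    intro H _ x hx
    refine ⟨⟨inferInstance, ?_⟩, by rw [Nat.card_zpowers, hx, pow_one]⟩
    rintro _ ⟨i, rfl⟩
    show (x ^ i) ^ 2 = 1
    rw [← zpow_natCast, ← zpow_mul, mul_comm, zpow_mul, zpow_natCast,
      show x ^ 2 = 1 from hx ▸ pow_orderOf_eq_one x, one_zpow]
  have hk : Cfsg.IsKBalanced 2 1 G := by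
    refine CfsgLib.Local.Balanced.isKBalanced le_rfl fun x hx K hK H hH A hA hA1 => ?_
    have hloc := h x hx K hK
    obtain ⟨⟨a, haA⟩, hne⟩ := Subgroup.ne_bot_iff_exists_ne_one.mp (show A ≠ ⊥ from fun e => by
      rw [e, Subgroup.card_bot] at hA1; simp at hA1)
    have ha1 : a ≠ 1 := fun e => hne (Subtype.ext e)
    refine le_bot_iff.mp (le_trans ?_ (hloc H hH a (orderOf_eq_prime (hA.2 a haA) ha1)).le)
    rw [Cfsg.signalizerDelta]
    exact iInf_le_of_le ⟨a, haA, ha1⟩ le_rfl
  have key : ∀ x y : G, orderOf x = 2 → orderOf y = 2 → x * y = y * x →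
      Cfsg.centralizerPPrimeCore 2 x ⊓ Subgroup.centralizer {y} ≤
        Cfsg.centralizerPPrimeCore 2 y ⊓ Subgroup.centralizer {x} := by
    intro x y hx hy hxy
    refine le_inf (le_trans (inf_le_inf_right _ ?_) (hk (Subgroup.zpowers x) (hzp G x hx).1
      (hzp G x hx).2 y hy ?_)) (inf_le_left.trans (Subgroup.map_subtype_le _))
    · rw [Cfsg.signalizerDelta]
      refine le_iInf fun a => ?_
      obtain ⟨⟨i, hi⟩, hne⟩ := a.2
      rcases Int.even_or_odd i with ⟨j, hj⟩ | ⟨j, hj⟩
      · exact absurd (by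
          rw [← hi, hj]
          show x ^ (j + j) = 1
          rw [← two_mul, zpow_mul]
          show (x ^ ((2 : ℕ) : ℤ)) ^ j = 1
          rw [zpow_natCast, show x ^ 2 = 1 from hx ▸ pow_orderOf_eq_one x, one_zpow]) hne
      · rw [show (a : G) = x from by
          rw [← hi, hj]
          show x ^ (2 * j + 1) = x
          rw [zpow_add, zpow_mul]
          show (x ^ ((2 : ℕ) : ℤ)) ^ j * x ^ (1 : ℤ) = x
          rw [zpow_natCast, show x ^ 2 = 1 from hx ▸ pow_orderOf_eq_one x, one_zpow, one_mul,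
            zpow_one]]
    · rintro a ⟨i, rfl⟩
      exact (show Commute x y from hxy).zpow_left i
  exact fun x y hx hy hxy => le_antisymm (key x y hx hy hxy) (key y x hy hx hxy.symm)


end Cfsg.Agent.S1297
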