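import Cfsg.Statements.S1299
import Cfsg.Agent.Lib.LocalKBalancedSignalizer

set_option autoImplicit false
open Cfsg

namespace Cfsg.Agent.S1299

/-- Let G be finite and k-balanced for the prime p (k ≥ 1), A an elementary abelian p-subgroup of order at least p^(k+2) such that O_{p'}(C_G(a)) is solvable for every non-identity a ∈ A. For a ∈ A put θ a = the subgroup generated by the Δ_G(D) ∩ C_G(a) over the subgroups D ≤ A of order p^k. Then θ is an A-signalizer functor. -/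
theorem result {G : Type*} [Group G] [Finite G] (p k : ℕ) [Fact p.Prime] (hk : 1 ≤ k) (hbal : Cfsg.IsKBalanced p k G) (A : Subgroup G) (hA : Cfsg.IsElementaryAbelian p A) (hAk : p ^ (k + 2) ≤ Nat.card ↥A) (hsolv : ∀ a ∈ A, a ≠ 1 → Group.IsSolvable ↥(Cfsg.centralizerPPrimeCore p a)) : Cfsg.IsSignalizerFunctor p A (fun a => ⨆ D : {D : Subgroup G // D ≤ A ∧ Nat.card ↥D = p ^ k}, Cfsg.signalizerDelta p (D : Subgroup G) ⊓ Subgroup.centralizer {a}) := by
  have hp := (Fact.out : p.Prime)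
  have hsub : ∀ H : Subgroup G, H ≤ A → p ^ k ≤ Nat.card ↥H →
      ∃ B : Subgroup G, (B ≤ A ∧ Nat.card ↥B = p ^ k) ∧ B ≤ H := by
    intro H hH hHk
    have hHp : IsPGroup p ↥H := fun x => ⟨1, by rw [pow_one]; exact Subtype.ext (hA.2 x (hH x.2))⟩
    obtain ⟨m, hm⟩ := IsPGroup.iff_card.mp hHp
    have hkm : k ≤ m := (Nat.pow_le_pow_iff_right hp.one_lt).mp (hm ▸ hHk)
    obtain ⟨B, hB⟩ := Sylow.exists_subgroup_card_pow_prime (G := ↥H) p (hm ▸ pow_dvd_pow p hkm)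
    exact ⟨B.map H.subtype, ⟨(Subgroup.map_subtype_le B).trans hH,
      by rw [Subgroup.card_subtype]; exact hB⟩, Subgroup.map_subtype_le B⟩
  refine CfsgLib.Local.KBal.isSignalizerFunctor hA hk hAk ?_ hsolv
    {D : Subgroup G | D ≤ A ∧ Nat.card ↥D = p ^ k} (fun D hD => ⟨hD.1, hD.2.ge⟩) hsub
  intro B hB hBk a ha ha1 x hx
  obtain ⟨B', hB', hB'B⟩ := hsub B hB hBk
  haveI : IsMulCommutative ↥A := hA.1
  refine hbal B' (CfsgLib.Local.KBal.elem_of_le hA hB'.1) hB'.2 a (orderOf_eq_prime (hA.2 a ha) ha1)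
    (fun c hc => congrArg Subtype.val (mul_comm' (⟨c, hB'.1 hc⟩ : ↥A) ⟨a, ha⟩)) ⟨?_, hx.2⟩
  exact CfsgLib.Local.KBal.mem_delta fun c hc hc1 =>
    CfsgLib.Local.KBal.delta_le (hB'B hc) hc1 hx.1


end Cfsg.Agent.S1299
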