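import Cfsg.Statements.S1300
import Cfsg.Agent.Lib.LocalKBalanced

set_option autoImplicit false
open Cfsg

namespace Cfsg.Agent.S1300

/-- For a finite group G, balance in the sense of commuting involutions is the same as 1-balance for the prime 2. -/
theorem result {G : Type*} [Group G] [Finite G] : Cfsg.IsBalanced G ↔ Cfsg.IsKBalanced 2 1 G := by
  haveI : Fact (Nat.Prime 2) := ⟨Nat.prime_two⟩
  constructor
  · intro h A hA hAk b hb hab x hx
    obtain ⟨hxD, hxb⟩ := Subgroup.mem_inf.mp hx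
    obtain ⟨⟨a, ha⟩, ha1⟩ := Subgroup.ne_bot_iff_exists_ne_one.mp
      (CfsgLib.Local.KBal.ne_bot_of_le le_rfl hAk.ge)
    have hne : a ≠ 1 := fun e => ha1 (Subtype.ext e)
    have he := h a b (orderOf_eq_prime (hA.2 a ha) hne) hb (hab a ha)
    have : x ∈ Cfsg.centralizerPPrimeCore 2 a ⊓ Subgroup.centralizer {b} :=
      Subgroup.mem_inf.mpr ⟨CfsgLib.Local.KBal.delta_le ha hne hxD, hxb⟩
    rw [he] at this
    exact this.1
  · intro h x y hx hy hxy
    have key : ∀ u v : G, orderOf u = 2 → orderOf v = 2 → u * v = v * u →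
        Cfsg.centralizerPPrimeCore 2 u ⊓ Subgroup.centralizer {v} ≤
          Cfsg.centralizerPPrimeCore 2 v ⊓ Subgroup.centralizer {u} := by
      intro u v hu hv huv d hd
      obtain ⟨hd1, hd2⟩ := Subgroup.mem_inf.mp hd
      refine Subgroup.mem_inf.mpr ⟨h (Subgroup.zpowers u) ⟨inferInstance, ?_⟩
        (by rw [Nat.card_zpowers, hu, pow_one]) v hv ?_
        (Subgroup.mem_inf.mpr ⟨CfsgLib.Local.KBal.mem_delta fun c hc hc1 => ?_, hd2⟩),
        CfsgLib.Local.KBal.core_le_centralizer u hd1⟩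
      · rintro _ ⟨k, rfl⟩
        show (u ^ k) ^ 2 = 1
        rw [← zpow_natCast, ← zpow_mul, mul_comm, zpow_mul, zpow_natCast, ← hu, pow_orderOf_eq_one,
          one_zpow]
      · rintro _ ⟨k, rfl⟩
        exact ((show Commute u v from huv).zpow_left k).eq
      · obtain ⟨k, rfl⟩ := hc
        have hu2 : u ^ (2 : ℤ) = 1 := by rw [zpow_ofNat, ← hu, pow_orderOf_eq_one]
        rcases Int.even_or_odd k with ⟨j, rfl⟩ | ⟨j, rfl⟩
        · exact absurd (by rw [← two_mul]; show u ^ (2 * j) = 1; rw [zpow_mul, hu2, one_zpow]) hc1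
        · show d ∈ Cfsg.centralizerPPrimeCore 2 (u ^ (2 * j + 1))
          rw [zpow_add_one, zpow_mul, hu2, one_zpow, one_mul]
          exact hd1
    exact le_antisymm (key x y hx hy hxy) (key y x hy hx hxy.symm)


end Cfsg.Agent.S1300
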