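import Cfsg.Statements.S2427
import Cfsg.Agent.Lib.TransferQuatSection

set_option autoImplicit false
open Cfsg

namespace Cfsg.Agent.S2427

/-- The group SL₂ over the field with 3 elements has order 24 and centre of order 2; its commutator subgroup has order 8, is isomorphic to the quaternion group of order 8 and is complemented by every Sylow 3-subgroup (so the group is a semidirect product of a quaternion group of order 8 by a cyclic group of order 3); and its only normal subgroups besides the trivial subgroup and the whole group are the centre and the commutator subgroup. -/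
theorem result :
    Nat.card (Matrix.SpecialLinearGroup (Fin 2) (ZMod 3)) = 24 ∧
    Nat.card (Subgroup.center (Matrix.SpecialLinearGroup (Fin 2) (ZMod 3))) = 2 ∧
    Nat.card (commutator (Matrix.SpecialLinearGroup (Fin 2) (ZMod 3))) = 8 ∧
    Nonempty (commutator (Matrix.SpecialLinearGroup (Fin 2) (ZMod 3)) ≃* QuaternionGroup 2) ∧
    (∀ P : Sylow 3 (Matrix.SpecialLinearGroup (Fin 2) (ZMod 3)),
      Subgroup.IsComplement' (commutator (Matrix.SpecialLinearGroup (Fin 2) (ZMod 3)))
        (P : Subgroup (Matrix.SpecialLinearGroup (Fin 2) (ZMod 3)))) ∧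
    ∀ N : Subgroup (Matrix.SpecialLinearGroup (Fin 2) (ZMod 3)), N.Normal →
      N = ⊥ ∨ N = ⊤ ∨ N = Subgroup.center (Matrix.SpecialLinearGroup (Fin 2) (ZMod 3)) ∨
        N = commutator (Matrix.SpecialLinearGroup (Fin 2) (ZMod 3)) := by
  classical
  let G := Matrix.SpecialLinearGroup (Fin 2) (ZMod 3)
  let Q : Subgroup G := CfsgLib.QuatSection.slHom.range
  have hQ : ∀ x, x ∈ Q ↔ ∃ q, CfsgLib.QuatSection.slFun q = x := fun x => Iff.rfl
  have h24 : Nat.card G = 24 := by rw [Nat.card_eq_fintype_card]; decide +kernel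
  have hinj : Function.Injective CfsgLib.QuatSection.slHom :=
    (show ∀ x y, CfsgLib.QuatSection.slFun x = CfsgLib.QuatSection.slFun y → x = y by decide +kernel)
  have hQ8 : Nat.card Q = 8 := by
    rw [← Nat.card_congr (MonoidHom.ofInjective hinj).toEquiv, Nat.card_eq_fintype_card, QuaternionGroup.card]
  have hidx : Q.index = 3 := by
    have := Subgroup.card_mul_index Q
    rw [hQ8, h24] at this
    omega
  have hcomm : commutator G = Q := by
    apply le_antisymm
    · rw [commutator_eq_closure, Subgroup.closure_le]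
      rintro _ ⟨x, y, rfl⟩
      rw [SetLike.mem_coe, hQ]
      exact (show ∀ x y : Matrix.SpecialLinearGroup (Fin 2) (ZMod 3), ∃ q, CfsgLib.QuatSection.slFun q = x * y * x⁻¹ * y⁻¹ by decide +kernel) x y
    · rintro _ ⟨q, rfl⟩
      obtain ⟨x, y, hxy⟩ := (show ∀ q, ∃ x y : Matrix.SpecialLinearGroup (Fin 2) (ZMod 3), x * y * x⁻¹ * y⁻¹ = CfsgLib.QuatSection.slFun q by decide +kernel) q
      rw [show CfsgLib.QuatSection.slHom q = CfsgLib.QuatSection.slFun q from rfl, ← hxy, commutator_eq_closure]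
      exact Subgroup.subset_closure ⟨x, y, rfl⟩
  have hcen : ∀ x : G, x ∈ Subgroup.center G ↔ x = 1 ∨ x = -1 := by
    intro x
    rw [Subgroup.mem_center_iff]
    exact (show ∀ x : Matrix.SpecialLinearGroup (Fin 2) (ZMod 3), (∀ g, g * x = x * g) ↔ x = 1 ∨ x = -1 by decide +kernel) x
  have hc2 : Nat.card (Subgroup.center G) = 2 := by
    rw [Nat.card_congr (Equiv.subtypeEquivRight hcen), Nat.card_eq_fintype_card]
    decide +kernel
  refine ⟨h24, hc2, hcomm ▸ hQ8, ?_, ?_, ?_⟩
  · rw [hcomm]; exact ⟨(MonoidHom.ofInjective hinj).symm⟩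
  · intro P
    rw [hcomm]
    refine Subgroup.isComplement'_of_coprime ?_ ?_
    · rw [hQ8, P.card_eq_multiplicity, h24, show (24 : ℕ) = 3 ^ 1 * 8 from rfl, Nat.factorization_mul (by norm_num) (by norm_num),
        Finsupp.add_apply, Nat.Prime.factorization_pow (by norm_num), Nat.factorization_eq_zero_of_not_dvd (show ¬ 3 ∣ 8 by norm_num)]
      simp
    · rw [hQ8, P.card_eq_multiplicity]
      exact Nat.Coprime.pow_right _ (by norm_num)
  · intro N hN
    by_cases hsmall : ∀ x ∈ N, x = 1 ∨ x = -1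
    · by_cases hbot : N = ⊥
      · exact Or.inl hbot
      · refine Or.inr (Or.inr (Or.inl (le_antisymm (fun x hx => (hcen x).2 (hsmall x hx)) fun x hx => ?_)))
        obtain ⟨z, hz, hz1⟩ := (Subgroup.bot_or_exists_ne_one N).resolve_left hbot
        rcases (hcen x).1 hx with rfl | rfl
        · exact one_mem N
        · rwa [(hsmall z hz).resolve_left hz1] at hz
    · push Not at hsmall
      obtain ⟨x, hx, hx1, hx2⟩ := hsmall
      -- find an element of `Q` outside the centre
      obtain ⟨y, hy, q, hq, hy1, hy2⟩ : ∃ y ∈ N, ∃ q, CfsgLib.QuatSection.slFun q = y ∧ y ≠ 1 ∧ y ≠ -1 := by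
        rcases (show ∀ x : Matrix.SpecialLinearGroup (Fin 2) (ZMod 3), x ≠ 1 → x ≠ -1 → (∃ q, CfsgLib.QuatSection.slFun q = x) ∨
          ∃ g q, CfsgLib.QuatSection.slFun q = g * x * g⁻¹ * x⁻¹ ∧ g * x * g⁻¹ * x⁻¹ ≠ 1 ∧ g * x * g⁻¹ * x⁻¹ ≠ -1 by decide +kernel) x hx1 hx2 with ⟨q, hq⟩ | ⟨g, q, hq, h1, h2⟩
        · exact ⟨x, hx, q, hq, hx1, hx2⟩
        · exact ⟨_, N.mul_mem (hN.conj_mem x hx g) (N.inv_mem hx), q, hq, h1, h2⟩
      subst hq
      obtain ⟨g, h, hI, hJ⟩ := (show ∀ q, CfsgLib.QuatSection.slFun q ≠ 1 → CfsgLib.QuatSection.slFun q ≠ -1 → ∃ g h : Matrix.SpecialLinearGroup (Fin 2) (ZMod 3),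
        (g * CfsgLib.QuatSection.slFun q * g⁻¹ = CfsgLib.QuatSection.slI ∨ g * (CfsgLib.QuatSection.slFun q)⁻¹ * g⁻¹ = CfsgLib.QuatSection.slI) ∧
        (h * CfsgLib.QuatSection.slFun q * h⁻¹ = CfsgLib.QuatSection.slJ ∨ h * (CfsgLib.QuatSection.slFun q)⁻¹ * h⁻¹ = CfsgLib.QuatSection.slJ) by decide +kernel) q hy1 hy2
      have hmI : CfsgLib.QuatSection.slI ∈ N := by
        rcases hI with e | e <;> rw [← e]
        · exact hN.conj_mem _ hy g
        · exact hN.conj_mem _ (N.inv_mem hy) g
      have hmJ : CfsgLib.QuatSection.slJ ∈ N := by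
        rcases hJ with e | e <;> rw [← e]
        · exact hN.conj_mem _ hy h
        · exact hN.conj_mem _ (N.inv_mem hy) h
      have hle : Q ≤ N := by
        rintro _ ⟨r, rfl⟩
        rcases r with i | i
        · exact pow_mem hmI _
        · exact mul_mem hmJ (pow_mem hmI _)
      have hmul := Subgroup.relIndex_mul_index hle
      rw [hidx] at hmul
      rcases (Nat.dvd_prime Nat.prime_three).1 ⟨_, hmul.symm⟩ with h | h
      · refine Or.inr (Or.inr (Or.inr (hcomm ▸ (le_antisymm ?_ hle))))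
        exact Subgroup.relIndex_eq_one.1 h
      · rw [h] at hmul
        exact Or.inr (Or.inl (Subgroup.index_eq_one.1 (by omega)))

end Cfsg.Agent.S2427
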