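import Cfsg.Statements.S1303
import Cfsg.Agent.S2427
import Cfsg.Agent.Lib.LocalClassTwo

set_option autoImplicit false
open Cfsg

namespace Cfsg.Agent.S1303

/-- The group X = SL(2, 3): it is 2-constrained, O_{2'}(X) = 1, its centre A = Z(X) contains every involution of X = C_X(A), and X has a subgroup of order 3 (normalized by A) not contained in O_{2'}(X). -/
theorem result : Cfsg.IsPConstrained 2 (Matrix.SpecialLinearGroup (Fin 2) (ZMod 3)) ∧ Cfsg.pPrimeCore 2 (Matrix.SpecialLinearGroup (Fin 2) (ZMod 3)) = ⊥ ∧ (∀ t : Matrix.SpecialLinearGroup (Fin 2) (ZMod 3), orderOf t = 2 → t ∈ Subgroup.center (Matrix.SpecialLinearGroup (Fin 2) (ZMod 3))) ∧ ∃ Q : Subgroup (Matrix.SpecialLinearGroup (Fin 2) (ZMod 3)), Nat.card ↥Q = 3 ∧ ¬ (Q ≤ Cfsg.pPrimeCore 2 (Matrix.SpecialLinearGroup (Fin 2) (ZMod 3))) := by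
  classical
  haveI : Fact (Nat.Prime 2) := ⟨Nat.prime_two⟩
  obtain ⟨h24, hc2, hc8, ⟨eQ⟩, -, hnormal⟩ := Cfsg.Agent.S2427.result
  set G := Matrix.SpecialLinearGroup (Fin 2) (ZMod 3)
  have hsol : Group.IsSolvable G := by
    haveI hp : IsPGroup 2 (commutator G) := IsPGroup.of_card (n := 3) (by rw [hc8]; norm_num)
    haveI := hp.isNilpotent
    exact solvable_of_ker_le_range (commutator G).subtype (Abelianization.of) (by rw [Abelianization.ker_of, Subgroup.range_subtype])
  haveI := hsol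
  have hcore : Cfsg.pPrimeCore 2 G = ⊥ := by
    have hc := CfsgLib.Core.coprime_card_pPrimeCore (G := G) 2
    haveI := CfsgLib.Core.normal_pPrimeCore (G := G) 2
    rcases hnormal _ (CfsgLib.Core.normal_pPrimeCore (G := G) 2) with h | h | h | h
    · exact h
    · rw [h, Subgroup.card_top, h24] at hc; exact absurd hc (by decide)
    · rw [h, hc2] at hc; exact absurd hc (by decide)
    · rw [h, hc8] at hc; exact absurd hc (by decide)
  refine ⟨CfsgLib.Local.ClassTwo.isPConstrained_of_solvable 2, hcore, ?_, ?_⟩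
  · intro t ht
    have h1 : t * t = 1 := by
      have := pow_orderOf_eq_one t
      rwa [ht, pow_two] at this
    have h2 : ∀ t : G, t * t = 1 → ∀ g : G, g * t = t * g := by decide +kernel
    exact Subgroup.mem_center_iff.2 (h2 t h1)
  · obtain ⟨g, hg⟩ := exists_prime_orderOf_dvd_card' (G := G) 3 (hp := ⟨Nat.prime_three⟩) (by rw [h24]; norm_num)
    refine ⟨Subgroup.zpowers g, by rw [Nat.card_zpowers, hg], fun hle => ?_⟩
    rw [hcore, Subgroup.zpowers_le, Subgroup.mem_bot] at hle
    rw [hle, orderOf_one] at hg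
    omega

end Cfsg.Agent.S1303
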