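import Cfsg.Statements.S1304


set_option autoImplicit false
open Cfsg

namespace Cfsg.Agent.S1304

/-- Let X be a perfect group and α an automorphism of X with α(x) x⁻¹ central for every x. Then α is the identity. -/
theorem result {X : Type*} [Group X] (hperf : commutator X = ⊤) (α : X ≃* X) (h : ∀ x : X, α x * x⁻¹ ∈ Subgroup.center X) : ∀ x : X, α x = x := by
  intro x
  let β : X →* Subgroup.center X :=
    { toFun := fun y => ⟨α y * y⁻¹, h y⟩
      map_one' := by simp
      map_mul' := fun a b => Subtype.ext (by
        show α (a * b) * (a * b)⁻¹ = α a * a⁻¹ * (α b * b⁻¹)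
        have hb := Subgroup.mem_center_iff.mp (h b) a⁻¹
        rw [map_mul, mul_inv_rev, mul_assoc (α a) a⁻¹, hb]
        simp only [mul_assoc]) }
  have hx : x ∈ β.ker := by
    have : commutator X ≤ β.ker := by
      show ⁅(⊤ : Subgroup X), ⊤⁆ ≤ _
      rw [Subgroup.commutator_le]
      intro a _ b _
      rw [MonoidHom.mem_ker, map_commutatorElement, commutatorElement_eq_one_iff_mul_comm]
      exact Subtype.ext (Subgroup.mem_center_iff.mp (β b).2 (β a))
    exact this (hperf ▸ Subgroup.mem_top x)
  have := congrArg Subtype.val (MonoidHom.mem_ker.mp hx)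
  exact mul_inv_eq_one.mp this

end Cfsg.Agent.S1304
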