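import Cfsg.Statements.S1305
import Cfsg.Agent.Lib.LocalBalanced

set_option autoImplicit false
open Cfsg
open scoped commutatorElement Pointwise

namespace Cfsg.Agent.S1305

/-- Let G be a finite group of component type with the B-property and no nontrivial normal subgroup of odd order. Let a be an involution and K a component of C_G(a) such that (a) |K| is maximal among the orders of components of centralizers of involutions of G, (b) subject to (a) the 2-rank of the centralizer of K in C_G(a) is as large as possible, and (c) K has 2-rank at least 2. If B is an elementary abelian 2-subgroup of that centralizer of the largest possible order, then K is a component of C_G(b) for every non-identity b ∈ B. -/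
theorem result {G : Type*} [Group G] [Finite G] (hO : Cfsg.oddCore G = ⊥) (hB : Cfsg.HasBProperty G) (hct : Cfsg.IsComponentType G) (a : G) (ha : orderOf a = 2) (K : Subgroup G) (hKa : K ≤ Subgroup.centralizer ({a} : Set G)) (hK : Cfsg.IsComponent (K.subgroupOf (Subgroup.centralizer ({a} : Set G)))) (hmax : ∀ y : G, orderOf y = 2 → ∀ K' : Subgroup G, K' ≤ Subgroup.centralizer ({y} : Set G) → Cfsg.IsComponent (K'.subgroupOf (Subgroup.centralizer ({y} : Set G))) → Nat.card ↥K' ≤ Nat.card ↥K ∧ (Nat.card ↥K' = Nat.card ↥K → ∀ k : ℕ, Cfsg.PRankLE 2 k ↥(Subgroup.centralizer ({a} : Set G) ⊓ Subgroup.centralizer (K : Set G)) → Cfsg.PRankLE 2 k ↥(Subgroup.centralizer ({y} : Set G) ⊓ Subgroup.centralizer (K' : Set G)))) (hrk : ¬ Cfsg.PRankLE 2 1 ↥K) (B : Subgroup G) (hBle : B ≤ Subgroup.centralizer ({a} : Set G) ⊓ Subgroup.centralizer (K : Set G)) (hBel : Cfsg.IsElementaryAbelian 2 B) (hBmax : ∀ B' : Subgroup G, B' ≤ Subgroup.centralizer ({a} : Set G) ⊓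 Subgroup.centralizer (K : Set G) → Cfsg.IsElementaryAbelian 2 B' → Nat.card ↥B' ≤ Nat.card ↥B) (b : G) (hb : b ∈ B) (hb1 : b ≠ 1) : K ≤ Subgroup.centralizer ({b} : Set G) ∧ Cfsg.IsComponent (K.subgroupOf (Subgroup.centralizer ({b} : Set G))) := by
  haveI : Fact (Nat.Prime 2) := ⟨Nat.prime_two⟩
  have hab : a * b = b * a :=
    (Subgroup.mem_centralizer_singleton_iff.mp (Subgroup.mem_inf.mp (hBle hb)).1).symm
  have hbK : b ∈ Subgroup.centralizer (K : Set G) := (Subgroup.mem_inf.mp (hBle hb)).2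
  have hbord : orderOf b = 2 := orderOf_eq_prime (hBel.2 b hb) hb1
  have hKb : K ≤ Subgroup.centralizer ({b} : Set G) := fun k hk =>
    Subgroup.mem_centralizer_singleton_iff.mpr (Subgroup.mem_centralizer_iff.mp hbK k hk)
  refine ⟨hKb, ?_⟩
  set Y := Subgroup.centralizer ({b} : Set G) with hY
  set Ca := Subgroup.centralizer ({a} : Set G) with hCa
  set aY : ↥Y := ⟨a, Subgroup.mem_centralizer_singleton_iff.mpr hab⟩ with haY
  set Cab := Subgroup.centralizer ({aY} : Set ↥Y) with hCab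
  -- `K` inside `C_Y(a)`
  set K₁ := (K.subgroupOf Y).subgroupOf Cab with hK₁
  have hKab : K.subgroupOf Y ≤ Cab := fun k hk => Subgroup.mem_centralizer_singleton_iff.mpr
    (Subtype.ext (Subgroup.mem_centralizer_singleton_iff.mp (hKa (Subgroup.mem_subgroupOf.mp hk))))
  have hKq : Cfsg.IsQuasisimple ↥K :=
    CfsgLib.Core.quasisimple_congr (Subgroup.subgroupOfEquivOfLe hKa) hK.2
  have hK₁q : Cfsg.IsQuasisimple ↥K₁ :=
    CfsgLib.Core.quasisimple_congr ((Subgroup.subgroupOfEquivOfLe hKab).trans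
      (Subgroup.subgroupOfEquivOfLe hKb)).symm hKq
  have hK₁sn : K₁.IsSubnormal := by
    let ι : ↥Cab →* ↥Ca := MonoidHom.mk' (fun c => ⟨((c : ↥Y) : G),
      Subgroup.mem_centralizer_singleton_iff.mpr
        (congrArg Subtype.val (Subgroup.mem_centralizer_singleton_iff.mp c.2))⟩) (fun u v => rfl)
    have h : K₁ = (K.subgroupOf Ca).comap ι := rfl
    rw [h]
    exact hK.1.comap ι
  have hdvd : 2 ∣ Nat.card ↥K := by
    by_contra hnd
    refine hrk fun A hA hA2 => ?_
    have hAb : A = ⊥ := by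
      rw [Subgroup.eq_bot_iff_forall]
      intro x hx
      rw [← orderOf_eq_one_iff]
      exact Nat.eq_one_of_dvd_coprimes (Nat.prime_two.coprime_iff_not_dvd.mpr hnd)
        (orderOf_dvd_of_pow_eq_one (hA2 x hx)) (orderOf_dvd_natCard x)
    rw [hAb, Subgroup.card_bot]; norm_num
  have hK₁d : 2 ∣ Nat.card ↥K₁ := by
    rw [Nat.card_congr ((Subgroup.subgroupOfEquivOfLe hKab).trans
      (Subgroup.subgroupOfEquivOfLe hKb)).toEquiv]
    exact hdvd
  haveI := CfsgLib.Core.normal_pPrimeCore (G := ↥Cab) 2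
  have hgen := CfsgLib.Local.PComp.pGen_eq_self_of_quasisimple 2 hK₁q hK₁d
  have hK₁c : Cfsg.IsPComponent 2 K₁ := by
    refine CfsgLib.Local.PComp.isPComponent_of_pGen hK₁sn hgen ?_
    refine CfsgLib.Local.LBalance.isComponent_map_of_surjective _
      (QuotientGroup.mk'_surjective _) ⟨hK₁sn, hK₁q⟩ fun h => ?_
    rw [Subgroup.map_eq_bot_iff, QuotientGroup.ker_mk'] at h
    exact Nat.prime_two.coprime_iff_not_dvd.mp
      ((CfsgLib.Core.coprime_card_pPrimeCore (G := ↥Cab) 2).coprime_dvd_left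
        (Subgroup.card_dvd_of_le h)).symm hK₁d
  -- `L_{2'}(C(b)) = E(C(b))`
  have hlayer : Cfsg.pLayer 2 ↥Y ≤ Cfsg.layer ↥Y := by
    refine sSup_le fun J hJ => CfsgLib.Core.component_le_layer ⟨hJ.1, ?_⟩
    rw [CfsgLib.Local.PComp.quasisimple_iff 2 hJ]
    have h1 := hB b hbord
    rw [hO, le_bot_iff, Subgroup.map_eq_bot_iff_of_injective _ Y.subtype_injective] at h1
    rw [← le_bot_iff, ← h1]
    refine Subgroup.commutator_mono (le_sSup hJ) ?_
    haveI := CfsgLib.Core.normal_pPrimeCore (G := ↥Y) 2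
    rw [CfsgLib.Local.PComp.pPrimeCore_subnormal hJ.1]
    exact inf_le_right
  have hCz : Subgroup.centralizer ((Subgroup.zpowers aY : Subgroup ↥Y) : Set ↥Y) = Cab :=
    CfsgLib.Local.Balanced.centralizer_zpowers aY
  have haY2 : orderOf aY = 2 := by rw [haY, Subgroup.orderOf_mk, ha]
  have hKE : K₁.map Cab.subtype ≤ Cfsg.layer ↥Y := by
    have h := CfsgLib.Local.LBalance.pLayer_centralizer_le_two (R := Subgroup.zpowers aY)
      (IsPGroup.of_card (n := 1) (by rw [Nat.card_zpowers, haY2, pow_one]))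
    rw [hCz] at h
    exact (Subgroup.map_mono (le_sSup hK₁c)).trans (h.trans hlayer)
  have hK₁K : (K₁.map Cab.subtype) = K.subgroupOf Y := Subgroup.map_subgroupOf_eq_of_le hKab
  obtain ⟨L, hL, hcase⟩ := CfsgLib.Local.PumpUp.exists_component haY2 hK₁c hKE
  rw [hK₁K] at hcase
  set L' := L.map Y.subtype with hL'
  have hL'Y : L' ≤ Y := Subgroup.map_subtype_le L
  have hL'sub : L'.subgroupOf Y = L := Subgroup.comap_map_eq_self_of_injective Y.subtype_injective L
  obtain ⟨hle, hrank⟩ := hmax b hbord L' hL'Y (by rw [hL'sub]; exact hL)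
  have hcardL : Nat.card ↥L' = Nat.card ↥L := Subgroup.card_subtype Y L
  have hcardK : Nat.card ↥(K.subgroupOf Y) = Nat.card ↥K :=
    Nat.card_congr (Subgroup.subgroupOfEquivOfLe hKb).toEquiv
  rcases hcase with ⟨-, hKL⟩ | ⟨haL, φ, hφ, hφr⟩
  · have : K.subgroupOf Y = L := Subgroup.eq_of_le_of_card_ge hKL (by rw [hcardK, ← hcardL]; exact hle)
    rw [this]; exact hL
  exfalso
  -- the diagonal case contradicts the maximality of the rank
  have hKle : Nat.card ↥K ≤ Nat.card ↥L := by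
    rw [← hcardK, ← hφr]
    exact Nat.card_le_card_of_surjective φ.rangeRestrict φ.rangeRestrict_surjective
  have hKeq : Nat.card ↥L' = Nat.card ↥K := le_antisymm hle (hcardL ▸ hKle)
  have hφinj : Function.Injective φ := by
    have hbij := (Nat.bijective_iff_surjective_and_card φ.rangeRestrict).mpr
      ⟨φ.rangeRestrict_surjective, by rw [← hcardL, hKeq, ← hcardK, hφr]⟩
    exact fun u v h => hbij.1 (Subtype.ext h)
  have hφeq : ∀ l : ↥L, φ l = (l : ↥Y) * (aY * l * aY⁻¹) := fun l => by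
    rw [hφ]; simp [CfsgLib.Local.PumpUp.orbProd]
  set La := MulAut.conj aY • L with hLa
  have hLac : Cfsg.IsComponent La := CfsgLib.Core.isComponent_conj_smul hL aY
  have hLne : L ≠ La := fun h => haL (CfsgLib.Core.conj_smul_eq_self_iff.mp h.symm)
  have hcomm := Subgroup.commutator_eq_bot_iff_le_centralizer.mp
    (CfsgLib.Core.components_commute hL hLac hLne)
  have hbY : ∀ c ∈ B, c ∈ Y := fun c hc => by
    haveI := hBel.1
    exact Subgroup.mem_centralizer_singleton_iff.mpr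
      (congrArg Subtype.val (mul_comm' (⟨c, hc⟩ : ↥B) ⟨b, hb⟩))
  have hBK : ∀ c (hc : c ∈ B) (l : ↥L),
      (⟨c, hbY c hc⟩ : ↥Y) * φ l * (⟨c, hbY c hc⟩ : ↥Y)⁻¹ = φ l := by
    intro c hc l
    have hm : φ l ∈ K.subgroupOf Y := hφr ▸ ⟨l, rfl⟩
    refine Subtype.ext ?_
    show c * (φ l : G) * c⁻¹ = φ l
    rw [← Subgroup.mem_centralizer_iff.mp (Subgroup.mem_inf.mp (hBle hc)).2 _
      (Subgroup.mem_subgroupOf.mp hm), mul_inv_cancel_right]
  have hca : ∀ c (hc : c ∈ B), Commute (⟨c, hbY c hc⟩ : ↥Y) aY := fun c hc =>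
    Subtype.ext (Subgroup.mem_centralizer_singleton_iff.mp (Subgroup.mem_inf.mp (hBle hc)).1)
  have hperfL := CfsgLib.Core.isPerfect_of_component hL
  have horb : ∀ c (hc : c ∈ B), MulAut.conj (⟨c, hbY c hc⟩ : ↥Y) • L = L ∨
      MulAut.conj (⟨c, hbY c hc⟩ : ↥Y) • L = La := by
    intro c hc
    set cY : ↥Y := ⟨c, hbY c hc⟩ with hcY
    by_contra hne
    obtain ⟨h1, h2⟩ := not_or.mp hne
    set L₂ := MulAut.conj cY • L with hL₂
    have hL₂c : Cfsg.IsComponent L₂ := CfsgLib.Core.isComponent_conj_smul hL cY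
    have hL₂a : Cfsg.IsComponent (MulAut.conj aY • L₂) := CfsgLib.Core.isComponent_conj_smul hL₂c aY
    have e : MulAut.conj aY • L₂ = MulAut.conj cY • La := by
      rw [hL₂, hLa, CfsgLib.Core.conj_smul_conj_smul, CfsgLib.Core.conj_smul_conj_smul,
        (hca c hc).eq]
    have h3 : MulAut.conj aY • L₂ ≠ L := fun h => h2 (by
      rw [hLa, ← h, CfsgLib.Core.conj_smul_conj_smul,
        show aY * aY = 1 from by rw [← sq]; exact haY2 ▸ pow_orderOf_eq_one aY,
        CfsgLib.Core.conj_one_smul])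
    have hKc : K.subgroupOf Y ≤ Subgroup.centralizer (L : Set ↥Y) := by
      rw [← hφr]
      rintro _ ⟨l, rfl⟩
      rw [← hBK c hc l, hφeq]
      have m1 : cY * l * cY⁻¹ ∈ L₂ := ⟨l, l.2, rfl⟩
      have m2 : cY * (aY * l * aY⁻¹) * cY⁻¹ ∈ MulAut.conj aY • L₂ := e ▸ ⟨_, ⟨l, l.2, rfl⟩, rfl⟩
      rw [show cY * ((l : ↥Y) * (aY * l * aY⁻¹)) * cY⁻¹ =
        (cY * l * cY⁻¹) * (cY * (aY * l * aY⁻¹) * cY⁻¹) by group]
      exact mul_mem (Subgroup.commutator_eq_bot_iff_le_centralizer.mp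
          (CfsgLib.Core.components_commute hL₂c hL h1) m1)
        (Subgroup.commutator_eq_bot_iff_le_centralizer.mp
          (CfsgLib.Core.components_commute hL₂a hL h3) m2)
    refine CfsgLib.Core.component_ne_bot hL ?_
    rw [← hperfL, Subgroup.commutator_eq_bot_iff_le_centralizer]
    intro l hl
    have hk : φ ⟨l, hl⟩ ∈ Subgroup.centralizer (L : Set ↥Y) := hKc (hφr ▸ ⟨_, rfl⟩)
    rw [hφeq] at hk
    have hla : aY * l * aY⁻¹ ∈ Subgroup.centralizer (L : Set ↥Y) :=
      Subgroup.commutator_eq_bot_iff_le_centralizer.mp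
        (CfsgLib.Core.components_commute hLac hL hLne.symm) ⟨l, hl, rfl⟩
    simpa [mul_assoc] using mul_mem hk (inv_mem hla)
  -- the elements of `B` fixing `L` centralise `L`
  have hfixc : ∀ c (hc : c ∈ B), MulAut.conj (⟨c, hbY c hc⟩ : ↥Y) • L = L →
      (⟨c, hbY c hc⟩ : ↥Y) ∈ Subgroup.centralizer (L : Set ↥Y) := by
    intro c hc hfix
    set cY : ↥Y := ⟨c, hbY c hc⟩ with hcY
    have hN : cY ∈ Subgroup.normalizer (L : Set ↥Y) := CfsgLib.Core.conj_smul_eq_self_iff.mp hfix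
    rw [Subgroup.mem_centralizer_iff]
    intro l hl
    have hl' : cY * l * cY⁻¹ ∈ L := (Subgroup.mem_normalizer_iff.mp hN l).mp hl
    have : (⟨_, hl'⟩ : ↥L) = ⟨l, hl⟩ := hφinj (by
      conv_rhs => rw [← hBK c hc ⟨l, hl⟩]
      rw [hφ, hφ]
      exact CfsgLib.Local.Balanced.orbProd_conj (hca c hc) l 2)
    exact (mul_inv_eq_iff_eq_mul.mp (congrArg Subtype.val this)).symm
  set B₀ : Subgroup G := B ⊓ (Subgroup.centralizer (L : Set ↥Y)).map Y.subtype with hB₀
  have hB₀2 : Nat.card ↥B ≤ Nat.card ↥B₀ * 2 := by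
    by_cases hall : ∀ c (hc : c ∈ B), MulAut.conj (⟨c, hbY c hc⟩ : ↥Y) • L = L
    · have : B ≤ B₀ := fun c hc => Subgroup.mem_inf.mpr ⟨hc, ⟨_, hfixc c hc (hall c hc), rfl⟩⟩
      exact (Subgroup.card_le_of_le this).trans (Nat.le_mul_of_pos_right _ two_pos)
    rw [not_forall] at hall
    obtain ⟨c₀, hall⟩ := hall
    rw [not_forall] at hall
    obtain ⟨hc₀, hne₀⟩ := hall
    have hc₀L := (horb c₀ hc₀).resolve_left hne₀
    haveI := hBel.1
    have hsplit : ∀ c ∈ B, c ∈ B₀ ∨ c₀ * c ∈ B₀ := by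
      intro c hc
      rcases horb c hc with h | h
      · exact Or.inl (Subgroup.mem_inf.mpr ⟨hc, ⟨_, hfixc c hc h, rfl⟩⟩)
      · refine Or.inr (Subgroup.mem_inf.mpr ⟨mul_mem hc₀ hc, ⟨_, hfixc _ (mul_mem hc₀ hc) ?_, rfl⟩⟩)
        have e2 : (⟨c₀ * c, hbY _ (mul_mem hc₀ hc)⟩ : ↥Y) = ⟨c₀, hbY c₀ hc₀⟩ * ⟨c, hbY c hc⟩ := rfl
        have e3 : (⟨c₀, hbY c₀ hc₀⟩ : ↥Y) * ⟨c₀, hbY c₀ hc₀⟩ = 1 :=
          Subtype.ext (by show c₀ * c₀ = 1; rw [← sq]; exact hBel.2 c₀ hc₀)
        rw [e2, ← CfsgLib.Core.conj_smul_conj_smul, h, ← hc₀L, CfsgLib.Core.conj_smul_conj_smul,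
          e3, CfsgLib.Core.conj_one_smul]
    classical
    let f : ↥B → ↥B₀ ⊕ ↥B₀ := fun c => if h : (c : G) ∈ B₀ then Sum.inl ⟨c, h⟩
      else Sum.inr ⟨c₀ * c, (hsplit c c.2).resolve_left h⟩
    have hf : Function.Injective f := by
      intro u v huv
      simp only [f] at huv
      by_cases h1 : (u : G) ∈ B₀ <;> by_cases h2 : (v : G) ∈ B₀ <;> simp [h1, h2] at huv
      · exact huv
      · exact huv
    have := Nat.card_le_card_of_injective f hf
    rw [Nat.card_sum] at this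
    omega
  -- an elementary abelian `2`-subgroup of `La` of order at least `4`
  obtain ⟨A, hAc, hA2, hA4⟩ : ∃ A : Subgroup ↥K, IsMulCommutative A ∧ (∀ x ∈ A, x ^ 2 = 1) ∧
      2 < Nat.card ↥A := by
    by_contra hne
    refine hrk fun A hA hA2 => ?_
    rw [pow_one]
    by_contra hlt
    exact hne ⟨A, hA, hA2, not_le.mp hlt⟩
  let eK : ↥K →* ↥L := ((MonoidHom.ofInjective hφinj).symm.toMonoidHom.comp
    (MulEquiv.subgroupCongr hφr).symm.toMonoidHom).comp (Subgroup.subgroupOfEquivOfLe hKb).symm.toMonoidHom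
  have heKinj : Function.Injective eK := ((MonoidHom.ofInjective hφinj).symm.injective.comp
    (MulEquiv.subgroupCongr hφr).symm.injective).comp (Subgroup.subgroupOfEquivOfLe hKb).symm.injective
  let ψ : ↥A →* G := Y.subtype.comp ((MulAut.conj aY).toMonoidHom.comp
    (L.subtype.comp (eK.comp A.subtype)))
  have hψinj : Function.Injective ψ := fun u v h => Subtype.ext (heKinj (Subtype.ext
    ((MulAut.conj aY).injective (Subtype.ext h))))
  set V := ψ.range with hV
  have hVcard : Nat.card ↥V = Nat.card ↥A :=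
    (Nat.card_congr (MonoidHom.ofInjective hψinj).toEquiv).symm
  have hVLa : ∀ v ∈ V, ∃ y : ↥Y, y ∈ La ∧ (y : G) = v := by
    rintro _ ⟨x, rfl⟩
    exact ⟨_, ⟨_, (eK (A.subtype x)).2, rfl⟩, rfl⟩
  set D := Subgroup.centralizer ({b} : Set G) ⊓ Subgroup.centralizer (L' : Set G) with hD
  have hB₀D : B₀ ≤ D := by
    intro c hc
    obtain ⟨hcB, y, hy, rfl⟩ := Subgroup.mem_inf.mp hc
    refine Subgroup.mem_inf.mpr ⟨y.2, Subgroup.mem_centralizer_iff.mpr ?_⟩
    rintro _ ⟨l, hl, rfl⟩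
    exact congrArg Subtype.val (Subgroup.mem_centralizer_iff.mp hy l hl)
  have hVD : V ≤ D := by
    intro v hv
    obtain ⟨y, hy, rfl⟩ := hVLa v hv
    refine Subgroup.mem_inf.mpr ⟨y.2, Subgroup.mem_centralizer_iff.mpr ?_⟩
    rintro _ ⟨l, hl, rfl⟩
    exact congrArg Subtype.val (Subgroup.mem_centralizer_iff.mp
      (Subgroup.commutator_eq_bot_iff_le_centralizer.mp
        (CfsgLib.Core.components_commute hLac hL hLne.symm) hy) l hl)
  have hcV : ∀ c ∈ B₀, ∀ v ∈ V, c * v = v * c := by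
    intro c hc v hv
    obtain ⟨hcB, y', hy', rfl⟩ := Subgroup.mem_inf.mp hc
    obtain ⟨y, hy, rfl⟩ := hVLa v hv
    obtain ⟨l, hl, rfl⟩ := hy
    have h1 : Commute y' (l : ↥Y) := (Subgroup.mem_centralizer_iff.mp hy' l hl).symm
    have h2 : Commute y' aY := hca _ hcB
    exact congrArg Subtype.val ((h2.mul_right h1).mul_right h2.inv_right).eq
  have hinf : B₀ ⊓ V = ⊥ := by
    rw [Subgroup.eq_bot_iff_forall]
    intro c hc
    obtain ⟨hc0, hcv⟩ := Subgroup.mem_inf.mp hc
    obtain ⟨hcB, y', hy', rfl⟩ := Subgroup.mem_inf.mp hc0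
    obtain ⟨y, hy, hyy⟩ := hVLa _ hcv
    obtain rfl : y = y' := Subtype.ext hyy
    have hyL : y ∈ L := by
      obtain ⟨l, hl, hly⟩ := hy
      have hly' : aY * l * aY⁻¹ = y := hly
      have hay : Commute y aY := hca _ hcB
      have : l = y := by
        have h : aY⁻¹ * y * aY = y := by rw [mul_assoc, hay.eq, inv_mul_cancel_left]
        rw [← h, ← hly']; group
      exact this ▸ hl
    have h2 : φ ⟨y, hyL⟩ = φ 1 := by
      rw [map_one, hφeq]
      have hay : aY * y * aY⁻¹ = y := by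
        have hay2 : Commute y aY := hca _ hcB
        rw [← hay2.eq, mul_inv_cancel_right]
      show y * (aY * y * aY⁻¹) = 1
      rw [hay, ← sq]
      exact Subtype.ext (hBel.2 _ hcB)
    exact congrArg Subtype.val (congrArg (fun t : ↥L => (t : ↥Y)) (hφinj h2))
  have hcard := CfsgLib.Core.card_sup_mul_card_inf (A := B₀) (K := V) (fun c hc => by
    rw [Subgroup.mem_normalizer_iff]
    intro v
    constructor
    · intro hv; rw [hcV c hc v hv, mul_inv_cancel_right]; exact hv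
    · intro hv
      have := hcV c⁻¹ (inv_mem hc) _ hv
      have e : v = c * v * c⁻¹ := by
        calc v = c⁻¹ * (c * v * c⁻¹) * c := by group
          _ = _ := by rw [this]; group
      rwa [e])
  rw [hinf, Subgroup.card_bot, mul_one, hVcard] at hcard
  have hels : ∀ x ∈ B₀ ⊔ V, x ^ 2 = 1 := by
    intro x hx
    obtain ⟨c, hc, v, hv, rfl⟩ := CfsgLib.Local.PumpUp.exists_mul_eq (A := B₀) (B := V)
      (fun v hv => by
        rw [Subgroup.mem_normalizer_iff]
        intro c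
        constructor
        · intro hc; rw [← hcV c hc v hv, mul_inv_cancel_right]; exact hc
        · intro hc
          have := hcV _ hc v hv
          have e : c = v * c * v⁻¹ := by
            calc c = v⁻¹ * ((v * c * v⁻¹) * v) := by group
              _ = _ := by rw [this]; group
          rwa [e]) hx
    rw [(show Commute c v from hcV c hc v hv).mul_pow, hBel.2 c (Subgroup.mem_inf.mp hc).1, one_mul]
    obtain ⟨x', rfl⟩ := hv
    rw [← map_pow, show x' ^ 2 = 1 from Subtype.ext (hA2 x' x'.2), map_one]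
  obtain ⟨k, hk⟩ := IsPGroup.iff_card.mp
    (show IsPGroup 2 ↥B from fun x => ⟨1, by rw [pow_one]; exact Subtype.ext (hBel.2 x x.2)⟩)
  have hside : Cfsg.PRankLE 2 k ↥(Subgroup.centralizer ({a} : Set G) ⊓ Subgroup.centralizer (K : Set G)) := by
    intro E hEc hE2
    rw [← hk]
    refine le_of_eq_of_le (Subgroup.card_subtype _ E).symm
      (hBmax _ (Subgroup.map_subtype_le E) ⟨?_, ?_⟩)
    · haveI := hEc
      exact ⟨⟨by
        rintro ⟨_, u, hu, rfl⟩ ⟨_, v, hv, rfl⟩
        exact Subtype.ext (congrArg (fun t : ↥(Subgroup.centralizer ({a} : Set G) ⊓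
          Subgroup.centralizer (K : Set G)) => (t : G))
            (congrArg Subtype.val (mul_comm' (⟨u, hu⟩ : ↥E) ⟨v, hv⟩)))⟩⟩
    · rintro _ ⟨u, hu, rfl⟩
      rw [← map_pow, hE2 u hu, map_one]
  have hside' := hrank hKeq k hside
  set W := (B₀ ⊔ V).subgroupOf D with hW
  have hW2 : ∀ x ∈ W, x ^ 2 = 1 := fun x hx =>
    Subtype.ext (hels _ (Subgroup.mem_subgroupOf.mp hx))
  have hWc : IsMulCommutative ↥W := ⟨⟨fun u v => by
    have h1 : ∀ x : ↥W, x * x = 1 := fun x => Subtype.ext (by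
      show (x : ↥D) * x = 1
      rw [← sq]; exact hW2 _ x.2)
    have hinv : ∀ x : ↥W, x⁻¹ = x := fun x => inv_eq_of_mul_eq_one_right (h1 x)
    calc u * v = (u * v)⁻¹ := (hinv _).symm
      _ = v * u := by rw [mul_inv_rev, hinv, hinv]⟩⟩
  have hWle := hside' W hWc hW2
  rw [hW, Nat.card_congr (Subgroup.subgroupOfEquivOfLe (sup_le hB₀D hVD)).toEquiv, hcard, ← hk]
    at hWle
  have h0 : 0 < Nat.card ↥B₀ := Nat.card_pos
  nlinarith [hB₀2, hWle, hA4]


end Cfsg.Agent.S1305
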