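import Cfsg.Statements.S1306
import Cfsg.Agent.Lib.LocalBalanced

set_option autoImplicit false
open Cfsg
open scoped commutatorElement Pointwise

namespace Cfsg.Agent.S1306

/-- Let G be finite, x an involution and L ≤ C_G(x) a component of C_G(x). Suppose L is a component of C_G(y) for every involution y ∈ C_G(L), and ⁅L, g L g⁻¹⁆ ≠ 1 whenever g L g⁻¹ ≠ L. Then L is a standard subgroup of G. -/
theorem result {G : Type*} [Group G] [Finite G] (x : G) (hx : orderOf x = 2) (L : Subgroup G) (hLx : L ≤ Subgroup.centralizer ({x} : Set G)) (hL : Cfsg.IsComponent (L.subgroupOf (Subgroup.centralizer ({x} : Set G)))) (hne : ∀ y : G, orderOf y = 2 → y ∈ Subgroup.centralizer (L : Set G) → L ≤ Subgroup.centralizer ({y} : Set G) ∧ Cfsg.IsComponent (L.subgroupOf (Subgroup.centralizer ({y} : Set G)))) (hnc : ∀ g : G, L.map (MulAut.conj g).toMonoidHom ≠ L → ⁅L, L.map (MulAut.conj g).toMonoidHom⁆ ≠ ⊥) : Cfsg.IsStandardSubgroup L := by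
  have hxL : x ∈ Subgroup.centralizer (L : Set G) :=
    Subgroup.mem_centralizer_iff.mpr fun l hl =>
      (Subgroup.mem_centralizer_singleton_iff.mp (hLx hl))
  have hconj : ∀ (g : G) (y : G), y ∈ Subgroup.centralizer (L : Set G) → orderOf y = 2 →
      g * y * g⁻¹ ∈ Subgroup.centralizer (L : Set G) →
      L.map (MulAut.conj g).toMonoidHom = L := by
    intro g y hy hy2 hgy
    by_contra hne'
    obtain ⟨hLy, hLc⟩ := hne y hy2 hy
    obtain ⟨hLgy, hLgc⟩ := hne (g * y * g⁻¹) (by
      rw [← MulAut.conj_apply, MulEquiv.orderOf_eq, hy2]) hgy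
    set C₁ := Subgroup.centralizer ({y} : Set G) with hC₁
    set C₂ := Subgroup.centralizer ({g * y * g⁻¹} : Set G) with hC₂
    have heq : C₁.map (MulAut.conj g).toMonoidHom = C₂ := by
      ext z
      rw [Subgroup.mem_map_equiv, hC₁, hC₂, Subgroup.mem_centralizer_singleton_iff,
        Subgroup.mem_centralizer_singleton_iff, MulAut.conj_symm_apply]
      constructor <;> intro h
      · calc z * (g * y * g⁻¹) = g * (g⁻¹ * z * g * y) * g⁻¹ := by group
          _ = g * (y * (g⁻¹ * z * g)) * g⁻¹ := by rw [h]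
          _ = _ := by group
      · calc g⁻¹ * z * g * y = g⁻¹ * (z * (g * y * g⁻¹)) * g := by group
          _ = g⁻¹ * (g * y * g⁻¹ * z) * g := by rw [h]
          _ = _ := by group
    have hLg : L.map (MulAut.conj g).toMonoidHom ≤ C₂ := heq ▸ Subgroup.map_mono hLy
    set e := (C₁.equivMapOfInjective (MulAut.conj g).toMonoidHom
      (MulEquiv.injective (MulAut.conj g))).trans (MulEquiv.subgroupCongr heq) with he
    have hc2 : Cfsg.IsComponent ((L.map (MulAut.conj g).toMonoidHom).subgroupOf C₂) := by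
      have h := CfsgLib.Core.isComponent_map_mulEquiv e hLc
      convert h using 1
      ext z
      constructor
      · rintro ⟨l, hl, hlz⟩
        exact ⟨⟨l, hLy hl⟩, Subgroup.mem_subgroupOf.mpr hl, Subtype.ext hlz⟩
      · rintro ⟨w, hw, rfl⟩
        exact ⟨(w : G), Subgroup.mem_subgroupOf.mp hw, rfl⟩
    have hne2 : L.subgroupOf C₂ ≠ (L.map (MulAut.conj g).toMonoidHom).subgroupOf C₂ := fun h =>
      hne' (by rw [← Subgroup.map_subgroupOf_eq_of_le hLg, ← h,
        Subgroup.map_subgroupOf_eq_of_le hLgy])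
    refine hnc g hne' ?_
    have h := CfsgLib.Core.components_commute hLgc hc2 hne2
    rw [CfsgLib.Core.commutator_map_subgroupOf hLgy hLg |>.symm, h, Subgroup.map_bot]
  have hev : Even (Nat.card ↥(Subgroup.centralizer (L : Set G))) :=
    even_iff_two_dvd.mpr (hx ▸ Subgroup.orderOf_dvd_natCard _ hxL)
  have hnorm : ∀ g : G, L.map (MulAut.conj g).toMonoidHom = L →
      g ∈ Subgroup.normalizer (L : Set G) :=
    fun g h => CfsgLib.Local.Glauberman.mem_normalizer_of_map_le h.le
  have hNN : Subgroup.normalizer (L : Set G) =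
      Subgroup.normalizer (Subgroup.centralizer (L : Set G) : Set G) :=
    le_antisymm (CfsgLib.Core.le_normalizer_centralizer le_rfl) fun g hg =>
      hnorm g (hconj g x hxL hx ((Subgroup.mem_normalizer_iff.mp hg x).mp hxL))
  refine ⟨CfsgLib.Core.quasisimple_congr (Subgroup.subgroupOfEquivOfLe hLx) hL.2,
    ⟨hev, fun g hg => ?_⟩, hnc, hNN⟩
  by_contra hodd
  rw [Nat.not_odd_iff_even, even_iff_two_dvd] at hodd
  haveI : Fact (Nat.Prime 2) := ⟨Nat.prime_two⟩
  obtain ⟨⟨z, hz⟩, hz2⟩ := exists_prime_orderOf_dvd_card' 2 hodd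
  rw [Subgroup.orderOf_mk] at hz2
  obtain ⟨hz1, w, hw, hwz⟩ := Subgroup.mem_inf.mp hz
  have hw2 : orderOf w = 2 := by rw [← hz2, ← hwz]; exact (MulEquiv.orderOf_eq _ w).symm
  refine hg (hNN ▸ hnorm g (hconj g w hw hw2 ?_))
  have : g * w * g⁻¹ = z := hwz
  rw [this]; exact hz1


end Cfsg.Agent.S1306
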