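import Cfsg.Statements.S1307
import Cfsg.Agent.Lib.LocalBalanced
import Cfsg.Agent.Lib.ZStarCorollaries
import Cfsg.Agent.Lib.ZStarTwoGroup

set_option autoImplicit false
open Cfsg
open scoped commutatorElement Pointwise

namespace Cfsg.Agent.S1307

/-- Let G be finite, x an involution and L ≤ C_G(x) a component of C_G(x) of even order and 2-rank 1, such that L is a component of C_G(y) for every involution y ∈ C_G(L). Then some involution of L is a classical involution of G. -/
theorem result {G : Type*} [Group G] [Finite G] (x : G) (hx : orderOf x = 2) (L : Subgroup G) (hLx : L ≤ Subgroup.centralizer ({x} : Set G)) (hL : Cfsg.IsComponent (L.subgroupOf (Subgroup.centralizer ({x} : Set G)))) (heven : Even (Nat.card ↥L)) (hrk : Cfsg.PRankLE 2 1 ↥L) (hne : ∀ y : G, orderOf y = 2 → y ∈ Subgroup.centralizer (L : Set G) → L ≤ Subgroup.centralizer ({y} : Set G) ∧ Cfsg.IsComponent (L.subgroupOf (Subgroup.centralizer ({y} : Set G)))) : ∃ t ∈ L, Cfsg.IsClassicalInvolution t :=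 by
  haveI : Fact (Nat.Prime 2) := ⟨Nat.prime_two⟩
  classical
  have hLq : Cfsg.IsQuasisimple ↥L :=
    CfsgLib.Core.quasisimple_congr (Subgroup.subgroupOfEquivOfLe hLx) hL.2
  haveI := hLq.1
  haveI := CfsgLib.Core.quasisimple_nontrivial hLq
  obtain ⟨S⟩ := (inferInstance : Nonempty (Sylow 2 ↥L))
  have hdvd : 2 ∣ Nat.card ↥L := even_iff_two_dvd.mp heven
  have hS2 : 2 ∣ Nat.card ↥(S : Subgroup ↥L) := S.dvd_card_of_dvd_card hdvd
  haveI : Nontrivial ↥(S : Subgroup ↥L) := Finite.one_lt_card_iff_nontrivial.mp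
    (Nat.lt_of_lt_of_le one_lt_two (Nat.le_of_dvd Nat.card_pos hS2))
  obtain ⟨z, hz⟩ := exists_prime_orderOf_dvd_card' (G := ↥(Subgroup.center ↥(S : Subgroup ↥L))) 2 (by
    obtain ⟨k, hk0, hk⟩ : ∃ k, 0 < k ∧ Nat.card ↥(Subgroup.center ↥(S : Subgroup ↥L)) = 2 ^ k := by
      obtain ⟨k, hk⟩ := IsPGroup.iff_card.mp (S.isPGroup'.to_subgroup (Subgroup.center ↥(S : Subgroup ↥L)))
      haveI := S.isPGroup'.center_nontrivial
      refine ⟨k, Nat.pos_of_ne_zero fun h => ?_, hk⟩
      rw [h, pow_zero] at hk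
      exact (Finite.one_lt_card_iff_nontrivial.mpr inferInstance).ne' hk
    rw [hk]; exact dvd_pow_self 2 hk0.ne')
  set z' : ↥L := ((z : ↥(S : Subgroup ↥L)) : ↥L) with hz'
  have hz2 : orderOf z' = 2 := by rw [hz', Subgroup.orderOf_coe, Subgroup.orderOf_coe, hz]
  have hzS : z' ∈ (S : Subgroup ↥L) := (z : ↥(S : Subgroup ↥L)).2
  have huniq : ∀ w ∈ (S : Subgroup ↥L), orderOf w = 2 → w = z' := by
    intro w hw hw2
    by_contra hne'
    have hc : Commute w z' := congrArg Subtype.val (Subgroup.mem_center_iff.mp z.2 ⟨w, hw⟩)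
    set A := Subgroup.closure ({w, z'} : Set ↥L) with hA
    haveI hAc : IsMulCommutative ↥A := Subgroup.isMulCommutative_closure (by
      rintro a (rfl | rfl) b (rfl | rfl)
      · rfl
      · exact hc.eq
      · exact hc.eq.symm
      · rfl)
    have hsq : ∀ a ∈ A, a ^ 2 = 1 := by
      intro a ha
      induction ha using Subgroup.closure_induction with
      | mem y hy =>
        rcases hy with rfl | rfl
        · exact hw2 ▸ pow_orderOf_eq_one _
        · exact hz2 ▸ pow_orderOf_eq_one _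
      | one => exact one_pow 2
      | mul y y' hy hy' hy1 hy2 =>
        rw [(show Commute y y' from congrArg Subtype.val
          (mul_comm' (⟨y, hy⟩ : ↥A) ⟨y', hy'⟩)).mul_pow, hy1, hy2, one_mul]
      | inv y _ hy1 => rw [inv_pow, hy1, inv_one]
    have hle := hrk A hAc hsq
    rw [pow_one] at hle
    have h3 : ({1, w, z'} : Finset ↥L).card ≤ Nat.card ↥A := by
      rw [← Nat.card_eq_finsetCard]
      refine Nat.card_le_card_of_injective (fun y => (⟨y.1, ?_⟩ : ↥A)) fun y y' h =>
        Subtype.ext (congrArg (fun t : ↥A => (t : ↥L)) h)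
      have hy := y.2
      simp only [Finset.mem_insert, Finset.mem_singleton] at hy
      rcases hy with h | h | h <;> rw [h]
      · exact one_mem A
      · exact Subgroup.subset_closure (Or.inl rfl)
      · exact Subgroup.subset_closure (Or.inr rfl)
    have h4 : ({1, w, z'} : Finset ↥L).card = 3 := by
      have hw1 : (1 : ↥L) ≠ w := fun h => by rw [← h, orderOf_one] at hw2; omega
      have hz1 : (1 : ↥L) ≠ z' := fun h => by rw [← h, orderOf_one] at hz2; omega
      simp [Finset.card_insert_of_notMem, hw1, hz1, hne']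
    omega
  have huniq' : ∀ t : ↥(S : Subgroup ↥L), orderOf t = 2 → t = ⟨z', hzS⟩ := fun t ht =>
    Subtype.ext (huniq t t.2 (by rw [Subgroup.orderOf_coe]; exact ht))
  rcases CfsgLib.TwoGroup.cyclic_or_quaternion S.2 huniq' with hcyc | ⟨n, he⟩
  · exfalso
    have hmin : (Nat.card ↥L).minFac = 2 := (Nat.minFac_eq_two_iff _).2 hdvd
    have hcomp := MonoidHom.ker_transferSylow_isComplement' S
      (IsCyclic.normalizer_le_centralizer hmin hcyc)
    set K := (MonoidHom.transferSylow S (IsCyclic.normalizer_le_centralizer hmin hcyc)).ker with hK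
    have hi : K.index = Nat.card ↥(S : Subgroup ↥L) := hcomp.symm.index_eq_card
    obtain ⟨k, hk⟩ := IsPGroup.iff_card.mp S.isPGroup'
    haveI : Group.IsNilpotent (↥L ⧸ K) := (IsPGroup.of_card (p := 2) (n := k) (by
      rw [← Subgroup.index_eq_card, hi, hk])).isNilpotent
    haveI : Group.IsPerfect (↥L ⧸ K) :=
      Group.IsPerfect.ofSurjective (f := QuotientGroup.mk' K) (QuotientGroup.mk'_surjective K)
    haveI : Nontrivial (↥L ⧸ K) := by
      rw [← Finite.one_lt_card_iff_nontrivial, ← Subgroup.index_eq_card, hi]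
      exact Finite.one_lt_card_iff_nontrivial.mpr inferInstance
    exact Group.IsPerfect.not_isSolvable (↥L ⧸ K) inferInstance
  have hzs := CfsgLib.ZStar.inZStar_of_iso (CfsgLib.ZStar.iso_of_unique S hzS hz2 huniq)
  haveI := CfsgLib.Core.normal_pPrimeCore (G := ↥L) 2
  have hOc : Cfsg.pPrimeCore 2 ↥L ≤ Subgroup.center ↥L :=
    (CfsgLib.Core.quasisimple_normal_cases hLq _).resolve_left fun h => by
      have h1 := CfsgLib.Core.coprime_card_pPrimeCore (G := ↥L) 2
      rw [h, Subgroup.card_top] at h1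
      exact Nat.prime_two.coprime_iff_not_dvd.mp h1.symm hdvd
  have hzL : (z' : G) ∈ Subgroup.centralizer (L : Set G) := by
    refine CfsgLib.Local.Balanced.centralizes_of_mod_center
      ((Subgroup.isPerfect_iff).mp hLq.1) fun l hl => Subgroup.mem_inf.mpr
        ⟨mul_mem (mul_mem (mul_mem z'.2 hl) (inv_mem z'.2)) (inv_mem hl), ?_⟩
    have hm : z' * ⟨l, hl⟩ * z'⁻¹ * (⟨l, hl⟩ : ↥L)⁻¹ ∈ Subgroup.center ↥L := by
      have h1 : (⟨l, hl⟩ * z' * (⟨l, hl⟩ : ↥L)⁻¹ * z'⁻¹)⁻¹ ∈ Subgroup.center ↥L :=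
        inv_mem (hOc (hzs ⟨l, hl⟩))
      simpa [mul_assoc] using h1
    rw [Subgroup.mem_centralizer_iff]
    exact fun m hm' => congrArg Subtype.val (Subgroup.mem_center_iff.mp hm ⟨m, hm'⟩)
  have hz2G : orderOf (z' : G) = 2 := by rw [Subgroup.orderOf_coe, hz2]
  obtain ⟨hLz, hLc⟩ := hne _ hz2G hzL
  exact ⟨z', z'.2, hz2G, L, hLz, z'.2, hLc.1, S, n, he⟩


end Cfsg.Agent.S1307
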