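import Cfsg.Statements.S1314


set_option autoImplicit false
open Cfsg
open scoped commutatorElement Pointwise

namespace Cfsg.Agent.S1314

/-- Let x be an involution of a group G and L a perfect subgroup with ⁅L, x L x⁻¹⁆ = 1. Then l ↦ l (x l x⁻¹) is a group homomorphism π from L to G whose kernel is central in L and whose image lies in C_G(x); and the commutator subgroup of C_{L ⊔ xLx⁻¹}(x) equals the image of π. -/
theorem result {G : Type*} [Group G] [Finite G] (x : G) (hx : orderOf x = 2) (L : Subgroup G) (hperf : ⁅L, L⁆ = L) (hcomm : ⁅L, L.map (MulAut.conj x).toMonoidHom⁆ = ⊥) : ∃ π : ↥L →* G, (∀ l : ↥L, π l = (l : G) * (x * (l : G) * x⁻¹)) ∧ π.ker ≤ Subgroup.center ↥L ∧ π.range ≤ Subgroup.centralizer ({x} : Set G) ∧ ⁅(L ⊔ L.map (MulAut.conj x).toMonoidHom) ⊓ Subgroup.centralizer ({x} : Set G), (L ⊔ L.map (MulAut.conj x).toMonoidHom) ⊓ Subgroup.centralizer ({x} : Set G)⁆ = π.range := by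
  classical
  have hxx : x * x = 1 := by rw [← pow_two, ← hx, pow_orderOf_eq_one]
  have hxi : x⁻¹ = x := inv_eq_of_mul_eq_one_right hxx
  set L' := L.map (MulAut.conj x).toMonoidHom with hL'
  rw [Subgroup.commutator_eq_bot_iff_le_centralizer] at hcomm
  have hc : ∀ l ∈ L, ∀ m ∈ L, Commute l (x * m * x⁻¹) := fun l hl m hm => (hcomm hl (x * m * x⁻¹) ⟨m, hm, rfl⟩).symm
  let π : ↥L →* G :=
    { toFun := fun l => (l : G) * (x * (l : G) * x⁻¹)
      map_one' := by simp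
      map_mul' := fun a b => by
        show (a : G) * b * (x * ((a : G) * b) * x⁻¹) = a * (x * a * x⁻¹) * (b * (x * b * x⁻¹))
        rw [show (a : G) * (x * a * x⁻¹) * (b * (x * b * x⁻¹)) = a * ((x * a * x⁻¹) * b) * (x * b * x⁻¹) by group,
          ← (hc b b.2 a a.2).eq]
        group }
  have hπ : ∀ l : ↥L, π l = (l : G) * (x * (l : G) * x⁻¹) := fun l => rfl
  have hcen : π.range ≤ Subgroup.centralizer ({x} : Set G) := by
    rintro _ ⟨l, rfl⟩
    rw [Subgroup.mem_centralizer_singleton_iff, hπ]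
    calc (l : G) * (x * l * x⁻¹) * x = x * l * x⁻¹ * l * x := by rw [(hc l l.2 l l.2).eq]
      _ = x * ((l : G) * (x * l * x⁻¹)) := by rw [hxi]; group
  refine ⟨π, hπ, fun l hl => ?_, hcen, le_antisymm ?_ ?_⟩
  · rw [Subgroup.mem_center_iff]
    intro m
    rw [MonoidHom.mem_ker, hπ, mul_eq_one_iff_eq_inv] at hl
    refine Subtype.ext ?_
    show (m : G) * l = l * m
    rw [hl]
    exact ((hc m m.2 l l.2).inv_right).eq
  · -- an element fixed by `x` is in the image up to a central element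
    have hform : ∀ c ∈ (L ⊔ L') ⊓ Subgroup.centralizer ({x} : Set G), ∃ (l : ↥L) (w : G), c = π l * w ∧ ∀ y ∈ L ⊔ L', w * y = y * w := by
      rintro c ⟨hc1, hc2⟩
      have hL'N : L' ≤ Subgroup.normalizer (L : Set G) := (Subgroup.le_centralizer_iff.1 hcomm).trans (Subgroup.centralizer_le_normalizer _)
      have hc1' : c ∈ ((L ⊔ L' : Subgroup G) : Set G) := hc1
      rw [Subgroup.coe_mul_of_right_le_normalizer_left L L' hL'N] at hc1'
      obtain ⟨l, hl, _, ⟨m, hm, rfl⟩, rfl⟩ := hc1'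
      have hc3 : l * (x * m * x⁻¹) * x = x * (l * (x * m * x⁻¹)) := Subgroup.mem_centralizer_singleton_iff.1 hc2
      set z := m⁻¹ * l with hz
      have hzz : z = x * (l * m⁻¹) * x⁻¹ := by
        have e : l * (x * m * x⁻¹) = x * l * x⁻¹ * m := by
          calc l * (x * m * x⁻¹) = x * (l * (x * m * x⁻¹)) * x⁻¹ := by rw [← hc3]; group
            _ = x * l * x * m * (x⁻¹ * x⁻¹) := by group
            _ = x * l * x⁻¹ * m := by rw [← mul_inv_rev, hxx, inv_one, mul_one, hxi]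
        calc z = m⁻¹ * (l * (x * m * x⁻¹)) * (x * m⁻¹ * x⁻¹) := by rw [hz]; group
          _ = m⁻¹ * (x * l * x⁻¹ * m) * (x * m⁻¹ * x⁻¹) := by rw [e]
          _ = m⁻¹ * (m * (x * l * x⁻¹)) * (x * m⁻¹ * x⁻¹) := by rw [(hc m hm l hl).eq]
          _ = x * (l * m⁻¹) * x⁻¹ := by group
      have hzL : z ∈ L := L.mul_mem (L.inv_mem hm) hl
      have hzL' : ∀ y ∈ L, Commute z y := fun y hy => by
        rw [hzz]; exact (hc y hy _ (L.mul_mem hl (L.inv_mem hm))).symm
      refine ⟨⟨l, hl⟩, x * z⁻¹ * x⁻¹, ?_, ?_⟩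
      · show l * (x * m * x⁻¹) = l * (x * l * x⁻¹) * (x * z⁻¹ * x⁻¹)
        rw [hz]; group
      · have hsup : L ⊔ L' ≤ Subgroup.centralizer ({x * z⁻¹ * x⁻¹} : Set G) := by
          refine sup_le (fun y hy => Subgroup.mem_centralizer_singleton_iff.2 (hc y hy _ (L.inv_mem hzL)).eq) ?_
          rintro _ ⟨y, hy, rfl⟩
          refine Subgroup.mem_centralizer_singleton_iff.2 ?_
          show x * y * x⁻¹ * (x * z⁻¹ * x⁻¹) = x * z⁻¹ * x⁻¹ * (x * y * x⁻¹)
          calc x * y * x⁻¹ * (x * z⁻¹ * x⁻¹) = x * (y * z⁻¹) * x⁻¹ := by group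
            _ = x * (z⁻¹ * y) * x⁻¹ := by rw [((hzL' y hy).inv_left).eq]
            _ = _ := by group
        exact fun y hy => (Subgroup.mem_centralizer_singleton_iff.1 (hsup hy)).symm
    rw [Subgroup.commutator_le]
    intro a ha b hb
    obtain ⟨la, wa, rfl, hwa⟩ := hform a ha
    obtain ⟨lb, wb, rfl, hwb⟩ := hform b hb
    have hmem : ∀ l : ↥L, π l ∈ L ⊔ L' := fun l =>
      Subgroup.mul_mem _ (Subgroup.mem_sup_left l.2) (Subgroup.mem_sup_right ⟨l, l.2, rfl⟩)
    have hwbmem : wb ∈ L ⊔ L' := by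
      have := Subgroup.mul_mem _ (Subgroup.inv_mem _ (hmem lb)) hb.1
      rwa [inv_mul_cancel_left] at this
    have e : ⁅π la * wa, π lb * wb⁆ = ⁅π la, π lb⁆ := by
      simp only [commutatorElement_def, mul_inv_rev]
      calc π la * wa * (π lb * wb) * (wa⁻¹ * (π la)⁻¹) * (wb⁻¹ * (π lb)⁻¹)
          = π la * (wa * (π lb * wb)) * wa⁻¹ * ((π la)⁻¹ * wb⁻¹) * (π lb)⁻¹ := by group
        _ = π la * ((π lb * wb) * wa) * wa⁻¹ * ((π la)⁻¹ * wb⁻¹) * (π lb)⁻¹ := by rw [hwa _ (Subgroup.mul_mem _ (hmem lb) hwbmem)]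
        _ = π la * π lb * (wb * (π la)⁻¹) * wb⁻¹ * (π lb)⁻¹ := by group
        _ = π la * π lb * ((π la)⁻¹ * wb) * wb⁻¹ * (π lb)⁻¹ := by rw [hwb _ (Subgroup.inv_mem _ (hmem la))]
        _ = π la * π lb * (π la)⁻¹ * (π lb)⁻¹ := by group
    rw [e, ← map_commutatorElement]
    exact ⟨_, rfl⟩
  · have h1 : π.range = ⁅π.range, π.range⁆ := by
      rw [MonoidHom.range_eq_map, ← Subgroup.map_commutator]
      congr 1
      apply Subgroup.map_injective L.subtype_injective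
      rw [Subgroup.map_commutator, ← MonoidHom.range_eq_map, Subgroup.range_subtype, hperf]
    rw [h1]
    have hle : π.range ≤ (L ⊔ L') ⊓ Subgroup.centralizer ({x} : Set G) := le_inf (by
      rintro _ ⟨l, rfl⟩
      exact Subgroup.mul_mem _ (Subgroup.mem_sup_left l.2) (Subgroup.mem_sup_right ⟨l, l.2, rfl⟩)) hcen
    exact Subgroup.commutator_mono hle hle

end Cfsg.Agent.S1314
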