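import Cfsg.Statements.S1316
import Cfsg.Agent.Lib.CoreLayer

set_option autoImplicit false
open Cfsg

namespace Cfsg.Agent.S1316

/-- For a finite group X, E(X) equals the intersection of the derived series of F*(X) (its last term). -/
theorem result {X : Type*} [Group X] [Finite X] : (⨅ n : ℕ, (derivedSeries ↥(Cfsg.generalizedFittingSubgroup X) n).map (Cfsg.generalizedFittingSubgroup X).subtype) = Cfsg.layer X := by
  set F := Cfsg.generalizedFittingSubgroup X with hF
  set E := Cfsg.layer X with hE
  have hEF : E ≤ F := CfsgLib.Core.layer_le_generalizedFitting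
  haveI : E.Normal := CfsgLib.Core.normal_layer
  apply le_antisymm
  · haveI := CfsgLib.Core.isNilpotent_fittingSubgroup (G := X)
    let f : ↥(Cfsg.fittingSubgroup X) →* X ⧸ E :=
      (QuotientGroup.mk' E).comp (Cfsg.fittingSubgroup X).subtype
    let g : ↥F →* X ⧸ E := (QuotientGroup.mk' E).comp F.subtype
    have hg : g.range = f.range := by
      rw [MonoidHom.range_comp, MonoidHom.range_comp, Subgroup.range_subtype,
        Subgroup.range_subtype, hF, Cfsg.generalizedFittingSubgroup, Subgroup.map_sup,
        ← hE, QuotientGroup.map_mk'_self, bot_sup_eq]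
    haveI : Group.IsSolvable ↥g.range := by
      rw [hg]
      exact Group.isSolvable_of_surjective f.rangeRestrict_surjective
    obtain ⟨n, hn⟩ := (inferInstance : Group.IsSolvable ↥g.range).solvable
    refine iInf_le_of_le n ?_
    rintro x ⟨y, hy, rfl⟩
    have h1 : g.rangeRestrict y ∈ derivedSeries ↥g.range n :=
      map_derivedSeries_le_derivedSeries g.rangeRestrict n ⟨y, hy, rfl⟩
    rw [hn, Subgroup.mem_bot] at h1
    have h2 := congrArg Subtype.val h1
    exact (QuotientGroup.eq_one_iff _).mp h2
  · refine le_iInf fun n => ?_
    induction n with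
    | zero => rwa [derivedSeries_zero, ← MonoidHom.range_eq_map, Subgroup.range_subtype]
    | succ n ih =>
      rw [derivedSeries_succ, Subgroup.map_commutator, hE, ← CfsgLib.Core.layer_perfect]
      exact Subgroup.commutator_mono ih ih

end Cfsg.Agent.S1316
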