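import Cfsg.Statements.S1317
import Cfsg.Agent.Lib.CoreLayer

set_option autoImplicit false
open Cfsg

namespace Cfsg.Agent.S1317

/-- For a finite group X, the centre of the layer E(X) is F(X) ∩ E(X). -/
theorem result {X : Type*} [Group X] [Finite X] : (Subgroup.center ↥(Cfsg.layer X)).map (Cfsg.layer X).subtype = Cfsg.fittingSubgroup X ⊓ Cfsg.layer X := by
  haveI := CfsgLib.Core.characteristic_layer (G := X)
  apply le_antisymm
  · refine le_inf ?_ (Subgroup.map_subtype_le _)
    haveI : ((Subgroup.center ↥(Cfsg.layer X)).map (Cfsg.layer X).subtype).Normal := inferInstance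
    refine CfsgLib.Core.le_fittingSubgroup inferInstance ?_
    haveI : Group.IsNilpotent ↥(Subgroup.center ↥(Cfsg.layer X)) :=
      Subgroup.isNilpotent_of_ker_le_center
        (1 : ↥(Subgroup.center ↥(Cfsg.layer X)) →* ↥(⊥ : Subgroup X))
        fun c _ => Subgroup.mem_center_iff.mpr fun d =>
          Subtype.ext (Subgroup.mem_center_iff.mp c.2 d)
    exact (Group.isNilpotent_congr ((Subgroup.center ↥(Cfsg.layer X)).equivMapOfInjective _
      (Cfsg.layer X).subtype_injective)).mp inferInstance
  · intro x hx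
    obtain ⟨hxF, hxE⟩ := Subgroup.mem_inf.mp hx
    refine ⟨⟨x, hxE⟩, Subgroup.mem_center_iff.mpr fun e => Subtype.ext ?_, rfl⟩
    have h := Subgroup.commutator_eq_bot_iff_le_centralizer.mp
      (CfsgLib.Core.commutator_layer_fittingSubgroup (G := X)) e.2
    exact (Subgroup.mem_centralizer_iff.mp h x hxF).symm

end Cfsg.Agent.S1317
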