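import Cfsg.Statements.S1320
import Cfsg.Agent.Lib.CoreLayer

set_option autoImplicit false
open Cfsg

namespace Cfsg.Agent.S1320

/-- Let B be a normal subgroup of the finite group A. Then F*(A) ∩ B = F*(B). -/
theorem result {A : Type*} [Group A] [Finite A] (B : Subgroup A) [B.Normal] : Cfsg.generalizedFittingSubgroup A ⊓ B = (Cfsg.generalizedFittingSubgroup ↥B).map B.subtype := by
  haveI := CfsgLib.Core.isNilpotent_fittingSubgroup (G := A)
  have hB : B.IsSubnormal := (inferInstance : B.Normal).isSubnormal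
  apply le_antisymm
  · set E1 : Subgroup A := sSup {K | Cfsg.IsComponent K ∧ K ≤ B} with hE1
    set E2 : Subgroup A := sSup {K | Cfsg.IsComponent K ∧ ¬ K ≤ B} with hE2
    have hE2B : E2 ≤ Subgroup.centralizer (B : Set A) := sSup_le fun K hK =>
      Subgroup.commutator_eq_bot_iff_le_centralizer.mp
        ((CfsgLib.Core.component_le_or_commutator_eq_bot hK.1 hB).resolve_left hK.2)
    haveI hE2n : E2.Normal := ⟨fun x hx g => by
      have h1 : E2.map (MulAut.conj g).toMonoidHom ≤ E2 := by
        conv_lhs => rw [hE2, sSup_eq_iSup', Subgroup.map_iSup]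
        refine iSup_le fun K => le_sSup ⟨CfsgLib.Core.isComponent_map_mulEquiv _ K.2.1, ?_⟩
        intro hle
        refine K.2.2 fun k hk => ?_
        have := (inferInstance : B.Normal).conj_mem _ (hle ⟨k, hk, rfl⟩) g⁻¹
        simpa [mul_assoc] using this
      exact h1 ⟨x, hx, rfl⟩⟩
    haveI := CfsgLib.Core.normal_fittingSubgroup (G := A)
    have hE1B : E1 ≤ B := sSup_le fun K hK => hK.2
    have hE1' : E1 ≤ (Cfsg.generalizedFittingSubgroup ↥B).map B.subtype := sSup_le fun K hK => by
      have h := (CfsgLib.Core.component_le_layer (CfsgLib.Core.IsComponent_subgroupOf hK.1 hK.2)).trans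
        CfsgLib.Core.layer_le_generalizedFitting
      have h' := Subgroup.map_mono (f := B.subtype) h
      rwa [Subgroup.map_subgroupOf_eq_of_le hK.2] at h'
    have hsplit : Cfsg.generalizedFittingSubgroup A ≤ E1 ⊔ (E2 ⊔ Cfsg.fittingSubgroup A) := by
      refine sup_le (sSup_le fun K hK => ?_) (le_sup_of_le_right le_sup_right)
      by_cases h : K ≤ B
      · exact le_sup_of_le_left (le_sSup ⟨hK, h⟩)
      · exact le_sup_of_le_right (le_sup_of_le_left (le_sSup ⟨hK, h⟩))
    intro x hx
    obtain ⟨hxF, hxB⟩ := Subgroup.mem_inf.mp hx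
    obtain ⟨e, he, y, hy, rfl⟩ := Subgroup.mem_sup_of_normal_right.mp (hsplit hxF)
    have hyB : y ∈ B := by simpa using mul_mem (inv_mem (hE1B he)) hxB
    refine mul_mem (hE1' he) (Subgroup.map_mono CfsgLib.Core.fitting_le_generalizedFitting ?_)
    refine ⟨⟨y, hyB⟩, ?_, rfl⟩
    haveI hDn : (((E2 ⊔ Cfsg.fittingSubgroup A).subgroupOf B)).Normal := inferInstance
    refine CfsgLib.Core.le_fittingSubgroup hDn ?_ hy
    let g : ↥((E2 ⊔ Cfsg.fittingSubgroup A).subgroupOf B) →*
        ↥((Cfsg.fittingSubgroup A).map (QuotientGroup.mk' E2)) :=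
      ((QuotientGroup.mk' E2).comp (B.subtype.comp
        ((E2 ⊔ Cfsg.fittingSubgroup A).subgroupOf B).subtype)).codRestrict _ fun z => by
        have := Subgroup.mem_map_of_mem (QuotientGroup.mk' E2) (Subgroup.mem_subgroupOf.1 z.2)
        rwa [Subgroup.map_sup, QuotientGroup.map_mk'_self, bot_sup_eq] at this
    haveI : Group.IsNilpotent ↥((Cfsg.fittingSubgroup A).map (QuotientGroup.mk' E2)) :=
      Group.nilpotent_of_surjective ((QuotientGroup.mk' E2).subgroupMap _)
        (MonoidHom.subgroupMap_surjective _ _)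
    refine Subgroup.isNilpotent_of_ker_le_center g ?_
    intro z hz
    rw [Subgroup.mem_center_iff]
    intro w
    have hz' : ((z : ↥B) : A) ∈ E2 :=
      (QuotientGroup.eq_one_iff _).mp (congrArg Subtype.val (MonoidHom.mem_ker.mp hz))
    exact Subtype.ext (Subtype.ext (Subgroup.mem_centralizer_iff.mp (hE2B hz') _ (w : ↥B).2))
  · refine le_inf ?_ (Subgroup.map_subtype_le _)
    rw [Cfsg.generalizedFittingSubgroup, Subgroup.map_sup]
    refine sup_le ?_ ?_
    · rw [Cfsg.layer, sSup_eq_iSup', Subgroup.map_iSup]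
      exact iSup_le fun K => (CfsgLib.Core.component_le_layer
        (CfsgLib.Core.isComponent_map_subtype hB K.2)).trans le_sup_left
    · exact (CfsgLib.Core.fittingSubgroup_map_subtype_le inferInstance).trans le_sup_right

end Cfsg.Agent.S1320
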