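import Cfsg.Statements.S1318
import Cfsg.Agent.Lib.CoreLayer
import Cfsg.Agent.S1320

set_option autoImplicit false
open Cfsg

namespace Cfsg.Agent.S1318

/-- Let X be finite and S ≤ F*(X) a subgroup subnormal in F*(X). Then F(S) = F(X) ∩ S (inside X) and S = F(S)E(S). -/
theorem result {X : Type*} [Group X] [Finite X] (S : Subgroup X) (hS : S ≤ Cfsg.generalizedFittingSubgroup X) (hsn : (S.subgroupOf (Cfsg.generalizedFittingSubgroup X)).IsSubnormal) : (Cfsg.fittingSubgroup ↥S).map S.subtype = Cfsg.fittingSubgroup X ⊓ S ∧ Cfsg.fittingSubgroup ↥S ⊔ Cfsg.layer ↥S = ⊤ := by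
  have hF := CfsgLib.Core.normal_generalizedFittingSubgroup (G := X)
  have hsX : S.IsSubnormal := Subgroup.IsSubnormal.trans hS hsn hF.isSubnormal
  refine ⟨le_antisymm (le_inf ?_ (Subgroup.map_subtype_le _)) ?_, ?_⟩
  · haveI := CfsgLib.Core.isNilpotent_fittingSubgroup (G := ↥S)
    refine CfsgLib.Core.le_fittingSubgroup_of_isSubnormal
      (Subgroup.IsSubnormal.trans' (CfsgLib.Core.normal_fittingSubgroup (G := ↥S)).isSubnormal hsX) ?_
    exact Group.nilpotent_of_mulEquiv ((Cfsg.fittingSubgroup ↥S).equivMapOfInjective _ S.subtype_injective)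
  · intro x hx
    haveI := CfsgLib.Core.isNilpotent_fittingSubgroup (G := X)
    have hn : ((Cfsg.fittingSubgroup X).subgroupOf S).Normal :=
      (CfsgLib.Core.normal_fittingSubgroup (G := X)).subgroupOf S
    have hnil : Group.IsNilpotent ((Cfsg.fittingSubgroup X).subgroupOf S) :=
      Group.nilpotent_of_mulEquiv (MonoidHom.ofInjective
        (f := (S.subtype.comp ((Cfsg.fittingSubgroup X).subgroupOf S).subtype).codRestrict
          (Cfsg.fittingSubgroup X) (fun y => y.2)) (fun a b h => by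
          have h1 := congrArg Subtype.val h
          exact Subtype.ext (Subtype.ext h1))).symm
    exact ⟨⟨x, hx.2⟩, CfsgLib.Core.le_fittingSubgroup hn hnil (Subgroup.mem_subgroupOf.mpr hx.1), rfl⟩
  · have key : ∀ K : Subgroup X, K.IsSubnormal →
        Cfsg.generalizedFittingSubgroup X ⊓ K ≤ (Cfsg.generalizedFittingSubgroup ↥K).map K.subtype := by
      intro K hK
      induction hK with
      | top => exact (Cfsg.Agent.S1320.result (⊤ : Subgroup X)).le
      | step H K hle _ hN ih =>
        intro x hx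
        obtain ⟨y, hy, rfl⟩ := ih ⟨hx.1, hle hx.2⟩
        haveI := hN
        have h2 : y ∈ Cfsg.generalizedFittingSubgroup ↥K ⊓ H.subgroupOf K := ⟨hy, hx.2⟩
        rw [Cfsg.Agent.S1320.result] at h2
        obtain ⟨z, hz, rfl⟩ := h2
        refine ⟨Subgroup.subgroupOfEquivOfLe hle z, ?_, rfl⟩
        have hm : (Cfsg.generalizedFittingSubgroup ↥(H.subgroupOf K)).map (Subgroup.subgroupOfEquivOfLe hle).toMonoidHom
            ≤ Cfsg.generalizedFittingSubgroup ↥H := by
          rw [Cfsg.generalizedFittingSubgroup, Subgroup.map_sup]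
          exact sup_le_sup (CfsgLib.Core.map_layer_le_of_mulEquiv _) (CfsgLib.Core.map_fitting_le _)
        exact hm ⟨z, hz, rfl⟩
    rw [sup_comm, eq_top_iff]
    intro s _
    obtain ⟨y, hy, hys⟩ := key S hsX ⟨hS s.2, s.2⟩
    obtain rfl : y = s := Subtype.ext hys
    exact hy

end Cfsg.Agent.S1318
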