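import Cfsg.Statements.S1319
import Cfsg.Agent.Lib.CoreLayer

set_option autoImplicit false
open Cfsg

namespace Cfsg.Agent.S1319

/-- Let A be a subnormal subgroup of the finite group X with E(A) = A. Then A ≤ E(X) and A is normal in E(X). -/
theorem result {X : Type*} [Group X] [Finite X] (A : Subgroup X) (hsn : A.IsSubnormal) (hA : Cfsg.layer ↥A = ⊤) : A ≤ Cfsg.layer X ∧ (A.subgroupOf (Cfsg.layer X)).Normal := by
  have hle : A ≤ Cfsg.layer X := by
    have h1 : (Cfsg.layer ↥A).map A.subtype ≤ Cfsg.layer X := by
      rw [Cfsg.layer, sSup_eq_iSup', Subgroup.map_iSup]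
      exact iSup_le fun K => CfsgLib.Core.component_le_layer
        (CfsgLib.Core.isComponent_map_subtype hsn K.2)
    rwa [hA, ← MonoidHom.range_eq_map, Subgroup.range_subtype] at h1
  refine ⟨hle, (Subgroup.normal_subgroupOf_iff_le_normalizer hle).mpr (sSup_le fun K hK => ?_)⟩
  rcases CfsgLib.Core.component_le_or_commutator_eq_bot hK hsn with h | h
  · exact h.trans Subgroup.le_normalizer
  · exact ((Subgroup.commutator_eq_bot_iff_le_centralizer.mp h)).trans
      (Subgroup.centralizer_le_normalizer _)

end Cfsg.Agent.S1319
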