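import Cfsg.Statements.S1321
import Cfsg.Agent.Lib.LocalBalanced

set_option autoImplicit false
open Cfsg
open scoped commutatorElement Pointwise

namespace Cfsg.Agent.S1321

/-- Let X be finite and U ≤ X. Then E(X) is generated by C_{E(X)}(U) together with ⁅E(X), U⁆ (indeed it is their product, ⁅E(X), U⁆ being normal in E(X)). -/
theorem result {X : Type*} [Group X] [Finite X] (U : Subgroup X) : Cfsg.layer X = (Cfsg.layer X ⊓ Subgroup.centralizer (U : Set X)) ⊔ ⁅Cfsg.layer X, U⁆ ∧ ⁅Cfsg.layer X, U⁆ ≤ Cfsg.layer X := by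
  set E := Cfsg.layer X with hE
  set N := ⁅E, U⁆ with hN
  haveI hEn := CfsgLib.Core.normal_layer (G := X)
  have hNE : N ≤ E := Subgroup.commutator_le_left E U
  refine ⟨le_antisymm ?_ (sup_le inf_le_left hNE), hNE⟩
  refine sSup_le fun L hL => ?_
  have hLE : L ≤ E := CfsgLib.Core.component_le_layer hL
  have hsn : N.IsSubnormal :=
    Subgroup.IsSubnormal.trans hNE ((Subgroup.normal_subgroupOf_iff_le_normalizer hNE).mpr
      (CfsgLib.Core.le_normalizer_commutator_left E U)).isSubnormal hEn.isSubnormal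
  rcases CfsgLib.Core.component_le_or_commutator_eq_bot hL hsn with h | h
  · exact h.trans le_sup_right
  refine le_trans (le_inf hLE ?_) le_sup_left
  rw [Subgroup.le_centralizer_iff]
  intro u hu
  have hzc : ∀ l ∈ L, ⁅u, l⁆ ∈ Subgroup.centralizer (L : Set X) := fun l hl => by
    have h1 : ⁅u, l⁆ ∈ N := by
      rw [hN, Subgroup.commutator_comm]
      exact Subgroup.commutator_mem_commutator hu (hLE hl)
    exact Subgroup.commutator_eq_bot_iff_le_centralizer.mp
      (by rw [Subgroup.commutator_comm]; exact h) h1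
  by_cases huN : u ∈ Subgroup.normalizer (L : Set X)
  · refine CfsgLib.Local.Balanced.centralizes_of_mod_center
      (CfsgLib.Core.isPerfect_of_component hL) fun l hl => Subgroup.mem_inf.mpr ⟨?_, hzc l hl⟩
    exact mul_mem ((Subgroup.mem_normalizer_iff.mp huN l).mp hl) (inv_mem hl)
  · exfalso
    refine CfsgLib.Core.component_ne_bot hL ?_
    have hL' : Cfsg.IsComponent (MulAut.conj u • L) := CfsgLib.Core.isComponent_conj_smul hL u
    have hne : MulAut.conj u • L ≠ L := fun e => huN (CfsgLib.Core.conj_smul_eq_self_iff.mp e)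
    have hc := Subgroup.commutator_eq_bot_iff_le_centralizer.mp
      (CfsgLib.Core.components_commute hL' hL hne)
    rw [← CfsgLib.Core.isPerfect_of_component hL,
      Subgroup.commutator_eq_bot_iff_le_centralizer]
    intro l hl
    have h1 := hzc l⁻¹ (inv_mem hl)
    have h2 : u * l⁻¹ * u⁻¹ ∈ Subgroup.centralizer (L : Set X) := hc ⟨_, inv_mem hl, rfl⟩
    have h3 := mul_mem (inv_mem h2) h1
    rw [commutatorElement_def, inv_inv] at h3
    simpa [mul_assoc] using h3


end Cfsg.Agent.S1321
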