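import Cfsg.Statements.S1326
import Cfsg.Agent.Lib.CoreLayer

set_option autoImplicit false
open Cfsg

namespace Cfsg.Agent.S1326

/-- For a finite group X: the Fitting subgroup contains its centralizer if and only if the layer of X is trivial. -/
theorem result {X : Type*} [Group X] [Finite X] : Subgroup.centralizer (Cfsg.fittingSubgroup X : Set X) ≤ Cfsg.fittingSubgroup X ↔ Cfsg.layer X = ⊥ := by
  refine ⟨fun h => ?_, fun h => ?_⟩
  · have hle : Cfsg.layer X ≤ Cfsg.fittingSubgroup X :=
      le_trans (Subgroup.commutator_eq_bot_iff_le_centralizer.mp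
        CfsgLib.Core.commutator_layer_fittingSubgroup) h
    rw [← CfsgLib.Core.layer_perfect, Subgroup.commutator_eq_bot_iff_le_centralizer]
    exact ((Subgroup.commutator_eq_bot_iff_le_centralizer.mp
      CfsgLib.Core.commutator_layer_fittingSubgroup)).trans (Subgroup.centralizer_le hle)
  · have := CfsgLib.Core.centralizer_generalizedFitting_le (G := X)
    rwa [Cfsg.generalizedFittingSubgroup, h, bot_sup_eq] at this

end Cfsg.Agent.S1326
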