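import Cfsg.Statements.S1327
import Cfsg.Agent.Lib.LocalPComponent

set_option autoImplicit false
open Cfsg

namespace Cfsg.Agent.S1327

open scoped Pointwise

universe u

theorem charP_bar {X : Type u} [Group X] [Finite X] {p : ℕ} [hp : Fact p.Prime]
    [(Cfsg.pPrimeCore p X).Normal] :
    Cfsg.pLayer p X = ⊥ ↔ Cfsg.generalizedFittingSubgroup (X ⧸ Cfsg.pPrimeCore p X) =
      Cfsg.pCore p (X ⧸ Cfsg.pPrimeCore p X) := by
  rw [CfsgLib.Local.Comp.charP_iff]
  constructor
  · intro h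
    refine ⟨fun K hK => ?_, fun q hq hqp => ?_⟩
    · obtain ⟨L, hL, hLK⟩ := CfsgLib.Local.PComp.exists_pComponent hK
      refine CfsgLib.Core.component_ne_bot hK ?_
      rw [← hLK, show L = ⊥ from le_bot_iff.mp (h ▸ le_sSup hL), Subgroup.map_bot]
    · haveI := Fact.mk hq
      refine le_bot_iff.mp (le_of_le_of_eq ?_ (CfsgLib.Core.pPrimeCore_quotient_pPrimeCore p))
      refine CfsgLib.Core.le_pPrimeCore (CfsgLib.Core.normal_pCore q) ?_
      obtain ⟨k, hk⟩ := IsPGroup.iff_card.mp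
        (CfsgLib.Core.isPGroup_pCore (G := X ⧸ Cfsg.pPrimeCore p X) q)
      rw [hk]
      exact ((Nat.coprime_primes hq hp.out).mpr hqp).pow_left k
  · rintro ⟨h, -⟩
    exact le_bot_iff.mp (sSup_le fun L hL => absurd hL.2.1 (h _))


/-- A finite group X is p-constrained if and only if its p-layer L_{p'}(X) is trivial (equivalently X / O_{p'}(X) has trivial layer). -/
theorem result {X : Type*} [Group X] [Finite X] (p : ℕ) [Fact p.Prime] : Cfsg.IsPConstrained p X ↔ Cfsg.pLayer p X = ⊥ := by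
  haveI := CfsgLib.Core.normal_pPrimeCore (G := X) p
  rw [charP_bar, CfsgLib.Local.Comp.charP_iff_centralizer]
  set f := QuotientGroup.mk' (Cfsg.pPrimeCore p X) with hf
  have hmap : ∀ P : Sylow p ↥(Cfsg.pPrimePCore p X),
      ((P : Subgroup ↥(Cfsg.pPrimePCore p X)).map (Cfsg.pPrimePCore p X).subtype).map f =
        Cfsg.pCore p (X ⧸ Cfsg.pPrimeCore p X) := by
    intro P
    set g := f.subgroupComap (Cfsg.pCore p (X ⧸ Cfsg.pPrimeCore p X)) with hg
    have hgs : Function.Surjective g :=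
      MonoidHom.subgroupComap_surjective_of_surjective _ _ (QuotientGroup.mk'_surjective _)
    have htop : (P.mapSurjective hgs : Subgroup ↥(Cfsg.pCore p (X ⧸ Cfsg.pPrimeCore p X))) = ⊤ := by
      refine ((P.mapSurjective hgs).3 ?_ le_top).symm
      exact (CfsgLib.Core.isPGroup_pCore p).of_equiv Subgroup.topEquiv.symm
    apply le_antisymm
    · rintro _ ⟨_, ⟨x, -, rfl⟩, rfl⟩
      exact x.2
    · intro y hy
      have hy' : (⟨y, hy⟩ : ↥(Cfsg.pCore p (X ⧸ Cfsg.pPrimeCore p X))) ∈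
          (P : Subgroup ↥(Cfsg.pPrimePCore p X)).map g :=
        (show (P : Subgroup ↥(Cfsg.pPrimePCore p X)).map g = ⊤ from htop) ▸ Subgroup.mem_top _
      obtain ⟨x, hx, hxy⟩ := hy'
      exact ⟨(x : X), ⟨x, hx, rfl⟩, congrArg Subtype.val hxy⟩
  constructor
  · intro h
    obtain ⟨P⟩ := (inferInstance : Nonempty (Sylow p ↥(Cfsg.pPrimePCore p X)))
    rw [← hmap P, ← CfsgLib.Local.PComp.centralizer_map_mk (P.isPGroup'.map _),
      Subgroup.map_le_iff_le_comap, hmap P]
    exact h P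
  · intro h P x hx
    rw [Cfsg.pPrimePCore, Subgroup.mem_comap]
    refine h ?_
    rw [← hmap P, ← CfsgLib.Local.PComp.centralizer_map_mk (P.isPGroup'.map _)]
    exact ⟨x, hx, rfl⟩

end Cfsg.Agent.S1327
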