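import Cfsg.Statements.S1331
import Cfsg.Agent.Lib.LocalSignalizer

set_option autoImplicit false
open Cfsg

namespace Cfsg.Agent.S1331

/-- Let θ be a solvable A-signalizer functor on the finite group G for the prime p, A elementary abelian of rank at least 3, X a member of the family of θ, and B ≤ A with |B| ≥ p². Then X is generated by the subgroups X ∩ ⋂_{d ∈ D, d ≠ 1} θ d, D ranging over the subgroups of index p in B. -/
theorem result {G : Type*} [Group G] [Finite G] (p : ℕ) [Fact p.Prime] (A : Subgroup G) (hA : Cfsg.IsElementaryAbelian p A) (hA3 : p ^ 3 ≤ Nat.card ↥A) (θ : G → Subgroup G) (hθ : Cfsg.IsSolvableSignalizerFunctor p A θ) (X : Subgroup G) (hX : X ∈ Cfsg.signalizerFamily p A θ) (B : Subgroup G) (hB : B ≤ A) (hB2 : p ^ 2 ≤ Nat.card ↥B) : X = ⨆ D : {D : Subgroup G // D ≤ B ∧ D.relIndex B = p}, X ⊓ Cfsg.signalizerInf (D : Subgroup G) θ := by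
  have hAX := CfsgLib.Local.SF.normalizes_of_conj hX.2.2.1
  refine le_antisymm ?_ (iSup_le fun _ => inf_le_left)
  haveI : IsMulCommutative ↥A := hA.1
  have hBe : Cfsg.IsElementaryAbelian p B := CfsgLib.Local.KBal.elem_of_le hA hB
  haveI : IsMulCommutative ↥B := hBe.1
  have hB1 : B ≠ ⊥ := CfsgLib.Local.KBal.ne_bot_of_le (p := p) (k := 2) (by norm_num) hB2
  refine (CfsgLib.Core.generated_by_cocyclic (hB.trans hAX)
    (CfsgLib.Local.CoprimeGen.coprime_of_not_dvd hBe hX.2.1)).ge.trans (iSup₂_le fun E hE => ?_)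
  obtain ⟨D, hDE, hD⟩ := CfsgLib.Local.CoprimeGen.exists_index_le hBe hB1 hE
  refine le_trans ?_ (le_iSup (fun D : {D : Subgroup G // D ≤ B ∧ D.relIndex B = p} =>
    X ⊓ Cfsg.signalizerInf (D : Subgroup G) θ) ⟨D, hDE.trans hE.1, hD⟩)
  intro x hx
  obtain ⟨hxX, hxC⟩ := Subgroup.mem_inf.mp hx
  refine Subgroup.mem_inf.mpr ⟨hxX, Subgroup.mem_iInf.mpr fun d => ?_⟩
  refine hX.2.2.2 d (hB (hE.1 (hDE d.2.1))) d.2.2 ⟨hxX, ?_⟩
  exact Subgroup.centralizer_le (by simpa using hDE d.2.1) hxC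


end Cfsg.Agent.S1331
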