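import Cfsg.Statements.S1335


set_option autoImplicit false
open Cfsg

namespace Cfsg.Agent.S1335

/-- Let H be a subgroup of the finite group G, p a prime, k ≥ 1, P a Sylow p-subgroup of H of p-rank at least k, and suppose N_G(X) ≤ H for every subgroup X ≤ P of p-rank at least k. Then P is a Sylow p-subgroup of G. -/
theorem result {G : Type*} [Group G] [Finite G] {p : ℕ} [Fact p.Prime] (k : ℕ) (hk : 1 ≤ k) (H : Subgroup G) (P : Sylow p ↥H) (hP : ¬ Cfsg.PRankLE p (k - 1) ↥(P : Subgroup ↥H)) (hΓ : (∀ X : Subgroup G, X ≤ (P : Subgroup ↥H).map H.subtype → ¬ Cfsg.PRankLE p (k - 1) ↥X → Subgroup.normalizer (X : Set G) ≤ H)) : ∃ Q : Sylow p G, (Q : Subgroup G) = (P : Subgroup ↥H).map H.subtype := by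
  classical
  set P' := (P : Subgroup ↥H).map H.subtype with hP'
  have hP'p : IsPGroup p P' := P.2.map _
  obtain ⟨Q, hQ⟩ := hP'p.exists_le_sylow
  refine ⟨Q, ?_⟩
  by_contra hne
  haveI : Group.IsNilpotent ↥(Q : Subgroup G) := Q.2.isNilpotent
  have hlt : P'.subgroupOf (Q : Subgroup G) < ⊤ := by
    rw [lt_top_iff_ne_top]
    exact fun h => hne (le_antisymm (Subgroup.subgroupOf_eq_top.1 h) hQ)
  obtain ⟨x, hx, hxP⟩ := SetLike.exists_of_lt (normalizerCondition_of_isNilpotent (G := ↥(Q : Subgroup G)) _ hlt)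
  have hrank : ¬ Cfsg.PRankLE p (k - 1) ↥P' := by
    intro h
    refine hP fun A hA hAp => ?_
    let e : ↥(P : Subgroup ↥H) ≃* ↥P' := (P : Subgroup ↥H).equivMapOfInjective H.subtype H.subtype_injective
    haveI := hA
    rw [← Subgroup.card_map_of_injective (K := A) (f := e.toMonoidHom) e.injective]
    refine h _ (Subgroup.map_isMulCommutative A e.toMonoidHom) ?_
    rintro _ ⟨a, ha, rfl⟩
    rw [← map_pow, hAp a ha, map_one]
  have hxN : (x : G) ∈ Subgroup.normalizer (P' : Set G) := by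
    rw [Subgroup.mem_normalizer_iff]
    intro z
    have hy' := Subgroup.mem_normalizer_iff.1 hx
    constructor
    · intro hz; exact (hy' ⟨z, hQ hz⟩).1 hz
    · intro hz
      have hzQ : z ∈ (Q : Subgroup G) := by
        have := (Q : Subgroup G).mul_mem ((Q : Subgroup G).mul_mem ((Q : Subgroup G).inv_mem x.2) (hQ hz)) x.2
        simpa [mul_assoc] using this
      exact (hy' ⟨z, hzQ⟩).2 hz
  have hxH : (x : G) ∈ H := hΓ P' le_rfl hrank hxN
  have h3 := P.3 (Q.2.comap_of_injective H.subtype H.subtype_injective)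
    (fun z hz => hQ ⟨z, hz, rfl⟩)
  have hxm : (⟨x, hxH⟩ : H) ∈ (P : Subgroup ↥H) := h3 ▸ x.2
  exact hxP ⟨_, hxm, rfl⟩

end Cfsg.Agent.S1335
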