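import Cfsg.Statements.S1336


set_option autoImplicit false
open Cfsg
open scoped Pointwise

namespace Cfsg.Agent.S1336

/-- Let G be finite and p prime. Then G has a proper subgroup H with p ∣ |H| and p ∤ |H ∩ gHg⁻¹| for every g ∉ H (a strongly p-embedded subgroup) if and only if G is not 1-connected for p. -/
theorem result {G : Type*} [Group G] [Finite G] (p : ℕ) [Fact p.Prime] : (∃ H : Subgroup G, H ≠ ⊤ ∧ p ∣ Nat.card ↥H ∧ ∀ g : G, g ∉ H → ¬ p ∣ Nat.card ↥(H ⊓ H.map (MulAut.conj g).toMonoidHom)) ↔ ¬ Cfsg.IsKConnected p 1 G := by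
  classical
  have hp := Fact.out (p := p.Prime)
  constructor
  · rintro ⟨H, hH, hpH, hint⟩ hcon
    obtain ⟨⟨x, hx⟩, hxo⟩ := exists_prime_orderOf_dvd_card' (G := ↥H) p hpH
    have hxo' : orderOf x = p := (Subgroup.orderOf_mk x hx).symm.trans hxo
    obtain ⟨g, hg⟩ : ∃ g, g ∉ H := by
      by_contra h
      push Not at h
      exact hH (eq_top_iff.2 fun g _ => h g)
    have hEl : ∀ y : G, orderOf y = p → Cfsg.IsElementaryAbelian p (Subgroup.zpowers y) := fun y hy =>
      ⟨inferInstance, fun a ha => by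
        obtain ⟨i, rfl⟩ := Subgroup.mem_zpowers_iff.1 ha
        rw [← zpow_natCast, ← zpow_mul, mul_comm, zpow_mul, zpow_natCast, ← hy, pow_orderOf_eq_one, one_zpow]⟩
    have hcard : ∀ y : G, orderOf y = p → p ^ 1 ≤ Nat.card (Subgroup.zpowers y) := fun y hy => by
      rw [Nat.card_zpowers, hy, pow_one]
    have hgo : orderOf (g * x * g⁻¹) = p := (orderOf_injective (MulAut.conj g).toMonoidHom (MulEquiv.injective _) x).trans hxo'
    have hpath := hcon _ _ (hEl x hxo') (hcard x hxo') (hEl _ hgo) (hcard _ hgo)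
    have hle : Subgroup.zpowers (g * x * g⁻¹) ≤ H := by
      generalize Subgroup.zpowers (g * x * g⁻¹) = Y at hpath ⊢
      induction hpath with
      | refl => exact Subgroup.zpowers_le.2 hx
      | tail _ hstep ih =>
        rename_i A B _
        obtain ⟨hA, hAc, -, -, hAB⟩ := hstep
        intro b hb
        by_contra hbH
        obtain ⟨⟨a, ha⟩, ha1⟩ : ∃ a : A, a ≠ 1 := by
          haveI : Nontrivial A := by
            rw [← Finite.one_lt_card_iff_nontrivial]
            exact lt_of_lt_of_le hp.one_lt (by rwa [pow_one] at hAc)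
          exact exists_ne 1
        refine hint b hbH ?_
        have hoa : orderOf a = p := orderOf_eq_prime (hA.2 a ha) (fun e => ha1 (Subtype.ext e))
        rw [← hoa]
        refine Subgroup.orderOf_dvd_natCard _ ⟨ih ha, a, ih ha, ?_⟩
        show b * a * b⁻¹ = a
        rw [← hAB a ha b hb, mul_inv_cancel_right]
    refine hint g hg ?_
    rw [← hgo]
    exact Subgroup.orderOf_dvd_natCard _ ⟨hle (Subgroup.mem_zpowers _), x, hx, rfl⟩
  · intro hcon
    let adj : Subgroup G → Subgroup G → Prop := fun A B => Cfsg.IsElementaryAbelian p A ∧ p ^ 1 ≤ Nat.card ↥A ∧ Cfsg.IsElementaryAbelian p B ∧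
      p ^ 1 ≤ Nat.card ↥B ∧ ∀ a ∈ A, ∀ b ∈ B, a * b = b * a
    let R := Relation.ReflTransGen adj
    have hsymm : ∀ A B, R A B → R B A := fun A B h => by
      induction h with
      | refl => exact Relation.ReflTransGen.refl
      | tail _ hs ih =>
        obtain ⟨h1, h2, h3, h4, h5⟩ := hs
        exact Relation.ReflTransGen.head ⟨h3, h4, h1, h2, fun b hb a ha => (h5 a ha b hb).symm⟩ ih
    have hadjc : ∀ (g : G) A B, adj A B → adj (A.map (MulAut.conj g).toMonoidHom) (B.map (MulAut.conj g).toMonoidHom) := by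
      rintro g A B ⟨h1, h2, h3, h4, h5⟩
      have hel : ∀ C : Subgroup G, Cfsg.IsElementaryAbelian p C → Cfsg.IsElementaryAbelian p (C.map (MulAut.conj g).toMonoidHom) := by
        rintro C ⟨hC1, hC2⟩
        haveI := hC1
        refine ⟨Subgroup.map_isMulCommutative C (MulAut.conj g).toMonoidHom, ?_⟩
        rintro _ ⟨c, hc, rfl⟩
        rw [← map_pow, hC2 c hc, map_one]
      refine ⟨hel A h1, ?_, hel B h3, ?_, ?_⟩
      · rwa [Subgroup.card_map_of_injective (MulEquiv.injective _)]
      · rwa [Subgroup.card_map_of_injective (MulEquiv.injective _)]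
      · rintro _ ⟨a, ha, rfl⟩ _ ⟨b, hb, rfl⟩
        rw [← map_mul, ← map_mul, h5 a ha b hb]
    have hRc : ∀ (g : G) A B, R A B → R (A.map (MulAut.conj g).toMonoidHom) (B.map (MulAut.conj g).toMonoidHom) := fun g A B h => by
      induction h with
      | refl => exact Relation.ReflTransGen.refl
      | tail _ hs ih => exact ih.tail (hadjc g _ _ hs)
    have hmm : ∀ (g h : G) (A : Subgroup G), (A.map (MulAut.conj h).toMonoidHom).map (MulAut.conj g).toMonoidHom = A.map (MulAut.conj (g * h)).toMonoidHom := fun g h A => by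
      rw [Subgroup.map_map]
      congr 1
      ext z
      show g * (h * z * h⁻¹) * g⁻¹ = g * h * z * (g * h)⁻¹
      group
    have hone : ∀ A : Subgroup G, A.map (MulAut.conj (1 : G)).toMonoidHom = A := fun A => by
      rw [map_one]; exact Subgroup.map_id A
    have hz : ∀ y : G, orderOf y = p → Cfsg.IsElementaryAbelian p (Subgroup.zpowers y) ∧ p ^ 1 ≤ Nat.card (Subgroup.zpowers y) := fun y hy =>
      ⟨⟨inferInstance, fun a ha => by
        obtain ⟨i, rfl⟩ := Subgroup.mem_zpowers_iff.1 ha
        rw [← zpow_natCast, ← zpow_mul, mul_comm, zpow_mul, zpow_natCast, ← hy, pow_orderOf_eq_one, one_zpow]⟩,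
        by rw [Nat.card_zpowers, hy, pow_one]⟩
    have helt : ∀ A : Subgroup G, Cfsg.IsElementaryAbelian p A → p ^ 1 ≤ Nat.card A → ∃ a ∈ A, orderOf a = p ∧ R A (Subgroup.zpowers a) := by
      intro A hA hAc
      haveI : Nontrivial A := by
        rw [← Finite.one_lt_card_iff_nontrivial]
        exact lt_of_lt_of_le hp.one_lt (by rwa [pow_one] at hAc)
      obtain ⟨⟨a, ha⟩, ha1⟩ := exists_ne (1 : A)
      have hoa : orderOf a = p := orderOf_eq_prime (hA.2 a ha) (fun e => ha1 (Subtype.ext e))
      refine ⟨a, ha, hoa, Relation.ReflTransGen.single ⟨hA, hAc, (hz a hoa).1, (hz a hoa).2, fun u hu v hv => ?_⟩⟩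
      obtain ⟨i, rfl⟩ := Subgroup.mem_zpowers_iff.1 hv
      exact congrArg Subtype.val (hA.1.is_comm.comm ⟨u, hu⟩ ⟨_, A.zpow_mem ha i⟩)
    simp only [Cfsg.IsKConnected, not_forall] at hcon
    obtain ⟨E, E', hE, hEc, hE', hEc', hnot⟩ := hcon
    obtain ⟨P⟩ : Nonempty (Sylow p G) := inferInstance
    obtain ⟨e, -, heo, -⟩ := helt E hE hEc
    have hPnt : Nontrivial (P : Subgroup G) := by
      rw [← Finite.one_lt_card_iff_nontrivial]
      refine lt_of_lt_of_le hp.one_lt (Nat.le_of_dvd Nat.card_pos (P.dvd_card_of_dvd_card ?_))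
      rw [← heo]; exact orderOf_dvd_natCard e
    haveI : Nontrivial (Subgroup.center (P : Subgroup G)) := P.2.center_nontrivial
    obtain ⟨w, hwo⟩ := exists_prime_orderOf_dvd_card' (G := Subgroup.center (P : Subgroup G)) p (by
      obtain ⟨n, hn⟩ := (IsPGroup.iff_card (p := p)).1 (P.2.to_subgroup (Subgroup.center (P : Subgroup G)))
      rcases n with _ | n
      · rw [pow_zero] at hn
        exact absurd hn (Finite.one_lt_card (α := Subgroup.center (P : Subgroup G))).ne'
      · exact ⟨p ^ n, hn.trans (pow_succ' p n)⟩)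
    set z : G := ((w : (P : Subgroup G)) : G) with hzdef
    have hzo : orderOf z = p := by rw [hzdef, Subgroup.orderOf_coe, Subgroup.orderOf_coe, hwo]
    have hPz : ∀ y ∈ (P : Subgroup G), y * z = z * y := fun y hy => congrArg Subtype.val (Subgroup.mem_center_iff.1 w.2 ⟨y, hy⟩)
    set Z := Subgroup.zpowers z with hZ
    let H : Subgroup G :=
      { carrier := {g | R Z (Z.map (MulAut.conj g).toMonoidHom)}
        one_mem' := by show R Z _; rw [hone]
        mul_mem' := fun {g h} hg hh => by
          show R Z _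
          rw [← hmm]
          exact Relation.ReflTransGen.trans hg (hRc g _ _ hh)
        inv_mem' := fun {g} hg => by
          show R Z _
          have := hsymm _ _ (hRc g⁻¹ _ _ hg)
          rwa [hmm, inv_mul_cancel, hone] at this }
    have hPH : (P : Subgroup G) ≤ H := fun y hy => by
      show R Z _
      have : Z.map (MulAut.conj y).toMonoidHom = Z := by
        rw [hZ, MonoidHom.map_zpowers]
        show Subgroup.zpowers (y * z * y⁻¹) = _
        rw [hPz y hy, mul_inv_cancel_right]
      rw [this]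
    have hPR : ∀ y ∈ (P : Subgroup G), orderOf y = p → R Z (Subgroup.zpowers y) := fun y hy hyo =>
      Relation.ReflTransGen.single ⟨(hz z hzo).1, (hz z hzo).2, (hz y hyo).1, (hz y hyo).2, fun a ha b hb => by
        obtain ⟨i, rfl⟩ := Subgroup.mem_zpowers_iff.1 ha
        obtain ⟨j, rfl⟩ := Subgroup.mem_zpowers_iff.1 hb
        exact (show Commute z y from (hPz y hy).symm).zpow_zpow i j⟩
    have hHR : ∀ y ∈ H, orderOf y = p → R Z (Subgroup.zpowers y) := by
      intro y hy hyo
      obtain ⟨Q, hQ⟩ := (IsPGroup.of_card (p := p) (n := 1) (show Nat.card ((Subgroup.zpowers y).subgroupOf H) = p ^ 1 by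
        rw [Nat.card_congr (Subgroup.subgroupOfEquivOfLe (Subgroup.zpowers_le.2 hy)).toEquiv, Nat.card_zpowers, hyo, pow_one])).exists_le_sylow
      obtain ⟨h, hh⟩ := MulAction.exists_smul_eq H (P.subtype hPH) Q
      have hyQ : (⟨y, hy⟩ : H) ∈ (Q : Subgroup H) := hQ (Subgroup.mem_zpowers y)
      rw [← hh, Sylow.coe_subgroup_smul] at hyQ
      obtain ⟨u, hu, huy⟩ := hyQ
      have huy' : (h : G) * (u : G) * (h : G)⁻¹ = y := congrArg Subtype.val huy
      have huo : orderOf (u : G) = p := by
        rw [← hyo, ← huy']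
        exact (orderOf_injective (MulAut.conj (h : G)).toMonoidHom (MulEquiv.injective _) _).symm
      have := Relation.ReflTransGen.trans h.2 (hRc h _ _ (hPR u hu huo))
      rw [MonoidHom.map_zpowers] at this
      rw [← huy']
      exact this
    refine ⟨H, ?_, ?_, fun g hg hdvd => ?_⟩
    · intro htop
      refine hnot ?_
      obtain ⟨a, -, hao, hEa⟩ := helt E hE hEc
      obtain ⟨b, -, hbo, hEb⟩ := helt E' hE' hEc'
      exact (hEa.trans (hsymm _ _ (hHR a (htop ▸ Subgroup.mem_top a) hao))).trans ((hHR b (htop ▸ Subgroup.mem_top b) hbo).trans (hsymm _ _ hEb))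
    · rw [← hzo]
      exact Subgroup.orderOf_dvd_natCard _ (hPH (w : (P : Subgroup G)).2)
    · obtain ⟨⟨y, hy1, u, hu, huy⟩, hyo⟩ := exists_prime_orderOf_dvd_card' (G := ↥(H ⊓ H.map (MulAut.conj g).toMonoidHom)) p hdvd
      have hyo' : orderOf y = p := by rw [← Subgroup.orderOf_coe] at hyo; exact hyo
      have huy' : g * u * g⁻¹ = y := huy
      have huo : orderOf u = p := by
        rw [← hyo', ← huy']
        exact (orderOf_injective (MulAut.conj g).toMonoidHom (MulEquiv.injective _) _).symm
      have h2 := hRc g _ _ (hHR u hu huo)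
      rw [show (Subgroup.zpowers u).map (MulAut.conj g).toMonoidHom = Subgroup.zpowers y by
        rw [MonoidHom.map_zpowers]; exact congrArg Subgroup.zpowers huy'] at h2
      exact hg ((hHR y hy1 hyo').trans (hsymm _ _ h2))

end Cfsg.Agent.S1336
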