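import Cfsg.Statements.S1337
import Cfsg.Agent.Lib.CoreNormalCyclic

set_option autoImplicit false
open Cfsg

namespace Cfsg.Agent.S1337

lemma exp_cyclic {G : Type*} [Group G] [Finite G] {p : ℕ} (hp : p.Prime) (A : Subgroup G) [IsCyclic A]
    (h : ∀ a ∈ A, a ^ p = 1) : Nat.card A ≤ p := by
  obtain ⟨g, hg⟩ := IsCyclic.exists_generator (α := A)
  rw [← orderOf_eq_card_of_forall_mem_zpowers hg]
  exact Nat.le_of_dvd hp.pos (orderOf_dvd_of_pow_eq_one (Subtype.ext (h g g.2)))

lemma rank_two_of_index_two {G : Type*} [Group G] [Finite G] (c : G) (hc : Nat.card G = 2 * orderOf c) :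
    Cfsg.PRankLE 2 2 G := by
  intro A _ hA
  set C := Subgroup.zpowers c
  have hidx : C.index = 2 := by
    have := C.card_mul_index
    rw [Nat.card_zpowers, hc, mul_comm 2] at this
    exact Nat.eq_of_mul_eq_mul_left (orderOf_pos c) this
  haveI : IsCyclic (A ⊓ C : Subgroup G) :=
    isCyclic_of_injective (f := Subgroup.inclusion (inf_le_right : A ⊓ C ≤ C)) (Subgroup.inclusion_injective _)
  have h1 : Nat.card (A ⊓ C : Subgroup G) ≤ 2 := exp_cyclic Nat.prime_two _ (fun a ha => hA a ha.1)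
  have h2 := (C.subgroupOf A).card_mul_index
  have h3 : Nat.card (C.subgroupOf A) = Nat.card (A ⊓ C : Subgroup G) := Nat.card_congr
    { toFun := fun x => ⟨x.1.1, x.1.2, x.2⟩
      invFun := fun y => ⟨⟨y.1, y.2.1⟩, y.2.2⟩
      left_inv := fun x => rfl
      right_inv := fun y => rfl }
  have h4 : C.relIndex A ≤ 2 := by
    haveI := Subgroup.normal_of_index_eq_two hidx
    exact Nat.le_of_dvd two_pos (hidx ▸ Subgroup.relIndex_dvd_index_of_normal C A)
  rw [← h2, h3]
  calc Nat.card (A ⊓ C : Subgroup G) * C.relIndex A ≤ 2 * 2 := Nat.mul_le_mul h1 h4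
    _ = 2 ^ 2 := by norm_num

/-- Let P be a finite p-group of p-rank greater than 2. Then P has a normal elementary abelian subgroup U of order p², and for every elementary abelian X ≤ P with |X| ≥ p²: X is joined to U by a chain of pairwise commuting elementary abelian subgroups of order ≥ p² if and only if C_P(X) has p-rank greater than 2. -/
theorem result {P : Type*} [Group P] [Finite P] (p : ℕ) [Fact p.Prime] (hP : IsPGroup p P) (hrk : ¬ Cfsg.PRankLE p 2 P) : ∃ U : Subgroup P, U.Normal ∧ Cfsg.IsElementaryAbelian p U ∧ Nat.card ↥U = p ^ 2 ∧ ∀ X : Subgroup P, Cfsg.IsElementaryAbelian p X → p ^ 2 ≤ Nat.card ↥X → (Relation.ReflTransGen (fun A B : Subgroup P => Cfsg.IsElementaryAbelian p A ∧ p ^ 2 ≤ Nat.card ↥A ∧ Cfsg.IsElementaryAbelian p B ∧ p ^ 2 ≤ Nat.card ↥B ∧ ∀ a ∈ A, ∀ b ∈ B, a * b = b * a) X U ↔ ¬ Cfsg.PRankLE p 2 ↥(Subgroup.centralizer (X : Set P))) := by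
  classical
  have hp : p.Prime := Fact.out
  have hpair : CfsgLib.NormalCyclic.HasPair P p := by
    by_contra h
    apply hrk
    rcases CfsgLib.NormalCyclic.structure_of_no_pair hP h with h1 | ⟨hp2, h1⟩
    · intro A _ hA
      haveI := h1
      exact (exp_cyclic hp A hA).trans (Nat.le_self_pow two_ne_zero p)
    · subst hp2
      rcases h1 with ⟨n, ⟨e⟩⟩ | ⟨n, hn, ⟨e⟩⟩ | ⟨n, hn, hc, x, y, hx, -, -⟩
      · rcases Nat.eq_zero_or_pos n with rfl | hn
        · exfalso
          haveI : Finite (QuaternionGroup 0) := Finite.of_equiv P e.toEquiv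
          have : Finite (ZMod (2 * 0)) := Finite.of_injective QuaternionGroup.a (fun i j h => by cases h; rfl)
          haveI : Finite ℤ := this
          exact not_finite ℤ
        · haveI : NeZero n := ⟨hn.ne'⟩
          refine rank_two_of_index_two (e.symm (QuaternionGroup.a 1)) ?_
          rw [Nat.card_congr e.toEquiv, MulEquiv.orderOf_eq, QuaternionGroup.orderOf_a_one,
            Nat.card_eq_fintype_card, QuaternionGroup.card]
          ring
      · haveI : NeZero n := ⟨by omega⟩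
        refine rank_two_of_index_two (e.symm (DihedralGroup.r 1)) ?_
        rw [Nat.card_congr e.toEquiv, MulEquiv.orderOf_eq, DihedralGroup.orderOf_r_one, DihedralGroup.nat_card]
      · exact rank_two_of_index_two x (by rw [hc, hx, pow_succ, mul_comm])
  obtain ⟨z, e, hz, hz1, hzc, he, hne, hconj⟩ := hpair
  have hcz : ∀ g : P, g * z = z * g := fun g => Subgroup.mem_center_iff.1 hzc g
  have cm : ∀ {A : Subgroup P}, IsMulCommutative A → ∀ {x y : P}, x ∈ A → y ∈ A → x * y = y * x :=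
    fun {A} hA {x y} hx hy => congrArg Subtype.val (hA.is_comm.comm ⟨x, hx⟩ ⟨y, hy⟩)
  set Z := Subgroup.zpowers z
  set U := Z ⊔ Subgroup.zpowers e
  have hzU : z ∈ U := Subgroup.mem_sup_left (Subgroup.mem_zpowers z)
  have heU : e ∈ U := Subgroup.mem_sup_right (Subgroup.mem_zpowers e)
  have hze : Commute z e := (hcz e).symm
  haveI hZn : Z.Normal := ⟨fun x hx g => by
    obtain ⟨i, rfl⟩ := hx
    show g * z ^ i * g⁻¹ ∈ Z
    rw [((show Commute g z from hcz g).zpow_right i).eq, mul_inv_cancel_right]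
    exact Subgroup.zpow_mem _ (Subgroup.mem_zpowers z) i⟩
  have hmem : ∀ u ∈ U, ∃ i j : ℤ, u = z ^ i * e ^ j := by
    intro u hu
    obtain ⟨a, ⟨i, rfl⟩, b, ⟨j, rfl⟩, rfl⟩ := Subgroup.mem_sup_of_normal_left.1 hu
    exact ⟨i, j, rfl⟩
  have hUel : Cfsg.IsElementaryAbelian p U := by
    refine ⟨⟨⟨fun a b => Subtype.ext ?_⟩⟩, fun a ha => ?_⟩
    · obtain ⟨i, j, hi⟩ := hmem a a.2
      obtain ⟨k, l, hk⟩ := hmem b b.2
      show (a : P) * b = b * a
      rw [hi, hk]
      exact (((Commute.zpow_zpow_self z i k).mul_right (hze.zpow_zpow i l)).mul_left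
        ((hze.symm.zpow_zpow j k).mul_right (Commute.zpow_zpow_self e j l))).eq
    · obtain ⟨i, j, rfl⟩ := hmem a ha
      rw [(hze.zpow_zpow i j).mul_pow, ← zpow_natCast, ← zpow_natCast, ← zpow_mul, ← zpow_mul, mul_comm i,
        mul_comm j, zpow_mul, zpow_mul, zpow_natCast, zpow_natCast, hz, he, one_zpow, one_zpow, one_mul]
  have hUn : U.Normal := ⟨fun u hu g => by
    obtain ⟨i, j, rfl⟩ := hmem u hu
    rw [show g * (z ^ i * e ^ j) * g⁻¹ = (g * z * g⁻¹) ^ i * (g * e * g⁻¹) ^ j from by rw [conj_zpow, conj_zpow]; group,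
      hcz g, mul_inv_cancel_right]
    refine U.mul_mem (U.zpow_mem hzU i) (U.zpow_mem ?_ j)
    rw [show g * e * g⁻¹ = e * (e⁻¹ * (g * e * g⁻¹)) from by group]
    exact U.mul_mem heU (Subgroup.mem_sup_left (hconj g))⟩
  have hordz := orderOf_eq_prime hz hz1
  have horde : orderOf e = p := orderOf_eq_prime he (fun h => hne (by rw [h]; exact Subgroup.one_mem _))
  have hUc : Nat.card U = p ^ 2 := by
    rw [← Subgroup.relIndex_bot_left U, ← Subgroup.relIndex_mul_relIndex ⊥ Z U bot_le le_sup_left,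
      Subgroup.relIndex_bot_left, Nat.card_zpowers, hordz, pow_two]
    congr 1
    rw [show U = Subgroup.zpowers e ⊔ Z from sup_comm _ _, Subgroup.relIndex_sup_right]
    have hd : Z.relIndex (Subgroup.zpowers e) ∣ p := by
      have := Subgroup.relIndex_dvd_card Z (Subgroup.zpowers e)
      rwa [Nat.card_zpowers, horde] at this
    refine (hp.eq_one_or_self_of_dvd _ hd).resolve_left fun h => ?_
    exact hne (Subgroup.relIndex_eq_one.1 h (Subgroup.mem_zpowers e))
  -- the centralizer of U has index at most p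
  let κ : P →* Z := MonoidHom.mk' (fun g => ⟨e⁻¹ * (g * e * g⁻¹), hconj g⟩) (fun g h => Subtype.ext (by
    obtain ⟨i, hi⟩ := hconj h
    have hi' : z ^ i = e⁻¹ * (h * e * h⁻¹) := hi
    show e⁻¹ * (g * h * e * (g * h)⁻¹) = e⁻¹ * (g * e * g⁻¹) * (e⁻¹ * (h * e * h⁻¹))
    rw [← hi']
    calc e⁻¹ * (g * h * e * (g * h)⁻¹) = e⁻¹ * (g * (h * e) * h⁻¹ * g⁻¹) := by group
      _ = e⁻¹ * (g * e * (z ^ i * g⁻¹)) := by rw [show h * e = e * z ^ i * h from by rw [hi']; group]; group
      _ = e⁻¹ * (g * e * (g⁻¹ * z ^ i)) := by rw [((show Commute g z from hcz g).inv_left.zpow_right i).eq]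
      _ = e⁻¹ * (g * e * g⁻¹) * z ^ i := by group))
  have hκ : ∀ g, g ∈ κ.ker → ∀ u ∈ U, g * u = u * g := by
    intro g hg u hu
    rw [MonoidHom.mem_ker] at hg
    have h1 : e⁻¹ * (g * e * g⁻¹) = 1 := congrArg Subtype.val hg
    have hge : Commute g e := mul_inv_eq_iff_eq_mul.1 (inv_mul_eq_one.1 h1).symm
    obtain ⟨i, j, rfl⟩ := hmem u hu
    exact (((show Commute g z from hcz g).zpow_right i).mul_right (hge.zpow_right j)).eq
  have hUker : U ≤ κ.ker := by
    intro u hu
    rw [MonoidHom.mem_ker]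
    apply Subtype.ext
    show e⁻¹ * (u * e * u⁻¹) = 1
    have hc : u * e = e * u := congrArg Subtype.val (hUel.1.is_comm.comm ⟨u, hu⟩ ⟨e, heU⟩)
    rw [hc]; group
  -- a large subgroup meets the kernel in at least p^2 elements
  have hbig : ∀ E : Subgroup P, p ^ 3 ≤ Nat.card E → p ^ 2 ≤ Nat.card (E ⊓ κ.ker : Subgroup P) := by
    intro E hE
    have h2 := (κ.ker.subgroupOf E).card_mul_index
    have h3 : Nat.card (κ.ker.subgroupOf E) = Nat.card (E ⊓ κ.ker : Subgroup P) := Nat.card_congr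
      { toFun := fun x => ⟨x.1.1, x.1.2, x.2⟩
        invFun := fun y => ⟨⟨y.1, y.2.1⟩, y.2.2⟩
        left_inv := fun x => rfl
        right_inv := fun y => rfl }
    have h4 : κ.ker.relIndex E ≤ p := by
      refine le_trans (Nat.le_of_dvd (Nat.pos_of_ne_zero Subgroup.index_ne_zero_of_finite) (Subgroup.relIndex_dvd_index_of_normal κ.ker E)) ?_
      rw [Subgroup.index_ker]
      exact le_trans (Subgroup.card_le_card_group _) (by rw [Nat.card_zpowers, hordz])
    rw [← h2, h3] at hE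
    have h5 : p ^ 3 ≤ Nat.card (E ⊓ κ.ker : Subgroup P) * p := le_trans hE (Nat.mul_le_mul_left _ h4)
    rw [pow_succ] at h5
    exact Nat.le_of_mul_le_mul_right h5 hp.pos
  refine ⟨U, hUn, hUel, hUc, fun X hX hX2 => ?_⟩
  set R := fun A B : Subgroup P => Cfsg.IsElementaryAbelian p A ∧ p ^ 2 ≤ Nat.card ↥A ∧ Cfsg.IsElementaryAbelian p B ∧ p ^ 2 ≤ Nat.card ↥B ∧ ∀ a ∈ A, ∀ b ∈ B, a * b = b * a
  have hjoin : ∀ A B : Subgroup P, Cfsg.IsElementaryAbelian p A → Cfsg.IsElementaryAbelian p B →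
      (∀ a ∈ A, ∀ b ∈ B, a * b = b * a) → Cfsg.IsElementaryAbelian p (A ⊔ B) := by
    intro A B hA hB hAB
    have hgen : A ⊔ B = Subgroup.closure ((A : Set P) ∪ B) := by rw [Subgroup.closure_union, Subgroup.closure_eq, Subgroup.closure_eq]
    have hc : IsMulCommutative (A ⊔ B : Subgroup P) := by
      rw [hgen]
      refine Subgroup.isMulCommutative_closure ?_
      rintro x (hx | hx) y (hy | hy)
      · exact congrArg Subtype.val (hA.1.is_comm.comm ⟨x, hx⟩ ⟨y, hy⟩)
      · exact hAB x hx y hy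
      · exact (hAB y hy x hx).symm
      · exact congrArg Subtype.val (hB.1.is_comm.comm ⟨x, hx⟩ ⟨y, hy⟩)
    refine ⟨hc, fun a ha => ?_⟩
    let K : Subgroup (A ⊔ B : Subgroup P) :=
      { carrier := {x | x ^ p = 1}
        one_mem' := one_pow p
        mul_mem' := fun {x y} hx hy => by
          show (x * y) ^ p = 1
          rw [(show Commute x y from hc.is_comm.comm x y).mul_pow, hx, hy, one_mul]
        inv_mem' := fun {x} hx => by show x⁻¹ ^ p = 1; rw [inv_pow, hx, inv_one] }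
    have hK : A ⊔ B ≤ K.map (A ⊔ B).subtype :=
      sup_le (fun a ha => ⟨⟨a, Subgroup.mem_sup_left ha⟩, Subtype.ext (hA.2 a ha), rfl⟩)
        (fun b hb => ⟨⟨b, Subgroup.mem_sup_right hb⟩, Subtype.ext (hB.2 b hb), rfl⟩)
    obtain ⟨x, hx, rfl⟩ := hK ha
    exact congrArg Subtype.val hx
  have hbig3 : ∀ A : Subgroup P, p ^ 2 < Nat.card A → p ^ 3 ≤ Nat.card A := by
    intro A hA
    obtain ⟨k, hk⟩ := IsPGroup.iff_card.1 (hP.to_subgroup A)
    rw [hk] at hA ⊢
    have := (Nat.pow_lt_pow_iff_right hp.one_lt).1 hA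
    exact Nat.pow_le_pow_right hp.pos (by omega)
  have hwit : ∀ (A X : Subgroup P), Cfsg.IsElementaryAbelian p A → p ^ 2 < Nat.card A → (∀ a ∈ A, ∀ x ∈ X, x * a = a * x) →
      ¬ Cfsg.PRankLE p 2 ↥(Subgroup.centralizer (X : Set P)) := by
    intro A X hA hA3 hAX h
    have hle : A ≤ Subgroup.centralizer (X : Set P) := fun a ha => Subgroup.mem_centralizer_iff.2 fun x hx => hAX a ha x hx
    have := h (A.subgroupOf _) ⟨⟨fun a b => Subtype.ext (Subtype.ext (cm hA.1 a.2 b.2))⟩⟩ (fun a ha => Subtype.ext (hA.2 _ ha))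
    rw [Nat.card_congr (Subgroup.subgroupOfEquivOfLe hle).toEquiv] at this
    omega
  have hwit' : ∀ (X : Subgroup P), ¬ Cfsg.PRankLE p 2 ↥(Subgroup.centralizer (X : Set P)) →
      ∃ E : Subgroup P, Cfsg.IsElementaryAbelian p E ∧ p ^ 3 ≤ Nat.card E ∧ ∀ a ∈ X, ∀ b ∈ E, a * b = b * a := by
    intro X h
    simp only [Cfsg.PRankLE, not_forall, not_le] at h
    obtain ⟨A, hAc, hAe, hA⟩ := h
    refine ⟨A.map (Subgroup.centralizer (X : Set P)).subtype, ⟨⟨⟨?_⟩⟩, ?_⟩, ?_, ?_⟩
    · rintro ⟨_, a, ha, rfl⟩ ⟨_, b, hb, rfl⟩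
      exact Subtype.ext (congrArg (Subgroup.centralizer (X : Set P)).subtype (congrArg Subtype.val (hAc.is_comm.comm ⟨a, ha⟩ ⟨b, hb⟩)))
    · rintro _ ⟨a, ha, rfl⟩
      exact congrArg Subtype.val (hAe a ha)
    · apply hbig3
      rw [Subgroup.card_map_of_injective (Subgroup.subtype_injective _)]
      exact hA
    · rintro x hx _ ⟨a, -, rfl⟩
      exact Subgroup.mem_centralizer_iff.1 a.2 x hx
  have hUrank : ¬ Cfsg.PRankLE p 2 ↥(Subgroup.centralizer (U : Set P)) := by
    simp only [Cfsg.PRankLE, not_forall, not_le] at hrk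
    obtain ⟨E, hEc, hEe, hE⟩ := hrk
    set F := E ⊓ κ.ker
    have hF : Cfsg.IsElementaryAbelian p F := ⟨⟨⟨fun a b => Subtype.ext (cm hEc a.2.1 b.2.1)⟩⟩, fun a ha => hEe a ha.1⟩
    have hF2 : p ^ 2 ≤ Nat.card F := hbig E (hbig3 E hE)
    have hcm : ∀ a ∈ F, ∀ u ∈ U, a * u = u * a := fun a ha u hu => hκ a ha.2 u hu
    by_cases hFU : F ≤ U
    · have hFeq : F = U := Subgroup.eq_of_le_of_card_ge hFU (by rw [hUc]; exact hF2)
      have hEk : E ≤ κ.ker := by
        intro a ha
        rw [MonoidHom.mem_ker]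
        apply Subtype.ext
        show e⁻¹ * (a * e * a⁻¹) = 1
        have heE : e ∈ E := (hFeq ▸ heU : e ∈ F).1
        have hc : a * e = e * a := congrArg Subtype.val (hEc.is_comm.comm ⟨a, ha⟩ ⟨e, heE⟩)
        rw [hc]; group
      exact hwit E U ⟨hEc, hEe⟩ hE (fun a ha u hu => (hκ a (hEk ha) u hu).symm)
    · refine hwit (U ⊔ F) U (hjoin U F hUel hF (fun u hu a ha => (hcm a ha u hu).symm)) ?_ ?_
      · rw [← hUc]
        have hlt : U < U ⊔ F := lt_of_le_of_ne le_sup_left fun h => hFU (le_sup_right.trans h.ge)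
        have h1 := Set.ncard_lt_ncard hlt (Set.toFinite _)
        rwa [← Nat.card_coe_set_eq, ← Nat.card_coe_set_eq] at h1
      · intro a ha x hx
        have := (hjoin U F hUel hF (fun u hu b hb => (hcm b hb u hu).symm)).1
        exact congrArg Subtype.val (this.is_comm.comm ⟨x, Subgroup.mem_sup_left hx⟩ ⟨a, ha⟩)
  constructor
  · intro hpath
    by_contra hn
    -- every step stays at X
    have hstay : ∀ B, Relation.ReflTransGen R X B → B = X := by
      intro B hB
      induction hB with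
      | refl => rfl
      | tail _ hstep ih =>
        rename_i B C hh
        obtain ⟨hA, hA2, hB', hB2, hc⟩ := hstep
        subst ih
        by_contra hne'
        have hle : p ^ 2 < Nat.card (B ⊔ C : Subgroup P) := by
          have hlt : B < B ⊔ C ∨ C < B ⊔ C := by
            by_cases h : C ≤ B
            · exact Or.inr (lt_of_le_of_ne le_sup_right (fun e' => hne' (le_antisymm h (e' ▸ le_sup_left))))
            · exact Or.inl (lt_of_le_of_ne le_sup_left (fun e' => h (e' ▸ le_sup_right)))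
          rcases hlt with h | h <;>
          · have h1 := Set.ncard_lt_ncard h (Set.toFinite _)
            rw [← Nat.card_coe_set_eq, ← Nat.card_coe_set_eq] at h1
            exact lt_of_le_of_lt (by assumption) h1
        refine hwit (B ⊔ C) B (hjoin B C hA hB' hc) hle (fun a ha x hx => ?_) hn
        exact congrArg Subtype.val ((hjoin B C hA hB' hc).1.is_comm.comm ⟨x, Subgroup.mem_sup_left hx⟩ ⟨a, ha⟩)
    exact (hstay U hpath ▸ hUrank) hn
  · intro h
    obtain ⟨E, hE, hE3, hXE⟩ := hwit' X h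
    set F := E ⊓ κ.ker
    have hF : Cfsg.IsElementaryAbelian p F := ⟨⟨⟨fun a b => Subtype.ext (cm hE.1 a.2.1 b.2.1)⟩⟩, fun a ha => hE.2 a ha.1⟩
    have hF2 : p ^ 2 ≤ Nat.card F := hbig E hE3
    have hE2 : p ^ 2 ≤ Nat.card E := le_trans (Nat.pow_le_pow_right hp.pos (by norm_num)) hE3
    refine ((Relation.ReflTransGen.single (r := R) ⟨hX, hX2, hE, hE2, hXE⟩).tail ⟨hE, hE2, hF, hF2, ?_⟩).tail
      ⟨hF, hF2, hUel, hUc.ge, fun a ha u hu => hκ a ha.2 u hu⟩
    exact fun a ha b hb => congrArg Subtype.val (hE.1.is_comm.comm ⟨a, ha⟩ ⟨b, hb.1⟩)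

end Cfsg.Agent.S1337
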