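import Cfsg.Statements.S1343
import Cfsg.Agent.Lib.LocalExtLayer

set_option autoImplicit false
open Cfsg

namespace Cfsg.Agent.S1343

/-- Let X be finite. Then L*_{2'}(X) = L_{2'}(X) ⊔ F for some subgroup F of odd order normalized by a Sylow 2-subgroup of X. -/
theorem result {X : Type*} [Group X] [Finite X] : ∃ F : Subgroup X, Odd (Nat.card ↥F) ∧ (∃ S : Sylow 2 X, (S : Subgroup X) ≤ Subgroup.normalizer (F : Set X)) ∧ Cfsg.extendedTwoLayer X = Cfsg.pLayer 2 X ⊔ F := by
  haveI : Fact (Nat.Prime 2) := ⟨Nat.prime_two⟩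
  haveI := CfsgLib.Core.normal_pPrimeCore (G := X) 2
  haveI hB := CfsgLib.Local.ExtLayer.normal_base (G := X) (p := 2)
  obtain ⟨S⟩ := (inferInstance : Nonempty (Sylow 2 X))
  obtain ⟨T, hT⟩ := CfsgLib.SylowProd.sylow_inf_normal (CfsgLib.Local.ExtLayer.base 2 X) S
  set T' := (T : Subgroup ↥(CfsgLib.Local.ExtLayer.base 2 X)).map
    (CfsgLib.Local.ExtLayer.base 2 X).subtype with hT'
  have hT'eq : T' = (S : Subgroup X) ⊓ CfsgLib.Local.ExtLayer.base 2 X := by
    rw [hT', hT, Subgroup.map_subgroupOf_eq_of_le inf_le_right]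
  have hSB : (S : Subgroup X) ≤ Subgroup.normalizer (T' : Set X) := by
    intro s hs
    rw [hT'eq, Subgroup.mem_normalizer_iff]
    intro y
    rw [Subgroup.mem_inf, Subgroup.mem_inf]
    refine and_congr ((Subgroup.mem_normalizer_iff.mp (Subgroup.le_normalizer hs)) y) ?_
    exact ⟨fun h => hB.conj_mem y h s, fun h => by
      simpa [mul_assoc] using hB.conj_mem _ h s⁻¹⟩
  refine ⟨Cfsg.oddCore X ⊔ CfsgLib.Local.ExtLayer.coreC 2 T', ?_, ⟨S, ?_⟩, ?_⟩
  · rw [sup_comm]
    have h1 := CfsgLib.Core.card_sup_dvd_mul (K := Cfsg.oddCore X)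
      (A := CfsgLib.Local.ExtLayer.coreC 2 T')
      (by rw [Subgroup.normalizer_eq_top (H := Cfsg.oddCore X)]; exact le_top)
    refine Odd.of_dvd_nat ?_ h1
    exact (Nat.coprime_two_right.mp (CfsgLib.Local.ExtLayer.coprime_card_coreC T')).mul
      (CfsgLib.Core.odd_card_pPrimeCore_two)
  · exact CfsgLib.Core.le_normalizer_sup
      (by rw [Subgroup.normalizer_eq_top (H := Cfsg.oddCore X)]; exact le_top)
      (hSB.trans (CfsgLib.Local.ExtLayer.normalizer_le_normalizer_coreC T'))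
  · rw [CfsgLib.Local.ExtLayer.extendedTwoLayer_eq T, sup_assoc]

end Cfsg.Agent.S1343
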