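import Cfsg.Statements.S1344
import Cfsg.Agent.Lib.LocalExtLayer

set_option autoImplicit false
open Cfsg

namespace Cfsg.Agent.S1344

/-- Let K be a 2-component of the finite group X. Then K ≤ L*_{2'}(X) and K is normal in L*_{2'}(X). -/
theorem result {X : Type*} [Group X] [Finite X] (K : Subgroup X) (hK : Cfsg.IsPComponent 2 K) : K ≤ Cfsg.extendedTwoLayer X ∧ (K.subgroupOf (Cfsg.extendedTwoLayer X)).Normal := by
  haveI : Fact (Nat.Prime 2) := ⟨Nat.prime_two⟩
  haveI := CfsgLib.Core.normal_pPrimeCore (G := X) 2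
  have hKB : K ≤ CfsgLib.Local.ExtLayer.base 2 X :=
    (show K ≤ Cfsg.pLayer 2 X from le_sSup hK).trans le_sup_left
  have hKE : K ≤ Cfsg.extendedTwoLayer X :=
    (show K ≤ Cfsg.pLayer 2 X from le_sSup hK).trans (le_sup_of_le_left le_sup_left)
  refine ⟨hKE, (Subgroup.normal_subgroupOf_iff_le_normalizer hKE).mpr ?_⟩
  refine sup_le (sup_le (CfsgLib.Local.PComp.pLayer_le_normalizer hK) ?_) (iSup_le fun T => ?_)
  · have h : Cfsg.oddCore X ≤ Subgroup.normalizer ((K ⊔ Cfsg.pPrimeCore 2 X : Subgroup X) : Set X) :=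
      le_trans le_sup_right Subgroup.le_normalizer
    have h2 := h.trans (CfsgLib.Local.PComp.normalizer_le_normalizer_pGen 2 _)
    rwa [← CfsgLib.Local.PComp.eq_pGen hK] at h2
  · exact (Subgroup.map_subtype_le _).trans
      (CfsgLib.Local.ExtLayer.centralizer_sylow_le_normalizer hK hKB T)

end Cfsg.Agent.S1344
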