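import Cfsg.Statements.S1395
import Cfsg.Agent.Lib.FgsTransitivitySubnormal


set_option autoImplicit false
open Cfsg
open scoped commutatorElement

namespace Cfsg.Agent.S1395

/-- Let G be a minimal simple group of odd order, A a subgroup satisfying the transitivity hypothesis with K = O_{π(A)'}(C_G(A)), q a prime not dividing the order of A, and P a proper subgroup all of whose prime divisors divide the order of A, containing A as a subnormal subgroup, such that any two maximal A-invariant q-subgroups are conjugate under K. Then (a) K ∩ C_G(P) = O_{π(A)'}(C_G(P)); (b) any two maximal P-invariant q-subgroups are conjugate under O_{π(A)'}(C_G(P)); (c) every maximal P-invariant q-subgroup is a maximal A-invariant q-subgroup; (d) for every maximal P-invariant q-subgroup Q, P ∩ N_G(P)' ≤ N_G(Q)' and N_G(P) is generated by O_{π(A)'}(C_G(P)) and N_G(P) ∩ N_G(Q). -/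
theorem result {G : Type*} [Group G] [Finite G] (hG : Cfsg.IsMinSimpleOddOrder G)
    (A : Subgroup G) (hA : Cfsg.TransitivityHypothesis A) (q : ℕ) (hq : q.Prime) (hqA : ¬ q ∣ Nat.card A)
    (P : Subgroup G) (hP : P ≠ ⊤) (hPπ : (∀ r : ℕ, r.Prime → r ∣ Nat.card P → r ∣ Nat.card A)) (hAP : A ≤ P) (hsn : (A.subgroupOf P).IsSubnormal)
    (htr : ∀ Q₁ ∈ Cfsg.maxInvSubgroups ⊤ A {q}, ∀ Q₂ ∈ Cfsg.maxInvSubgroups ⊤ A {q}, ∃ k ∈ Cfsg.piCoreOf (Cfsg.primesNotDvd (Nat.card A)) (Subgroup.centralizer (A : Set G)), Q₂ = Q₁.map (MulAut.conj k).toMonoidHom) :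
    Cfsg.piCoreOf (Cfsg.primesNotDvd (Nat.card A)) (Subgroup.centralizer (A : Set G)) ⊓ Subgroup.centralizer (P : Set G) = Cfsg.piCoreOf (Cfsg.primesNotDvd (Nat.card A)) (Subgroup.centralizer (P : Set G)) ∧
      (∀ Q₁ ∈ Cfsg.maxInvSubgroups ⊤ P {q}, ∀ Q₂ ∈ Cfsg.maxInvSubgroups ⊤ P {q}, ∃ k ∈ Cfsg.piCoreOf (Cfsg.primesNotDvd (Nat.card A)) (Subgroup.centralizer (P : Set G)), Q₂ = Q₁.map (MulAut.conj k).toMonoidHom) ∧
      Cfsg.maxInvSubgroups ⊤ P {q} ⊆ Cfsg.maxInvSubgroups ⊤ A {q} ∧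
      ∀ Q ∈ Cfsg.maxInvSubgroups ⊤ P {q},
        P ⊓ ⁅Subgroup.normalizer (P : Set G), Subgroup.normalizer (P : Set G)⁆ ≤ ⁅Subgroup.normalizer (Q : Set G), Subgroup.normalizer (Q : Set G)⁆ ∧
        Subgroup.normalizer (P : Set G) = Cfsg.piCoreOf (Cfsg.primesNotDvd (Nat.card A)) (Subgroup.centralizer (P : Set G)) ⊔ (Subgroup.normalizer (P : Set G) ⊓ Subgroup.normalizer (Q : Set G)) := by
  classical
  haveI : Fact q.Prime := ⟨hq⟩
  have hG' : Cfsg.IsMinimalSimple G := hG.2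
  have hgood : CfsgLib.TransSubnormal.Good A q P := by
    refine CfsgLib.TransSubnormal.good_of_subnormal hG' hA hqA hP hPπ hsn ?_
    rw [Subgroup.map_subgroupOf_eq_of_le hAP]
    exact ⟨le_rfl, subset_rfl, htr⟩
  refine ⟨CfsgLib.TransSubnormal.core_eq hG' hA hAP, hgood.2.2, hgood.2.1, fun Q hQ => ?_⟩
  set K := Cfsg.piCoreOf (Cfsg.primesNotDvd (Nat.card A)) (Subgroup.centralizer (P : Set G)) with hK
  set N := Subgroup.normalizer (P : Set G) with hN
  set M := N ⊓ Subgroup.normalizer (Q : Set G) with hM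
  have hKC : K ≤ Subgroup.centralizer (P : Set G) := Subgroup.map_subtype_le _
  have hCN : Subgroup.centralizer (P : Set G) ≤ N := fun c hc => Subgroup.mem_normalizer_iff.mpr fun y =>
    ⟨fun hy => by rw [← hc y hy, mul_inv_cancel_right]; exact hy,
     fun hy => by
      have h := hc _ hy
      simp only [inv_mul_cancel_right] at h
      have h' : c * y * c⁻¹ = y := mul_left_cancel h.symm
      exact h' ▸ hy⟩
  have hNK : N ≤ Subgroup.normalizer (K : Set G) :=
    (CfsgLib.Core.le_normalizer_centralizer le_rfl).trans (CfsgLib.TransSubnormal.normalizer_le_piCoreOf _ _)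
  have hdec : ∀ n ∈ N, ∃ k ∈ K, ∃ m ∈ M, k * m = n := by
    intro n hn
    obtain ⟨k, hk, hke⟩ := hgood.2.2 Q hQ _ (CfsgLib.TransSubnormal.conj_max_mem' hn hQ)
    refine ⟨k, hk, k⁻¹ * n, ⟨mul_mem (N.inv_mem (hCN (hKC hk))) hn, ?_⟩, mul_inv_cancel_left k n⟩
    show k⁻¹ * n ∈ Subgroup.normalizer (Q : Set G)
    rw [← CfsgLib.Core.conj_smul_eq_self_iff, CfsgLib.Core.conj_smul_eq_map, ← CfsgLib.TransOdd.map_map_conj,
      hke, CfsgLib.TransOdd.map_map_conj, inv_mul_cancel, CfsgLib.TransOdd.map_conj_one]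
  refine ⟨?_, le_antisymm (fun n hn => ?_) (sup_le (hKC.trans hCN) inf_le_left)⟩
  · have hMK : ⁅M, M⁆ ≤ Subgroup.normalizer (K : Set G) :=
      (Subgroup.commutator_le_self M).trans (inf_le_left.trans hNK)
    have hcomm : ∀ x ∈ ⁅N, N⁆, ∃ k ∈ K, ∃ c ∈ ⁅M, M⁆, k * c = x := by
      intro x hx
      have : ⁅N, N⁆ ≤ K ⊔ ⁅M, M⁆ := by
        haveI : (K.subgroupOf N).Normal :=
          (Subgroup.normal_subgroupOf_iff_le_normalizer (hKC.trans hCN)).mpr hNK
        refine Subgroup.commutator_le.mpr fun a ha b hb => ?_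
        obtain ⟨k1, hk1, m1, hm1, rfl⟩ := hdec a ha
        obtain ⟨k2, hk2, m2, hm2, rfl⟩ := hdec b hb
        let π := QuotientGroup.mk' (K.subgroupOf N)
        let K1 : N := ⟨k1, hCN (hKC hk1)⟩
        let K2 : N := ⟨k2, hCN (hKC hk2)⟩
        let M1 : N := ⟨m1, hm1.1⟩
        let M2 : N := ⟨m2, hm2.1⟩
        have h1 : π K1 = 1 := (QuotientGroup.eq_one_iff K1).mpr hk1
        have h2 : π K2 = 1 := (QuotientGroup.eq_one_iff K2).mpr hk2
        have h3 : π (⁅K1 * M1, K2 * M2⁆ * ⁅M1, M2⁆⁻¹) = 1 := by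
          rw [map_mul, map_inv, map_commutatorElement, map_commutatorElement, map_mul, map_mul, h1, h2, one_mul, one_mul, mul_inv_cancel]
        have h4 : ⁅k1 * m1, k2 * m2⁆ * ⁅m1, m2⁆⁻¹ ∈ K :=
          (QuotientGroup.eq_one_iff (⁅K1 * M1, K2 * M2⁆ * ⁅M1, M2⁆⁻¹)).mp h3
        have h5 := mul_mem (Subgroup.mem_sup_left (T := ⁅M, M⁆) h4)
          (Subgroup.mem_sup_right (S := K) (Subgroup.commutator_mem_commutator hm1 hm2))
        rwa [inv_mul_cancel_right] at h5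
      exact (CfsgLib.Core.mem_sup_iff_of_le_normalizer' hMK).mp (sup_comm K ⁅M, M⁆ ▸ this hx)
    rintro x ⟨hxP, hxN⟩
    obtain ⟨k, hk, c, hc, hkc⟩ := hcomm x hxN
    have hxM : x ∈ M := ⟨Subgroup.le_normalizer hxP, hQ.1.2.2 hxP⟩
    have hcM : c ∈ M := Subgroup.commutator_le_self M hc
    have hkM : k ∈ M := by
      have := mul_mem hxM (M.inv_mem hcM)
      rwa [← hkc, mul_inv_cancel_right] at this
    set f : M →* Abelianization M := Abelianization.of
    have hc1 : f ⟨c, hcM⟩ = 1 := by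
      rw [← MonoidHom.mem_ker, Abelianization.ker_of]
      rw [← Subgroup.map_subtype_commutator] at hc
      obtain ⟨w, hw, hwc⟩ := hc
      rwa [show (⟨c, hcM⟩ : M) = w from Subtype.ext hwc.symm]
    have hxk : f ⟨x, hxM⟩ = f ⟨k, hkM⟩ := by
      rw [show (⟨x, hxM⟩ : M) = ⟨k, hkM⟩ * ⟨c, hcM⟩ from Subtype.ext hkc.symm, map_mul, hc1, mul_one]
    have h1 : f ⟨x, hxM⟩ = 1 := by
      have ha : orderOf (f ⟨x, hxM⟩) ∣ Nat.card P :=
        (orderOf_map_dvd f _).trans (by rw [Subgroup.orderOf_mk]; exact Subgroup.orderOf_dvd_natCard _ hxP)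
      have hb : orderOf (f ⟨x, hxM⟩) ∣ Nat.card K := by
        rw [hxk]; exact (orderOf_map_dvd f _).trans (by rw [Subgroup.orderOf_mk]; exact Subgroup.orderOf_dvd_natCard _ hk)
      refine orderOf_eq_one_iff.mp (Nat.eq_one_of_dvd_coprimes ?_ ha hb)
      exact Nat.coprime_of_dvd' fun r hr h1 h2 =>
        absurd (hPπ r hr h1) (CfsgLib.TransOdd.card_piCoreOf _ _ r hr h2).2
    rw [← MonoidHom.mem_ker, Abelianization.ker_of] at h1
    refine Subgroup.commutator_mono (inf_le_right : M ≤ _) (inf_le_right : M ≤ _) ?_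
    rw [← Subgroup.map_subtype_commutator]
    exact ⟨_, h1, rfl⟩
  · obtain ⟨k, hk, m, hm, rfl⟩ := hdec n hn
    exact Subgroup.mul_mem_sup hk hm

end Cfsg.Agent.S1395
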