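import Cfsg.Statements.S1441
import Cfsg.Agent.Lib.CoreCoprime

set_option autoImplicit false
open Cfsg

namespace Cfsg.Agent.S1441

/-- Let G be a finite group, H a solvable subgroup and A a subgroup normalizing H. Suppose there is a chain H = H₀ ≥ H₁ ≥ ⋯ ≥ H_n = 1 of subgroups normal in H and normalized by A such that A acts trivially on each factor H_{i-1}/H_i (that is, [H_{i-1}, A] ≤ H_i). Then every prime dividing the index of C_A(H) in A divides the order of H. -/
theorem result {G : Type*} [Group G] [Finite G] (H A : Subgroup G) (hH : Group.IsSolvable H) (hA : (A ≤ Subgroup.normalizer (H : Set G)))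
    (n : ℕ) (c : Fin (n + 1) → Subgroup G) (hc0 : c 0 = H) (hcn : c (Fin.last n) = ⊥) (hanti : Antitone c)
    (hcN : ∀ i, H ≤ Subgroup.normalizer ((c i : Subgroup G) : Set G)) (hcA : ∀ i, A ≤ Subgroup.normalizer ((c i : Subgroup G) : Set G))
    (htriv : ∀ i : Fin n, ⁅c i.castSucc, A⁆ ≤ c i.succ) :
    ∀ p : ℕ, p.Prime → p ∣ (A ⊓ Subgroup.centralizer (H : Set G)).relIndex A → p ∣ Nat.card H := by
  intro p hp hdvd
  by_contra hpH
  haveI : Fact p.Prime := ⟨hp⟩
  set K := A ⊓ Subgroup.centralizer (H : Set G) with hK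
  have key : ∀ a ∈ A, (orderOf a).Coprime (Nat.card H) → a ∈ Subgroup.centralizer (H : Set G) := by
    intro a ha hcop
    rw [← Subgroup.zpowers_le]
    suffices h : ∀ i, Subgroup.zpowers a ≤ Subgroup.centralizer ((c i : Subgroup G) : Set G) by
      simpa [hc0] using h 0
    intro i
    induction i using Fin.reverseInduction with
    | last => rw [hcn]; exact Subgroup.le_centralizer_iff.mp bot_le
    | cast i ih =>
      have hcle : c i.castSucc ≤ H := by rw [← hc0]; exact hanti (Fin.zero_le _)
      refine CfsgLib.Core.le_centralizer_of_stabilizes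
        (Subgroup.zpowers_le.mpr (hcA _ ha))
        (by rw [Nat.card_zpowers]; exact hcop.coprime_dvd_right (Subgroup.card_dvd_of_le hcle))
        (Or.inl inferInstance) ?_
      refine le_bot_iff.mp ((Subgroup.commutator_mono ((Subgroup.commutator_mono le_rfl
        (Subgroup.zpowers_le.mpr ha)).trans (htriv i)) le_rfl).trans ?_)
      exact (Subgroup.commutator_eq_bot_iff_le_centralizer.mpr (Subgroup.le_centralizer_iff.mp ih)).le
  let P : Sylow p A := default
  have hPK : (P : Subgroup A) ≤ K.subgroupOf A := by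
    intro x hx
    refine ⟨x.2, key x x.2 ?_⟩
    obtain ⟨k, hk⟩ := P.2 ⟨x, hx⟩
    have hd : orderOf (x : G) ∣ p ^ k := orderOf_dvd_of_pow_eq_one (by
      have := congrArg (fun z : (P : Subgroup A) => ((z : A) : G)) hk
      simpa using this)
    exact (((Nat.Prime.coprime_iff_not_dvd hp).mpr hpH).pow_left k).coprime_dvd_left hd
  exact P.not_dvd_index (hdvd.trans (Subgroup.index_dvd_of_le hPK))

end Cfsg.Agent.S1441
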