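import Cfsg.Statements.S1442
import Cfsg.Agent.Lib.CoreCoprime
import Cfsg.Agent.Lib.CoreCoprime2

set_option autoImplicit false
open Cfsg

namespace Cfsg.Agent.S1442

/-- Let G be a finite group, H a nilpotent subgroup and A a subgroup normalizing H with the orders of A and H coprime. Put C = H ∩ C_G(A). If H ∩ C_G(C) ≤ C then A centralizes H. -/
theorem result {G : Type*} [Group G] [Finite G] (H A : Subgroup G) (hH : Group.IsNilpotent H) (hA : (A ≤ Subgroup.normalizer (H : Set G))) (hcop : (Nat.card A).Coprime (Nat.card H))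
    (hC : H ⊓ Subgroup.centralizer (((H ⊓ Subgroup.centralizer (A : Set G)) : Subgroup G) : Set G) ≤ (H ⊓ Subgroup.centralizer (A : Set G))) :
    A ≤ Subgroup.centralizer (H : Set G) := by
  set C := H ⊓ Subgroup.centralizer (A : Set G) with hCdef
  set N := H ⊓ Subgroup.normalizer (C : Set G) with hNdef
  have hCA : A ≤ Subgroup.centralizer (C : Set G) := Subgroup.le_centralizer_iff.mp inf_le_right
  have hAN : A ≤ Subgroup.normalizer (N : Set G) := by
    refine CfsgLib.Core.le_normalizer_inf hA ?_
    exact (hCA.trans (CfsgLib.Core.centralizer_le_normalizer C)).trans Subgroup.le_normalizer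
  have h1 : ⁅⁅C, N⁆, A⁆ = ⊥ := by
    rw [Subgroup.commutator_eq_bot_iff_le_centralizer, Subgroup.le_centralizer_iff]
    refine hCA.trans (Subgroup.centralizer_le ?_)
    exact CfsgLib.Core.commutator_le_of_le_normalizer inf_le_right
  have h2 : ⁅⁅A, C⁆, N⁆ = ⊥ := by
    rw [Subgroup.commutator_eq_bot_iff_le_centralizer.mpr hCA, Subgroup.commutator_bot_left]
  have hle : ⁅N, A⁆ ≤ N := CfsgLib.Core.commutator_le_of_le_normalizer hAN
  have h3 : ⁅⁅N, A⁆, C⁆ = ⊥ := Subgroup.commutator_commutator_eq_bot_of_rotate h2 h1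
  have h4 : ⁅N, A⁆ ≤ C :=
    (le_inf (hle.trans inf_le_left) (Subgroup.commutator_eq_bot_iff_le_centralizer.mp h3)).trans hC
  have hsol : Group.IsSolvable A ∨ Group.IsSolvable N := Or.inr (by
    haveI := hH
    exact CfsgLib.Core.solvable_of_le inf_le_left inferInstance)
  have hNA : A ≤ Subgroup.centralizer (N : Set G) := by
    refine CfsgLib.Core.le_centralizer_of_stabilizes hAN
      (hcop.coprime_dvd_right (Subgroup.card_dvd_of_le inf_le_left)) hsol ?_
    exact le_bot_iff.mp ((Subgroup.commutator_mono h4 le_rfl).trans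
      (Subgroup.commutator_eq_bot_iff_le_centralizer.mpr (Subgroup.le_centralizer_iff.mp hCA)).le)
  have hNC : N ≤ C := le_inf inf_le_left (Subgroup.le_centralizer_iff.mp hNA)
  haveI := hH
  have hnc : NormalizerCondition H := Group.normalizerCondition_of_isNilpotent
  have htop : C.subgroupOf H = ⊤ := by
    by_contra hne
    have hlt := hnc _ (lt_top_iff_ne_top.mpr hne)
    refine hlt.not_ge fun x hx => ?_
    rw [Subgroup.mem_subgroupOf]
    refine hNC ⟨x.2, ?_⟩
    show (x : G) ∈ Subgroup.normalizer (C : Set G)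
    rw [Subgroup.mem_normalizer_iff] at hx ⊢
    intro y
    constructor
    · intro hy
      exact (hx ⟨y, hy.1⟩).mp hy
    · intro hy
      have hyH : y ∈ H := by
        have := mul_mem (mul_mem (inv_mem x.2) hy.1) x.2
        simpa [mul_assoc] using this
      exact (hx ⟨y, hyH⟩).mpr hy
  exact Subgroup.le_centralizer_iff.mp ((Subgroup.subgroupOf_eq_top.mp htop).trans inf_le_right)

end Cfsg.Agent.S1442
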