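import Cfsg.Statements.S1443
import Cfsg.Agent.Lib.CoreOmega
import Cfsg.Agent.Lib.CoreCoprime2

set_option autoImplicit false
open Cfsg

namespace Cfsg.Agent.S1443

/-- Let G be a finite group, p an odd prime, H a p-subgroup, E an elementary abelian subgroup of H, and A a subgroup of order coprime to p normalizing H. If A centralizes every element of order p in H ∩ C_G(E), then A centralizes H. -/
theorem result {G : Type*} [Group G] [Finite G] (p : ℕ) [Fact p.Prime] (hp : p ≠ 2) (H E A : Subgroup G) (hH : IsPGroup p H) (hE : E ≤ H) (hEe : Cfsg.IsElementaryAbelian p E)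
    (hA : (A ≤ Subgroup.normalizer (H : Set G))) (hcop : (Nat.card A).Coprime p)
    (hfix : ∀ x ∈ (H ⊓ Subgroup.centralizer (E : Set G)), orderOf x = p → A ≤ Subgroup.centralizer ({x} : Set G)) :
    A ≤ Subgroup.centralizer (H : Set G) := by
  have hAE : A ≤ Subgroup.centralizer (E : Set G) := by
    intro a ha
    rw [Subgroup.mem_centralizer_iff]
    intro e he
    rcases eq_or_ne e 1 with rfl | hne
    · simp
    have heC : e ∈ H ⊓ Subgroup.centralizer (E : Set G) := ⟨hE he, by
      show e ∈ Subgroup.centralizer (E : Set G)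
      rw [Subgroup.mem_centralizer_iff]
      intro f hf
      haveI := hEe.1
      exact congrArg Subtype.val (hEe.1.is_comm.comm (⟨f, hf⟩ : E) ⟨e, he⟩)⟩
    exact Subgroup.mem_centralizer_iff.mp
      (hfix e heC (orderOf_eq_prime (hEe.2 e he) hne) ha) e (Set.mem_singleton e)
  have hAC : A ≤ Subgroup.centralizer ((H ⊓ Subgroup.centralizer (E : Set G) : Subgroup G) : Set G) := by
    intro a ha
    have hCN : A ≤ Subgroup.normalizer ((Subgroup.centralizer (E : Set G) : Subgroup G) : Set G) :=
      CfsgLib.Core.le_normalizer_centralizer (hAE.trans (CfsgLib.Core.centralizer_le_normalizer E))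
    refine CfsgLib.Core.mem_centralizer_of_fixes_omega (hH.to_le inf_le_left)
      (CfsgLib.Core.le_normalizer_inf hA hCN ha) (hcop.coprime_dvd_left ?_) fun x hx hxp => ?_
    · exact Subgroup.orderOf_dvd_natCard A ha
    rcases eq_or_ne x 1 with rfl | hne
    · simp
    have hxp' : x ^ p = 1 := hxp.resolve_right fun h => hp h.1
    rw [← Subgroup.mem_centralizer_iff.mp (hfix x hx (orderOf_eq_prime hxp' hne) ha) x
      (Set.mem_singleton x), mul_inv_cancel_right]
  refine CfsgLib.Core.thompson_pxq (hH.to_le hE) hcop hH (Subgroup.le_centralizer_iff.mp hAE)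
    (hE.trans Subgroup.le_normalizer) hA ?_
  exact Subgroup.le_centralizer_iff.mp hAC

end Cfsg.Agent.S1443
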