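import Cfsg.Statements.S1457
import Cfsg.Agent.Lib.OddStable

set_option autoImplicit false
open Cfsg

namespace Cfsg.Agent.S1457

/-- Let G be a solvable group of odd order, p a prime, S a Sylow p-subgroup of G and A an abelian subgroup of S normal in S. Then A ≤ O_{p',p}(G). -/
theorem result {G : Type*} [Group G] [Finite G] [Group.IsSolvable G] (hodd : Odd (Nat.card G)) (p : ℕ) [Fact p.Prime] (S : Sylow p G) (A : Subgroup G) (hA : A ≤ (S : Subgroup G)) (hAc : IsMulCommutative A)
    (hAn : (S : Subgroup G) ≤ Subgroup.normalizer (A : Set G)) :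
    A ≤ Cfsg.pPrimePCore p G := by
  rcases eq_or_ne p 2 with hp2 | hp2
  · rw [CfsgLib.OddStable.sylow_bot_of_two hodd hp2 S] at hA
    exact hA.trans bot_le
  haveI hn := CfsgLib.Core.normal_pPrimeCore (G := G) p
  have hfs : Function.Surjective (QuotientGroup.mk' (Cfsg.pPrimeCore p G)) := QuotientGroup.mk'_surjective _
  show A ≤ Subgroup.comap _ _
  rw [← Subgroup.map_le_iff_le_comap]
  refine CfsgLib.Stable.le_pCore_of_abelian CfsgLib.OddStable.centralizer_quotient_core
    (CfsgLib.OddStable.stab (CfsgLib.OddStable.odd_quotient hodd _) hp2)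
    ((S.2.to_le hA).map _) ?_ ?_
  · rintro _ ⟨a, ha, rfl⟩ _ ⟨b, hb, rfl⟩
    rw [← map_mul, ← map_mul]
    have e : a * b = b * a := congrArg Subtype.val (hAc.is_comm.comm ⟨a, ha⟩ ⟨b, hb⟩)
    rw [e]
  · refine (CfsgLib.Core.pCore_le_sylow (S.mapSurjective hfs)).trans ?_
    rw [Sylow.coe_mapSurjective]
    rintro _ ⟨s, hs, rfl⟩
    have := hAn hs
    rw [Subgroup.mem_normalizer_iff] at this
    rw [Subgroup.mem_normalizer_iff]
    intro y
    constructor
    · rintro ⟨a, ha, rfl⟩
      exact ⟨s * a * s⁻¹, (this a).1 ha, by simp⟩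
    · rintro ⟨a, ha, he⟩
      refine ⟨s⁻¹ * a * s, ?_, ?_⟩
      · refine (this _).2 ?_
        simpa [mul_assoc] using ha
      · rw [map_mul, map_mul, he, map_inv]
        group

end Cfsg.Agent.S1457
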