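import Cfsg.Statements.S1458
import Cfsg.Agent.Lib.OddStable

set_option autoImplicit false
open Cfsg

namespace Cfsg.Agent.S1458

/-- Let G be a solvable group of odd order, p a prime and S a Sylow p-subgroup of G. Then the subgroup generated by the centre of the Thompson subgroup of S and O_{p'}(G) is normal in G. -/
theorem result {G : Type*} [Group G] [Finite G] [Group.IsSolvable G] (hodd : Odd (Nat.card G)) (p : ℕ) [Fact p.Prime] (S : Sylow p G) :
    (Cfsg.centerThompsonOf p (S : Subgroup G) ⊔ Cfsg.pPrimeCore p G).Normal := by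
  haveI hn := CfsgLib.Core.normal_pPrimeCore (G := G) p
  rw [CfsgLib.Stable.centerThompsonOf_eq]
  rcases eq_or_ne p 2 with hp2 | hp2
  · have h : CfsgLib.Stable.Zsub p (S : Subgroup G) = ⊥ :=
      le_bot_iff.1 ((CfsgLib.Stable.Zsub_le p _).trans (CfsgLib.OddStable.sylow_bot_of_two hodd hp2 S).le)
    rw [h, bot_sup_eq]
    exact hn
  set f := QuotientGroup.mk' (Cfsg.pPrimeCore p G) with hf
  have hfs : Function.Surjective f := QuotientGroup.mk'_surjective _
  have hker : (Nat.card f.ker).Coprime p := by
    rw [hf, QuotientGroup.ker_mk']; exact CfsgLib.Core.coprime_card_pPrimeCore p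
  have h := CfsgLib.Stable.Zsub_normal hp2 (Or.inr rfl)
    (CfsgLib.OddStable.stab (CfsgLib.OddStable.odd_quotient hodd _) hp2)
    CfsgLib.OddStable.centralizer_quotient_core (S.mapSurjective hfs) (CfsgLib.Stable.sclosed_self _)
  rw [Sylow.coe_mapSurjective, ← CfsgLib.Stable.map_Zsub p _ f (CfsgLib.Stable.injOn_of_coprime_ker f hker S.2)] at h
  have h2 := h.comap f
  rw [Subgroup.comap_map_eq, hf, QuotientGroup.ker_mk'] at h2
  exact h2

end Cfsg.Agent.S1458
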