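import Cfsg.Statements.S1459
import Cfsg.Agent.Lib.CoreTransfer
import Cfsg.Agent.Lib.TransferApps
import Cfsg.Agent.Lib.CoreCoprime
import Cfsg.Agent.Lib.CoreCoprime2

set_option autoImplicit false
open Cfsg
open scoped commutatorElement

namespace Cfsg.Agent.S1459

/-- Let G be a finite solvable group. (a) If H is a normal subgroup of order coprime to its index, K is a complement to H, and H ≤ G', then H = [H, K] and H ∩ C_G(K) ≤ [H, H]. (b) If G' is nilpotent and has prime index in G, then the order of G' is coprime to its index and G' = [G, K] (the subgroup generated by commutators of elements of G with elements of K) for every complement K of G'. -/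
theorem result {G : Type*} [Group G] [Finite G] [Group.IsSolvable G] :
    (∀ (H K : Subgroup G), H.Normal → (Nat.card H).Coprime H.index → Subgroup.IsComplement' H K → H ≤ commutator G →
        H = ⁅H, K⁆ ∧ H ⊓ Subgroup.centralizer (K : Set G) ≤ ⁅H, H⁆) ∧
      (Group.IsNilpotent ↥(commutator G) → (commutator G).index.Prime →
        (Nat.card ↥(commutator G)).Coprime (commutator G).index ∧
        ∀ K : Subgroup G, Subgroup.IsComplement' (commutator G) K → commutator G = ⁅(⊤ : Subgroup G), K⁆) := by
  classical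
  have part1 : ∀ (H K : Subgroup G), H.Normal → (Nat.card H).Coprime H.index →
      Subgroup.IsComplement' H K → H ≤ commutator G →
        H = ⁅H, K⁆ ∧ H ⊓ Subgroup.centralizer (K : Set G) ≤ ⁅H, H⁆ := by
    intro H K hHn hcop hc hle
    haveI := hHn
    have hKH : K ≤ Subgroup.normalizer (H : Set G) := by
      rw [Subgroup.normalizer_eq_top]; exact le_top
    set L := ⁅H, K⁆ with hLdef
    have hLH : L ≤ H := CfsgLib.Core.commutator_le_of_le_normalizer hKH
    haveI hLn : L.Normal := by
      rw [← Subgroup.normalizer_eq_top_iff, eq_top_iff, ← hc.sup_eq_top]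
      exact sup_le (CfsgLib.Core.le_normalizer_commutator_left H K)
        (CfsgLib.Core.le_normalizer_commutator_right H K)
    have hHL : H = L := by
      refine le_antisymm ?_ hLH
      let f := QuotientGroup.mk' L
      have hsurj := QuotientGroup.mk'_surjective L
      have hHK : ⁅H.map f, K.map f⁆ = ⊥ := by
        rw [← Subgroup.map_commutator, Subgroup.map_eq_bot_iff, QuotientGroup.ker_mk']
      have hdisj : H.map f ⊓ K.map f = ⊥ := by
        rw [eq_bot_iff]
        rintro x ⟨⟨h, hh, rfl⟩, ⟨k, hk, hkx⟩⟩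
        have h1 : k⁻¹ * h ∈ L := by
          rw [← QuotientGroup.eq_one_iff]
          show f (k⁻¹ * h) = 1
          rw [map_mul, map_inv, hkx, inv_mul_cancel]
        have h2 : k ∈ H := by
          have := mul_mem hh (inv_mem (hLH h1))
          simpa using this
        have hk1 : k = 1 := Subgroup.mem_bot.mp (disjoint_iff.mp hc.disjoint ▸ ⟨h2, hk⟩)
        rw [Subgroup.mem_bot, ← hkx, hk1, map_one]
      haveI : (H.map f).Normal := Subgroup.Normal.map hHn f hsurj
      have hperf : H.map f ≤ ⁅H.map f, H.map f⁆ := by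
        have hcomm : (⊤ : Subgroup (G ⧸ L)) = H.map f ⊔ K.map f := by
          rw [← Subgroup.map_sup, hc.sup_eq_top, Subgroup.map_top_of_surjective _ hsurj]
        have hC : commutator (G ⧸ L) ≤ ⁅H.map f, H.map f⁆ ⊔ ⁅K.map f, K.map f⁆ := by
          rw [commutator_def, Subgroup.commutator_le]
          intro a _ b _
          have hcm : ∀ x ∈ H.map f, ∀ y ∈ K.map f, x * y = y * x := fun x hx y hy =>
            (Subgroup.mem_centralizer_iff.mp
              (Subgroup.commutator_eq_bot_iff_le_centralizer.mp hHK hx) y hy).symm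
          have hmem : ∀ c : G ⧸ L, ∃ x ∈ H.map f, ∃ y ∈ K.map f, c = x * y := fun c => by
            have : c ∈ H.map f ⊔ K.map f := hcomm ▸ Subgroup.mem_top c
            obtain ⟨x, hx, y, hy, rfl⟩ := Subgroup.mem_sup_of_normal_left.mp this
            exact ⟨x, hx, y, hy, rfl⟩
          obtain ⟨a1, ha1, a2, ha2, rfl⟩ := hmem a
          obtain ⟨b1, hb1, b2, hb2, rfl⟩ := hmem b
          have e : ⁅a1 * a2, b1 * b2⁆ = ⁅a1, b1⁆ * ⁅a2, b2⁆ := by
            have k1 : Commute a2 b1 := (hcm b1 hb1 a2 ha2).symm
            have k2 : Commute a2 a1⁻¹ := (hcm a1⁻¹ (inv_mem ha1) a2 ha2).symm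
            have k3 : Commute b2 a1⁻¹ := (hcm a1⁻¹ (inv_mem ha1) b2 hb2).symm
            have k4 : Commute b2 b1⁻¹ := (hcm b1⁻¹ (inv_mem hb1) b2 hb2).symm
            have k5 : Commute a2 b1⁻¹ := (hcm b1⁻¹ (inv_mem hb1) a2 ha2).symm
            rw [commutatorElement_def, commutatorElement_def, commutatorElement_def]
            calc a1 * a2 * (b1 * b2) * (a1 * a2)⁻¹ * (b1 * b2)⁻¹
                = a1 * (a2 * b1) * b2 * a2⁻¹ * a1⁻¹ * b2⁻¹ * b1⁻¹ := by group
              _ = a1 * b1 * (a2 * (b2 * (a2⁻¹ * a1⁻¹))) * b2⁻¹ * b1⁻¹ := by rw [k1.eq]; group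
              _ = a1 * b1 * (a1⁻¹ * (a2 * b2 * a2⁻¹)) * b2⁻¹ * b1⁻¹ := by
                  rw [k2.inv_left.eq, ← mul_assoc b2, k3.eq]
                  simp only [← mul_assoc]
                  rw [mul_assoc (a1 * b1) a2, k2.eq]
                  group
              _ = a1 * b1 * a1⁻¹ * ((a2 * b2 * a2⁻¹ * b2⁻¹) * b1⁻¹) := by group
              _ = a1 * b1 * a1⁻¹ * (b1⁻¹ * (a2 * b2 * a2⁻¹ * b2⁻¹)) := by
                  rw [(((k5.mul_left k4).mul_left k5.inv_left).mul_left k4.inv_left).eq]
              _ = _ := by group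
          rw [e]
          exact Subgroup.mul_mem_sup (Subgroup.commutator_mem_commutator ha1 hb1)
            (Subgroup.commutator_mem_commutator ha2 hb2)
        intro x hx
        have hxc : x ∈ commutator (G ⧸ L) := by
          obtain ⟨h, hh, rfl⟩ := hx
          rw [commutator_def, ← Subgroup.map_top_of_surjective f hsurj, ← Subgroup.map_commutator]
          exact ⟨h, hle hh, rfl⟩
        obtain ⟨u, hu, v, hv, rfl⟩ := Subgroup.mem_sup_of_normal_left.mp (hC hxc)
        have hu' : u ∈ H.map f := Subgroup.commutator_le_self _ hu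
        have hv' : v ∈ H.map f := by
          have := mul_mem (inv_mem hu') hx
          simpa using this
        have hv1 : v = 1 := Subgroup.mem_bot.mp (hdisj ▸ ⟨hv', Subgroup.commutator_le_self _ hv⟩)
        simpa [hv1] using hu
      have hbot : H.map f = ⊥ := by
        by_contra hne
        haveI : Nontrivial ↥(H.map f) := (Subgroup.nontrivial_iff_ne_bot _).mpr hne
        refine (Group.IsSolvable.commutator_lt_top_of_nontrivial ↥(H.map f)).ne ?_
        apply Subgroup.map_injective (H.map f).subtype_injective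
        rw [Subgroup.map_subtype_commutator, ← MonoidHom.range_eq_map, Subgroup.range_subtype]
        exact le_antisymm (Subgroup.commutator_le_self _) hperf
      rwa [Subgroup.map_eq_bot_iff, QuotientGroup.ker_mk'] at hbot
    refine ⟨hHL, ?_⟩
    rintro x ⟨hxH, hxC⟩
    have hcK : (Nat.card K).Coprime (Nat.card H) := by
      rw [← hc.symm.index_eq_card]; exact hcop.symm
    letI := Fintype.ofFinite K
    let φ : H →* Abelianization H := Abelianization.of
    let c : K → H →* H := fun k =>
      ((MulAut.conj (k : G)).toMonoidHom.comp H.subtype).codRestrict H fun h => hHn.conj_mem _ h.2 _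
    let ψ : H →* Abelianization H := ∏ k : K, φ.comp (c k)
    have hψ : H ≤ ψ.ker.map H.subtype := by
      refine hHL.le.trans ((CfsgLib.Core.commutator_le_left_of fun h hh k hk => ?_) :
        ⁅H, K⁆ ≤ ψ.ker.map H.subtype)
      have hm : h * k * h⁻¹ * k⁻¹ ∈ H := by
        have := mul_mem hh (hHn.conj_mem _ (inv_mem hh) k)
        simpa [mul_assoc] using this
      refine ⟨⟨_, hm⟩, ?_, rfl⟩
      have e : (⟨h * k * h⁻¹ * k⁻¹, hm⟩ : H) = ⟨h, hh⟩ * (c ⟨k, hk⟩ ⟨h, hh⟩)⁻¹ :=
        Subtype.ext (by simp [c, mul_assoc])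
      have e2 : ψ (c ⟨k, hk⟩ ⟨h, hh⟩) = ψ ⟨h, hh⟩ := by
        simp only [ψ, MonoidHom.finsetProd_apply, MonoidHom.coe_comp, Function.comp_apply]
        exact Fintype.prod_equiv (Equiv.mulRight ⟨k, hk⟩) _ _ fun b =>
          congrArg φ (Subtype.ext (by simp [c, mul_assoc]))
      rw [SetLike.mem_coe, MonoidHom.mem_ker, e, map_mul, map_inv, e2, mul_inv_cancel]
    obtain ⟨y, hy, rfl⟩ := hψ hxH
    have h1 : ψ y = φ y ^ Nat.card K := by
      simp only [ψ, MonoidHom.finsetProd_apply, MonoidHom.coe_comp, Function.comp_apply]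
      rw [Finset.prod_eq_pow_card (b := φ y) fun k _ => congrArg φ (Subtype.ext (by
        show (k : G) * y * (k : G)⁻¹ = y
        have hkc : (k : G) * y = y * k := Subgroup.mem_centralizer_iff.mp hxC (k : G) k.2
        rw [hkc]
        exact mul_inv_cancel_right _ _)), Finset.card_univ, Nat.card_eq_fintype_card]
    rw [SetLike.mem_coe, MonoidHom.mem_ker, h1] at hy
    have h2 : φ y = 1 := orderOf_eq_one_iff.mp (Nat.dvd_one.mp
      (hcK ▸ Nat.dvd_gcd (orderOf_dvd_of_pow_eq_one hy)
        ((orderOf_map_dvd φ y).trans (orderOf_dvd_natCard y))))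
    rw [← MonoidHom.mem_ker, Abelianization.ker_of] at h2
    rw [← Subgroup.map_subtype_commutator]
    exact ⟨y, h2, rfl⟩
  refine ⟨part1, fun hnil hp => ?_⟩
  set p := (commutator G).index with hpdef
  haveI : Fact p.Prime := ⟨hp⟩
  haveI := hnil
  obtain ⟨N, hNn, hNc, k, hk⟩ := CfsgLib.Core.hasNormalPComplement_iff.mp
    (CfsgLib.Transfer.hasNormalPComplement_of_isNilpotent (G := ↥(commutator G)) (p := p))
  haveI := hNn
  set M := N.map (commutator G).subtype with hM
  haveI hMn : M.Normal := by
    refine ⟨?_⟩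
    rintro _ ⟨a, ha, rfl⟩ g
    have hm : g * (a : G) * g⁻¹ ∈ commutator G := (inferInstance : (commutator G).Normal).conj_mem _ a.2 g
    refine ⟨⟨_, hm⟩, CfsgLib.Core.mem_of_coprime_of_index_pow hk ?_, rfl⟩
    have he : orderOf (⟨g * (a : G) * g⁻¹, hm⟩ : ↥(commutator G)) = orderOf a := by
      rw [← orderOf_injective (commutator G).subtype (Subgroup.subtype_injective _),
        ← orderOf_injective (commutator G).subtype (Subgroup.subtype_injective _) a]
      exact MulEquiv.orderOf_eq (MulAut.conj g) (a : G)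
    rw [he]
    exact hNc.coprime_dvd_left (Subgroup.orderOf_dvd_natCard N ha)
  have hMi : M.index = p ^ (k + 1) := by
    rw [hM, Subgroup.index_map_subtype, hk, pow_succ]
  have hQ : IsPGroup p (G ⧸ M) := IsPGroup.of_card (Subgroup.index_eq_card M ▸ hMi)
  have hMle : M ≤ commutator G := Subgroup.map_subtype_le N
  let f := QuotientGroup.mk' M
  have hfs := QuotientGroup.mk'_surjective M
  have hQc : commutator (G ⧸ M) = (commutator G).map f := by
    rw [commutator_def, commutator_def, Subgroup.map_commutator, Subgroup.map_top_of_surjective f hfs]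
  have hQp : (commutator (G ⧸ M)).index = p := by
    rw [hQc, Subgroup.index_map_eq (commutator G) hfs ((QuotientGroup.ker_mk' M).le.trans hMle)]
  have hcyc : IsCyclic (G ⧸ M) := by
    obtain ⟨x, hx⟩ : ∃ x, x ∉ commutator (G ⧸ M) := by
      by_contra hall
      push Not at hall
      rw [show commutator (G ⧸ M) = ⊤ from top_le_iff.mp fun z _ => hall z, Subgroup.index_top] at hQp
      exact hp.one_lt.ne hQp
    refine ⟨x, fun y => ?_⟩
    by_contra hy
    obtain ⟨W, hW, hxW⟩ := (eq_top_or_exists_le_coatom (Subgroup.zpowers x)).resolve_left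
      (fun h => hy (show y ∈ Subgroup.zpowers x by rw [h]; exact Subgroup.mem_top y))
    obtain ⟨hWn, hWi⟩ := CfsgLib.Core.index_of_coatom_pgroup hQ hW
    haveI := hWn
    have hc : commutator (G ⧸ M) ≤ W := by
      haveI : IsCyclic ((G ⧸ M) ⧸ W) := isCyclic_of_prime_card (p := p) (by
        rw [← Subgroup.index_eq_card]; exact hWi)
      letI : CommGroup ((G ⧸ M) ⧸ W) := IsCyclic.commGroup
      exact (Abelianization.commutator_subset_ker (QuotientGroup.mk' W)).trans_eq (QuotientGroup.ker_mk' W)
    have : commutator (G ⧸ M) < W := lt_of_le_of_ne hc fun h => hx (h ▸ hxW (Subgroup.mem_zpowers x))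
    have h2 : W.index ∣ (commutator (G ⧸ M)).index := Subgroup.index_dvd_of_le hc
    have h3 := Subgroup.index_strictAnti this
    rw [hWi, hQp] at h3
    exact lt_irrefl _ h3
  have hcp : (Nat.card ↥(commutator G)).Coprime p := by
    have hle : commutator G ≤ M := by
      letI : CommGroup (G ⧸ M) := IsCyclic.commGroup
      exact (Abelianization.commutator_subset_ker f).trans_eq (QuotientGroup.ker_mk' M)
    rw [← le_antisymm hMle hle, hM, Nat.card_congr (N.equivMapOfInjective _ (Subgroup.subtype_injective _)).toEquiv.symm]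
    exact hNc
  refine ⟨hcp, fun K hK => ?_⟩
  refine le_antisymm ?_ (Subgroup.commutator_mono le_rfl le_top)
  exact ((part1 _ K inferInstance hcp hK le_rfl).1).le.trans (Subgroup.commutator_mono le_top le_rfl)

end Cfsg.Agent.S1459
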