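import Cfsg.Statements.S1460
import Cfsg.Agent.Lib.CoreSZ

set_option autoImplicit false
open Cfsg
open scoped commutatorElement Pointwise

namespace Cfsg.Agent.S1460

/-- Let G be a finite solvable group, K a normal subgroup and U a subgroup with G = KU, and H ≤ U a subgroup whose order is coprime to that of K. Then H ∩ G' = H ∩ U'; N_G(H) is generated by K ∩ C_G(H) and U ∩ N_G(H); and if gHg⁻¹ ≤ U for some g ∈ G then g = u c with u ∈ U and c ∈ K ∩ C_G(H). -/
theorem result {G : Type*} [Group G] [Finite G] [Group.IsSolvable G] (K U H : Subgroup G) [K.Normal] (hKU : K ⊔ U = ⊤) (hH : H ≤ U) (hcop : (Nat.card H).Coprime (Nat.card K)) :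
    H ⊓ commutator G = H ⊓ ⁅U, U⁆ ∧
      Subgroup.normalizer (H : Set G) = (K ⊓ Subgroup.centralizer (H : Set G)) ⊔ (U ⊓ Subgroup.normalizer (H : Set G)) ∧
      ∀ g : G, H.map (MulAut.conj g).toMonoidHom ≤ U → ∃ u ∈ U, ∃ c ∈ K ⊓ Subgroup.centralizer (H : Set G), g = u * c := by
  classical
  have hHK : H ≤ Subgroup.normalizer (K : Set G) := CfsgLib.Core.le_normalizer_normal H
  have hdis : H ⊓ K = ⊥ := by
    rw [eq_bot_iff]
    rintro z ⟨h1, h2⟩
    refine Subgroup.mem_bot.mpr (orderOf_eq_one_iff.mp ?_)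
    exact Nat.eq_one_of_dvd_coprimes hcop (Subgroup.orderOf_dvd_natCard H h1) (Subgroup.orderOf_dvd_natCard K h2)
  have hdec : ∀ g : G, ∃ k ∈ K, ∃ u ∈ U, g = k * u := by
    intro g
    have : g ∈ ((K ⊔ U : Subgroup G) : Set G) := hKU ▸ Subgroup.mem_top g
    rw [Subgroup.normal_mul] at this
    obtain ⟨k, hk, u, hu, e⟩ := this
    exact ⟨k, hk, u, hu, e.symm⟩
  -- the conjugation statement
  have hconj : ∀ g : G, H.map (MulAut.conj g).toMonoidHom ≤ U →
      ∃ u ∈ U, ∃ c ∈ K ⊓ Subgroup.centralizer (H : Set G), g = u * c := by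
    intro g hg
    obtain ⟨k, hk, u, hu, hgu⟩ := hdec g⁻¹
    have hg' : g = u⁻¹ * k⁻¹ := by rw [← inv_inv g, hgu, mul_inv_rev]
    set m := k⁻¹ with hm
    have hmK : m ∈ K := K.inv_mem hk
    set B := MulAut.conj m • H with hB
    have hBc : Nat.card B = Nat.card H := Subgroup.card_map_of_injective (MulAut.conj m).injective
    have hBU : B ≤ U := by
      rintro _ ⟨a, ha, rfl⟩
      have h1 : g * a * g⁻¹ ∈ U := hg ⟨a, ha, rfl⟩
      show m * a * m⁻¹ ∈ U
      rw [show m * a * m⁻¹ = u * (g * a * g⁻¹) * u⁻¹ by rw [hg']; group]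
      exact U.mul_mem (U.mul_mem hu h1) (U.inv_mem hu)
    have hHK' : H ≤ Subgroup.normalizer ((K ⊓ U : Subgroup G) : Set G) := by
      intro a ha
      rw [Subgroup.mem_normalizer_iff]
      intro z
      have hK : z ∈ K ↔ a * z * a⁻¹ ∈ K := Subgroup.mem_normalizer_iff.mp (hHK ha) z
      have hU : z ∈ U ↔ a * z * a⁻¹ ∈ U := Subgroup.mem_normalizer_iff.mp (Subgroup.le_normalizer (hH ha)) z
      rw [Subgroup.mem_inf, Subgroup.mem_inf, hK, hU]
    have hBle : B ≤ H ⊔ (K ⊓ U) := by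
      intro z hz
      have hzU := hBU hz
      obtain ⟨a, ha, rfl⟩ := hz
      change m * a * m⁻¹ ∈ U at hzU
      show m * a * m⁻¹ ∈ H ⊔ (K ⊓ U)
      have hz' : a⁻¹ * (m * a * m⁻¹) ∈ K ⊓ U := by
        refine ⟨?_, U.mul_mem (U.inv_mem (hH ha)) hzU⟩
        rw [show a⁻¹ * (m * a * m⁻¹) = (a⁻¹ * m * a⁻¹⁻¹) * m⁻¹ by group]
        exact K.mul_mem (Subgroup.Normal.conj_mem inferInstance m hmK a⁻¹) (K.inv_mem hmK)
      rw [show m * a * m⁻¹ = a * (a⁻¹ * (m * a * m⁻¹)) by group]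
      exact Subgroup.mul_mem _ (Subgroup.mem_sup_left ha) (Subgroup.mem_sup_right hz')
    obtain ⟨v, hv, hvB⟩ := CfsgLib.Core.exists_conj_eq_of_coprime hHK'
      (hcop.coprime_dvd_right (Subgroup.card_dvd_of_le inf_le_left))
      (Or.inr (CfsgLib.Core.solvable_of_le inf_le_left (inferInstance : Group.IsSolvable K))) hBle hBc
    have hfix : MulAut.conj (v⁻¹ * m) • H = H := by
      rw [map_mul, mul_smul, ← hB, ← hvB, ← mul_smul, ← map_mul, inv_mul_cancel, map_one, one_smul]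
    refine ⟨u⁻¹ * v, U.mul_mem (U.inv_mem hu) hv.2, v⁻¹ * m,
      CfsgLib.Core.mem_inf_centralizer_of_normalizes hHK hdis (K.mul_mem (K.inv_mem hv.1) hmK) hfix, ?_⟩
    rw [hg']; group
  refine ⟨?_, ?_, hconj⟩
  · refine le_antisymm (fun h hh => ?_) (inf_le_inf_left H (Subgroup.commutator_mono le_top le_top))
    refine ⟨hh.1, ?_⟩
    set W := K ⊔ ⁅U, U⁆ with hW
    have hG' : _root_.commutator G ≤ W := by
      rw [commutator_eq_closure, Subgroup.closure_le]
      rintro _ ⟨x, y, rfl⟩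
      obtain ⟨k₁, hk₁, u₁, hu₁, rfl⟩ := hdec x
      obtain ⟨k₂, hk₂, u₂, hu₂, rfl⟩ := hdec y
      let π := QuotientGroup.mk' K
      have e1 : π k₁ = 1 := (QuotientGroup.eq_one_iff _).mpr hk₁
      have e2 : π k₂ = 1 := (QuotientGroup.eq_one_iff _).mpr hk₂
      have e : π ⁅k₁ * u₁, k₂ * u₂⁆ = π ⁅u₁, u₂⁆ := by
        rw [map_commutatorElement, map_commutatorElement, map_mul, map_mul, e1, e2, one_mul, one_mul]
      have hk : ⁅k₁ * u₁, k₂ * u₂⁆ * ⁅u₁, u₂⁆⁻¹ ∈ K := by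
        refine (QuotientGroup.eq_one_iff _).mp ?_
        show π (⁅k₁ * u₁, k₂ * u₂⁆ * ⁅u₁, u₂⁆⁻¹) = 1
        rw [map_mul, map_inv, e, mul_inv_cancel]
      have := W.mul_mem (Subgroup.mem_sup_left hk) (Subgroup.mem_sup_right (Subgroup.commutator_mem_commutator hu₁ hu₂) : ⁅u₁, u₂⁆ ∈ W)
      rwa [inv_mul_cancel_right] at this
    have hhW : h ∈ ((K ⊔ ⁅U, U⁆ : Subgroup G) : Set G) := hG' hh.2
    rw [Subgroup.normal_mul] at hhW
    obtain ⟨k, hk, w, hw, hkw⟩ := hhW
    have hkw' : k * w = h := hkw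
    have hwU : w ∈ U := (Subgroup.commutator_le.mpr fun a ha b hb => by
      rw [commutatorElement_def]
      exact U.mul_mem (U.mul_mem (U.mul_mem ha hb) (U.inv_mem ha)) (U.inv_mem hb)) hw
    have hkU : k ∈ U := by
      rw [show k = h * w⁻¹ by rw [← hkw', mul_inv_cancel_right]]
      exact U.mul_mem (hH hh.1) (U.inv_mem hwU)
    let f : U →* Abelianization U := Abelianization.of
    have hkf : f ⟨h, hH hh.1⟩ = f ⟨k, hkU⟩ := by
      have e : (⟨h, hH hh.1⟩ : U) = ⟨k, hkU⟩ * ⟨w, hwU⟩ := Subtype.ext hkw'.symm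
      have hw1 : f ⟨w, hwU⟩ = 1 := by
        refine MonoidHom.mem_ker.mp ?_
        rw [Abelianization.ker_of]
        rw [← Subgroup.map_subtype_commutator] at hw
        obtain ⟨w', hw', e'⟩ := hw
        rwa [show (⟨w, hwU⟩ : U) = w' from Subtype.ext e'.symm]
      rw [e, map_mul, hw1, mul_one]
    have h1 : f ⟨h, hH hh.1⟩ = 1 := by
      refine orderOf_eq_one_iff.mp (Nat.eq_one_of_dvd_coprimes hcop ?_ ?_)
      · refine (orderOf_map_dvd f _).trans ?_
        rw [Subgroup.orderOf_mk]; exact Subgroup.orderOf_dvd_natCard H hh.1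
      · rw [hkf]
        refine (orderOf_map_dvd f _).trans ?_
        rw [Subgroup.orderOf_mk]; exact Subgroup.orderOf_dvd_natCard K hk
    have h2 : (⟨h, hH hh.1⟩ : U) ∈ _root_.commutator U := by
      rw [← Abelianization.ker_of]; exact MonoidHom.mem_ker.mpr h1
    rw [← Subgroup.map_subtype_commutator]
    exact ⟨_, h2, rfl⟩
  · refine le_antisymm (fun g hg => ?_) (sup_le ?_ inf_le_right)
    · have hle : H.map (MulAut.conj g).toMonoidHom ≤ U := by
        rintro _ ⟨a, ha, rfl⟩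
        exact hH ((Subgroup.mem_normalizer_iff.mp hg a).mp ha)
      obtain ⟨u, hu, c, hc, rfl⟩ := hconj g hle
      have hcN : c ∈ Subgroup.normalizer (H : Set G) := Subgroup.centralizer_le_normalizer _ hc.2
      have huN : u ∈ Subgroup.normalizer (H : Set G) := by
        simpa using Subgroup.mul_mem _ hg (Subgroup.inv_mem _ hcN)
      exact Subgroup.mul_mem _ (Subgroup.mem_sup_right ⟨hu, huN⟩) (Subgroup.mem_sup_left hc)
    · exact inf_le_right.trans (Subgroup.centralizer_le_normalizer _)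

end Cfsg.Agent.S1460
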