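import Cfsg.Statements.S1461
import Cfsg.Agent.S1460
import Cfsg.Agent.Lib.LocalPLength
import Cfsg.Agent.Lib.CoreBasic

set_option autoImplicit false
open Cfsg
open scoped Pointwise

namespace Cfsg.Agent.S1461

/-- Let G be a finite solvable group, p a prime with G = O_{p',p,p'}(G), and S a Sylow p-subgroup. Then: if S ≤ G' then S ≤ [N_G(S), N_G(S)]; if Y ⊆ S and xYx⁻¹ ⊆ S then x = g c for some g ∈ N_G(S) and c centralizing Y; and for every p-subgroup Q there is x ∈ C_G(Q ∩ S) with xQx⁻¹ ≤ S. -/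
theorem result {G : Type*} [Group G] [Finite G] [Group.IsSolvable G] (p : ℕ) [Fact p.Prime] (hpl : Cfsg.PLengthLE p 1 G) (S : Sylow p G) :
    ((S : Subgroup G) ≤ commutator G → (S : Subgroup G) ≤ ⁅Subgroup.normalizer ((S : Subgroup G) : Set G), Subgroup.normalizer ((S : Subgroup G) : Set G)⁆) ∧
      (∀ (Y : Set G) (x : G), Y ⊆ (S : Subgroup G) → (fun y => x * y * x⁻¹) '' Y ⊆ (S : Subgroup G) →
        ∃ g ∈ Subgroup.normalizer ((S : Subgroup G) : Set G), ∃ c ∈ Subgroup.centralizer Y, g * c = x) ∧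
      ∀ Q : Subgroup G, IsPGroup p Q → ∃ x ∈ Subgroup.centralizer ((Q ⊓ (S : Subgroup G) : Subgroup G) : Set G), Q.map (MulAut.conj x).toMonoidHom ≤ (S : Subgroup G) := by
  classical
  set K := (Cfsg.upperPSeries p G 1).1 with hK
  haveI hKn : K.Normal := (Cfsg.upperPSeries p G 1).2
  set M := (Cfsg.upperPSeries p G 2).1 with hM
  haveI hMn : M.Normal := (Cfsg.upperPSeries p G 2).2
  have h1 : K = (Cfsg.pPrimeCore p (G ⧸ (Cfsg.upperPSeries p G 0).1)).comap (QuotientGroup.mk' _) := by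
    rw [hK, Cfsg.upperPSeries, if_pos (by decide)]
  have h2 : M = (Cfsg.pCore p (G ⧸ K)).comap (QuotientGroup.mk' K) := by
    show (Cfsg.upperPSeries p G (1 + 1)).1 = _
    rw [Cfsg.upperPSeries, if_neg (by decide)]
  have h3 : (Cfsg.pPrimeCore p (G ⧸ M)).comap (QuotientGroup.mk' M) = ⊤ := by
    rw [← hpl]
    show _ = (Cfsg.upperPSeries p G (2 + 1)).1
    conv_rhs => rw [Cfsg.upperPSeries, if_pos (by decide)]
  have hKcop : (Nat.card K).Coprime p := by
    have hi : K.index = (Cfsg.pPrimeCore p (G ⧸ (Cfsg.upperPSeries p G 0).1)).index := by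
      rw [h1, Subgroup.index_comap_of_surjective _ (QuotientGroup.mk'_surjective _)]
    have hc : Nat.card (G ⧸ (Cfsg.upperPSeries p G 0).1) = Nat.card G := by
      rw [← Subgroup.index_eq_card, show (Cfsg.upperPSeries p G 0).1 = ⊥ from rfl, Subgroup.index_bot]
    have a1 := K.card_mul_index
    have a2 := (Cfsg.pPrimeCore p (G ⧸ (Cfsg.upperPSeries p G 0).1)).card_mul_index
    rw [hc, ← hi, ← a1] at a2
    have e := Nat.eq_of_mul_eq_mul_right (Nat.pos_of_ne_zero Subgroup.index_ne_zero_of_finite) a2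
    rw [← e]
    exact CfsgLib.Core.coprime_card_pPrimeCore p
  have hSK : (Nat.card (S : Subgroup G)).Coprime (Nat.card K) := by
    obtain ⟨j, hj⟩ := S.isPGroup'.exists_card_eq
    rw [hj]; exact hKcop.symm.pow_left j
  have hdis : (S : Subgroup G) ⊓ K = ⊥ := CfsgLib.Core.inf_eq_bot_of_coprime hSK
  have hSM : (S : Subgroup G) ≤ M := by
    have htop : Cfsg.pPrimeCore p (G ⧸ M) = ⊤ := by
      rw [← Subgroup.map_comap_eq_self_of_surjective (QuotientGroup.mk'_surjective M) (Cfsg.pPrimeCore p (G ⧸ M)), h3,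
        ← MonoidHom.range_eq_map, MonoidHom.range_eq_top.mpr (QuotientGroup.mk'_surjective M)]
    have hc := CfsgLib.Core.not_dvd_card_pPrimeCore (G := G ⧸ M) p
    rw [htop, Subgroup.card_top] at hc
    intro s hs
    refine (QuotientGroup.eq_one_iff s).mp (orderOf_eq_one_iff.mp ?_)
    obtain ⟨j, hj⟩ := IsPGroup.iff_orderOf.mp S.isPGroup' ⟨s, hs⟩
    rw [Subgroup.orderOf_mk] at hj
    have hd1 : orderOf (s : G ⧸ M) ∣ p ^ j := hj ▸ orderOf_map_dvd (QuotientGroup.mk' M) s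
    have hd2 : orderOf (s : G ⧸ M) ∣ Nat.card (G ⧸ M) := orderOf_dvd_natCard _
    exact Nat.eq_one_of_dvd_coprimes (((Fact.out : p.Prime).coprime_iff_not_dvd.mpr hc).pow_left j) hd1 hd2
  have hMle : M ≤ (S : Subgroup G) ⊔ K := by
    have hle : Cfsg.pCore p (G ⧸ K) ≤ (S : Subgroup G).map (QuotientGroup.mk' K) := by
      rw [← Sylow.coe_mapSurjective (QuotientGroup.mk'_surjective K) S]
      exact CfsgLib.Core.pCore_le_sylow _
    rw [h2]
    refine (Subgroup.comap_mono hle).trans ?_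
    rw [Subgroup.comap_map_eq, QuotientGroup.ker_mk']
  -- Frattini
  have hfr : ∀ g : G, ∃ n ∈ Subgroup.normalizer ((S : Subgroup G) : Set G), ∃ k ∈ K, g = n * k := by
    intro g
    obtain ⟨k, hk, hke⟩ := CfsgLib.Core.exists_conj_eq_of_coprime (A := (S : Subgroup G)) (B := MulAut.conj g • (S : Subgroup G))
      (CfsgLib.Core.le_normalizer_normal _) hSK
      (Or.inr (inferInstance : Group.IsSolvable K)) (by
        rintro _ ⟨a, ha, rfl⟩
        exact hMle (hMn.conj_mem a (hSM ha) g))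
      (Subgroup.card_map_of_injective (MulAut.conj g).injective)
    have hn : MulAut.conj (k⁻¹ * g) • (S : Subgroup G) = S := by
      rw [map_mul, mul_smul, ← hke, ← mul_smul, ← map_mul, inv_mul_cancel, map_one, one_smul]
    set n := k⁻¹ * g with hn'
    refine ⟨n, CfsgLib.Core.conj_smul_eq_self_iff.mp hn, n⁻¹ * k * n⁻¹⁻¹, hKn.conj_mem k hk n⁻¹, ?_⟩
    rw [hn']; group
  have hcent : ∀ k ∈ K, ∀ y ∈ (S : Subgroup G), k * y * k⁻¹ ∈ (S : Subgroup G) → k * y = y * k := by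
    intro k hk y hy hky
    have hm : k * y * k⁻¹ * y⁻¹ ∈ (S : Subgroup G) ⊓ K :=
      ⟨(S : Subgroup G).mul_mem hky ((S : Subgroup G).inv_mem hy), by
        rw [show k * y * k⁻¹ * y⁻¹ = k * (y * k⁻¹ * y⁻¹) by group]
        exact K.mul_mem hk (hKn.conj_mem _ (K.inv_mem hk) y)⟩
    rw [hdis, Subgroup.mem_bot, mul_inv_eq_one, mul_inv_eq_iff_eq_mul] at hm
    exact hm
  refine ⟨fun hS => ?_, fun Y x hY hxY => ?_, fun Q hQ => ?_⟩
  · have hKN : K ⊔ Subgroup.normalizer ((S : Subgroup G) : Set G) = ⊤ := by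
      rw [eq_top_iff]
      intro g _
      obtain ⟨n, hn, k, hk, rfl⟩ := hfr g
      exact Subgroup.mul_mem _ (Subgroup.mem_sup_right hn) (Subgroup.mem_sup_left hk)
    have e := (Cfsg.Agent.S1460.result K _ (S : Subgroup G) hKN Subgroup.le_normalizer hSK).1
    rw [inf_eq_left.mpr hS] at e
    exact e.le.trans inf_le_right
  · obtain ⟨n, hn, k, hk, rfl⟩ := hfr x
    refine ⟨n, hn, k, ?_, rfl⟩
    rw [Subgroup.mem_centralizer_iff]
    intro y hy
    refine (hcent k hk y (hY hy) ?_).symm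
    refine (Subgroup.mem_normalizer_iff.mp hn _).mpr ?_
    have := hxY ⟨y, hy, rfl⟩
    rwa [show n * (k * y * k⁻¹) * n⁻¹ = n * k * y * (n * k)⁻¹ by group]
  · obtain ⟨P, hP⟩ := hQ.exists_le_sylow
    obtain ⟨g, hg⟩ := MulAction.exists_smul_eq G P S
    obtain ⟨n, hn, k, hk, rfl⟩ := hfr g
    have hkQ : Q.map (MulAut.conj k).toMonoidHom ≤ (S : Subgroup G) := by
      rintro _ ⟨a, ha, rfl⟩
      refine (Subgroup.mem_normalizer_iff.mp hn _).mpr ?_
      show n * (k * a * k⁻¹) * n⁻¹ ∈ (S : Subgroup G)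
      rw [show n * (k * a * k⁻¹) * n⁻¹ = n * k * a * (n * k)⁻¹ by group, ← hg]
      exact ⟨a, hP ha, rfl⟩
    refine ⟨k, Subgroup.mem_centralizer_iff.mpr fun y hy => ?_, hkQ⟩
    exact (hcent k hk y hy.2 (hkQ ⟨y, hy.1, rfl⟩)).symm

end Cfsg.Agent.S1461
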