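import Cfsg.Statements.S1462
import Cfsg.Agent.S0028
import Cfsg.Agent.S0120
import Cfsg.Agent.Lib.CoreBasic
import Cfsg.Agent.Lib.CoreSZ
import Cfsg.Agent.Lib.CorePSolvable
import Cfsg.Agent.Lib.LocalSolvable

set_option autoImplicit false
open Cfsg

namespace Cfsg.Agent.S1462

/-- The first term of the series is the `p'`-core. -/
theorem series_one {G : Type*} [Group G] [Finite G] (p : ℕ) [Fact p.Prime] :
    (Cfsg.upperPSeries p G 1).1 = Cfsg.pPrimeCore p G := by
  set B := (Cfsg.upperPSeries p G 0).1 with hB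
  haveI : B.Normal := (Cfsg.upperPSeries p G 0).2
  have hBbot : B = ⊥ := rfl
  have hc : Nat.card (G ⧸ B) = Nat.card G := by
    rw [← Subgroup.index_eq_card, hBbot, Subgroup.index_bot]
  have h1 : (Cfsg.upperPSeries p G 1).1 = (Cfsg.pPrimeCore p (G ⧸ B)).comap (QuotientGroup.mk' B) := by
    show (Cfsg.upperPSeries p G (0 + 1)).1 = _
    rw [Cfsg.upperPSeries, if_pos (by decide)]
  haveI := CfsgLib.Core.normal_pPrimeCore (G := G ⧸ B) p
  haveI := CfsgLib.Core.normal_pPrimeCore (G := G) p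
  rw [h1]
  refine le_antisymm (CfsgLib.Core.le_pPrimeCore inferInstance ?_) ?_
  · have hi : ((Cfsg.pPrimeCore p (G ⧸ B)).comap (QuotientGroup.mk' B)).index = (Cfsg.pPrimeCore p (G ⧸ B)).index :=
      Subgroup.index_comap_of_surjective _ (QuotientGroup.mk'_surjective _)
    have a1 := ((Cfsg.pPrimeCore p (G ⧸ B)).comap (QuotientGroup.mk' B)).card_mul_index
    have a2 := (Cfsg.pPrimeCore p (G ⧸ B)).card_mul_index
    rw [hc, ← hi, ← a1] at a2
    rw [← Nat.eq_of_mul_eq_mul_right (Nat.pos_of_ne_zero Subgroup.index_ne_zero_of_finite) a2]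
    exact CfsgLib.Core.coprime_card_pPrimeCore p
  · rw [← Subgroup.map_le_iff_le_comap]
    exact CfsgLib.Core.le_pPrimeCore (Subgroup.Normal.map inferInstance _ (QuotientGroup.mk'_surjective _))
      ((CfsgLib.Core.coprime_card_pPrimeCore p).coprime_dvd_left (Subgroup.card_map_dvd _ _))

theorem series_three {G : Type*} [Group G] [Finite G] (p : ℕ) [Fact p.Prime] (hpl : Cfsg.PLengthLE p 1 G) :
    ∀ K : Subgroup G, ∀ _ : K.Normal, (Cfsg.upperPSeries p G 1).1 = K →
      ∀ x : G ⧸ K, (∃ j, orderOf x = p ^ j) → x ∈ Cfsg.pCore p (G ⧸ K) := by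
  intro K hKn hK
  subst hK
  set K := (Cfsg.upperPSeries p G 1).1 with hK
  set M := (Cfsg.upperPSeries p G 2).1 with hM
  haveI hMn : M.Normal := (Cfsg.upperPSeries p G 2).2
  have h2 : M = (Cfsg.pCore p (G ⧸ K)).comap (QuotientGroup.mk' K) := by
    show (Cfsg.upperPSeries p G (1 + 1)).1 = _
    rw [Cfsg.upperPSeries, if_neg (by decide)]
  have h3 : (Cfsg.pPrimeCore p (G ⧸ M)).comap (QuotientGroup.mk' M) = ⊤ := by
    rw [← hpl]
    show _ = (Cfsg.upperPSeries p G (2 + 1)).1
    conv_rhs => rw [Cfsg.upperPSeries, if_pos (by decide)]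
  have htop : Cfsg.pPrimeCore p (G ⧸ M) = ⊤ := by
    rw [← Subgroup.map_comap_eq_self_of_surjective (QuotientGroup.mk'_surjective M) (Cfsg.pPrimeCore p (G ⧸ M)), h3,
      ← MonoidHom.range_eq_map, MonoidHom.range_eq_top.mpr (QuotientGroup.mk'_surjective M)]
  have hc := CfsgLib.Core.not_dvd_card_pPrimeCore (G := G ⧸ M) p
  rw [htop, Subgroup.card_top] at hc
  haveI := CfsgLib.Core.normal_pCore (G := G ⧸ K) p
  intro x ⟨j, hj⟩
  obtain ⟨g, rfl⟩ := QuotientGroup.mk_surjective x
  have hle : K ≤ M := by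
    rw [h2]; intro k hk
    show (k : G ⧸ K) ∈ Cfsg.pCore p (G ⧸ K)
    rw [(QuotientGroup.eq_one_iff k).mpr hk]; exact one_mem _
  have hg : (g : G) ∈ M := by
    refine (QuotientGroup.eq_one_iff g).mp (orderOf_eq_one_iff.mp ?_)
    have hd1 : orderOf (g : G ⧸ M) ∣ p ^ j := by
      refine orderOf_dvd_of_pow_eq_one ?_
      have e : (g : G ⧸ K) ^ p ^ j = 1 := by rw [← hj]; exact pow_orderOf_eq_one _
      rw [← QuotientGroup.mk_pow, QuotientGroup.eq_one_iff] at e ⊢
      exact hle e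
    exact Nat.eq_one_of_dvd_coprimes (((Fact.out : p.Prime).coprime_iff_not_dvd.mpr hc).pow_left j) hd1 (orderOf_dvd_natCard _)
  rw [h2] at hg
  exact hg

/-- Let G be a finite solvable group, p an odd prime with G = O_{p',p,p'}(G), E an elementary abelian p-subgroup contained in no larger elementary abelian p-subgroup of G, and L a subgroup of order coprime to p normalized by E. Then L ≤ O_{p'}(G). -/
theorem result {G : Type*} [Group G] [Finite G] [Group.IsSolvable G] (p : ℕ) [Fact p.Prime] (hp : p ≠ 2) (hpl : Cfsg.PLengthLE p 1 G) (E L : Subgroup G) (hE : Cfsg.IsElementaryAbelian p E)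
    (hEmax : ∀ B : Subgroup G, Cfsg.IsElementaryAbelian p B → E ≤ B → B = E) (hL : (Nat.card L).Coprime p) (hEL : E ≤ Subgroup.normalizer (L : Set G)) :
    L ≤ Cfsg.pPrimeCore p G := by
  classical
  haveI hKn := CfsgLib.Core.normal_pPrimeCore (G := G) p
  have hall := series_three p hpl _ hKn (series_one p)
  set K := Cfsg.pPrimeCore p G with hK
  let π := QuotientGroup.mk' K
  set P := Cfsg.pCore p (G ⧸ K) with hP
  haveI hPn : P.Normal := CfsgLib.Core.normal_pCore p
  have hPp : IsPGroup p P := CfsgLib.Core.isPGroup_pCore p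
  have hEp : IsPGroup p E := fun e => ⟨1, by rw [pow_one]; exact Subtype.ext (hE.2 e e.2)⟩
  obtain ⟨S, hES⟩ := hEp.exists_le_sylow
  have hinj : ∀ s ∈ (S : Subgroup G), π s = 1 → s = 1 := by
    intro s hs h1
    have hsK : s ∈ K := (QuotientGroup.eq_one_iff s).mp h1
    obtain ⟨j, hj⟩ := IsPGroup.iff_orderOf.mp S.isPGroup' ⟨s, hs⟩
    rw [Subgroup.orderOf_mk] at hj
    refine orderOf_eq_one_iff.mp (Nat.eq_one_of_dvd_coprimes ((CfsgLib.Core.coprime_card_pPrimeCore p).symm.pow_left j)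
      (dvd_of_eq hj) (Subgroup.orderOf_dvd_natCard K hsK))
  have hSP : ∀ s ∈ (S : Subgroup G), π s ∈ P := fun s hs => by
    refine hall _ ?_
    obtain ⟨j, hj⟩ := IsPGroup.iff_orderOf.mp S.isPGroup' ⟨s, hs⟩
    rw [Subgroup.orderOf_mk] at hj
    obtain ⟨i, -, hi⟩ := (Nat.dvd_prime_pow (Fact.out : p.Prime)).mp (hj ▸ orderOf_map_dvd π s)
    exact ⟨i, hi⟩
  set E' := E.map π with hE'
  set L' := L.map π with hL'
  have hLc : (Nat.card L').Coprime p := hL.coprime_dvd_left (Subgroup.card_map_dvd _ _)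
  have hpo : ∀ z : G ⧸ K, z ∈ P → z ∈ L' → z = 1 := by
    intro z hzP hzL
    obtain ⟨j, hj⟩ := IsPGroup.iff_orderOf.mp hPp ⟨z, hzP⟩
    rw [Subgroup.orderOf_mk] at hj
    exact orderOf_eq_one_iff.mp (Nat.eq_one_of_dvd_coprimes (hLc.symm.pow_left j) (dvd_of_eq hj) (Subgroup.orderOf_dvd_natCard L' hzL))
  have hcomm : ∀ e ∈ E', ∀ l ∈ L', e * l = l * e := by
    rintro _ ⟨e, he, rfl⟩ _ ⟨l, hl, rfl⟩
    have h1 : π (e * l * e⁻¹ * l⁻¹) = 1 := by
      refine hpo _ ?_ ⟨_, L.mul_mem ((Subgroup.mem_normalizer_iff.mp (hEL he) l).mp hl) (L.inv_mem hl), rfl⟩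
      rw [show e * l * e⁻¹ * l⁻¹ = e * (l * e⁻¹ * l⁻¹) by group, map_mul]
      refine P.mul_mem (hSP e (hES he)) ?_
      rw [map_mul, map_mul, map_inv π l]
      exact hPn.conj_mem _ (hSP _ (S.toSubgroup.inv_mem (hES he))) _
    rw [map_mul, map_mul, map_mul, map_inv, map_inv, mul_inv_eq_one, mul_inv_eq_iff_eq_mul] at h1
    exact h1
  have hE'P : E' ≤ P := by rintro _ ⟨e, he, rfl⟩; exact hSP e (hES he)
  -- `E'` is maximal elementary abelian in `P`
  have hPS : P ≤ (S : Subgroup G).map π := by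
    rw [← Sylow.coe_mapSurjective (QuotientGroup.mk'_surjective K) S]
    exact CfsgLib.Core.pCore_le_sylow _
  have hmax : ∀ x ∈ P, x ^ p = 1 → (∀ e ∈ E', e * x = x * e) → x ∈ E' := by
    intro x hx hxp hxe
    obtain ⟨s, hs, rfl⟩ := hPS hx
    have hsp : s ^ p = 1 := hinj _ (S.toSubgroup.pow_mem hs p) (by rw [map_pow]; exact hxp)
    have hse : ∀ e ∈ E, e * s = s * e := by
      intro e he
      have h1 : π (e * s * e⁻¹ * s⁻¹) = 1 := by
        rw [map_mul, map_mul, map_mul, map_inv, map_inv, mul_inv_eq_one, mul_inv_eq_iff_eq_mul]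
        exact hxe _ ⟨e, he, rfl⟩
      have := hinj _ (S.toSubgroup.mul_mem (S.toSubgroup.mul_mem (S.toSubgroup.mul_mem (hES he) hs) (S.toSubgroup.inv_mem (hES he))) (S.toSubgroup.inv_mem hs)) h1
      rw [mul_inv_eq_one, mul_inv_eq_iff_eq_mul] at this
      exact this
    set B := Subgroup.closure ((E : Set G) ∪ {s}) with hB
    have hgen : ∀ u ∈ ((E : Set G) ∪ {s}), ∀ v ∈ ((E : Set G) ∪ {s}), u * v = v * u := by
      intro u hu v hv
      rcases hu with hu | hu <;> rcases hv with hv | hv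
      · exact congrArg Subtype.val (hE.1.is_comm.comm (⟨u, hu⟩ : E) ⟨v, hv⟩)
      · rw [Set.mem_singleton_iff.mp hv]; exact hse u hu
      · rw [Set.mem_singleton_iff.mp hu]; exact (hse v hv).symm
      · rw [Set.mem_singleton_iff.mp hu, Set.mem_singleton_iff.mp hv]
    haveI hBc : IsMulCommutative B := Subgroup.isMulCommutative_closure hgen
    have hBel : Cfsg.IsElementaryAbelian p B := by
      refine ⟨hBc, fun b hb => ?_⟩
      induction hb using Subgroup.closure_induction with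
      | mem y hy =>
        rcases hy with hy | hy
        · exact hE.2 y hy
        · rw [Set.mem_singleton_iff.mp hy]; exact hsp
      | one => exact one_pow p
      | mul y z hy hz ihy ihz =>
        rw [(show Commute y z from congrArg Subtype.val (hBc.is_comm.comm (⟨y, hy⟩ : B) ⟨z, hz⟩)).mul_pow, ihy, ihz, one_mul]
      | inv y _ ih => rw [inv_pow, ih, inv_one]
    have hEB : B = E := hEmax B hBel fun e he => Subgroup.subset_closure (Or.inl he)
    exact ⟨s, hEB ▸ Subgroup.subset_closure (Or.inr rfl), rfl⟩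
  have hC : ∀ c ∈ P ⊓ Subgroup.centralizer (E' : Set (G ⧸ K)), ∀ l ∈ L', l * c = c * l := by
    intro c hc l hl
    set C := P ⊓ Subgroup.centralizer (E' : Set (G ⧸ K)) with hCdef
    have hlN : l ∈ Subgroup.normalizer (C : Set (G ⧸ K)) := by
      have h1 : ∀ m ∈ L', ∀ x ∈ C, m * x * m⁻¹ ∈ C := by
        intro m hm x hx
        refine ⟨hPn.conj_mem x hx.1 m, Subgroup.mem_centralizer_iff.mpr fun e he => ?_⟩
        have hem : e * m = m * e := hcomm e he m hm
        have hxe : e * x = x * e := Subgroup.mem_centralizer_iff.mp hx.2 e he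
        have hem' : e * m⁻¹ = m⁻¹ * e := (show Commute e m from hem).inv_right.eq
        calc e * (m * x * m⁻¹) = m * (e * x) * m⁻¹ := by rw [← mul_assoc, ← mul_assoc, hem]; group
          _ = m * (x * e) * m⁻¹ := by rw [hxe]
          _ = m * x * m⁻¹ * e := by rw [mul_assoc (m * x), ← hem']; group
      rw [Subgroup.mem_normalizer_iff]
      intro x
      refine ⟨h1 l hl x, fun hx => ?_⟩
      have := h1 l⁻¹ (L'.inv_mem hl) _ hx
      simpa [mul_assoc] using this
    set a := C.normalizerMonoidHom ⟨l, hlN⟩ with ha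
    have ha1 : a = 1 := by
      refine Cfsg.Agent.S0120.result hp (hPp.to_le inf_le_left) a ?_ ?_
      · refine hLc.coprime_dvd_left ((orderOf_map_dvd _ _).trans ?_)
        rw [Subgroup.orderOf_mk]; exact Subgroup.orderOf_dvd_natCard L' hl
      · intro x hx
        have hxE : (x : G ⧸ K) ∈ E' :=
          hmax x x.2.1 (by rw [← Subgroup.coe_pow, hx]; rfl) (fun e he => Subgroup.mem_centralizer_iff.mp x.2.2 e he)
        apply Subtype.ext
        show l * (x : G ⧸ K) * l⁻¹ = x
        rw [← hcomm x hxE l hl, mul_inv_cancel_right]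
    have h2 := congrArg (fun f : MulAut C => ((f ⟨c, hc⟩ : C) : G ⧸ K)) ha1
    exact mul_inv_eq_iff_eq_mul.mp (show l * c * l⁻¹ = c from h2)
  have hLP : L' ≤ Subgroup.centralizer (P : Set (G ⧸ K)) := by
    refine Cfsg.Agent.S0028.result p E' L' P (hPp.to_le hE'P) hLc hPp
      (fun e he => Subgroup.mem_centralizer_iff.mpr fun l hl => (hcomm e he l hl).symm)
      (CfsgLib.Core.le_normalizer_normal _) (CfsgLib.Core.le_normalizer_normal _) ?_
    exact fun c hc => Subgroup.mem_centralizer_iff.mpr fun l hl => hC c hc l hl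
  have hself : Subgroup.centralizer (P : Set (G ⧸ K)) ≤ P :=
    CfsgLib.Core.centralizer_pCore_le_of_isPSolvable (CfsgLib.LocalFF.isPSolvable_of_solvable _ rfl inferInstance)
      (CfsgLib.Core.pPrimeCore_quotient_pPrimeCore p)
  intro l hl
  exact (QuotientGroup.eq_one_iff l).mp (hpo _ (hself (hLP ⟨l, hl, rfl⟩)) ⟨l, hl, rfl⟩)

end Cfsg.Agent.S1462
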