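import Cfsg.Statements.S1463
import Cfsg.Agent.Lib.DicksonMain
import Cfsg.Agent.Lib.BlockMinDim

set_option autoImplicit false
open scoped MatrixGroups
open Cfsg

namespace Cfsg.Agent.S1463

/-- Let F be a field of odd characteristic p and H a finite subgroup of odd order of GL(2, F) that leaves no 1-dimensional subspace of F² invariant. Then p does not divide the order of H. -/
theorem result {F : Type*} [Field F] (p : ℕ) [Fact p.Prime] [CharP F p] (hp : p ≠ 2)
    (H : Subgroup (GL (Fin 2) F)) [Finite H] (hodd : Odd (Nat.card H))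
    (hirr : ∀ v : Fin 2 → F, v ≠ 0 → ∃ g ∈ H, (g : Matrix (Fin 2) (Fin 2) F).mulVec v ∉ Submodule.span F {v}) :
    ¬ p ∣ Nat.card H := by
  intro hdvd
  let d : H →* Fˣ := Matrix.GeneralLinearGroup.det.comp H.subtype
  let ι : d.ker →* CfsgLib.Dickson.SL F :=
    { toFun := fun x => ⟨((x : H) : GL (Fin 2) F), congrArg Units.val x.2⟩
      map_one' := rfl
      map_mul' := fun x y => rfl }
  have hι : Function.Injective ι := fun x y e =>
    Subtype.ext (Subtype.ext (Units.ext (congrArg Subtype.val e)))
  rcases Nat.lt_or_ge 1 (Nat.card (Sylow p d.ker)) with h1 | h1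
  · -- more than one Sylow subgroup gives an involution
    obtain ⟨f, hf⟩ := CfsgLib.Dickson.exists_sl2_zmod hp hι h1
    have hne : (-1 : CfsgLib.Dickson.SL (ZMod p)) ≠ 1 := by
      intro e
      have e1 := congrArg (fun g : CfsgLib.Dickson.SL (ZMod p) => g.1 0 0) e
      simp at e1
      haveI : Fact (2 < p) := ⟨lt_of_le_of_ne (Fact.out : p.Prime).two_le (Ne.symm hp)⟩
      exact ZMod.neg_one_ne_one e1
    have h2 : orderOf (f (-1)) = 2 := by
      rw [orderOf_injective f hf]
      exact orderOf_eq_prime (by rw [sq, neg_mul_neg, one_mul]) hne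
    have h3 : 2 ∣ Nat.card d.ker := by have h := orderOf_dvd_natCard (f (-1)); rwa [h2] at h
    exact hodd.not_two_dvd_nat (h3.trans (Subgroup.card_subgroup_dvd_card _))
  · -- a unique Sylow subgroup: it fixes a line
    obtain ⟨P⟩ := (inferInstance : Nonempty (Sylow p d.ker))
    haveI : Subsingleton (Sylow p d.ker) := Finite.card_le_one_iff_subsingleton.1 h1
    haveI := Sylow.normal_of_subsingleton P
    haveI hPn : ((P : Subgroup d.ker).map d.ker.subtype).Normal := inferInstance
    set Q := (P : Subgroup d.ker).map d.ker.subtype with hQ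
    -- every element of order `p` lies in `Q`
    obtain ⟨x, hx⟩ := exists_prime_orderOf_dvd_card' p hdvd
    have hxk : x ∈ d.ker := by
      rw [MonoidHom.mem_ker]
      have h : ((d x : Fˣ) : F) ^ p = 1 := by
        rw [← Units.val_pow_eq_pow_val, ← map_pow, ← hx, pow_orderOf_eq_one, map_one, Units.val_one]
      have h4 : (((d x : Fˣ) : F) - 1) ^ p = 0 := by rw [sub_pow_char, h, one_pow, sub_self]
      exact Units.ext (sub_eq_zero.1 (eq_zero_of_pow_eq_zero h4))
    have hxQ : x ∈ Q := by
      have hz : IsPGroup p (Subgroup.zpowers (⟨x, hxk⟩ : d.ker)) := IsPGroup.of_card (n := 1) (by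
        rw [Nat.card_zpowers, ← Subgroup.orderOf_coe, hx, pow_one])
      obtain ⟨R, hR⟩ := hz.exists_le_sylow
      rw [Subsingleton.elim R P] at hR
      exact ⟨_, hR (Subgroup.mem_zpowers _), rfl⟩
    let ρ : Q →* Module.End F (Fin 2 → F) :=
      { toFun := fun g => Matrix.toLin' (((g : H) : GL (Fin 2) F) : Matrix (Fin 2) (Fin 2) F)
        map_one' := Matrix.toLin'_one
        map_mul' := fun g k => Matrix.toLin'_mul _ _ }
    have hρ : ∀ (g : Q) (v : Fin 2 → F),
        ρ g v = (((g : H) : GL (Fin 2) F) : Matrix (Fin 2) (Fin 2) F).mulVec v :=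
      fun g v => Matrix.toLin'_apply _ v
    obtain ⟨w, -, hw0, hw⟩ := CfsgLib.Block.exists_fixed_vector (k := F) (P.2.map d.ker.subtype) ρ ⊤
      (fun _ _ _ => Submodule.mem_top) top_ne_bot
    obtain ⟨g, hg, hgw⟩ := hirr w hw0
    set u := ((g : Matrix (Fin 2) (Fin 2) F)).mulVec w with hu
    -- `x` fixes `u` and `w`, which span
    have hxu : (((x : H) : GL (Fin 2) F) : Matrix (Fin 2) (Fin 2) F).mulVec u = u := by
      have hc := hPn.conj_mem x hxQ (⟨g, hg⟩⁻¹ : H)
      have h5 := hw ⟨_, hc⟩
      rw [hρ] at h5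
      simp only [Subgroup.coe_mul, InvMemClass.coe_inv, inv_inv, Units.val_mul] at h5
      have h6 := congrArg (Matrix.mulVec (g : Matrix (Fin 2) (Fin 2) F)) h5
      rw [Matrix.mulVec_mulVec, ← mul_assoc, ← mul_assoc, Units.mul_inv, one_mul,
        ← Matrix.mulVec_mulVec] at h6
      exact h6
    have hxw := hw ⟨x, hxQ⟩
    rw [hρ] at hxw
    have hind : LinearIndependent F ![w, u] := by
      rw [LinearIndependent.pair_iff' hw0]
      intro a e
      exact hgw (Submodule.mem_span_singleton.2 ⟨a, e⟩)
    have hspan := hind.span_eq_top_of_card_eq_finrank (by simp)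
    have hx1 : Matrix.toLin' (((x : H) : GL (Fin 2) F) : Matrix (Fin 2) (Fin 2) F) = LinearMap.id := by
      refine LinearMap.ext_on_range hspan ?_
      intro i
      fin_cases i
      · simpa using hxw
      · simpa using hxu
    rw [← Matrix.toLin'_one] at hx1
    have hxone : x = 1 := Subtype.ext (Units.ext (Matrix.toLin'.injective hx1))
    rw [hxone, orderOf_one] at hx
    exact (Fact.out : p.Prime).ne_one hx.symm

end Cfsg.Agent.S1463
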