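import Cfsg.Statements.S1464
import Cfsg.Agent.Lib.OddStable

set_option autoImplicit false
open Cfsg

namespace Cfsg.Agent.S1464

/-- Let p be an odd prime and G a solvable group of odd order, P a p-subgroup with O_{p'}(G)P normal in G, and A a p-subgroup of N_G(P) with [[P, A], A] = 1. Then the image of A in the quotient N_G(P)/C_G(P) is contained in the p-core of that quotient. -/
theorem result {G : Type*} [Group G] [Finite G] [Group.IsSolvable G] (hodd : Odd (Nat.card G)) (p : ℕ) [Fact p.Prime] (hp : p ≠ 2) (P A : Subgroup G) (hP : IsPGroup p P) (hPn : (Cfsg.pPrimeCore p G ⊔ P).Normal)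
    (hA : IsPGroup p A) (hAN : A ≤ Subgroup.normalizer (P : Set G)) (hquad : ⁅⁅P, A⁆, A⁆ = ⊥) :
    (A.subgroupOf (Subgroup.normalizer (P : Set G))).map
        (QuotientGroup.mk' ((Subgroup.centralizer (P : Set G)).subgroupOf (Subgroup.normalizer (P : Set G))))
      ≤ Cfsg.pCore p _ := by
  set N := Subgroup.normalizer (P : Set G) with hN
  have hPN : P ≤ N := Subgroup.le_normalizer
  haveI : (P.subgroupOf N).Normal := by rw [hN]; infer_instance
  have hVp : IsPGroup p (P.subgroupOf N) := hP.comap_of_injective N.subtype N.subtype_injective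
  have hC : Subgroup.centralizer (P.subgroupOf N : Set N) =
      (Subgroup.centralizer (P : Set G)).subgroupOf N := by
    ext x
    rw [Subgroup.mem_subgroupOf, Subgroup.mem_centralizer_iff, Subgroup.mem_centralizer_iff]
    constructor
    · exact fun h y hy => congrArg Subtype.val (h ⟨y, hPN hy⟩ hy)
    · exact fun h y hy => Subtype.ext (h _ hy)
  have hoN : Odd (Nat.card N) := hodd.of_dvd_nat (Subgroup.card_subgroup_dvd_card N)
  rintro _ ⟨a, ha, rfl⟩
  have key : ∀ M : Subgroup N, M.Normal → Subgroup.centralizer (P.subgroupOf N : Set N) = M → ∀ [M.Normal],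
      QuotientGroup.mk' M a ∈ Cfsg.pCore p (N ⧸ M) := by
    rintro M - rfl inst
    refine CfsgLib.OddStable.quad_mem hoN hp hVp ?_
    apply Subgroup.map_injective N.subtype_injective
    rw [Subgroup.map_bot, Subgroup.map_commutator, Subgroup.map_commutator, MonoidHom.map_zpowers,
      Subgroup.map_subgroupOf_eq_of_le hPN, eq_bot_iff]
    have hz : Subgroup.zpowers (N.subtype a) ≤ A := Subgroup.zpowers_le.2 ha
    exact (Subgroup.commutator_mono (Subgroup.commutator_mono le_rfl hz) hz).trans hquad.le
  exact key _ inferInstance hC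

end Cfsg.Agent.S1464
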