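import Cfsg.Statements.S1466
import Cfsg.Agent.Lib.ZStarTwoGroup

set_option autoImplicit false
open Cfsg

namespace Cfsg.Agent.S1466

/-- Let p be a prime and R a nontrivial finite p-group. Then for every i > 0, Z(R) ≤ C_R(L_i(R)) ≤ L_i(R); likewise Z(R) ≤ C_R(L_*(R)) ≤ L_*(R) and Z(R) ≤ C_R(L(R)) ≤ L(R); and L(R) ≠ 1, L_*(R) ≠ 1. -/
theorem result {R : Type*} [Group R] [Finite R] (p : ℕ) [Fact p.Prime] (hR : IsPGroup p R) [Nontrivial R] :
    (∀ i : ℕ, 0 < i → Subgroup.center R ≤ Subgroup.centralizer ((Cfsg.puigSeq R i : Subgroup R) : Set R) ∧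
        Subgroup.centralizer ((Cfsg.puigSeq R i : Subgroup R) : Set R) ≤ Cfsg.puigSeq R i) ∧
      (Subgroup.center R ≤ Subgroup.centralizer ((Cfsg.puigLower R : Subgroup R) : Set R) ∧ Subgroup.centralizer ((Cfsg.puigLower R : Subgroup R) : Set R) ≤ Cfsg.puigLower R) ∧
      (Subgroup.center R ≤ Subgroup.centralizer ((Cfsg.puigSubgroup R : Subgroup R) : Set R) ∧ Subgroup.centralizer ((Cfsg.puigSubgroup R : Subgroup R) : Set R) ≤ Cfsg.puigSubgroup R) ∧
      Cfsg.puigSubgroup R ≠ ⊥ ∧ Cfsg.puigLower R ≠ ⊥ := by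
  obtain ⟨A, hAn, hAc, hAC⟩ := CfsgLib.TwoGroup.exists_self_centralizing hR
  have hA : ∀ X : Subgroup R, A ≤ puigStep X := fun X =>
    le_sSup ⟨⟨⟨fun a b => Subtype.ext (hAc a a.2 b b.2)⟩⟩, by
      haveI := hAn; rw [Subgroup.normalizer_eq_top]; exact le_top⟩
  have hpos : ∀ i : ℕ, 0 < i → A ≤ puigSeq R i := by
    rintro (_ | i) hi
    · exact absurd hi (lt_irrefl 0)
    · exact hA _
  have hC : ∀ X : Subgroup R, A ≤ X →
      Subgroup.center R ≤ Subgroup.centralizer (X : Set R) ∧ Subgroup.centralizer (X : Set R) ≤ X :=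
    fun X hX => ⟨Subgroup.center_le_centralizer _,
      (Subgroup.centralizer_le hX).trans (hAC.trans hX)⟩
  have hLo : A ≤ puigLower R :=
    (hpos 2 two_pos).trans (le_iSup (fun n => puigSeq R (2 * n)) 1)
  have hS : A ≤ puigSubgroup R := le_iInf fun n => hpos _ (Nat.succ_pos _)
  have hne : A ≠ ⊥ := by
    rintro rfl
    haveI := hR.center_nontrivial
    have h1 : Subgroup.center R ≤ ⊥ := (Subgroup.center_le_centralizer _).trans hAC
    exact ((Subgroup.nontrivial_iff_ne_bot _).mp ‹_›) (le_bot_iff.mp h1)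
  exact ⟨fun i hi => hC _ (hpos i hi), hC _ hLo, hC _ hS,
    fun h => hne (le_bot_iff.mp (h ▸ hS)), fun h => hne (le_bot_iff.mp (h ▸ hLo))⟩

end Cfsg.Agent.S1466
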