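import Cfsg.Statements.S1467


set_option autoImplicit false
open Cfsg

namespace Cfsg.Agent.S1467

/-- Let G be a finite group with Puig series L_n(G). Then L_0 = 1, L_1 = G; L_{2n} ≤ L_{2n+2} ≤ L_{2m+3} ≤ L_{2m+1} for all n, m; there is k with L_{2n}(G) = L_*(G) and L_{2n+1}(G) = L(G) for all n ≥ k; L_*(G) ≤ L(G); and applying one Puig step to L_*(G) gives L(G) and to L(G) gives L_*(G). -/
theorem result {G : Type*} [Group G] [Finite G] :
    Cfsg.puigSeq G 0 = ⊥ ∧ Cfsg.puigSeq G 1 = ⊤ ∧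
      (∀ n m : ℕ, Cfsg.puigSeq G (2 * n) ≤ Cfsg.puigSeq G (2 * n + 2) ∧ Cfsg.puigSeq G (2 * n) ≤ Cfsg.puigSeq G (2 * m + 1) ∧
        Cfsg.puigSeq G (2 * m + 3) ≤ Cfsg.puigSeq G (2 * m + 1)) ∧
      (∃ k : ℕ, ∀ n : ℕ, k ≤ n → Cfsg.puigSeq G (2 * n) = Cfsg.puigLower G ∧ Cfsg.puigSeq G (2 * n + 1) = Cfsg.puigSubgroup G) ∧
      Cfsg.puigLower G ≤ Cfsg.puigSubgroup G ∧
      Cfsg.puigStep (Cfsg.puigLower G) = Cfsg.puigSubgroup G ∧ Cfsg.puigStep (Cfsg.puigSubgroup G) = Cfsg.puigLower G := by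
  have anti : ∀ X Y : Subgroup G, X ≤ Y → puigStep Y ≤ puigStep X := fun X Y h =>
    sSup_le_sSup fun A hA => ⟨hA.1, h.trans hA.2⟩
  have h1 : puigSeq G 1 = ⊤ := by
    rw [eq_top_iff]
    intro g _
    exact (le_sSup (show Subgroup.zpowers g ∈ {A : Subgroup G | IsMulCommutative A ∧ (⊥ : Subgroup G) ≤ Subgroup.normalizer (A : Set G)} from ⟨inferInstance, bot_le⟩) : Subgroup.zpowers g ≤ puigStep ⊥) (Subgroup.mem_zpowers g)
  have hadj : ∀ n, puigSeq G (2 * n) ≤ puigSeq G (2 * n + 1) := by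
    intro n
    induction n with
    | zero => exact bot_le
    | succ n ih => exact anti _ _ (anti _ _ ih)
  have heven : ∀ n, puigSeq G (2 * n) ≤ puigSeq G (2 * n + 2) := by
    intro n
    induction n with
    | zero => exact bot_le
    | succ n ih => exact anti _ _ (anti _ _ ih)
  have hodd : ∀ n, puigSeq G (2 * n + 3) ≤ puigSeq G (2 * n + 1) := fun n => anti _ _ (heven n)
  have hmono : Monotone fun n => puigSeq G (2 * n) := monotone_nat_of_le_succ heven
  have hantit : Antitone fun n => puigSeq G (2 * n + 1) := antitone_nat_of_succ_le hodd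
  have hmix : ∀ n m, puigSeq G (2 * n) ≤ puigSeq G (2 * m + 1) := fun n m =>
    (hmono (le_max_left n m)).trans ((hadj _).trans (hantit (le_max_right n m)))
  have hstab : ∃ k, ∀ n, k ≤ n → puigSeq G (2 * n) = puigSeq G (2 * k) ∧
      puigSeq G (2 * n + 1) = puigSeq G (2 * k + 1) := by
    obtain ⟨k, hk⟩ := WellFoundedGT.monotone_chain_condition (⟨_, hmono⟩ : ℕ →o Subgroup G)
    refine ⟨k, fun n hn => ⟨(hk n hn).symm, ?_⟩⟩
    show puigStep (puigSeq G (2 * n)) = puigStep (puigSeq G (2 * k))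
    rw [show puigSeq G (2 * n) = puigSeq G (2 * k) from (hk n hn).symm]
  obtain ⟨k, hk⟩ := hstab
  have hL : puigLower G = puigSeq G (2 * k) := le_antisymm
    (iSup_le fun n => (hmono (le_max_left n k)).trans (hk _ (le_max_right n k)).1.le)
    (le_iSup (fun n => puigSeq G (2 * n)) k)
  have hS : puigSubgroup G = puigSeq G (2 * k + 1) := le_antisymm
    (iInf_le (fun n => puigSeq G (2 * n + 1)) k)
    (le_iInf fun n => (hk _ (le_max_right n k)).2.ge.trans (hantit (le_max_left n k)))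
  refine ⟨rfl, h1, fun n m => ⟨heven n, hmix n m, hodd m⟩, ⟨k, fun n hn => ?_⟩, ?_, ?_, ?_⟩
  · rw [hL, hS]; exact hk n hn
  · rw [hL, hS]; exact hadj k
  · rw [hL, hS]; rfl
  · rw [hL, hS, ← (hk (k + 1) (Nat.le_succ k)).1]; rfl

end Cfsg.Agent.S1467
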