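import Cfsg.Statements.S1469
import Cfsg.Agent.Lib.PuigOdd
import Cfsg.Agent.Lib.StableControlApps

set_option autoImplicit false
open Cfsg

namespace Cfsg.Agent.S1469

/-- Let p be an odd prime, G a solvable group of odd order and S a Sylow p-subgroup, and let Z be the centre of the Puig subgroup L(S), viewed inside G. Then G is generated by O_{p'}(G) and N_G(Z); and if O_{p'}(G) = 1 then Z is normal in G. -/
theorem result {G : Type*} [Group G] [Finite G] [Group.IsSolvable G] (hodd : Odd (Nat.card G)) (p : ℕ) [Fact p.Prime] (hp : p ≠ 2) (S : Sylow p G) :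
    Cfsg.pPrimeCore p G ⊔ Subgroup.normalizer ((((Subgroup.center ↥(Cfsg.puigSubgroup ↥(S : Subgroup G))).map (Cfsg.puigSubgroup ↥(S : Subgroup G)).subtype).map (S : Subgroup G).subtype : Subgroup G) : Set G) = ⊤ ∧
      (Cfsg.pPrimeCore p G = ⊥ → (((Subgroup.center ↥(Cfsg.puigSubgroup ↥(S : Subgroup G))).map (Cfsg.puigSubgroup ↥(S : Subgroup G)).subtype).map (S : Subgroup G).subtype).Normal) := by
  set L := CfsgLib.Puig.PL (S : Subgroup G) with hL
  have hZ : ((Subgroup.center ↥(Cfsg.puigSubgroup ↥(S : Subgroup G))).map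
      (Cfsg.puigSubgroup ↥(S : Subgroup G)).subtype).map (S : Subgroup G).subtype =
      L ⊓ Subgroup.centralizer (L : Set G) := by
    rw [hL, ← CfsgLib.Puig.puigSubgroup_eq]
    ext x
    constructor
    · rintro ⟨_, ⟨y, hy, rfl⟩, rfl⟩
      refine ⟨⟨(y : ↥(S : Subgroup G)), y.2, rfl⟩, Subgroup.mem_centralizer_iff.2 ?_⟩
      rintro _ ⟨w, hw, rfl⟩
      exact congrArg (fun v : Cfsg.puigSubgroup ↥(S : Subgroup G) => ((v : ↥(S : Subgroup G)) : G))
        (Subgroup.mem_center_iff.1 hy ⟨w, hw⟩)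
    · rintro ⟨⟨y, hy, rfl⟩, hc⟩
      refine ⟨y, ⟨⟨y, hy⟩, Subgroup.mem_center_iff.2 ?_, rfl⟩, rfl⟩
      intro w
      exact Subtype.ext (Subtype.ext (Subgroup.mem_centralizer_iff.1 hc _ ⟨w, w.2, rfl⟩))
  rw [hZ]
  refine ⟨?_, fun hO => CfsgLib.Puig.center_PL_normal hodd hp hO S⟩
  haveI := CfsgLib.Core.normal_pPrimeCore (G := G) p
  set f := QuotientGroup.mk' (Cfsg.pPrimeCore p G) with hf
  have hfs : Function.Surjective f := QuotientGroup.mk'_surjective _
  have hker : (Nat.card f.ker).Coprime p := by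
    rw [hf, QuotientGroup.ker_mk']; exact CfsgLib.Core.coprime_card_pPrimeCore p
  have hinj := CfsgLib.Stable.injOn_of_coprime_ker f hker S.2
  have hn := CfsgLib.Puig.center_PL_normal (CfsgLib.OddStable.odd_quotient hodd _) hp
    (CfsgLib.Core.pPrimeCore_quotient_pPrimeCore p) (S.mapSurjective hfs)
  have hmap : (L ⊓ Subgroup.centralizer (L : Set G)).map f =
      CfsgLib.Puig.PL ((S.mapSurjective hfs : Sylow p _) : Subgroup (G ⧸ Cfsg.pPrimeCore p G)) ⊓
        Subgroup.centralizer ((CfsgLib.Puig.PL ((S.mapSurjective hfs : Sylow p _) :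
          Subgroup (G ⧸ Cfsg.pPrimeCore p G)) : Subgroup (G ⧸ Cfsg.pPrimeCore p G)) :
            Set (G ⧸ Cfsg.pPrimeCore p G)) := by
    rw [Sylow.coe_mapSurjective, ← CfsgLib.Puig.map_PL hinj, ← hL]
    have hLS : L ≤ (S : Subgroup G) := CfsgLib.Puig.PL_le _
    apply le_antisymm
    · rintro _ ⟨x, ⟨hx, hc⟩, rfl⟩
      refine ⟨⟨x, hx, rfl⟩, Subgroup.mem_centralizer_iff.2 ?_⟩
      rintro _ ⟨w, hw, rfl⟩
      rw [← map_mul, ← map_mul, Subgroup.mem_centralizer_iff.1 hc w hw]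
    · rintro _ ⟨⟨x, hx, rfl⟩, hc⟩
      refine ⟨x, ⟨hx, Subgroup.mem_centralizer_iff.2 ?_⟩, rfl⟩
      intro w hw
      refine hinj (mul_mem (hLS hw) (hLS hx)) (mul_mem (hLS hx) (hLS hw)) ?_
      rw [map_mul, map_mul]
      exact Subgroup.mem_centralizer_iff.1 hc _ ⟨w, hw, rfl⟩
  rw [← hmap] at hn
  haveI := hn
  have h1 := CfsgLib.Stable.normalizer_map_eq f hfs hker
    (S.2.to_le (inf_le_left.trans (CfsgLib.Puig.PL_le (S : Subgroup G))) :
      IsPGroup p ↥(L ⊓ Subgroup.centralizer (L : Set G)))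
  rw [Subgroup.normalizer_eq_top] at h1
  have h2 := congrArg (Subgroup.comap f) h1
  rw [Subgroup.comap_top, Subgroup.comap_map_eq, hf, QuotientGroup.ker_mk'] at h2
  rw [sup_comm]
  exact h2.symm

end Cfsg.Agent.S1469
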