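import Cfsg.Statements.S1470


set_option autoImplicit false
open Cfsg

namespace Cfsg.Agent.S1470

/-- Let p and q be odd primes with (p^q − 1)/(p − 1) coprime to p − 1, and let E be the set of elements a of the field with p ^ q elements whose norm to the prime field is 1 and for which 2 − a also has norm 1. If a⁻¹ ∈ E for every a ∈ E and E has at least two elements, then p ≤ q. -/
theorem result (p q : ℕ) [Fact p.Prime] [Fact q.Prime] (hp : p ≠ 2) (hq : q ≠ 2) (hA : Nat.Coprime ((p ^ q - 1) / (p - 1)) (p - 1))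
    (hinv : ∀ a ∈ {a : GaloisField p q | Algebra.norm (ZMod p) a = 1 ∧ Algebra.norm (ZMod p) (2 - a) = 1}, a⁻¹ ∈ {a : GaloisField p q | Algebra.norm (ZMod p) a = 1 ∧ Algebra.norm (ZMod p) (2 - a) = 1})
    (h2 : 2 ≤ Set.ncard {a : GaloisField p q | Algebra.norm (ZMod p) a = 1 ∧ Algebra.norm (ZMod p) (2 - a) = 1}) :
    p ≤ q := by
  classical
  set F := GaloisField p q
  set E := {a : F | Algebra.norm (ZMod p) a = 1 ∧ Algebra.norm (ZMod p) (2 - a) = 1} with hE
  have hfr : Module.finrank (ZMod p) F = q := GaloisField.finrank p (Fact.out : q.Prime).ne_zero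
  have h2' : ∃ a ∈ E, a ≠ 1 := by
    by_contra hc
    push Not at hc
    have hsub : E ⊆ {1} := fun a ha => hc a ha
    have := Set.ncard_le_ncard hsub (Set.finite_singleton 1)
    rw [Set.ncard_singleton] at this
    omega
  obtain ⟨a, ha, ha1⟩ := h2'
  set d := 1 - a with hd
  let u : ℕ → F := fun k => 1 + (k : F) * d
  have hne : ∀ x : F, Algebra.norm (ZMod p) x = 1 → x ≠ 0 := by
    rintro x hx rfl
    rw [Algebra.norm_zero] at hx
    exact zero_ne_one hx
  have hT : ∀ e ∈ E, (2 - e)⁻¹ ∈ E := fun e he => hinv _ ⟨he.2, by rw [sub_sub_cancel]; exact he.1⟩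
  have hu : ∀ k : ℕ, Algebra.norm (ZMod p) (u k) = 1 ∧ Algebra.norm (ZMod p) (u (k + 1)) = 1 ∧
      u k / u (k + 1) ∈ E := by
    intro k
    induction k with
    | zero =>
      have e1 : u 0 = 1 := by simp [u]
      have e2 : u 1 = 2 - a := by simp [u, hd]; ring
      rw [e1, e2]
      exact ⟨map_one _, ha.2, by rw [one_div]; exact hT a ha⟩
    | succ k ih =>
      obtain ⟨h0, h1, h3⟩ := ih
      have hz := hne _ h1
      have e : 2 - u k / u (k + 1) = u (k + 1 + 1) / u (k + 1) := by
        rw [eq_div_iff hz, sub_mul, div_mul_cancel₀ _ hz]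
        simp only [u]; push_cast; ring
      have h4 := hT _ h3
      have h5 : Algebra.norm (ZMod p) (u (k + 1 + 1) / u (k + 1)) = 1 := e ▸ h3.2
      refine ⟨h1, ?_, by rwa [e, inv_div] at h4⟩
      rw [← div_mul_cancel₀ (u (k + 1 + 1)) hz, map_mul, h5, h1, one_mul]
  set f := Algebra.lmul (ZMod p) F d with hf
  have heval : ∀ x : ZMod p, f.charpoly.eval x = Algebra.norm (ZMod p) (algebraMap (ZMod p) F x - d) := by
    intro x
    rw [LinearMap.eval_charpoly, Algebra.norm_apply, map_sub (Algebra.lmul (ZMod p) F), AlgHom.commutes]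
  set P : Polynomial (ZMod p) := f.charpoly - Polynomial.X ^ q with hP
  have hroot : ∀ x : ZMod p, x ≠ 0 → P.eval x = 0 := by
    intro x hx
    set k : ℕ := (-x⁻¹).val
    have hk : (k : ZMod p) = -x⁻¹ := ZMod.natCast_zmod_val _
    have hx' : algebraMap (ZMod p) F x - d = algebraMap (ZMod p) F x * u k := by
      simp only [u]
      rw [← map_natCast (algebraMap (ZMod p) F) k, hk, map_neg, map_inv₀]
      have hx0 : algebraMap (ZMod p) F x ≠ 0 := by rwa [Ne, map_eq_zero]
      rw [mul_add, mul_one, ← mul_assoc, mul_neg, mul_inv_cancel₀ hx0]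
      ring
    rw [hP, Polynomial.eval_sub, Polynomial.eval_pow, Polynomial.eval_X, heval, hx', map_mul,
      (hu k).1, mul_one, Algebra.norm_algebraMap, hfr, sub_self]
  have hP0 : P ≠ 0 := by
    intro h
    have h0 := congrArg (fun Q => Polynomial.eval (0 : ZMod p) Q) h
    simp only [hP, Polynomial.eval_sub, Polynomial.eval_pow, Polynomial.eval_X, heval, map_zero,
      zero_sub, Polynomial.eval_zero, zero_pow (Fact.out : q.Prime).ne_zero, sub_zero] at h0
    rw [Algebra.norm_eq_zero_iff] at h0
    exact ha1 (by linear_combination h0)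
  have hdeg : P.natDegree < q := by
    have h1 : f.charpoly.natDegree = q := by rw [LinearMap.charpoly_natDegree, hfr]
    have h2 : f.charpoly.degree = (q : WithBot ℕ) := by
      rw [Polynomial.degree_eq_natDegree f.charpoly_monic.ne_zero, h1]
    rw [Polynomial.natDegree_lt_iff_degree_lt hP0, ← h2]
    exact Polynomial.degree_sub_lt_left (by rw [h2, Polynomial.degree_X_pow]) f.charpoly_monic.ne_zero
      (by rw [f.charpoly_monic.leadingCoeff, Polynomial.leadingCoeff_X_pow])
  have hcard : (Finset.univ.erase (0 : ZMod p)).card ≤ P.natDegree := by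
    refine le_trans (Finset.card_le_card (t := P.roots.toFinset) fun x hx => ?_) ((Multiset.toFinset_card_le _).trans P.card_roots')
    rw [Multiset.mem_toFinset, Polynomial.mem_roots hP0]
    exact hroot x (Finset.mem_erase.1 hx).1
  rw [Finset.card_erase_of_mem (Finset.mem_univ _), Finset.card_univ, ZMod.card] at hcard
  omega

end Cfsg.Agent.S1470
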