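import Cfsg.Statements.S1474
import Cfsg.Agent.Lib.OddCNNormal

set_option autoImplicit false
open Cfsg

namespace Cfsg.Agent.S1474

/-- Let G be a finite group in which every non-identity element has nilpotent centralizer, not itself nilpotent, and having a nontrivial normal Sylow p-subgroup for some prime p. Let H be the largest normal nilpotent Hall subgroup of G. Then H is a nontrivial proper normal subgroup with a complement E that is a Frobenius complement in G (no non-identity element of E centralizes a non-identity element of H), and G/H is nilpotent. -/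
theorem result {G : Type*} [Group G] [Finite G] (hCN : Cfsg.IsCNGroup G) (hnn : ¬ Group.IsNilpotent G) (p : ℕ) [Fact p.Prime] (P : Sylow p G)
    (hP1 : (P : Subgroup G) ≠ ⊥) (hPn : (P : Subgroup G).Normal) :
    Cfsg.fittingHall G ≠ ⊥ ∧ Cfsg.fittingHall G ≠ ⊤ ∧
      (∃ E : Subgroup G, Subgroup.IsComplement' (Cfsg.fittingHall G) E ∧ Cfsg.IsFrobeniusComplement E ∧
        ∀ e ∈ E, e ≠ 1 → Cfsg.fittingHall G ⊓ Subgroup.centralizer ({e} : Set G) = ⊥) ∧
      Group.IsNilpotent (G ⧸ Cfsg.fittingHall G) := by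
  set F := Cfsg.fittingHall G with hFdef
  haveI hFN : F.Normal := Cfsg.fittingHall_normal G
  have hFn : Group.IsNilpotent F := CfsgLib.CNNormal.nilpotent_of_le
    (show F ≤ Cfsg.fittingSubgroup G from sSup_le fun N hN => le_sSup ⟨hN.1, hN.2.1⟩)
    CfsgLib.Core.isNilpotent_fittingSubgroup
  have hco := CfsgLib.OddTypeP.fittingHall_coprime G
  have hmax : ∀ (q : ℕ) [Fact q.Prime] (S : Sylow q G), (S : Subgroup G).Normal → (S : Subgroup G) ≤ F :=
    fun q _ S hS => le_sSup ⟨hS, S.2.isNilpotent, S.card_coprime_index⟩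
  have hF0 : F ≠ ⊥ := fun e => hP1 (le_bot_iff.1 (e ▸ hmax p P hPn))
  have hF1 : F ≠ ⊤ := fun e => hnn ((Group.isNilpotent_congr Subgroup.topEquiv).1 (e ▸ hFn))
  obtain ⟨E, hE⟩ := Subgroup.exists_right_complement'_of_coprime hco
  have hfree : ∀ e ∈ E, e ≠ 1 → ∀ k ∈ F, e * k = k * e → k = 1 := by
    intro e he he1 k hk hc
    by_contra hk1
    obtain ⟨q, hq, hqd⟩ := Nat.exists_prime_and_dvd (fun h => he1 (orderOf_eq_one_iff.1 h))
    haveI := Fact.mk hq
    have ho : orderOf (e ^ (orderOf e / q)) = q := by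
      rw [orderOf_pow_of_dvd (Nat.div_pos (Nat.le_of_dvd (orderOf_pos e) hqd) hq.pos).ne'
        (Nat.div_dvd_of_dvd hqd), Nat.div_div_self hqd (orderOf_pos e).ne']
    refine CfsgLib.CNNormal.free hCN hFn hmax ho ?_ hk hk1 ((show Commute e k from hc).pow_left _)
    refine hco.coprime_dvd_right (hqd.trans ((Subgroup.orderOf_dvd_natCard _ he).trans ?_))
    rw [hE.symm.index_eq_card]
  have hE0 : E ≠ ⊥ := fun e => hF1 (Subgroup.isComplement'_bot_right.1 (e ▸ hE))
  refine ⟨hF0, hF1, ⟨E, hE, CfsgLib.Core.isFrobeniusComplement_of_fpf hE hF0 hE0 hfree, fun e he he1 => ?_⟩, ?_⟩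
  · rw [eq_bot_iff]
    rintro k ⟨hk, hkc⟩
    exact Subgroup.mem_bot.2 (hfree e he he1 k hk (Subgroup.mem_centralizer_iff.1 hkc e rfl))
  · haveI := CfsgLib.CNNormal.nilpotent_free hCN hF0 hfree
    exact (Group.isNilpotent_congr hE.symm.QuotientMulEquiv).2 inferInstance

end Cfsg.Agent.S1474
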