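import Cfsg.Statements.S1475
import Cfsg.Agent.Lib.CoreFitting
import Cfsg.Agent.Lib.CoreHall
import Cfsg.Agent.Lib.CoreFpf

set_option autoImplicit false
open Cfsg

namespace Cfsg.Agent.S1475

/-- Let G be a finite solvable group such that the order of every element is a prime power (1 included). Then at most two distinct primes divide the order of G. -/
theorem result {G : Type*} [Group G] [Finite G] [Group.IsSolvable G] (h : ∀ g : G, IsPrimePow (orderOf g) ∨ g = 1) :
    (Nat.card G).primeFactors.card ≤ 2 := by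
  classical
  have key : ∀ x y : G, x * y = y * x → x ≠ 1 → y ≠ 1 → (orderOf x).Coprime (orderOf y) → False := by
    intro x y hxy hx hy hcop
    have ho := Commute.orderOf_mul_eq_mul_orderOf_of_coprime (hxy : Commute x y) hcop
    have h1 : orderOf x ≠ 1 := fun e => hx (orderOf_eq_one_iff.1 e)
    have h2 : orderOf y ≠ 1 := fun e => hy (orderOf_eq_one_iff.1 e)
    rcases h (x * y) with hpp | h'
    · rw [ho] at hpp
      obtain ⟨r, k, hr, -, hk⟩ := hpp
      replace hr := hr.nat_prime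
      obtain ⟨i, -, hi⟩ := (Nat.dvd_prime_pow hr).1 (hk ▸ dvd_mul_right (orderOf x) (orderOf y))
      obtain ⟨j, -, hj⟩ := (Nat.dvd_prime_pow hr).1 (hk ▸ dvd_mul_left (orderOf y) (orderOf x))
      rw [hi, hj] at hcop
      have hi0 : i ≠ 0 := fun e => h1 (by rw [hi, e, pow_zero])
      have hj0 : j ≠ 0 := fun e => h2 (by rw [hj, e, pow_zero])
      exact hr.not_dvd_one ((Nat.dvd_gcd (dvd_pow_self r hi0) (dvd_pow_self r hj0)).trans (Nat.dvd_one.2 hcop))
    · rw [h', orderOf_one] at ho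
      exact h1 (Nat.eq_one_of_mul_eq_one_right ho.symm)
  by_contra hcard
  push Not at hcard
  haveI : Nontrivial G := by
    rw [← Finite.one_lt_card_iff_nontrivial]
    by_contra h1
    have : Nat.card G = 1 := le_antisymm (not_lt.1 h1) Nat.card_pos
    rw [this, Nat.primeFactors_one, Finset.card_empty] at hcard
    omega
  obtain ⟨p, hp, hP0⟩ := CfsgLib.Core.exists_pCore_ne_bot (G := G)
  haveI := Fact.mk hp
  set P0 := Cfsg.pCore p G with hP0def
  obtain ⟨K, hK⟩ := CfsgLib.Core.exists_isHall (G := G) ({p}ᶜ : Set ℕ)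
  have hKdvd : ∀ r : ℕ, r.Prime → r ∣ Nat.card G → r ≠ p → r ∣ Nat.card K := by
    intro r hr hd hrp
    rw [← K.card_mul_index] at hd
    rcases hr.dvd_mul.1 hd with h' | h'
    · exact h'
    · exact absurd (hK.2 r hr h') (fun h'' => h'' hrp)
  have hKp : ¬ p ∣ Nat.card K := fun hd => (hK.1 p hp hd) rfl
  have two : ∀ a b : ℕ, ∃ r ∈ (Nat.card G).primeFactors, r ≠ a ∧ r ≠ b := by
    intro a b
    by_contra hc
    push Not at hc
    have hsub : (Nat.card G).primeFactors ⊆ {a, b} := fun r hr => by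
      by_cases e : r = a
      · simp [e]
      · simp [hc r hr e]
    have := (Finset.card_le_card hsub).trans Finset.card_le_two
    omega
  obtain ⟨r0, hr0, hr0p, -⟩ := two p p
  haveI : Nontrivial K := by
    rw [← Finite.one_lt_card_iff_nontrivial]
    exact lt_of_lt_of_le (Nat.prime_of_mem_primeFactors hr0).one_lt (Nat.le_of_dvd Nat.card_pos
      (hKdvd r0 (Nat.prime_of_mem_primeFactors hr0) (Nat.dvd_of_mem_primeFactors hr0) hr0p))
  obtain ⟨s, hs, hS⟩ := CfsgLib.Core.exists_pCore_ne_bot (G := K)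
  haveI := Fact.mk hs
  obtain ⟨r, hr, hrp, hrs⟩ := two p s
  have hrP := Nat.prime_of_mem_primeFactors hr
  haveI := Fact.mk hrP
  obtain ⟨b, hb⟩ := exists_prime_orderOf_dvd_card' (G := K) r
    (hKdvd r hrP (Nat.dvd_of_mem_primeFactors hr) hrp)
  set Q := (Cfsg.pCore s K).map K.subtype with hQ
  have hQs : IsPGroup s Q := (CfsgLib.Core.isPGroup_pCore (G := K) s).map _
  have hQne : Q ≠ ⊥ := fun e => hS ((Subgroup.map_eq_bot_iff_of_injective _ K.subtype_injective).1 e)
  have hQK : Q ≤ K := Subgroup.map_subtype_le _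
  haveI hn : (Cfsg.pCore s K).Normal := Subgroup.sSup_normal _ (fun _ h' => h'.1)
  have hbQ : (b : G) ∈ Subgroup.normalizer (Q : Set G) := by
    rw [Subgroup.mem_normalizer_iff]
    intro x
    constructor
    · rintro ⟨y, hy, rfl⟩
      exact ⟨b * y * b⁻¹, hn.conj_mem y hy b, rfl⟩
    · rintro ⟨y, hy, hyx⟩
      refine ⟨b⁻¹ * y * b, by simpa using hn.conj_mem y hy b⁻¹, ?_⟩
      have hyx' : (y : G) = b * x * (b : G)⁻¹ := hyx
      rw [Subgroup.coe_subtype, Subgroup.coe_mul, Subgroup.coe_mul, Subgroup.coe_inv, hyx']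
      group
  haveI hP0n : P0.Normal := Subgroup.sSup_normal _ (fun _ h' => h'.1)
  refine hP0 (CfsgLib.Core.eq_bot_of_fpf (p := r) (q := s) (b := (b : G)) hrP (by rw [Subgroup.orderOf_coe, hb]) hQs hQne hbQ ?_ ?_ ?_)
  · rw [Subgroup.normalizer_eq_top_iff.2 hP0n]; exact le_top
  · intro x hx hxb
    by_contra hx1
    obtain ⟨k, hk⟩ := IsPGroup.iff_orderOf.1 hQs ⟨x, hx⟩
    rw [Subgroup.orderOf_mk] at hk
    refine key x b hxb hx1 (fun e => ?_) ?_
    · rw [← Subgroup.orderOf_coe, e, orderOf_one] at hb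
      exact hrP.one_lt.ne hb
    · rw [hk, Subgroup.orderOf_coe, hb]
      exact Nat.Coprime.pow_left _ ((Nat.coprime_primes hs hrP).2 (Ne.symm hrs))
  · intro g hg hg1 v hv hgv
    by_contra hv1
    have hgK : g ∈ K := (sup_le hQK (Subgroup.zpowers_le.2 b.2)) hg
    obtain ⟨k, hk⟩ := IsPGroup.iff_orderOf.1 (CfsgLib.Core.isPGroup_pCore (G := G) p) ⟨v, hv⟩
    rw [Subgroup.orderOf_mk] at hk
    refine key g v hgv hg1 hv1 ?_
    rw [hk]
    refine Nat.Coprime.pow_right _ ((hp.coprime_iff_not_dvd.2 fun hd => hKp (hd.trans ?_)).symm)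
    exact (Subgroup.orderOf_mk g hgK) ▸ orderOf_dvd_natCard _

end Cfsg.Agent.S1475
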