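import Cfsg.Statements.S1491
import Cfsg.Agent.Lib.CharRamified

set_option autoImplicit false
open Cfsg

namespace Cfsg.Agent.S1491

/-- Let H be a normal subgroup of the finite group G and θ an irreducible character of H with inertia group T, where T/H is abelian (commutators of T lie in H) and the index of H in T is coprime to the order of H. Then the function induced from θ is the sum of a set of exactly [T:H] irreducible characters of G, each of degree [G:T] * θ(1). -/
theorem result {G : Type*} [Group G] [Fintype G] (H T : Subgroup G) [hN : H.Normal] (θ : H → ℂ) (hθ : Cfsg.IsIrrCharacter H θ) (hT : ∀ g : G, g ∈ T ↔ ∀ h : H, θ ⟨g * h * g⁻¹, hN.conj_mem h h.2 g⟩ = θ h) (hab : ∀ x ∈ T, ∀ y ∈ T, x * y * x⁻¹ * y⁻¹ ∈ H) (hcop : Nat.Coprime (Nat.card H) (H.relIndex T)) : ∃ C : Finset (G → ℂ), (∀ χ ∈ C, Cfsg.IsIrrCharacter G χ) ∧ C.card = H.relIndex T ∧ Cfsg.indFun H θ = ∑ χ ∈ C, χ ∧ ∀ χ ∈ C, χ 1 = (T.index : ℂ) * θ 1 := by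
  obtain ⟨e, C, he, hC, hcard, hind, hdeg, he1⟩ := CfsgLib.Char.clifford_abelian_inertia H T hθ hT hab
  have he' := he1 hcop
  subst he'
  refine ⟨C, hC, ?_, by simpa using hind, fun χ hχ => by simpa using hdeg χ hχ⟩
  have hle : H ≤ T := fun g hg => (hT g).mpr fun h =>
    congrFun (CfsgLib.Char.conjFn_of_mem
      (CfsgLib.Char.isCharacter_classFunction hθ.isCharacter') hg) h
  have h1 : H.relIndex T * Nat.card H = Nat.card T := by
    have h := (H.subgroupOf T).index_mul_card
    rwa [Nat.card_congr (Subgroup.subgroupOfEquivOfLe hle).toEquiv] at h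
  rw [one_pow, one_mul, ← h1] at hcard
  exact Nat.eq_of_mul_eq_mul_right Nat.card_pos hcard

end Cfsg.Agent.S1491
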