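import Cfsg.Statements.S1494
import Cfsg.Agent.Lib.CharLinear

set_option autoImplicit false
open Cfsg

namespace Cfsg.Agent.S1494

/-- Let χ be a generalized character of the finite group G, p a prime, x an element of order p and y an element commuting with x. Then χ(x * y) − χ(y) = (1 − ε) * ω for some algebraic integer ω, where ε = exp(2πi/p). -/
theorem result {G : Type*} [Group G] [Finite G] (χ : G → ℂ) (hχ : Cfsg.IsGeneralizedCharacter G χ) (p : ℕ) (hp : p.Prime) (x y : G) (hx : orderOf x = p) (hxy : x * y = y * x) : ∃ ω : ℂ, IsIntegral ℤ ω ∧ χ (x * y) - χ y = (1 - Complex.exp (2 * Real.pi * Complex.I / p)) * ω := by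
  classical
  let A : Subgroup G := Subgroup.closure {x, y}
  haveI := Fintype.ofFinite G
  haveI : Fintype A := Fintype.ofFinite _
  have hcomm : ∀ a b : A, a * b = b * a := by
    have h : IsMulCommutative A := Subgroup.isMulCommutative_closure (by
      rintro a (rfl | rfl) b (rfl | rfl) <;> first | rfl | exact hxy | exact hxy.symm)
    exact h.is_comm.comm
  have hxA : x ∈ A := Subgroup.subset_closure (Or.inl rfl)
  have hyA : y ∈ A := Subgroup.subset_closure (Or.inr rfl)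
  obtain ⟨χ₁, χ₂, h1, h2, rfl⟩ := hχ
  have hres : Cfsg.IsGeneralizedCharacter A (fun a : A => (χ₁ - χ₂) a) :=
    ⟨_, _, CfsgLib.Char.isCharacter_restrict h1 A, CfsgLib.Char.isCharacter_restrict h2 A, rfl⟩
  obtain ⟨hcl, hint⟩ := CfsgLib.Char.isGenChar_iff_int.mp hres
  have hexp := CfsgLib.Char.classFunction_eq_sum _ hcl
  set ε := Complex.exp (2 * Real.pi * Complex.I / p) with hε
  have hprim : IsPrimitiveRoot ε p := Complex.isPrimitiveRoot_exp p hp.ne_zero
  have hterm : ∀ θ : Cfsg.IrrCharacter A, ∃ w : ℂ, IsIntegral ℤ w ∧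
      Cfsg.classInner (fun a : A => (χ₁ - χ₂) a) θ * (θ : A → ℂ) ⟨x * y, A.mul_mem hxA hyA⟩ -
        Cfsg.classInner (fun a : A => (χ₁ - χ₂) a) θ * (θ : A → ℂ) ⟨y, hyA⟩ = (1 - ε) * w := by
    intro θ
    obtain ⟨n, hn⟩ := hint _ θ.2
    obtain ⟨f, hf⟩ := CfsgLib.Char.exists_hom_of_irr_comm hcomm θ.2
    haveI : NeZero p := ⟨hp.ne_zero⟩
    have hfx : ((f ⟨x, hxA⟩ : ℂˣ) : ℂ) ^ p = 1 := by
      rw [← Units.val_pow_eq_pow_val, ← map_pow,
        show (⟨x, hxA⟩ : A) ^ p = 1 from Subtype.ext (by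
          rw [Subgroup.coe_pow, ← hx, pow_orderOf_eq_one, Subgroup.coe_one]),
        map_one, Units.val_one]
    obtain ⟨j, -, hj⟩ := hprim.eq_pow_of_pow_eq_one hfx
    refine ⟨-(n : ℂ) * ((f ⟨y, hyA⟩ : ℂˣ) : ℂ) * ∑ i ∈ Finset.range j, ε ^ i, ?_, ?_⟩
    · refine IsIntegral.mul (IsIntegral.mul isIntegral_algebraMap.neg ?_) ?_
      · refine IsIntegral.of_pow (Nat.card_pos (α := A)) ?_
        rw [← Units.val_pow_eq_pow_val, ← map_pow, pow_card_eq_one', map_one]
        exact isIntegral_one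
      · exact IsIntegral.sum _ fun i _ => (IsIntegral.of_pow hp.pos (by
          rw [hprim.pow_eq_one]; exact isIntegral_one)).pow i
    · have hg : (1 - ε) * ∑ i ∈ Finset.range j, ε ^ i = 1 - ε ^ j := by
        linear_combination -(geom_sum_mul ε j)
      rw [hn, hf, show (⟨x * y, A.mul_mem hxA hyA⟩ : A) = ⟨x, hxA⟩ * ⟨y, hyA⟩ from rfl]
      simp only [map_mul, Units.val_mul, ← hj]
      linear_combination ((n : ℂ) * ((f ⟨y, hyA⟩ : ℂˣ) : ℂ)) * hg
  choose w hw1 hw2 using hterm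
  refine ⟨∑ θ, w θ, IsIntegral.sum _ fun θ _ => hw1 θ, ?_⟩
  have e1 := congrFun hexp ⟨x * y, A.mul_mem hxA hyA⟩
  have e2 := congrFun hexp ⟨y, hyA⟩
  simp only [Finset.sum_apply, Pi.smul_apply, smul_eq_mul] at e1 e2
  rw [Finset.mul_sum, ← Finset.sum_congr rfl fun θ _ => hw2 θ, Finset.sum_sub_distrib, ← e1, ← e2]

end Cfsg.Agent.S1494
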