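import Cfsg.Statements.S1495
import Mathlib.RingTheory.RootsOfUnity.Lemmas
import Mathlib.RingTheory.RootsOfUnity.Complex
import Cfsg.Agent.Lib.CharInt

set_option autoImplicit false
open Cfsg

namespace Cfsg.Agent.S1495

/-- Let p be a prime, ε = exp(2πi/p), and n an integer such that n = (1 − ε) * ω for some algebraic integer ω. Then p divides n. -/
theorem result (p : ℕ) (hp : p.Prime) (n : ℤ) (ω : ℂ) (hω : IsIntegral ℤ ω) (h : (n : ℂ) = (1 - Complex.exp (2 * Real.pi * Complex.I / p)) * ω) : (p : ℤ) ∣ n := by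
  classical
  set ε := Complex.exp (2 * Real.pi * Complex.I / p) with hε
  have hprim : IsPrimitiveRoot ε p := Complex.isPrimitiveRoot_exp p hp.ne_zero
  have hεint : IsIntegral ℤ ε := IsIntegral.of_pow hp.pos (by
    rw [hprim.pow_eq_one]; exact isIntegral_one)
  have hunit : ∀ j ∈ Finset.range (p - 1), ∃ u : ℂ, IsIntegral ℤ u ∧
      1 - ε = u * (1 - ε ^ (j + 1)) := by
    intro j hj
    have hlt : j + 1 < p := by have := Finset.mem_range.mp hj; omega
    have hcop : Nat.Coprime (j + 1) p :=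
      Nat.Coprime.symm ((hp.coprime_iff_not_dvd).mpr
        (Nat.not_dvd_of_pos_of_lt (Nat.succ_pos j) hlt))
    obtain ⟨k, hk⟩ := Nat.exists_mul_mod_eq_one_of_coprime hcop hp.one_lt
    refine ⟨∑ i ∈ Finset.range k, (ε ^ (j + 1)) ^ i,
      IsIntegral.sum _ fun i _ => (hεint.pow _).pow i, ?_⟩
    have hg := geom_sum_mul (ε ^ (j + 1)) k
    have he : (ε ^ (j + 1)) ^ k = ε := by
      rw [← pow_mul, ← Nat.mod_add_div ((j + 1) * k) p, hk.2, pow_add, pow_one, pow_mul,
        hprim.pow_eq_one, one_pow, mul_one]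
    rw [he] at hg
    linear_combination hg
  choose! u hu1 hu2 using hunit
  have hprod : ∏ j ∈ Finset.range (p - 1), (1 - ε ^ (j + 1)) = (p : ℂ) := by
    have hp' : p - 1 + 1 = p := Nat.sub_add_cancel hp.one_le
    have h2 := IsPrimitiveRoot.prod_one_sub_pow_eq_order (n := p - 1) (hp'.symm ▸ hprim)
    rw [h2]
    exact_mod_cast hp'
  have hkey : ((n ^ (p - 1) : ℤ) : ℂ) / ((p : ℤ) : ℂ) =
      (∏ j ∈ Finset.range (p - 1), u j) * ω ^ (p - 1) := by
    rw [div_eq_iff (by exact_mod_cast hp.ne_zero)]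
    push_cast
    rw [h, mul_pow, ← hprod, mul_right_comm, ← Finset.prod_mul_distrib]
    congr 1
    conv_lhs => rw [← Finset.card_range (p - 1), ← Finset.prod_const]
    exact Finset.prod_congr rfl fun j hj => hu2 j hj
  have hint : IsIntegral ℤ (((n ^ (p - 1) : ℤ) : ℂ) / ((p : ℤ) : ℂ)) := by
    rw [hkey]
    exact (IsIntegral.prod _ hu1).mul (hω.pow _)
  exact (Nat.prime_iff_prime_int.mp hp).dvd_of_dvd_pow
    (CfsgLib.Char.intCast_dvd_of_isIntegral_div (by exact_mod_cast hp.ne_zero) hint)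

end Cfsg.Agent.S1495
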