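import Cfsg.Statements.S1496
import Mathlib.GroupTheory.Coset.Card
import Mathlib.Data.Nat.ModEq
import Mathlib.Tactic.Group


set_option autoImplicit false
open Cfsg

namespace Cfsg.Agent.S1496

/-- Let H be a subgroup of the finite group G and g an element normalising H whose order is coprime to the order of H. Then for every h ∈ H there are x ∈ H and c ∈ H commuting with g such that x * (h * g) * x⁻¹ = c * g. -/
theorem result {G : Type*} [Group G] [Finite G] (H : Subgroup G) (g : G) (hg : g ∈ Subgroup.normalizer (H : Set G)) (hcop : Nat.Coprime (orderOf g) (Nat.card H)) (h : G) (hh : h ∈ H) : ∃ x ∈ H, ∃ c ∈ H, c * g = g * c ∧ x * (h * g) * x⁻¹ = c * g := by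
  classical
  haveI := Fintype.ofFinite G
  let C : Subgroup G := H ⊓ Subgroup.centralizer ({g} : Set G)
  let C' : Subgroup H := C.subgroupOf H
  have hmemH : ∀ (x : H) (c : C'), (x : G) * ((c : H) : G) * g * (x : G)⁻¹ * g⁻¹ ∈ H := fun x c => by
    have h1 : g * (x : G)⁻¹ * g⁻¹ ∈ H := (Subgroup.mem_normalizer_iff.mp hg _).mp (H.inv_mem x.2)
    have h2 := H.mul_mem (H.mul_mem x.2 (c : H).2) h1
    convert h2 using 1
    group
  let Φ : (H ⧸ C') × C' → H := fun p =>
    ⟨(p.1.out : G) * ((p.2 : H) : G) * g * (p.1.out : G)⁻¹ * g⁻¹, hmemH p.1.out p.2⟩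
  have hinj : Function.Injective Φ := by
    rintro ⟨q, c⟩ ⟨r, d⟩ he
    have e : (q.out : G) * ((c : H) : G) * g * (q.out : G)⁻¹ * g⁻¹ =
        (r.out : G) * ((d : H) : G) * g * (r.out : G)⁻¹ * g⁻¹ := congrArg Subtype.val he
    have hcC : Commute ((c : H) : G) g :=
      Subgroup.mem_centralizer_singleton_iff.mp (Subgroup.mem_subgroupOf.mp c.2).2
    have hdC : Commute ((d : H) : G) g :=
      Subgroup.mem_centralizer_singleton_iff.mp (Subgroup.mem_subgroupOf.mp d.2).2
    set z : G := (r.out : G)⁻¹ * (q.out : G) with hz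
    have hzc : z * (((c : H) : G) * g) * z⁻¹ = ((d : H) : G) * g := by
      calc z * (((c : H) : G) * g) * z⁻¹
          = (r.out : G)⁻¹ * ((q.out : G) * ((c : H) : G) * g * (q.out : G)⁻¹ * g⁻¹) * g *
              (r.out : G) := by rw [hz]; group
        _ = ((d : H) : G) * g := by rw [e]; group
    obtain ⟨k, hkH, hkg⟩ :=
      Nat.chineseRemainder (show Nat.Coprime (Nat.card H) (orderOf g) from hcop.symm) 0 1
    have hpow : ∀ w : H, Commute (w : G) g → ((w : G) * g) ^ k = g := fun w hw => by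
      have h1 : (w : G) ^ k = 1 := by
        have h0 : Nat.card H ∣ k := (Nat.modEq_zero_iff_dvd).mp hkH
        obtain ⟨j, hj⟩ := h0
        have h2 : w ^ Nat.card H = 1 := pow_card_eq_one'
        rw [hj, pow_mul, ← Subgroup.coe_pow, h2, Subgroup.coe_one, one_pow]
      have h2 : g ^ k = g := by
        conv_rhs => rw [← pow_one g]
        exact pow_eq_pow_iff_modEq.mpr hkg
      rw [hw.mul_pow, h1, h2, one_mul]
    have hzg : z * g * z⁻¹ = g := by
      have h1 := congrArg (fun t => t ^ k) hzc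
      simp only [conj_pow] at h1
      rwa [hpow _ hcC, hpow _ hdC] at h1
    have hqr : r = q := by
      rw [← QuotientGroup.out_eq' r, ← QuotientGroup.out_eq' q]
      refine QuotientGroup.eq.mpr (Subgroup.mem_subgroupOf.mpr ⟨(r.out⁻¹ * q.out).2, ?_⟩)
      show z ∈ Subgroup.centralizer ({g} : Set G)
      rw [Subgroup.mem_centralizer_singleton_iff]
      calc z * g = z * g * z⁻¹ * z := by group
        _ = g * z := by rw [hzg]
    subst hqr
    refine Prod.ext rfl (Subtype.ext (Subtype.ext ?_))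
    simpa using e
  have hsurj : Function.Surjective Φ := by
    have hbij : Function.Bijective Φ := (Nat.bijective_iff_injective_and_card Φ).mpr ⟨hinj, by
      rw [Nat.card_prod, ← Subgroup.card_eq_card_quotient_mul_card_subgroup]⟩
    exact hbij.2
  obtain ⟨⟨q, c⟩, hqc⟩ := hsurj ⟨h, hh⟩
  have e : (q.out : G) * ((c : H) : G) * g * (q.out : G)⁻¹ * g⁻¹ = h := congrArg Subtype.val hqc
  refine ⟨(q.out : G)⁻¹, H.inv_mem q.out.2, ((c : H) : G), (c : H).2,
    Subgroup.mem_centralizer_singleton_iff.mp (Subgroup.mem_subgroupOf.mp c.2).2, ?_⟩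
  rw [← e]; group

end Cfsg.Agent.S1496
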