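import Cfsg.Statements.S1497
import Mathlib.Tactic.Group

import Cfsg.Agent.Lib.CharDade

set_option autoImplicit false
open Cfsg

namespace Cfsg.Agent.S1497

/-- Let A be a nonempty subset of the finite group G not containing 1 and L a subgroup. Then A is a TI-subset whose normaliser is L if and only if the Dade hypothesis holds for A, L and the constant choice H(a) = ⊥. -/
theorem result {G : Type*} [Group G] [Finite G] (A : Set G) (hA : A.Nonempty) (h1 : (1 : G) ∉ A) (L : Subgroup G) : (Cfsg.IsTISubset A ∧ Subgroup.normalizer A = L) ↔ Cfsg.DadeHypothesis A L (fun _ => ⊥) := by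
  constructor
  · rintro ⟨hTI, hN⟩
    have hmem : ∀ a ∈ A, ∀ g : G, g * a * g⁻¹ ∈ A → g ∈ L := fun a ha g hg => by
      rw [← hN]
      exact by_contra fun hn => h1 (hTI g hn a ha hg ▸ ha)
    have hCL : ∀ a ∈ A, Subgroup.centralizer ({a} : Set G) ≤ L := fun a ha c hc => by
      refine hmem a ha c ?_
      rwa [Subgroup.mem_centralizer_singleton_iff.mp hc, mul_inv_cancel_right]
    exact
      { one_not_mem := h1
        subset := fun a ha => hmem a ha a (by rwa [mul_inv_cancel_right])
        conj_mem := fun x hx a ha => (Subgroup.mem_set_normalizer_iff.mp (hN.symm ▸ hx) a).mp ha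
        fusion := fun a ha g hg => ⟨g, hmem a ha g hg, rfl⟩
        le_centralizer := fun a _ => bot_le
        conj_mem_H := fun a _ c _ u hu => by
          rw [Subgroup.mem_bot.mp hu, mul_one, mul_inv_cancel]
          exact Subgroup.one_mem _
        inf_eq_bot := fun a _ => bot_inf_eq _
        sup_eq := fun a ha => by rw [bot_sup_eq, inf_eq_right.mpr (hCL a ha)]
        coprime := fun a _ b _ => by rw [Subgroup.card_bot]; exact Nat.coprime_one_left _ }
  · intro hD
    have hle : L ≤ Subgroup.normalizer A := fun x hx => Subgroup.mem_set_normalizer_iff.mpr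
      fun a => ⟨fun ha => hD.conj_mem x hx a ha, fun ha => by
        have := hD.conj_mem x⁻¹ (L.inv_mem hx) _ ha
        rwa [show x⁻¹ * (x * a * x⁻¹) * x⁻¹⁻¹ = a by group] at this⟩
    have hmem : ∀ a ∈ A, ∀ g : G, g * a * g⁻¹ ∈ A → g ∈ L := fun a ha g hg => by
      obtain ⟨x, hx, he⟩ := hD.fusion a ha g hg
      have hc : x⁻¹ * g ∈ Subgroup.centralizer ({a} : Set G) := by
        rw [Subgroup.mem_centralizer_singleton_iff]
        calc x⁻¹ * g * a = x⁻¹ * (g * a * g⁻¹) * g := by group
          _ = x⁻¹ * (x * a * x⁻¹) * g := by rw [he]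
          _ = a * (x⁻¹ * g) := by group
      rw [← hD.sup_eq a ha, bot_sup_eq] at hc
      have := L.mul_mem hx hc.1
      rwa [mul_inv_cancel_left] at this
    refine ⟨fun g hg a ha hga => absurd (hle (hmem a ha g hga)) hg, le_antisymm (fun g hg => ?_) hle⟩
    obtain ⟨a, ha⟩ := hA
    exact hmem a ha g ((Subgroup.mem_set_normalizer_iff.mp hg a).mp ha)

end Cfsg.Agent.S1497
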