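import Cfsg.Statements.S1499
import Cfsg.Agent.Lib.CharDade2

set_option autoImplicit false
open Cfsg

namespace Cfsg.Agent.S1499

/-- Under the Dade hypothesis for (A, L, H), let a, b ∈ A. If an element of the coset a·H(a) is conjugate in G to an element of b·H(b), then a and b are conjugate by an element of L. Moreover the set normaliser of the coset a·H(a) is the centraliser of a. -/
theorem result {G : Type*} [Group G] [Finite G] (A : Set G) (L : Subgroup G) (H : G → Subgroup G) (hD : Cfsg.DadeHypothesis A L H) (a b : G) (ha : a ∈ A) (hb : b ∈ A) : ((∃ u ∈ H a, ∃ v ∈ H b, ∃ g : G, g * (a * u) * g⁻¹ = b * v) → ∃ x ∈ L, x * a * x⁻¹ = b) ∧ Subgroup.normalizer ((fun u : G => a * u) '' (H a : Set G)) = Subgroup.centralizer ({a} : Set G) := by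
  refine ⟨fun ⟨u, hu, v, hv, g, h⟩ => CfsgLib.Char.dade_fusion hD ha hb hu hv h, ?_⟩
  ext g
  rw [Subgroup.mem_centralizer_singleton_iff]
  constructor
  · intro hg
    have h1 : g * (a * 1) * g⁻¹ ∈ (fun u : G => a * u) '' (H a : Set G) :=
      (Subgroup.mem_set_normalizer_iff.mp hg _).mp ⟨1, (H a).one_mem, rfl⟩
    obtain ⟨v, hv, he⟩ := h1
    exact mul_inv_eq_iff_eq_mul.mp (CfsgLib.Char.dade_unique hD ha ha (H a).one_mem hv he.symm)
  · intro hg
    have hC : g ∈ Subgroup.centralizer ({a} : Set G) := Subgroup.mem_centralizer_singleton_iff.mpr hg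
    have key : ∀ c ∈ Subgroup.centralizer ({a} : Set G), ∀ y ∈ (fun u : G => a * u) '' (H a : Set G),
        c * y * c⁻¹ ∈ (fun u : G => a * u) '' (H a : Set G) := by
      rintro c hc _ ⟨u, hu, rfl⟩
      refine ⟨c * u * c⁻¹, hD.conj_mem_H a ha c hc u hu, ?_⟩
      show a * (c * u * c⁻¹) = c * (a * u) * c⁻¹
      rw [← mul_assoc c a u, Subgroup.mem_centralizer_singleton_iff.mp hc]; group
    rw [Subgroup.mem_set_normalizer_iff]
    refine fun y => ⟨key g hC y, fun h => ?_⟩
    have h2 := key g⁻¹ ((Subgroup.centralizer ({a} : Set G)).inv_mem hC) _ h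
    rwa [show g⁻¹ * (g * y * g⁻¹) * g⁻¹⁻¹ = y by group] at h2

end Cfsg.Agent.S1499
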