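import Cfsg.Statements.S1507
import Cfsg.Agent.Lib.CharCyclicTI

set_option autoImplicit false
open Cfsg

namespace Cfsg.Agent.S1507

open Classical in
/-- Let W₁, W₂ ≤ G form a self-normalising cyclic subgroup W = W₁ ⊔ W₂ of odd order with Nat.card W₁ < Nat.card W₂, and χ an orthonormal family of irreducible characters of G up to sign, indexed by the linear characters ω of W, with χ_1 = 1, χ_ω = ω on W outside W₁ ∪ W₂, and the induction identity for (1 − φ)(1 − ψ). Let θ be a class function of G vanishing on W outside W₁ ∪ W₂, and suppose fewer than 2 · Nat.card W₁ linear characters ω of W have ⟨θ, χ ω⟩ ≠ 0. Then one of: all ⟨θ, χ ω⟩ vanish; or there are ψ₀ and a with ⟨θ, χ ω⟩ = a when ω ψ₀⁻¹ is trivial on W₂ and 0 otherwise; or there are φ₀ and a with ⟨θ, χ ω⟩ = a when ω φ₀⁻¹ is trivial on W₁ and 0 otherwise. -/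
theorem result {G : Type*} [Group G] [Fintype G] (W₁ W₂ : Subgroup G) (hW : Cfsg.IsSelfNormalizingCyclic W₁ W₂) (hodd : Odd (Nat.card ↥(W₁ ⊔ W₂))) (χ : (↥(W₁ ⊔ W₂) →* ℂˣ) → (G → ℂ)) (hχ : Cfsg.IsCyclicTIFamily W₁ W₂ χ) (hlt : Nat.card W₁ < Nat.card W₂) (θ : G → ℂ) (hθ : Cfsg.IsClassFunction G θ) (hθV : ∀ w : ↥(W₁ ⊔ W₂), (w : G) ∉ W₁ → (w : G) ∉ W₂ → θ w = 0) (hfew : Nat.card {ω : ↥(W₁ ⊔ W₂) →* ℂˣ // Cfsg.classInner θ (χ ω) ≠ 0} < 2 * Nat.card W₁) : (∀ ω, Cfsg.classInner θ (χ ω) = 0) ∨ (∃ (ψ₀ : ↥(W₁ ⊔ W₂) →* ℂˣ) (a : ℂ), ∀ ω, Cfsg.classInner θ (χ ω) = if (∀ w : ↥(W₁ ⊔ W₂), (w : G) ∈ W₂ → (ω * ψ₀⁻¹) w = 1) then a else 0) ∨ (∃ (φ₀ : ↥(W₁ ⊔ W₂) →* ℂˣ) (a : ℂ), ∀ ω, Cfsg.classInner θ (χ ω) = if (∀ w : ↥(W₁ ⊔ W₂), (w : G) ∈ W₁ → (ω * φ₀⁻¹) w = 1) then a else 0) := by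
  have hcomm := hW.2.2.2.1
  have hdisj := hW.2.2.1
  rcases CfsgLib.Char.ti_trichotomy hW hodd hχ hlt hθ hθV hfew with
    h | ⟨ψ₀, a, hψ₀, h⟩ | ⟨φ₀, a, hφ₀, h⟩
  · exact .inl h
  · refine .inr (.inl ⟨ψ₀, a, fun ω => ?_⟩)
    obtain ⟨φ, ψ, hφ, hψ, rfl⟩ := CfsgLib.Char.exists_split hdisj hcomm ω
    have key : (∀ w : ↥(W₁ ⊔ W₂), (w : G) ∈ W₂ → (φ * ψ * ψ₀⁻¹) w = 1) ↔ ψ = ψ₀ := by
      refine ⟨fun hh => CfsgLib.Char.hom_ext_parts hcomm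
        (fun w hw => by rw [hψ w hw, hψ₀ w hw]) fun w hw => ?_, fun e w hw => ?_⟩
      · have := hh w hw
        simp only [MonoidHom.mul_apply, MonoidHom.inv_apply, hφ w hw, one_mul] at this
        exact mul_inv_eq_one.mp this
      · simp [MonoidHom.mul_apply, hφ w hw, e]
    split_ifs with hc
    · exact (h φ ψ hφ hψ).1 (key.mp hc)
    · exact (h φ ψ hφ hψ).2 fun e => hc (key.mpr e)
  · refine .inr (.inr ⟨φ₀, a, fun ω => ?_⟩)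
    obtain ⟨φ, ψ, hφ, hψ, rfl⟩ := CfsgLib.Char.exists_split hdisj hcomm ω
    have key : (∀ w : ↥(W₁ ⊔ W₂), (w : G) ∈ W₁ → (φ * ψ * φ₀⁻¹) w = 1) ↔ φ = φ₀ := by
      refine ⟨fun hh => CfsgLib.Char.hom_ext_parts hcomm
        (fun w hw => ?_) fun w hw => by rw [hφ w hw, hφ₀ w hw], fun e w hw => ?_⟩
      · have := hh w hw
        simp only [MonoidHom.mul_apply, MonoidHom.inv_apply, hψ w hw, mul_one] at this
        exact mul_inv_eq_one.mp this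
      · simp [MonoidHom.mul_apply, hψ w hw, e]
    split_ifs with hc
    · exact (h φ ψ hφ hψ).1 (key.mp hc)
    · exact (h φ ψ hφ hψ).2 fun e => hc (key.mpr e)

end Cfsg.Agent.S1507
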