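import Cfsg.Statements.S1509
import Cfsg.Agent.Lib.CharBasic

set_option autoImplicit false
open Cfsg

namespace Cfsg.Agent.S1509

/-- Let α, β, γ, δ be functions on a finite group X each of which is an irreducible character or the negative of one, and u, v nonzero real numbers. Suppose ⟨α, β⟩ = ⟨γ, δ⟩ = 0, ⟨α − β, uγ − vδ⟩ = 0, α 1 = β 1 and u γ 1 = v δ 1. Then also ⟨α, γ⟩ = ⟨α, δ⟩ = ⟨β, γ⟩ = ⟨β, δ⟩ = 0. -/
theorem result {X : Type*} [Group X] [Fintype X] (α β γ δ : X → ℂ) (hα : Cfsg.IsIrrCharacter X α ∨ Cfsg.IsIrrCharacter X (-α)) (hβ : Cfsg.IsIrrCharacter X β ∨ Cfsg.IsIrrCharacter X (-β)) (hγ : Cfsg.IsIrrCharacter X γ ∨ Cfsg.IsIrrCharacter X (-γ)) (hδ : Cfsg.IsIrrCharacter X δ ∨ Cfsg.IsIrrCharacter X (-δ)) (u v : ℝ) (hu : u ≠ 0) (hv : v ≠ 0) (hab : Cfsg.classInner α β = 0) (hcd : Cfsg.classInner γ δ = 0) (hmix : Cfsg.classInner (α - β) ((u : ℂ) • γ - (v : ℂ) • δ) = 0) (h1 : α 1 = β 1) (h2 :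 (u : ℂ) * γ 1 = (v : ℂ) * δ 1) : Cfsg.classInner α γ = 0 ∧ Cfsg.classInner α δ = 0 ∧ Cfsg.classInner β γ = 0 ∧ Cfsg.classInner β δ = 0 := by
  classical
  have hd : ∀ φ : X → ℂ, Cfsg.IsIrrCharacter X φ ∨ Cfsg.IsIrrCharacter X (-φ) →
      ∃ (φ' : X → ℂ) (s : ℝ), Cfsg.IsIrrCharacter X φ' ∧ s ≠ 0 ∧ φ = (s : ℂ) • φ' ∧ φ 1 ≠ 0 := by
    intro φ h
    rcases h with h | h
    · exact ⟨φ, 1, h, one_ne_zero, by simp, CfsgLib.Char.irr_apply_one_ne_zero h⟩
    · refine ⟨-φ, -1, h, by norm_num, by simp, fun e => CfsgLib.Char.irr_apply_one_ne_zero h ?_⟩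
      simp [e]
  obtain ⟨a, sa, ha, hsa, rfl, ha1⟩ := hd α hα
  obtain ⟨b, sb, hb, hsb, rfl, hb1⟩ := hd β hβ
  obtain ⟨c, sc, hc, hsc, rfl, hc1⟩ := hd γ hγ
  obtain ⟨d, sd, hd', hsd, rfl, hd1⟩ := hd δ hδ
  have hne : ∀ x : ℝ, x ≠ 0 → (x : ℂ) ≠ 0 := fun x hx => by exact_mod_cast hx
  simp only [CfsgLib.Char.inner_sub_left, CfsgLib.Char.inner_sub_right, CfsgLib.Char.inner_smul_left,
    CfsgLib.Char.inner_smul_right, Complex.conj_ofReal, mul_eq_zero, hne _ hsa, hne _ hsb, hne _ hsc,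
    hne _ hsd, false_or] at hab hcd hmix ⊢
  have hI : ∀ φ ψ : X → ℂ, Cfsg.IsIrrCharacter X φ → Cfsg.IsIrrCharacter X ψ →
      Cfsg.classInner φ ψ = if φ = ψ then (1 : ℂ) else 0 := fun φ ψ hφ hψ => by
    split_ifs with e
    · rw [e, CfsgLib.Char.irr_inner_self hψ]
    · exact CfsgLib.Char.irr_inner_ne hφ hψ e
  rw [hI a b ha hb, ite_eq_right_iff] at hab
  rw [hI c d hc hd', ite_eq_right_iff] at hcd
  have hab' : a ≠ b := fun e => one_ne_zero (hab e)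
  have hcd' : c ≠ d := fun e => one_ne_zero (hcd e)
  simp only [hI a c ha hc, hI a d ha hd', hI b c hb hc, hI b d hb hd'] at hmix ⊢
  simp only [Pi.smul_apply, smul_eq_mul] at h1 h2 ha1 hb1 hc1 hd1
  have hu' := hne _ hu
  have hv' := hne _ hv
  by_cases hac : a = c
  · exfalso
    subst hac
    rw [if_pos rfl, if_neg hcd', if_neg hab'.symm] at hmix
    by_cases hbd : b = d
    · subst hbd
      rw [if_pos rfl] at hmix
      have hpos : ((sa : ℂ)) ^ 2 + (sb : ℂ) ^ 2 ≠ 0 := by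
        have : (0 : ℝ) < sa ^ 2 + sb ^ 2 := by positivity
        exact_mod_cast this.ne'
      apply mul_ne_zero (mul_ne_zero (mul_ne_zero hv' (hne _ hsd)) (right_ne_zero_of_mul ha1)) hpos
      linear_combination ((sb : ℂ) * a 1) * hmix - ((sa : ℂ) * sb) * h2 + ((v : ℂ) * sd * sa) * h1
    · rw [if_neg hbd] at hmix
      exact mul_ne_zero (mul_ne_zero hu' (hne _ hsc)) (hne _ hsa) (by linear_combination hmix)
  rw [if_neg hac] at hmix ⊢
  by_cases hbd : b = d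
  · exfalso
    subst hbd
    rw [if_pos rfl, if_neg hab'] at hmix
    have hbc : b ≠ c := hcd'.symm
    rw [if_neg hbc] at hmix
    exact mul_ne_zero (mul_ne_zero hv' (hne _ hsd)) (hne _ hsb) (by linear_combination hmix)
  rw [if_neg hbd] at hmix ⊢
  by_cases had : a = d
  · exfalso
    subst had
    rw [if_pos rfl] at hmix
    by_cases hbc : b = c
    · subst hbc
      rw [if_pos rfl] at hmix
      have hpos : ((sa : ℂ)) ^ 2 + (sb : ℂ) ^ 2 ≠ 0 := by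
        have : (0 : ℝ) < sa ^ 2 + sb ^ 2 := by positivity
        exact_mod_cast this.ne'
      apply mul_ne_zero (mul_ne_zero (mul_ne_zero hv' (hne _ hsd)) (right_ne_zero_of_mul ha1)) hpos
      linear_combination -((sb : ℂ) * b 1) * hmix - ((sb : ℂ) * sb) * h2 + ((v : ℂ) * sd * sa) * h1
    · rw [if_neg hbc] at hmix
      exact mul_ne_zero (mul_ne_zero hv' (hne _ hsd)) (hne _ hsa) (by linear_combination -hmix)
  rw [if_neg had] at hmix ⊢
  by_cases hbc : b = c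
  · exfalso
    rw [if_pos hbc] at hmix
    exact mul_ne_zero (mul_ne_zero hu' (hne _ hsc)) (hne _ hsb) (by linear_combination -hmix)
  rw [if_neg hbc]
  simp

end Cfsg.Agent.S1509
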