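import Cfsg.Statements.S1514
import Cfsg.Agent.Lib.CharCohUnion

set_option autoImplicit false
open Cfsg

namespace Cfsg.Agent.S1514

/-- Let S be a nonempty set of irreducible characters of the finite group L, closed under complex conjugation and containing no real-valued member, and τ a linear isometry on the integer combinations of S vanishing at 1, with values virtual characters of G vanishing at 1. Then there is a choice R making (S, τ, R) a coherence system. -/
theorem result {L : Type*} [Group L] [Fintype L] {G : Type*} [Group G] [Fintype G] (S : Set (L → ℂ)) (hS : S.Nonempty) (hirr : ∀ χ ∈ S, Cfsg.IsIrrCharacter L χ) (hconj : ∀ χ ∈ S, Cfsg.conjFun χ ∈ S ∧ Cfsg.conjFun χ ≠ χ) (τ : (L → ℂ) → (G → ℂ)) (hτ : Cfsg.IsLinearIsometryOn (Cfsg.zspanOn S {1}ᶜ) τ) (hτ1 : ∀ α ∈ Cfsg.zspanOn S {1}ᶜ, τ α 1 = 0) : ∃ R : (L → ℂ) → Finset (G → ℂ), Cfsg.IsCoherenceSystem S τ R := by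
  classical
  have hmem : ∀ χ ∈ S, χ - conjFun χ ∈ zspanOn S ({1}ᶜ : Set L) := fun χ hχ => by
    rw [CfsgLib.Char.zspanOn_eq_degZero]
    have h := CfsgLib.Char.pair_mem_degZero (S := S) hχ (hconj χ hχ).1 1 1 (by
      obtain ⟨d, -, hd⟩ := CfsgLib.Char.exists_degree_pos (hirr χ hχ)
      simp [conjFun, hd])
    rwa [one_smul, one_smul] at h
  have hdec : ∀ χ : L → ℂ, ∃ p n : G → ℂ, χ ∈ S →
      IsIrrCharacter G p ∧ IsIrrCharacter G n ∧ p ≠ n ∧ τ (χ - conjFun χ) = p - n := by
    intro χ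
    by_cases hχ : χ ∈ S
    · have h2 : classInner (τ (χ - conjFun χ)) (τ (χ - conjFun χ)) = 2 := by
        rw [hτ.2.2.1 _ (hmem χ hχ) _ (hmem χ hχ), CfsgLib.Char.inner_sub_left,
          CfsgLib.Char.inner_sub_right, CfsgLib.Char.inner_sub_right,
          CfsgLib.Char.irr_inner_self (hirr χ hχ),
          CfsgLib.Char.irr_inner_self (hirr _ (hconj χ hχ).1),
          CfsgLib.Char.irr_inner_ne (hirr χ hχ) (hirr _ (hconj χ hχ).1) (hconj χ hχ).2.symm,
          CfsgLib.Char.irr_inner_ne (hirr _ (hconj χ hχ).1) (hirr χ hχ) (hconj χ hχ).2]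
        norm_num
      obtain ⟨p, n, hp, hn, hne, h⟩ := CfsgLib.Char.genChar_norm_two
        (hτ.2.2.2 _ (hmem χ hχ)) h2 (hτ1 _ (hmem χ hχ))
      exact ⟨p, n, fun _ => ⟨hp, hn, hne, h⟩⟩
    · exact ⟨0, 0, fun h => absurd h hχ⟩
  choose p n hpn using hdec
  have hdot : ∀ {x y : G → ℂ}, IsIrrCharacter G x → IsIrrCharacter G y →
      classInner x y = ((if x = y then 1 else 0 : ℤ) : ℂ) := fun {x y} hx hy => by
    split_ifs with h
    · subst h; rw [CfsgLib.Char.irr_inner_self hx]; simp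
    · rw [CfsgLib.Char.irr_inner_ne hx hy h]; simp
  have hpne : ∀ χ ∈ S, p χ ≠ -n χ := fun χ hχ e => by
    obtain ⟨u, hu, hu1⟩ := CfsgLib.Char.exists_degree_pos (hpn χ hχ).1
    obtain ⟨w, hw, hw1⟩ := CfsgLib.Char.exists_degree_pos (hpn χ hχ).2.1
    rw [e, Pi.neg_apply, hw1] at hu1
    have : ((u + w : ℕ) : ℂ) = 0 := by push_cast; linear_combination -hu1
    have : u + w = 0 := by exact_mod_cast this
    omega
  refine ⟨fun χ => {p χ, -n χ}, hS, fun χ hχ => (hirr χ hχ).isCharacter',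
    fun χ hχ => (hconj χ hχ).1, fun χ hχ => (hconj χ hχ).2, hτ, hτ1,
    fun χ hχ φ hφ h => CfsgLib.Char.irr_inner_ne (hirr χ hχ) (hirr φ hφ) h, ?_, ?_, ?_, ?_⟩
  · intro χ hχ x hx y hy
    obtain ⟨hp, hn, hne, -⟩ := hpn χ hχ
    simp only [Finset.mem_insert, Finset.mem_singleton] at hx hy
    rcases hx with rfl | rfl <;> rcases hy with rfl | rfl
    · simp [CfsgLib.Char.irr_inner_self hp]
    · rw [CfsgLib.Char.inner_neg_right, CfsgLib.Char.irr_inner_ne hp hn hne, neg_zero,
        if_neg (hpne χ hχ)]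
    · rw [CfsgLib.Char.inner_neg_left, CfsgLib.Char.irr_inner_ne hn hp hne.symm, neg_zero,
        if_neg (hpne χ hχ).symm]
    · simp [CfsgLib.Char.inner_neg_left, CfsgLib.Char.inner_neg_right,
        CfsgLib.Char.irr_inner_self hn]
  · intro χ hχ x hx
    obtain ⟨hp, hn, -, -⟩ := hpn χ hχ
    simp only [Finset.mem_insert, Finset.mem_singleton] at hx
    rcases hx with rfl | rfl
    · exact CfsgLib.Char.isGenChar_of_isCharacter hp.isCharacter'
    · exact CfsgLib.Char.isGenChar_neg (CfsgLib.Char.isGenChar_of_isCharacter hn.isCharacter')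
  · intro χ hχ
    rw [Finset.sum_pair (hpne χ hχ), (hpn χ hχ).2.2.2, sub_eq_add_neg (p χ)]
  · intro χ hχ φ hφ h1 h2 x hx y hy
    obtain ⟨hp, hn, hne, hτχ⟩ := hpn χ hχ
    obtain ⟨hp', hn', hne', hτφ⟩ := hpn φ hφ
    have hχφ : φ ≠ χ := fun e => by
      rw [e, CfsgLib.Char.irr_inner_self (hirr χ hχ)] at h1; exact one_ne_zero h1
    have hcφ : classInner (conjFun φ) χ = 0 ∧ classInner (conjFun φ) (conjFun χ) = 0 := by
      constructor
      · refine CfsgLib.Char.irr_inner_ne (hirr _ (hconj φ hφ).1) (hirr χ hχ) fun e => ?_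
        have e' : φ = conjFun χ := by rw [← e]; funext z; simp [conjFun]
        rw [e', CfsgLib.Char.irr_inner_self (hirr _ (hconj χ hχ).1)] at h2
        exact one_ne_zero h2
      · refine CfsgLib.Char.irr_inner_ne (hirr _ (hconj φ hφ).1) (hirr _ (hconj χ hχ).1)
          fun e => hχφ ?_
        funext z
        have := congrFun e z
        simpa [conjFun] using congrArg (starRingEnd ℂ) this
    have h := hτ.2.2.1 _ (hmem φ hφ) _ (hmem χ hχ)
    rw [hτχ, hτφ, CfsgLib.Char.inner_sub_left, CfsgLib.Char.inner_sub_left,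
      CfsgLib.Char.inner_sub_right, CfsgLib.Char.inner_sub_right, CfsgLib.Char.inner_sub_right,
      CfsgLib.Char.inner_sub_right, h1, h2, hcφ.1, hcφ.2, hdot hp' hp, hdot hp' hn, hdot hn' hp,
      hdot hn' hn] at h
    have h' : ((if p φ = p χ then (1 : ℤ) else 0) - (if p φ = n χ then 1 else 0)) -
        ((if n φ = p χ then 1 else 0) - (if n φ = n χ then 1 else 0)) = 0 := by
      simp only [sub_zero] at h
      exact_mod_cast h
    have key : p φ ≠ p χ ∧ p φ ≠ n χ ∧ n φ ≠ p χ ∧ n φ ≠ n χ := by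
      by_cases a1 : p φ = p χ <;> by_cases a2 : p φ = n χ <;> by_cases a3 : n φ = p χ <;>
        by_cases a4 : n φ = n χ <;>
        first
          | exact ⟨a1, a2, a3, a4⟩
          | (exfalso; exact hne (a1.symm.trans a2))
          | (exfalso; exact hne' (a1.trans a3.symm))
          | (exfalso; exact hne' (a2.trans a4.symm))
          | (exfalso; exact hne (a3.symm.trans a4))
          | (exfalso; split_ifs at h'; omega)
    simp only [Finset.mem_insert, Finset.mem_singleton] at hx hy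
    rcases hx with rfl | rfl <;> rcases hy with rfl | rfl <;>
      (try simp only [CfsgLib.Char.inner_neg_left, CfsgLib.Char.inner_neg_right, neg_eq_zero])
    · exact CfsgLib.Char.irr_inner_ne hp' hp key.1
    · exact CfsgLib.Char.irr_inner_ne hp' hn key.2.1
    · exact CfsgLib.Char.irr_inner_ne hn' hp key.2.2.1
    · exact CfsgLib.Char.irr_inner_ne hn' hn key.2.2.2

end Cfsg.Agent.S1514
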