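import Cfsg.Statements.S1524
import Cfsg.Agent.Lib.CharFrobCoh3

set_option autoImplicit false
open Cfsg

namespace Cfsg.Agent.S1524

/-- Let G be a finite group and H ≤ L subgroups with L of odd order, H ≠ ⊥ nilpotent and normal in L with a nontrivial complement W₁ in L (H ⊓ W₁ = ⊥, H ⊔ W₁ = L) acting on H without non-identity fixed points (L is a Frobenius group with kernel H), and suppose the underlying set of H is a TI-subset of G whose normaliser is L. Let S be the set of functions on L induced from the non-principal irreducible characters of H. Then (S, L minus 1, induction to G) is coherent. -/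
theorem result {G : Type*} [Group G] [Fintype G] (H L W₁ : Subgroup G) [Fintype L] (hodd : Odd (Nat.card L)) (hHL : H ≤ L) (hW₁L : W₁ ≤ L) (hH1 : H ≠ ⊥) (hW1 : W₁ ≠ ⊥) (hnil : Group.IsNilpotent H) (hHn : ∀ x ∈ L, ∀ h ∈ H, x * h * x⁻¹ ∈ H) (hinf : H ⊓ W₁ = ⊥) (hsup : H ⊔ W₁ = L) (hfpf : ∀ w ∈ W₁, w ≠ 1 → ∀ h ∈ H, w * h = h * w → h = 1) (hTI : Cfsg.IsTISubset (H : Set G)) (hN : Subgroup.normalizer (H : Set G) = L) : Cfsg.IsCoherent (Cfsg.inducedIrrAbove (H.subgroupOf L) ⊥) {1}ᶜ (fun α : L → ℂ => Cfsg.indFun L α) := by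
  classical
  haveI hn : (H.subgroupOf L).Normal :=
    ⟨fun h hh x => Subgroup.mem_subgroupOf.mpr (hHn x x.2 h (Subgroup.mem_subgroupOf.mp hh))⟩
  have hC : ∀ k ∈ H.subgroupOf L, k ≠ 1 → Subgroup.centralizer ({k} : Set L) ≤ H.subgroupOf L := by
    refine CfsgLib.Char.frobenius_centralizer_le (H := W₁.subgroupOf L) ?_ ?_ ?_
    · refine (Subgroup.eq_bot_iff_forall _).mpr fun x hx => Subtype.ext ?_
      have : (x : G) ∈ H ⊓ W₁ := ⟨Subgroup.mem_subgroupOf.mp hx.1, Subgroup.mem_subgroupOf.mp hx.2⟩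
      rw [hinf] at this
      exact Subgroup.mem_bot.mp this
    · rw [← Subgroup.subgroupOf_sup hHL hW₁L, hsup, Subgroup.subgroupOf_self]
    · intro w hw hw1 k hk hc
      exact Subtype.ext (hfpf w (Subgroup.mem_subgroupOf.mp hw) (fun e => hw1 (Subtype.ext e)) k
        (Subgroup.mem_subgroupOf.mp hk) (congrArg Subtype.val hc))
  have hH' : H.subgroupOf L ≠ ⊥ := fun e => hH1 (by
    have := congrArg (Subgroup.map L.subtype) e
    rwa [Subgroup.subgroupOf_map_subtype, inf_eq_left.mpr hHL, Subgroup.map_bot] at this)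
  have hTI' : ∀ g : G, g ∉ L → ∀ h ∈ H, g * h * g⁻¹ ∈ H → h = 1 := fun g hg => hTI g (by rw [hN]; exact hg)
  haveI := hnil
  have hnil' : Group.IsNilpotent (H.subgroupOf L) :=
    Group.nilpotent_of_mulEquiv (Subgroup.subgroupOfEquivOfLe hHL).symm
  obtain ⟨f, hf⟩ := CfsgLib.Char.frobenius_coherent H L hHL hTI' hN hC hnil' hodd hH'
  obtain ⟨a, ha⟩ := CfsgLib.Char.relChars_nonempty hC hH'
  obtain ⟨hb, hne⟩ := CfsgLib.Char.two_le_card_relChars hodd ha
  rw [← CfsgLib.Char.relChars_eq_inducedIrrAbove hC]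
  exact CfsgLib.Char.isCoherent_relChars (Finset.Subset.refl _)
    (CfsgLib.Char.isoZero_relChars H L hTI' hC) hf (Finset.one_lt_card.mpr ⟨_, hb, a, ha, hne⟩)

end Cfsg.Agent.S1524
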