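import Cfsg.Statements.S1526
import Cfsg.Agent.Lib.CharCN2
import Cfsg.Agent.Lib.CoreThompsonFpf

set_option autoImplicit false
open Cfsg

namespace Cfsg.Agent.S1526

/-- Let G be a finite group of odd order and (L i, H i), i in a finite index type with at least two elements, pairs of subgroups with H i a nontrivial proper normal subgroup of L i such that every non-identity element of H i has its centraliser within L i contained in H i (L i is a Frobenius group with kernel H i), the orders of the H i pairwise coprime, and the underlying set of each H i a TI-subset of G with normaliser L i. If every non-identity element of G is conjugate to an element of some H i, we reach a contradiction. -/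
theorem result {G : Type*} [Group G] [Finite G] (hodd : Odd (Nat.card G)) {ι : Type*} [Fintype ι] (hι : 2 ≤ Fintype.card ι) (L H : ι → Subgroup G) (hHL : ∀ i, H i < L i) (hH1 : ∀ i, H i ≠ ⊥) (hHn : ∀ i, ∀ x ∈ L i, ∀ h ∈ H i, x * h * x⁻¹ ∈ H i) (hfrob : ∀ i, ∀ h ∈ H i, h ≠ 1 → L i ⊓ Subgroup.centralizer ({h} : Set G) ≤ H i) (hcop : ∀ i j, i ≠ j → Nat.Coprime (Nat.card (H i)) (Nat.card (H j))) (hTI : ∀ i, Cfsg.IsTISubset (H i : Set G) ∧ Subgroup.normalizer (H i : Set G) = L i) (hcover : ∀ g : G, g ≠ 1 → ∃ i, ∃ x : G, x * g * x⁻¹ ∈ H i) : False := by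
  classical
  haveI : Fintype G := Fintype.ofFinite G
  have hle : ∀ i, H i ≤ L i := fun i => (hHL i).le
  have hnil : ∀ i, Group.IsNilpotent (H i) := by
    intro i
    haveI hn : ((H i).subgroupOf (L i)).Normal :=
      ⟨fun h hh x => Subgroup.mem_subgroupOf.mpr (hHn i x x.2 h (Subgroup.mem_subgroupOf.mp hh))⟩
    haveI : Fintype (L i) := Fintype.ofFinite _
    set K := (H i).subgroupOf (L i) with hK
    have hC : ∀ k ∈ K, k ≠ 1 → Subgroup.centralizer ({k} : Set (L i)) ≤ K := by
      intro k hk hk1 x hx
      refine Subgroup.mem_subgroupOf.mpr (hfrob i k (Subgroup.mem_subgroupOf.mp hk)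
        (fun e => hk1 (Subtype.ext e)) ⟨x.2, ?_⟩)
      rw [Subgroup.mem_centralizer_singleton_iff] at hx
      exact Subgroup.mem_centralizer_singleton_iff.mpr (congrArg Subtype.val hx)
    have hidx : K.index ≠ 1 := by
      intro e
      refine (hHL i).ne (le_antisymm (hle i) fun x hx => ?_)
      have h2 : K = ⊤ := Subgroup.index_eq_one.mp e
      exact Subgroup.mem_subgroupOf.mp (h2 ▸ Subgroup.mem_top (⟨x, hx⟩ : L i))
    obtain ⟨r, hr, hrd⟩ := Nat.exists_prime_and_dvd hidx
    haveI := Fact.mk hr
    obtain ⟨h, hh⟩ := exists_prime_orderOf_dvd_card' (G := L i) r (dvd_trans hrd K.index_dvd_card)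
    obtain ⟨s, hs⟩ := CfsgLib.Char.relChars_index hC (A := ⊥) bot_le
    rw [Subgroup.relIndex_bot_left] at hs
    have hhK : h ∉ K := fun hm => by
      have h1 := K.orderOf_dvd_natCard hm
      rw [hh, hs] at h1
      exact hr.one_lt.ne' (Nat.dvd_one.mp
        ((Nat.dvd_add_right (dvd_mul_of_dvd_left hrd s)).mp h1))
    let φ : MulAut K := MulAut.conjNormal h
    haveI : Group.IsNilpotent K := by
      refine CfsgLib.Core.isNilpotent_of_fpf_prime hr _ K le_rfl φ ?_ fun x hx => ?_
      · show (MulAut.conjNormal h : MulAut K) ^ r = 1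
        rw [← map_pow, ← hh, pow_orderOf_eq_one, map_one]
      · by_contra hx1
        refine hhK (hC x x.2 (fun e => hx1 (Subtype.ext e)) ?_)
        have hx' : h * (x : L i) * h⁻¹ = x := by
          rw [← MulAut.conjNormal_apply]
          exact congrArg Subtype.val hx
        exact Subgroup.mem_centralizer_singleton_iff.mpr (mul_inv_eq_iff_eq_mul.mp hx')
    exact Group.nilpotent_of_mulEquiv (Subgroup.subgroupOfEquivOfLe (hle i))
  refine CfsgLib.Char.cn_partition hι hodd L H hle (fun i => (hHL i).ne) hH1 hnil hHn hfrob hcop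
    (fun i g hg => (hTI i).1 g (by rw [(hTI i).2]; exact hg)) (fun i => (hTI i).2) hcover

end Cfsg.Agent.S1526
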