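import Cfsg.Statements.S1527
import Cfsg.Agent.Lib.CharCN

set_option autoImplicit false
open Cfsg

namespace Cfsg.Agent.S1527

/-- Let G be a finite group and H i (i in a finite index type) subgroups of pairwise coprime orders, each of whose underlying sets is a TI-subset of G, such that every non-identity element of G is conjugate to an element of some H i. Then Nat.card G − 1 = Σ_i [G : N_G(H i)] · (Nat.card (H i) − 1). -/
theorem result {G : Type*} [Group G] [Finite G] {ι : Type*} [Fintype ι] (H : ι → Subgroup G) (hcop : ∀ i j, i ≠ j → Nat.Coprime (Nat.card (H i)) (Nat.card (H j))) (hTI : ∀ i, Cfsg.IsTISubset (H i : Set G)) (hcover : ∀ g : G, g ≠ 1 → ∃ i, ∃ x : G, x * g * x⁻¹ ∈ H i) : Nat.card G - 1 = ∑ i, (Subgroup.normalizer (H i : Set G)).index * (Nat.card (H i) - 1) := by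
  classical
  haveI : Fintype G := Fintype.ofFinite G
  haveI : ∀ i, Fintype (Subgroup.normalizer (H i : Set G)) := fun i => Fintype.ofFinite _
  have hn : ∀ i, ∀ x ∈ Subgroup.normalizer (H i : Set G), ∀ h ∈ H i, x * h * x⁻¹ ∈ H i :=
    fun i x hx h hh => (Subgroup.mem_normalizer_iff.mp hx h).mp hh
  have h1 := CfsgLib.Char.sum_cover (fun i => Subgroup.normalizer (H i : Set G)) H
    (fun i => Subgroup.le_normalizer) (fun i g hg => hTI i g hg) hn hcop hcover (fun _ => (1 : ℕ))
    (fun _ _ => rfl)
  rw [Nat.card_eq_fintype_card]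
  simp only [Finset.sum_const, Finset.card_univ, smul_eq_mul, mul_one] at h1
  rw [h1, Nat.add_sub_cancel_left]
  refine Finset.sum_congr rfl fun i _ => ?_
  have h2 := CfsgLib.Char.card_kSet (K := (H i).subgroupOf (Subgroup.normalizer (H i : Set G)))
  rw [Nat.card_congr (Subgroup.subgroupOfEquivOfLe (Subgroup.le_normalizer (H := H i))).toEquiv] at h2
  rw [← h2, Nat.add_sub_cancel]

end Cfsg.Agent.S1527
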