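import Cfsg.Statements.S1529
import Cfsg.Agent.Lib.CharCohUnion

set_option autoImplicit false
open Cfsg

namespace Cfsg.Agent.S1529

/-- Let N be a subgroup of the finite group G, S a set of irreducible characters of N with at least two members, and τ₁ a linear isometry on the integer combinations of S with virtual-character values such that τ₁ α vanishes at 1 whenever α ∈ ℤ[S] does. Then there is ε ∈ {1, −1} such that ε • τ₁ χ is an irreducible character of G for every χ ∈ S, and distinct members of S give distinct characters. -/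
theorem result {G : Type*} [Group G] [Fintype G] (N : Subgroup G) [Fintype N] (S : Set (N → ℂ)) (hirr : ∀ χ ∈ S, Cfsg.IsIrrCharacter N χ) (htwo : ∃ χ ∈ S, ∃ ψ ∈ S, χ ≠ ψ) (τ₁ : (N → ℂ) → (G → ℂ)) (hτ₁ : Cfsg.IsLinearIsometryOn (Cfsg.zspan S) τ₁) (h0 : ∀ α ∈ Cfsg.zspan S, α 1 = 0 → τ₁ α 1 = 0) : ∃ ε : ℂ, (ε = 1 ∨ ε = -1) ∧ (∀ χ ∈ S, Cfsg.IsIrrCharacter G (ε • τ₁ χ)) ∧ (∀ χ ∈ S, ∀ ψ ∈ S, τ₁ χ = τ₁ ψ → χ = ψ) := by
  classical
  obtain ⟨a, ha, b, hb, hab⟩ := htwo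
  have hmem : ∀ χ ∈ S, χ ∈ zspan S := fun χ hχ => Submodule.subset_span hχ
  have hiso : IsLinearIsometryOn ((Submodule.span ℤ S) : Set (N → ℂ)) τ₁ := hτ₁
  have hirr' : ∀ χ ∈ S, IsIrrCharacter G (τ₁ χ) ∨ IsIrrCharacter G (-τ₁ χ) := fun χ hχ =>
    CfsgLib.Char.genChar_norm_one (hτ₁.2.2.2 χ (hmem χ hχ))
      (by rw [hτ₁.2.2.1 χ (hmem χ hχ) χ (hmem χ hχ), CfsgLib.Char.irr_inner_self (hirr χ hχ)])
  have hsign : ∀ χ ∈ S, ∀ φ ∈ S, IsIrrCharacter G (τ₁ χ) → IsIrrCharacter G (τ₁ φ) := by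
    intro χ hχ φ hφ h
    rcases hirr' φ hφ with h' | h'
    · exact h'
    exfalso
    obtain ⟨dχ, hdχ, hχ1⟩ := CfsgLib.Char.exists_degree_pos (hirr χ hχ)
    obtain ⟨dφ, hdφ, hφ1⟩ := CfsgLib.Char.exists_degree_pos (hirr φ hφ)
    obtain ⟨u, hu, hu1⟩ := CfsgLib.Char.exists_degree_pos h
    obtain ⟨w, hw, hw1⟩ := CfsgLib.Char.exists_degree_pos h'
    have hm : (dφ : ℤ) • χ - (dχ : ℤ) • φ ∈ Submodule.span ℤ S :=
      sub_mem (Submodule.smul_mem _ _ (hmem χ hχ)) (Submodule.smul_mem _ _ (hmem φ hφ))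
    have h1 := h0 _ hm (by simp [zsmul_eq_mul, hχ1, hφ1]; ring)
    rw [CfsgLib.Char.iso_map_sub hiso (Submodule.smul_mem _ _ (hmem χ hχ))
      (Submodule.smul_mem _ _ (hmem φ hφ)), hτ₁.2.1 χ (hmem χ hχ), hτ₁.2.1 φ (hmem φ hφ)] at h1
    have hw' : τ₁ φ 1 = -(w : ℂ) := by rw [← hw1]; simp
    simp [zsmul_eq_mul, hu1, hw'] at h1
    have h2 : ((dφ * u + dχ * w : ℕ) : ℂ) = 0 := by push_cast; linear_combination h1
    have h3 : dφ * u + dχ * w = 0 := by exact_mod_cast h2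
    have h4 : 0 < dφ * u := Nat.mul_pos hdφ hu
    omega
  have hinj : ∀ χ ∈ S, ∀ ψ ∈ S, τ₁ χ = τ₁ ψ → χ = ψ := by
    intro χ hχ ψ hψ e
    by_contra hne
    have h := hτ₁.2.2.1 χ (hmem χ hχ) ψ (hmem ψ hψ)
    rw [CfsgLib.Char.irr_inner_ne (hirr χ hχ) (hirr ψ hψ) hne, e,
      hτ₁.2.2.1 ψ (hmem ψ hψ) ψ (hmem ψ hψ), CfsgLib.Char.irr_inner_self (hirr ψ hψ)] at h
    exact one_ne_zero h
  rcases hirr' a ha with h | h
  · exact ⟨1, .inl rfl, fun χ hχ => by rw [one_smul]; exact hsign a ha χ hχ h, hinj⟩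
  · refine ⟨-1, .inr rfl, fun χ hχ => ?_, hinj⟩
    rw [neg_one_smul]
    rcases hirr' χ hχ with h' | h'
    · have h'' := hsign χ hχ a ha h'
      obtain ⟨u, hu, hu1⟩ := CfsgLib.Char.exists_degree_pos h''
      obtain ⟨w, hw, hw1⟩ := CfsgLib.Char.exists_degree_pos h
      exfalso
      rw [Pi.neg_apply, hu1] at hw1
      have : ((u + w : ℕ) : ℂ) = 0 := by push_cast; linear_combination -hw1
      have : u + w = 0 := by exact_mod_cast this
      omega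
    · exact h'

end Cfsg.Agent.S1529
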