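import Cfsg.Statements.S1530
import Cfsg.Agent.Lib.CharCohUnion

set_option autoImplicit false
open Cfsg

namespace Cfsg.Agent.S1530

/-- Let N be a subgroup of the finite group G and S₀ a finite set of irreducible characters of N, χ an irreducible character of N not in S₀, with degrees ξ 1 = d ξ. Let τ be a linear isometry on the integer combinations of S₀ ∪ {χ} vanishing at 1, with values virtual characters of G vanishing at 1, such that (S₀, N minus 1, τ) is coherent. If some ψ ∈ S₀ has d ψ dividing d χ and 2 · d ψ · d χ < Σ_{ξ ∈ S₀} (d ξ)², then (S₀ ∪ {χ}, N minus 1, τ) is coherent. -/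
theorem result {G : Type*} [Group G] [Fintype G] (N : Subgroup G) [Fintype N] (S₀ : Finset (N → ℂ)) (χ : N → ℂ) (hirr : ∀ ξ ∈ S₀, Cfsg.IsIrrCharacter N ξ) (hχ : Cfsg.IsIrrCharacter N χ) (hχS : χ ∉ S₀) (d : (N → ℂ) → ℕ) (hd : ∀ ξ ∈ insert χ S₀, ξ 1 = (d ξ : ℂ)) (τ : (N → ℂ) → (G → ℂ)) (hτ : Cfsg.IsLinearIsometryOn (Cfsg.zspanOn (↑(insert χ S₀) : Set (N → ℂ)) {1}ᶜ) τ) (hτ1 : ∀ α ∈ Cfsg.zspanOn (↑(insert χ S₀) : Set (N → ℂ)) {1}ᶜ, τ α 1 = 0) (hcoh : Cfsg.IsCoherent (↑S₀ : Set (N → ℂ)) {1}ᶜ τ) (ψ : N → ℂ) (hψ : ψ ∈ S₀) (hdvd : d ψ ∣ d χ) (hlt : 2 * d ψ * d χ < ∑ ξ ∈ S₀, d ξ ^ 2) : Cfsg.IsCoherent (↑(insert χ S₀) : Set (N → ℂ)) {1}ᶜ τ := by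
  classical
  obtain ⟨f, hf⟩ := CfsgLib.Char.cohMap_of_isCoherent hcoh
  obtain ⟨k, hk⟩ := hdvd
  have hd0 : ∀ ξ ∈ S₀, 0 < d ξ := fun ξ hξ => by
    obtain ⟨e, he, he1⟩ := CfsgLib.Char.exists_degree_pos (hirr ξ hξ)
    have : d ξ = e := by exact_mod_cast (hd ξ (Finset.mem_insert_of_mem hξ)).symm.trans he1
    omega
  have hlt' : 2 * k * d ψ ^ 2 < ∑ ξ ∈ S₀, d ξ ^ 2 := by
    rw [hk] at hlt; calc 2 * k * d ψ ^ 2 = 2 * d ψ * (d ψ * k) := by ring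
      _ < _ := hlt
  obtain ⟨g, hg⟩ := hf.adjoin hirr hχ hχS ⟨hτ, hτ1⟩ hψ d hd k (by rw [hk, mul_comm]) hlt'
  refine CfsgLib.Char.isCoherent_of_cohMap ⟨hτ, hτ1⟩ hg (fun a ha b hb hab => ?_)
    (fun a ha => ?_) ⟨χ, Finset.mem_insert_self _ _, ψ, Finset.mem_insert_of_mem hψ,
      fun e => hχS (e ▸ hψ)⟩
  · have hi : ∀ z ∈ insert χ S₀, IsIrrCharacter N z := fun z hz => by
      rcases Finset.mem_insert.mp hz with e | e
      · rw [e]; exact hχ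
      · exact hirr z e
    exact CfsgLib.Char.irr_inner_ne (hi a ha) (hi b hb) hab
  · have hi : IsIrrCharacter N a := by
      rcases Finset.mem_insert.mp ha with e | e
      · rw [e]; exact hχ
      · exact hirr a e
    exact CfsgLib.Char.exists_degree_pos hi

end Cfsg.Agent.S1530
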