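import Cfsg.Statements.S1531
import Cfsg.Agent.Lib.CharCohUnion

set_option autoImplicit false
open Cfsg

namespace Cfsg.Agent.S1531

/-- Let N be a subgroup of the finite group G, S a set of irreducible characters of N, and α a linear isometry on the integer combinations of S vanishing at 1 with values virtual characters of G vanishing at 1. Let X, Y ⊆ S be disjoint, each with at least two members, and σ, τ linear isometries on ℤ[X], ℤ[Y] into virtual characters agreeing with α on the members vanishing at 1. Then ⟨σ χ, τ η⟩ = 0 for χ ∈ X, η ∈ Y; and if for some χ₀ ∈ X, η₀ ∈ Y with degrees c = χ₀ 1, e = η₀ 1 one has α (c • η₀ − e • χ₀) = c • τ η₀ − e • σ χ₀, then (X ∪ Y, N minus 1, α) is coherent. -/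
theorem result {G : Type*} [Group G] [Fintype G] (N : Subgroup G) [Fintype N] (S X Y : Set (N → ℂ)) (hirr : ∀ ξ ∈ S, Cfsg.IsIrrCharacter N ξ) (hXS : X ⊆ S) (hYS : Y ⊆ S) (hXY : Disjoint X Y) (hX2 : ∃ a ∈ X, ∃ b ∈ X, a ≠ b) (hY2 : ∃ a ∈ Y, ∃ b ∈ Y, a ≠ b) (α : (N → ℂ) → (G → ℂ)) (hα : Cfsg.IsLinearIsometryOn (Cfsg.zspanOn S {1}ᶜ) α) (hα1 : ∀ θ ∈ Cfsg.zspanOn S {1}ᶜ, α θ 1 = 0) (σ τ : (N → ℂ) → (G → ℂ)) (hσ : Cfsg.IsLinearIsometryOn (Cfsg.zspan X) σ) (hσα : ∀ θ ∈ Cfsg.zspanOn X {1}ᶜ, σ θ = α θ) (hτ : Cfsg.IsLinearIsometryOn (Cfsg.zspan Y) τ) (hτα : ∀ θ ∈ Cfsg.zspanOn Y {1}ᶜ, τ θ = α θ) : (∀ χ ∈ X, ∀ η ∈ Y, Cfsg.classInner (σ χ) (τ η) = 0) ∧ ((∃ χ₀ ∈ X, ∃ η₀ ∈ Y, α (χ₀ 1 • η₀ - η₀ 1 • χ₀) = χ₀ 1 • τ η₀ - η₀ 1 • σ χ₀) → Cfsg.IsCoherent (X ∪ Y) {1}ᶜ α) := by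
  classical
  have hfin : ∀ Z : Set (N → ℂ), Z ⊆ S → Z.Finite := fun Z hZ =>
    (Set.finite_range fun ξ : IrrCharacter N => (ξ : N → ℂ)).subset fun z hz =>
      ⟨⟨z, hirr z (hZ hz)⟩, rfl⟩
  obtain ⟨A, rfl⟩ := (hfin X hXS).exists_finset_coe
  obtain ⟨B, rfl⟩ := (hfin Y hYS).exists_finset_coe
  have mk : ∀ (Z : Finset (N → ℂ)) (s : (N → ℂ) → (G → ℂ)), (↑Z : Set (N → ℂ)) ⊆ S →
      IsLinearIsometryOn (zspan (↑Z : Set (N → ℂ))) s →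
      (∀ θ ∈ zspanOn (↑Z : Set (N → ℂ)) {1}ᶜ, s θ = α θ) → CfsgLib.Char.CohMap Z α s := by
    intro Z s _ hs hag
    have hm : ∀ χ ∈ Z, χ ∈ zspan (↑Z : Set (N → ℂ)) := fun χ hχ => Submodule.subset_span hχ
    have hiso : IsLinearIsometryOn
        ((Submodule.span ℤ (↑Z : Set (N → ℂ))) : Set (N → ℂ)) s := hs
    refine ⟨fun χ hχ => hs.2.2.2 χ (hm χ hχ),
      fun χ hχ φ hφ => hs.2.2.1 χ (hm χ hχ) φ (hm φ hφ), fun χ hχ φ hφ m n hmn => ?_⟩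
    rw [← hag _ (by rw [CfsgLib.Char.zspanOn_eq_degZero]
                    exact CfsgLib.Char.pair_mem_degZero hχ hφ m n hmn),
      CfsgLib.Char.iso_map_sub hiso (Submodule.smul_mem _ m (hm χ hχ))
        (Submodule.smul_mem _ n (hm φ hφ)), hs.2.1 χ (hm χ hχ) m, hs.2.1 φ (hm φ hφ) n]
  have hf := mk A σ hXS hσ hσα
  have hg := mk B τ hYS hτ hτα
  have hiso : CfsgLib.Char.IsoZero S α := ⟨hα, hα1⟩
  have hA : ∀ ξ ∈ A, IsIrrCharacter N ξ := fun ξ h => hirr ξ (hXS h)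
  have hB : ∀ ξ ∈ B, IsIrrCharacter N ξ := fun ξ h => hirr ξ (hYS h)
  have hdisj : Disjoint A B := Finset.disjoint_coe.mp hXY
  have h2A : 2 ≤ A.card := by
    obtain ⟨a, ha, b, hb, hab⟩ := hX2
    exact Finset.one_lt_card.mpr ⟨a, ha, b, hb, hab⟩
  have h2B : 2 ≤ B.card := by
    obtain ⟨a, ha, b, hb, hab⟩ := hY2
    exact Finset.one_lt_card.mpr ⟨a, ha, b, hb, hab⟩
  have horth := hf.orth hg hiso hXS hYS hA hB hdisj h2A h2B
  refine ⟨horth, ?_⟩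
  rintro ⟨χ₀, hχ₀, η₀, hη₀, hbase⟩
  obtain ⟨c, hc0, hc⟩ := CfsgLib.Char.exists_degree_pos (hA χ₀ hχ₀)
  obtain ⟨e, he0, he⟩ := CfsgLib.Char.exists_degree_pos (hB η₀ hη₀)
  rw [hc, he] at hbase
  have hu : CfsgLib.Char.IsoZero (↑(A ∪ B) : Set (N → ℂ)) α := hiso.mono (by
    rw [Finset.coe_union]; exact Set.union_subset hXS hYS)
  have hmap := hf.union hg hu hA hB hdisj horth hχ₀ hη₀ (e : ℤ) (c : ℤ)
    (by exact_mod_cast hc0.ne') (by rw [hc, he]; push_cast; ring)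
    (by simp only [← Int.cast_smul_eq_zsmul ℂ, Int.cast_natCast]; exact hbase)
  have hAB : ∀ ξ ∈ A ∪ B, IsIrrCharacter N ξ := fun ξ h => by
    rcases Finset.mem_union.mp h with h | h
    · exact hA ξ h
    · exact hB ξ h
  rw [← Finset.coe_union]
  exact CfsgLib.Char.isCoherent_of_cohMap hu hmap
    (fun a ha b hb hab => CfsgLib.Char.irr_inner_ne (hAB a ha) (hAB b hb) hab)
    (fun a ha => CfsgLib.Char.exists_degree_pos (hAB a ha))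
    ⟨χ₀, Finset.mem_union_left _ hχ₀, η₀, Finset.mem_union_right _ hη₀,
      fun h => Finset.disjoint_left.mp hdisj hχ₀ (h ▸ hη₀)⟩

end Cfsg.Agent.S1531
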