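import Cfsg.Statements.S1532
import Cfsg.Agent.Lib.CharFrobCoh3

set_option autoImplicit false
open Cfsg

namespace Cfsg.Agent.S1532

/-- Let G be a finite group, p an odd prime and P a Sylow p-subgroup that is non-abelian, whose underlying set is a TI-subset of G, with P properly contained in its set normaliser N and C_G(x) ≤ P for every non-identity x ∈ P. Let Z be a nontrivial subgroup of the centre of P normalised by N. Then the set of irreducible characters χ of N with χ z ≠ χ 1 for some z ∈ Z is coherent for the map induced by induction from N to G. -/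
theorem result {G : Type*} [Group G] [Fintype G] (p : ℕ) [Fact p.Prime] (hp : p ≠ 2) (P : Sylow p G) (hna : ¬ IsMulCommutative (P : Subgroup G)) (hTI : Cfsg.IsTISubset ((P : Subgroup G) : Set G)) (hlt : (P : Subgroup G) < Subgroup.normalizer ((P : Subgroup G) : Set G)) (hC : ∀ k ∈ (P : Subgroup G), k ≠ 1 → Subgroup.centralizer ({k} : Set G) ≤ (P : Subgroup G)) [Fintype ↥(Subgroup.normalizer ((P : Subgroup G) : Set G))] (Z : Subgroup G) (hZ1 : Z ≠ ⊥) (hZP : ∀ z ∈ Z, z ∈ (P : Subgroup G) ∧ ∀ y ∈ (P : Subgroup G), z * y = y * z) (hZn : ∀ x ∈ Subgroup.normalizer ((P : Subgroup G) : Set G), ∀ z ∈ Z, x * z * x⁻¹ ∈ Z) : Cfsg.IsCoherent {χ : ↥(Subgroup.normalizer ((P : Subgroup G) : Set G)) → ℂ | Cfsg.IsIrrCharacter ↥(Subgroup.normalizer ((P : Subgroup G) : Set G)) χ ∧ ∃ z : ↥(Subgroup.normalizer ((P : Subgroup G) : Set G)), (z : G) ∈ Z ∧ χ z ≠ χ 1} {1}ᶜ (fun α => Cfsg.indFun (Subgroup.normalizer ((P : Subgroup G) : Set G)) α) := by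
  classical
  set K := (P : Subgroup G).subgroupOf (Subgroup.normalizer ((P : Subgroup G) : Set G)) with hK
  have hPN : (P : Subgroup G) ≤ (Subgroup.normalizer ((P : Subgroup G) : Set G)) := Subgroup.le_normalizer
  haveI hn : K.Normal := Subgroup.normal_in_normalizer
  have hC' : ∀ k ∈ K, k ≠ 1 → Subgroup.centralizer ({k} : Set (Subgroup.normalizer ((P : Subgroup G) : Set G))) ≤ K :=
    CfsgLib.Char.centralizer_le_subgroupOf hC
  have hKp : IsPGroup p K := P.isPGroup'.of_equiv (Subgroup.subgroupOfEquivOfLe hPN).symm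
  obtain ⟨n, hn'⟩ := hKp.exists_card_eq
  have hKodd : Odd (Nat.card K) := by
    rw [hn']; exact ((Fact.out : p.Prime).odd_of_ne_two hp).pow
  have hodd : Odd (Nat.card (Subgroup.normalizer ((P : Subgroup G) : Set G))) := by
    rw [← Nat.not_even_iff_odd]
    intro hev
    refine hna ⟨⟨fun a b => ?_⟩⟩
    rw [← K.card_mul_index, Nat.even_mul] at hev
    exact Subtype.ext (congrArg Subtype.val (CfsgLib.Char.commute_of_even_index hC' hKodd
      (hev.resolve_left (Nat.not_even_iff_odd.mpr hKodd)) ⟨a, hPN a.2⟩ a.2 ⟨b, hPN b.2⟩ b.2) :)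
  set Z' := Z.subgroupOf (Subgroup.normalizer ((P : Subgroup G) : Set G)) with hZ'
  have hH' : K ≠ ⊥ := fun e => hna ⟨⟨fun a b => by
    have h : ∀ c : (P : Subgroup G), c = 1 := fun c => by
      have hc : (⟨c, hPN c.2⟩ : (Subgroup.normalizer ((P : Subgroup G) : Set G))) ∈ K := c.2
      rw [e, Subgroup.mem_bot] at hc
      exact Subtype.ext (congrArg Subtype.val hc :)
    rw [h a, h b]⟩⟩
  haveI : Group.IsNilpotent K := hKp.isNilpotent
  obtain ⟨f, hf⟩ := CfsgLib.Char.frobenius_coherent (P : Subgroup G) (Subgroup.normalizer ((P : Subgroup G) : Set G)) hPN (fun g hg => hTI g hg) rfl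
    hC' inferInstance hodd hH'
  set X := CfsgLib.Char.relChars K ⊥ \ CfsgLib.Char.relChars K Z' with hX
  have hset : {χ : (Subgroup.normalizer ((P : Subgroup G) : Set G)) → ℂ | IsIrrCharacter (Subgroup.normalizer ((P : Subgroup G) : Set G)) χ ∧ ∃ z : (Subgroup.normalizer ((P : Subgroup G) : Set G)), (z : G) ∈ Z ∧ χ z ≠ χ 1}
      = (↑X : Set ((Subgroup.normalizer ((P : Subgroup G) : Set G)) → ℂ)) := by
    ext χ
    rw [Finset.mem_coe, hX, Finset.mem_sdiff, CfsgLib.Char.mem_relChars, CfsgLib.Char.mem_relChars]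
    constructor
    · rintro ⟨h1, z, hz, h2⟩
      exact ⟨⟨h1, ⟨z, (hZP _ hz).1, h2⟩, fun a ha => by rw [Subgroup.mem_bot.mp ha]⟩,
        fun ⟨_, _, h3⟩ => h2 (h3 z hz)⟩
    · rintro ⟨⟨h1, ⟨x, hx, h2⟩, -⟩, h3⟩
      refine ⟨h1, ?_⟩
      by_contra hcon
      push Not at hcon
      exact h3 ⟨h1, ⟨x, hx, h2⟩, fun a ha => hcon a ha⟩
  rw [hset]
  refine CfsgLib.Char.isCoherent_relChars (K := K) (A := X) Finset.sdiff_subset
    ((CfsgLib.Char.isoZero_relChars (P : Subgroup G) (Subgroup.normalizer ((P : Subgroup G) : Set G)) (fun g hg => hTI g hg) hC').mono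
      (Finset.coe_subset.mpr Finset.sdiff_subset)) (hf.subset Finset.sdiff_subset) ?_
  obtain ⟨z, hz, hz1⟩ : ∃ z ∈ Z, z ≠ 1 := by
    by_contra h
    push Not at h
    exact hZ1 ((Subgroup.eq_bot_iff_forall Z).mpr h)
  obtain ⟨χ, hχ⟩ : ∃ χ : IrrCharacter (Subgroup.normalizer ((P : Subgroup G) : Set G)),
      (χ : (Subgroup.normalizer ((P : Subgroup G) : Set G)) → ℂ) ⟨z, hPN (hZP z hz).1⟩ ≠ (χ : (Subgroup.normalizer ((P : Subgroup G) : Set G)) → ℂ) 1 := by
    by_contra h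
    push Not at h
    have h0 := CfsgLib.Char.sum_degree_mul (⟨z, hPN (hZP z hz).1⟩ : (Subgroup.normalizer ((P : Subgroup G) : Set G)))
    rw [if_neg (show (⟨z, hPN (hZP z hz).1⟩ : (Subgroup.normalizer ((P : Subgroup G) : Set G))) ≠ 1 from fun e => hz1 (congrArg Subtype.val e))] at h0
    have h1 := CfsgLib.Char.sum_degree_sq (G := (Subgroup.normalizer ((P : Subgroup G) : Set G)))
    simp only [h, ← sq] at h0
    rw [h1] at h0
    exact Nat.cast_ne_zero.mpr Nat.card_pos.ne' h0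
  have hmem : (χ : (Subgroup.normalizer ((P : Subgroup G) : Set G)) → ℂ) ∈ X := by
    rw [← Finset.mem_coe, ← hset]
    exact ⟨χ.2, ⟨z, hPN (hZP z hz).1⟩, hz, hχ⟩
  obtain ⟨hb, hne⟩ := CfsgLib.Char.two_le_card_relChars hodd (Finset.mem_sdiff.mp hmem).1
  refine Finset.one_lt_card.mpr ⟨_, Finset.mem_sdiff.mpr ⟨hb, fun h => ?_⟩, _, hmem, hne⟩
  obtain ⟨h3, -⟩ := CfsgLib.Char.two_le_card_relChars hodd h
  exact (Finset.mem_sdiff.mp hmem).2 (by simpa using h3)

end Cfsg.Agent.S1532
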