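import Cfsg.Statements.S1533
import Cfsg.Agent.Lib.CharFrobCoh3

set_option autoImplicit false
open Cfsg

namespace Cfsg.Agent.S1533

/-- Let G be a finite group, p an odd prime, and P a nontrivial Sylow p-subgroup whose underlying set is a TI-subset of G, with P properly contained in its set normaliser N and C_G(x) ≤ P for every non-identity x ∈ P. Let S be the set of irreducible characters χ of N with χ x ≠ χ 1 for some x ∈ P. Then either S has exactly one member, P is elementary abelian and Nat.card P = [N:P] + 1; or (S, N minus 1, induction to G) is coherent. -/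
theorem result {G : Type*} [Group G] [Fintype G] (p : ℕ) [Fact p.Prime] (hp : p ≠ 2) (P : Sylow p G) (hP1 : (P : Subgroup G) ≠ ⊥) (hTI : Cfsg.IsTISubset ((P : Subgroup G) : Set G)) (hlt : (P : Subgroup G) < Subgroup.normalizer ((P : Subgroup G) : Set G)) (hC : ∀ k ∈ (P : Subgroup G), k ≠ 1 → Subgroup.centralizer ({k} : Set G) ≤ (P : Subgroup G)) [Fintype ↥(Subgroup.normalizer ((P : Subgroup G) : Set G))] : (Nat.card {χ : ↥(Subgroup.normalizer ((P : Subgroup G) : Set G)) → ℂ // Cfsg.IsIrrCharacter ↥(Subgroup.normalizer ((P : Subgroup G) : Set G)) χ ∧ ∃ x : ↥(Subgroup.normalizer ((P : Subgroup G) : Set G)), (x : G) ∈ (P : Subgroup G) ∧ χ x ≠ χ 1} = 1 ∧ Cfsg.IsElementaryAbelian p (P : Subgroup G) ∧ Nat.card (P : Subgroup G) = ((P : Subgroup G).subgroupOf (Subgroup.normalizer ((P : Subgroup G) : Set G))).index + 1) ∨ Cfsg.IsCoherent {χ : ↥(Subgroup.normalizer ((P : Subgroup G) : Set G)) → ℂ | Cfsg.IsIrrCharacter ↥(Subgroup.normalizer ((P : Subgroup G) : Set G)) χ ∧ ∃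 x : ↥(Subgroup.normalizer ((P : Subgroup G) : Set G)), (x : G) ∈ (P : Subgroup G) ∧ χ x ≠ χ 1} {1}ᶜ (fun α => Cfsg.indFun (Subgroup.normalizer ((P : Subgroup G) : Set G)) α) := by
  classical
  set K := (P : Subgroup G).subgroupOf (Subgroup.normalizer ((P : Subgroup G) : Set G)) with hK
  have hPN : (P : Subgroup G) ≤ (Subgroup.normalizer ((P : Subgroup G) : Set G)) := Subgroup.le_normalizer
  haveI hn : K.Normal := Subgroup.normal_in_normalizer
  have hC' : ∀ k ∈ K, k ≠ 1 → Subgroup.centralizer ({k} : Set (Subgroup.normalizer ((P : Subgroup G) : Set G))) ≤ K :=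
    CfsgLib.Char.centralizer_le_subgroupOf hC
  have hH' : K ≠ ⊥ := fun e => hP1 (by
    have := congrArg (Subgroup.map (Subgroup.normalizer ((P : Subgroup G) : Set G)).subtype) e
    rwa [hK, Subgroup.subgroupOf_map_subtype, inf_eq_left.mpr hPN, Subgroup.map_bot] at this)
  have hKp : IsPGroup p K := P.isPGroup'.of_equiv (Subgroup.subgroupOfEquivOfLe hPN).symm
  obtain ⟨n, hn'⟩ := hKp.exists_card_eq
  have hKodd : Odd (Nat.card K) := by
    rw [hn']; exact ((Fact.out : p.Prime).odd_of_ne_two hp).pow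
  have hset : {χ : (Subgroup.normalizer ((P : Subgroup G) : Set G)) → ℂ | IsIrrCharacter (Subgroup.normalizer ((P : Subgroup G) : Set G)) χ ∧ ∃ x : (Subgroup.normalizer ((P : Subgroup G) : Set G)), (x : G) ∈ (P : Subgroup G) ∧ χ x ≠ χ 1}
      = (↑(CfsgLib.Char.relChars K ⊥) : Set ((Subgroup.normalizer ((P : Subgroup G) : Set G)) → ℂ)) := by
    ext χ
    rw [Finset.mem_coe, CfsgLib.Char.mem_relChars]
    exact ⟨fun ⟨h1, x, hx, h2⟩ => ⟨h1, ⟨x, hx, h2⟩, fun a ha => by rw [Subgroup.mem_bot.mp ha]⟩,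
      fun ⟨h1, ⟨x, hx, h2⟩, _⟩ => ⟨h1, x, hx, h2⟩⟩
  have hτ := CfsgLib.Char.isoZero_relChars (P : Subgroup G) (Subgroup.normalizer ((P : Subgroup G) : Set G)) (fun g hg => hTI g hg) hC'
  obtain ⟨f, hf⟩ : ∃ f, CfsgLib.Char.CohMap (CfsgLib.Char.relChars K ⊥)
      (fun α : (Subgroup.normalizer ((P : Subgroup G) : Set G)) → ℂ => indFun (Subgroup.normalizer ((P : Subgroup G) : Set G)) α) f := by
    rcases Nat.even_or_odd (Nat.card (Subgroup.normalizer ((P : Subgroup G) : Set G))) with hev | hodd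
    · refine CfsgLib.Char.abelian_coherent (P : Subgroup G) (Subgroup.normalizer ((P : Subgroup G) : Set G)) (fun g hg => hTI g hg) hC' ?_ hH'
      refine CfsgLib.Char.commute_of_even_index hC' hKodd ?_
      rw [← K.card_mul_index, Nat.even_mul] at hev
      exact hev.resolve_left (Nat.not_even_iff_odd.mpr hKodd)
    · haveI : Group.IsNilpotent K := hKp.isNilpotent
      exact CfsgLib.Char.frobenius_coherent (P : Subgroup G) (Subgroup.normalizer ((P : Subgroup G) : Set G)) hPN (fun g hg => hTI g hg) rfl hC'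
        inferInstance hodd hH'
  by_cases h1 : (CfsgLib.Char.relChars K ⊥).card = 1
  · refine Or.inl ?_
    have hab : ∀ a ∈ K, ∀ b ∈ K, a * b = b * a := by
      rcases Nat.even_or_odd (Nat.card (Subgroup.normalizer ((P : Subgroup G) : Set G))) with hev | hodd
      · refine CfsgLib.Char.commute_of_even_index hC' hKodd ?_
        rw [← K.card_mul_index, Nat.even_mul] at hev
        exact hev.resolve_left (Nat.not_even_iff_odd.mpr hKodd)
      · obtain ⟨χ, hχ⟩ := Finset.card_eq_one.mp h1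
        obtain ⟨hb, hne⟩ := CfsgLib.Char.two_le_card_relChars hodd
          (hχ ▸ Finset.mem_singleton_self χ)
        rw [hχ, Finset.mem_singleton] at hb
        exact absurd hb hne
    obtain ⟨hcard, q, hq, hqd, hexp⟩ := CfsgLib.Char.elementary_of_card_one hC' hab h1
    have hqp : q = p := (Nat.prime_dvd_prime_iff_eq hq Fact.out).mp
      (hq.dvd_of_dvd_pow (hn' ▸ hqd))
    refine ⟨?_, ⟨⟨⟨fun a b => ?_⟩⟩, fun a ha => ?_⟩, ?_⟩
    · show Nat.card ↥({χ : (Subgroup.normalizer ((P : Subgroup G) : Set G)) → ℂ | IsIrrCharacter (Subgroup.normalizer ((P : Subgroup G) : Set G)) χ ∧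
        ∃ x : (Subgroup.normalizer ((P : Subgroup G) : Set G)), (x : G) ∈ (P : Subgroup G) ∧ χ x ≠ χ 1}) = 1
      rw [hset, Nat.card_eq_fintype_card, ← h1]
      exact Fintype.card_coe _
    · exact Subtype.ext (congrArg Subtype.val (hab ⟨a, hPN a.2⟩ a.2 ⟨b, hPN b.2⟩ b.2) :)
    · exact congrArg Subtype.val (hqp ▸ hexp ⟨a, hPN ha⟩ ha)
    · rw [← Nat.card_congr (Subgroup.subgroupOfEquivOfLe hPN).toEquiv]
      exact hcard
  · refine Or.inr ?_
    rw [hset]
    refine CfsgLib.Char.isCoherent_relChars (K := K) (A := CfsgLib.Char.relChars K ⊥)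
      (Finset.Subset.refl (CfsgLib.Char.relChars K ⊥)) hτ hf ?_
    have := Finset.card_pos.mpr (CfsgLib.Char.relChars_nonempty (K := K) hC' hH')
    omega

end Cfsg.Agent.S1533
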