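import Cfsg.Statements.S1546
import Mathlib.Algebra.BigOperators.Ring.Nat
import Mathlib.FieldTheory.Finite.Basic
import Mathlib.Algebra.Order.Ring.GeomSum
import Mathlib.Algebra.Ring.GeomSum
import Mathlib.Algebra.BigOperators.Ring.Finset

set_option autoImplicit false
open Cfsg

namespace Cfsg.Agent.S1546

/-- Let p and q be odd primes and N = (p ^ q − 1) / (p − 1) = 1 + p + ⋯ + p^(q−1). Then N is odd; if p ≡ 1 (mod q) then q ∣ N; and if p is not ≡ 1 (mod q) then N is coprime to p − 1 and every divisor of N is ≡ 1 (mod q). -/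
theorem result (p q : ℕ) (hp : p.Prime) (hq : q.Prime) (hp2 : p ≠ 2) (hq2 : q ≠ 2) : Odd ((p ^ q - 1) / (p - 1)) ∧ (p % q = 1 → q ∣ (p ^ q - 1) / (p - 1)) ∧ (p % q ≠ 1 → Nat.Coprime ((p ^ q - 1) / (p - 1)) (p - 1) ∧ ∀ x : ℕ, x ∣ (p ^ q - 1) / (p - 1) → x % q = 1) := by
  have hp3 : 3 ≤ p := by have := hp.two_le; omega
  set N := (p ^ q - 1) / (p - 1) with hN
  have hgeom : N = ∑ i ∈ Finset.range q, p ^ i := (Nat.geomSum_eq hp.two_le q).symm
  have hpodd : Odd p := hp.odd_of_ne_two hp2
  refine ⟨?_, fun h1 => ?_, fun h1 => ?_⟩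
  · rw [hgeom, Finset.odd_sum_iff_odd_card_odd, Finset.filter_true_of_mem fun i _ => hpodd.pow,
      Finset.card_range]
    exact hq.odd_of_ne_two hq2
  · rw [hgeom, Nat.dvd_iff_mod_eq_zero, Finset.sum_nat_mod]
    simp [Nat.pow_mod, h1, Nat.mod_eq_of_lt hq.one_lt]
  · have hmul : N * (p - 1) = p ^ q - 1 := by
      rw [hgeom]
      have := geom_sum_mul_add (p - 1) q
      rw [Nat.sub_add_cancel hp.one_le] at this
      omega
    have hprime : ∀ r : ℕ, r.Prime → r ∣ N → r % q = 1 := by
      intro r hr hrN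
      haveI : Fact r.Prime := ⟨hr⟩
      have hcastN : (∑ i ∈ Finset.range q, (p : ZMod r) ^ i) = 0 := by
        have h : ((N : ℕ) : ZMod r) = 0 := (ZMod.natCast_eq_zero_iff _ _).mpr hrN
        rw [hgeom] at h
        push_cast at h
        exact h
      have hpq : (p : ZMod r) ^ q = 1 := by
        have := geom_sum_mul (p : ZMod r) q
        rw [hcastN, zero_mul] at this
        exact sub_eq_zero.mp this.symm
      have hne1 : (p : ZMod r) ≠ 1 := fun e => by
        rw [e] at hcastN
        simp only [one_pow, Finset.sum_const, Finset.card_range, nsmul_eq_mul, mul_one] at hcastN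
        have hrq : r = q := (Nat.prime_dvd_prime_iff_eq hr hq).mp
          ((ZMod.natCast_eq_zero_iff _ _).mp hcastN)
        subst hrq
        refine h1 ?_
        have h2 := (ZMod.natCast_eq_natCast_iff' p 1 r).mp (by simpa using e)
        rwa [Nat.mod_eq_of_lt hq.one_lt] at h2
      have hne0 : (p : ZMod r) ≠ 0 := fun e => by
        rw [e, zero_pow hq.ne_zero] at hpq
        exact zero_ne_one hpq
      have hord : orderOf (p : ZMod r) = q := by
        haveI : Fact q.Prime := ⟨hq⟩
        exact orderOf_eq_prime hpq hne1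
      have hd : q ∣ r - 1 := hord ▸ ZMod.orderOf_dvd_card_sub_one hne0
      obtain ⟨k, hk⟩ := hd
      have hr1 : r = q * k + 1 := by have := hr.one_le; omega
      rw [hr1, Nat.add_comm, Nat.add_mul_mod_self_left, Nat.mod_eq_of_lt hq.one_lt]
    refine ⟨Nat.coprime_of_dvd fun r hr hrN hrp => ?_, fun x hx => ?_⟩
    · have hrq : r ∣ q := by
        have h : (N : ZMod r) = (q : ZMod r) := by
          have e : (p : ZMod r) = 1 := by
            have e0 : ((p - 1 : ℕ) : ZMod r) = 0 := (ZMod.natCast_eq_zero_iff _ _).mpr hrp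
            rw [Nat.cast_sub hp.one_le, Nat.cast_one] at e0
            exact sub_eq_zero.mp e0
          rw [hgeom]
          push_cast
          simp [e]
        rw [(ZMod.natCast_eq_zero_iff _ _).mpr hrN] at h
        exact (ZMod.natCast_eq_zero_iff _ _).mp h.symm
      have hrq' := (Nat.prime_dvd_prime_iff_eq hr hq).mp hrq
      have := hprime r hr hrN
      rw [hrq', Nat.mod_self] at this
      exact zero_ne_one this
    · induction x using Nat.recOnMul with
      | zero =>
        rw [zero_dvd_iff] at hx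
        rw [hx, zero_mul] at hmul
        have h2 : 1 < p ^ q := Nat.one_lt_pow hq.ne_zero hp.one_lt
        omega
      | one => exact Nat.mod_eq_of_lt hq.one_lt
      | prime r hr => exact hprime r hr hx
      | mul a b ha hb =>
        rw [Nat.mul_mod, ha (dvd_of_mul_right_dvd hx), hb (dvd_of_mul_left_dvd hx), one_mul,
          Nat.mod_eq_of_lt hq.one_lt]

end Cfsg.Agent.S1546
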