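import Cfsg.Statements.S1550
import Cfsg.Agent.Lib.SporObjSets

set_option autoImplicit false
open scoped Pointwise
open Cfsg

namespace Cfsg.Agent.S1550

open CfsgLib.Spor
open scoped Pointwise

/-- Every 4-element set of the 24 points is a tetrad of exactly one sextet, and the sextets number 1771. -/
theorem result : (∀ t : Finset Cfsg.GolayPt, t.card = 4 → ∃! S : Finset (Finset Cfsg.GolayPt), S ∈ Cfsg.sextets ∧ t ∈ S) ∧ Cfsg.sextets.ncard = 1771 := by
  refine ⟨fun t ht => ?_, by rw [sextCoded.ncard_univ]; decide +kernel⟩
  obtain ⟨p, hp⟩ : t.Nonempty := Finset.card_pos.1 (by omega)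
  obtain ⟨h, hh, e⟩ := exists_M24_map (n := 1) (by norm_num) ⟨fun _ => none, fun a b _ => Subsingleton.elim a b⟩
    ⟨fun _ => p, fun a b _ => Subsingleton.elim a b⟩
  have e0 : h none = p := e 0
  have hn : none ∈ h⁻¹ • t := by
    rw [Finset.mem_inv_smul_finset_iff, Equiv.Perm.smul_def, e0]; exact hp
  set m := maskOf (h⁻¹ • t) with hm
  have hmt : setOfMask m = h⁻¹ • t := setOfMask_maskOf _
  have mb : m.testBit 23 = true := by
    rw [← hmt, mem_setOfMask] at hn; exact hn
  have hw : wt m = 4 := by rw [← card_setOfMask, hmt, Finset.card_smul_finset, ht]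
  have hmem : m ∈ tetMasks := by
    obtain ⟨a, b, c, hcb, hba, ha, he⟩ := exists_triple (s := (h⁻¹ • t).erase none)
      (by rw [Finset.card_erase_of_mem hn, Finset.card_smul_finset, ht])
    have ha23 : a < 23 := by
      by_contra hh'
      have : a = 23 := by omega
      subst this
      have : (none : Cfsg.GolayPt) ∈ (h⁻¹ • t).erase none := by rw [he]; simp [pt]
      simp at this
    refine List.mem_flatMap.2 ⟨a, by simpa using ha23, List.mem_flatMap.2 ⟨b, by simpa using hba,
      List.mem_map.2 ⟨c, by simpa using hcb, setOfMask_inj ?_ (maskOf_lt _) ?_⟩⟩⟩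
    · refine Nat.or_lt_two_pow (by norm_num) (Nat.or_lt_two_pow (Nat.or_lt_two_pow ?_ ?_) ?_) <;>
        exact Nat.pow_lt_pow_right (by norm_num) (by omega)
    · rw [setOfMask_maskOf, setOfMask_or, setOfMask_two_pow (by norm_num), setOfMask_mask3 ha (by omega) (by omega),
        ← he, show pt 23 = none from rfl, ← Finset.insert_eq, Finset.insert_erase hn]
  have hhead : (sextetList.map fun X => X.headD 0) = tetMasks := by decide +kernel
  have htail : (sextetList.all fun X => X.tail.all fun t => !t.testBit 23) = true := by decide +kernel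
  have hnd : ascending tetMasks = true := by decide +kernel
  have hone : (sextetObjs.countP fun X => memL m X) = 1 := by
    have e : (sextetObjs.countP fun X => memL m X) = sextetObjs.countP fun X => X.headD 0 == m := by
      refine List.countP_congr fun X hX => ?_
      have ht := List.all_eq_true.1 htail X (by simpa [sextetObjs] using hX)
      rw [List.all_eq_true] at ht
      have hne : X ≠ [] := fun e => by
        have := (sextCoded.sound X hX)
        obtain ⟨S, hS, eS⟩ := this
        have h6 := hS.1
        rw [show S = setSet X from eS, e] at h6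
        simp at h6
      obtain ⟨x, xs, rfl⟩ := List.exists_cons_of_ne_nil hne
      simp only [List.headD_cons, memL_iff, List.mem_cons, beq_iff_eq]
      constructor
      · rintro (h | h)
        · exact h.symm
        · have := ht m h
          rw [mb] at this
          simp at this
      · exact fun h => Or.inl h.symm
    rw [e, show (sextetObjs.countP fun X => X.headD 0 == m) = (sextetObjs.map fun X => X.headD 0).count m by
      rw [List.count, List.countP_map]; rfl]
    unfold sextetObjs
    rw [hhead]
    exact List.count_eq_one_of_mem ((pairwise_of_ascending hnd).imp fun h => h.ne) hmem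
  have h1 : {S | S ∈ Cfsg.sextets ∧ t ∈ S}.ncard = 1 := by
    refine (sextCoded.ncard_eq hh _ (fun X => memL m X) fun X hX S _ eS => ?_).trans hone
    rw [memL_iff, show S = h • setSet X from eS, ← Finset.inv_smul_mem_iff, ← hmt, mem_setSet]
    exact ⟨fun hm' => ⟨m, hm', rfl⟩, fun ⟨n, hn', e'⟩ =>
      (show n = m from setOfMask_inj (smallL_iff.1 (niceL_iff.1 (sextCoded.nice X hX)).1 n hn') (maskOf_lt _) e') ▸ hn'⟩
  obtain ⟨S, hS⟩ := Set.ncard_eq_one.1 h1
  have hmemS : S ∈ {S | S ∈ Cfsg.sextets ∧ t ∈ S} := by rw [hS]; rfl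
  exact ⟨S, hmemS, fun S' hS' => by
    have : S' ∈ {S | S ∈ Cfsg.sextets ∧ t ∈ S} := hS'
    rw [hS] at this; exact this⟩

end Cfsg.Agent.S1550
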