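import Cfsg.Statements.S1551
import Cfsg.Agent.Lib.SporSextetStab

set_option autoImplicit false
open scoped Pointwise
open Cfsg

namespace Cfsg.Agent.S1551

open CfsgLib.Spor
open scoped Pointwise

/-- Structure of a sextet stabiliser: it induces every permutation of the six tetrads, the subgroup fixing each tetrad setwise has order 192, and there is a normal subgroup of order 64 consisting of elements squaring to the identity. -/
theorem result (S : Finset (Finset Cfsg.GolayPt)) (hS : S ∈ Cfsg.sextets) : (∀ e : Equiv.Perm ↥S, ∃ g ∈ MulAction.stabilizer Cfsg.M24 S, ∀ t : ↥S, (g : Equiv.Perm Cfsg.GolayPt) • (t : Finset Cfsg.GolayPt) = ((e t : ↥S) : Finset Cfsg.GolayPt)) ∧ Nat.card {g : ↥(MulAction.stabilizer Cfsg.M24 S) // ∀ t ∈ S, ((g : Cfsg.M24) : Equiv.Perm Cfsg.GolayPt) • t = t} = 192 ∧ ∃ N : Subgroup ↥(MulAction.stabilizer Cfsg.M24 S), N.Normal ∧ Nat.card N = 64 ∧ ∀ x ∈ N, x * x = 1 := by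
  obtain ⟨c, hc, eS⟩ := sextCoded.exists_base trSext_stab trSext_trans bases_mem.2.1 hS
  obtain rfl : S = c • setSet sextBase := eS
  have toS : ∀ g : P24, g ∈ stabL [sextBase] → c * g * c⁻¹ ∈ Cfsg.M24 ∧
      (c * g * c⁻¹) • (c • setSet sextBase) = c • setSet sextBase := fun g hg => by
    obtain ⟨h1, h2⟩ := mem_stabL.1 hg
    exact ⟨mul_mem (mul_mem hc h1) (inv_mem hc),
      by rw [mul_smul, mul_smul, inv_smul_smul, h2 sextBase (by simp)]⟩
  have fromS : ∀ g : P24, g ∈ Cfsg.M24 → g • (c • setSet sextBase) = c • setSet sextBase →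
      c⁻¹ * g * c ∈ stabL [sextBase] := fun g hg e => by
    refine mem_stabL.2 ⟨mul_mem (mul_mem (inv_mem hc) hg) hc, fun B hB => ?_⟩
    rw [List.mem_singleton.1 hB, mul_smul, mul_smul, e, inv_smul_smul]
  have memS : ∀ t, t ∈ c • setSet sextBase ↔ ∃ i, c • tetS i = t := fun t => by
    rw [Finset.mem_smul_finset]
    constructor
    · rintro ⟨u, hu, rfl⟩
      obtain ⟨i, rfl⟩ := mem_sextBase_set.1 hu
      exact ⟨i, rfl⟩
    · rintro ⟨i, rfl⟩
      exact ⟨tetS i, mem_sextBase_set.2 ⟨i, rfl⟩, rfl⟩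
  have fixiff : ∀ g : P24, (∀ t ∈ c • setSet sextBase, g • t = t) ↔ ∀ i, (c⁻¹ * g * c) • tetS i = tetS i := fun g => by
    constructor
    · intro h i
      rw [mul_smul, mul_smul, h _ ((memS _).2 ⟨i, rfl⟩), inv_smul_smul]
    · intro h t ht
      obtain ⟨i, rfl⟩ := (memS t).1 ht
      have := h i
      rw [mul_smul, mul_smul, inv_smul_eq_iff] at this
      exact this
  have transfer : ∀ (P : P24 → Prop) (Q : P24 → Prop), (∀ g, Q g ↔ P (c⁻¹ * g * c)) →
      Nat.card {g : ↥(MulAction.stabilizer Cfsg.M24 (c • setSet sextBase)) //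
        (∀ t ∈ c • setSet sextBase, ((g : Cfsg.M24) : P24) • t = t) ∧ Q ((g : Cfsg.M24) : P24)} =
      Nat.card {g : P24 // g ∈ sextKer ∧ P g} := by
    intro P Q hPQ
    exact Nat.card_congr
      { toFun := fun g => ⟨c⁻¹ * ((g.1 : Cfsg.M24) : P24) * c,
          mem_sextKer.2 ⟨fromS _ (g.1 : Cfsg.M24).2 g.1.2, (fixiff _).1 g.2.1⟩, (hPQ _).1 g.2.2⟩
        invFun := fun g => ⟨⟨⟨c * g.1 * c⁻¹, (toS g.1 (mem_sextKer.1 g.2.1).1).1⟩, (toS g.1 (mem_sextKer.1 g.2.1).1).2⟩,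
          (fixiff _).2 (fun i => by
            rw [show c⁻¹ * (c * g.1 * c⁻¹) * c = g.1 by group]; exact (mem_sextKer.1 g.2.1).2 i),
          (hPQ _).2 (by rw [show c⁻¹ * (c * g.1 * c⁻¹) * c = g.1 by group]; exact g.2.2)⟩
        left_inv := fun g => Subtype.ext (Subtype.ext (Subtype.ext (by simp [mul_assoc])))
        right_inv := fun g => Subtype.ext (by simp [mul_assoc]) }
  refine ⟨fun e => ?_, ?_, ?_⟩
  · have hb : Function.Bijective fun i : Fin 6 => (⟨c • tetS i, (memS _).2 ⟨i, rfl⟩⟩ : ↥(c • setSet sextBase)) := by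
      refine ⟨fun a b h => tetS_injective (MulAction.injective c (congrArg Subtype.val h)), fun t => ?_⟩
      obtain ⟨i, hi⟩ := (memS t).1 t.2
      exact ⟨i, Subtype.ext hi⟩
    let f := Equiv.ofBijective _ hb
    obtain ⟨g, hg, eg⟩ := tet_perm (f.trans (e.trans f.symm))
    refine ⟨⟨c * g * c⁻¹, (toS g hg).1⟩, (toS g hg).2, fun t => ?_⟩
    obtain ⟨i, rfl⟩ := f.surjective t
    show (c * g * c⁻¹) • (c • tetS i) = _
    rw [mul_smul, mul_smul, inv_smul_smul, eg]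
    exact congrArg Subtype.val (f.apply_symm_apply (e (f i)))
  · have h := transfer (fun _ => True) (fun _ => True) (fun _ => Iff.rfl)
    simp only [and_true] at h
    rw [h]
    exact card_sextKer
  let P : ↥(MulAction.stabilizer Cfsg.M24 (c • setSet sextBase)) → Prop := fun g =>
    (∀ t ∈ c • setSet sextBase, ((g : Cfsg.M24) : P24) • t = t) ∧ ((g : Cfsg.M24) : P24) * ((g : Cfsg.M24) : P24) = 1
  have hmul : ∀ a b, P a → P b → P (a * b) := by
    rintro a b ⟨a1, a2⟩ ⟨b1, b2⟩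
    refine ⟨fun t ht => ?_, ?_⟩
    · show (((a : Cfsg.M24) : P24) * ((b : Cfsg.M24) : P24)) • t = t
      rw [mul_smul, b1 t ht, a1 t ht]
    · show ((a : Cfsg.M24) : P24) * ((b : Cfsg.M24) : P24) * (((a : Cfsg.M24) : P24) * ((b : Cfsg.M24) : P24)) = 1
      have sq : ∀ x : P24, x * x = 1 → c⁻¹ * x * c * (c⁻¹ * x * c) = 1 := fun x hx => by
        rw [show c⁻¹ * x * c * (c⁻¹ * x * c) = c⁻¹ * (x * x) * c by group, hx]; group
      have h := sextKer_sq_mul (mem_sextKer.2 ⟨fromS _ (a : Cfsg.M24).2 a.2, (fixiff _).1 a1⟩) (sq _ a2)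
        (mem_sextKer.2 ⟨fromS _ (b : Cfsg.M24).2 b.2, (fixiff _).1 b1⟩) (sq _ b2)
      calc ((a : Cfsg.M24) : P24) * ((b : Cfsg.M24) : P24) * (((a : Cfsg.M24) : P24) * ((b : Cfsg.M24) : P24))
          = c * (c⁻¹ * ((a : Cfsg.M24) : P24) * c * (c⁻¹ * ((b : Cfsg.M24) : P24) * c) *
              (c⁻¹ * ((a : Cfsg.M24) : P24) * c * (c⁻¹ * ((b : Cfsg.M24) : P24) * c))) * c⁻¹ := by group
        _ = 1 := by rw [h]; group
  refine ⟨subgroupOfProp P ⟨fun t _ => one_smul _ _, mul_one 1⟩ hmul, ⟨?_⟩, ?_, ?_⟩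
  · rintro n ⟨n1, n2⟩ g
    refine ⟨fun t ht => ?_, ?_⟩
    · show (((g : Cfsg.M24) : P24) * ((n : Cfsg.M24) : P24) * ((g : Cfsg.M24) : P24)⁻¹) • t = t
      have hg : ((g : Cfsg.M24) : P24) • (c • setSet sextBase) = c • setSet sextBase := g.2
      have : ((g : Cfsg.M24) : P24)⁻¹ • t ∈ c • setSet sextBase := by
        rw [Finset.inv_smul_mem_iff, hg]; exact ht
      rw [mul_smul, mul_smul, n1 _ this, smul_inv_smul]
    · show ((g : Cfsg.M24) : P24) * ((n : Cfsg.M24) : P24) * ((g : Cfsg.M24) : P24)⁻¹ *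
        (((g : Cfsg.M24) : P24) * ((n : Cfsg.M24) : P24) * ((g : Cfsg.M24) : P24)⁻¹) = 1
      calc _ = ((g : Cfsg.M24) : P24) * (((n : Cfsg.M24) : P24) * ((n : Cfsg.M24) : P24)) * ((g : Cfsg.M24) : P24)⁻¹ := by
            group
        _ = 1 := by rw [n2]; group
  · refine (transfer (fun x => x * x = 1) (fun x => x * x = 1) fun g => ?_).trans card_sextKer_sq
    constructor
    · intro e
      rw [show c⁻¹ * g * c * (c⁻¹ * g * c) = c⁻¹ * (g * g) * c by group, e]; group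
    · intro e
      calc g * g = c * (c⁻¹ * g * c * (c⁻¹ * g * c)) * c⁻¹ := by group
        _ = 1 := by rw [e]; group
  · rintro x ⟨-, x2⟩
    exact Subtype.ext (Subtype.ext x2)

end Cfsg.Agent.S1551
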