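import Cfsg.Statements.S1552
import Cfsg.Agent.Lib.SporObjUse
import Cfsg.Agent.Lib.SporObjTrans
import Cfsg.Agent.Lib.SporObjCertSext

set_option autoImplicit false
open scoped Pointwise
open Cfsg

namespace Cfsg.Agent.S1552

open CfsgLib.Spor
open scoped Pointwise

/-- A sextet stabiliser has four orbits on the 1771 sextets, of sizes 1, 90, 240, 1440; and the stabiliser is a maximal proper subgroup. -/
theorem result (S : Finset (Finset Cfsg.GolayPt)) (hS : S ∈ Cfsg.sextets) : ∃ X₁ ∈ Cfsg.sextets, ∃ X₂ ∈ Cfsg.sextets, ∃ X₃ ∈ Cfsg.sextets, (MulAction.orbit ↥(MulAction.stabilizer Cfsg.M24 S) X₁).ncard = 90 ∧ (MulAction.orbit ↥(MulAction.stabilizer Cfsg.M24 S) X₂).ncard = 240 ∧ (MulAction.orbit ↥(MulAction.stabilizer Cfsg.M24 S) X₃).ncard = 1440 ∧ Cfsg.sextets = {S} ∪ MulAction.orbit ↥(MulAction.stabilizer Cfsg.M24 S) X₁ ∪ MulAction.orbit ↥(MulAction.stabilizer Cfsg.M24 S) X₂ ∪ MulAction.orbit ↥(MulAction.stabilizer Cfsg.M24 S) X₃ ∧ IsCoatom (MulAction.stabilizer Cfsg.M24 S) := by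
  obtain ⟨b, hb, eo⟩ := sextCoded.exists_base trSext_stab trSext_trans bases_mem.2.1 hS
  obtain ⟨X0, m0, c0, e0⟩ := sextCoded.orbit_exists sextSext_stab sextSext_classes bases_nice.2.1 hb
    Function.injective_id (fun _ _ => rfl) eo (v := 120024) (n := 90) (by decide +kernel) (by norm_num)
  obtain ⟨X1, m1, c1, e1⟩ := sextCoded.orbit_exists sextSext_stab sextSext_classes bases_nice.2.1 hb
    Function.injective_id (fun _ _ => rfl) eo (v := 2001816) (n := 240) (by decide +kernel) (by norm_num)
  obtain ⟨X2, m2, c2, e2⟩ := sextCoded.orbit_exists sextSext_stab sextSext_classes bases_nice.2.1 hb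
    Function.injective_id (fun _ _ => rfl) eo (v := 41616) (n := 1440) (by decide +kernel) (by norm_num)
  have es := sextCoded.sig_singleton hb bases_nice.2.1 hS (v := 600000030) (by
      rw [eo, sigF_smul, sigF_setSet bases_nice.2.1 bases_nice.2.1]; decide +kernel) (by decide +kernel)
  rw [← eo] at es
  refine ⟨X0, m0, X1, m1, X2, m2, c0, c1, c2, ?_, ?_⟩
  · rw [e0, e1, e2, ← es]
    ext T
    constructor
    · intro hT'
      have := sextCoded.sig_mem bases_nice.2.1 hb sextSext_classes hT'
      rw [← eo, show sextSextCls.map Prod.fst = [600000030, 2001816, 41616, 120024] by decide +kernel] at this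
      simp only [List.mem_cons, List.not_mem_nil, or_false] at this
      simp only [Set.mem_union, Set.mem_setOf_eq]
      tauto
    · intro hT'
      simp only [Set.mem_union, Set.mem_setOf_eq] at hT'
      tauto
  · exact sextCoded.isCoatom trSext_stab trSext_trans sextSext_stab sextSext_classes bases_mem.2.1 (by decide +kernel) (by decide +kernel) hS

end Cfsg.Agent.S1552
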