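import Cfsg.Statements.S1553
import Cfsg.Agent.Lib.SporOctStab

set_option autoImplicit false
open scoped Pointwise
open Cfsg

namespace Cfsg.Agent.S1553

open CfsgLib.Spor
open scoped Pointwise

/-- The stabiliser of an octad in the group of the length-24 code induces on the octad exactly its alternating group. -/
theorem result (o : Finset Cfsg.GolayPt) (ho : o ∈ Cfsg.octads) : {e : Equiv.Perm ↥o | ∃ g : Equiv.Perm Cfsg.GolayPt, g ∈ Cfsg.M24 ∧ ∃ h : (∀ x, g x ∈ o ↔ x ∈ o), g.subtypePerm h = e} = (alternatingGroup ↥o : Set (Equiv.Perm ↥o)) := by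
  ext e
  rw [SetLike.mem_coe, ← octRestrict_range ho]
  constructor
  · rintro ⟨g, hg, h, rfl⟩
    have hgo : g • o = o := Finset.eq_of_subset_of_card_le (fun q hq => by
      obtain ⟨r, hr, rfl⟩ := Finset.mem_smul_finset.1 hq
      exact (h r).2 hr) (by rw [Finset.card_smul_finset])
    exact ⟨⟨g, hg, hgo⟩, rfl⟩
  · rintro ⟨g, rfl⟩
    refine ⟨(g : P24), g.2.1, fun x => ?_, rfl⟩
    have := Finset.smul_mem_smul_finset_iff (s := o) (b := x) (g : P24)
    rwa [show (g : P24) • o = o from g.2.2] at this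

end Cfsg.Agent.S1553
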