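import Cfsg.Statements.S1554
import Cfsg.Agent.Lib.SporOctStab

set_option autoImplicit false
open scoped Pointwise
open Cfsg

namespace Cfsg.Agent.S1554

open CfsgLib.Spor
open scoped Pointwise

/-- An octad stabiliser is a split extension: the joint stabiliser of the octad and a point outside it is a complement to the pointwise stabiliser of the octad, and is isomorphic to the alternating group of degree 8. -/
theorem result (o : Finset Cfsg.GolayPt) (ho : o ∈ Cfsg.octads) (p : Cfsg.GolayPt) (hp : p ∉ o) : (Cfsg.M24 ⊓ fixingSubgroup (Equiv.Perm Cfsg.GolayPt) (o : Set Cfsg.GolayPt)) ⊓ (Cfsg.M24 ⊓ MulAction.stabilizer (Equiv.Perm Cfsg.GolayPt) o ⊓ MulAction.stabilizer (Equiv.Perm Cfsg.GolayPt) p) = ⊥ ∧ (Cfsg.M24 ⊓ fixingSubgroup (Equiv.Perm Cfsg.GolayPt) (o : Set Cfsg.GolayPt)) ⊔ (Cfsg.M24 ⊓ MulAction.stabilizer (Equiv.Perm Cfsg.GolayPt) o ⊓ MulAction.stabilizer (Equiv.Perm Cfsg.GolayPt) p) = (Cfsg.M24 ⊓ MulAction.stabilizer (Equiv.Perm Cfsg.GolayPt)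 o) ∧ Nonempty (↥(Cfsg.M24 ⊓ MulAction.stabilizer (Equiv.Perm Cfsg.GolayPt) o ⊓ MulAction.stabilizer (Equiv.Perm Cfsg.GolayPt) p) ≃* alternatingGroup (Fin 8)) := by
  set F := fixingSubgroup (Equiv.Perm Cfsg.GolayPt) (o : Set Cfsg.GolayPt)
  set A := Cfsg.M24 ⊓ F with hA
  set B := Cfsg.M24 ⊓ MulAction.stabilizer (Equiv.Perm Cfsg.GolayPt) o ⊓ MulAction.stabilizer (Equiv.Perm Cfsg.GolayPt) p with hB
  have memA : ∀ g : P24, g ∈ A ↔ g ∈ Cfsg.M24 ∧ ∀ q ∈ o, g q = q := fun g => by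
    rw [hA, Subgroup.mem_inf, mem_fixingSubgroup_iff]
    rfl
  have hdis : A ⊓ B = ⊥ := by
    rw [Subgroup.eq_bot_iff_forall]
    rintro g ⟨ga, gb⟩
    obtain ⟨gM, gfix⟩ := (memA g).1 ga
    exact fix_outside_eq_one ho hp gM gfix gb.2
  have cardA : Nat.card A = 16 := by
    rw [← card_fix_oct ho]
    exact Nat.card_congr (Equiv.subtypeEquivRight memA)
  have hAle : A ≤ octK o := fun g hg => by
    obtain ⟨gM, gfix⟩ := (memA g).1 hg
    refine ⟨gM, MulAction.mem_stabilizer_iff.2 ?_⟩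
    rw [Finset.smul_finset_def]
    conv_rhs => rw [← Finset.image_id (s := o)]
    exact Finset.image_congr fun q hq => gfix q hq
  -- the orbit of the outside point under the pointwise stabiliser of the octad
  have hreg : ∀ g ∈ octK o, ∃ a ∈ A, (a * g) p = p := fun g hg => by
    have hsurj : Function.Surjective fun a : A => (⟨(a : P24) p, by
        intro h
        have h' := ((memA a).1 a.2).2 _ h
        rw [(a : P24).injective h'] at h
        exact hp h⟩ : {q // q ∉ o}) := by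
      refine ((Nat.bijective_iff_injective_and_card _).2 ⟨fun a b e => ?_, ?_⟩).2
      · have e' : (a : P24) p = (b : P24) p := congrArg Subtype.val e
        obtain ⟨aM, afix⟩ := (memA a).1 a.2
        obtain ⟨bM, bfix⟩ := (memA b).1 b.2
        have h1 : (b : P24)⁻¹ * a = 1 := fix_outside_eq_one ho hp (mul_mem (inv_mem bM) aM)
          (fun q hq => by rw [Equiv.Perm.mul_apply, afix q hq, Equiv.Perm.inv_eq_iff_eq, bfix q hq])
          (by rw [Equiv.Perm.mul_apply, e']; simp)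
        exact Subtype.ext (inv_mul_eq_one.1 h1).symm
      · rw [cardA, Nat.card_eq_fintype_card, Fintype.card_subtype_compl, Fintype.card_coe, ho.2]
        simp
    have gp : g p ∉ o := fun h => hp (by
      rw [← show g • o = o from hg.2] at h
      exact (Finset.smul_mem_smul_finset_iff g).1 h)
    obtain ⟨a, ha⟩ := hsurj ⟨g p, gp⟩
    refine ⟨(a : P24)⁻¹, inv_mem a.2, ?_⟩
    rw [Equiv.Perm.mul_apply, Equiv.Perm.inv_eq_iff_eq]
    exact (congrArg Subtype.val ha).symm
  have hsup : A ⊔ B = octK o := by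
    refine le_antisymm (sup_le hAle fun g hg => hg.1) fun g hg => ?_
    obtain ⟨a, ha, e⟩ := hreg g hg
    have hb : a * g ∈ B := ⟨mul_mem (hAle ha) hg, e⟩
    have : g = a⁻¹ * (a * g) := by group
    rw [this]
    exact mul_mem (Subgroup.mem_sup_left (inv_mem ha)) (Subgroup.mem_sup_right hb)
  refine ⟨hdis, hsup, ?_⟩
  let ι : ↥B →* ↥(octK o) := Subgroup.inclusion fun g hg => hg.1
  have hinj : Function.Injective ((octRestrict o).comp ι) := by
    rw [← MonoidHom.ker_eq_bot_iff, Subgroup.eq_bot_iff_forall]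
    intro g hg
    have h1 : octRestrict o (ι g) = 1 := MonoidHom.mem_ker.1 hg
    exact Subtype.ext (fix_outside_eq_one ho hp g.2.1.1 (restrictHom_eq_one.1 h1) g.2.2)
  have hrange : ((octRestrict o).comp ι).range = alternatingGroup ↥o := by
    rw [← octRestrict_range ho]
    refine le_antisymm (fun e ⟨g, hg⟩ => ⟨ι g, hg⟩) fun e ⟨g, hg⟩ => ?_
    obtain ⟨a, ha, e'⟩ := hreg g g.2
    refine ⟨⟨a * g, mul_mem (hAle ha) g.2, e'⟩, ?_⟩
    rw [← hg]
    show octRestrict o ⟨a * g, _⟩ = _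
    rw [show (⟨a * g, mul_mem (hAle ha) g.2⟩ : ↥(octK o)) = ⟨a, hAle ha⟩ * g from rfl, map_mul,
      show octRestrict o ⟨a, hAle ha⟩ = 1 from restrictHom_eq_one.2 ((memA a).1 ha).2, one_mul]
  exact ⟨(MonoidHom.ofInjective hinj).trans ((MulEquiv.subgroupCongr hrange).trans
    (Equiv.altCongrHom (Finset.equivFinOfCardEq ho.2)))⟩

end Cfsg.Agent.S1554
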