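import Cfsg.Statements.S1555
import Cfsg.Agent.Lib.SporObjUse
import Cfsg.Agent.Lib.SporObjTrans
import Cfsg.Agent.Lib.SporObjPoint

set_option autoImplicit false
open scoped Pointwise
open Cfsg

namespace Cfsg.Agent.S1555

set_option maxRecDepth 20000

open CfsgLib.Spor
open scoped Pointwise

/-- Bottom row of the Leech triangle: an octad is met in a prescribed pair of its points by exactly 16 octads and in a prescribed 4-subset by exactly 4 octads. -/
theorem result (o : Finset Cfsg.GolayPt) (ho : o ∈ Cfsg.octads) (s : Finset Cfsg.GolayPt) (hs : s ⊆ o) : (s.card = 2 → {o' : Finset Cfsg.GolayPt | o' ∈ Cfsg.octads ∧ o ∩ o' = s}.ncard = 16) ∧ (s.card = 4 → {o' : Finset Cfsg.GolayPt | o' ∈ Cfsg.octads ∧ o ∩ o' = s}.ncard = 4) := by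
  obtain ⟨c, hc, eo⟩ := octCoded.exists_base trOct_stab trOct_trans bases_mem.1 ho
  obtain rfl : o = c • setOfMask 5279 := famOne_injective (eo.trans (smul_setSet_one c _))
  obtain ⟨m, hlt, hsub, rfl⟩ : ∃ m, m < 2 ^ 24 ∧ 5279 &&& m = m ∧ s = c • setOfMask m := by
    refine ⟨maskOf (c⁻¹ • s), maskOf_lt _, ?_, by rw [setOfMask_maskOf, smul_inv_smul]⟩
    refine (subset_smul_mask (h := c) (maskOf_lt _)).1 ?_
    rwa [setOfMask_maskOf, smul_inv_smul]
  have hm : m ∈ List.range 5280 := List.mem_range.2 (by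
    have : 5279 &&& m ≤ 5279 := Nat.and_le_left
    omega)
  have cnt : {o' : Finset Cfsg.GolayPt | o' ∈ Cfsg.octads ∧ c • setOfMask 5279 ∩ o' = c • setOfMask m}.ncard =
      octObjs.countP fun X => Nat.beq (Nat.land 5279 (X.headD 0)) m := by
    refine octCoded.one_ncard hc _ _ fun n _ => ?_
    rw [Nat.beq_eq, ← Finset.smul_finset_inter, ← setOfMask_and, (MulAction.injective c).eq_iff]
    exact ⟨fun e => congrArg setOfMask e, fun e => setOfMask_inj (lt_of_le_of_lt Nat.and_le_left (by norm_num)) hlt e⟩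
  rw [Finset.card_smul_finset, card_setOfMask, cnt]
  have key : ((List.range 5280).all fun m => !Nat.beq (Nat.land 5279 m) m ||
      ((!Nat.beq (wt m) 2 || Nat.beq (octObjs.countP fun X => Nat.beq (Nat.land 5279 (X.headD 0)) m) 16) &&
       (!Nat.beq (wt m) 4 || Nat.beq (octObjs.countP fun X => Nat.beq (Nat.land 5279 (X.headD 0)) m) 4))) = true := by
    decide +kernel
  have k := List.all_eq_true.1 key m hm
  rw [show Nat.land 5279 m = 5279 &&& m from rfl, hsub] at k
  simp only [Bool.or_eq_true, Bool.and_eq_true, Bool.not_eq_true', Nat.beq_eq] at k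
  generalize (octObjs.countP fun X => Nat.beq (Nat.land 5279 (X.headD 0)) m) = N at k ⊢
  refine ⟨fun h => ?_, fun h => ?_⟩ <;> simp [h] at k <;> tauto

end Cfsg.Agent.S1555
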