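import Cfsg.Statements.S1556
import Cfsg.Agent.Lib.SporObjUse
import Cfsg.Agent.Lib.SporObjTrans
import Cfsg.Agent.Lib.SporObjCertOct

set_option autoImplicit false
open scoped Pointwise
open Cfsg

namespace Cfsg.Agent.S1556

open CfsgLib.Spor
open scoped Pointwise

/-- Two octads meeting a fixed octad in equally many points are in the same orbit of its stabiliser. -/
theorem result (o o' o'' : Finset Cfsg.GolayPt) (ho : o ∈ Cfsg.octads) (ho' : o' ∈ Cfsg.octads) (ho'' : o'' ∈ Cfsg.octads) (h : (o ∩ o').card = (o ∩ o'').card) : ∃ g : Equiv.Perm Cfsg.GolayPt, g ∈ Cfsg.M24 ∧ g • o = o ∧ g • o' = o'' := by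
  obtain ⟨b, hb, eo⟩ := octCoded.exists_base trOct_stab trOct_trans bases_mem.1 ho
  obtain ⟨g, hg, gB, ge⟩ := octCoded.sig_conj octOct_stab octOct_classes bases_nice.1 hb ho' ho''
    (by rw [← eo, sigF_one_one, sigF_one_one, h])
  exact ⟨g, hg, famOne_smul_setSet eo gB, ge⟩

end Cfsg.Agent.S1556
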