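import Cfsg.Statements.S1559
import Cfsg.Agent.Lib.SporObjUse
import Cfsg.Agent.Lib.SporObjTrans
import Cfsg.Agent.Lib.SporObjCertTrio

set_option autoImplicit false
open scoped Pointwise
open Cfsg

namespace Cfsg.Agent.S1559

open CfsgLib.Spor
open scoped Pointwise

/-- A trio stabiliser has five orbits on the 3795 trios, of sizes 1, 42, 56, 1008, 2688; and the stabiliser is a maximal proper subgroup. -/
theorem result (T : Finset (Finset Cfsg.GolayPt)) (hT : T ∈ Cfsg.trios) : ∃ X₁ ∈ Cfsg.trios, ∃ X₂ ∈ Cfsg.trios, ∃ X₃ ∈ Cfsg.trios, ∃ X₄ ∈ Cfsg.trios, (MulAction.orbit ↥(MulAction.stabilizer Cfsg.M24 T) X₁).ncard = 42 ∧ (MulAction.orbit ↥(MulAction.stabilizer Cfsg.M24 T) X₂).ncard = 56 ∧ (MulAction.orbit ↥(MulAction.stabilizer Cfsg.M24 T) X₃).ncard = 1008 ∧ (MulAction.orbit ↥(MulAction.stabilizer Cfsg.M24 T) X₄).ncard = 2688 ∧ Cfsg.trios = {T} ∪ MulAction.orbit ↥(MulAction.stabilizer Cfsg.M24 T) X₁ ∪ MulAction.orbit ↥(MulAction.stabilizer Cfsg.M24 T) X₂ ∪ MulAction.orbit ↥(MulAction.stabilizer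 Cfsg.M24 T) X₃ ∪ MulAction.orbit ↥(MulAction.stabilizer Cfsg.M24 T) X₄ ∧ IsCoatom (MulAction.stabilizer Cfsg.M24 T) := by
  obtain ⟨b, hb, eo⟩ := trioCoded.exists_base trTrio_stab trTrio_trans bases_mem.2.2.1 hT
  obtain ⟨X0, m0, c0, e0⟩ := trioCoded.orbit_exists trioTrio_stab trioTrio_classes bases_nice.2.2.1 hb
    Function.injective_id (fun _ _ => rfl) eo (v := 10000000400000004) (n := 42) (by decide +kernel) (by norm_num)
  obtain ⟨X1, m1, c1, e1⟩ := trioCoded.orbit_exists trioTrio_stab trioTrio_classes bases_nice.2.2.1 hb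
    Function.injective_id (fun _ _ => rfl) eo (v := 600000003) (n := 56) (by decide +kernel) (by norm_num)
  obtain ⟨X2, m2, c2, e2⟩ := trioCoded.orbit_exists trioTrio_stab trioTrio_classes bases_nice.2.2.1 hb
    Function.injective_id (fun _ _ => rfl) eo (v := 400040001) (n := 1008) (by decide +kernel) (by norm_num)
  obtain ⟨X3, m3, c3, e3⟩ := trioCoded.orbit_exists trioTrio_stab trioTrio_classes bases_nice.2.2.1 hb
    Function.injective_id (fun _ _ => rfl) eo (v := 300060000) (n := 2688) (by decide +kernel) (by norm_num)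
  have es := trioCoded.sig_singleton hb bases_nice.2.2.1 hT (v := 30000000000000006) (by
      rw [eo, sigF_smul, sigF_setSet bases_nice.2.2.1 bases_nice.2.2.1]; decide +kernel) (by decide +kernel)
  rw [← eo] at es
  refine ⟨X0, m0, X1, m1, X2, m2, X3, m3, c0, c1, c2, c3, ?_, ?_⟩
  · rw [e0, e1, e2, e3, ← es]
    ext T
    constructor
    · intro hT'
      have := trioCoded.sig_mem bases_nice.2.2.1 hb trioTrio_classes hT'
      rw [← eo, show trioTrioCls.map Prod.fst = [30000000000000006, 10000000400000004, 400040001, 600000003, 300060000] by decide +kernel] at this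
      simp only [List.mem_cons, List.not_mem_nil, or_false] at this
      simp only [Set.mem_union, Set.mem_setOf_eq]
      tauto
    · intro hT'
      simp only [Set.mem_union, Set.mem_setOf_eq] at hT'
      tauto
  · exact trioCoded.isCoatom trTrio_stab trTrio_trans trioTrio_stab trioTrio_classes bases_mem.2.2.1 (by decide +kernel) (by decide +kernel) hT

end Cfsg.Agent.S1559
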