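import Cfsg.Statements.S1560
import Cfsg.Agent.Lib.SporObjUse
import Cfsg.Agent.Lib.SporObjTrans
import Cfsg.Agent.Lib.SporObjCertDod

set_option autoImplicit false
open scoped Pointwise
open Cfsg

namespace Cfsg.Agent.S1560

open CfsgLib.Spor
open scoped Pointwise

/-- Intersection numbers of dodecads: a dodecad meets every other dodecad in 0, 4, 6 or 8 points, meeting 495 of them in 4 points, 1584 in 6 points and 495 in 8 points. -/
theorem result (d : Finset Cfsg.GolayPt) (hd : d ∈ Cfsg.dodecads) : (∀ d' ∈ Cfsg.dodecads, d' ≠ d → (d ∩ d').card = 0 ∨ (d ∩ d').card = 4 ∨ (d ∩ d').card = 6 ∨ (d ∩ d').card = 8) ∧ {d' : Finset Cfsg.GolayPt | d' ∈ Cfsg.dodecads ∧ (d ∩ d').card = 4}.ncard = 495 ∧ {d' : Finset Cfsg.GolayPt | d' ∈ Cfsg.dodecads ∧ (d ∩ d').card = 6}.ncard = 1584 ∧ {d' : Finset Cfsg.GolayPt | d' ∈ Cfsg.dodecads ∧ (d ∩ d').card = 8}.ncard = 495 := by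
  obtain ⟨b, hb, eo⟩ := dodCoded.exists_base trDod_stab trDod_trans bases_mem.2.2.2.1 hd
  have cnt : ∀ k, {d' : Finset Cfsg.GolayPt | d' ∈ Cfsg.dodecads ∧ (d ∩ d').card = k}.ncard =
      dodObjs.countP (sigQ dodBase (100 ^ k)) := by
    intro k
    refine Eq.trans (congrArg Set.ncard (Set.ext fun d' => ?_)) (dodCoded.sig_ncard hb bases_nice.2.2.2.1 (100 ^ k))
    rw [Set.mem_setOf_eq, Set.mem_setOf_eq, ← eo, sigF_famOne_iff]
  refine ⟨fun d' hd' hne => ?_, ?_, ?_, ?_⟩
  · have := dodCoded.sig_mem bases_nice.2.2.2.1 hb dodDod_classes hd'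
    rw [← eo, show dodDodCls.map Prod.fst = [10000000000000000, 1000000000000, 100000000, 1, 1000000000000000000000000] by decide +kernel] at this
    simp only [List.mem_cons, List.not_mem_nil, or_false] at this
    have hk : (d ∩ d').card ≠ 12 := fun e => by
      have h1 : d ∩ d' = d := Finset.eq_of_subset_of_card_le Finset.inter_subset_left (by rw [e, hd.2])
      have h2 : d ∩ d' = d' := Finset.eq_of_subset_of_card_le Finset.inter_subset_right (by rw [e, hd'.2])
      exact hne (h2.symm.trans h1)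
    rw [sigF_one_one] at this
    have h' : ∀ k, 100 ^ (d ∩ d').card = 100 ^ k → (d ∩ d').card = k := fun k e =>
      Nat.pow_right_injective (by norm_num : 2 ≤ 100) e
    rcases this with h | h | h | h | h
    · rw [show (10000000000000000 : ℕ) = 100 ^ 8 from by norm_num] at h
      exact Or.inr (Or.inr (Or.inr (h' 8 h)))
    · rw [show (1000000000000 : ℕ) = 100 ^ 6 from by norm_num] at h
      exact Or.inr (Or.inr (Or.inl (h' 6 h)))
    · rw [show (100000000 : ℕ) = 100 ^ 4 from by norm_num] at h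
      exact Or.inr (Or.inl (h' 4 h))
    · rw [show (1 : ℕ) = 100 ^ 0 from by norm_num] at h
      exact Or.inl (h' 0 h)
    · rw [show (1000000000000000000000000 : ℕ) = 100 ^ 12 from by norm_num] at h
      exact absurd (h' 12 h) hk
  all_goals rw [cnt]; decide +kernel

end Cfsg.Agent.S1560
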