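import Cfsg.Statements.S1562
import Cfsg.Agent.Lib.SporObjUse
import Cfsg.Agent.Lib.SporObjTrans
import Cfsg.Agent.Lib.SporObjPoint
import Cfsg.Agent.Lib.SporObjCertSmall

set_option autoImplicit false
open scoped Pointwise
open Cfsg

namespace Cfsg.Agent.S1562

open CfsgLib.Spor
open scoped Pointwise

/-- Orbits of a triad stabiliser on the triads disjoint from it: the 210 triads inside a common octad with it form one orbit and the remaining 1120 another. -/
theorem result (T : Finset Cfsg.GolayPt) (hT : T.card = 3) : {U : Finset Cfsg.GolayPt | U.card = 3 ∧ Disjoint T U ∧ (∃ o ∈ Cfsg.octads, T ∪ U ⊆ o)}.ncard = 210 ∧ {U : Finset Cfsg.GolayPt | U.card = 3 ∧ Disjoint T U ∧ ¬ (∃ o ∈ Cfsg.octads, T ∪ U ⊆ o)}.ncard = 1120 ∧ ∀ U U' : Finset Cfsg.GolayPt, U.card = 3 → U'.card = 3 → Disjoint T U → Disjoint T U' → ((∃ o ∈ Cfsg.octads, T ∪ U ⊆ o) ↔ (∃ o ∈ Cfsg.octads, T ∪ U' ⊆ o)) → ∃ g : Equiv.Perm Cfsg.GolayPt, g ∈ Cfsg.M24 ∧ g • T = T ∧ g • U = U' := by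
  obtain ⟨c, hc, eT⟩ := triadCoded.exists_base trTriad_stab trTriad_trans bases_mem.2.2.2.2.2.1 hT
  obtain rfl : T = c • setOfMask 7 := famOne_injective (eT.trans (smul_setSet_one c _))
  have dis : ∀ n, Disjoint (c • setOfMask 7) (c • setOfMask n) ↔ meetNum 7 [n] = 0 := fun n => by
    rw [Finset.disjoint_iff_inter_eq_empty, ← Finset.card_eq_zero, card_inter_mask]; rfl
  have prop : ∀ n, [n] ∈ triadObjs → ((∃ o ∈ Cfsg.octads, c • setOfMask 7 ∪ c • setOfMask n ⊆ o) ↔
      (octList.any fun o => Nat.beq (Nat.land o (Nat.lor 7 n)) (Nat.lor 7 n)) = true) := fun n hn => by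
    rw [← Finset.smul_finset_union, ← setOfMask_or]
    exact exists_octad_superset hc (Nat.or_lt_two_pow (by norm_num) (objs_small triadCoded hn))
  refine ⟨?_, ?_, ?_⟩
  · refine Eq.trans (triadCoded.one_ncard hc (fun U => Disjoint (c • setOfMask 7) U ∧
      ∃ o ∈ Cfsg.octads, c • setOfMask 7 ∪ U ⊆ o)
      (fun X => Nat.beq (meetNum 7 X) 0 &&
        octList.any fun o => Nat.beq (Nat.land o (Nat.lor 7 (X.headD 0))) (Nat.lor 7 (X.headD 0))) fun n hn => by
        rw [Bool.and_eq_true, Nat.beq_eq, dis n, prop n hn]; rfl) ?_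
    decide +kernel
  · refine Eq.trans (triadCoded.one_ncard hc (fun U => Disjoint (c • setOfMask 7) U ∧
      ¬ ∃ o ∈ Cfsg.octads, c • setOfMask 7 ∪ U ⊆ o)
      (fun X => Nat.beq (meetNum 7 X) 0 &&
        !(octList.any fun o => Nat.beq (Nat.land o (Nat.lor 7 (X.headD 0))) (Nat.lor 7 (X.headD 0)))) fun n hn => by
        rw [Bool.and_eq_true, Nat.beq_eq, dis n, prop n hn, Bool.not_eq_true', Bool.not_eq_true]; rfl) ?_
    decide +kernel
  intro U U' hU hU' d d' h
  obtain ⟨n, hn, rfl⟩ := triadCoded.one_code hc hU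
  obtain ⟨n', hn', rfl⟩ := triadCoded.one_code hc hU'
  rw [dis] at d d'
  rw [prop n hn, prop n' hn', ← Bool.eq_iff_iff] at h
  have sg : ∀ k, meetNum 7 [k] = 0 → sigL triadBase [k] = 1 := fun k hk => by
    simp only [meetNum, List.headD_cons] at hk
    simp [sigL, triadBase, hk]
  obtain ⟨g, hg, gfix, eg⟩ := triadCoded.one_conj (R := fun _ => true) triadTriad_stab
    (by rw [List.filter_true]; exact triadTriad_classes) hc hn rfl hn' rfl (by
      have l0 : ∀ k, meetNum 7 [k] = 0 → Nat.beq (Nat.land 7 k) 0 = (Nat.land 7 k == 0) := fun k _ => by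
        rw [Bool.eq_iff_iff]; simp
      have e0 : ∀ k, [k] ∈ triadObjs → meetNum 7 [k] = 0 → Nat.land 7 k = 0 := fun k hk hk0 => by
        refine setOfMask_inj (lt_of_le_of_lt Nat.and_le_left (by norm_num)) (by norm_num) ?_
        have := card_setOfMask (7 &&& k)
        rw [show wt (7 &&& k) = 0 from hk0, Finset.card_eq_zero] at this
        rw [show Nat.land 7 k = 7 &&& k from rfl, this]; ext p; simp
      simp only [triadPhi, forceNat_eq, List.headD_cons, e0 n hn d, e0 n' hn' d', sg n d, sg n' d', h])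
  exact ⟨g, hg, set_fixed (gfix triadBase (by simp)), eg⟩

end Cfsg.Agent.S1562
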