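import Cfsg.Statements.S1564
import Cfsg.Agent.Lib.SporObjUse
import Cfsg.Agent.Lib.SporObjTrans
import Cfsg.Agent.Lib.SporObjCertSmall

set_option autoImplicit false
open scoped Pointwise
open Cfsg

namespace Cfsg.Agent.S1564

open CfsgLib.Spor
open scoped Pointwise

/-- The stabiliser of a set of three points (setwise) is a maximal proper subgroup of the group of the length-24 code. -/
theorem result (s : Finset Cfsg.GolayPt) (hs : s.card = 3) : IsCoatom (MulAction.stabilizer Cfsg.M24 s) := by
  exact triadCoded.isCoatom trTriad_stab trTriad_trans triadTriad_stab triadTriad_classes bases_mem.2.2.2.2.2.1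
    (by decide +kernel) (by decide +kernel) hs

end Cfsg.Agent.S1564
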