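import Cfsg.Statements.S1568
import Cfsg.Agent.Lib.SporLeechShells
import Cfsg.Agent.Lib.SporLeechCount
import Cfsg.Agent.Lib.SporMathieu

set_option autoImplicit false
open Cfsg

namespace Cfsg.Agent.S1568
open CfsgLib.Spor
open scoped Pointwise
set_option maxRecDepth 8000

theorem card_parity {s : Finset GolayPt} (hs : s.Nonempty) (r : ℕ) (hr : r < 2) :
    (s.powerset.filter fun n => n.card % 2 = r).card = 2 ^ (s.card - 1) := by
  classical
  obtain ⟨a, ha⟩ := hs
  have hswap : ∀ r, r < 2 → (s.powerset.filter fun n => n.card % 2 = r).card ≤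
      (s.powerset.filter fun n => n.card % 2 = 1 - r).card := by
    intro r hr
    refine Finset.card_le_card_of_injOn (fun n => if a ∈ n then n.erase a else insert a n) ?_ ?_
    · intro n hn
      simp only [Finset.coe_filter, Finset.mem_powerset, Set.mem_setOf_eq] at hn ⊢
      by_cases h : a ∈ n
      · rw [if_pos h, Finset.card_erase_of_mem h]
        have := Finset.card_pos.2 ⟨a, h⟩
        exact ⟨(Finset.erase_subset _ _).trans hn.1, by omega⟩
      · rw [if_neg h, Finset.card_insert_of_notMem h]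
        exact ⟨Finset.insert_subset ha hn.1, by omega⟩
    · intro n _ m _ h
      simp only at h
      by_cases h1 : a ∈ n <;> by_cases h2 : a ∈ m <;> simp only [h1, h2, if_true, if_false] at h
      · exact (Finset.insert_erase h1).symm.trans ((congrArg (insert a) h).trans (Finset.insert_erase h2))
      · exact absurd (h ▸ Finset.mem_insert_self a m) (Finset.notMem_erase a n)
      · exact absurd (h.symm ▸ Finset.mem_insert_self a n) (Finset.notMem_erase a m)
      · exact (Finset.erase_insert h1).symm.trans ((congrArg (fun t => Finset.erase t a) h).trans (Finset.erase_insert h2))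
  have h0 := hswap 0 (by norm_num)
  have h1 := hswap 1 (by norm_num)
  have hsplit := Finset.card_filter_add_card_filter_not (s := s.powerset) (fun n => n.card % 2 = 0)
  have e : s.powerset.filter (fun n => ¬ n.card % 2 = 0) = s.powerset.filter fun n => n.card % 2 = 1 :=
    Finset.filter_congr fun n _ => by omega
  rw [e, Finset.card_powerset] at hsplit
  have hp : 2 ^ s.card = 2 * 2 ^ (s.card - 1) := by
    rw [← pow_succ', Nat.sub_add_cancel (Finset.card_pos.2 ⟨a, ha⟩)]
  simp only [Nat.sub_zero, Nat.sub_self] at h0 h1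
  interval_cases r <;> omega

def twelveV (d : (_ : Finset GolayPt) × Finset GolayPt) : GolayPt → ℤ := shapeTwo d

def threeV (T C : Finset GolayPt) : GolayPt → ℤ :=
  fun p => if p ∈ C then -(if p ∈ T then -3 else 1) else (if p ∈ T then -3 else 1)

def fiveV (q : GolayPt) (C : Finset GolayPt) : GolayPt → ℤ :=
  fun p => if p ∈ C then -(if p = q then 5 else 1) else (if p = q then 5 else 1)

def fourV (o : Finset GolayPt) (q : GolayPt) (n : Finset GolayPt) (s : Bool) : GolayPt → ℤ :=
  fun p => (if p ∈ o then 2 else 0) - (if p ∈ n then 4 else 0) + (if p = q then (if s then 4 else -4) else 0)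

theorem twelve_mem {D n : Finset GolayPt} (hD : D ∈ codeSets) (h12 : D.card = 12) (hn : n ⊆ D)
    (hev : n.card % 2 = 0) : shapeTwo ⟨D, n⟩ ∈ leechLattice ∧ sqNorm (shapeTwo ⟨D, n⟩) = 48 := by
  let b : GolayPt → ℤ := fun p => if p ∈ D then (if p ∈ n then -1 else 1) else 0
  refine ⟨mem_leech.2 ⟨0, b, fun p => ?_, ?_, ?_⟩, ?_⟩
  · simp only [shapeTwo, b]; split_ifs <;> rfl
  · have : ∀ p, shapeTwo ⟨D, n⟩ p = (if p ∈ D then 2 else 0) - (if p ∈ n then 4 else 0) := fun p => by
      simp only [shapeTwo]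
      by_cases ha : p ∈ n
      · simp [ha, hn ha]
      · simp [ha]
    rw [Finset.sum_congr rfl fun p _ => this p, Finset.sum_sub_distrib, sum_ite_mem_const, sum_ite_mem_const, h12]
    omega
  · rw [← mem_codeSets_support]
    convert hD using 1
    ext p
    rw [mem_support₂]
    simp only [oddWord, b]
    split_ifs <;> simp_all
  · have : ∀ p, shapeTwo ⟨D, n⟩ p ^ 2 = if p ∈ D then 4 else 0 := fun p => by
      simp only [shapeTwo]; split_ifs <;> rfl
    rw [sqNorm, Finset.sum_congr rfl fun p _ => this p, sum_ite_mem_const, h12]; rfl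

theorem four_mem {o n : Finset GolayPt} {q : GolayPt} (ho : o ∈ codeSets) (h8 : o.card = 8) (hq : q ∉ o) (hn : n ⊆ o)
    (hodd : n.card % 2 = 1) (s : Bool) : fourV o q n s ∈ leechLattice ∧ sqNorm (fourV o q n s) = 48 := by
  refine ⟨mem_leech.2 ⟨0, fun p => (if p ∈ o then 1 else 0) - (if p ∈ n then 2 else 0) +
      (if p = q then (if s then 2 else -2) else 0), fun p => ?_, ?_, ?_⟩, ?_⟩
  · simp only [fourV]; cases s <;> split_ifs <;> norm_num
  · simp only [fourV, Finset.sum_add_distrib, Finset.sum_sub_distrib, sum_ite_mem_const, Finset.sum_ite_eq',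
      Finset.mem_univ, if_true, h8]
    cases s <;> simp only [Bool.false_eq_true, if_false, if_true] <;> omega
  · rw [← mem_codeSets_support]
    convert ho using 1
    ext p
    rw [mem_support₂]
    simp only [oddWord]
    by_cases h3 : p = q
    · subst h3
      have hpn : p ∉ n := fun h => hq (hn h)
      cases s <;> simp [hq, hpn] <;> decide
    · by_cases h2 : p ∈ n
      · simp [h2, hn h2, h3]
      · by_cases h1 : p ∈ o <;> simp [h1, h2, h3]
  · have : ∀ p, fourV o q n s p ^ 2 = (if p ∈ o then 4 else 0) + (if p = q then 16 else 0) := fun p => by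
      simp only [fourV]
      by_cases h3 : p = q
      · subst h3
        have hpn : p ∉ n := fun h => hq (hn h)
        cases s <;> simp [hq, hpn]
      · by_cases h2 : p ∈ n
        · simp [h2, hn h2, h3]
        · by_cases h1 : p ∈ o <;> simp [h1, h2, h3]
    rw [sqNorm, Finset.sum_congr rfl fun p _ => this p, Finset.sum_add_distrib, sum_ite_mem_const,
      Finset.sum_ite_eq', if_pos (Finset.mem_univ _), h8]
    rfl

theorem base_odd (a : GolayPt → ℤ) (ha : oddWord (fun p => 2 * a p) ∈ golayCode)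
    (hs : (8 : ℤ) ∣ (∑ p, (1 + 4 * a p)) - 4) : (fun p => 1 + 4 * a p) ∈ leechLattice := by
  refine mem_leech.2 ⟨1, fun p => 2 * a p, fun p => by ring, ?_, ha⟩
  simpa using hs

theorem odd_zero (a : GolayPt → ℤ) : oddWord (fun p => 2 * a p) ∈ golayCode := by
  have : oddWord (fun p => 2 * a p) = 0 := by
    funext p
    simp only [oddWord, Pi.zero_apply]
    rw [ZMod.intCast_zmod_eq_zero_iff_dvd]
    exact ⟨a p, rfl⟩
  rw [this]; exact golayCode.zero_mem

theorem three_mem {T C : Finset GolayPt} (hT : T.card = 3) (hC : C ∈ codeSets) :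
    threeV T C ∈ leechLattice ∧ sqNorm (threeV T C) = 48 := by
  refine ⟨?_, ?_⟩
  · have hb : (fun p => if p ∈ T then (-3 : ℤ) else 1) ∈ leechLattice := by
      have e : (fun p => if p ∈ T then (-3 : ℤ) else 1) = fun p => 1 + 4 * (if p ∈ T then -1 else 0) := by
        funext p; split <;> rfl
      rw [e]
      refine base_odd _ (odd_zero _) ?_
      rw [Finset.sum_add_distrib, ← Finset.mul_sum, sum_ite_mem_const, Finset.sum_const, Finset.card_univ,
        card_GolayPt, hT]
      norm_num
    exact sign_mem_leech hC hb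
  · have : ∀ p, threeV T C p ^ 2 = 1 + (if p ∈ T then 8 else 0) := fun p => by
      simp only [threeV]; split_ifs <;> rfl
    rw [sqNorm, Finset.sum_congr rfl fun p _ => this p, Finset.sum_add_distrib, sum_ite_mem_const, Finset.sum_const,
      Finset.card_univ, card_GolayPt, hT]
    rfl

theorem five_mem {C : Finset GolayPt} (q : GolayPt) (hC : C ∈ codeSets) :
    fiveV q C ∈ leechLattice ∧ sqNorm (fiveV q C) = 48 := by
  refine ⟨?_, ?_⟩
  · have hb : (fun p => if p = q then (5 : ℤ) else 1) ∈ leechLattice := by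
      have e : (fun p => if p = q then (5 : ℤ) else 1) = fun p => 1 + 4 * (if p = q then 1 else 0) := by
        funext p; split <;> rfl
      rw [e]
      refine base_odd _ (odd_zero _) ?_
      rw [Finset.sum_add_distrib, ← Finset.mul_sum, Finset.sum_ite_eq', if_pos (Finset.mem_univ _), Finset.sum_const,
        Finset.card_univ, card_GolayPt]
      norm_num
    exact sign_mem_leech hC hb
  · have : ∀ p, fiveV q C p ^ 2 = 1 + (if p = q then 24 else 0) := fun p => by
      simp only [fiveV]; split_ifs <;> rfl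
    rw [sqNorm, Finset.sum_congr rfl fun p _ => this p, Finset.sum_add_distrib, Finset.sum_ite_eq',
      if_pos (Finset.mem_univ _), Finset.sum_const, Finset.card_univ, card_GolayPt]
    rfl


/-- Shape census of the lattice vectors of sum of squares 48 (customary norm 6): the four families (2^12, 0^12), (±3^3, ±1^21), (±4, ±2^8, 0^15) and (±5, ±1^23) have 5275648, 8290304, 3108864 and 98304 members. -/
theorem result : {x : Cfsg.GolayPt → ℤ | x ∈ Cfsg.leechLattice ∧ Cfsg.sqNorm x = 48 ∧ ∀ i, x i = 0 ∨ x i = 2 ∨ x i = -2}.ncard = 5275648 ∧ {x : Cfsg.GolayPt → ℤ | x ∈ Cfsg.leechLattice ∧ Cfsg.sqNorm x = 48 ∧ ∃ i j k, i ≠ j ∧ j ≠ k ∧ i ≠ k ∧ |x i| = 3 ∧ |x j| = 3 ∧ |x k| = 3}.ncard = 8290304 ∧ {x : Cfsg.GolayPt → ℤ | x ∈ Cfsg.leechLattice ∧ Cfsg.sqNorm x = 48 ∧ ∃ i, |x i| = 4}.ncard = 3108864 ∧ {x : Cfsg.GolayPt → ℤ | x ∈ Cfsg.leechLattice ∧ Cfsg.sqNorm x = 48 ∧ ∃ i, |x i| = 5}.ncard = 98304 := by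
  classical
  set S := {x : GolayPt → ℤ | x ∈ leechLattice ∧ sqNorm x = 48} with hS
  set A := {x : GolayPt → ℤ | x ∈ leechLattice ∧ sqNorm x = 48 ∧ ∀ i, x i = 0 ∨ x i = 2 ∨ x i = -2} with hA
  set B := {x : GolayPt → ℤ | x ∈ leechLattice ∧ sqNorm x = 48 ∧
    ∃ i j k, i ≠ j ∧ j ≠ k ∧ i ≠ k ∧ |x i| = 3 ∧ |x j| = 3 ∧ |x k| = 3} with hB
  set C := {x : GolayPt → ℤ | x ∈ leechLattice ∧ sqNorm x = 48 ∧ ∃ i, |x i| = 4} with hC
  set D := {x : GolayPt → ℤ | x ∈ leechLattice ∧ sqNorm x = 48 ∧ ∃ i, |x i| = 5} with hD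
  have hfS : S.Finite := shell_finite 48
  have hfA : A.Finite := hfS.subset fun x h => ⟨h.1, h.2.1⟩
  have hfB : B.Finite := hfS.subset fun x h => ⟨h.1, h.2.1⟩
  have hfC : C.Finite := hfS.subset fun x h => ⟨h.1, h.2.1⟩
  have hfD : D.Finite := hfS.subset fun x h => ⟨h.1, h.2.1⟩
  -- pairwise disjoint
  have hpar : ∀ x ∈ leechLattice, ∀ i j, (2 : ℤ) ∣ x i → (2 : ℤ) ∣ x j := by
    intro x hx i j h
    obtain ⟨m, a, hxa, -, -⟩ := mem_leech.1 hx
    rw [hxa] at h ⊢
    omega
  have habs : ∀ (a : ℤ) (n : ℕ), |a| = (n : ℤ) → a = n ∨ a = -n := fun a n h => (abs_eq (by omega)).1 h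
  have dAB : Disjoint A B := Set.disjoint_left.2 fun x ⟨_, _, h⟩ ⟨_, _, i, _, _, _, _, _, hi, _⟩ => by
    rcases h i with e | e | e <;> rw [e] at hi <;> norm_num at hi
  have dAC : Disjoint A C := Set.disjoint_left.2 fun x ⟨_, _, h⟩ ⟨_, _, i, hi⟩ => by
    rcases h i with e | e | e <;> rw [e] at hi <;> norm_num at hi
  have dAD : Disjoint A D := Set.disjoint_left.2 fun x ⟨_, _, h⟩ ⟨_, _, i, hi⟩ => by
    rcases h i with e | e | e <;> rw [e] at hi <;> norm_num at hi
  have dBC : Disjoint B C := Set.disjoint_left.2 fun x ⟨hx, _, i, _, _, _, _, _, hi, _⟩ ⟨_, _, j, hj⟩ => by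
    have := hpar x hx j i
    rcases habs _ 3 hi with e | e <;> rcases habs _ 4 hj with e' | e' <;> rw [e, e'] at this <;> norm_num at this
  have dCD : Disjoint C D := Set.disjoint_left.2 fun x ⟨hx, _, i, hi⟩ ⟨_, _, j, hj⟩ => by
    have := hpar x hx i j
    rcases habs _ 4 hi with e | e <;> rcases habs _ 5 hj with e' | e' <;> rw [e, e'] at this <;> norm_num at this
  have dBD : Disjoint B D := Set.disjoint_left.2 fun x ⟨_, hn, i, j, k, hij, hjk, hik, hi, hj, hk⟩ ⟨_, _, l, hl⟩ => by
    have hli : l ≠ i := fun e => by rw [e, hi] at hl; norm_num at hl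
    have hlj : l ≠ j := fun e => by rw [e, hj] at hl; norm_num at hl
    have hlk : l ≠ k := fun e => by rw [e, hk] at hl; norm_num at hl
    have hle := Finset.sum_le_sum_of_subset_of_nonneg (f := fun p => x p ^ 2) (Finset.subset_univ {l, i, j, k})
      (fun p _ _ => sq_nonneg _)
    rw [Finset.sum_insert (by simp [hli, hlj, hlk]), Finset.sum_insert (by simp [hij, hik]),
      Finset.sum_pair hjk, ← sq_abs (x l), ← sq_abs (x i), ← sq_abs (x j), ← sq_abs (x k), hl, hi, hj, hk] at hle
    have : (∑ p, x p ^ 2) = 48 := hn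
    rw [this] at hle
    norm_num at hle
  have hsum : A.ncard + B.ncard + C.ncard + D.ncard ≤ 16773120 := by
    rw [← ncard_shell_three, ← hS, ← Set.ncard_union_eq dAB hfA hfB,
      ← Set.ncard_union_eq (Set.disjoint_union_left.2 ⟨dAC, dBC⟩) (hfA.union hfB) hfC,
      ← Set.ncard_union_eq (Set.disjoint_union_left.2 ⟨Set.disjoint_union_left.2 ⟨dAD, dBD⟩, dCD⟩)
        ((hfA.union hfB).union hfC) hfD]
    refine Set.ncard_le_ncard ?_ hfS
    rintro x (((h | h) | h) | h) <;> exact ⟨h.1, h.2.1⟩
  set U := (Set.toFinite codeSets).toFinset with hU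
  have hUm : ∀ {c}, c ∈ U ↔ c ∈ codeSets := fun {c} => Set.Finite.mem_toFinset _
  -- twelve
  have lA : 5275648 ≤ A.ncard := by
    let I := (Set.toFinite dodecads).toFinset.sigma fun s => s.powerset.filter fun n => n.card % 2 = 0
    have hI : I.card = 5275648 := by
      rw [Finset.card_sigma, Finset.sum_congr rfl fun s hs => (card_parity (Finset.card_pos.1 (by
          rw [((Set.Finite.mem_toFinset _).1 hs).2]; norm_num)) 0 (by norm_num)).trans (by
          rw [((Set.Finite.mem_toFinset _).1 hs).2]), Finset.sum_const, ← Set.ncard_eq_toFinset_card, card_dodecads]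
      rfl
    rw [← hI, ← Finset.card_image_of_injOn (f := shapeTwo) (s := I) ?_, ← Set.ncard_coe_finset]
    · refine Set.ncard_le_ncard ?_ hfA
      rintro x hx
      obtain ⟨⟨s, n⟩, hd, rfl⟩ := Finset.mem_image.1 hx
      simp only [I, Finset.mem_sigma, Finset.mem_filter, Finset.mem_powerset, Set.Finite.mem_toFinset] at hd
      obtain ⟨⟨hc, h12⟩, hn, hev⟩ := hd
      refine ⟨(twelve_mem hc h12 hn hev).1, (twelve_mem hc h12 hn hev).2, fun i => ?_⟩
      simp only [shapeTwo]; split_ifs <;> simp
    · intro d hd e he h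
      simp only [I, Finset.coe_sigma, Set.mem_sigma_iff, Finset.mem_coe, Finset.mem_filter, Finset.mem_powerset] at hd he
      exact shape_injective 2 (by norm_num) hd.2.1 he.2.1 h
  have lB : 8290304 ≤ B.ncard := by
    let I := (Finset.univ : Finset GolayPt).powersetCard 3 ×ˢ U
    have hI : I.card = 8290304 := by
      rw [Finset.card_product, Finset.card_powersetCard, Finset.card_univ, card_GolayPt, hU, card_codeSetsFinset]
      rfl
    rw [← hI, ← Finset.card_image_of_injOn (f := fun d => threeV d.1 d.2) (s := I) ?_, ← Set.ncard_coe_finset]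
    · refine Set.ncard_le_ncard ?_ hfB
      rintro x hx
      obtain ⟨⟨T, c⟩, hd, rfl⟩ := Finset.mem_image.1 hx
      simp only [I, Finset.mem_product, Finset.mem_powersetCard] at hd
      obtain ⟨⟨-, hT⟩, hc⟩ := hd
      refine ⟨(three_mem hT (hUm.1 hc)).1, (three_mem hT (hUm.1 hc)).2, ?_⟩
      obtain ⟨i, j, k, hij, hik, hjk, rfl⟩ := Finset.card_eq_three.1 hT
      refine ⟨i, j, k, hij, hjk, hik, ?_, ?_, ?_⟩ <;> simp only [threeV, Finset.mem_insert, Finset.mem_singleton, true_or, or_true, if_true] <;>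
        split <;> rfl
    · rintro ⟨T, c⟩ - ⟨T', c'⟩ - h
      have hp := fun p => congrFun h p
      simp only [threeV] at hp
      have e1 : T = T' := Finset.ext fun p => by
        have := hp p
        by_cases h1 : p ∈ T <;> by_cases h2 : p ∈ T' <;> by_cases h3 : p ∈ c <;> by_cases h4 : p ∈ c' <;>
          simp [h1, h2, h3, h4] at this ⊢
      subst e1
      have e2 : c = c' := Finset.ext fun p => by
        have := hp p
        by_cases h1 : p ∈ T <;> by_cases h3 : p ∈ c <;> by_cases h4 : p ∈ c' <;> simp [h1, h3, h4] at this ⊢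
      rw [e2]
  have lD : 98304 ≤ D.ncard := by
    let I := (Finset.univ : Finset GolayPt) ×ˢ U
    have hI : I.card = 98304 := by
      rw [Finset.card_product, Finset.card_univ, card_GolayPt, hU, card_codeSetsFinset]
    rw [← hI, ← Finset.card_image_of_injOn (f := fun d => fiveV d.1 d.2) (s := I) ?_, ← Set.ncard_coe_finset]
    · refine Set.ncard_le_ncard ?_ hfD
      rintro x hx
      obtain ⟨⟨q, c⟩, hd, rfl⟩ := Finset.mem_image.1 hx
      simp only [I, Finset.mem_product] at hd
      refine ⟨(five_mem q (hUm.1 hd.2)).1, (five_mem q (hUm.1 hd.2)).2, q, ?_⟩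
      simp only [fiveV, if_true]; split <;> rfl
    · rintro ⟨q, c⟩ - ⟨q', c'⟩ - h
      have hp := fun p => congrFun h p
      simp only [fiveV] at hp
      have e1 : q = q' := by
        have := hp q
        by_contra hne
        by_cases h3 : q ∈ c <;> by_cases h4 : q ∈ c' <;> simp [hne, h3, h4] at this
      subst e1
      have e2 : c = c' := Finset.ext fun p => by
        have := hp p
        by_cases h1 : p = q <;> by_cases h3 : p ∈ c <;> by_cases h4 : p ∈ c' <;> simp [h1] at h3 h4 this ⊢ <;>
          simp [h3, h4] at this ⊢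
      rw [e2]
  have lC : 3108864 ≤ C.ncard := by
    let I := ((Set.toFinite octads).toFinset.sigma fun o =>
      (Finset.univ \ o) ×ˢ ((o.powerset.filter fun n => n.card % 2 = 1) ×ˢ (Finset.univ : Finset Bool)))
    have hI : I.card = 3108864 := by
      rw [Finset.card_sigma, Finset.sum_congr rfl fun o ho => show _ = 16 * (128 * 2) by
        have h8 := ((Set.Finite.mem_toFinset _).1 ho).2
        rw [Finset.card_product, Finset.card_product, Finset.card_univ_diff, card_GolayPt, h8,
          card_parity (Finset.card_pos.1 (by rw [h8]; norm_num)) 1 (by norm_num), h8, Finset.card_univ, Fintype.card_bool]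
        norm_num,
        Finset.sum_const, ← Set.ncard_eq_toFinset_card, card_octads]
      rfl
    rw [← hI, ← Finset.card_image_of_injOn (f := fun d => fourV d.1 d.2.1 d.2.2.1 d.2.2.2) (s := I) ?_,
      ← Set.ncard_coe_finset]
    · refine Set.ncard_le_ncard ?_ hfC
      rintro x hx
      obtain ⟨⟨o, q, n, s⟩, hd, rfl⟩ := Finset.mem_image.1 hx
      simp only [I, Finset.mem_sigma, Finset.mem_product, Finset.mem_sdiff, Finset.mem_univ, true_and, and_true,
        Finset.mem_filter, Finset.mem_powerset, Set.Finite.mem_toFinset] at hd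
      obtain ⟨⟨hc, h8⟩, hq, hn, hodd⟩ := hd
      refine ⟨(four_mem hc h8 hq hn hodd s).1, (four_mem hc h8 hq hn hodd s).2, q, ?_⟩
      have hqn : q ∉ n := fun h => hq (hn h)
      cases s <;> simp [fourV, hq, hqn]
    · rintro ⟨o, q, n, s⟩ hd ⟨o', q', n', s'⟩ hd' h
      simp only [I, Finset.coe_sigma, Set.mem_sigma_iff, Finset.mem_coe, Finset.mem_product, Finset.mem_sdiff,
        Finset.mem_univ, true_and, and_true, Finset.mem_filter, Finset.mem_powerset] at hd hd'
      obtain ⟨-, hq, hn, -⟩ := hd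
      obtain ⟨-, hq', hn', -⟩ := hd'
      have hp := fun p => congrFun h p
      simp only [fourV] at hp
      have hqq : q = q' := by
        have := hp q
        have hqn : q ∉ n := fun h => hq (hn h)
        by_contra hne
        by_cases h1 : q ∈ o' <;> by_cases h2 : q ∈ n' <;> cases s <;> simp [hq, hqn, hne, h1, h2] at this <;>
          exact h1 (hn' h2)
      subst hqq
      have hqn : q ∉ n := fun h => hq (hn h)
      have hqn' : q ∉ n' := fun h => hq' (hn' h)
      have hs : s = s' := by
        have := hp q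
        cases s <;> cases s' <;> simp [hq, hqn, hq', hqn'] at this ⊢
      subst hs
      have ho : o = o' := Finset.ext fun p => by
        have := hp p
        by_cases h1 : p ∈ o <;> by_cases h2 : p ∈ o' <;> by_cases h3 : p ∈ n <;> by_cases h4 : p ∈ n' <;>
          simp [h1, h2, h3, h4] at this ⊢
        all_goals first | exact h1 (hn h3) | exact h2 (hn' h4)
      subst ho
      have hnn : n = n' := Finset.ext fun p => by
        have := hp p
        by_cases h3 : p ∈ n <;> by_cases h4 : p ∈ n' <;> simp [h3, h4] at this ⊢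
        all_goals (by_cases h5 : p ∈ o <;> simp [h5] at this)
      subst hnn
      rfl
  refine ⟨?_, ?_, ?_, ?_⟩ <;> omega

end Cfsg.Agent.S1568
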