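import Cfsg.Statements.S1573
import Cfsg.Agent.Lib.SporLeechMoment
import Cfsg.Agent.Lib.SporCo2

set_option autoImplicit false
open Cfsg

namespace Cfsg.Agent.S1573
open CfsgLib.Spor

set_option maxRecDepth 8000
/-- Census of minimal vectors by inner product with a fixed minimal vector: 4600 have customary inner product −2, 47104 have −1, and 93150 are orthogonal. -/
theorem result (v : Cfsg.GolayPt → ℤ) (hv : v ∈ Cfsg.leechLattice) (hvn : Cfsg.sqNorm v = 32) : {w : Cfsg.GolayPt → ℤ | w ∈ Cfsg.leechLattice ∧ Cfsg.sqNorm w = 32 ∧ Cfsg.dotInt v w = -16}.ncard = 4600 ∧ {w : Cfsg.GolayPt → ℤ | w ∈ Cfsg.leechLattice ∧ Cfsg.sqNorm w = 32 ∧ Cfsg.dotInt v w = -8}.ncard = 47104 ∧ {w : Cfsg.GolayPt → ℤ | w ∈ Cfsg.leechLattice ∧ Cfsg.sqNorm w = 32 ∧ Cfsg.dotInt v w = 0}.ncard = 93150 := by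
  classical
  have hset : ∀ k : ℤ, {w : GolayPt → ℤ | w ∈ leechLattice ∧ sqNorm w = 32 ∧ dotInt v w = k}.ncard =
      (minAll.filter fun w => dotInt v w = k).card := fun k => by
    rw [← Set.ncard_coe_finset]
    refine congrArg Set.ncard (Set.ext fun w => ?_)
    simp [mem_minAll, and_assoc]
  set c : ℤ → ℕ := fun k => (minAll.filter fun w => dotInt v w = k).card with hc
  have hneg : ∀ k, c (-k) = c k := fun k => by
    have hm : ∀ w ∈ minAll, -w ∈ minAll := fun w hw => by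
      obtain ⟨h1, h2⟩ := mem_minAll.1 hw
      exact mem_minAll.2 ⟨neg_mem h1, by rw [← h2]; simp [sqNorm]⟩
    have hd : ∀ w, dotInt v (-w) = -dotInt v w := fun w => by simp [dotInt]
    refine Finset.card_nbij' (fun w => -w) (fun w => -w) (fun w hw => ?_) (fun w hw => ?_) (fun w _ => neg_neg w)
      fun w _ => neg_neg w
    · simp only [Finset.coe_filter, Set.mem_setOf_eq] at hw ⊢
      exact ⟨hm w hw.1, by rw [hd, hw.2, neg_neg]⟩
    · simp only [Finset.coe_filter, Set.mem_setOf_eq] at hw ⊢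
      exact ⟨hm w hw.1, by rw [hd, hw.2]⟩
  have hvals : ∀ w ∈ minAll, dotInt v w ∈ ({-32, -16, -8, 0, 8, 16, 32} : Finset ℤ) := fun w hw => by
    obtain ⟨h1, h2⟩ := mem_minAll.1 hw
    obtain ⟨t, ht⟩ := eight_dvd_dotInt hv h1
    have a1 : w = v ∨ 32 ≤ sqNorm (v - w) := by
      by_cases e : w = v
      · exact Or.inl e
      · exact Or.inr (leech_min (sub_mem hv h1) (sub_ne_zero.2 (Ne.symm e)))
    have a2 : w = -v ∨ 32 ≤ sqNorm (v + w) := by
      by_cases e : w = -v
      · exact Or.inl e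
      · exact Or.inr (leech_min (add_mem hv h1) fun h => e (eq_neg_of_add_eq_zero_right h))
    have hvv : dotInt v v = 32 := by rw [← hvn]; exact Finset.sum_congr rfl fun i _ => (pow_two (v i)).symm
    simp only [Finset.mem_insert, Finset.mem_singleton]
    rcases a1 with e | a1
    · rw [e, hvv]; simp
    rcases a2 with e | a2
    · rw [e, show dotInt v (-v) = -dotInt v v by simp [dotInt], hvv]; simp
    rw [sqNorm_sub, hvn, h2] at a1
    rw [sqNorm_add, hvn, h2] at a2
    omega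
  have hone : c 32 = 1 := by
    refine Finset.card_eq_one.2 ⟨v, ?_⟩
    ext w
    simp only [Finset.mem_filter, Finset.mem_singleton, mem_minAll]
    constructor
    · rintro ⟨⟨h1, h2⟩, h3⟩
      by_contra e
      have := leech_min (sub_mem hv h1) (sub_ne_zero.2 (Ne.symm e))
      rw [sqNorm_sub, hvn, h2, h3] at this
      omega
    · rintro rfl
      exact ⟨⟨hv, hvn⟩, by rw [← hvn]; exact Finset.sum_congr rfl fun i _ => (pow_two (w i)).symm⟩
  have hzero : c 0 = 93150 := by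
    rw [show c 0 = _ from (hset 0).symm]
    obtain ⟨a, ha⟩ := exists_smul_min (x := ⟨v, hv⟩) hvn
    obtain ⟨b, hb⟩ := exists_smul_min sqNorm_leechU
    have hg : (b⁻¹ * a) • (⟨v, hv⟩ : ↥leechLattice) = Cfsg.Spor.leechU := by
      rw [mul_smul, ha, ← hb, inv_smul_smul]
    set g := b⁻¹ * a with hgd
    have h := ncard_co2_orbit
    rw [co2_orbit_eq] at h
    suffices e : {w : GolayPt → ℤ | w ∈ leechLattice ∧ sqNorm w = 32 ∧ dotInt v w = 0} =
        Subtype.val '' ((fun x : ↥leechLattice => g⁻¹ • x) ''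
          {x : ↥leechLattice | sqNorm (x : GolayPt → ℤ) = 32 ∧ dotInt (Cfsg.Spor.leechU : GolayPt → ℤ) x = 0}) by
      rw [e, Set.ncard_image_of_injective _ Subtype.val_injective,
        Set.ncard_image_of_injective _ (MulAction.injective g⁻¹)]
      exact h
    refine Set.ext fun w => ?_
    constructor
    · rintro ⟨hw, hwn, hwd⟩
      refine ⟨⟨w, hw⟩, ⟨g • ⟨w, hw⟩, ⟨by rw [Co0_sqNorm]; exact hwn, ?_⟩, inv_smul_smul _ _⟩, rfl⟩
      rw [← hg, dot_smul]; exact hwd
    · rintro ⟨_, ⟨x, ⟨hxn, hxd⟩, rfl⟩, rfl⟩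
      refine ⟨SetLike.coe_mem _, by rw [Co0_sqNorm]; exact hxn, ?_⟩
      rw [show dotInt v ((g⁻¹ • x : ↥leechLattice) : GolayPt → ℤ) =
        dotInt ((g • (⟨v, hv⟩ : ↥leechLattice) : ↥leechLattice) : GolayPt → ℤ)
          ((g • g⁻¹ • x : ↥leechLattice) : GolayPt → ℤ) from (dot_smul g ⟨v, hv⟩ (g⁻¹ • x)).symm, hg, smul_inv_smul]
      exact hxd
  have htot : minAll.card = c (-32) + (c (-16) + (c (-8) + (c 0 + (c 8 + (c 16 + c 32))))) := by
    rw [Finset.card_eq_sum_card_fiberwise (f := fun w => dotInt v w) (t := ({-32, -16, -8, 0, 8, 16, 32} : Finset ℤ))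
      fun w hw => hvals w hw]
    simp [hc]
  have hmom := second_moment v
  rw [← Finset.sum_fiberwise_of_maps_to (g := fun w => dotInt v w) hvals fun w => dotInt v w ^ 2] at hmom
  have hfib : ∀ k : ℤ, ∑ w ∈ minAll.filter (fun w => dotInt v w = k), dotInt v w ^ 2 = (c k : ℤ) * k ^ 2 := fun k => by
    rw [Finset.sum_congr rfl fun w hw => show dotInt v w ^ 2 = k ^ 2 by rw [(Finset.mem_filter.1 hw).2],
      Finset.sum_const, nsmul_eq_mul]
  rw [Finset.sum_congr rfl fun k _ => hfib k, hvn] at hmom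
  norm_num [Finset.sum_insert] at hmom
  rw [card_minAll] at htot
  have e1 : c (-16) = c 16 := hneg 16
  have e2 : c (-8) = c 8 := hneg 8
  have e3 : c (-32) = c 32 := hneg 32
  rw [hset (-16), hset (-8), hset 0]
  show c (-16) = 4600 ∧ c (-8) = 47104 ∧ c 0 = 93150
  refine ⟨?_, ?_, hzero⟩ <;> omega

end Cfsg.Agent.S1573
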