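import Cfsg.Statements.S1578
import Cfsg.Agent.Lib.SporLeechMoment
import Cfsg.Agent.Lib.SporLeechOrbit

set_option autoImplicit false
open Cfsg

namespace Cfsg.Agent.S1578
open CfsgLib.Spor
open scoped Pointwise
set_option maxRecDepth 8000

theorem count_sets (P : Finset GolayPt → Prop) [DecidablePred P] (Pm : ℕ → Bool)
    (h : ∀ m ∈ codeMasks, P (setOfMask m) ↔ Pm m = true) :
    ((Set.toFinite codeSets).toFinset.filter P).card = codeMasks.countP Pm := by
  have e : (Set.toFinite codeSets).toFinset.filter P = (codeMasks.filter Pm).toFinset.image setOfMask := by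
    ext s
    simp only [Finset.mem_filter, Set.Finite.mem_toFinset, Finset.mem_image, List.mem_toFinset, List.mem_filter]
    constructor
    · rintro ⟨hs, hP⟩
      have hm := mem_codeSets_iff.1 hs
      exact ⟨_, ⟨hm, (h _ hm).1 (by rwa [setOfMask_maskOf])⟩, setOfMask_maskOf s⟩
    · rintro ⟨m, ⟨hm, hP⟩, rfl⟩
      exact ⟨setOfMask_mem_codeSets hm, (h m hm).2 hP⟩
  rw [e, Finset.card_image_of_injOn, List.toFinset_card_of_nodup (codeMasks_nodup.filter _), List.countP_eq_length_filter]
  intro a ha b hb hab
  exact setOfMask_inj (codeMasks_lt a (List.mem_filter.1 (List.mem_toFinset.1 ha)).1)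
    (codeMasks_lt b (List.mem_filter.1 (List.mem_toFinset.1 hb)).1) hab

theorem counts_here :
    (codeMasks.countP fun m => Nat.beq (wt m) 8 && m.testBit 23) = 253 ∧
    (codeMasks.countP fun m => Nat.beq (wt m) 16 && !m.testBit 23) = 253 ∧
    (codeMasks.countP fun m => Nat.beq (wt m) 24) = 1 := by decide +kernel

theorem weights {c : Finset GolayPt} (hc : c ∈ codeSets) :
    c.card = 0 ∨ c.card = 8 ∨ c.card = 12 ∨ c.card = 16 ∨ c.card = 24 := by
  have hm := mem_codeSets_iff.1 hc
  have := codeMasks_weights _ hm
  rw [← card_setOfMask, setOfMask_maskOf] at this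
  simpa using this

theorem dot_rep (w : GolayPt → ℤ) :
    dotInt (repThree : GolayPt → ℤ) w = -(∑ p, w p) - 4 * w none := by
  have : ∀ p, (repThree : GolayPt → ℤ) p * w p = -(w p) + (if p = none then -4 * w none else 0) := by
    intro p
    show Cfsg.Spor.vecV p * w p = _
    by_cases hp : p = none
    · subst hp; simp [Cfsg.Spor.vecV]; ring
    · simp [Cfsg.Spor.vecV, hp]
  rw [dotInt, Finset.sum_congr rfl fun p _ => this p, Finset.sum_add_distrib, Finset.sum_neg_distrib,
    Finset.sum_ite_eq', if_pos (Finset.mem_univ _)]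
  ring

theorem sum_four {d : (_ : Finset GolayPt) × Finset GolayPt} (h : d.2 ⊆ d.1) :
    ∑ p, shapeFour d p = 4 * (d.1.card : ℤ) - 8 * d.2.card := by
  have : ∀ p, shapeFour d p = (if p ∈ d.1 then 4 else 0) - (if p ∈ d.2 then 8 else 0) := fun p => by
    simp only [shapeFour]
    by_cases ha : p ∈ d.2
    · simp [ha, h ha]
    · simp [ha]
  rw [Finset.sum_congr rfl fun p _ => this p, Finset.sum_sub_distrib, sum_ite_mem_const, sum_ite_mem_const]
  ring

theorem sum_two {d : (_ : Finset GolayPt) × Finset GolayPt} (h : d.2 ⊆ d.1) :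
    ∑ p, shapeTwo d p = 2 * (d.1.card : ℤ) - 4 * d.2.card := by
  have : ∀ p, shapeTwo d p = (if p ∈ d.1 then 2 else 0) - (if p ∈ d.2 then 4 else 0) := fun p => by
    simp only [shapeTwo]
    by_cases ha : p ∈ d.2
    · simp [ha, h ha]
    · simp [ha]
  rw [Finset.sum_congr rfl fun p _ => this p, Finset.sum_sub_distrib, sum_ite_mem_const, sum_ite_mem_const]
  ring

theorem sum_odd (d : GolayPt × Finset GolayPt) :
    ∑ p, shapeOdd d p = 24 - 2 * (d.2.card : ℤ) + (if d.1 ∈ d.2 then 4 else -4) := by
  have : ∀ p, shapeOdd d p = 1 - (if p ∈ d.2 then 2 else 0) + (if p = d.1 then (if d.1 ∈ d.2 then 4 else -4) else 0) :=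
    fun p => by
    simp only [shapeOdd]
    by_cases hp : p = d.1
    · subst hp; by_cases ha : d.1 ∈ d.2 <;> simp [ha]
    · by_cases ha : p ∈ d.2 <;> simp [ha, hp]
  rw [Finset.sum_congr rfl fun p _ => this p, Finset.sum_add_distrib, Finset.sum_sub_distrib, sum_ite_mem_const,
    Finset.sum_ite_eq', if_pos (Finset.mem_univ _), Finset.sum_const, Finset.card_univ, card_GolayPt]
  ring

theorem count_fours : (minFours.filter fun w => dotInt (repThree : GolayPt → ℤ) w = 24).card = 23 := by
  classical
  have e : minFours.filter (fun w => dotInt (repThree : GolayPt → ℤ) w = 24) =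
      (Finset.univ.erase (none : GolayPt)).image fun x => shapeFour ⟨{none, x}, {none, x}⟩ := by
    ext w
    simp only [Finset.mem_filter, Finset.mem_image, minFours, Finset.mem_sigma, Finset.mem_powersetCard,
      Finset.mem_powerset, Finset.mem_erase, Finset.mem_univ, and_true, Finset.subset_univ, true_and]
    constructor
    · rintro ⟨⟨⟨s, n⟩, ⟨hs, hn⟩, rfl⟩, hd⟩
      simp only at hs hn hd
      rw [dot_rep, sum_four hn] at hd
      have hcard := Finset.card_le_card hn
      have hns : (none : GolayPt) ∈ n ∧ n.card = 2 := by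
        simp only [shapeFour] at hd
        by_cases h1 : (none : GolayPt) ∈ s
        · by_cases h2 : (none : GolayPt) ∈ n
          · rw [if_pos h1, if_pos h2] at hd
            exact ⟨h2, by omega⟩
          · rw [if_pos h1, if_neg h2] at hd; omega
        · rw [if_neg h1] at hd; omega
      have hne : n = s := Finset.eq_of_subset_of_card_le hn (by omega)
      subst hne
      obtain ⟨x, hx⟩ : (n.erase none).Nonempty := Finset.card_pos.1 (by rw [Finset.card_erase_of_mem hns.1]; omega)
      rw [Finset.mem_erase] at hx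
      refine ⟨x, hx.1, ?_⟩
      have : ({none, x} : Finset GolayPt) = n := Finset.eq_of_subset_of_card_le
        (Finset.insert_subset hns.1 (Finset.singleton_subset_iff.2 hx.2)) (by rw [Finset.card_pair hx.1.symm]; omega)
      rw [this]
    · rintro ⟨x, hx, rfl⟩
      have h2 := Finset.card_pair (show (none : GolayPt) ≠ x from fun e => hx e.symm)
      refine ⟨⟨⟨{none, x}, {none, x}⟩, ⟨h2, subset_rfl⟩, rfl⟩, ?_⟩
      rw [dot_rep, sum_four subset_rfl]
      simp only [shapeFour, h2, Finset.mem_insert_self, if_true]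
      norm_num
  rw [e, Finset.card_image_of_injOn, Finset.card_erase_of_mem (Finset.mem_univ _), Finset.card_univ, card_GolayPt]
  intro a ha b hb h
  simp only [Finset.mem_coe, Finset.mem_erase] at ha hb
  have := congrFun h a
  simp only [shapeFour, Finset.mem_insert, Finset.mem_singleton, or_true, if_true] at this
  by_contra hne
  simp [ha.1, hne] at this

theorem count_twos : (minTwos.filter fun w => dotInt (repThree : GolayPt → ℤ) w = 24).card = 253 := by
  classical
  have e : minTwos.filter (fun w => dotInt (repThree : GolayPt → ℤ) w = 24) =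
      ((Set.toFinite codeSets).toFinset.filter fun o => o.card = 8 ∧ (none : GolayPt) ∈ o).image
        fun o => shapeTwo ⟨o, o⟩ := by
    ext w
    simp only [Finset.mem_filter, Finset.mem_image, minTwos, Finset.mem_sigma, Finset.mem_powerset,
      Set.Finite.mem_toFinset]
    constructor
    · rintro ⟨⟨⟨o, n⟩, ⟨ho, hn, hev⟩, rfl⟩, hd⟩
      simp only at ho hn hev hd
      obtain ⟨hc, h8⟩ := ho
      rw [dot_rep, sum_two hn] at hd
      have hcard := Finset.card_le_card hn
      have hno : (none : GolayPt) ∈ o ∧ n.card = 8 := by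
        simp only [shapeTwo] at hd
        by_cases h1 : (none : GolayPt) ∈ o
        · by_cases h2 : (none : GolayPt) ∈ n
          · rw [if_pos h1, if_pos h2] at hd
            exact ⟨h1, by omega⟩
          · rw [if_pos h1, if_neg h2] at hd; omega
        · rw [if_neg h1] at hd; omega
      have hne : n = o := Finset.eq_of_subset_of_card_le hn (by omega)
      subst hne
      exact ⟨n, ⟨hc, h8, hno.1⟩, rfl⟩
    · rintro ⟨o, ⟨hc, h8, hq⟩, rfl⟩
      refine ⟨⟨⟨o, o⟩, ⟨⟨hc, h8⟩, subset_rfl, by rw [h8]; norm_num⟩, rfl⟩, ?_⟩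
      rw [dot_rep, sum_two subset_rfl]
      simp only [shapeTwo, h8, hq, if_true]
      norm_num
  rw [e, Finset.card_image_of_injOn, count_sets _ (fun m => Nat.beq (wt m) 8 && m.testBit 23) (fun m _ => by
    simp [card_setOfMask, mem_setOfMask, show ix (none : GolayPt) = 23 from rfl]), counts_here.1]
  intro a ha b hb h
  ext p
  have := congrFun h p
  simp only [shapeTwo] at this
  by_cases h1 : p ∈ a <;> by_cases h2 : p ∈ b <;> simp_all

theorem count_odds : (minOdds.filter fun w => dotInt (repThree : GolayPt → ℤ) w = 24).card = 276 := by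
  classical
  set U := (Set.toFinite codeSets).toFinset with hU
  let A : Finset (GolayPt × Finset GolayPt) := ({none} : Finset GolayPt) ×ˢ U.filter fun c => c.card = 16 ∧ (none : GolayPt) ∉ c
  let B : Finset (GolayPt × Finset GolayPt) := (Finset.univ.erase (none : GolayPt)) ×ˢ U.filter fun c => c.card = 24
  have e : minOdds.filter (fun w => dotInt (repThree : GolayPt → ℤ) w = 24) = (A ∪ B).image shapeOdd := by
    ext w
    simp only [Finset.mem_filter, Finset.mem_image, minOdds, Finset.mem_product, Finset.mem_univ, true_and,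
      Finset.mem_union, A, B, Finset.mem_singleton, Finset.mem_erase, and_true, hU, Set.Finite.mem_toFinset]
    constructor
    · rintro ⟨⟨⟨p, c⟩, hc, rfl⟩, hd⟩
      refine ⟨⟨p, c⟩, ?_, rfl⟩
      rw [dot_rep, sum_odd] at hd
      simp only [shapeOdd] at hd hc ⊢
      have huniv : c.card = 24 → ∀ x, x ∈ c := fun h x => by
        have : c = Finset.univ := Finset.eq_univ_of_card c (by rw [h, card_GolayPt])
        rw [this]; exact Finset.mem_univ x
      by_cases hp : (none : GolayPt) = p
      · subst hp
        by_cases h2 : (none : GolayPt) ∈ c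
        · simp only [h2, if_true] at hd
          rcases weights hc with h | h | h | h | h <;> omega
        · simp only [h2, if_false, if_true] at hd
          exact Or.inl ⟨rfl, hc, by omega, h2⟩
      · by_cases h2 : (none : GolayPt) ∈ c <;> by_cases h1 : p ∈ c <;>
          simp only [h1, h2, hp, if_false, if_true] at hd
        · exact Or.inr ⟨Ne.symm hp, hc, by omega⟩
        · rcases weights hc with h | h | h | h | h <;> omega
        · rcases weights hc with h | h | h | h | h <;> omega
        · exact absurd (huniv (by omega) p) h1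
    · rintro ⟨⟨p, c⟩, h, rfl⟩
      simp only at h
      rcases h with ⟨rfl, hc, h16, hq⟩ | ⟨hp, hc, h24⟩
      · refine ⟨⟨⟨none, c⟩, hc, rfl⟩, ?_⟩
        rw [dot_rep, sum_odd]
        simp [shapeOdd, h16, hq]
      · refine ⟨⟨⟨p, c⟩, hc, rfl⟩, ?_⟩
        have huniv : c = Finset.univ := Finset.eq_univ_of_card c (by rw [h24, card_GolayPt])
        rw [dot_rep, sum_odd, huniv]
        simp [shapeOdd, Ne.symm hp]
  rw [e, Finset.card_image_of_injOn, Finset.card_union_of_disjoint, Finset.card_product, Finset.card_product,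
    Finset.card_singleton, Finset.card_erase_of_mem (Finset.mem_univ _), Finset.card_univ, card_GolayPt,
    count_sets _ (fun m => Nat.beq (wt m) 16 && !m.testBit 23) (fun m _ => by
      simp [card_setOfMask, mem_setOfMask, show ix (none : GolayPt) = 23 from rfl]),
    count_sets _ (fun m => Nat.beq (wt m) 24) (fun m _ => by simp [card_setOfMask]), counts_here.2.1, counts_here.2.2]
  · rw [Finset.disjoint_left]
    rintro ⟨p, c⟩ h1 h2
    simp only [A, B, Finset.mem_product, Finset.mem_singleton, Finset.mem_erase] at h1 h2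
    exact h2.1.1 h1.1
  · rintro ⟨p, c⟩ - ⟨q, d⟩ - h
    have e1 : p = q := by
      have := congrFun h p
      simp only [shapeOdd, if_true] at this
      by_contra hne
      rw [if_neg hne, if_neg hne] at this
      split_ifs at this <;> omega
    subst e1
    have e2 : c = d := by
      ext i
      have := congrFun h i
      simp only [shapeOdd] at this
      constructor <;> intro hi <;> by_contra hi' <;> simp [hi, hi'] at this <;> split at this <;> omega
    rw [e2]

theorem count_all : (minAll.filter fun w => dotInt (repThree : GolayPt → ℤ) w = 24).card = 552 := by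
  classical
  have hd : Disjoint minFours minTwos ∧ Disjoint (minFours ∪ minTwos) minOdds := by
    have h0 := card_minAll
    have h1 := Finset.card_union_add_card_inter minFours minTwos
    have h2 := Finset.card_union_add_card_inter (minFours ∪ minTwos) minOdds
    rw [minAll] at h0
    rw [card_minFours, card_minTwos] at h1
    rw [h0, card_minOdds] at h2
    rw [Finset.disjoint_iff_inter_eq_empty, Finset.disjoint_iff_inter_eq_empty, ← Finset.card_eq_zero, ← Finset.card_eq_zero]
    omega
  rw [minAll, Finset.filter_union, Finset.filter_union, Finset.card_union_of_disjoint, Finset.card_union_of_disjoint,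
    count_fours, count_twos, count_odds]
  · exact Finset.disjoint_filter_filter hd.1
  · rw [← Finset.filter_union]; exact Finset.disjoint_filter_filter hd.2


/-- A lattice vector of customary norm 6 is the sum of an unordered pair of minimal vectors in exactly 276 ways (552 ordered summands). -/
theorem result (u : ↥Cfsg.leechLattice) (hu : Cfsg.sqNorm (u : Cfsg.GolayPt → ℤ) = 48) : {v : ↥Cfsg.leechLattice | Cfsg.sqNorm (v : Cfsg.GolayPt → ℤ) = 32 ∧ Cfsg.sqNorm ((u - v) : Cfsg.GolayPt → ℤ) = 32}.ncard = 552 := by
  classical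
  obtain ⟨g, hg⟩ := exists_smul_three hu
  have hsub : ∀ a b : leechLattice, g • (a - b) = g • a - g • b := by
    intro a b
    have h : g • (a - b + b) = g • (a - b) + g • b := g.2.1 (a - b) b
    rw [sub_add_cancel] at h
    rw [h, add_sub_cancel_right]
  have hdot : ∀ v : leechLattice, sqNorm (v : GolayPt → ℤ) = 32 →
      (sqNorm ((u - v : leechLattice) : GolayPt → ℤ) = 32 ↔
        dotInt (repThree : GolayPt → ℤ) ((g • v : leechLattice) : GolayPt → ℤ) = 24) := by
    intro v hv
    rw [← Co0_sqNorm g (u - v), hsub, hg, AddSubgroup.coe_sub]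
    have h : sqNorm ((repThree : GolayPt → ℤ) - ((g • v : leechLattice) : GolayPt → ℤ)) =
        sqNorm (repThree : GolayPt → ℤ) + sqNorm ((g • v : leechLattice) : GolayPt → ℤ) -
          2 * dotInt (repThree : GolayPt → ℤ) ((g • v : leechLattice) : GolayPt → ℤ) := by
      simp only [sqNorm, dotInt, Pi.sub_apply, Finset.mul_sum]
      rw [← Finset.sum_add_distrib, ← Finset.sum_sub_distrib]
      exact Finset.sum_congr rfl fun i _ => by ring
    rw [h, sqNorm_repThree, Co0_sqNorm, hv]
    omega
  rw [← count_all, ← Set.ncard_coe_finset]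
  refine Set.ncard_congr (fun v _ => ((g • v : leechLattice) : GolayPt → ℤ)) ?_ ?_ ?_
  · rintro v ⟨hv, hv'⟩
    simp only [Finset.coe_filter, Set.mem_setOf_eq]
    exact ⟨mem_minAll.2 ⟨(g • v).2, by rw [Co0_sqNorm, hv]⟩, (hdot v hv).1 hv'⟩
  · intro a b _ _ h
    exact smul_left_cancel g (Subtype.ext h)
  · intro w hw
    simp only [Finset.coe_filter, Set.mem_setOf_eq] at hw
    obtain ⟨hL, hn⟩ := mem_minAll.1 hw.1
    have hv : sqNorm ((g⁻¹ • (⟨w, hL⟩ : leechLattice) : leechLattice) : GolayPt → ℤ) = 32 := by
      rw [Co0_sqNorm]; exact hn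
    refine ⟨g⁻¹ • ⟨w, hL⟩, ⟨hv, ?_⟩, by rw [smul_inv_smul]⟩
    exact (hdot _ hv).2 (by rw [smul_inv_smul]; exact hw.2)

end Cfsg.Agent.S1578
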