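import Cfsg.Statements.S1587

set_option autoImplicit false
open Matrix
open Cfsg

namespace Cfsg.Agent.S1587

/-- First step of the characterisation of the rank-24 lattice: in an even lattice without roots, norm-8 vectors congruent modulo 2 are equal, opposite or orthogonal. -/
theorem result (B : Matrix (Fin 24) (Fin 24) ℤ) (hsymm : B.IsSymm) (hpos : ∀ x : Fin 24 → ℤ, x ≠ 0 → 0 < x ⬝ᵥ (B *ᵥ x)) (heven : ∀ x : Fin 24 → ℤ, (2 : ℤ) ∣ x ⬝ᵥ (B *ᵥ x)) (h2 : ∀ x : Fin 24 → ℤ, x ⬝ᵥ (B *ᵥ x) ≠ 2) (x y : Fin 24 → ℤ) (hx : x ⬝ᵥ (B *ᵥ x) = 8) (hy : y ⬝ᵥ (B *ᵥ y) = 8) (hc : ∀ i, (2 : ℤ) ∣ (x - y) i) : y = x ∨ y = -x ∨ x ⬝ᵥ (B *ᵥ y) = 0 := by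
  choose z hz using hc
  have hxy : x = y + (2 : ℤ) • z := by
    funext i
    have := hz i
    simp only [Pi.sub_apply] at this
    simp only [Pi.add_apply, Pi.smul_apply, smul_eq_mul]
    linarith
  by_cases h0 : z = 0
  · exact Or.inl (by rw [hxy, h0, smul_zero, add_zero])
  by_cases h1 : z + y = 0
  · refine Or.inr (Or.inl ?_)
    rw [hxy, eq_neg_of_add_eq_zero_left h1]
    funext i; simp; ring
  refine Or.inr (Or.inr ?_)
  have min4 : ∀ u : Fin 24 → ℤ, u ≠ 0 → 4 ≤ u ⬝ᵥ (B *ᵥ u) := fun u hu => by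
    have := hpos u hu; have := heven u; have := h2 u; omega
  have sym : ∀ u v : Fin 24 → ℤ, u ⬝ᵥ (B *ᵥ v) = v ⬝ᵥ (B *ᵥ u) := fun u v => by
    rw [Matrix.dotProduct_mulVec, ← Matrix.mulVec_transpose, hsymm.eq, dotProduct_comm]
  have e1 := min4 z h0
  have e2 := min4 (z + y) h1
  subst hxy
  simp only [Matrix.mulVec_add, Matrix.mulVec_smul, dotProduct_add, add_dotProduct, smul_dotProduct,
    dotProduct_smul, smul_eq_mul] at hx hy e2 ⊢
  rw [sym y z] at *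
  omega

end Cfsg.Agent.S1587
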