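import Cfsg.Statements.S1595
import Cfsg.Agent.Lib.SporSteiner

set_option autoImplicit false
open Cfsg

namespace Cfsg.Agent.S1595

open CfsgLib.Spor.Steiner Finset

/-- Leech triangle of S(5, 6, 12): blocks meet in 0, 2, 3 or 4 points, and a block is met exactly in a given 2-, 3- or 4-subset by 3, 2, 3 blocks respectively. -/
theorem result {α : Type*} [Fintype α] [DecidableEq α] (hα : Fintype.card α = 12) {B : Set (Finset α)} (hB : Cfsg.IsSteinerSystem 5 6 B) (b : Finset α) (hb : b ∈ B) : (∀ c ∈ B, c ≠ b → (b ∩ c).card = 0 ∨ (b ∩ c).card = 2 ∨ (b ∩ c).card = 3 ∨ (b ∩ c).card = 4) ∧ ∀ s ⊆ b, (s.card = 2 → {c : Finset α | c ∈ B ∧ b ∩ c = s}.ncard = 3) ∧ (s.card = 3 → {c : Finset α | c ∈ B ∧ b ∩ c = s}.ncard = 2) ∧ (s.card = 4 → {c : Finset α | c ∈ B ∧ b ∩ c = s}.ncard = 3) := by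
  classical
  obtain ⟨-, e1, -⟩ := inter_5_6_12 hα hB hb
  refine ⟨fun c hc hne => ?_, fun s hs => ?_⟩
  · have := inter_lt hB hb hc hne.symm
    have := size_ne hB hb hc hne.symm 1 e1
    omega
  set Y := b \ s with hY
  set A := ((bl B).erase b).filter (s ⊆ ·) with hA
  set n := fun i => (A.filter fun c => (c ∩ Y).card = i).card with hn
  have hin : ∀ c, s ⊆ c → (c ∩ b).card = s.card + (c ∩ Y).card := by
    intro c hsc
    rw [← card_union_of_disjoint]
    · congr 1
      ext x
      have h1 : x ∈ s → x ∈ c := @hsc x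
      have h2 : x ∈ s → x ∈ b := @hs x
      simp [hY]
      tauto
    · rw [Finset.disjoint_left]
      intro x h1 h2
      simp [hY, h1] at h2
  have hYc : Y.card = 6 - s.card := by rw [hY, card_sdiff_of_subset hs, hB.1 b hb]
  have hm : ∀ j L, s.card + j ≤ 5 → L * (6 - (s.card + j)).choose (5 - (s.card + j)) = (12 - (s.card + j)).choose (5 - (s.card + j)) →
      (6 - s.card).choose j + ∑ i ∈ range (5 - s.card), n i * i.choose j = (6 - s.card).choose j * L := by
    intro j L hj hL
    have h := moment hB s Y disjoint_sdiff j L hj (by omega) (by rw [hα]; exact hL)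
    rw [hYc] at h
    rw [← h, ← add_sum_erase _ _ (mem_filter.2 ⟨mem_bl.2 hb, hs⟩), inter_eq_right.2 (sdiff_subset : Y ⊆ b), hYc]
    congr 1
    rw [show ((bl B).filter (s ⊆ ·)).erase b = A from by rw [hA, filter_erase],
      sum_by_size A (fun c => (c ∩ Y).card) (·.choose j) (5 - s.card) fun c hc => ?_]
    rw [hA, mem_filter, mem_erase, mem_bl] at hc
    have := inter_lt hB hc.1.2 hb hc.1.1
    have := hin c hc.2
    omega
  have hz : s.card < 6 → {c : Finset α | c ∈ B ∧ b ∩ c = s}.ncard = n 0 := by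
    intro hlt
    rw [ncard_eq, hn, hA]
    congr 1
    ext c
    simp only [mem_filter, mem_erase, mem_bl, card_eq_zero]
    constructor
    · rintro ⟨h1, h2⟩
      refine ⟨⟨⟨fun e => ?_, h1⟩, ?_⟩, ?_⟩
      · rw [e, inter_self] at h2; rw [← h2, hB.1 b hb] at hlt; omega
      · rw [← h2]; exact inter_subset_right
      · ext x
        simp [hY, ← h2]
    · rintro ⟨⟨⟨-, h1⟩, h2⟩, h3⟩
      refine ⟨h1, ?_⟩
      ext x
      constructor
      · intro hx
        simp only [mem_inter] at hx
        by_contra hxs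
        exact notMem_empty x (h3 ▸ mem_inter.2 ⟨hx.2, mem_sdiff.2 ⟨hx.1, hxs⟩⟩)
      · intro hx
        exact mem_inter.2 ⟨hs hx, h2 hx⟩
  refine ⟨fun h => ?_, fun h => ?_, fun h => ?_⟩ <;> rw [hz (by omega)]
  · have h0 := hm 0 30 (by omega) (by rw [h]; decide)
    have h1 := hm 1 12 (by omega) (by rw [h]; decide)
    have h2 := hm 2 4 (by omega) (by rw [h]; decide)
    rw [h] at h0 h1 h2
    simp [sum_range_succ, Nat.choose, -Finset.card_eq_zero] at h0 h1 h2
    omega
  · have h0 := hm 0 12 (by omega) (by rw [h]; decide)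
    have h1 := hm 1 4 (by omega) (by rw [h]; decide)
    rw [h] at h0 h1
    simp [sum_range_succ, Nat.choose, -Finset.card_eq_zero] at h0 h1
    omega
  · have h0 := hm 0 4 (by omega) (by rw [h]; decide)
    rw [h] at h0
    simp [sum_range_succ, Nat.choose, -Finset.card_eq_zero] at h0
    omega

end Cfsg.Agent.S1595
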