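import Cfsg.Statements.S1596
import Cfsg.Agent.Lib.SporQuartetBase

set_option autoImplicit false
open scoped Pointwise
open Cfsg

namespace Cfsg.Agent.S1596

open CfsgLib.Spor
open scoped Pointwise

/-- A quartet of a dodecad is determined by any two of its triples: two disjoint triples uniting to a hexad extend to exactly one quartet. -/
theorem result (d : Finset Cfsg.GolayPt) (hd : d ∈ Cfsg.dodecads) (t u : Finset Cfsg.GolayPt) (ht : t.card = 3) (hu : u.card = 3) (htu : Disjoint t u) (hh : t ∪ u ∈ Cfsg.hexadsOn d) : ∃! Q : Finset (Finset Cfsg.GolayPt), Q ∈ Cfsg.quartets d ∧ t ∈ Q ∧ u ∈ Q := by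
  obtain ⟨b, hb, e⟩ := dodCoded.exists_base trDod_stab trDod_trans bases_mem.2.2.2.1 hd
  obtain rfl : d = b • setOfMask 8419127 := famOne_injective (e.trans (smul_setSet_one b _))
  obtain ⟨-, ⟨k, hk, ek⟩⟩ := hh
  have sub : t ⊆ b • setOfMask 8419127 ∧ u ⊆ b • setOfMask 8419127 := by
    have : t ∪ u ⊆ b • setOfMask 8419127 := by rw [← ek]; exact Finset.inter_subset_right
    exact ⟨(Finset.union_subset_iff.1 this).1, (Finset.union_subset_iff.1 this).2⟩
  obtain ⟨m, hm, rfl⟩ := triadCoded.one_code hb ht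
  obtain ⟨n, hn, rfl⟩ := triadCoded.one_code hb hu
  have hm' := objs_small triadCoded hm
  have hn' := objs_small triadCoded hn
  have chk : (triD.all fun m => forceNat m fun m => triD.all fun n => forceNat n fun n =>
      !(Nat.beq (Nat.land m n) 0 && isHexD (Nat.lor m n)) ||
        Nat.beq (quartList.countP fun X => memL m X && memL n X) 1) = true := by decide +kernel
  have mtri : ∀ k, [k] ∈ triadObjs → b • setOfMask k ⊆ b • setOfMask 8419127 → k ∈ triD := fun k hk hsub => by
    refine List.mem_filter.2 ⟨List.mem_map.2 ⟨[k], hk, rfl⟩, ?_⟩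
    rw [Nat.beq_eq]
    exact (subset_smul_mask (objs_small triadCoded hk)).1 hsub
  have h1 := List.all_eq_true.1 chk m (mtri m hm sub.1)
  rw [forceNat_eq, List.all_eq_true] at h1
  have h2 := h1 n (mtri n hn sub.2)
  rw [forceNat_eq, Bool.or_eq_true, Bool.not_eq_true', Nat.beq_eq] at h2
  rcases h2 with h2 | h2
  · exfalso
    rw [Bool.eq_false_iff] at h2
    refine h2 ?_
    rw [Bool.and_eq_true, Nat.beq_eq]
    constructor
    · refine setOfMask_inj (lt_of_le_of_lt Nat.and_le_left hm') (by norm_num) ?_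
      rw [show Nat.land m n = m &&& n from rfl, setOfMask_and]
      have hd' : Disjoint (b • setOfMask m) (b • setOfMask n) := htu
      rw [Finset.disjoint_iff_inter_eq_empty, ← Finset.smul_finset_inter] at hd'
      rw [show setOfMask m ∩ setOfMask n = b⁻¹ • (b • (setOfMask m ∩ setOfMask n)) by rw [inv_smul_smul], hd',
        Finset.smul_finset_empty]
      ext x; simp
    · have hx : setOfMask (m ||| n) ∈ Cfsg.hexadsOn (setOfMask 8419127) := by
        have h' := smul_mem_hexadsOn (inv_mem hb)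
          (show b • setOfMask m ∪ b • setOfMask n ∈ Cfsg.hexadsOn (b • setOfMask 8419127) from
            ⟨by rw [Finset.card_union_of_disjoint htu, ht, hu], k, hk, ek⟩)
        rwa [← Finset.smul_finset_union, inv_smul_smul, inv_smul_smul, ← setOfMask_or] at h'
      have := mem_hexadsOn_base.1 hx
      rwa [maskOf_setOfMask (Nat.or_lt_two_pow hm' hn')] at this
  have hcount := quartets_ncard hb (fun Q => b • setOfMask m ∈ Q ∧ b • setOfMask n ∈ Q)
    (fun X => memL m X && memL n X) fun X hX => by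
      have hXn := smallL_iff.1 (niceL_iff.1 (quart_spec hX).1).1
      have key : ∀ j, j < 2 ^ 24 → (b • setOfMask j ∈ b • setSet X ↔ j ∈ X) := fun j hj => by
        rw [Finset.smul_mem_smul_finset_iff, mem_setSet]
        exact ⟨fun ⟨i, hi, e⟩ => (setOfMask_inj (hXn i hi) hj e) ▸ hi, fun h => ⟨j, h, rfl⟩⟩
      rw [Bool.and_eq_true, memL_iff, memL_iff, key m hm', key n hn']
  rw [h2] at hcount
  obtain ⟨Q, hQ⟩ := Set.ncard_eq_one.1 hcount
  have hmem : Q ∈ {Q | Q ∈ Cfsg.quartets (b • setOfMask 8419127) ∧ b • setOfMask m ∈ Q ∧ b • setOfMask n ∈ Q} := by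
    rw [hQ]; rfl
  exact ⟨Q, hmem, fun Q' hQ' => by
    have : Q' ∈ {Q | Q ∈ Cfsg.quartets (b • setOfMask 8419127) ∧ b • setOfMask m ∈ Q ∧ b • setOfMask n ∈ Q} := hQ'
    rw [hQ] at this; exact this⟩

end Cfsg.Agent.S1596
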