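import Cfsg.Statements.S1597
import Cfsg.Agent.Lib.SporQuartetBase

set_option autoImplicit false
open scoped Pointwise
open Cfsg

namespace Cfsg.Agent.S1597

open CfsgLib.Spor
open scoped Pointwise

/-- A dodecad has 220 quartets and its stabiliser is transitive on them. -/
theorem result (d : Finset Cfsg.GolayPt) (hd : d ∈ Cfsg.dodecads) : (Cfsg.quartets d).ncard = 220 ∧ ∀ Q ∈ Cfsg.quartets d, ∀ Q' ∈ Cfsg.quartets d, ∃ g : Equiv.Perm Cfsg.GolayPt, g ∈ Cfsg.M24 ∧ g • d = d ∧ g • Q = Q' := by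
  obtain ⟨b, hb, e⟩ := dodCoded.exists_base trDod_stab trDod_trans bases_mem.2.2.2.1 hd
  obtain rfl : d = b • setOfMask 8419127 := famOne_injective (e.trans (smul_setSet_one b _))
  refine ⟨?_, fun Q hQ Q' hQ' => ?_⟩
  · have h := quartets_ncard hb (fun _ => True) (fun _ => true) (by simp)
    simpa [show quartList.length = 220 by decide +kernel] using h
  obtain ⟨X, hX, rfl⟩ := (quartets_code hb).1 hQ
  obtain ⟨Y, hY, rfl⟩ := (quartets_code hb).1 hQ'
  obtain ⟨g, hg, hfix, eg⟩ := quart_conj quartTrans_stab quartTrans_classes hb hX hY rfl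
  exact ⟨g, hg, set_fixed (hfix dodBase (by simp)), eg⟩

end Cfsg.Agent.S1597
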