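import Cfsg.Statements.S1598
import Cfsg.Agent.Lib.SporQuartet

set_option autoImplicit false
open scoped Pointwise
open Cfsg

namespace Cfsg.Agent.S1598

open CfsgLib.Spor
open scoped Pointwise

/-- A quartet stabiliser inside the dodecad stabiliser has order 432, a normal subgroup of order 9 with quotient GL(2, 3), and is transitive on the dodecad. -/
theorem result (d : Finset Cfsg.GolayPt) (hd : d ∈ Cfsg.dodecads) (Q : Finset (Finset Cfsg.GolayPt)) (hQ : Q ∈ Cfsg.quartets d) : Nat.card ↥(MulAction.stabilizer Cfsg.M24 d ⊓ MulAction.stabilizer Cfsg.M24 Q) = 432 ∧ (∃ (N : Subgroup ↥(MulAction.stabilizer Cfsg.M24 d ⊓ MulAction.stabilizer Cfsg.M24 Q)) (_ : N.Normal), Nat.card N = 9 ∧ Nonempty (↥(MulAction.stabilizer Cfsg.M24 d ⊓ MulAction.stabilizer Cfsg.M24 Q) ⧸ N ≃* GL (Fin 2) (ZMod 3))) ∧ ∀ p ∈ d, ∀ q ∈ d, ∃ g ∈ (MulAction.stabilizer Cfsg.M24 d ⊓ MulAction.stabilizer Cfsg.M24 Q), ((g : ↥Cfsg.M24) : Equiv.Perm Cfsg.GolayPt)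 p = q := by
  obtain ⟨c, hc, rfl, rfl⟩ := quart_align hd hQ
  set K := MulAction.stabilizer Cfsg.M24 (c • setOfMask 8419127) ⊓ MulAction.stabilizer Cfsg.M24 (c • setSet quartBase)
  have fwd : ∀ g : ↥K, c⁻¹ * ((g : Cfsg.M24) : P24) * c ∈ quartK := fun g => by
    have gd : ((g : Cfsg.M24) : P24) • (c • setOfMask 8419127) = c • setOfMask 8419127 := g.2.1
    have gQ : ((g : Cfsg.M24) : P24) • (c • setSet quartBase) = c • setSet quartBase := g.2.2
    refine mem_quartK.2 ⟨mul_mem (mul_mem (inv_mem hc) (g : Cfsg.M24).2) hc, ?_, ?_⟩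
    · rw [mul_smul, mul_smul, gd, inv_smul_smul]
    · rw [mul_smul, mul_smul, gQ, inv_smul_smul]
  have bwd : ∀ g : ↥quartK, ∃ k : ↥K, c⁻¹ * ((k : Cfsg.M24) : P24) * c = g := fun g => by
    obtain ⟨h1, h2, h3⟩ := mem_quartK.1 g.2
    refine ⟨⟨⟨c * g * c⁻¹, mul_mem (mul_mem hc h1) (inv_mem hc)⟩, ?_, ?_⟩, by group⟩
    · show (c * (g : P24) * c⁻¹) • (c • setOfMask 8419127) = c • setOfMask 8419127
      rw [mul_smul, mul_smul, inv_smul_smul, h2]
    · show (c * (g : P24) * c⁻¹) • (c • setSet quartBase) = c • setSet quartBase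
      rw [mul_smul, mul_smul, inv_smul_smul, h3]
  let ψ : ↥K →* ↥quartK :=
    { toFun := fun g => ⟨c⁻¹ * ((g : Cfsg.M24) : P24) * c, fwd g⟩
      map_one' := Subtype.ext (by simp)
      map_mul' := fun a b => Subtype.ext (by
        show c⁻¹ * (((a * b : ↥K) : Cfsg.M24) : P24) * c =
          c⁻¹ * ((a : Cfsg.M24) : P24) * c * (c⁻¹ * ((b : Cfsg.M24) : P24) * c)
        simp [mul_assoc]) }
  have ψb : Function.Bijective ψ := by
    refine ⟨fun a b e => ?_, fun g => ?_⟩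
    · have e' : c⁻¹ * ((a : Cfsg.M24) : P24) * c = c⁻¹ * ((b : Cfsg.M24) : P24) * c := congrArg Subtype.val e
      exact Subtype.ext (Subtype.ext (mul_left_cancel (mul_right_cancel e')))
    · obtain ⟨k, hk⟩ := bwd g
      exact ⟨k, Subtype.ext hk⟩
  have hsurj : Function.Surjective (quartGL.comp ψ) := quartGL_surjective.comp ψb.2
  have hcard : Nat.card ↥K = 432 := (Nat.card_congr (Equiv.ofBijective ψ ψb)).trans card_quartK
  refine ⟨hcard, ⟨(quartGL.comp ψ).ker, inferInstance, ?_,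
    ⟨QuotientGroup.quotientKerEquivOfSurjective _ hsurj⟩⟩, ?_⟩
  · rw [← card_quartGL_ker]
    exact Nat.card_congr ((Equiv.ofBijective ψ ψb).subtypeEquiv fun g => Iff.rfl)
  intro p hp q hq
  obtain ⟨i, hi, rfl⟩ := exists_pt (h := c) p
  obtain ⟨j, hj, rfl⟩ := exists_pt (h := c) q
  rw [mem_smul_mask _ _ hi] at hp
  rw [mem_smul_mask _ _ hj] at hq
  obtain ⟨g, hg, hfix, e⟩ := pt_conj quartPt_stab quartPt_classes hc hi (inMask_two_pow hi hp) hj (inMask_two_pow hj hq)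
  exact ⟨⟨g, hg⟩, ⟨set_fixed (hfix dodBase (by simp)), hfix quartBase (by simp)⟩, e⟩

end Cfsg.Agent.S1598
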