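import Cfsg.Statements.S1599
import Cfsg.Agent.Lib.SporQuartetBase

set_option autoImplicit false
open scoped Pointwise
open Cfsg

namespace Cfsg.Agent.S1599

open CfsgLib.Spor
set_option maxRecDepth 20000
attribute [local irreducible] quartList
open scoped Pointwise

/-- A quartet stabiliser has five orbits on the quartets of its dodecad, of sizes 1, 12, 27, 72, 108. -/
theorem result (d : Finset Cfsg.GolayPt) (hd : d ∈ Cfsg.dodecads) (Q : Finset (Finset Cfsg.GolayPt)) (hQ : Q ∈ Cfsg.quartets d) : ∃ X₁ ∈ Cfsg.quartets d, ∃ X₂ ∈ Cfsg.quartets d, ∃ X₃ ∈ Cfsg.quartets d, ∃ X₄ ∈ Cfsg.quartets d, (MulAction.orbit ↥(MulAction.stabilizer Cfsg.M24 d ⊓ MulAction.stabilizer Cfsg.M24 Q) X₁).ncard = 12 ∧ (MulAction.orbit ↥(MulAction.stabilizer Cfsg.M24 d ⊓ MulAction.stabilizer Cfsg.M24 Q) X₂).ncard = 27 ∧ (MulAction.orbit ↥(MulAction.stabilizer Cfsg.M24 d ⊓ MulAction.stabilizer Cfsg.M24 Q) X₃).ncard = 72 ∧ (MulAction.orbit ↥(MulAction.stabilizer Cfsg.M24 d ⊓ MulAction.stabilizer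 Cfsg.M24 Q) X₄).ncard = 108 ∧ Cfsg.quartets d = {Q} ∪ MulAction.orbit ↥(MulAction.stabilizer Cfsg.M24 d ⊓ MulAction.stabilizer Cfsg.M24 Q) X₁ ∪ MulAction.orbit ↥(MulAction.stabilizer Cfsg.M24 d ⊓ MulAction.stabilizer Cfsg.M24 Q) X₂ ∪ MulAction.orbit ↥(MulAction.stabilizer Cfsg.M24 d ⊓ MulAction.stabilizer Cfsg.M24 Q) X₃ ∪ MulAction.orbit ↥(MulAction.stabilizer Cfsg.M24 d ⊓ MulAction.stabilizer Cfsg.M24 Q) X₄ := by
  obtain ⟨c, hc, rfl, rfl⟩ := quart_align hd hQ
  set K := MulAction.stabilizer Cfsg.M24 (c • setOfMask 8419127) ⊓ MulAction.stabilizer Cfsg.M24 (c • setSet quartBase)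
  have nice : niceL quartBase = true := (quart_spec quartBase_mem).1
  have val : ∀ X ∈ quartList, sigF (c • setSet quartBase) (c • setSet X) = sigL quartBase X := fun X hX => by
    rw [sigF_smul, sigF_setSet nice (quart_spec hX).1]
  have cnt : ∀ v, {Q | Q ∈ Cfsg.quartets (c • setOfMask 8419127) ∧ sigF (c • setSet quartBase) Q = v}.ncard =
      quartList.countP (sigQ quartBase v) := fun v =>
    quartets_ncard hc _ _ fun X hX => by rw [sigQ, Nat.beq_eq, val X hX]
  have orb : ∀ v n, quartList.countP (sigQ quartBase v) = n → 0 < n →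
      ∃ X ∈ Cfsg.quartets (c • setOfMask 8419127), (MulAction.orbit ↥K X).ncard = n ∧
        MulAction.orbit ↥K X = {Q | Q ∈ Cfsg.quartets (c • setOfMask 8419127) ∧ sigF (c • setSet quartBase) Q = v} := by
    intro v n hn h0
    have h := (cnt v).trans hn
    obtain ⟨X, hX, eX⟩ := Set.nonempty_of_ncard_ne_zero (h.trans_ne h0.ne')
    have e : MulAction.orbit ↥K X =
        {Q | Q ∈ Cfsg.quartets (c • setOfMask 8419127) ∧ sigF (c • setSet quartBase) Q = v} := by
      ext Y
      constructor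
      · rintro ⟨⟨⟨g, hg⟩, hd', hQ'⟩, rfl⟩
        have gd : g • (c • setOfMask 8419127) = c • setOfMask 8419127 := hd'
        have gQ : g • (c • setSet quartBase) = c • setSet quartBase := hQ'
        refine ⟨?_, ?_⟩
        · have := smul_mem_quartets hg hX
          rwa [gd] at this
        · show sigF (c • setSet quartBase) (g • X) = v
          conv_lhs => rw [← gQ, sigF_smul]
          exact eX
      · rintro ⟨hY, eY⟩
        obtain ⟨A, hA, rfl⟩ := (quartets_code hc).1 hX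
        obtain ⟨B, hB, rfl⟩ := (quartets_code hc).1 hY
        rw [val A hA] at eX
        rw [val B hB] at eY
        obtain ⟨g, hg, hfix, eg⟩ := quart_conj quartIn_stab quartIn_classes hc hA hB (eX.trans eY.symm)
        exact ⟨⟨⟨g, hg⟩, set_fixed (hfix dodBase (by simp)), hfix quartBase (by simp)⟩, eg⟩
    exact ⟨X, hX, by rw [e]; exact h, e⟩
  obtain ⟨X₁, m₁, c₁, e₁⟩ := orb 1000906 12 (by decide +kernel) (by norm_num)
  obtain ⟨X₂, m₂, c₂, e₂⟩ := orb 40408 27 (by decide +kernel) (by norm_num)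
  obtain ⟨X₃, m₃, c₃, e₃⟩ := orb 30607 72 (by decide +kernel) (by norm_num)
  obtain ⟨X₄, m₄, c₄, e₄⟩ := orb 11005 108 (by decide +kernel) (by norm_num)
  have hQ0 : sigF (c • setSet quartBase) (c • setSet quartBase) = 4000012 := by
    rw [val _ quartBase_mem]; decide +kernel
  have h1 := (cnt 4000012).trans (show quartList.countP (sigQ quartBase 4000012) = 1 by decide +kernel)
  obtain ⟨U, hU⟩ := Set.ncard_eq_one.1 h1
  have es : {c • setSet quartBase} = {Q | Q ∈ Cfsg.quartets (c • setOfMask 8419127) ∧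
      sigF (c • setSet quartBase) Q = 4000012} := by
    have : c • setSet quartBase ∈ ({U} : Set Fam) := by rw [← hU]; exact ⟨hQ, hQ0⟩
    rw [hU, Set.mem_singleton_iff.1 this]
  refine ⟨X₁, m₁, X₂, m₂, X₃, m₃, X₄, m₄, c₁, c₂, c₃, c₄, ?_⟩
  rw [e₁, e₂, e₃, e₄, es]
  ext Y
  constructor
  · intro hY
    obtain ⟨B, hB, rfl⟩ := (quartets_code hc).1 hY
    have hv : ∀ X ∈ quartList, memL (sigL quartBase X) [4000012, 1000906, 40408, 30607, 11005] = true :=
      List.all_eq_true.1 (by decide +kernel :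
        (quartList.all fun X => memL (sigL quartBase X) [4000012, 1000906, 40408, 30607, 11005]) = true)
    have this := memL_iff.1 (hv B hB)
    rw [← val B hB] at this
    rw [List.mem_cons, List.mem_cons, List.mem_cons, List.mem_cons, List.mem_singleton] at this
    rcases this with h | h | h | h | h
    · exact Or.inl (Or.inl (Or.inl (Or.inl ⟨hY, h⟩)))
    · exact Or.inl (Or.inl (Or.inl (Or.inr ⟨hY, h⟩)))
    · exact Or.inl (Or.inl (Or.inr ⟨hY, h⟩))
    · exact Or.inl (Or.inr ⟨hY, h⟩)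
    · exact Or.inr ⟨hY, h⟩
  · rintro ((((h | h) | h) | h) | h) <;> exact h.1

end Cfsg.Agent.S1599
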