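import Cfsg.Statements.S1600
import Cfsg.Agent.Lib.SporObjUse
import Cfsg.Agent.Lib.SporObjTrans
import Cfsg.Agent.Lib.SporObjPoint

set_option autoImplicit false
open scoped Pointwise
open Cfsg

namespace Cfsg.Agent.S1600

open CfsgLib.Spor
open scoped Pointwise


theorem stab_count (d : Finset Cfsg.GolayPt) (hd : d ∈ Cfsg.dodecads) :
    ∃ c ∈ Cfsg.M24, d = c • setOfMask 8419127 := by
  obtain ⟨c, hc, e⟩ := dodCoded.exists_base trDod_stab trDod_trans bases_mem.2.2.2.1 hd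
  exact ⟨c, hc, famOne_injective (e.trans (smul_setSet_one c _))⟩

theorem align1 {d : Finset Cfsg.GolayPt} (hd : d ∈ Cfsg.dodecads) {p : Cfsg.GolayPt} (hp : p ∈ d) :
    ∃ c ∈ Cfsg.M24, d = c • setOfMask 8419127 ∧ p = c (pt 0) := by
  obtain ⟨c, hc, rfl⟩ := stab_count d hd
  obtain ⟨i, hi, rfl⟩ := exists_pt (h := c) p
  rw [mem_smul_mask _ _ hi] at hp
  obtain ⟨g, hg, hfix, e⟩ := pt_conj dpPt_stab dpPt_classes hc (i := 0) (by norm_num) (by decide +kernel) hi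
    (inMask_two_pow hi hp)
  refine ⟨g * c, mul_mem hg hc, ?_, e.symm⟩
  rw [mul_smul]; exact (set_fixed (hfix dodBase (by simp))).symm

theorem align2 {d : Finset Cfsg.GolayPt} (hd : d ∈ Cfsg.dodecads) {p q : Cfsg.GolayPt} (hp : p ∈ d) (hq : q ∈ d)
    (hpq : p ≠ q) : ∃ c ∈ Cfsg.M24, d = c • setOfMask 8419127 ∧ p = c (pt 0) ∧ q = c (pt 1) := by
  obtain ⟨c, hc, rfl, rfl⟩ := align1 hd hp
  obtain ⟨i, hi, rfl⟩ := exists_pt (h := c) q
  rw [mem_smul_mask _ _ hi] at hq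
  have hi0 : i ≠ 0 := fun e => hpq (by rw [e])
  obtain ⟨g, hg, hfix, e⟩ := pt_conj dpIn1_stab dpIn1_classes hc (i := 1) (by norm_num) (by decide +kernel) hi
    (inMask_two_pow hi (by
      have h : ((List.range 24).all fun j => !Nat.testBit 8419127 j || Nat.beq j 0 || Nat.testBit 8419126 j) = true := by
        decide +kernel
      have := List.all_eq_true.1 h i (List.mem_range.2 hi)
      simpa [hq, hi0, Nat.beq_eq] using this))
  refine ⟨g * c, mul_mem hg hc, ?_, (pt_fixed (by norm_num) (hfix [2 ^ 0] (by simp))).symm, e.symm⟩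
  rw [mul_smul]; exact (set_fixed (hfix dodBase (by simp))).symm

theorem align3 {d : Finset Cfsg.GolayPt} (hd : d ∈ Cfsg.dodecads) {p q r : Cfsg.GolayPt} (hp : p ∈ d) (hq : q ∈ d)
    (hr : r ∈ d) (hpq : p ≠ q) (hpr : p ≠ r) (hqr : q ≠ r) :
    ∃ c ∈ Cfsg.M24, d = c • setOfMask 8419127 ∧ p = c (pt 0) ∧ q = c (pt 1) ∧ r = c (pt 2) := by
  obtain ⟨c, hc, rfl, rfl, rfl⟩ := align2 hd hp hq hpq
  obtain ⟨i, hi, rfl⟩ := exists_pt (h := c) r
  rw [mem_smul_mask _ _ hi] at hr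
  have hi0 : i ≠ 0 := fun e => hpr (by rw [e])
  have hi1 : i ≠ 1 := fun e => hqr (by rw [e])
  obtain ⟨g, hg, hfix, e⟩ := pt_conj dpIn2_stab dpIn2_classes hc (i := 2) (by norm_num) (by decide +kernel) hi
    (inMask_two_pow hi (by
      have h : ((List.range 24).all fun j => !Nat.testBit 8419127 j || Nat.beq j 0 || Nat.beq j 1 ||
          Nat.testBit 8419124 j) = true := by decide +kernel
      have := List.all_eq_true.1 h i (List.mem_range.2 hi)
      simpa [hr, hi0, hi1, Nat.beq_eq] using this))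
  refine ⟨g * c, mul_mem hg hc, ?_, (pt_fixed (by norm_num) (hfix [2 ^ 0] (by simp))).symm,
    (pt_fixed (by norm_num) (hfix [2 ^ 1] (by simp))).symm, e.symm⟩
  rw [mul_smul]; exact (set_fixed (hfix dodBase (by simp))).symm

theorem align4 {d : Finset Cfsg.GolayPt} (hd : d ∈ Cfsg.dodecads) {p q r x : Cfsg.GolayPt} (hp : p ∈ d) (hq : q ∈ d)
    (hr : r ∈ d) (hpq : p ≠ q) (hpr : p ≠ r) (hqr : q ≠ r) (hx : x ∉ d) :
    ∃ c ∈ Cfsg.M24, d = c • setOfMask 8419127 ∧ p = c (pt 0) ∧ q = c (pt 1) ∧ r = c (pt 2) ∧ x = c (pt 3) := by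
  obtain ⟨c, hc, rfl, rfl, rfl, rfl⟩ := align3 hd hp hq hr hpq hpr hqr
  obtain ⟨i, hi, rfl⟩ := exists_pt (h := c) x
  rw [mem_smul_mask _ _ hi] at hx
  obtain ⟨g, hg, hfix, e⟩ := pt_conj dpThree_stab dpThree_classes hc (i := 3) (by norm_num) (by decide +kernel) hi
    (inMask_two_pow hi (outside_mask 8419127 8358088 (by decide +kernel) hi hx))
  refine ⟨g * c, mul_mem hg hc, ?_, (pt_fixed (by norm_num) (hfix [2 ^ 0] (by simp))).symm,
    (pt_fixed (by norm_num) (hfix [2 ^ 1] (by simp))).symm, (pt_fixed (by norm_num) (hfix [2 ^ 2] (by simp))).symm, e.symm⟩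
  rw [mul_smul]; exact (set_fixed (hfix dodBase (by simp))).symm

theorem coe_mem_iff {d : Finset Cfsg.GolayPt} (g : ↥Cfsg.M24) (h : g • d = d) (a : Cfsg.GolayPt) :
    g • a ∈ d ↔ a ∈ d := by
  conv_lhs => rw [← h]
  exact Finset.smul_mem_smul_finset_iff g

/-- The pointwise stabiliser of three points of a dodecad inside the dodecad stabiliser (order 72) is transitive on the complementary dodecad. -/
theorem result (d : Finset Cfsg.GolayPt) (hd : d ∈ Cfsg.dodecads) (p q r : Cfsg.GolayPt) (hp : p ∈ d) (hq : q ∈ d) (hr : r ∈ d) (hpq : p ≠ q) (hpr : p ≠ r) (hqr : q ≠ r) : Nat.card ↥(MulAction.stabilizer Cfsg.M24 d ⊓ MulAction.stabilizer Cfsg.M24 p ⊓ MulAction.stabilizer Cfsg.M24 q ⊓ MulAction.stabilizer Cfsg.M24 r) = 72 ∧ ∀ x ∉ d, ∀ y ∉ d, ∃ g ∈ (MulAction.stabilizer Cfsg.M24 d ⊓ MulAction.stabilizer Cfsg.M24 p ⊓ MulAction.stabilizer Cfsg.M24 q ⊓ MulAction.stabilizer Cfsg.M24 r), ((g : ↥Cfsg.M24) : Equiv.Perm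 Cfsg.GolayPt) x = y := by
  have hfixd : ∀ g : ↥Cfsg.M24, g ∈ MulAction.stabilizer Cfsg.M24 d → g • d = d := fun g hg => hg
  have c0 := card_eq_ncard_mul (⊤ : Subgroup ↥Cfsg.M24) d Cfsg.dodecads
    (fun g _ => smul_mem_dodecads g.2 hd) (fun y hy => by
      obtain ⟨a, ha, ea⟩ := stab_count d hd
      obtain ⟨b, hb, eb⟩ := stab_count y hy
      refine ⟨⟨b * a⁻¹, mul_mem hb (inv_mem ha)⟩, Subgroup.mem_top _, ?_⟩
      show (b * a⁻¹) • d = y
      rw [ea, eb, mul_smul, inv_smul_smul])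
  have c1 := card_eq_ncard_mul (MulAction.stabilizer Cfsg.M24 d) p ↑d
    (fun g hg => (coe_mem_iff g (hfixd g hg) p).2 hp) (fun y hy => by
      obtain ⟨a, ha, e1, e2⟩ := align1 hd hp
      obtain ⟨b, hb, f1, f2⟩ := align1 hd (p := y) hy
      refine ⟨⟨b * a⁻¹, mul_mem hb (inv_mem ha)⟩, ?_, ?_⟩
      · show (b * a⁻¹) • d = d
        conv_lhs => rw [e1]
        rw [mul_smul, inv_smul_smul, ← f1]
      · show (b * a⁻¹) p = y
        rw [e2, f2]; simp)
  have c2 := card_eq_ncard_mul (MulAction.stabilizer Cfsg.M24 d ⊓ MulAction.stabilizer Cfsg.M24 p) q ↑(d.erase p)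
    (fun g hg => Finset.mem_erase.2 ⟨fun e => hpq ((MulAction.injective g) (hg.2.trans e.symm)),
      (coe_mem_iff g (hfixd g hg.1) q).2 hq⟩) (fun y hy => by
      obtain ⟨hy1, hy2⟩ := Finset.mem_erase.1 hy
      obtain ⟨a, ha, e1, e2, e3⟩ := align2 hd hp hq hpq
      obtain ⟨b, hb, f1, f2, f3⟩ := align2 hd hp hy2 hy1.symm
      refine ⟨⟨b * a⁻¹, mul_mem hb (inv_mem ha)⟩, ⟨?_, ?_⟩, ?_⟩
      · show (b * a⁻¹) • d = d
        conv_lhs => rw [e1]
        rw [mul_smul, inv_smul_smul, ← f1]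
      · show (b * a⁻¹) p = p
        conv_lhs => rw [e2]
        rw [f2]; simp
      · show (b * a⁻¹) q = y
        rw [e3, f3]; simp)
  have c3 := card_eq_ncard_mul (MulAction.stabilizer Cfsg.M24 d ⊓ MulAction.stabilizer Cfsg.M24 p ⊓
      MulAction.stabilizer Cfsg.M24 q) r ↑((d.erase p).erase q)
    (fun g hg => Finset.mem_erase.2 ⟨fun e => hqr ((MulAction.injective g) (hg.2.trans e.symm)),
      Finset.mem_erase.2 ⟨fun e => hpr ((MulAction.injective g) (hg.1.2.trans e.symm)),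
        (coe_mem_iff g (hfixd g hg.1.1) r).2 hr⟩⟩) (fun y hy => by
      obtain ⟨hy0, hy⟩ := Finset.mem_erase.1 hy
      obtain ⟨hy1, hy2⟩ := Finset.mem_erase.1 hy
      obtain ⟨a, ha, e1, e2, e3, e4⟩ := align3 hd hp hq hr hpq hpr hqr
      obtain ⟨b, hb, f1, f2, f3, f4⟩ := align3 hd hp hq hy2 hpq hy1.symm hy0.symm
      refine ⟨⟨b * a⁻¹, mul_mem hb (inv_mem ha)⟩, ⟨⟨?_, ?_⟩, ?_⟩, ?_⟩
      · show (b * a⁻¹) • d = d
        conv_lhs => rw [e1]
        rw [mul_smul, inv_smul_smul, ← f1]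
      · show (b * a⁻¹) p = p
        conv_lhs => rw [e2]
        rw [f2]; simp
      · show (b * a⁻¹) q = q
        conv_lhs => rw [e3]
        rw [f3]; simp
      · show (b * a⁻¹) r = y
        rw [e4, f4]; simp)
  refine ⟨?_, fun x hx y hy => ?_⟩
  · rw [top_inf_eq, Subgroup.card_top, card_M24, dodCoded.ncard_univ, show dodObjs.length = 2576 by decide +kernel] at c0
    rw [Set.ncard_coe_finset] at c1 c2 c3
    rw [hd.2] at c1
    rw [Finset.card_erase_of_mem hp, hd.2] at c2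
    rw [Finset.card_erase_of_mem (Finset.mem_erase.2 ⟨hpq.symm, hq⟩), Finset.card_erase_of_mem hp, hd.2] at c3
    omega
  obtain ⟨a, ha, e1, e2, e3, e4, e5⟩ := align4 hd hp hq hr hpq hpr hqr hx
  obtain ⟨b, hb, f1, f2, f3, f4, f5⟩ := align4 hd hp hq hr hpq hpr hqr hy
  refine ⟨⟨b * a⁻¹, mul_mem hb (inv_mem ha)⟩, ⟨⟨⟨?_, ?_⟩, ?_⟩, ?_⟩, ?_⟩
  · show (b * a⁻¹) • d = d
    conv_lhs => rw [e1]
    rw [mul_smul, inv_smul_smul, ← f1]
  · show (b * a⁻¹) p = p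
    conv_lhs => rw [e2]
    rw [f2]; simp
  · show (b * a⁻¹) q = q
    conv_lhs => rw [e3]
    rw [f3]; simp
  · show (b * a⁻¹) r = r
    conv_lhs => rw [e4]
    rw [f4]; simp
  · show (b * a⁻¹) x = y
    rw [e5, f5]; simp

end Cfsg.Agent.S1600
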