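import Cfsg.Statements.S1604
import Cfsg.Agent.Lib.SporObjUse
import Cfsg.Agent.Lib.SporObjTrans
import Cfsg.Agent.Lib.SporObjPoint

set_option autoImplicit false
open scoped Pointwise
open Cfsg

namespace Cfsg.Agent.S1604

open CfsgLib.Spor
open scoped Pointwise

/-- A hexad stabiliser in the two-point stabiliser has orbits of sizes 1, 16, 60 on the 77 hexads: the 16 hexads disjoint from it and the 60 meeting it in two points. -/
theorem result (p q : Cfsg.GolayPt) (hpq : p ≠ q) (o o' o'' : Finset Cfsg.GolayPt) (ho : o ∈ Cfsg.octads) (ho' : o' ∈ Cfsg.octads) (ho'' : o'' ∈ Cfsg.octads) (hp : p ∈ o ∧ p ∈ o' ∧ p ∈ o'') (hq : q ∈ o ∧ q ∈ o' ∧ q ∈ o'') (h : (o ∩ o').card = (o ∩ o'').card) : {x : Finset Cfsg.GolayPt | x ∈ Cfsg.octads ∧ p ∈ x ∧ q ∈ x ∧ (o ∩ x).card = 2}.ncard = 16 ∧ {x : Finset Cfsg.GolayPt | x ∈ Cfsg.octads ∧ p ∈ x ∧ q ∈ x ∧ (o ∩ x).card = 4}.ncard = 60 ∧ ∃ g : Equiv.Perm Cfsg.GolayPt, g ∈ Cfsg.M24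 ∧ g p = p ∧ g q = q ∧ g • o = o ∧ g • o' = o'' := by
  obtain ⟨b, hb, bp, bq⟩ := exists_first_two hpq
  subst bp; subst bq
  obtain ⟨m, hm, rfl⟩ := octCoded.one_code hb ho
  rw [mem_smul_mask _ _ (by norm_num)] at hp hq
  obtain ⟨g, hg, hfix, eg⟩ := octCoded.one_conj octTwo_stab octTwo_classes hb (n := m) bases_mem.1 (by decide +kernel) hm
    (by simp [hasPt, hp.1, hq.1]) rfl
  have g0 : g (b (pt 0)) = b (pt 0) := pt_fixed (by norm_num) (hfix [2 ^ 0] (by simp))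
  have g1 : g (b (pt 1)) = b (pt 1) := pt_fixed (by norm_num) (hfix [2 ^ 1] (by simp))
  have hgb : g * b ∈ Cfsg.M24 := mul_mem hg hb
  have p0 : b (pt 0) = (g * b) (pt 0) := g0.symm
  have p1 : b (pt 1) = (g * b) (pt 1) := g1.symm
  have po : b • setOfMask m = (g * b) • setOfMask 5279 := by rw [mul_smul, eg]
  have h2 := hp.2
  have h3 := hq.2
  clear hp hq
  rw [po] at h ⊢
  rw [p0, p1] at *
  have cnt : ∀ k, {x : Finset Cfsg.GolayPt | x ∈ Cfsg.octads ∧ (g * b) (pt 0) ∈ x ∧ (g * b) (pt 1) ∈ x ∧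
      ((g * b) • setOfMask 5279 ∩ x).card = k}.ncard =
      octObjs.countP fun X => hasPt 0 X && hasPt 1 X && Nat.beq (meetNum 5279 X) k := by
    intro k
    refine octCoded.one_ncard hgb _ _ fun n _ => ?_
    rw [mem_smul_mask _ n (by norm_num), mem_smul_mask _ n (by norm_num), card_inter_mask, Bool.and_eq_true,
      Bool.and_eq_true, Nat.beq_eq, and_assoc]
    rfl
  refine ⟨?_, ?_, ?_⟩
  · rw [cnt]; decide +kernel
  · rw [cnt]; decide +kernel
  obtain ⟨n, hn, rfl⟩ := octCoded.one_code hgb ho'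
  obtain ⟨n', hn', rfl⟩ := octCoded.one_code hgb ho''
  rw [card_inter_mask, card_inter_mask] at h
  simp only [mem_smul_mask _ _ (by norm_num : 0 < 24), mem_smul_mask _ _ (by norm_num : 1 < 24)] at h2 h3
  obtain ⟨k, hk, kfix, ek⟩ := octCoded.one_conj octTwoIn_stab octTwoIn_classes hgb hn
    (by simp [hasPt, h2.1, h3.1]) hn' (by simp [hasPt, h2.2, h3.2]) h
  exact ⟨k, hk, pt_fixed (by norm_num) (kfix [2 ^ 0] (by simp)), pt_fixed (by norm_num) (kfix [2 ^ 1] (by simp)),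
    set_fixed (kfix octBase (by simp)), ek⟩

end Cfsg.Agent.S1604
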