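import Cfsg.Statements.S1605
import Cfsg.Agent.Lib.SporObjUse
import Cfsg.Agent.Lib.SporObjTrans
import Cfsg.Agent.Lib.SporObjPoint

set_option autoImplicit false
open scoped Pointwise
open Cfsg

namespace Cfsg.Agent.S1605

open CfsgLib.Spor
open scoped Pointwise

/-- The two-point stabiliser acts on the 176 octads through the first point avoiding the second with rank 3 and subdegrees 1, 70, 105 (intersections 8, 2, 4). -/
theorem result (p q : Cfsg.GolayPt) (hpq : p ≠ q) : {x : Finset Cfsg.GolayPt | (x ∈ Cfsg.octads ∧ p ∈ x ∧ q ∉ x)}.ncard = 176 ∧ (∀ o o' : Finset Cfsg.GolayPt, (o ∈ Cfsg.octads ∧ p ∈ o ∧ q ∉ o) → (o' ∈ Cfsg.octads ∧ p ∈ o' ∧ q ∉ o') → ∃ g : Equiv.Perm Cfsg.GolayPt, g ∈ Cfsg.M24 ∧ g p = p ∧ g q = q ∧ g • o = o') ∧ ∀ o : Finset Cfsg.GolayPt, (o ∈ Cfsg.octads ∧ p ∈ o ∧ q ∉ o) → {x : Finset Cfsg.GolayPt | (x ∈ Cfsg.octads ∧ p ∈ x ∧ q ∉ x) ∧ (o ∩ x).card = 2}.ncard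 = 70 ∧ {x : Finset Cfsg.GolayPt | (x ∈ Cfsg.octads ∧ p ∈ x ∧ q ∉ x) ∧ (o ∩ x).card = 4}.ncard = 105 ∧ ∀ o' o'' : Finset Cfsg.GolayPt, (o' ∈ Cfsg.octads ∧ p ∈ o' ∧ q ∉ o') → (o'' ∈ Cfsg.octads ∧ p ∈ o'' ∧ q ∉ o'') → (o ∩ o').card = (o ∩ o'').card → ∃ g : Equiv.Perm Cfsg.GolayPt, g ∈ Cfsg.M24 ∧ g p = p ∧ g q = q ∧ g • o = o ∧ g • o' = o'' := by
  obtain ⟨b, hb, bp, bq⟩ := exists_first_two hpq
  subst bp; subst bq
  refine ⟨?_, ?_, ?_⟩
  · rw [octCoded.one_ncard hb _ (fun X => hasPt 0 X && !hasPt 1 X) fun n _ => by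
      rw [mem_smul_mask _ n (by norm_num), mem_smul_mask _ n (by norm_num)]; simp [hasPt]]
    decide +kernel
  · rintro o o' ⟨ho, h0, h1⟩ ⟨ho', h0', h1'⟩
    obtain ⟨m, hm, rfl⟩ := octCoded.one_code hb ho
    obtain ⟨n, hn, rfl⟩ := octCoded.one_code hb ho'
    rw [mem_smul_mask _ _ (by norm_num)] at h0 h1 h0' h1'
    obtain ⟨g, hg, gfix, eg⟩ := octCoded.one_conj octOne_stab octOne_classes hb hm (by simp [hasPt, h0, h1]) hn
      (by simp [hasPt, h0', h1']) rfl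
    exact ⟨g, hg, pt_fixed (by norm_num) (gfix [2 ^ 0] (by simp)), pt_fixed (by norm_num) (gfix [2 ^ 1] (by simp)), eg⟩
  rintro o ⟨ho, h0, h1⟩
  obtain ⟨m, hm, rfl⟩ := octCoded.one_code hb ho
  rw [mem_smul_mask _ _ (by norm_num)] at h0 h1
  obtain ⟨g, hg, hfix, eg⟩ := octCoded.one_conj octOne_stab octOne_classes hb (m := 15777) (by decide +kernel)
    (by decide +kernel) hm (by simp [hasPt, h0, h1]) rfl
  have g0 : g (b (pt 0)) = b (pt 0) := pt_fixed (by norm_num) (hfix [2 ^ 0] (by simp))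
  have g1 : g (b (pt 1)) = b (pt 1) := pt_fixed (by norm_num) (hfix [2 ^ 1] (by simp))
  have hgb : g * b ∈ Cfsg.M24 := mul_mem hg hb
  rw [← eg, ← mul_smul, show b (pt 0) = (g * b) (pt 0) from g0.symm, show b (pt 1) = (g * b) (pt 1) from g1.symm]
  generalize g * b = c at hgb
  have cnt : ∀ k, {x : Finset Cfsg.GolayPt | (x ∈ Cfsg.octads ∧ c (pt 0) ∈ x ∧ c (pt 1) ∉ x) ∧
      (c • setOfMask 15777 ∩ x).card = k}.ncard =
      octObjs.countP fun X => hasPt 0 X && !hasPt 1 X && Nat.beq (meetNum 15777 X) k := by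
    intro k
    refine Eq.trans (congrArg Set.ncard (Set.ext fun x => ?_)) (octCoded.one_ncard hgb
      (fun x => c (pt 0) ∈ x ∧ c (pt 1) ∉ x ∧ (c • setOfMask 15777 ∩ x).card = k) _ fun n _ => ?_)
    · simp only [Set.mem_setOf_eq, and_assoc]
    rw [mem_smul_mask _ n (by norm_num), mem_smul_mask _ n (by norm_num), card_inter_mask, Bool.and_eq_true,
      Bool.and_eq_true, Nat.beq_eq, and_assoc]
    simp [hasPt, meetNum]
  refine ⟨?_, ?_, ?_⟩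
  · rw [cnt]; decide +kernel
  · rw [cnt]; decide +kernel
  rintro o' o'' ⟨ho', a0, a1⟩ ⟨ho'', b0, b1⟩ e
  obtain ⟨n, hn, rfl⟩ := octCoded.one_code hgb ho'
  obtain ⟨n', hn', rfl⟩ := octCoded.one_code hgb ho''
  rw [mem_smul_mask _ _ (by norm_num)] at a0 a1 b0 b1
  rw [card_inter_mask, card_inter_mask] at e
  obtain ⟨k, hk, kfix, ek⟩ := octCoded.one_conj octOneIn_stab octOneIn_classes hgb hn
    (by simp [hasPt, a0, a1]) hn' (by simp [hasPt, b0, b1]) e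
  exact ⟨k, hk, pt_fixed (by norm_num) (kfix [2 ^ 0] (by simp)), pt_fixed (by norm_num) (kfix [2 ^ 1] (by simp)),
    set_fixed (kfix [15777] (by simp)), ek⟩

end Cfsg.Agent.S1605
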