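import Cfsg.Statements.S1607
import Cfsg.Agent.Lib.SporObjUse
import Cfsg.Agent.Lib.SporObjTrans
import Cfsg.Agent.Lib.SporObjPoint

set_option autoImplicit false
open scoped Pointwise
open Cfsg

namespace Cfsg.Agent.S1607

open CfsgLib.Spor
open scoped Pointwise

/-- The point stabiliser acts on the 253 heptads of its S(4, 7, 23) with rank 3 and subdegrees 1, 112, 140 (intersections 8, 2, 4). -/
theorem result (x : Cfsg.GolayPt) (o : Finset Cfsg.GolayPt) (ho : o ∈ Cfsg.octads) (hx : x ∈ o) : {o' : Finset Cfsg.GolayPt | o' ∈ Cfsg.octads ∧ x ∈ o' ∧ (o ∩ o').card = 2}.ncard = 112 ∧ {o' : Finset Cfsg.GolayPt | o' ∈ Cfsg.octads ∧ x ∈ o' ∧ (o ∩ o').card = 4}.ncard = 140 ∧ ∀ o' o'' : Finset Cfsg.GolayPt, o' ∈ Cfsg.octads → o'' ∈ Cfsg.octads → x ∈ o' → x ∈ o'' → (o ∩ o').card = (o ∩ o'').card → ∃ g : Equiv.Perm Cfsg.GolayPt, g ∈ Cfsg.M24 ∧ g x = x ∧ g • o = o ∧ g • o' = o'' := by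
  obtain ⟨b, hb, bx⟩ := exists_first x
  subst bx
  obtain ⟨m, hm, rfl⟩ := octCoded.one_code hb ho
  obtain ⟨g, hg, hfix, eg⟩ := octCoded.one_conj octPt_stab octPt_classes hb (n := m) bases_mem.1 (by decide +kernel) hm
    ((mem_smul_mask b m (by norm_num)).1 hx) rfl
  have gx : g (b (pt 0)) = b (pt 0) := pt_fixed (by norm_num) (hfix [2 ^ 0] (by simp))
  have hgb : g * b ∈ Cfsg.M24 := mul_mem hg hb
  rw [← gx, ← eg, ← mul_smul, show g (b (pt 0)) = (g * b) (pt 0) from rfl]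
  have cnt : ∀ k, {o' : Finset Cfsg.GolayPt | o' ∈ Cfsg.octads ∧ (g * b) (pt 0) ∈ o' ∧
      ((g * b) • setOfMask 5279 ∩ o').card = k}.ncard =
      octObjs.countP fun X => hasPt 0 X && Nat.beq (meetNum 5279 X) k := by
    intro k
    refine octCoded.one_ncard hgb _ _ fun n _ => ?_
    rw [mem_smul_mask _ n (by norm_num), card_inter_mask, Bool.and_eq_true, Nat.beq_eq]
    rfl
  refine ⟨?_, ?_, ?_⟩
  · rw [cnt]; decide +kernel
  · rw [cnt]; decide +kernel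
  intro o' o'' ho' ho'' hx' hx'' e
  obtain ⟨n, hn, rfl⟩ := octCoded.one_code hgb ho'
  obtain ⟨n', hn', rfl⟩ := octCoded.one_code hgb ho''
  rw [card_inter_mask, card_inter_mask] at e
  obtain ⟨k, hk, kfix, ek⟩ := octCoded.one_conj octPtIn_stab octPtIn_classes hgb hn
    ((mem_smul_mask _ n (by norm_num)).1 hx') hn' ((mem_smul_mask _ n' (by norm_num)).1 hx'') e
  exact ⟨k, hk, pt_fixed (by norm_num) (kfix [2 ^ 0] (by simp)), set_fixed (kfix octBase (by simp)), ek⟩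

end Cfsg.Agent.S1607
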