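import Cfsg.Statements.S1610
import Cfsg.Agent.Lib.SporHexacode

set_option autoImplicit false
open Cfsg

namespace Cfsg.Agent.S1610

open CfsgLib.Spor.Hexa

/-- The hexacode has 64 words, minimum weight 4, and weight distribution 0^1 4^45 6^18. -/
theorem result (F : Type*) [Field F] [Fintype F] [DecidableEq F] (hF : Fintype.card F = 4) (ω : F) (hω : ω ^ 2 + ω + 1 = 0) : Nat.card ↥(Cfsg.hexacode F ω) = 64 ∧ (∀ x ∈ Cfsg.hexacode F ω, x ≠ 0 → (Finset.univ.filter fun i => x i ≠ 0).card = 4 ∨ (Finset.univ.filter fun i => x i ≠ 0).card = 6) ∧ {x : Fin 6 → F | x ∈ Cfsg.hexacode F ω ∧ (Finset.univ.filter fun i => x i ≠ 0).card = 4}.ncard = 45 ∧ {x : Fin 6 → F | x ∈ Cfsg.hexacode F ω ∧ (Finset.univ.filter fun i => x i ≠ 0).card = 6}.ncard = 18 := by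
  obtain ⟨a, b⟩ := word_counts
  refine ⟨card_code hF hω, fun x hx h0 => ?_, (ncard_weight hF hω 4).trans a, (ncard_weight hF hω 6).trans b⟩
  obtain ⟨⟨p, q, r⟩, rfl⟩ := (mem_iff hF hω).1 hx
  rw [weight_eq hF hω]
  refine word_weights p q r fun e => h0 ?_
  simp only [Prod.mk.injEq] at e
  obtain ⟨rfl, rfl, rfl⟩ := e
  funext i
  simp [word_zero, val]

end Cfsg.Agent.S1610
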