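import Cfsg.Statements.S1629
import Cfsg.Agent.Lib.SporSympTrans
import Cfsg.Agent.Lib.ClassicalReflections
import Cfsg.Agent.Lib.ClassicalQuadStd2

set_option autoImplicit false
open scoped MatrixGroups
open Cfsg

namespace Cfsg.Agent.S1629
open CfsgLib.Classical CfsgLib.Spor.SympTrans Matrix


theorem generic {ι : Type} [Fintype ι] [DecidableEq ι] {Q : (ι → ZMod 2) → ZMod 2}
    (hQ : Cfsg.Geo.IsNondegenerateQuadraticForm Q) (h4 : Fintype.card ι ≠ 4) {d₀ : ι → ZMod 2} (hd₀ : Q d₀ = 1) :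
    Cfsg.IsThreeTranspositionClass
      {g : ↥(Cfsg.isometryGroup (ZMod 2) Q) | (((g : GL ι (ZMod 2)) : Matrix ι ι (ZMod 2)) - 1).rank = 1} := by
  let f := QuadraticMap.polar Q
  have hf : Cfsg.Geo.IsSymplecticForm f :=
    { bilinear := hQ.polar_bilinear
      alternating := fun x => by
        show QuadraticMap.polar Q x x = 0
        rw [pf_self hQ, show (2 : ZMod 2) = 0 from rfl, zero_mul]
      skew := fun u v => by
        show QuadraticMap.polar Q u v = -QuadraticMap.polar Q v u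
        rw [CharTwo.neg_eq]
        exact QuadraticMap.polar_comm _ u v
      nondegenerate := hQ.nondegenerate }
  have hrv : ∀ d, Q d = 1 → qR hQ d = stv f d 1 := fun d hd => gl_ext_mulVec fun x => by
    rw [qR_mulVec hQ (by rw [hd]; exact one_ne_zero), stv_mulVec hf, hd, inv_one, sub_eq_add_neg, ← neg_smul,
      CharTwo.neg_eq]
  have hd0 : ∀ d, Q d = 1 → d ≠ 0 := fun d hd h => by
    rw [h, q_zero hQ] at hd; exact zero_ne_one hd
  have hiso : ∀ g ∈ Cfsg.isometryGroup (ZMod 2) Q, g ∈ isoGL f := fun g hg => mem_isoGL.2 fun x y => iso_pf hg x y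
  set D := {g : ↥(Cfsg.isometryGroup (ZMod 2) Q) | (((g : GL ι (ZMod 2)) : Matrix ι ι (ZMod 2)) - 1).rank = 1}
  have hmem : ∀ g ∈ D, ∃ d, Q d = 1 ∧ (g : GL ι (ZMod 2)) = qR hQ d := by
    intro g hg
    obtain ⟨u, hu0, hu⟩ := exists_stv hf (hiso _ g.2) hg
    obtain ⟨y, hy⟩ := (hf.nondegenerate u hu0).1
    first
      | obtain hyu : f y u = 1 := (z2_cases _).resolve_left hy
      | obtain hyu : f u y = 1 := (z2_cases _).resolve_left hy
    have e := iso_Q g.2 y
    rw [hu, stv_mulVec hf, one_mul] at e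
    have hyu' : f y u = 1 := by
      first | exact hyu | (show QuadraticMap.polar Q y u = 1; rw [pf_comm]; exact hyu)
    rw [hyu', one_smul, q_add hQ] at e
    have hQu : Q u = 1 := by
      have e' : Q y + Q u + f y u = Q y := e
      rw [hyu'] at e'
      have : Q u + 1 = 0 := by linear_combination e'
      exact (CharTwo.add_eq_zero).1 this
    exact ⟨u, hQu, hu.trans (hrv u hQu).symm⟩
  have hinD : ∀ d, Q d = 1 → ∀ hg : qR hQ d ∈ Cfsg.isometryGroup (ZMod 2) Q,
      (⟨qR hQ d, hg⟩ : ↥(Cfsg.isometryGroup (ZMod 2) Q)) ∈ D := fun d hd hg => by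
    rw [Set.mem_ofPred_eq]
    simp only [hrv d hd]
    exact rank_stv hf (hd0 d hd)
  have hne : ∀ d, Q d = 1 → Q d ≠ 0 := fun d hd => by rw [hd]; exact one_ne_zero
  refine ⟨⟨fun g hg => ?_, fun g hg h hh => ?_⟩, ⟨rI hQ d₀ (hne _ hd₀), hinD d₀ hd₀ _, ?_⟩, ?_⟩
  · obtain ⟨d, hd, e⟩ := hmem g hg
    have := Fact.mk Nat.prime_two
    refine orderOf_eq_prime ?_ fun h1 => stv_ne_one hf (hd0 d hd) ?_
    · ext1; rw [Subgroup.coe_pow, e, hrv d hd, sq, stv_two hf]; rfl
    · rw [← hrv d hd, ← e, h1]; rfl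
  · obtain ⟨u, hu, e1⟩ := hmem g hg
    obtain ⟨v, hv, e2⟩ := hmem h hh
    rcases three_trans hf u v with h' | h'
    · exact Or.inl (Subtype.ext (by rw [Subgroup.coe_pow, Subgroup.coe_mul, e1, e2, hrv u hu, hrv v hv, h']; rfl))
    · exact Or.inr (Subtype.ext (by rw [Subgroup.coe_pow, Subgroup.coe_mul, e1, e2, hrv u hu, hrv v hv, h']; rfl))
  · ext g
    simp only [conjugatesOf, Set.mem_ofPred_eq, isConj_iff]
    constructor
    · intro hg
      obtain ⟨d, hd, e⟩ := hmem g hg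
      obtain ⟨k, hk, hkd⟩ := exists_iso_map hQ (hne _ hd₀) (hd.trans hd₀.symm)
      exact ⟨⟨k, hk⟩, Subtype.ext (by
        show k * qR hQ d₀ * k⁻¹ = _
        rw [conj_qR hQ hk (hne _ hd₀), hkd, e])⟩
    · rintro ⟨⟨k, hk⟩, rfl⟩
      rw [Set.mem_ofPred_eq]
      have hk0 : Q ((k : Matrix _ _ (ZMod 2)) *ᵥ d₀) = 1 := (iso_Q hk d₀).trans hd₀
      simp only [rI, Subgroup.coe_mul, Subgroup.coe_inv, conj_qR hQ hk (hne _ hd₀), hrv _ hk0]
      exact rank_stv hf (hd0 _ hk0)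
  · refine eq_top_iff.2 ?_
    rw [← closure_reflSet hQ (Or.inr h4)]
    refine Subgroup.closure_mono ?_
    rintro _ ⟨d, hd, rfl⟩
    exact hinD d ((z2_cases _).resolve_left hd) _


/-- The orthogonal transvections of the plus-type orthogonal group in dimension 2m ≥ 6 over the field with two elements form a generating conjugacy class of 3-transpositions. -/
theorem result (m : ℕ) (hm : 3 ≤ m) : Cfsg.IsThreeTranspositionClass {g : ↥(Cfsg.isometryGroup (ZMod 2) (Cfsg.quadFormPlus m (ZMod 2))) | (((g : GL (Fin m ⊕ Fin m) (ZMod 2)) : Matrix (Fin m ⊕ Fin m) (Fin m ⊕ Fin m) (ZMod 2)) - 1).rank = 1} := by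
  refine generic (isNondegenerate_quadFormPlus m) (by simp; omega)
    (d₀ := fun j => if j = Sum.inl ⟨0, by omega⟩ ∨ j = Sum.inr ⟨0, by omega⟩ then 1 else 0) ?_
  rw [Cfsg.quadFormPlus, Finset.sum_eq_single (⟨0, by omega⟩ : Fin m)]
  · simp
  · intro i _ hi; simp [hi]
  · simp

end Cfsg.Agent.S1629
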