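import Cfsg.Statements.S1631
import Cfsg.Agent.Lib.SporSympTrans
import Cfsg.Agent.Lib.ClassicalUnitaryTransvec

set_option autoImplicit false
open scoped MatrixGroups
open Cfsg

namespace Cfsg.Agent.S1631
open CfsgLib.Classical CfsgLib.Spor.SympTrans Matrix

theorem isTransvection_of_rank {F : Type} [Field F] {ι : Type} [Fintype ι] [DecidableEq ι] {M : Matrix ι ι F}
    (hdet : M.det = 1) (h : (M - 1).rank = 1) : Cfsg.IsTransvection M := by
  obtain ⟨a, φ, -, hx, -⟩ := exists_axis h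
  let w : ι → F := fun j => φ (Pi.single j 1)
  have hM : M = 1 + Matrix.replicateCol Unit a * Matrix.replicateRow Unit w := by
    refine Matrix.ext_of_mulVec_single fun j => ?_
    rw [hx, Matrix.add_mulVec, Matrix.one_mulVec]
    congr 1
    ext i
    simp [Matrix.mul_apply, w, mul_comm]
  have hwa : w ⬝ᵥ a = 0 := by
    rw [hM, Matrix.det_one_add_replicateCol_mul_replicateRow] at hdet
    simpa using hdet
  refine ⟨h, ?_⟩
  rw [hM, add_sub_cancel_left, ← Matrix.vecMulVec_eq, Matrix.vecMulVec_mul_vecMulVec, hwa]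
  ext i j; simp [Matrix.vecMulVec]

theorem generic {F : Type} [Field F] [Fintype F] {ι : Type} [Fintype ι] [DecidableEq ι]
    {σ : F ≃+* F} {f : (ι → F) → (ι → F) → F} (hf : Cfsg.Geo.IsUnitaryForm σ f)
    (hσ : ∀ x, σ x = x ^ 2) (hF : Fintype.card F = 4) (h4 : 4 ≤ Fintype.card ι) :
    Cfsg.IsThreeTranspositionClass {g : ↥(hSU f) | (((g : GL ι F) : Matrix ι ι F) - 1).rank = 1} := by
  have h2 : (2 : F) = 0 := by
    have := FiniteField.cast_card_eq_zero F
    rw [hF] at this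
    exact mul_self_eq_zero.1 (show (2 : F) * 2 = 0 by norm_num; simpa using this)
  have hneg : ∀ x : F, -x = x := fun x => by linear_combination (-x) * h2
  have hnorm : ∀ c : F, c ≠ 0 → c * σ c = 1 := fun c hc => by
    rw [hσ, ← pow_succ', show 2 + 1 = Fintype.card F - 1 by rw [hF]]
    exact FiniteField.pow_card_sub_one_eq_one c hc
  have hskew : ∀ μ : F, σ μ = -μ → μ = 0 ∨ μ = 1 := fun μ h => by
    rw [hσ, hneg, sq] at h
    rcases eq_or_ne μ 0 with h' | h'
    · exact Or.inl h'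
    · exact Or.inr (mul_left_cancel₀ h' (by rw [mul_one]; exact h))
  have hσ1 : σ (1 : F) = -1 := by rw [hneg, map_one]
  have hmem : ∀ g : ↥(hSU f), (((g : GL ι F) : Matrix ι ι F) - 1).rank = 1 →
      Cfsg.IsTransvection ((g : GL ι F) : Matrix ι ι F) ∧ ∃ u, u ≠ 0 ∧ f u u = 0 ∧ (g : GL ι F) = utv f u 1 := by
    intro g hg
    have hd : ((g : GL ι F) : Matrix ι ι F).det = 1 := by
      have := congrArg Units.val (MonoidHom.mem_ker.mp g.2.2)
      simpa [GeneralLinearGroup.val_det_apply] using this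
    refine ⟨isTransvection_of_rank hd hg, ?_⟩
    obtain ⟨u, μ, hu0, hu, hμ0, hμ, e⟩ := exists_utv hf g.2.1 (isTransvection_of_rank hd hg)
    rw [(hskew μ hμ).resolve_left hμ0] at e
    exact ⟨u, hu0, hu, e⟩
  have hne1 : ∀ u, u ≠ 0 → f u u = 0 → utv f u 1 ≠ 1 := fun u hu0 hu h => by
    obtain ⟨y, hy⟩ : ∃ y, f y u ≠ 0 := by
      obtain ⟨⟨y, hy⟩, y', hy'⟩ := hf.nondegenerate u hu0
      first | exact ⟨y, hy⟩ | exact ⟨y', hy'⟩
    have := congrArg (fun g : GL ι F => (g : Matrix ι ι F) *ᵥ y) h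
    simp only [utv_mulVec hf hu, Units.val_one, Matrix.one_mulVec, one_mul, add_eq_left] at this
    exact hu0 ((smul_eq_zero.1 this).resolve_left hy)
  have hrank : ∀ u, u ≠ 0 → f u u = 0 → ((utv f u 1 : Matrix ι ι F) - 1).rank = 1 := fun u hu0 hu =>
    rank_eq_one (utv_mulVec hf hu 1) fun e => hne1 u hu0 hu (Units.ext e)
  have hsq : ∀ u, f u u = 0 → utv f u 1 * utv f u 1 = 1 := fun u hu => by
    rw [utv_mul hf hu, show (1 : F) + 1 = 0 by rw [one_add_one_eq_two, h2], utv_zero hf hu]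
  have hinv : ∀ u, f u u = 0 → (utv f u 1)⁻¹ = utv f u 1 := fun u hu => inv_eq_of_mul_eq_one_left (hsq u hu)
  have hconj : ∀ u v, f u u = 0 → f v v = 0 →
      utv f u 1 * utv f v 1 * utv f u 1 = utv f (v + f v u • u) 1 := fun u v hu hv => by
    have h := utv_conj hf (utv_mem_hSU hf hu hσ1).1 hv 1
    rw [utv_mulVec hf hu, one_mul, hinv u hu] at h
    exact h
  have hthree : ∀ u v, f u u = 0 → f v v = 0 →
      (utv f u 1 * utv f v 1) ^ 2 = 1 ∨ (utv f u 1 * utv f v 1) ^ 3 = 1 := by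
    intro u v hu hv
    rcases eq_or_ne (f u v) 0 with h | h
    · left
      have e := hconj u v hu hv
      rw [hf.herm, h, map_zero, zero_smul, add_zero] at e
      rw [sq, ← mul_assoc, e, hsq v hv]
    · right
      have e1 := hconj u v hu hv
      have e2 := hconj v u hv hu
      have hw : f (v + f v u • u) (v + f v u • u) = 0 := by
        simp only [hf.add_left, herm_add_right hf, hf.smul_left, herm_smul_right hf, hu, hv]
        rw [hf.herm v u, hf.involutive]
        linear_combination (f u v * σ (f u v)) * h2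
      have hsm : u + f u v • v = f u v • (v + f v u • u) := by
        rw [smul_add, smul_smul, hf.herm v u, hnorm _ h, one_smul, add_comm]
      rw [hsm, utv_smul hf hw, one_mul, hnorm _ h] at e2
      rw [pow_three, show utv f u 1 * utv f v 1 * (utv f u 1 * utv f v 1 * (utv f u 1 * utv f v 1)) =
        (utv f u 1 * utv f v 1 * utv f u 1) * (utv f v 1 * utv f u 1 * utv f v 1) by group, e1, e2, hsq _ hw]
  obtain ⟨u₀, -, hu₀0, hu₀⟩ := exists_norm_in_ne_zero hf (hnondeg_top hf)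
    (by rw [finrank_top, Module.finrank_pi]; omega) (map_zero σ)
  refine ⟨⟨fun g hg => ?_, fun g hg h hh => ?_⟩, ⟨⟨utv f u₀ 1, utv_mem_hSU hf hu₀ hσ1⟩, hrank u₀ hu₀0 hu₀, ?_⟩, ?_⟩
  · obtain ⟨-, u, hu0, hu, e⟩ := hmem g hg
    have := Fact.mk Nat.prime_two
    refine orderOf_eq_prime ?_ fun h1 => hne1 u hu0 hu ?_
    · ext1; rw [Subgroup.coe_pow, e, sq, hsq u hu]; rfl
    · rw [← e, h1]; rfl
  · obtain ⟨-, u, -, hu, e1⟩ := hmem g hg
    obtain ⟨-, v, -, hv, e2⟩ := hmem h hh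
    rcases hthree u v hu hv with h' | h'
    · exact Or.inl (Subtype.ext (by rw [Subgroup.coe_pow, Subgroup.coe_mul, e1, e2, h']; rfl))
    · exact Or.inr (Subtype.ext (by rw [Subgroup.coe_pow, Subgroup.coe_mul, e1, e2, h']; rfl))
  · ext g
    simp only [conjugatesOf, Set.mem_ofPred_eq, isConj_iff]
    constructor
    · intro hg
      obtain ⟨ht, -⟩ := hmem g hg
      obtain ⟨ht0, -⟩ := hmem ⟨utv f u₀ 1, utv_mem_hSU hf hu₀ hσ1⟩ (hrank u₀ hu₀0 hu₀)
      obtain ⟨k, hk, hke⟩ := exists_hSU_conj hf (by omega) (utv_mem_hSU hf hu₀ hσ1).1 g.2.1 ht0 ht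
      exact ⟨⟨k, hk⟩, Subtype.ext hke⟩
    · rintro ⟨⟨k, hk⟩, rfl⟩
      have hw : f ((k : Matrix ι ι F) *ᵥ u₀) ((k : Matrix ι ι F) *ᵥ u₀) = 0 :=
        (mem_hIso.1 hk.1 u₀ u₀).trans hu₀
      simp only [Subgroup.coe_mul, Subgroup.coe_inv, utv_conj hf hk.1 hu₀]
      exact hrank _ (fun h => hu₀0 (mulVec_injective k (h.trans (Matrix.mulVec_zero _).symm))) hw
  · refine eq_top_iff.2 fun g _ => ?_
    have hle : hSU f ≤ (Subgroup.closure {g : ↥(hSU f) | (((g : GL ι F) : Matrix ι ι F) - 1).rank = 1}).map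
        (hSU f).subtype := hSU_le_of_utv hf h4 fun u hu μ hμ => by
      rcases hskew μ hμ with rfl | rfl
      · rw [utv_zero hf hu]; exact one_mem _
      · rcases eq_or_ne u 0 with rfl | hu0
        · rw [utv_zero_left hf]; exact one_mem _
        · exact ⟨⟨_, utv_mem_hSU hf hu hσ1⟩, Subgroup.subset_closure (hrank u hu0 hu), rfl⟩
    obtain ⟨g', hg', e⟩ := hle g.2
    rwa [← Subtype.ext e]

theorem transport {G H : Type*} [Group G] [Group H] (e : G ≃* H) {D : Set H}
    (hD : Cfsg.IsThreeTranspositionClass D) : Cfsg.IsThreeTranspositionClass (e ⁻¹' D) := by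
  obtain ⟨⟨h2, h3⟩, ⟨d, hd, hc⟩, hgen⟩ := hD
  refine ⟨⟨fun x hx => ?_, fun x hx y hy => ?_⟩, ⟨e.symm d, by simpa using hd, ?_⟩, ?_⟩
  · rw [← MulEquiv.orderOf_eq e x]; exact h2 (e x) hx
  · rcases h3 (e x) hx (e y) hy with h | h
    · exact Or.inl (e.injective (by rw [map_pow, map_mul, map_one]; exact h))
    · exact Or.inr (e.injective (by rw [map_pow, map_mul, map_one]; exact h))
  · ext x
    have := Set.ext_iff.1 hc (e x)
    simp only [conjugatesOf, Set.mem_ofPred_eq, isConj_iff, Set.mem_preimage] at this ⊢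
    constructor
    · intro hx
      obtain ⟨c, hc'⟩ := this.1 hx
      exact ⟨e.symm c, by rw [← map_inv, ← map_mul, ← map_mul]; exact e.symm_apply_eq.2 hc'⟩
    · rintro ⟨c, hc'⟩
      exact this.2 ⟨e c, by rw [← hc', map_mul, map_mul, map_inv, e.apply_symm_apply]⟩
  · refine eq_top_iff.2 fun x _ => ?_
    have hm : (Subgroup.closure D).map e.symm.toMonoidHom ≤ Subgroup.closure (e ⁻¹' D) := by
      rw [MonoidHom.map_closure]
      exact Subgroup.closure_mono (by rintro _ ⟨y, hy, rfl⟩; simpa using hy)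
    exact hm ⟨e x, hgen ▸ trivial, e.symm_apply_apply x⟩

/-- The unitary transvections of SU(n, 2), n ≥ 4, form a generating conjugacy class of 3-transpositions. -/
theorem result (F : Type) [Field F] [Fintype F] [DecidableEq F] (hF : Fintype.card F = 4) (n : ℕ) (hn : 4 ≤ n) : Cfsg.IsThreeTranspositionClass {g : ↥(Cfsg.SU n F 2) | (((g : Matrix.SpecialLinearGroup (Fin n) F) : Matrix (Fin n) (Fin n) F) - 1).rank = 1} := by
  obtain ⟨σ, hσ, hf⟩ := exists_isUnitaryForm_hermForm (F := F) n 2 (by rw [hF]; rfl)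
  exact transport (suEquiv n F 2) (generic hf hσ hF (by simpa using hn))

end Cfsg.Agent.S1631
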