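import Cfsg.Statements.S1638
import Cfsg.Agent.Lib.SporObjUse
import Cfsg.Agent.Lib.SporObjTrans
import Cfsg.Agent.Lib.SporObjPoint

set_option autoImplicit false
open scoped Pointwise
open Cfsg

namespace Cfsg.Agent.S1638

open CfsgLib.Spor
open scoped Pointwise

/-- Fix two points p ≠ q and a pair s of two further points. Among the pairs avoiding p, q and disjoint from s, exactly 30 lie in an octad together with p, q and s and exactly 160 do not; and any two pairs other than s that meet s in equally many points and agree on that octad property are carried to one another by an element of the group of the length-24 code fixing p, q and s. -/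
theorem result (p q : Cfsg.GolayPt) (hpq : p ≠ q) (s : Finset Cfsg.GolayPt) (hs : (s.card = 2 ∧ p ∉ s ∧ q ∉ s)) : {t : Finset Cfsg.GolayPt | (t.card = 2 ∧ p ∉ t ∧ q ∉ t) ∧ Disjoint s t ∧ (∃ o ∈ Cfsg.octads, p ∈ o ∧ q ∈ o ∧ s ∪ t ⊆ o)}.ncard = 30 ∧ {t : Finset Cfsg.GolayPt | (t.card = 2 ∧ p ∉ t ∧ q ∉ t) ∧ Disjoint s t ∧ ¬ (∃ o ∈ Cfsg.octads, p ∈ o ∧ q ∈ o ∧ s ∪ t ⊆ o)}.ncard = 160 ∧ ∀ t t' : Finset Cfsg.GolayPt, (t.card = 2 ∧ p ∉ t ∧ q ∉ t) → (t'.card = 2 ∧ p ∉ t' ∧ q ∉ t') → t ≠ s → t' ≠ s → (s ∩ t).card = (s ∩ t').card → ((∃ o ∈ Cfsg.octads, p ∈ o ∧ q ∈ o ∧ s ∪ t ⊆ o) ↔ (∃ o ∈ Cfsg.octads, p ∈ o ∧ q ∈ o ∧ s ∪ t' ⊆ o)) → ∃ g : Equiv.Perm Cfsg.GolayPt, g ∈ Cfsg.M24 ∧ g p = p ∧ g q = q ∧ g • s = s ∧ g • t = t' := by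
  obtain ⟨b, hb, bp, bq⟩ := exists_first_two hpq
  subst bp; subst bq
  obtain ⟨m, hm, rfl⟩ := duadCoded.one_code hb hs.1
  obtain ⟨g, hg, hfix, eg⟩ := duadCoded.one_conj duadTwo_stab duadTwo_classes hb (m := 12) (by decide +kernel)
    (by decide +kernel) hm (by
      have h0 := hs.2.1; have h1 := hs.2.2
      rw [mem_smul_mask _ _ (by norm_num)] at h0 h1
      simp [hasPt, h0, h1]) rfl
  have g0 : g (b (pt 0)) = b (pt 0) := pt_fixed (by norm_num) (hfix [2 ^ 0] (by simp))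
  have g1 : g (b (pt 1)) = b (pt 1) := pt_fixed (by norm_num) (hfix [2 ^ 1] (by simp))
  have hgb : g * b ∈ Cfsg.M24 := mul_mem hg hb
  rw [← eg, ← mul_smul, show b (pt 0) = (g * b) (pt 0) from g0.symm, show b (pt 1) = (g * b) (pt 1) from g1.symm]
  generalize g * b = c at hgb
  have prop : ∀ n, [n] ∈ duadObjs →
      ((∃ o ∈ Cfsg.octads, c (pt 0) ∈ o ∧ c (pt 1) ∈ o ∧ c • setOfMask 12 ∪ c • setOfMask n ⊆ o) ↔
      pairProp n = true) := by
    intro n hn
    have hlt : 15 ||| n < 2 ^ 24 := Nat.or_lt_two_pow (by norm_num) (objs_small duadCoded hn)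
    rw [pairProp, show Nat.lor 15 n = 15 ||| n from rfl, ← exists_octad_superset hgb hlt]
    refine exists_congr fun o => and_congr_right fun _ => ?_
    rw [setOfMask_or, show setOfMask 15 = insert (pt 0) (insert (pt 1) (setOfMask 12)) by decide +kernel,
      Finset.smul_finset_union, Finset.smul_finset_insert, Finset.smul_finset_insert]
    simp only [Finset.union_subset_iff, Finset.insert_subset_iff, Equiv.Perm.smul_def]
    tauto
  refine ⟨?_, ?_, ?_⟩
  · rw [show {t : Finset Cfsg.GolayPt | (t.card = 2 ∧ c (pt 0) ∉ t ∧ c (pt 1) ∉ t) ∧ Disjoint (c • setOfMask 12) t ∧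
        (∃ o ∈ Cfsg.octads, c (pt 0) ∈ o ∧ c (pt 1) ∈ o ∧ c • setOfMask 12 ∪ t ⊆ o)} =
      {t | t ∈ {t : Finset Cfsg.GolayPt | t.card = 2} ∧ (c (pt 0) ∉ t ∧ c (pt 1) ∉ t ∧ Disjoint (c • setOfMask 12) t ∧
        (∃ o ∈ Cfsg.octads, c (pt 0) ∈ o ∧ c (pt 1) ∈ o ∧ c • setOfMask 12 ∪ t ⊆ o))} from
      Set.ext fun t => by simp only [Set.mem_setOf_eq, and_assoc],
      duadCoded.one_ncard hgb _ (fun X => !hasPt 0 X && !hasPt 1 X && Nat.beq (meetNum 12 X) 0 && pairProp (X.headD 0))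
        fun n hn => by
          rw [mem_smul_mask _ n (by norm_num), mem_smul_mask _ n (by norm_num), prop n hn, Finset.disjoint_iff_inter_eq_empty,
            ← Finset.card_eq_zero, card_inter_mask]
          simp [hasPt, meetNum, and_assoc]]
    decide +kernel
  · rw [show {t : Finset Cfsg.GolayPt | (t.card = 2 ∧ c (pt 0) ∉ t ∧ c (pt 1) ∉ t) ∧ Disjoint (c • setOfMask 12) t ∧
        ¬ (∃ o ∈ Cfsg.octads, c (pt 0) ∈ o ∧ c (pt 1) ∈ o ∧ c • setOfMask 12 ∪ t ⊆ o)} =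
      {t | t ∈ {t : Finset Cfsg.GolayPt | t.card = 2} ∧ (c (pt 0) ∉ t ∧ c (pt 1) ∉ t ∧ Disjoint (c • setOfMask 12) t ∧
        ¬ (∃ o ∈ Cfsg.octads, c (pt 0) ∈ o ∧ c (pt 1) ∈ o ∧ c • setOfMask 12 ∪ t ⊆ o))} from
      Set.ext fun t => by simp only [Set.mem_setOf_eq, and_assoc],
      duadCoded.one_ncard hgb _ (fun X => !hasPt 0 X && !hasPt 1 X && Nat.beq (meetNum 12 X) 0 && !pairProp (X.headD 0))
        fun n hn => by
          rw [mem_smul_mask _ n (by norm_num), mem_smul_mask _ n (by norm_num), prop n hn, Finset.disjoint_iff_inter_eq_empty,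
            ← Finset.card_eq_zero, card_inter_mask]
          simp [hasPt, meetNum, and_assoc]]
    decide +kernel
  rintro t t' ⟨ht, a0, a1⟩ ⟨ht', b0, b1⟩ ne ne' e eprop
  obtain ⟨n, hn, rfl⟩ := duadCoded.one_code hgb ht
  obtain ⟨n', hn', rfl⟩ := duadCoded.one_code hgb ht'
  rw [mem_smul_mask _ _ (by norm_num)] at a0 a1 b0 b1
  rw [card_inter_mask, card_inter_mask] at e
  rw [prop n hn, prop n' hn', ← Bool.eq_iff_iff] at eprop
  have hn12 : Nat.beq n 12 = false := by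
    rw [Bool.eq_false_iff]; intro h; exact ne (by rw [Nat.eq_of_beq_eq_true h])
  have hn12' : Nat.beq n' 12 = false := by
    rw [Bool.eq_false_iff]; intro h; exact ne' (by rw [Nat.eq_of_beq_eq_true h])
  obtain ⟨k, hk, kfix, ek⟩ := duadCoded.one_conj duadTwoIn_stab duadTwoIn_classes hgb hn
    (by simp [hasPt, a0, a1, hn12]) hn' (by simp [hasPt, b0, b1, hn12'])
    (by simp only [pairPhi, forceNat_eq, List.headD_cons]; rw [e, eprop])
  exact ⟨k, hk, pt_fixed (by norm_num) (kfix [2 ^ 0] (by simp)), pt_fixed (by norm_num) (kfix [2 ^ 1] (by simp)),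
    set_fixed (kfix [12] (by simp)), ek⟩

end Cfsg.Agent.S1638
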