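import Cfsg.Statements.S1639
import Cfsg.Agent.Lib.SporObjUse
import Cfsg.Agent.Lib.SporObjTrans
import Cfsg.Agent.Lib.SporObjPoint

set_option autoImplicit false
open scoped Pointwise
open Cfsg

namespace Cfsg.Agent.S1639

open CfsgLib.Spor
open scoped Pointwise

/-- The point stabiliser acts on the 1288 dodecads through the point with rank 4 and subdegrees 1, 165, 330, 792, distinguished by intersection 4, 8, 6 with the fixed dodecad. -/
theorem result (x : Cfsg.GolayPt) (d : Finset Cfsg.GolayPt) (hd : d ∈ Cfsg.dodecads) (hx : x ∈ d) : {d' : Finset Cfsg.GolayPt | d' ∈ Cfsg.dodecads ∧ x ∈ d' ∧ (d ∩ d').card = 4}.ncard = 165 ∧ {d' : Finset Cfsg.GolayPt | d' ∈ Cfsg.dodecads ∧ x ∈ d' ∧ (d ∩ d').card = 8}.ncard = 330 ∧ {d' : Finset Cfsg.GolayPt | d' ∈ Cfsg.dodecads ∧ x ∈ d' ∧ (d ∩ d').card = 6}.ncard = 792 ∧ ∀ d' d'' : Finset Cfsg.GolayPt, d' ∈ Cfsg.dodecads → d'' ∈ Cfsg.dodecads → x ∈ d' → x ∈ d'' → (d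 ∩ d').card = (d ∩ d'').card → ∃ g : Equiv.Perm Cfsg.GolayPt, g ∈ Cfsg.M24 ∧ g x = x ∧ g • d = d ∧ g • d' = d'' := by
  obtain ⟨b, hb, bx⟩ := exists_first x
  subst bx
  obtain ⟨m, hm, rfl⟩ := dodCoded.one_code hb hd
  obtain ⟨g, hg, hfix, eg⟩ := dodCoded.one_conj dodPt_stab dodPt_classes hb (n := m) bases_mem.2.2.2.1
    (by decide +kernel) hm ((mem_smul_mask b m (by norm_num)).1 hx) rfl
  have gx : g (b (pt 0)) = b (pt 0) := pt_fixed (by norm_num) (hfix [2 ^ 0] (by simp))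
  have hgb : g * b ∈ Cfsg.M24 := mul_mem hg hb
  rw [← gx, ← eg, ← mul_smul, show g (b (pt 0)) = (g * b) (pt 0) from rfl]
  have cnt : ∀ k, {o' : Finset Cfsg.GolayPt | o' ∈ Cfsg.dodecads ∧ (g * b) (pt 0) ∈ o' ∧
      ((g * b) • setOfMask 8419127 ∩ o').card = k}.ncard =
      dodObjs.countP fun X => hasPt 0 X && Nat.beq (meetNum 8419127 X) k := by
    intro k
    refine dodCoded.one_ncard hgb _ _ fun n _ => ?_
    rw [mem_smul_mask _ n (by norm_num), card_inter_mask, Bool.and_eq_true, Nat.beq_eq]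
    rfl
  refine ⟨?_, ?_, ?_, ?_⟩
  · rw [cnt]; decide +kernel
  · rw [cnt]; decide +kernel
  · rw [cnt]; decide +kernel
  intro o' o'' ho' ho'' hx' hx'' e
  obtain ⟨n, hn, rfl⟩ := dodCoded.one_code hgb ho'
  obtain ⟨n', hn', rfl⟩ := dodCoded.one_code hgb ho''
  rw [card_inter_mask, card_inter_mask] at e
  obtain ⟨k, hk, kfix, ek⟩ := dodCoded.one_conj dodPtIn_stab dodPtIn_classes hgb hn
    ((mem_smul_mask _ n (by norm_num)).1 hx') hn' ((mem_smul_mask _ n' (by norm_num)).1 hx'') e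
  exact ⟨k, hk, pt_fixed (by norm_num) (kfix [2 ^ 0] (by simp)), set_fixed (kfix dodBase (by simp)), ek⟩

end Cfsg.Agent.S1639
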