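import Cfsg.Statements.S1691


set_option autoImplicit false
open Cfsg

namespace Cfsg.Agent.S1691

/-- The commutator subgroup of the presented group Fi₂₄ has index 2 (the presented group is Fi₂₄′:2 with Fi₂₄′ its derived subgroup). -/
theorem result : (commutator Cfsg.Spor.Fi24).index = 2 := by
  let z : Multiplicative (ZMod 2) := Multiplicative.ofAdd 1
  have hz : z ^ 2 = 1 := by decide
  have hrel : ∀ r ∈ Cfsg.Spor.coxRelators Cfsg.Spor.Fi24.edges ∪ {r | r ∈ Cfsg.Spor.Fi24.extra},
      FreeGroup.lift (fun _ : Cfsg.Spor.Fi24.Gen => z) r = 1 := by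
    rintro r (⟨x, -, y, -, rfl⟩ | hr)
    · rw [map_pow, map_mul, FreeGroup.lift_apply_of, FreeGroup.lift_apply_of, ← sq, hz, one_pow]
    · simp only [Set.mem_ofPred_eq, Cfsg.Spor.Fi24.extra, List.mem_cons, List.not_mem_nil, or_false] at hr
      rcases hr with rfl | rfl <;> simp [map_mul, map_pow] <;> decide
  let φ : Cfsg.Spor.Fi24 →* Multiplicative (ZMod 2) := PresentedGroup.toGroup hrel
  let ψ := Abelianization.lift φ
  let q : Cfsg.Spor.Fi24.Gen → Abelianization Cfsg.Spor.Fi24 := fun x => Abelianization.of (PresentedGroup.of x)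
  have hq : ∀ x ∈ Cfsg.Spor.coxNodes Cfsg.Spor.Fi24.edges, ∀ y ∈ Cfsg.Spor.coxNodes Cfsg.Spor.Fi24.edges,
      (q x * q y) ^ Cfsg.Spor.coxLabel Cfsg.Spor.Fi24.edges x y = 1 := by
    intro x hx y hy
    have h : PresentedGroup.mk (Cfsg.Spor.coxRelators Cfsg.Spor.Fi24.edges ∪ {r | r ∈ Cfsg.Spor.Fi24.extra})
        ((FreeGroup.of x * FreeGroup.of y) ^ Cfsg.Spor.coxLabel Cfsg.Spor.Fi24.edges x y) = 1 :=
      PresentedGroup.one_of_mem (Or.inl ⟨x, hx, y, hy, rfl⟩)
    have := congrArg Abelianization.of h
    rwa [map_pow, map_mul, map_one, map_pow, map_mul] at this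
  have hnode : ∀ x : Cfsg.Spor.Fi24.Gen, x ∈ Cfsg.Spor.coxNodes Cfsg.Spor.Fi24.edges := by
    intro x; cases x <;> decide +kernel
  have hsq : ∀ x, q x ^ 2 = 1 := fun x => by
    have := hq x (hnode x) x (hnode x)
    rwa [show Cfsg.Spor.coxLabel Cfsg.Spor.Fi24.edges x x = 1 by cases x <;> decide +kernel, pow_one, ← sq] at this
  have hedge : ∀ x y, Cfsg.Spor.coxLabel Cfsg.Spor.Fi24.edges x y = 3 → q x = q y := by
    intro x y h
    have e := hq x (hnode x) y (hnode y)
    rw [h, mul_pow, pow_succ, hsq, one_mul, pow_succ, hsq, one_mul] at e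
    rw [eq_inv_of_mul_eq_one_left e]
    exact inv_eq_of_mul_eq_one_right (by rw [← sq]; exact hsq y)
  have hd : ∀ x, q x = q .d := by
    intro x
    have h1 : q .c = q .d := hedge _ _ (by decide +kernel)
    have h2 : q .b = q .d := (hedge _ _ (by decide +kernel)).trans h1
    have h3 : q .a = q .d := (hedge _ _ (by decide +kernel)).trans h2
    have h4 : q .k = q .d := (hedge _ _ (by decide +kernel)).trans h3
    have h5 : q .e = q .d := hedge _ _ (by decide +kernel)
    have h6 : q .f = q .d := (hedge _ _ (by decide +kernel)).trans h5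
    have h7 : q .g = q .d := (hedge _ _ (by decide +kernel)).trans h6
    have h8 : q .h = q .d := hedge _ _ (by decide +kernel)
    cases x
    exacts [(hedge _ _ (by decide +kernel)).trans h4, h4, h3, h2, h1, rfl, h5, h6, h7,
      (hedge _ _ (by decide +kernel)).trans h7, h8, (hedge _ _ (by decide +kernel)).trans h8]
  have hall : ∀ a : Abelianization Cfsg.Spor.Fi24, a = 1 ∨ a = q .d := by
    intro a
    induction a using QuotientGroup.induction_on with
    | H g =>
      show Abelianization.of g = 1 ∨ Abelianization.of g = q .d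
      have hg : Abelianization.of g ∈ Subgroup.zpowers (q .d) := by
        have : g ∈ (Subgroup.zpowers (q .d)).comap Abelianization.of := by
          refine PresentedGroup.generated_by _ _ (fun x => ?_) g
          rw [Subgroup.mem_comap]
          show q x ∈ _
          rw [hd x]; exact Subgroup.mem_zpowers _
        exact this
      obtain ⟨n, hn⟩ := hg
      simp only at hn
      rw [← hn]
      rcases Int.even_or_odd' n with ⟨k, rfl | rfl⟩
      · left; rw [zpow_mul, show q .d ^ (2 : ℤ) = 1 from hsq _, one_zpow]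
      · right; rw [zpow_add, zpow_mul, show q .d ^ (2 : ℤ) = 1 from hsq _, one_zpow, one_mul, zpow_one]
  have hψ : ψ (q .d) = z := by simp [ψ, q, φ]
  have hbij : Function.Bijective ψ := by
    constructor
    · intro a b hab
      rcases hall a with rfl | rfl <;> rcases hall b with rfl | rfl
      · rfl
      · rw [map_one, hψ] at hab; exact absurd hab (by decide)
      · rw [map_one, hψ] at hab; exact absurd hab (by decide)
      · rfl
    · intro u
      rcases (by decide : ∀ u : Multiplicative (ZMod 2), u = 1 ∨ u = Multiplicative.ofAdd 1) u with rfl | rfl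
      · exact ⟨1, map_one _⟩
      · exact ⟨q .d, hψ⟩
  show Nat.card (Abelianization Cfsg.Spor.Fi24) = 2
  rw [Nat.card_eq_of_bijective _ hbij, Nat.card_eq_fintype_card, Fintype.card_multiplicative, ZMod.card]

end Cfsg.Agent.S1691
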