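import Cfsg.Statements.S1717
import Cfsg.Agent.Lib.SporSLFive

set_option autoImplicit false
open Cfsg

namespace Cfsg.Agent.S1717
open CfsgLib.Spor.SLFive

/-- Let G be a finite group with an involution z whose centraliser C is isomorphic to the centraliser of a transvection of SL(5, 2). Then a Sylow 2-subgroup of C, viewed in G, is a Sylow 2-subgroup of G (its index in G is odd). -/
theorem result {G : Type*} [Group G] [Finite G] (s : Matrix.SpecialLinearGroup (Fin 5) (ZMod 2)) (hs : (s : Matrix (Fin 5) (Fin 5) (ZMod 2)) = Matrix.transvection 0 1 1) (z : G) (hz : orderOf z = 2) (e : (Subgroup.centralizer ({z} : Set G)) ≃* Subgroup.centralizer ({s} : Set (Matrix.SpecialLinearGroup (Fin 5) (ZMod 2)))) (T : Sylow 2 (Subgroup.centralizer ({z} : Set G))) : ¬ 2 ∣ ((T : Subgroup (Subgroup.centralizer ({z} : Set G))).map (Subgroup.subtype (Subgroup.centralizer ({z} : Set G)))).index := by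
  classical
  intro h2
  have := Fact.mk Nat.prime_two
  have hC : Nat.card (Subgroup.centralizer ({z} : Set G)) = 2 ^ 10 * 21 := by
    rw [Nat.card_congr e.toEquiv, card_centralizer hs]; norm_num
  have hT : Nat.card T = 2 ^ 10 := by
    rw [T.card_eq_multiplicity, hC]
    congr 1
    rw [Nat.factorization_mul (by norm_num) (by norm_num)]
    rw [Finsupp.add_apply, Nat.factorization_pow, Finsupp.smul_apply, Nat.Prime.factorization_self Nat.prime_two,
      Nat.factorization_eq_zero_of_not_dvd (show ¬ 2 ∣ 21 by decide)]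
    rfl
  set T₀ := (T : Subgroup (Subgroup.centralizer ({z} : Set G))).map (Subgroup.centralizer ({z} : Set G)).subtype
  have hT0 : Nat.card T₀ = 2 ^ 10 := by
    rw [Subgroup.card_map_of_injective (Subgroup.centralizer ({z} : Set G)).subtype_injective]; exact hT
  have hcore : core s hs ≤ (T : Subgroup (Subgroup.centralizer ({z} : Set G))).map e.toMonoidHom := by
    have hp : IsPGroup 2 (core s hs) := IsPGroup.of_card (card_core hs)
    have : (core s hs).Normal := MonoidHom.normal_ker _
    have := hp.le_sylow_of_normal (T.mapSurjective (f := e.toMonoidHom) e.surjective)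
    simpa using this
  have hzC : z ∈ (Subgroup.centralizer ({z} : Set G)) := Subgroup.mem_centralizer_singleton_iff.2 rfl
  have hctr : ∀ y ∈ T₀, (∀ t ∈ T₀, t * y = y * t) → y = 1 ∨ ∃ h : y ∈ (Subgroup.centralizer ({z} : Set G)), (e ⟨y, h⟩).1 = s := by
    rintro _ ⟨y, hy, rfl⟩ hc
    rcases eq_of_centralizes_core hs (x := e y) (fun k hk => by
      obtain ⟨t, ht, rfl⟩ := hcore hk
      have := hc (t : G) ⟨t, ht, rfl⟩
      show e t * e y = e y * e t
      rw [← map_mul, ← map_mul]
      exact congrArg e (Subtype.ext this)) with h | h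
    · exact Or.inl (by rw [e.map_eq_one_iff] at h; simp [h])
    · exact Or.inr ⟨y.2, h⟩
  have hz1 : z ≠ 1 := fun h => by simp [h] at hz
  have hzT : z ∈ T₀ := by
    refine ⟨⟨z, hzC⟩, ?_, rfl⟩
    have hp : IsPGroup 2 (Subgroup.zpowers (⟨z, hzC⟩ : (Subgroup.centralizer ({z} : Set G)))) := IsPGroup.of_card (n := 1) (by
      rw [Nat.card_zpowers, Subgroup.orderOf_mk, hz]; rfl)
    have : (Subgroup.zpowers (⟨z, hzC⟩ : (Subgroup.centralizer ({z} : Set G)))).Normal := by
      refine ⟨fun n hn g => ?_⟩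
      obtain ⟨m, rfl⟩ := hn
      have hg : Commute g (⟨z, hzC⟩ : (Subgroup.centralizer ({z} : Set G))) := Subtype.ext (Subgroup.mem_centralizer_singleton_iff.1 g.2)
      rw [(hg.zpow_right m).eq, mul_inv_cancel_right]
      exact Subgroup.zpow_mem_zpowers _ m
    exact hp.le_sylow_of_normal T (Subgroup.mem_zpowers _)
  have hzc : ∀ t ∈ T₀, t * z = z * t := by
    rintro _ ⟨t, -, rfl⟩
    exact Subgroup.mem_centralizer_singleton_iff.1 t.2
  have hN : Subgroup.normalizer (T₀ : Set G) ≤ (Subgroup.centralizer ({z} : Set G)) := by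
    intro g hg
    have hy : g * z * g⁻¹ ∈ T₀ := (Subgroup.mem_normalizer_iff.1 hg z).1 hzT
    have hc : ∀ t ∈ T₀, t * (g * z * g⁻¹) = g * z * g⁻¹ * t := by
      intro t ht
      have h2 : g⁻¹ * t * g ∈ T₀ := (Subgroup.mem_normalizer_iff''.1 hg t).1 ht
      have h3 := hzc _ h2
      calc t * (g * z * g⁻¹) = g * ((g⁻¹ * t * g) * z) * g⁻¹ := by group
        _ = g * (z * (g⁻¹ * t * g)) * g⁻¹ := by rw [h3]
        _ = g * z * g⁻¹ * t := by group
    rcases hctr _ hy hc with h | ⟨h, hs1⟩
    · exact absurd (conj_eq_one_iff.1 h) hz1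
    · rcases hctr z hzT hzc with h' | ⟨h', hs2⟩
      · exact absurd h' hz1
      · have := congrArg Subtype.val (e.injective (Subtype.ext (hs1.trans hs2.symm)))
        simp only at this
        rw [Subgroup.mem_centralizer_singleton_iff]
        exact mul_inv_eq_iff_eq_mul.1 this
  have hG : 2 ^ 11 ∣ Nat.card G := by
    rw [← T₀.card_mul_index, hT0, pow_succ]
    exact Nat.mul_dvd_mul_left _ h2
  have hmod := Sylow.card_normalizer_modEq_card (p := 2) (n := 10) hT0
  have : 2 ^ 11 ∣ Nat.card (Subgroup.centralizer ({z} : Set G)) := ((Nat.ModEq.dvd_iff hmod dvd_rfl).2 hG).trans (Subgroup.card_dvd_of_le hN)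
  rw [hC] at this
  norm_num at this

end Cfsg.Agent.S1717
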