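import Cfsg.Statements.S1753


set_option autoImplicit false
universe u
open Cfsg

namespace Cfsg.Agent.S1753

/-- Let K be any property of groups. (1) If G is a minimal counterexample relative to K — a finite non-abelian simple group not satisfying K such that every finite non-abelian simple group of smaller order satisfies K — then every proper subgroup of G is a K-group (all its non-abelian simple sections satisfy K), since such sections have smaller order than G. (2) Consequently (induction on the order), if every finite non-abelian simple group all of whose proper subgroups are K-groups satisfies K, then every finite non-abelian simple group satisfies K. -/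
theorem result (K : ∀ (X : Type u) [Group X], Prop) :
    (∀ (G : Type u) [Group G], Cfsg.IsMinCounterexampleWith K G → Cfsg.IsKProperWith K G) ∧
      ((∀ (X : Type u) [Group X] [Finite X], IsSimpleGroup X → ¬ IsMulCommutative X → Cfsg.IsKProperWith K X → K X) →
        ∀ (G : Type u) [Group G] [Finite G], IsSimpleGroup G → ¬ IsMulCommutative G → K G) := by
  have h1 : ∀ (G : Type u) [Group G], Cfsg.IsMinCounterexampleWith K G → Cfsg.IsKProperWith K G := by
    intro G _ hm H hH H' N _ hs hna
    obtain ⟨hfin, -, -, -, hmin⟩ := hm
    haveI := hfin
    refine hmin (↥H' ⧸ N) hs hna ?_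
    have e1 : Nat.card (↥H' ⧸ N) ≤ Nat.card H' := Nat.le_of_dvd Nat.card_pos (Subgroup.card_quotient_dvd_card N)
    have e2 : Nat.card H' ≤ Nat.card H := Nat.le_of_dvd Nat.card_pos H'.card_subgroup_dvd_card
    have e3 : Nat.card H < Nat.card G := lt_of_le_of_ne (Nat.le_of_dvd Nat.card_pos H.card_subgroup_dvd_card)
      (fun h => hH (Subgroup.eq_top_of_card_eq H h))
    omega
  refine ⟨h1, fun hstep G _ _ hs hna => ?_⟩
  suffices h : ∀ (n : ℕ) (X : Type u) [Group X] [Finite X], Nat.card X = n → IsSimpleGroup X → ¬ IsMulCommutative X → K X from
    h _ G rfl hs hna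
  intro n
  induction n using Nat.strong_induction_on with
  | _ n ih =>
    intro X _ _ hn hs hna
    by_contra hK
    exact hK (hstep X hs hna (h1 X ⟨inferInstance, hs, hna, hK, fun Y _ _ hsY hnaY hlt => ih _ (hn ▸ hlt) Y rfl hsY hnaY⟩))

end Cfsg.Agent.S1753
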