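import Cfsg.Statements.S1754
import Cfsg.Agent.Lib.CoreLayer

set_option autoImplicit false
open Cfsg

namespace Cfsg.Agent.S1754

/-- Let A be a standard subgroup of the finite group G (A quasisimple, C_G(A) tightly embedded of even order, A commuting elementwise with no other conjugate of itself, and N_G(A) = N_G(C_G(A))), and let t be an involution of G centralizing A. Then the centralizer of t lies in the normalizer of A; in particular A, viewed inside C_G(t), is a component of C_G(t). -/
theorem result {G : Type*} [Group G] [Finite G]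
    (A : Subgroup G) (hA : Cfsg.IsStandardSubgroup A) (t : G) (ht : orderOf t = 2) (htA : t ∈ Subgroup.centralizer (A : Set G)) :
    Subgroup.centralizer ({t} : Set G) ≤ Subgroup.normalizer (A : Set G) ∧
      Cfsg.IsComponent (A.subgroupOf (Subgroup.centralizer ({t} : Set G))) := by
  classical
  obtain ⟨hq, ⟨heven, hte⟩, -, hn⟩ := hA
  have hA' : A ≤ Subgroup.centralizer ({t} : Set G) := fun a ha => by
    rw [Subgroup.mem_centralizer_iff]
    intro z hz
    rw [Set.mem_singleton_iff] at hz
    subst hz
    exact (Subgroup.mem_centralizer_iff.mp htA a ha).symm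
  have hle : Subgroup.centralizer ({t} : Set G) ≤ Subgroup.normalizer (A : Set G) := by
    intro u hu
    rw [hn]
    by_contra h
    have hut : t * u = u * t := Subgroup.mem_centralizer_iff.mp hu t rfl
    have hmem : t ∈ Subgroup.centralizer (A : Set G) ⊓
        (Subgroup.centralizer (A : Set G)).map (MulAut.conj u).toMonoidHom :=
      ⟨htA, t, htA, by simp [← hut]⟩
    have h2 : (2 : ℕ) ∣ Nat.card ↥(Subgroup.centralizer (A : Set G) ⊓
        (Subgroup.centralizer (A : Set G)).map (MulAut.conj u).toMonoidHom) := by
      have := orderOf_dvd_natCard (⟨t, hmem⟩ : ↥(Subgroup.centralizer (A : Set G) ⊓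
        (Subgroup.centralizer (A : Set G)).map (MulAut.conj u).toMonoidHom))
      rwa [Subgroup.orderOf_mk, ht] at this
    exact Nat.not_even_iff_odd.mpr (hte u h) (even_iff_two_dvd.mpr h2)
  refine ⟨hle, ?_, CfsgLib.Core.quasisimple_congr (Subgroup.subgroupOfEquivOfLe hA').symm hq⟩
  exact ((Subgroup.normal_subgroupOf_iff_le_normalizer hA').mpr hle).isSubnormal

end Cfsg.Agent.S1754
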