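import Cfsg.Statements.S1755
import Cfsg.Agent.Lib.CoreFitting
import Cfsg.Agent.Lib.CoreLayer
import Cfsg.Agent.Lib.CoreConjByOrder

set_option autoImplicit false
open Cfsg

namespace Cfsg.Agent.S1755

instance {A : Type*} [Group A] [Finite A] [IsCyclic A] : IsCyclic ↥(⊤ : Subgroup A) :=
  Subgroup.topEquiv.isCyclic.mpr inferInstance

theorem subgroup_eq_of_card {A : Type*} [Group A] [Finite A] [IsCyclic A] {H K : Subgroup A}
    (h : Nat.card H = Nat.card K) : H = K :=
  CfsgLib.Core.ConjByOrder.eq_of_card_eq_cyclic (C := (⊤ : Subgroup A)) le_top le_top h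

theorem aux {G : Type*} [Group G] [Finite G] (C : Subgroup G) (Q : Subgroup ↥C) [Q.Normal] (z : G)
    (hC : C = Subgroup.centralizer ({z} : Set G)) (hz : orderOf z = 2) (hzC : z ∈ C)
    (hzQ : (⟨z, hzC⟩ : ↥C) ∈ Q) (hzc : (⟨z, hzC⟩ : ↥C) ∈ Subgroup.center ↥C)
    (hQ2 : IsPGroup 2 ↥Q) (hQc : ∀ A : Subgroup ↥Q, A.Characteristic → IsMulCommutative A → IsCyclic A)
    (B : Subgroup ↥Q) [hBc : B.Characteristic] (hBa : IsMulCommutative ↥B) (g : G) :
    ((B.map Q.subtype).map C.subtype).map (MulAut.conj g).toMonoidHom = (B.map Q.subtype).map C.subtype ∨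
      ((B.map Q.subtype).map C.subtype).map (MulAut.conj g).toMonoidHom ⊓ (B.map Q.subtype).map C.subtype = ⊥ := by
  classical
  haveI : Fact (Nat.Prime 2) := ⟨Nat.prime_two⟩
  haveI hBn : (B.map Q.subtype).Normal := inferInstance
  set B₀ := (B.map Q.subtype).map C.subtype with hB0
  by_cases hbot : B₀.map (MulAut.conj g).toMonoidHom ⊓ B₀ = ⊥
  · exact Or.inr hbot
  · left
    set zC : ↥C := ⟨z, hzC⟩ with hzCdef
    set zQ : ↥Q := ⟨zC, hzQ⟩ with hzQdef
    have hzZ : zQ ∈ Subgroup.center ↥Q := Subgroup.mem_center_iff.mpr fun y =>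
      Subtype.ext (Subgroup.mem_center_iff.mp hzc y.1)
    have hz2 : orderOf zQ = 2 := by
      rw [← Subgroup.orderOf_coe, ← Subgroup.orderOf_coe]
      exact hz
    -- the only central involution of `Q`
    haveI : IsCyclic ↥(Subgroup.center ↥Q) := hQc _ inferInstance inferInstance
    have uniq : ∀ w ∈ Subgroup.center ↥Q, orderOf w = 2 → w = zQ := by
      intro w hw hw2
      have h1 : (⟨w, hw⟩ : Subgroup.center ↥Q) ∈ Subgroup.zpowers (⟨zQ, hzZ⟩ : Subgroup.center ↥Q) := by
        have e : Subgroup.zpowers (⟨w, hw⟩ : Subgroup.center ↥Q) = Subgroup.zpowers ⟨zQ, hzZ⟩ :=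
          subgroup_eq_of_card (by rw [Nat.card_zpowers, Nat.card_zpowers, ← Subgroup.orderOf_coe (⟨w, hw⟩ : Subgroup.center ↥Q), ← Subgroup.orderOf_coe (⟨zQ, hzZ⟩ : Subgroup.center ↥Q)]; exact hw2.trans hz2.symm)
        exact e ▸ Subgroup.mem_zpowers _
      obtain ⟨k, hk⟩ := Subgroup.mem_zpowers_iff.mp h1
      have hk' : zQ ^ k = w := congrArg Subtype.val hk
      rw [← hk', ← zpow_mod_orderOf, hz2]
      rcases Int.emod_two_eq k with h | h
      · exfalso
        rw [← zpow_mod_orderOf, hz2] at hk'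
        norm_num [h] at hk'
        rw [← hk', orderOf_one] at hw2
        omega
      · norm_num [h]
    haveI : IsCyclic ↥B := hQc B hBc hBa
    -- an involution in both
    obtain ⟨x, hx, hx1⟩ := (B₀.map (MulAut.conj g).toMonoidHom ⊓ B₀).bot_or_exists_ne_one.resolve_left hbot
    have hp : IsPGroup 2 ↥(B₀.map (MulAut.conj g).toMonoidHom ⊓ B₀) :=
      (((hQ2.to_subgroup B).map Q.subtype).map C.subtype).to_le inf_le_right
    haveI : Nontrivial ↥(B₀.map (MulAut.conj g).toMonoidHom ⊓ B₀) := ⟨⟨⟨x, hx⟩, 1, fun e => hx1 (congrArg Subtype.val e)⟩⟩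
    obtain ⟨w, hw⟩ : ∃ w : ↥(B₀.map (MulAut.conj g).toMonoidHom ⊓ B₀), orderOf w = 2 := by
      obtain ⟨n, hc⟩ := IsPGroup.iff_card.mp hp
      have hn : n ≠ 0 := fun e => by
        rw [e, pow_zero] at hc
        exact Finite.one_lt_card.ne' hc
      exact exists_prime_orderOf_dvd_card' 2 (hc ▸ dvd_pow_self 2 hn)
    -- every involution of `B₀` is `z`
    have inv : ∀ u ∈ B₀, orderOf u = 2 → u = z := by
      rintro _ ⟨_, ⟨b, hb, rfl⟩, rfl⟩ hu
      have hb2 : orderOf b = 2 := by
        rw [← Subgroup.orderOf_coe, ← Subgroup.orderOf_coe]; exact hu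
      have hcen : b ∈ Subgroup.center ↥Q := by
        rw [Subgroup.mem_center_iff]
        intro y
        have hy : y * b * y⁻¹ ∈ B := (Subgroup.normal_of_characteristic B).conj_mem b hb y
        have e : Subgroup.zpowers (⟨y * b * y⁻¹, hy⟩ : ↥B) = Subgroup.zpowers ⟨b, hb⟩ :=
          subgroup_eq_of_card (by
            rw [Nat.card_zpowers, Nat.card_zpowers, ← Subgroup.orderOf_coe (⟨y * b * y⁻¹, hy⟩ : ↥B), ← Subgroup.orderOf_coe (⟨b, hb⟩ : ↥B)]
            exact MulEquiv.orderOf_eq (MulAut.conj y) b)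
        obtain ⟨k, hk⟩ := Subgroup.mem_zpowers_iff.mp (e ▸ Subgroup.mem_zpowers (⟨y * b * y⁻¹, hy⟩ : ↥B))
        have hk' : b ^ k = y * b * y⁻¹ := congrArg Subtype.val hk
        rw [← zpow_mod_orderOf, hb2] at hk'
        rcases Int.emod_two_eq k with h | h
        · exfalso
          norm_num [h] at hk'
          have : orderOf b = 1 := orderOf_eq_one_iff.mpr (conj_eq_one_iff.mp hk'.symm)
          omega
        · norm_num [h] at hk'
          exact (mul_inv_eq_iff_eq_mul.mp hk'.symm)
      rw [uniq b hcen hb2]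
      rfl
    replace hw : orderOf (w : G) = 2 := (Subgroup.orderOf_coe w).trans hw
    obtain ⟨w, hw1, hw2⟩ := w
    change orderOf w = 2 at hw
    have hwz : w = z := inv w hw2 hw
    obtain ⟨u, hu, hug⟩ := hw1
    have huz : u = z := inv u hu (by rw [← hw, ← hug]; exact (MulEquiv.orderOf_eq (MulAut.conj g) u).symm)
    have hgC : g ∈ C := hC ▸ Subgroup.mem_centralizer_iff.mpr fun y hy => by
      rw [Set.mem_singleton_iff.mp hy]
      have : g * z * g⁻¹ = z := by
        have e := hug
        rw [huz, hwz] at e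
        exact e
      exact (mul_inv_eq_iff_eq_mul.mp this).symm
    have hnorm : g ∈ Subgroup.normalizer (B₀ : Set G) := by
      rw [Subgroup.mem_normalizer_iff]
      intro v
      constructor
      · rintro ⟨c, hc, rfl⟩
        exact ⟨⟨g, hgC⟩ * c * ⟨g, hgC⟩⁻¹, hBn.conj_mem c hc _, rfl⟩
      · rintro ⟨c, hc, hcv⟩
        refine ⟨⟨g, hgC⟩⁻¹ * c * ⟨g, hgC⟩, by simpa using hBn.conj_mem c hc (⟨g, hgC⟩⁻¹), ?_⟩
        change (c : G) = g * v * g⁻¹ at hcv
        show g⁻¹ * (c : G) * g = v
        rw [hcv]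
        group
    exact Subgroup.mem_normalizer_iff_map_conj_eq.mp hnorm

/-- Let G be a finite group and let z be an involution of G such that Q, the generalized Fitting subgroup of the centralizer C of z, is a 2-group of symplectic type (every characteristic abelian subgroup of Q is cyclic). Let B be a characteristic abelian subgroup of Q, viewed as a subgroup of G. Then for every g in G, the conjugate of B by g either equals B or meets B trivially. -/
theorem result {G : Type*} [Group G] [Finite G] (z : G) (hz : orderOf z = 2) (hQ : Cfsg.IsOfSymplecticType ↥(Cfsg.generalizedFittingSubgroup ↥(Subgroup.centralizer ({z} : Set G))))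
    (B : Subgroup ↥(Cfsg.generalizedFittingSubgroup ↥(Subgroup.centralizer ({z} : Set G)))) (hBc : B.Characteristic) (hBa : IsMulCommutative ↥B) (g : G) :
    ((B.map (Cfsg.generalizedFittingSubgroup ↥(Subgroup.centralizer ({z} : Set G))).subtype).map (Subgroup.centralizer ({z} : Set G)).subtype).map (MulAut.conj g).toMonoidHom =
        (B.map (Cfsg.generalizedFittingSubgroup ↥(Subgroup.centralizer ({z} : Set G))).subtype).map (Subgroup.centralizer ({z} : Set G)).subtype ∨
      ((B.map (Cfsg.generalizedFittingSubgroup ↥(Subgroup.centralizer ({z} : Set G))).subtype).map (Subgroup.centralizer ({z} : Set G)).subtype).map (MulAut.conj g).toMonoidHom ⊓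
        (B.map (Cfsg.generalizedFittingSubgroup ↥(Subgroup.centralizer ({z} : Set G))).subtype).map (Subgroup.centralizer ({z} : Set G)).subtype = ⊥ := by
  classical
  haveI : Fact (Nat.Prime 2) := ⟨Nat.prime_two⟩
  haveI := CfsgLib.Core.normal_generalizedFittingSubgroup (G := ↥(Subgroup.centralizer ({z} : Set G)))
  have hzC : z ∈ Subgroup.centralizer ({z} : Set G) := Subgroup.mem_centralizer_iff.mpr fun y hy => by
    rw [Set.mem_singleton_iff.mp hy]
  have hzc : (⟨z, hzC⟩ : ↥(Subgroup.centralizer ({z} : Set G))) ∈ Subgroup.center _ :=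
    Subgroup.mem_center_iff.mpr fun y => Subtype.ext ((Subgroup.mem_centralizer_iff.mp y.2 z rfl).symm)
  have hzQ : (⟨z, hzC⟩ : ↥(Subgroup.centralizer ({z} : Set G))) ∈ Cfsg.generalizedFittingSubgroup _ := by
    refine le_sup_right (a := Cfsg.layer _) (CfsgLib.Core.le_fittingSubgroup inferInstance ?_ hzc)
    open scoped IsMulCommutative in exact CommGroup.isNilpotent (G := ↥(Subgroup.center ↥(Subgroup.centralizer ({z} : Set G))))
  haveI := hBc
  exact aux _ _ z rfl hz hzC hzQ hzc hQ.1 hQ.2 B hBa g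

end Cfsg.Agent.S1755
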