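import Cfsg.Statements.S1756
import Cfsg.Agent.Lib.TransferMore
import Cfsg.Agent.Lib.CorePGroup

set_option autoImplicit false
open Cfsg
open scoped commutatorElement

namespace Cfsg.Agent.S1756


theorem isExtraspecial_of_equiv {P R : Type*} [Group P] [Group R] {p : ℕ} (e : P ≃* R)
    (h : Cfsg.IsExtraspecial p P) : Cfsg.IsExtraspecial p R := by
  obtain ⟨⟨hp, hF, hC⟩, hZ⟩ := h
  have hc : (Subgroup.center P).map e.toMonoidHom = Subgroup.center R := by
    ext r
    constructor
    · rintro ⟨z, hz, rfl⟩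
      refine Subgroup.mem_center_iff.mpr fun y => ?_
      have := congrArg e (Subgroup.mem_center_iff.mp hz (e.symm y))
      simpa using this
    · intro hr
      refine ⟨e.symm r, Subgroup.mem_center_iff.mpr fun y => e.injective ?_, by simp⟩
      simpa using Subgroup.mem_center_iff.mp hr (e y)
  refine ⟨⟨hp.of_equiv e, ?_, ?_⟩, ?_⟩
  · rw [← hc, ← hF]
    refine le_antisymm (fun r hr => ?_) ?_
    · exact ⟨e.symm r, frattini_le_comap_frattini_of_surjective (φ := e.symm.toMonoidHom)
        e.symm.surjective hr, by simp⟩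
    · rintro _ ⟨z, hz, rfl⟩
      exact frattini_le_comap_frattini_of_surjective (φ := e.toMonoidHom) e.surjective hz
  · rw [← hc, ← hC, commutator_def, commutator_def, Subgroup.map_commutator,
      Subgroup.map_top_of_surjective _ e.surjective]
  · rw [← hZ]; exact (Nat.card_congr (Subgroup.centerCongr e).toEquiv).symm


/-- Let Q be an extraspecial 2-subgroup of the finite group G (special with centre of order 2) and t an involution of G normalizing Q such that the centralizer of t in Q has index at most 2 in Q. Then t lies in the product of Q with the centralizer of Q. -/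
theorem result {G : Type*} [Group G] [Finite G] (Q : Subgroup G)
    (hQ : Cfsg.IsExtraspecial 2 ↥Q) (t : G) (ht : orderOf t = 2) (htN : t ∈ Subgroup.normalizer (Q : Set G))
    (hi : (Subgroup.centralizer ({t} : Set G) ⊓ Q).relIndex Q ≤ 2) :
    t ∈ Q ⊔ Subgroup.centralizer (Q : Set G) := by
  haveI : Fact (Nat.Prime 2) := ⟨Nat.prime_two⟩
  obtain ⟨⟨hQp, hF, hC⟩, hZc⟩ := id hQ
  set H := Subgroup.centralizer ({t} : Set G) ⊓ Q with hH
  set Z := (Subgroup.center ↥Q).map Q.subtype with hZd
  have ht2 : t * t = 1 := by rw [← pow_two, ← ht]; exact pow_orderOf_eq_one t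
  have hti : t⁻¹ = t := inv_eq_of_mul_eq_one_right ht2
  have hfix : ∀ x, x ∈ H → t * x * t⁻¹ = x := by
    intro x hx
    rw [← Subgroup.mem_centralizer_singleton_iff.mp (Subgroup.mem_inf.mp hx).1, mul_inv_cancel_right]
  have hcomm : ∀ x ∈ Q, ⁅t, x⁆ ∈ Z := by
    intro x hx
    by_cases hxH : x ∈ H
    · rw [commutatorElement_def, hfix x hxH, mul_inv_cancel]
      exact one_mem _
    have hidx : (H.subgroupOf Q).index = 2 := by
      have h1 : (H.subgroupOf Q).index ≠ 0 := Subgroup.index_ne_zero_of_finite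
      have h2 : (H.subgroupOf Q).index ≠ 1 := fun e =>
        hxH (Subgroup.relIndex_eq_one.mp e hx)
      have h3 : (H.subgroupOf Q).index ≤ 2 := hi
      omega
    have hmul : ∀ a b : G, a ∈ Q → b ∈ Q → (a * b ∈ H ↔ (a ∈ H ↔ b ∈ H)) := by
      intro a b ha hb
      have := Subgroup.mul_mem_iff_of_index_two hidx (a := (⟨a, ha⟩ : ↥Q)) (b := ⟨b, hb⟩)
      simpa [Subgroup.mem_subgroupOf] using this
    haveI : (H.subgroupOf Q).Normal := Subgroup.normal_of_index_eq_two hidx
    have hcH : ∀ a b : G, a ∈ Q → b ∈ Q → a * b * a⁻¹ * b⁻¹ ∈ H := by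
      intro a b ha hb
      rw [hmul _ _ (mul_mem (mul_mem ha hb) (inv_mem ha)) (inv_mem hb), inv_mem_iff,
        hmul _ _ (mul_mem ha hb) (inv_mem ha), inv_mem_iff, hmul _ _ ha hb]
      tauto
    set x' := t * x * t⁻¹ with hx'
    have hx'Q : x' ∈ Q := (Subgroup.mem_normalizer_iff.mp htN x).mp hx
    set h := x⁻¹ * x' with hh
    have hx'H : x' ∉ H := by
      intro hm
      refine hxH ?_
      have := hfix x' hm
      rw [hx', hti] at this
      rw [show x = t * (t * x * t) * t by
        simp only [mul_assoc, ht2, mul_one]; rw [← mul_assoc, ht2, one_mul]]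
      rw [this]
      rwa [hx', hti] at hm
    have hhH : h ∈ H := by
      rw [hh, hmul _ _ (inv_mem hx) hx'Q, inv_mem_iff]
      tauto
    have hxh : x' = x * h := by rw [hh]; group
    have hHc : ∀ y ∈ H, h * y * h⁻¹ = y := by
      intro y hy
      have h1 := hfix _ (hcH x y hx hy.2)
      rw [show t * (x * y * x⁻¹ * y⁻¹) * t⁻¹ =
        (t * x * t⁻¹) * (t * y * t⁻¹) * (t * x * t⁻¹)⁻¹ * (t * y * t⁻¹)⁻¹ by group,
        hfix y hy, ← hx', hxh] at h1
      calc h * y * h⁻¹ = x⁻¹ * ((x * h) * y * (x * h)⁻¹ * y⁻¹) * y * x := by group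
        _ = x⁻¹ * (x * y * x⁻¹ * y⁻¹) * y * x := by rw [h1]
        _ = y := by group
    have hh2 : h * h = 1 := by
      have h1 : t * x' * t⁻¹ = x := by
        rw [hx', hti, show t * (t * x * t) * t = (t * t) * x * (t * t) by group, ht2]; group
      rw [hxh, show t * (x * h) * t⁻¹ = (t * x * t⁻¹) * (t * h * t⁻¹) by group, hfix h hhH, ← hx',
        hxh] at h1
      calc h * h = x⁻¹ * (x * h * h) := by group
        _ = 1 := by rw [h1]; group
    have hxx : x * x ∈ H := by rw [hmul _ _ hx hx]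
    have hxc : h * x = x * h := by
      have h1 := hfix _ hxx
      rw [show t * (x * x) * t⁻¹ = (t * x * t⁻¹) * (t * x * t⁻¹) by group, ← hx', hxh] at h1
      calc h * x = x⁻¹ * (x * h * (x * h)) * (h * h)⁻¹ * h := by group
        _ = x * h := by rw [h1, hh2]; group
    have hyc : ∀ y ∈ H, h * y = y * h := fun y hy => by
      calc h * y = (h * y * h⁻¹) * h := by group
        _ = y * h := by rw [hHc y hy]
    have hz : h ∈ Z := by
      refine ⟨⟨h, hhH.2⟩, Subgroup.mem_center_iff.mpr fun y => Subtype.ext ?_, rfl⟩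
      show (y : G) * h = h * y
      by_cases hyH : (y : G) ∈ H
      · exact (hyc y hyH).symm
      · have hm : x⁻¹ * (y : G) ∈ H := by
          rw [hmul _ _ (inv_mem hx) y.2, inv_mem_iff]; tauto
        have h1 := hyc _ hm
        calc (y : G) * h = x * ((x⁻¹ * (y : G)) * h) := by group
          _ = x * h * (x⁻¹ * (y : G)) := by rw [← h1]; group
          _ = h * y := by rw [← hxc]; group
    have he : ⁅t, x⁆ = x * h * x⁻¹ := by
      rw [commutatorElement_def, ← hxh]
    rw [he, ← hxc, mul_inv_cancel_right]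
    exact hz
  set K := Q ⊔ Subgroup.zpowers t with hK
  have hQK : Q ≤ K := le_sup_left
  have hKN : K ≤ Subgroup.normalizer (Q : Set G) :=
    sup_le Subgroup.le_normalizer (Subgroup.zpowers_le.mpr htN)
  set E := Q.subgroupOf K with hE
  haveI hEn : E.Normal := Subgroup.normal_subgroupOf_of_le_normalizer hKN
  have hEx := isExtraspecial_of_equiv (Subgroup.subgroupOfEquivOfLe hQK).symm hQ
  set N := (Subgroup.center ↥E).map E.subtype with hN
  haveI hNn : N.Normal := inferInstance
  have hS : (⊤ : Subgroup ↥K) ≤ (Subgroup.centralizer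
      ((E.map (QuotientGroup.mk' N)) : Set (↥K ⧸ N))).comap (QuotientGroup.mk' N) := by
    have key : ∀ g : ↥K, (∀ x ∈ E, ⁅g, x⁆ ∈ N) → g ∈ (Subgroup.centralizer
        ((E.map (QuotientGroup.mk' N)) : Set (↥K ⧸ N))).comap (QuotientGroup.mk' N) := by
      intro g hg
      rw [Subgroup.mem_comap, Subgroup.mem_centralizer_iff]
      rintro _ ⟨x, hx, rfl⟩
      have h1 : QuotientGroup.mk' N ⁅g, x⁆ = 1 := (QuotientGroup.eq_one_iff _).mpr (hg x hx)
      rw [map_commutatorElement, commutatorElement_eq_one_iff_mul_comm] at h1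
      exact h1.symm
    have htop : (⊤ : Subgroup ↥K) = (Q.subgroupOf K) ⊔ (Subgroup.zpowers t).subgroupOf K := by
      rw [← Subgroup.subgroupOf_sup le_sup_left le_sup_right, Subgroup.subgroupOf_self]
    refine htop.le.trans (sup_le (fun g hg => key g fun x hx => ?_) ?_)
    · refine ⟨⁅(⟨g, hg⟩ : ↥E), ⟨x, hx⟩⁆, hEx.1.2.2.le
        (Subgroup.commutator_mem_commutator (Subgroup.mem_top _) (Subgroup.mem_top _)), rfl⟩
    · rw [show (Subgroup.zpowers t).subgroupOf K = Subgroup.zpowers
        (⟨t, Subgroup.mem_sup_right (Subgroup.mem_zpowers t)⟩ : ↥K) by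
        apply Subgroup.map_injective K.subtype_injective
        rw [Subgroup.subgroupOf_map_subtype, MonoidHom.map_zpowers, inf_eq_left.mpr le_sup_right]
        rfl, Subgroup.zpowers_le]
      refine key _ fun x hx => ?_
      obtain ⟨z, hz, hzx⟩ := hcomm _ (Subgroup.mem_subgroupOf.mp hx)
      refine ⟨(Subgroup.subgroupOfEquivOfLe hQK).symm z, ?_, Subtype.ext hzx⟩
      refine Subgroup.mem_center_iff.mpr fun y => (Subgroup.subgroupOfEquivOfLe hQK).injective ?_
      simpa using Subgroup.mem_center_iff.mp hz (Subgroup.subgroupOfEquivOfLe hQK y)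
  have hle : ⁅(⊤ : Subgroup ↥K), E⁆ ≤ E ⊓ Subgroup.centralizer (E : Set ↥K) := by
    refine le_trans (Subgroup.commutator_le.mpr fun g _ x hx => ?_) (le_inf
      (Subgroup.map_subtype_le _) ?_ : N ≤ E ⊓ Subgroup.centralizer (E : Set ↥K))
    · rw [← QuotientGroup.eq_one_iff (N := N), ← QuotientGroup.mk'_apply, map_commutatorElement,
        commutatorElement_eq_one_iff_mul_comm]
      exact (Subgroup.mem_centralizer_iff.mp (hS (Subgroup.mem_top g)) _ ⟨x, hx, rfl⟩).symm
    · rintro _ ⟨z, hz, rfl⟩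
      rw [Subgroup.mem_centralizer_iff]
      intro y hy
      exact congrArg Subtype.val (Subgroup.mem_center_iff.mp hz ⟨y, hy⟩)
  have hsup := CfsgLib.Transfer.extraspecial_sup_centralizer (p := 2) E hEx hle
  have htm : (⟨t, Subgroup.mem_sup_right (Subgroup.mem_zpowers t)⟩ : ↥K) ∈
      E ⊔ Subgroup.centralizer (E : Set ↥K) := hsup.symm ▸ Subgroup.mem_top _
  have := Subgroup.mem_map_of_mem K.subtype htm
  rw [Subgroup.map_sup] at this
  refine SetLike.le_def.mp (sup_le_sup (Subgroup.subgroupOf_map_subtype Q K ▸ inf_le_left) ?_) this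
  rintro _ ⟨c, hc, rfl⟩
  rw [Subgroup.mem_centralizer_iff]
  intro q hq
  exact congrArg Subtype.val (Subgroup.mem_centralizer_iff.mp hc ⟨q, hQK hq⟩
    (Subgroup.mem_subgroupOf.mpr hq))


end Cfsg.Agent.S1756
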