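import Cfsg.Statements.S1757
import Mathlib.Algebra.Group.Pointwise.Set.Card


set_option autoImplicit false
open Cfsg
open scoped commutatorElement Pointwise

namespace Cfsg.Agent.S1757

/-- Let p be a prime and A, B p-subgroups of the finite group G, each of which meets every conjugate of itself other than itself trivially. Suppose the order of A is at most that of B, A and B intersect trivially, and B normalizes A. Then A and B commute elementwise. -/
theorem result {G : Type*} [Group G] [Finite G] (p : ℕ) [Fact p.Prime] (A B : Subgroup G)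
    (hA : IsPGroup p ↥A) (hB : IsPGroup p ↥B)
    (hAti : ∀ g : G, A.map (MulAut.conj g).toMonoidHom = A ∨ A.map (MulAut.conj g).toMonoidHom ⊓ A = ⊥)
    (hBti : ∀ g : G, B.map (MulAut.conj g).toMonoidHom = B ∨ B.map (MulAut.conj g).toMonoidHom ⊓ B = ⊥)
    (hle : Nat.card ↥A ≤ Nat.card ↥B) (hAB : A ⊓ B = ⊥) (hN : B ≤ Subgroup.normalizer (A : Set G)) : ⁅A, B⁆ = ⊥ := by
  classical
  have hnorm : ∀ a ∈ A, B.map (MulAut.conj a).toMonoidHom = B := by
    intro a ha
    by_contra hne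
    have hdis := (hBti a).resolve_left hne
    have hcard : Nat.card ↥(A ⊔ B : Subgroup G) ≤ Nat.card A * Nat.card B := by
      have h := Set.natCard_mul_le (s := (A : Set G)) (t := (B : Set G))
      rw [← Subgroup.coe_mul_of_right_le_normalizer_left A B hN] at h
      exact h
    let f : ↥B × ↥B → ↥(A ⊔ B : Subgroup G) := fun x => ⟨(x.1 : G) * (a * (x.2 : G) * a⁻¹),
      Subgroup.mul_mem _ (Subgroup.mem_sup_right x.1.2)
        (Subgroup.mul_mem _ (Subgroup.mul_mem _ (Subgroup.mem_sup_left ha) (Subgroup.mem_sup_right x.2.2))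
          (Subgroup.inv_mem _ (Subgroup.mem_sup_left ha)))⟩
    have hf : Function.Injective f := by
      intro ⟨b₁, c₁⟩ ⟨b₂, c₂⟩ h
      have e : (b₁ : G) * (a * c₁ * a⁻¹) = b₂ * (a * c₂ * a⁻¹) := congrArg Subtype.val h
      have e1 : (b₂ : G)⁻¹ * b₁ = a * ((c₂ : G) * (c₁ : G)⁻¹) * a⁻¹ := by
        calc (b₂ : G)⁻¹ * b₁ = (b₂ : G)⁻¹ * (b₁ * (a * c₁ * a⁻¹)) * (a * (c₁ : G)⁻¹ * a⁻¹) := by group
          _ = _ := by rw [e]; group
      have hm : (b₂ : G)⁻¹ * b₁ ∈ B.map (MulAut.conj a).toMonoidHom ⊓ B :=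
        ⟨⟨_, B.mul_mem c₂.2 (B.inv_mem c₁.2), e1.symm⟩, B.mul_mem (B.inv_mem b₂.2) b₁.2⟩
      rw [hdis, Subgroup.mem_bot] at hm
      rw [hm, eq_comm, conj_eq_one_iff, mul_inv_eq_one] at e1
      exact Prod.ext (Subtype.ext (inv_mul_eq_one.1 hm).symm) (Subtype.ext e1.symm)
    have h1 := Nat.card_le_card_of_injective f hf
    rw [Nat.card_prod] at h1
    have hbij : Function.Bijective f := (Nat.bijective_iff_injective_and_card f).2 ⟨hf, by
      rw [Nat.card_prod]
      exact le_antisymm h1 (hcard.trans (Nat.mul_le_mul_right _ hle))⟩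
    obtain ⟨⟨b, c⟩, hbc⟩ := hbij.2 ⟨a⁻¹, Subgroup.inv_mem _ (Subgroup.mem_sup_left ha)⟩
    have e : (b : G) * (a * c * a⁻¹) = a⁻¹ := congrArg Subtype.val hbc
    have e2 : (b : G) * a * c = 1 := by
      calc (b : G) * a * c = b * (a * c * a⁻¹) * a := by group
        _ = 1 := by rw [e, inv_mul_cancel]
    have haB : a ∈ B := by
      have : a = (b : G)⁻¹ * (c : G)⁻¹ := by
        calc a = (b : G)⁻¹ * (b * a * c) * (c : G)⁻¹ := by group
          _ = _ := by rw [e2, mul_one]
      rw [this]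
      exact B.mul_mem (B.inv_mem b.2) (B.inv_mem c.2)
    have ha1 : a ∈ A ⊓ B := ⟨ha, haB⟩
    rw [hAB, Subgroup.mem_bot] at ha1
    refine hne ?_
    rw [ha1, map_one]
    exact Subgroup.map_id B
  rw [eq_bot_iff, ← hAB, Subgroup.commutator_le]
  intro a ha b hb
  refine ⟨?_, ?_⟩
  · rw [commutatorElement_def, mul_assoc, mul_assoc]
    refine A.mul_mem ha ?_
    rw [← mul_assoc]
    exact (Subgroup.mem_normalizer_iff.1 (hN hb) _).1 (A.inv_mem ha)
  · rw [commutatorElement_def]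
    refine B.mul_mem ?_ (B.inv_mem hb)
    exact (le_of_eq (hnorm a ha)) ⟨b, hb, rfl⟩

end Cfsg.Agent.S1757
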