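import Cfsg.Statements.S1780


set_option autoImplicit false
open Cfsg

namespace Cfsg.Agent.S1780

/-- Let A be a finite abelian 2-group and t an automorphism of A whose order is a power of 2. If every element of A fixed by t² is fixed by t, then t fixes every element of A. -/
theorem result {A : Type*} [CommGroup A] [Finite A]
    (hA : IsPGroup 2 A) (t : MulAut A) (ht : ∃ k : ℕ, orderOf t = 2 ^ k) (hC : ∀ a : A, t (t a) = a → t a = a) :
    ∀ a : A, t a = a := by
  classical
  haveI : Fact (Nat.Prime 2) := ⟨Nat.prime_two⟩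
  obtain ⟨k, hk⟩ := ht
  let d : A →* A :=
    { toFun := fun a => t a * a⁻¹
      map_one' := by simp
      map_mul' := fun a b => by rw [map_mul, mul_inv_rev]; ac_rfl }
  -- no element moved by `t` has its displacement fixed by `t`
  have hdd : ∀ a : A, t (t a * a⁻¹) = t a * a⁻¹ → t a = a := by
    intro a ha
    by_contra hne
    obtain ⟨m, hm⟩ := (IsPGroup.iff_orderOf (p := 2)).1 hA (d a)
    rcases Nat.eq_zero_or_pos m with h0 | h0
    · rw [h0, pow_zero, orderOf_eq_one_iff] at hm
      exact hne (mul_inv_eq_one.1 hm)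
    obtain ⟨m, rfl⟩ : ∃ j, m = j + 1 := ⟨m - 1, by omega⟩
    set b := a ^ 2 ^ m with hb
    have hdb : d b = d a ^ 2 ^ m := map_pow d a _
    have hdb1 : d b ≠ 1 := by
      rw [hdb]
      exact pow_ne_one_of_lt_orderOf (by positivity) (by rw [hm]; exact Nat.pow_lt_pow_succ (by norm_num))
    have hfix : t (d b) = d b := by rw [hdb, map_pow]; exact congrArg (· ^ 2 ^ m) ha
    have h2 : d b * d b = 1 := by rw [hdb, ← pow_two, ← pow_mul, ← pow_succ, ← hm, pow_orderOf_eq_one]
    have e : t b = d b * b := (inv_mul_cancel_right (t b) b).symm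
    exact hdb1 (mul_inv_eq_one.2 (hC b (by rw [e, map_mul, hfix, e, ← mul_assoc, h2, one_mul])))
  intro a
  by_contra hne
  have hinv : ∀ z : Subgroup.zpowers t, ∀ u : A, u ∈ d.range → (z : MulAut A) u ∈ d.range := by
    rintro ⟨z, hz⟩ u ⟨v, rfl⟩
    obtain ⟨i, rfl⟩ := Subgroup.mem_zpowers_iff.1 hz
    refine ⟨(t ^ i : MulAut A) v, ?_⟩
    show t ((t ^ i : MulAut A) v) * ((t ^ i : MulAut A) v)⁻¹ = (t ^ i : MulAut A) (t v * v⁻¹)
    rw [map_mul, map_inv, ← MulAut.mul_apply, ← MulAut.mul_apply, (Commute.refl t).zpow_right i]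
  let X : SubMulAction (Subgroup.zpowers t) A :=
    { carrier := d.range
      smul_mem' := fun z u hu => hinv z u hu }
  have hpg : IsPGroup 2 (Subgroup.zpowers t) := IsPGroup.of_card (n := k) (by rw [Nat.card_zpowers, hk])
  have hcard : 2 ∣ Nat.card X := by
    obtain ⟨n, hn⟩ := (IsPGroup.iff_card (p := 2)).1 (hA.to_subgroup d.range)
    rcases n with _ | n
    · exfalso
      rw [pow_zero, Subgroup.card_eq_one] at hn
      have : d a ∈ d.range := ⟨a, rfl⟩
      rw [hn, Subgroup.mem_bot] at this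
      exact hne (mul_inv_eq_one.1 this)
    · exact ⟨2 ^ n, hn.trans (pow_succ' 2 n)⟩
  obtain ⟨⟨b, hbX⟩, hb, hb1⟩ := hpg.exists_fixed_point_of_prime_dvd_card_of_fixed_point X hcard
    (a := ⟨1, d.range.one_mem⟩) (fun z => Subtype.ext (map_one _))
  obtain ⟨v, rfl⟩ := hbX
  have h := congrArg Subtype.val (hb ⟨t, Subgroup.mem_zpowers t⟩)
  exact hb1 (Subtype.ext (show 1 = d v from (mul_inv_eq_one.2 (hdd v h)).symm))

end Cfsg.Agent.S1780
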