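import Cfsg.Statements.S1781
import Mathlib

set_option autoImplicit false
open Cfsg

namespace Cfsg.Agent.S1781

/-- Let A be an abelian 2-subgroup of the finite group G such that every conjugate of A equals A or meets A trivially, and let g ∈ G with g A g⁻¹ ≠ A. Then either the subgroup of those elements of A that normalize g A g⁻¹ is an elementary abelian 2-group, or A and g A g⁻¹ commute elementwise. -/
theorem result {G : Type*} [Group G] [Finite G] (A : Subgroup G)
    (hA2 : IsPGroup 2 ↥A) (hAa : IsMulCommutative ↥A)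
    (hti : ∀ h : G, A.map (MulAut.conj h).toMonoidHom = A ∨ A.map (MulAut.conj h).toMonoidHom ⊓ A = ⊥)
    (g : G) (hg : A.map (MulAut.conj g).toMonoidHom ≠ A) :
    Cfsg.IsElementaryAbelian 2 (A ⊓ Subgroup.normalizer ((A.map (MulAut.conj g).toMonoidHom : Subgroup G) : Set G)) ∨
      ⁅A, A.map (MulAut.conj g).toMonoidHom⁆ = ⊥ := by
  classical
  haveI : Fact (Nat.Prime 2) := ⟨Nat.prime_two⟩
  set B : Subgroup G := A.map (MulAut.conj g).toMonoidHom with hBdef
  have hBA : ∀ w, w ∈ A → w ∈ B → w = 1 := fun w h1 h2 => by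
    have := (hti g).resolve_left hg
    exact Subgroup.mem_bot.mp (this ▸ (⟨h2, h1⟩ : w ∈ B ⊓ A))
  have hB2 : IsPGroup 2 ↥B := hA2.map _
  have hac : ∀ u ∈ A, ∀ v ∈ A, u * v = v * u := fun u hu v hv =>
    congrArg Subtype.val (mul_comm' (⟨u, hu⟩ : A) ⟨v, hv⟩)
  have hbc : ∀ u ∈ B, ∀ v ∈ B, u * v = v * u := by
    rintro _ ⟨u, hu, rfl⟩ _ ⟨v, hv, rfl⟩
    rw [← map_mul, ← map_mul, hac u hu v hv]
  -- TI property of `A`
  have tiA : ∀ h x : G, x ∈ A → x ≠ 1 → h * x * h⁻¹ ∈ A → h ∈ Subgroup.normalizer (A : Set G) := by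
    intro h x hx hx1 hhx
    rcases hti h with e | e
    · exact Subgroup.mem_normalizer_iff_map_conj_eq.mpr e
    · exfalso
      have : h * x * h⁻¹ ∈ A.map (MulAut.conj h).toMonoidHom ⊓ A := ⟨⟨x, hx, rfl⟩, hhx⟩
      rw [e, Subgroup.mem_bot] at this
      exact hx1 (conj_eq_one_iff.mp this)
  have cm : ∀ x ∈ A ⊓ Subgroup.normalizer (B : Set G), ∀ y ∈ B ⊓ Subgroup.normalizer (A : Set G), x * y = y * x := by
    rintro x ⟨hx, hxn⟩ y ⟨hy, hyn⟩
    have h1 : x * y * x⁻¹ * y⁻¹ ∈ B := B.mul_mem ((Subgroup.mem_normalizer_iff.mp hxn y).mp hy) (B.inv_mem hy)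
    have h2 : x * (y * x⁻¹ * y⁻¹) ∈ A := A.mul_mem hx ((Subgroup.mem_normalizer_iff.mp hyn _).mp (A.inv_mem hx))
    have h3 := hBA _ (by simpa [mul_assoc] using h2) h1
    exact mul_inv_eq_iff_eq_mul.mp (mul_inv_eq_one.mp h3)
  by_cases hexp : ∀ x ∈ A ⊓ Subgroup.normalizer (B : Set G), x ^ 2 = 1
  · exact Or.inl ⟨⟨⟨fun u v => Subtype.ext (hac _ u.2.1 _ v.2.1)⟩⟩, hexp⟩
  · right
    push Not at hexp
    obtain ⟨x, hxX, hx2⟩ := hexp
    obtain ⟨hxA, hxB⟩ := hxX
    have hx1 : x ≠ 1 := fun e => hx2 (by rw [e, one_pow])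
    have fixY : ∀ z ∈ A, z ≠ 1 → ∀ c ∈ B, z * c = c * z → c ∈ Subgroup.normalizer (A : Set G) := by
      intro z hz hz1 c hc he
      refine tiA c z hz hz1 ?_
      rw [← he, mul_inv_cancel_right]
      exact hz
    have fB : ∀ b ∈ B, x * b * x⁻¹ * b⁻¹ ∈ B := fun b hb =>
      B.mul_mem ((Subgroup.mem_normalizer_iff.mp hxB b).mp hb) (B.inv_mem hb)
    -- one step
    have step : ∀ b ∈ B, x * (x * b * x⁻¹ * b⁻¹) * x⁻¹ * (x * b * x⁻¹ * b⁻¹)⁻¹ = 1 → x * b * x⁻¹ * b⁻¹ = 1 := by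
      intro b hb h
      set y := x * b * x⁻¹ * b⁻¹ with hydef
      have hyB : y ∈ B := fB b hb
      have hxy : x * y = y * x := mul_inv_eq_iff_eq_mul.mp (mul_inv_eq_one.mp h)
      have hxb : x * b * x⁻¹ = y * b := by rw [hydef]; group
      have hyb : Commute y b := hbc y hyB b hb
      have hcj : ∀ n : ℕ, x * (x * b ^ n * x⁻¹) * x⁻¹ = y ^ (2 * n) * b ^ n := by
        intro n
        have e1 : x * b ^ n * x⁻¹ = y ^ n * b ^ n := by rw [← conj_pow, hxb, hyb.mul_pow]
        have e2 : x * y ^ n * x⁻¹ = y ^ n := by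
          rw [show x * y ^ n = y ^ n * x from (Commute.pow_right hxy n).eq, mul_inv_cancel_right]
        calc x * (x * b ^ n * x⁻¹) * x⁻¹ = x * (y ^ n * b ^ n) * x⁻¹ := by rw [e1]
          _ = (x * y ^ n * x⁻¹) * (x * b ^ n * x⁻¹) := by group
          _ = y ^ (2 * n) * b ^ n := by rw [e1, e2, two_mul, pow_add, mul_assoc]
      by_contra hy1
      obtain ⟨k, hk⟩ := (IsPGroup.iff_orderOf.mp hB2) ⟨y, hyB⟩
      rw [Subgroup.orderOf_mk] at hk
      obtain ⟨k, rfl⟩ : ∃ m, k = m + 1 := Nat.exists_eq_succ_of_ne_zero (fun e => by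
        rw [e, pow_zero] at hk; exact hy1 (orderOf_eq_one_iff.mp hk))
      have hfix : x * (x * b ^ 2 ^ k * x⁻¹) * x⁻¹ = b ^ 2 ^ k := by
        rw [hcj, ← pow_succ' 2 k, ← hk, pow_orderOf_eq_one, one_mul]
      have hbY : b ^ 2 ^ k ∈ Subgroup.normalizer (A : Set G) :=
        fixY (x ^ 2) (A.pow_mem hxA 2) hx2 _ (B.pow_mem hb _) (by
          calc x ^ 2 * b ^ 2 ^ k = (x * (x * b ^ 2 ^ k * x⁻¹) * x⁻¹) * x ^ 2 := by rw [pow_two x]; group
            _ = b ^ 2 ^ k * x ^ 2 := by rw [hfix])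
      have hxbk := cm x ⟨hxA, hxB⟩ _ ⟨B.pow_mem hb _, hbY⟩
      have e1 : y ^ 2 ^ k * b ^ 2 ^ k = b ^ 2 ^ k := by
        rw [← hyb.mul_pow, ← hxb, conj_pow, hxbk, mul_inv_cancel_right]
      exact pow_ne_one_of_lt_orderOf (pow_ne_zero k two_ne_zero)
        (hk ▸ Nat.pow_lt_pow_right Nat.one_lt_two (Nat.lt_succ_self k)) (mul_eq_right.mp e1)
    -- iterate inside a finite two-group
    have hBx : ∀ b ∈ B, x * b = b * x := by
      have hxp : IsPGroup 2 (Subgroup.zpowers x) := hA2.to_le (Subgroup.zpowers_le.mpr hxA)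
      have hP : IsPGroup 2 ↥(Subgroup.zpowers x ⊔ B) :=
        hxp.to_sup_of_normal_right' hB2 (Subgroup.zpowers_le.mpr hxB)
      haveI := hP.isNilpotent
      obtain ⟨n, hn⟩ := nilpotent_iff_lowerCentralSeries.mp (inferInstance : Group.IsNilpotent ↥(Subgroup.zpowers x ⊔ B))
      let f : G → G := fun b => x * b * x⁻¹ * b⁻¹
      have mem : ∀ (m : ℕ) (b : G), b ∈ B → f^[m] b ∈ B ∧ ∃ h, (⟨f^[m] b, h⟩ : ↥(Subgroup.zpowers x ⊔ B)) ∈
          Subgroup.lowerCentralSeries (⊤ : Subgroup ↥(Subgroup.zpowers x ⊔ B)) m := by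
        intro m
        induction m with
        | zero => exact fun b hb => ⟨hb, Subgroup.mem_sup_right hb, Subgroup.mem_top _⟩
        | succ m ih =>
          intro b hb
          obtain ⟨h1, h2, h3⟩ := ih b hb
          rw [Function.iterate_succ_apply']
          refine ⟨fB _ h1, Subgroup.mem_sup_right (fB _ h1), ?_⟩
          rw [Subgroup.lowerCentralSeries_succ, Subgroup.commutator_comm]
          exact Subgroup.commutator_mem_commutator
            (Subgroup.mem_top (⟨x, Subgroup.mem_sup_left (Subgroup.mem_zpowers x)⟩ : ↥(Subgroup.zpowers x ⊔ B))) h3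
      intro b hb
      have down : ∀ m : ℕ, ∀ c ∈ B, f^[m] c = 1 → f c = 1 := by
        intro m
        induction m with
        | zero => intro c _ h; simp only [Function.iterate_zero, id_eq] at h; simp [f, h]
        | succ m ih =>
          intro c hc h
          rw [Function.iterate_succ_apply] at h
          exact step c hc (ih (f c) (fB c hc) h)
      obtain ⟨-, h2, h3⟩ := mem n b hb
      rw [hn, Subgroup.mem_bot] at h3
      exact mul_inv_eq_iff_eq_mul.mp (mul_inv_eq_one.mp (down n b hb (congrArg Subtype.val h3)))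
    have hBN : ∀ b ∈ B, b ∈ Subgroup.normalizer (A : Set G) := fun b hb => fixY x hxA hx1 b hb (hBx b hb)
    have hAN : ∀ a ∈ A, a ∈ Subgroup.normalizer (B : Set G) := by
      intro a ha
      by_contra han
      have ha1 : a ≠ 1 := fun e => han (e ▸ Subgroup.one_mem _)
      let φ : B → A := fun b => ⟨b.1 * a * b.1⁻¹, (Subgroup.mem_normalizer_iff.mp (hBN b.1 b.2) a).mp ha⟩
      have hφ : Function.Injective φ := by
        intro b c h
        have h' : b.1 * a * b.1⁻¹ = c.1 * a * c.1⁻¹ := congrArg Subtype.val h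
        by_contra hbc'
        set d := c.1⁻¹ * b.1 with hd
        have hdB : d ∈ B := B.mul_mem (B.inv_mem c.2) b.2
        have hd1 : d ≠ 1 := fun e => hbc' (Subtype.ext (inv_mul_eq_one.mp e).symm)
        have hdc : d * a = a * d := by
          rw [hd]
          calc c.1⁻¹ * b.1 * a = c.1⁻¹ * (b.1 * a * b.1⁻¹) * b.1 := by group
            _ = c.1⁻¹ * (c.1 * a * c.1⁻¹) * b.1 := by rw [h']
            _ = a * (c.1⁻¹ * b.1) := by group
        apply han
        obtain ⟨d', hd'A, hd'⟩ := hdB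
        have hk : g⁻¹ * a * g ∈ Subgroup.normalizer (A : Set G) := by
          refine tiA _ d' hd'A (fun e => hd1 (by rw [← hd', e, map_one])) ?_
          have hd'' : d' = g⁻¹ * d * g := by
            rw [← hd']; simp [mul_assoc]
          rw [hd'']
          have e : g⁻¹ * a * g * (g⁻¹ * d * g) * (g⁻¹ * a * g)⁻¹ = g⁻¹ * d * g := by
            calc g⁻¹ * a * g * (g⁻¹ * d * g) * (g⁻¹ * a * g)⁻¹ = g⁻¹ * (a * d) * a⁻¹ * g := by group
              _ = g⁻¹ * d * g := by rw [← hdc]; group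
          rw [e]
          exact hd'' ▸ hd'A
        rw [Subgroup.mem_normalizer_iff]
        intro w
        have hmem : ∀ v, v ∈ B ↔ g⁻¹ * v * g ∈ A := fun v => by
          rw [hBdef]
          exact ⟨fun ⟨u, hu, e⟩ => by rw [← e]; simpa [mul_assoc] using hu,
            fun hv => ⟨_, hv, by simp [mul_assoc]⟩⟩
        rw [hmem, hmem, Subgroup.mem_normalizer_iff.mp hk (g⁻¹ * w * g)]
        exact iff_of_eq (congrArg (fun v => v ∈ A) (by group))
      have hcard : Nat.card B = Nat.card A :=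
        (Nat.card_congr (Subgroup.equivMapOfInjective A _ (MulAut.conj g).injective).toEquiv).symm
      obtain ⟨b, hb⟩ := ((Nat.bijective_iff_injective_and_card φ).mpr ⟨hφ, hcard⟩).surjective 1
      exact ha1 (conj_eq_one_iff.mp (congrArg Subtype.val hb))
    rw [Subgroup.commutator_eq_bot_iff_le_centralizer]
    intro a ha
    rw [Subgroup.mem_centralizer_iff]
    intro b hb
    exact (cm a ⟨ha, hAN a ha⟩ b ⟨hb, hBN b hb⟩).symm

end Cfsg.Agent.S1781
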