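import Cfsg.Statements.S1782
import Cfsg.Agent.Lib.CorePGroup

set_option autoImplicit false
open Cfsg
open scoped commutatorElement

namespace Cfsg.Agent.S1782

/-- Let S be a finite 2-group and Δ a set of subgroups of S closed under conjugation by S, all of the same order, each with nontrivial Frattini subgroup, and such that two distinct members of Δ meet trivially. Then any two distinct members of Δ commute elementwise. -/
theorem result {S : Type*} [Group S] [Finite S] (hS : IsPGroup 2 S)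
    (Δ : Set (Subgroup S)) (hinv : ∀ s : S, ∀ R ∈ Δ, R.map (MulAut.conj s).toMonoidHom ∈ Δ)
    (hΦ : ∀ R ∈ Δ, frattini ↥R ≠ ⊥) (hord : ∀ R ∈ Δ, ∀ T ∈ Δ, Nat.card ↥R = Nat.card ↥T)
    (hti : ∀ R ∈ Δ, ∀ T ∈ Δ, R = T ∨ R ⊓ T = ⊥) :
    ∀ R ∈ Δ, ∀ T ∈ Δ, R ≠ T → ⁅R, T⁆ = ⊥ := by
  classical
  haveI : Fact (Nat.Prime 2) := ⟨Nat.prime_two⟩
  suffices key : ∀ n : ℕ, ∀ K : Subgroup S, Nat.card ↥K = n → ∀ R ∈ Δ, ∀ T ∈ Δ, R ≤ K → T ≤ K → R ≠ T →
      ∀ r ∈ R, ∀ t ∈ T, r * t = t * r by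
    intro R hR T hT hne
    rw [Subgroup.commutator_eq_bot_iff_le_centralizer]
    exact fun r hr => Subgroup.mem_centralizer_iff.mpr fun t ht =>
      (key _ ⊤ rfl R hR T hT le_top le_top hne r hr t ht).symm
  intro n
  induction n using Nat.strong_induction_on with
  | _ n ih =>
  intro K hK R hR T hT hRK hTK hne
  subst hK
  by_cases hlt : R ⊔ T < K
  · have hc : Nat.card ↥(R ⊔ T : Subgroup S) < Nat.card ↥K := by
      refine lt_of_le_of_ne (Nat.le_of_dvd Nat.card_pos (Subgroup.card_dvd_of_le hlt.le)) fun e => ?_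
      exact hlt.ne (Subgroup.eq_of_le_of_card_ge hlt.le e.ge)
    exact ih _ hc (R ⊔ T) rfl R hR T hT le_sup_left le_sup_right hne
  have hKeq : R ⊔ T = K := (eq_of_le_of_not_lt (sup_le hRK hTK) hlt)
  -- conjugates inside `K`
  set cj : S → Subgroup S → Subgroup S := fun g A => A.map (MulAut.conj g).toMonoidHom with hcj
  have hmem : ∀ (g : S) (A : Subgroup S) (x : S), x ∈ A → g * x * g⁻¹ ∈ cj g A := fun g A x hx =>
    ⟨x, hx, rfl⟩
  have hcjne : ∀ (g : S) (A : Subgroup S), cj g A = A → ∀ x : S, x ∈ A → g * x * g⁻¹ ∈ A :=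
    fun g A h x hx => h ▸ hmem g A x hx
  have hnorm : ∀ (g : S) (A : Subgroup S), cj g A = A → g ∈ Subgroup.normalizer (A : Set S) := by
    intro g A h
    rw [Subgroup.mem_normalizer_iff]
    refine fun x => ⟨hcjne g A h x, fun hx => ?_⟩
    rw [← h] at hx
    obtain ⟨y, hy, he⟩ := hx
    change g * y * g⁻¹ = g * x * g⁻¹ at he
    rwa [← mul_left_cancel (mul_right_cancel he)]
  have hcomm : ∀ A ∈ Δ, A ≤ K → A < K → ∀ g ∈ K, cj g A ≠ A →
      ∀ a ∈ A, ∀ b ∈ cj g A, a * b = b * a := by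
    intro A hA hAK hAlt g hg hgA
    haveI := Fintype.ofFinite (Subgroup ↥K)
    have hne' : A.subgroupOf K ≠ ⊤ := fun e => hAlt.not_ge (Subgroup.subgroupOf_eq_top.mp e)
    obtain ⟨M, hM, hAM⟩ := (IsCoatomic.eq_top_or_exists_le_coatom (A.subgroupOf K)).resolve_left hne'
    obtain ⟨hMn, -⟩ := CfsgLib.Core.index_of_coatom_pgroup (hS.to_subgroup K) hM
    have hMlt : M.map K.subtype < K := lt_of_le_of_ne (Subgroup.map_subtype_le M) fun e => hM.1
      (Subgroup.map_injective K.subtype_injective (e.trans (by rw [← MonoidHom.range_eq_map, Subgroup.range_subtype])))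
    have hc : Nat.card ↥(M.map K.subtype) < Nat.card ↥K := by
      refine lt_of_le_of_ne (Nat.le_of_dvd Nat.card_pos (Subgroup.card_dvd_of_le hMlt.le)) fun e => ?_
      exact hMlt.ne (Subgroup.eq_of_le_of_card_ge hMlt.le e.ge)
    have h1 : A ≤ M.map K.subtype := fun a ha =>
      ⟨⟨a, hAK ha⟩, hAM (Subgroup.mem_subgroupOf.mpr ha), rfl⟩
    have h2 : cj g A ≤ M.map K.subtype := by
      rintro _ ⟨a, ha, rfl⟩
      exact ⟨⟨g, hg⟩ * ⟨a, hAK ha⟩ * ⟨g, hg⟩⁻¹, hMn.conj_mem _ (hAM (Subgroup.mem_subgroupOf.mpr ha)) _, rfl⟩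
    exact ih _ hc _ rfl A hA (cj g A) (hinv g A hA) h1 h2 (Ne.symm hgA)
  have hcard : ∀ A ∈ Δ, A ≤ K → A < K := by
    intro A hA hAK
    refine lt_of_le_of_ne hAK fun e => hne ?_
    have h1 : R ≤ A := e ▸ hRK
    have h2 : T ≤ A := e ▸ hTK
    rw [Subgroup.eq_of_le_of_card_ge h1 (hord A hA R hR).le,
      Subgroup.eq_of_le_of_card_ge h2 (hord A hA T hT).le]
  -- the normal product of the conjugates
  set cl : Subgroup S → Subgroup S := fun A => ⨆ k : ↥K, cj (k : S) A with hcl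
  have hclN : ∀ A ∈ Δ, A ≤ K → cl A ≤ Subgroup.normalizer (A : Set S) := by
    intro A hA hAK
    refine iSup_le fun k => ?_
    by_cases h : cj (k : S) A = A
    · rw [h]; exact Subgroup.le_normalizer
    · intro x hx
      refine Subgroup.centralizer_le_normalizer _ (Subgroup.mem_centralizer_iff.mpr fun a ha => ?_)
      exact hcomm A hA hAK (hcard A hA hAK) k k.2 h a ha x hx
  have hclm : ∀ (A : Subgroup S) (g : S), g ∈ K → ∀ a ∈ A, g * a * g⁻¹ ∈ cl A := fun A g hg a ha =>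
    le_iSup (fun k : ↥K => cj (k : S) A) ⟨g, hg⟩ (hmem g A a ha)
  have hclA : ∀ (A : Subgroup S), ∀ a ∈ A, a ∈ cl A := fun A a ha => by
    simpa using hclm A 1 (one_mem K) a ha
  -- first step
  have stepA : ∀ A ∈ Δ, ∀ B ∈ Δ, A ≤ K → B ≤ K → ¬ B ≤ Subgroup.normalizer (A : Set S) →
      A ≤ Subgroup.normalizer (B : Set S) := by
    intro A hA B hB hAK hBK hnot
    obtain ⟨t, ht, htA⟩ := SetLike.not_le_iff_exists.mp hnot
    have htne : cj t A ≠ A := fun e => htA (hnorm t A e)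
    have htK := hBK ht
    suffices hv : ∃ v ∈ B, v ≠ 1 ∧ ∀ a ∈ A, a * v = v * a by
      obtain ⟨v, hvB, hv1, hvc⟩ := hv
      intro s hs
      refine hnorm s B ((hti _ (hinv s B hB) B hB).resolve_right fun e => hv1 ?_)
      rw [← Subgroup.mem_bot, ← e]
      refine ⟨?_, hvB⟩
      have := hmem s B v hvB
      rwa [hvc s hs, mul_inv_cancel_right] at this
    by_cases hU : A ⊓ cl B = ⊥
    · obtain ⟨v, hvB, hvX, hv1⟩ : ∃ v ∈ B, v ∈ cl A ∧ v ≠ 1 := by
        have hval : ∀ r ∈ A, ∃ v ∈ B, v ∈ cl A ∧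
            v = (r⁻¹ * (t * r * t⁻¹))⁻¹ * (t * (r⁻¹ * (t * r * t⁻¹)) * t⁻¹) := by
          intro r hr
          set w := r⁻¹ * (t * r * t⁻¹) with hw
          have hwX : w ∈ cl A := mul_mem (inv_mem (hclA A r hr)) (hclm A t htK r hr)
          have hwY : w ∈ cl B := by
            rw [hw, show r⁻¹ * (t * r * t⁻¹) = (r⁻¹ * t * r⁻¹⁻¹) * t⁻¹ by group]
            exact mul_mem (hclm B _ (inv_mem (hAK hr)) t ht) (inv_mem (hclA B t ht))
          refine ⟨_, ?_, ?_, rfl⟩
          · rw [show w⁻¹ * (t * w * t⁻¹) = (w⁻¹ * t * w⁻¹⁻¹) * t⁻¹ by group]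
            exact mul_mem ((Subgroup.mem_normalizer_iff.mp (hclN B hB hBK (inv_mem hwY)) t).mp ht)
              (inv_mem ht)
          · refine mul_mem (inv_mem hwX) ?_
            rw [hw, show t * (r⁻¹ * (t * r * t⁻¹)) * t⁻¹ = t * r⁻¹ * t⁻¹ * (t * t * r * (t * t)⁻¹) by
              group]
            exact mul_mem (hclm A t htK _ (inv_mem hr)) (hclm A _ (mul_mem htK htK) r hr)
        -- the value is trivial only in special cases
        have htriv : ∀ r ∈ A, r⁻¹ * (t * r * t⁻¹) = t * (r⁻¹ * (t * r * t⁻¹)) * t⁻¹ →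
            t * (r * r) * t⁻¹ = r * (t * t * r * (t * t)⁻¹) := by
          intro r hr he
          have hc : r * (t * r * t⁻¹) = t * r * t⁻¹ * r :=
            hcomm A hA hAK (hcard A hA hAK) t htK htne r hr _ (hmem t A r hr)
          calc t * (r * r) * t⁻¹ = r * (t * r * t⁻¹) * (r⁻¹ * (t * r * t⁻¹)) := by rw [hc]; group
            _ = r * (t * r * t⁻¹) * (t * (r⁻¹ * (t * r * t⁻¹)) * t⁻¹) := by rw [← he]
            _ = r * (t * t * r * (t * t)⁻¹) := by group
        by_cases h2 : cj (t * t) A = A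
        · obtain ⟨r, hr, hr2⟩ : ∃ r ∈ A, r * r ≠ 1 := by
            by_contra hall
            push Not at hall
            haveI : Nontrivial ↥(frattini ↥A) := (Subgroup.nontrivial_iff_ne_bot _).mpr (hΦ A hA)
            obtain ⟨⟨x, hx⟩, hx1⟩ := exists_ne (1 : ↥(frattini ↥A))
            refine hx1 (Subtype.ext ?_)
            have hexp : ∀ a : ↥A, a ^ 2 = 1 := fun a => by
              rw [pow_two]; exact Subtype.ext (hall a a.2)
            have hle := CfsgLib.Core.frattini_le_of_elementary (p := 2) (N := (⊥ : Subgroup ↥A))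
              (by
                rw [commutator_def, Subgroup.commutator_le]
                intro a _ b _
                rw [Subgroup.mem_bot, commutatorElement_eq_one_iff_mul_comm]
                have hi : ∀ c : ↥A, c⁻¹ = c := fun c =>
                  inv_eq_of_mul_eq_one_right (by rw [← pow_two, hexp])
                rw [← hi (a * b), mul_inv_rev, hi, hi])
              (fun a => Subgroup.mem_bot.mpr (hexp a))
            exact Subgroup.mem_bot.mp (hle hx)
          obtain ⟨v, hvB, hvX, he⟩ := hval r hr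
          refine ⟨v, hvB, hvX, fun h1 => hr2 ?_⟩
          have h3 := htriv r hr (inv_mul_eq_one.mp (he.symm.trans h1))
          have h4 : t * (r * r) * t⁻¹ ∈ A := h3 ▸ mul_mem hr (hcjne _ A h2 r hr)
          have h5 : cj t A ⊓ A = ⊥ := (hti _ (hinv t A hA) A hA).resolve_left htne
          have h6 : t * (r * r) * t⁻¹ ∈ cj t A ⊓ A := ⟨hmem t A _ (mul_mem hr hr), h4⟩
          rw [h5, Subgroup.mem_bot] at h6
          exact mul_left_cancel (a := t) (by rw [mul_one]; exact mul_inv_eq_one.mp h6)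
        · obtain ⟨⟨r, hr⟩, hr2⟩ := exists_prime_orderOf_dvd_card' (G := ↥A) 2 (by
            obtain ⟨k, hk⟩ := IsPGroup.iff_card.mp (hS.to_subgroup A)
            rcases k with _ | k
            · exfalso
              haveI := (Nat.card_eq_one_iff_unique.mp hk).1
              exact hΦ A hA (Subsingleton.elim _ _)
            · rw [hk, pow_succ]; exact dvd_mul_left 2 _)
          have hrr : r * r = 1 := by
            have := pow_orderOf_eq_one (⟨r, hr⟩ : ↥A)
            rw [hr2, pow_two] at this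
            exact congrArg Subtype.val this
          obtain ⟨v, hvB, hvX, he⟩ := hval r hr
          refine ⟨v, hvB, hvX, fun h1 => ?_⟩
          have h3 := htriv r hr (inv_mul_eq_one.mp (he.symm.trans h1))
          rw [hrr, mul_one, mul_inv_cancel] at h3
          have h5 : cj (t * t) A ⊓ A = ⊥ := (hti _ (hinv _ A hA) A hA).resolve_left h2
          have h6 : r⁻¹ ∈ cj (t * t) A ⊓ A := by
            refine Subgroup.mem_inf.mpr ⟨?_, inv_mem hr⟩
            rw [inv_eq_of_mul_eq_one_right h3.symm]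
            exact hmem _ A r hr
          rw [h5, Subgroup.mem_bot, inv_eq_one] at h6
          have : orderOf (⟨r, hr⟩ : ↥A) = 1 := orderOf_eq_one_iff.mpr (Subtype.ext h6)
          omega
      refine ⟨v, hvB, hv1, fun s hs => ?_⟩
      have hsv : v⁻¹ * (s * v * s⁻¹) ∈ A ⊓ cl B := by
        refine Subgroup.mem_inf.mpr ⟨?_, mul_mem (inv_mem (hclA B v hvB)) (hclm B s (hAK hs) v hvB)⟩
        rw [show v⁻¹ * (s * v * s⁻¹) = (v⁻¹ * s * v⁻¹⁻¹) * s⁻¹ by group]
        exact mul_mem ((Subgroup.mem_normalizer_iff.mp (hclN A hA hAK (inv_mem hvX)) s).mp hs)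
          (inv_mem hs)
      rw [hU, Subgroup.mem_bot] at hsv
      exact mul_inv_eq_iff_eq_mul.mp (inv_mul_eq_one.mp hsv).symm
    · -- a central element of `A` in `cl B`
      obtain ⟨u, huA, huY, hu1, huc⟩ : ∃ u ∈ A, u ∈ cl B ∧ u ≠ 1 ∧ ∀ a ∈ A, a * u = u * a := by
        set U := (A ⊓ cl B).subgroupOf A with hUdef
        haveI : U.Normal := by
          refine ⟨fun x hx a => Subgroup.mem_subgroupOf.mpr ⟨(a * x * a⁻¹).2, ?_⟩⟩
          have hle : cl B ≤ (cl B).comap (MulAut.conj (a : S)).toMonoidHom := by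
            refine iSup_le fun k => ?_
            rintro _ ⟨b, hb, rfl⟩
            show (a : S) * ((k : S) * b * (k : S)⁻¹) * (a : S)⁻¹ ∈ cl B
            rw [show (a : S) * ((k : S) * b * (k : S)⁻¹) * (a : S)⁻¹ =
              (a : S) * k * b * ((a : S) * k)⁻¹ by group]
            exact hclm B _ (mul_mem (hAK a.2) k.2) b hb
          exact hle (Subgroup.mem_subgroupOf.mp hx).2
        haveI : Nontrivial ↥U := (Subgroup.nontrivial_iff_ne_bot _).mpr fun e => hU (le_bot_iff.mp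
          fun x hx => by
            have : (⟨x, hx.1⟩ : ↥A) ∈ U := Subgroup.mem_subgroupOf.mpr hx
            rw [e, Subgroup.mem_bot] at this
            exact Subgroup.mem_bot.mpr (congrArg Subtype.val this))
        haveI := (hS.to_subgroup A).isNilpotent
        obtain ⟨⟨u, hu, huZ⟩, hu1'⟩ := Subgroup.ne_bot_iff_exists_ne_one.mp
          (CfsgLib.Core.nilpotent_inf_center_ne_bot ((Subgroup.nontrivial_iff_ne_bot U).mp inferInstance))
        have hu1 : u ≠ 1 := fun e => hu1' (Subtype.ext e)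
        exact ⟨u, u.2, (Subgroup.mem_subgroupOf.mp hu).2, fun e => hu1 (Subtype.ext e),
          fun a ha => congrArg Subtype.val (Subgroup.mem_center_iff.mp huZ ⟨a, ha⟩)⟩
      refine ⟨u⁻¹ * (t * u * t⁻¹), ?_, fun h => ?_, fun a ha => ?_⟩
      · rw [show u⁻¹ * (t * u * t⁻¹) = (u⁻¹ * t * u⁻¹⁻¹) * t⁻¹ by group]
        exact mul_mem ((Subgroup.mem_normalizer_iff.mp (hclN B hB hBK (inv_mem huY)) t).mp ht)
          (inv_mem ht)
      · have h5 : cj t A ⊓ A = ⊥ := (hti _ (hinv t A hA) A hA).resolve_left htne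
        have h6 : u ∈ cj t A ⊓ A := ⟨(inv_mul_eq_one.mp h).symm ▸ hmem t A u huA, huA⟩
        rw [h5, Subgroup.mem_bot] at h6
        exact hu1 h6
      · have h1 : a * u⁻¹ = u⁻¹ * a := ((Commute.inv_right (huc a ha : Commute a u)))
        have h2 := hcomm A hA hAK (hcard A hA hAK) t htK htne a ha _ (hmem t A u huA)
        rw [← mul_assoc, h1, mul_assoc, h2, ← mul_assoc]
  -- second step
  have stepB : ∀ A ∈ Δ, ∀ B ∈ Δ, A ≤ K → B ≤ K → A ≤ Subgroup.normalizer (B : Set S) →
      B ≤ Subgroup.normalizer (A : Set S) := by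
    intro A hA B hB hAK hBK hAB t ht
    by_contra htA
    have htne : cj t A ≠ A := fun e => htA (hnorm t A e)
    have hd : ∀ r : ↥A, (r : S)⁻¹ * (t * r * t⁻¹) ∈ B ⊓ cl A := fun r => by
      refine Subgroup.mem_inf.mpr ⟨?_, mul_mem (inv_mem (hclA A r r.2)) (hclm A t (hBK ht) r r.2)⟩
      rw [show (r : S)⁻¹ * (t * r * t⁻¹) = ((r : S)⁻¹ * t * (r : S)⁻¹⁻¹) * t⁻¹ by group]
      exact mul_mem ((Subgroup.mem_normalizer_iff.mp (hAB (inv_mem r.2)) t).mp ht) (inv_mem ht)
    have hinj : Function.Injective (fun r : ↥A => (⟨_, hd r⟩ : ↥(B ⊓ cl A : Subgroup S))) := by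
      intro r s e
      have he : (r : S)⁻¹ * (t * r * t⁻¹) = (s : S)⁻¹ * (t * s * t⁻¹) := congrArg Subtype.val e
      have h5 : cj t A ⊓ A = ⊥ := (hti _ (hinv t A hA) A hA).resolve_left htne
      have h6 : (s : S) * (r : S)⁻¹ ∈ cj t A ⊓ A := by
        refine Subgroup.mem_inf.mpr ⟨?_, mul_mem s.2 (inv_mem r.2)⟩
        have : (s : S) * (r : S)⁻¹ = t * ((s : S) * (r : S)⁻¹) * t⁻¹ := by
          calc (s : S) * (r : S)⁻¹ = (s : S) * ((r : S)⁻¹ * (t * r * t⁻¹)) * (t * r * t⁻¹)⁻¹ := by group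
            _ = _ := by rw [he]; group
        rw [this]
        exact hmem t A _ (mul_mem s.2 (inv_mem r.2))
      rw [h5, Subgroup.mem_bot, mul_inv_eq_one] at h6
      exact Subtype.ext h6.symm
    have h1 := Nat.card_le_card_of_injective _ hinj
    have h2 : B ⊓ cl A < B := lt_of_le_of_ne inf_le_left fun e => htA (hclN A hA hAK (inf_eq_left.mp e ht))
    exact h2.ne (Subgroup.eq_of_le_of_card_ge h2.le ((hord B hB A hA).le.trans h1))
  have hT' : T ≤ Subgroup.normalizer (R : Set S) := by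
    by_contra h
    exact h (stepB R hR T hT hRK hTK (stepA R hR T hT hRK hTK h))
  have hR' : R ≤ Subgroup.normalizer (T : Set S) := by
    by_contra h
    exact h (stepB T hT R hR hTK hRK (stepA T hT R hR hTK hRK h))
  intro r hr t ht
  have hbot : R ⊓ T = ⊥ := (hti R hR T hT).resolve_left hne
  have hm : r * t * r⁻¹ * t⁻¹ ∈ R ⊓ T := by
    refine Subgroup.mem_inf.mpr ⟨?_, mul_mem ((Subgroup.mem_normalizer_iff.mp (hR' hr) t).mp ht) (inv_mem ht)⟩
    rw [show r * t * r⁻¹ * t⁻¹ = r * (t * r⁻¹ * t⁻¹) by group]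
    exact mul_mem hr ((Subgroup.mem_normalizer_iff.mp (hT' ht) _).mp (inv_mem hr))
  rw [hbot, Subgroup.mem_bot] at hm
  exact commutatorElement_eq_one_iff_mul_comm.mp hm


end Cfsg.Agent.S1782
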