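import Cfsg.Statements.S1785
import Cfsg.Agent.Lib.LocalKBalanced
import Cfsg.Agent.Lib.LocalPumpUp

set_option autoImplicit false
open Cfsg

namespace Cfsg.Agent.S1785


variable {X : Type*} [Group X] [Finite X]

/-- An involution fixes at least the square root of an elementary abelian group it normalises. -/
theorem fix_card {K : Subgroup X} (hK : Cfsg.IsElementaryAbelian 2 K) {v : X} (hv : v * v = 1)
    (hvK : ∀ k ∈ K, v * k * v ∈ K) :
    Nat.card ↥K ≤ Nat.card ↥(K ⊓ Subgroup.centralizer {v} : Subgroup X) *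
      Nat.card ↥(K ⊓ Subgroup.centralizer {v} : Subgroup X) := by
  haveI : IsMulCommutative ↥K := hK.1
  have hc : ∀ a b, a ∈ K → b ∈ K → a * b = b * a := fun a b ha hb =>
    congrArg Subtype.val (mul_comm' (⟨a, ha⟩ : ↥K) ⟨b, hb⟩)
  have hinv : ∀ a ∈ K, a⁻¹ = a := fun a ha =>
    inv_eq_of_mul_eq_one_right (by rw [← pow_two]; exact hK.2 a ha)
  have hm : ∀ k ∈ K, v * k * v * k⁻¹ ∈ K := fun k hk => mul_mem (hvK k hk) (inv_mem hk)
  let f : ↥K →* ↥K := MonoidHom.mk' (fun k => ⟨v * k * v * (k : X)⁻¹, hm k k.2⟩) (fun a b => by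
    refine Subtype.ext ?_
    show v * ((a : X) * b) * v * ((a : X) * b)⁻¹ = v * a * v * (a : X)⁻¹ * (v * b * v * (b : X)⁻¹)
    calc v * ((a : X) * b) * v * ((a : X) * b)⁻¹ = v * a * (v * v) * b * v * ((b : X)⁻¹ * (a : X)⁻¹) := by
          rw [hv]; group
      _ = v * a * v * ((v * b * v * (b : X)⁻¹) * (a : X)⁻¹) := by group
      _ = _ := by rw [hc _ _ (hm b b.2) (inv_mem a.2)]; group)
  have h1 : Nat.card ↥f.ker ≤ Nat.card ↥(K ⊓ Subgroup.centralizer {v} : Subgroup X) := by
    refine Nat.card_le_card_of_injective (fun k => ⟨((k : ↥K) : X), (k : ↥K).2, ?_⟩)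
      fun a b e => Subtype.ext (Subtype.ext (congrArg Subtype.val e :))
    have : v * ((k : ↥K) : X) * v * ((k : ↥K) : X)⁻¹ = 1 :=
      congrArg Subtype.val (MonoidHom.mem_ker.mp k.2)
    refine Subgroup.mem_centralizer_singleton_iff.mpr ?_
    calc ((k : ↥K) : X) * v = v * v * ((k : ↥K) : X) * v := by rw [hv]; group
      _ = v * (v * ((k : ↥K) : X) * v) := by group
      _ = v * ((k : ↥K) : X) := by rw [mul_inv_eq_one.mp this]
  have h2 : Nat.card ↥f.range ≤ Nat.card ↥(K ⊓ Subgroup.centralizer {v} : Subgroup X) := by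
    refine Nat.card_le_card_of_injective (fun k => ⟨((k : ↥K) : X), (k : ↥K).2, ?_⟩)
      fun a b e => Subtype.ext (Subtype.ext (congrArg Subtype.val e :))
    obtain ⟨a, ha⟩ := k.2
    rw [← ha]
    refine Subgroup.mem_centralizer_singleton_iff.mpr ?_
    show v * a * v * (a : X)⁻¹ * v = v * (v * a * v * (a : X)⁻¹)
    calc v * a * v * (a : X)⁻¹ * v = v * (v * a * v * (a : X)⁻¹)⁻¹ := by
          rw [show (v * a * v * (a : X)⁻¹)⁻¹ = (a : X) * (v⁻¹) * (a : X)⁻¹ * v⁻¹ by group,
            inv_eq_of_mul_eq_one_right hv]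
          group
      _ = _ := by rw [hinv _ (hm a a.2)]
  rw [← Subgroup.card_mul_index f.ker, Subgroup.index_ker]
  exact Nat.mul_le_mul h1 h2

theorem elem_of_le' {A B : Subgroup X} (hA : Cfsg.IsElementaryAbelian 2 A) (hBA : B ≤ A) :
    Cfsg.IsElementaryAbelian 2 B :=
  CfsgLib.Local.KBal.elem_of_le (p := 2) hA hBA

/-- The join of commuting elementary abelian subgroups. -/
theorem elem_sup {A B : Subgroup X} (hA : Cfsg.IsElementaryAbelian 2 A)
    (hB : Cfsg.IsElementaryAbelian 2 B) (h : A ≤ Subgroup.centralizer (B : Set X)) :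
    Cfsg.IsElementaryAbelian 2 (A ⊔ B) := by
  haveI := hA.1
  haveI := hB.1
  have hself : ∀ {C : Subgroup X}, IsMulCommutative ↥C → C ≤ Subgroup.centralizer (C : Set X) :=
    fun {C} hC x hx => Subgroup.mem_centralizer_iff.mpr fun y hy =>
      congrArg Subtype.val (mul_comm' (⟨y, hy⟩ : ↥C) ⟨x, hx⟩)
  have hcc : A ⊔ B ≤ Subgroup.centralizer ((A ⊔ B : Subgroup X) : Set X) := by
    refine sup_le ?_ ?_ <;> rw [Subgroup.le_centralizer_iff] <;> refine sup_le ?_ ?_
    · exact hself hA.1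
    · exact Subgroup.le_centralizer_iff.mp h
    · exact h
    · exact hself hB.1
  refine ⟨⟨⟨fun x y => Subtype.ext (Subgroup.mem_centralizer_iff.mp (hcc y.2) x x.2)⟩⟩,
    fun a ha => ?_⟩
  have hle : A ⊔ B ≤ Subgroup.closure ((A : Set X) ∪ B) := by
    rw [Subgroup.closure_union, Subgroup.closure_eq, Subgroup.closure_eq]
  have key : ∀ z ∈ Subgroup.closure ((A : Set X) ∪ B), z ∈ A ⊔ B ∧ z ^ 2 = 1 := by
    intro z hz
    induction hz using Subgroup.closure_induction with
    | mem z hz =>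
      rcases hz with hz | hz
      · exact ⟨Subgroup.mem_sup_left hz, hA.2 z hz⟩
      · exact ⟨Subgroup.mem_sup_right hz, hB.2 z hz⟩
    | one => exact ⟨one_mem _, one_pow _⟩
    | mul x y _ _ hx hy =>
      have hxy : Commute x y := Subgroup.mem_centralizer_iff.mp (hcc hy.1) x hx.1
      exact ⟨mul_mem hx.1 hy.1, by rw [hxy.mul_pow, hx.2, hy.2, one_mul]⟩
    | inv x _ hx => exact ⟨inv_mem hx.1, by rw [inv_pow, hx.2, inv_one]⟩
  exact (key a (hle ha)).2

theorem elem_zpowers {a : X} (ha : a * a = 1) :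
    Cfsg.IsElementaryAbelian 2 (Subgroup.zpowers a) := by
  refine ⟨inferInstance, ?_⟩
  rintro _ ⟨k, rfl⟩
  show (a ^ k) ^ 2 = 1
  rw [← zpow_natCast, ← zpow_mul, mul_comm, zpow_mul, zpow_natCast, pow_two, ha, one_zpow]

theorem isPGroup_of_elem {U : Subgroup X} (hU : Cfsg.IsElementaryAbelian 2 U) : IsPGroup 2 ↥U :=
  fun x => ⟨1, by rw [pow_one]; exact Subtype.ext (hU.2 x x.2)⟩

/-- Elementary abelian overgroups of order `8`. -/
theorem exists_eight {U V : Subgroup X} (hU : Cfsg.IsElementaryAbelian 2 U) (hVU : V ≤ U)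
    (hV : Nat.card ↥V < 16) (hU8 : 4 < Nat.card ↥U) :
    ∃ A : Subgroup X, A ≤ U ∧ Cfsg.IsElementaryAbelian 2 A ∧ Nat.card ↥A = 8 ∧
      (V ≤ A) := by
  haveI : Fact (Nat.Prime 2) := ⟨Nat.prime_two⟩
  obtain ⟨m, hm⟩ := IsPGroup.iff_card.mp (isPGroup_of_elem hU)
  obtain ⟨n, hn⟩ := IsPGroup.iff_card.mp (isPGroup_of_elem (elem_of_le' hU hVU))
  have hn4 : n < 4 := (Nat.pow_lt_pow_iff_right one_lt_two).mp (hn ▸ hV)
  have hm3 : 3 ≤ m := (Nat.pow_lt_pow_iff_right one_lt_two).mp (show 2 ^ 2 < 2 ^ m from hm ▸ hU8)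
  obtain ⟨K, hK, hVK⟩ := Sylow.exists_subgroup_card_pow_prime_le (p := 2) (G := ↥U) (n := n) (m := 3)
    (hm ▸ pow_dvd_pow 2 hm3) (V.subgroupOf U)
    (by rw [Nat.card_congr (Subgroup.subgroupOfEquivOfLe hVU).toEquiv]; exact hn) (by omega)
  refine ⟨K.map U.subtype, Subgroup.map_subtype_le _, elem_of_le' hU (Subgroup.map_subtype_le _),
    by rw [Subgroup.card_subtype]; exact hK, fun v hv => ⟨⟨v, hVU hv⟩, hVK ?_, rfl⟩⟩
  exact Subgroup.mem_subgroupOf.mpr hv


/-- Let X be a finite 2-group having a normal elementary abelian subgroup of order at least 32. Then (a) for any two elementary abelian subgroups A, B of X of order 8 there is a chain A = A₁, A₂, …, Aₙ = B of elementary abelian subgroups of order 8 in which consecutive members commute elementwise; and (b) every elementary abelian subgroup of X of order 4 is contained in an elementary abelian subgroup of order 8. -/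
theorem result {X : Type*} [Group X] [Finite X]
    (hX : IsPGroup 2 X) (E : Subgroup X) [E.Normal] (hE : Cfsg.IsElementaryAbelian 2 E) (hE32 : 32 ≤ Nat.card ↥E) :
    (∀ A B : Subgroup X, Cfsg.IsElementaryAbelian 2 A → Nat.card ↥A = 8 → Cfsg.IsElementaryAbelian 2 B → Nat.card ↥B = 8 →
        Relation.ReflTransGen
          (fun C D : Subgroup X => Cfsg.IsElementaryAbelian 2 C ∧ Nat.card ↥C = 8 ∧ Cfsg.IsElementaryAbelian 2 D ∧ Nat.card ↥D = 8 ∧ ⁅C, D⁆ = ⊥)
          A B) ∧
      (∀ V : Subgroup X, Cfsg.IsElementaryAbelian 2 V → Nat.card ↥V = 4 →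
        ∃ A : Subgroup X, V ≤ A ∧ Cfsg.IsElementaryAbelian 2 A ∧ Nat.card ↥A = 8) := by
  haveI : Fact (Nat.Prime 2) := ⟨Nat.prime_two⟩
  haveI := hE.1
  have hEc : ∀ a b, a ∈ E → b ∈ E → a * b = b * a := fun a b ha hb =>
    congrArg Subtype.val (mul_comm' (⟨a, ha⟩ : ↥E) ⟨b, hb⟩)
  have hEn : ∀ (v k : X), v * v = 1 → k ∈ E → v * k * v ∈ E := fun v k hv hk => by
    have := (inferInstance : E.Normal).conj_mem k hk v
    rwa [inv_eq_of_mul_eq_one_right hv] at this
  have hsq : ∀ {A : Subgroup X}, Cfsg.IsElementaryAbelian 2 A → ∀ a ∈ A, a * a = 1 :=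
    fun {A} hA a ha => by rw [← pow_two]; exact hA.2 a ha
  have hcm : ∀ {A : Subgroup X}, Cfsg.IsElementaryAbelian 2 A → ∀ a ∈ A, ∀ b ∈ A, a * b = b * a :=
    fun {A} hA a ha b hb => by
      haveI := hA.1
      exact congrArg Subtype.val (mul_comm' (⟨a, ha⟩ : ↥A) ⟨b, hb⟩)
  -- fixed points of one and of two involutions
  have hfix1 : ∀ v : X, v * v = 1 → 4 < Nat.card ↥(E ⊓ Subgroup.centralizer {v} : Subgroup X) := by
    intro v hv
    have h1 := fix_card hE hv (fun k hk => hEn v k hv hk)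
    by_contra h
    have := h1.trans (Nat.mul_le_mul (not_lt.mp h) (not_lt.mp h))
    omega
  have hfix2 : ∀ u v : X, u * u = 1 → v * v = 1 → u * v = v * u →
      2 < Nat.card ↥(E ⊓ Subgroup.centralizer {u} ⊓ Subgroup.centralizer {v} : Subgroup X) := by
    intro u v hu hv huv
    have h1 := fix_card (elem_of_le' hE (inf_le_left (b := Subgroup.centralizer {u}))) hv
      (fun k hk => ⟨hEn v k hv hk.1, mul_mem (mul_mem
        (Subgroup.mem_centralizer_singleton_iff.mpr huv.symm) hk.2)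
        (Subgroup.mem_centralizer_singleton_iff.mpr huv.symm)⟩)
    by_contra h
    have h2 := h1.trans (Nat.mul_le_mul (not_lt.mp h) (not_lt.mp h))
    have := hfix1 u hu
    omega
  have hfour : ∀ V : Subgroup X, Cfsg.IsElementaryAbelian 2 V → Nat.card ↥V = 4 →
      ∃ u ∈ V, ∃ v ∈ V, Subgroup.zpowers u ⊔ Subgroup.zpowers v = V := by
    intro V hV hc
    have hne : V ≠ ⊥ := fun h => by rw [h, Subgroup.card_bot] at hc; omega
    obtain ⟨⟨u, hu⟩, hu1⟩ := Subgroup.ne_bot_iff_exists_ne_one.mp hne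
    have hu2 : Nat.card ↥(Subgroup.zpowers u) = 2 := by
      rw [Nat.card_zpowers]
      exact orderOf_eq_prime (hV.2 u hu) fun e => hu1 (Subtype.ext e)
    obtain ⟨v, hv, hvu⟩ : ∃ v ∈ V, v ∉ Subgroup.zpowers u := by
      by_contra h
      push Not at h
      have := Subgroup.card_le_card_group (Subgroup.zpowers u)
      have h3 := Nat.le_of_dvd Nat.card_pos (Subgroup.card_dvd_of_le (H := V) (K := Subgroup.zpowers u) h)
      omega
    refine ⟨u, hu, v, hv, Subgroup.eq_of_le_of_card_ge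
      (sup_le (Subgroup.zpowers_le.mpr hu) (Subgroup.zpowers_le.mpr hv)) ?_⟩
    rw [hc]
    have hlt : Subgroup.zpowers u < Subgroup.zpowers u ⊔ Subgroup.zpowers v :=
      lt_of_le_of_ne le_sup_left fun e => hvu (e ▸ Subgroup.mem_sup_right (Subgroup.mem_zpowers v))
    obtain ⟨k, hk⟩ := Subgroup.card_dvd_of_le hlt.le
    rw [hu2] at hk
    rcases Nat.lt_or_ge k 2 with hk2 | hk2
    · exact absurd (Subgroup.eq_of_le_of_card_ge hlt.le (by rw [hu2, hk]; omega)) hlt.ne
    · omega
  refine ⟨?_, ?_⟩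
  swap
  · intro V hV hc
    obtain ⟨u, hu, v, hv, hgen⟩ := hfour V hV hc
    set K := E ⊓ Subgroup.centralizer {u} ⊓ Subgroup.centralizer {v} with hK
    have hVK : V ≤ Subgroup.centralizer (K : Set X) := by
      rw [← hgen]
      refine sup_le ?_ ?_ <;> rw [Subgroup.zpowers_le, Subgroup.mem_centralizer_iff] <;> intro k hk
      · exact Subgroup.mem_centralizer_singleton_iff.mp hk.1.2
      · exact Subgroup.mem_centralizer_singleton_iff.mp hk.2
    have hU := elem_sup hV (elem_of_le' hE (inf_le_left.trans inf_le_left : K ≤ E)) hVK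
    have h8 : 4 < Nat.card ↥(V ⊔ K : Subgroup X) := by
      by_contra h
      have hle : V ⊔ K = V := (Subgroup.eq_of_le_of_card_ge le_sup_left (by omega)).symm
      have hKV : K ≤ V := hle ▸ le_sup_right
      have hK2 := hfix2 u v (hsq hV u hu) (hsq hV v hv) (hcm hV u hu v hv)
      have hKeq : K = V := Subgroup.eq_of_le_of_card_ge hKV (by
        obtain ⟨k, hk⟩ := Subgroup.card_dvd_of_le hKV
        rw [hc] at hk
        rcases Nat.lt_or_ge k 2 with hk2 | hk2
        · interval_cases k <;> omega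
        · nlinarith)
      have hEK : E ≤ K := fun x hx => ⟨⟨hx, Subgroup.mem_centralizer_singleton_iff.mpr
        (hEc x u hx (hKeq.ge hu).1.1)⟩, Subgroup.mem_centralizer_singleton_iff.mpr
        (hEc x v hx (hKeq.ge hv).1.1)⟩
      have h9 := Nat.le_of_dvd Nat.card_pos (Subgroup.card_dvd_of_le hEK)
      rw [hKeq, hc] at h9
      omega
    obtain ⟨A, -, hA, hA8, hVA⟩ := exists_eight hU le_sup_left (by omega) h8
    exact ⟨A, hVA, hA, hA8⟩
  set R := fun C D : Subgroup X => Cfsg.IsElementaryAbelian 2 C ∧ Nat.card ↥C = 8 ∧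
    Cfsg.IsElementaryAbelian 2 D ∧ Nat.card ↥D = 8 ∧ ⁅C, D⁆ = ⊥ with hR
  haveI : Std.Symm R := ⟨fun C D h => ⟨h.2.2.1, h.2.2.2.1, h.1, h.2.1,
    by rw [Subgroup.commutator_comm]; exact h.2.2.2.2⟩⟩
  have hstep : ∀ (U : Subgroup X) (C D : Subgroup X), Cfsg.IsElementaryAbelian 2 U → C ≤ U → D ≤ U →
      Nat.card ↥C = 8 → Nat.card ↥D = 8 → R C D := by
    intro U C D hU hCU hDU hC hD
    refine ⟨elem_of_le' hU hCU, hC, elem_of_le' hU hDU, hD, ?_⟩
    rw [Subgroup.commutator_eq_bot_iff_le_centralizer]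
    exact fun c hc => Subgroup.mem_centralizer_iff.mpr fun d hd => hcm hU d (hDU hd) c (hCU hc)
  have main : ∀ A : Subgroup X, Cfsg.IsElementaryAbelian 2 A → Nat.card ↥A = 8 →
      ∃ D, D ≤ E ∧ Nat.card ↥D = 8 ∧ Relation.ReflTransGen R A D := by
    intro A hA hA8
    obtain ⟨V, hV4, -⟩ := Sylow.exists_subgroup_card_pow_prime_le (p := 2) (G := ↥A) (n := 0) (m := 2)
      (by rw [hA8]; norm_num) ⊥ (by simp) (by omega)
    have hVA : V.map A.subtype ≤ A := Subgroup.map_subtype_le _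
    obtain ⟨u, hu, v, hv, hgen⟩ := hfour _ (elem_of_le' hA hVA)
      (by rw [Subgroup.card_subtype, hV4]; norm_num)
    obtain ⟨w, hw, hwV⟩ : ∃ w ∈ A, w ∉ V.map A.subtype := by
      by_contra h
      push Not at h
      have := Nat.le_of_dvd Nat.card_pos (Subgroup.card_dvd_of_le (H := A) (K := V.map A.subtype) h)
      rw [Subgroup.card_subtype, hV4, hA8] at this
      omega
    have hgenA : V.map A.subtype ⊔ Subgroup.zpowers w = A := by
      refine Subgroup.eq_of_le_of_card_ge (sup_le hVA (Subgroup.zpowers_le.mpr hw)) ?_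
      have hlt : V.map A.subtype < V.map A.subtype ⊔ Subgroup.zpowers w :=
        lt_of_le_of_ne le_sup_left fun e => hwV (e ▸ Subgroup.mem_sup_right (Subgroup.mem_zpowers w))
      obtain ⟨k, hk⟩ := Subgroup.card_dvd_of_le hlt.le
      rcases Nat.lt_or_ge k 2 with hk2 | hk2
      · exact absurd (Subgroup.eq_of_le_of_card_ge hlt.le (by
          rw [hk]; interval_cases k <;> simp)) hlt.ne
      · rw [hA8, hk, Subgroup.card_subtype, hV4]
        norm_num; omega
    set K := E ⊓ Subgroup.centralizer {u} ⊓ Subgroup.centralizer {v} with hK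
    have hK2 := hfix2 u v (hsq hA u (hVA hu)) (hsq hA v (hVA hv)) (hcm hA u (hVA hu) v (hVA hv))
    have hK3 := fix_card (elem_of_le' hE (inf_le_left.trans inf_le_left : K ≤ E)) (hsq hA w hw)
      (fun k hk => ⟨⟨hEn w k (hsq hA w hw) hk.1.1, mul_mem (mul_mem
        (Subgroup.mem_centralizer_singleton_iff.mpr (hcm hA w hw u (hVA hu))) hk.1.2)
        (Subgroup.mem_centralizer_singleton_iff.mpr (hcm hA w hw u (hVA hu)))⟩, mul_mem (mul_mem
        (Subgroup.mem_centralizer_singleton_iff.mpr (hcm hA w hw v (hVA hv))) hk.2)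
        (Subgroup.mem_centralizer_singleton_iff.mpr (hcm hA w hw v (hVA hv)))⟩)
    obtain ⟨⟨e, he⟩, he1⟩ := Subgroup.ne_bot_iff_exists_ne_one.mp
      (show K ⊓ Subgroup.centralizer {w} ≠ ⊥ from fun h => by
        rw [h, Subgroup.card_bot] at hK3; omega)
    have heA : A ≤ Subgroup.centralizer ((Subgroup.zpowers e : Subgroup X) : Set X) := by
      rw [Subgroup.le_centralizer_iff, Subgroup.zpowers_le, ← hgenA, ← hgen]
      rw [Subgroup.mem_centralizer_iff]
      intro z hz
      have hle : Subgroup.zpowers u ⊔ Subgroup.zpowers v ⊔ Subgroup.zpowers w ≤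
          Subgroup.centralizer {e} := by
        refine sup_le (sup_le ?_ ?_) ?_ <;>
          rw [Subgroup.zpowers_le, Subgroup.mem_centralizer_singleton_iff]
        · exact (Subgroup.mem_centralizer_singleton_iff.mp he.1.1.2).symm
        · exact (Subgroup.mem_centralizer_singleton_iff.mp he.1.2).symm
        · exact (Subgroup.mem_centralizer_singleton_iff.mp he.2).symm
      exact Subgroup.mem_centralizer_singleton_iff.mp (hle hz)
    have hU := elem_sup hA (elem_zpowers (hsq hE e he.1.1.1)) heA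
    obtain ⟨A1, hA1U, hA1, hA18, heA1⟩ := exists_eight hU
      (le_sup_right : Subgroup.zpowers e ≤ A ⊔ Subgroup.zpowers e)
      (by rw [Nat.card_zpowers, orderOf_eq_prime (hE.2 e he.1.1.1) fun h => he1 (Subtype.ext h)]; omega)
      (by
        have := Nat.le_of_dvd Nat.card_pos
          (Subgroup.card_dvd_of_le (le_sup_left : A ≤ A ⊔ Subgroup.zpowers e))
        omega)
    have r1 : R A A1 := hstep _ A A1 hU le_sup_left hA1U hA8 hA18
    by_cases hA1E : A1 ≤ E
    · exact ⟨A1, hA1E, hA18, Relation.ReflTransGen.single r1⟩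
    obtain ⟨a, ha, haE⟩ := SetLike.not_le_iff_exists.mp hA1E
    have heA1' : e ∈ A1 := heA1 (Subgroup.mem_zpowers e)
    have heE := he.1.1.1
    set W := Subgroup.zpowers e ⊔ Subgroup.zpowers a with hW
    have hWA : W ≤ A1 := sup_le heA1 (Subgroup.zpowers_le.mpr ha)
    obtain ⟨b, hb, hbW⟩ : ∃ b ∈ A1, Subgroup.zpowers e ⊔ Subgroup.zpowers a ⊔ Subgroup.zpowers b = A1 := by
      have he2 : Nat.card ↥(Subgroup.zpowers e) = 2 := by
        rw [Nat.card_zpowers]; exact orderOf_eq_prime (hE.2 e heE) fun h => he1 (Subtype.ext h)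
      have ha2 : Nat.card ↥(Subgroup.zpowers a) = 2 := by
        rw [Nat.card_zpowers]
        exact orderOf_eq_prime (hA1.2 a ha) fun h => haE (h ▸ one_mem E)
      have hW4 : Nat.card ↥W ∣ 8 := hA18 ▸ Subgroup.card_dvd_of_le hWA
      have hWle : Nat.card ↥W ≤ 4 := by
        have h := CfsgLib.Core.card_sup_mul_card_inf (A := Subgroup.zpowers e) (K := Subgroup.zpowers a) (by
          intro x hx
          refine Subgroup.centralizer_le_normalizer _ (Subgroup.mem_centralizer_iff.mpr fun y hy => ?_)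
          exact hcm hA1 y (Subgroup.zpowers_le.mpr ha hy) x (heA1 hx))
        rw [he2, ha2] at h
        have := Nat.card_pos (α := ↥(Subgroup.zpowers e ⊓ Subgroup.zpowers a : Subgroup X))
        rw [hW]
        nlinarith
      obtain ⟨b, hb, hbW⟩ : ∃ b ∈ A1, b ∉ W := by
        by_contra h
        push Not at h
        have := Nat.le_of_dvd Nat.card_pos (Subgroup.card_dvd_of_le (H := A1) (K := W) h)
        omega
      refine ⟨b, hb, Subgroup.eq_of_le_of_card_ge (sup_le hWA (Subgroup.zpowers_le.mpr hb)) ?_⟩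
      have hlt : W < W ⊔ Subgroup.zpowers b :=
        lt_of_le_of_ne le_sup_left fun h => hbW (h ▸ Subgroup.mem_sup_right (Subgroup.mem_zpowers b))
      have hWge : 4 ≤ Nat.card ↥W := by
        have hlt2 : Subgroup.zpowers e < W := lt_of_le_of_ne le_sup_left fun h =>
          haE (Subgroup.zpowers_le.mpr heE (h ▸ Subgroup.mem_sup_right (Subgroup.mem_zpowers a)))
        obtain ⟨k, hk⟩ := Subgroup.card_dvd_of_le hlt2.le
        rcases Nat.lt_or_ge k 2 with hk2 | hk2
        · exact absurd (Subgroup.eq_of_le_of_card_ge hlt2.le (by rw [hk, he2]; omega)) hlt2.ne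
        · rw [he2] at hk; omega
      obtain ⟨k, hk⟩ := Subgroup.card_dvd_of_le hlt.le
      rcases Nat.lt_or_ge k 2 with hk2 | hk2
      · exact absurd (Subgroup.eq_of_le_of_card_ge hlt.le (by rw [hk]; interval_cases k <;> omega)) hlt.ne
      · rw [hA18, ← hW, hk]
        nlinarith
    set K' := E ⊓ Subgroup.centralizer {a} ⊓ Subgroup.centralizer {b} with hK'
    have hK'2 := hfix2 a b (hsq hA1 a ha) (hsq hA1 b hb) (hcm hA1 a ha b hb)
    have hA1K : A1 ≤ Subgroup.centralizer (K' : Set X) := by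
      rw [← hbW]
      refine sup_le (sup_le ?_ ?_) ?_ <;> rw [Subgroup.zpowers_le, Subgroup.mem_centralizer_iff] <;>
        intro k hk
      · exact hEc k e hk.1.1 heE
      · exact Subgroup.mem_centralizer_singleton_iff.mp hk.1.2
      · exact Subgroup.mem_centralizer_singleton_iff.mp hk.2
    have hU1 := elem_sup hA1 (elem_of_le' hE (inf_le_left.trans inf_le_left : K' ≤ E)) hA1K
    obtain ⟨f, hf, hfe⟩ : ∃ f ∈ K', f ∉ W := by
      by_contra h
      push Not at h
      have hKe : K' ≤ Subgroup.zpowers e := by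
        intro f hf
        obtain ⟨x, ⟨i, rfl⟩, y, ⟨j, rfl⟩, hxy⟩ :=
          CfsgLib.Local.PumpUp.exists_mul_eq (A := Subgroup.zpowers e) (B := Subgroup.zpowers a) (by
            intro x hx
            refine Subgroup.centralizer_le_normalizer _ (Subgroup.mem_centralizer_iff.mpr fun y hy => ?_)
            exact hcm hA1 y (heA1 hy) x (Subgroup.zpowers_le.mpr ha hx)) (h f hf)
        have haj : a ^ j ∈ E := by
          have h1 : e ^ i * a ^ j ∈ E := hxy ▸ (show f ∈ E from hf.1.1)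
          have h2 : (e ^ i)⁻¹ * (e ^ i * a ^ j) ∈ E := E.mul_mem (E.inv_mem (E.zpow_mem (show e ∈ E from heE) i)) h1
          rwa [inv_mul_cancel_left] at h2
        have ha2 : a ^ (2 : ℤ) = 1 := by rw [zpow_two]; exact hsq hA1 a ha
        rcases Int.even_or_odd j with ⟨m, rfl⟩ | ⟨m, rfl⟩
        · have hf' : f = e ^ i := by
            rw [← hxy]
            show e ^ i * a ^ (m + m) = e ^ i
            rw [← two_mul, zpow_mul, ha2, one_zpow, mul_one]
          exact hf' ▸ zpow_mem (Subgroup.mem_zpowers e) i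
        · rw [zpow_add, zpow_mul, ha2, one_zpow, one_mul, zpow_one] at haj
          exact absurd haj haE
      have h9 := Nat.le_of_dvd Nat.card_pos (Subgroup.card_dvd_of_le hKe)
      rw [Nat.card_zpowers, orderOf_eq_prime (hE.2 e heE) fun h => he1 (Subtype.ext h)] at h9
      exact absurd (lt_of_lt_of_le hK'2 h9) (lt_irrefl _)
    have hBU : W ⊔ Subgroup.zpowers f ≤ A1 ⊔ K' := sup_le_sup hWA (Subgroup.zpowers_le.mpr hf)
    have hB4 : 4 < Nat.card ↥(W ⊔ Subgroup.zpowers f : Subgroup X) := by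
      have hlt : W < W ⊔ Subgroup.zpowers f :=
        lt_of_le_of_ne le_sup_left fun h => hfe (h ▸ Subgroup.mem_sup_right (Subgroup.mem_zpowers f))
      have hlt2 : Subgroup.zpowers e < W := lt_of_le_of_ne le_sup_left fun h =>
        haE (Subgroup.zpowers_le.mpr heE (h ▸ Subgroup.mem_sup_right (Subgroup.mem_zpowers a)))
      obtain ⟨k, hk⟩ := Subgroup.card_dvd_of_le hlt2.le
      obtain ⟨l, hl⟩ := Subgroup.card_dvd_of_le hlt.le
      rw [Nat.card_zpowers, orderOf_eq_prime (hE.2 e heE) fun h => he1 (Subtype.ext h)] at hk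
      rcases Nat.lt_or_ge k 2 with hk2 | hk2
      · exact absurd (Subgroup.eq_of_le_of_card_ge hlt2.le (by
          rw [hk, Nat.card_zpowers, orderOf_eq_prime (hE.2 e heE) fun h => he1 (Subtype.ext h)]
          omega)) hlt2.ne
      rcases Nat.lt_or_ge l 2 with hl2 | hl2
      · exact absurd (Subgroup.eq_of_le_of_card_ge hlt.le (by rw [hl]; interval_cases l <;> omega)) hlt.ne
      · rw [hl]; nlinarith
    obtain ⟨B, hBle, hB, hB8, -⟩ := exists_eight (elem_of_le' hU1 hBU) bot_le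
      (by rw [Subgroup.card_bot]; omega) hB4
    have r2 : R A1 B := hstep _ A1 B hU1 le_sup_left (hBle.trans hBU) hA18 hB8
    set M := E ⊓ Subgroup.centralizer {a} with hM
    obtain ⟨D, hDM, hD, hD8, -⟩ := exists_eight (elem_of_le' hE (inf_le_left : M ≤ E)) bot_le
      (by rw [Subgroup.card_bot]; omega) (hfix1 a (hsq hA1 a ha))
    have haM : Subgroup.zpowers a ≤ Subgroup.centralizer (M : Set X) := by
      rw [Subgroup.zpowers_le, Subgroup.mem_centralizer_iff]
      exact fun k hk => Subgroup.mem_centralizer_singleton_iff.mp hk.2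
    have hU2 := elem_sup (elem_zpowers (hsq hA1 a ha)) (elem_of_le' hE (inf_le_left : M ≤ E)) haM
    have hB2 : B ≤ Subgroup.zpowers a ⊔ M := by
      refine hBle.trans (sup_le (sup_le ?_ le_sup_left) ?_) <;> rw [Subgroup.zpowers_le]
      · exact Subgroup.mem_sup_right ⟨heE, Subgroup.mem_centralizer_singleton_iff.mpr
          (hcm hA1 e heA1' a ha)⟩
      · exact Subgroup.mem_sup_right hf.1
    have r3 : R B D := hstep _ B D hU2 hB2 (hDM.trans le_sup_right) hB8 hD8
    exact ⟨D, hDM.trans inf_le_left, hD8,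
      ((Relation.ReflTransGen.single r1).tail r2).tail r3⟩
  intro A B hA hA8 hB hB8
  obtain ⟨D, hD, hD8, hAD⟩ := main A hA hA8
  obtain ⟨D', hD', hD8', hBD⟩ := main B hB hB8
  exact (hAD.tail (hstep E D D' hE hD hD' hD8 hD8')).trans (Std.Symm.symm _ _ hBD)


end Cfsg.Agent.S1785
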