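import Cfsg.Statements.S1850
import Cfsg.Agent.Lib.LocalCharP
import Cfsg.Agent.Lib.LocalFusion

set_option autoImplicit false
open Cfsg

namespace Cfsg.Agent.S1850

/-- Let G be a non-abelian finite simple QTKE-group and T a Sylow 2-subgroup of G. If U is a nontrivial 2-subgroup of G with U ∩ Z(T) ≠ 1, then F*(N_G(U)) = O₂(N_G(U)). -/
theorem result {G : Type*} [Group G] [Finite G] [IsSimpleGroup G]
    (hG : ¬ IsMulCommutative G) (hQ : Cfsg.IsQTKE G) (T : Sylow 2 G) (U : Subgroup G)
    (hU : IsPGroup 2 ↥U) (hZ : U ⊓ ((T : Subgroup G) ⊓ Subgroup.centralizer ((T : Subgroup G) : Set G)) ≠ ⊥) :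
    Subgroup.normalizer (U : Set G) ∈ Cfsg.calHe G := by
  haveI : Fact (Nat.Prime 2) := ⟨Nat.prime_two⟩
  have hpar : Cfsg.IsOfParabolicCharacteristic 2 G := fun R hR hR1 hP => hQ.2.2 _ ⟨R, hR, hR1, rfl⟩ hP
  obtain ⟨⟨u, hu⟩, hu1⟩ := Subgroup.ne_bot_iff_exists_ne_one.mp hZ
  have hu1' : u ≠ 1 := fun e => hu1 (Subtype.ext e)
  have hM := CfsgLib.Local.CharP.parabolic_centralizer hpar T hu1' hu.2.1 hu.2.2
  set M := Subgroup.centralizer ({u} : Set G) with hMdef
  have key : ∀ n, ∀ V : Subgroup G, Nat.card U - Nat.card V = n → V ≤ U →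
      Cfsg.generalizedFittingSubgroup ↥(Subgroup.normalizer (V : Set G)) =
        Cfsg.pCore 2 ↥(Subgroup.normalizer (V : Set G)) →
      Cfsg.generalizedFittingSubgroup ↥(Subgroup.normalizer (U : Set G)) =
        Cfsg.pCore 2 ↥(Subgroup.normalizer (U : Set G)) := by
    intro n
    induction n using Nat.strong_induction_on with
    | _ n ih =>
    intro V hn hVU hV
    rcases hVU.lt_or_eq with hlt | rfl
    swap
    · exact hV
    have hlt2 := CfsgLib.Local.lt_inf_normalizer hU hlt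
    have hc := CfsgLib.Local.card_lt_card_of_lt hlt2
    have hc2 := Subgroup.card_le_of_le (inf_le_left : U ⊓ Subgroup.normalizer (V : Set G) ≤ U)
    refine ih _ ?_ (U ⊓ Subgroup.normalizer (V : Set G)) rfl inf_le_left ?_
    · omega
    exact CfsgLib.Local.Comp.charP_normalizer_of_between (hU.to_le inf_le_left) inf_le_right
      ((Subgroup.centralizer_le (SetLike.coe_subset_coe.mpr hlt2.le)).trans
        (Subgroup.centralizer_le_normalizer _)) hV
  refine key _ (U ⊓ M) rfl inf_le_left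
    (CfsgLib.Local.Comp.charP_normalizer_of_between (hU.to_le inf_le_left) inf_le_right ?_ hM)
  have huM : u ∈ U ⊓ M := ⟨hu.1, Subgroup.mem_centralizer_singleton_iff.mpr rfl⟩
  exact Subgroup.centralizer_le (Set.singleton_subset_iff.mpr huM)

end Cfsg.Agent.S1850
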