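import Cfsg.Statements.S1958
import Cfsg.Agent.Lib.LocalSignalizer

set_option autoImplicit false
open Cfsg

namespace Cfsg.Agent.S1958

/-- Let `G` be a finite group, `p` a prime, and `x, y` commuting elements of order `p` whose centralizers `C_G(x)` and `C_G(y)` are both solvable. Then `O_{p'}(C_G(x)) ∩ C_G(y) = O_{p'}(C_G(y)) ∩ C_G(x)` (balance). -/
theorem result {G : Type*} [Group G] [Finite G]
    (p : ℕ) [Fact p.Prime] (x y : G) (hx : orderOf x = p) (hy : orderOf y = p) (hxy : x * y = y * x)
    (hCx : Group.IsSolvable ↥(Subgroup.centralizer ({x} : Set G))) (hCy : Group.IsSolvable ↥(Subgroup.centralizer ({y} : Set G))) :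
    Cfsg.centralizerPPrimeCore p x ⊓ Subgroup.centralizer {y} = Cfsg.centralizerPPrimeCore p y ⊓ Subgroup.centralizer {x} := by
  have key : ∀ a b : G, orderOf a = p → orderOf b = p → a * b = b * a →
      Group.IsSolvable ↥(Subgroup.centralizer ({b} : Set G)) →
      Cfsg.centralizerPPrimeCore p a ⊓ Subgroup.centralizer {b} ≤ Cfsg.centralizerPPrimeCore p b ⊓ Subgroup.centralizer {a} := by
    intro a b ha _ hab hsolv x hx
    refine Subgroup.mem_inf.2 ⟨?_, CfsgLib.Local.KBal.core_le_centralizer a (Subgroup.mem_inf.1 hx).1⟩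
    obtain ⟨⟨c, hc, rfl⟩, hxb⟩ := Subgroup.mem_inf.mp hx
    set C := Subgroup.centralizer ({b} : Set G) with hC
    have haC : a ∈ C := Subgroup.mem_centralizer_singleton_iff.2 hab
    let a' : ↥C := ⟨a, haC⟩
    let R : Subgroup ↥C := Subgroup.zpowers a'
    have hR : IsPGroup p ↥R := IsPGroup.of_card (n := 1) (by
      rw [Nat.card_zpowers, pow_one, ← Subgroup.orderOf_coe]
      exact ha)
    haveI := hsolv
    refine ⟨⟨(c : G), hxb⟩, CfsgLib.Local.SF.core_centralizer_le inferInstance hR ?_, rfl⟩
    have hmem : (⟨(c : G), hxb⟩ : ↥C) ∈ Subgroup.centralizer (R : Set ↥C) := by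
      rw [Subgroup.mem_centralizer_iff]
      rintro _ ⟨i, rfl⟩
      apply Subtype.ext
      show ((a' ^ i : ↥C) : G) * (c : G) = (c : G) * ((a' ^ i : ↥C) : G)
      rw [Subgroup.coe_zpow]
      have hca : Commute a (c : G) := (Subgroup.mem_centralizer_singleton_iff.mp c.2).symm
      exact (hca.zpow_left i).eq
    refine ⟨⟨⟨(c : G), hxb⟩, hmem⟩, ?_, rfl⟩
    let K := Subgroup.centralizer (R : Set ↥C)
    let g : ↥K →* ↥(Subgroup.centralizer ({a} : Set G)) :=
      MonoidHom.codRestrict (C.subtype.comp K.subtype) _ (fun y => by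
        rw [Subgroup.mem_centralizer_singleton_iff]
        exact congrArg Subtype.val
          (Subgroup.mem_centralizer_iff.mp y.2 a' (Subgroup.mem_zpowers a')).symm)
    haveI := CfsgLib.Core.normal_pPrimeCore (G := ↥(Subgroup.centralizer ({a} : Set G))) p
    have hN : (Cfsg.pPrimeCore p ↥(Subgroup.centralizer ({a} : Set G))).comap g ≤
        Cfsg.pPrimeCore p ↥K := by
      refine CfsgLib.Core.le_pPrimeCore inferInstance ?_
      refine Nat.Coprime.coprime_dvd_left ?_
        (CfsgLib.Core.coprime_card_pPrimeCore (G := ↥(Subgroup.centralizer ({a} : Set G))) p)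
      have hinj : Function.Injective g := fun y z h =>
        Subtype.ext (Subtype.ext (congrArg Subtype.val h :))
      rw [← Subgroup.card_map_of_injective hinj
        (K := (Cfsg.pPrimeCore p ↥(Subgroup.centralizer ({a} : Set G))).comap g)]
      exact Subgroup.card_dvd_of_le (Subgroup.map_comap_le _ _)
    exact hN hc
  exact le_antisymm (key x y hx hy hxy hCy) (key y x hy hx hxy.symm hCx)

end Cfsg.Agent.S1958
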