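import Cfsg.Statements.S1966
import Cfsg.Agent.Lib.LocalChain

set_option autoImplicit false
open Cfsg
open scoped Pointwise commutatorElement
set_option maxHeartbeats 800000

namespace Cfsg.Agent.S1966

/-- Let p be a prime, G a finite group with Sylow p-subgroup S and 𝓕 a conjugation family for S in G. Then the members of 𝓕 containing O_p(G) still form a conjugation family for S in G. -/
theorem result {G : Type*} [Group G] [Finite G] {p : ℕ} [Fact p.Prime] (S : Sylow p G) (𝓕 : Set (Subgroup G)) (h : Cfsg.IsConjugationFamily 𝓕 (S : Subgroup G)) : Cfsg.IsConjugationFamily {T : Subgroup G | T ∈ 𝓕 ∧ Cfsg.pCore p G ≤ T} (S : Subgroup G) := by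
  obtain ⟨hle, hfam⟩ := h
  refine ⟨fun T hT => hle T hT.1, fun A g hA hAS hgS => ?_⟩
  have hR : Cfsg.pCore p G ≤ (S : Subgroup G) := CfsgLib.Local.pCore_le_sylow' S
  haveI hRn : (Cfsg.pCore p G).Normal := CfsgLib.Local.pCore_normal' p
  obtain ⟨n, T, x, h1, h2, h3, h4, h5⟩ := hfam (A ∪ (Cfsg.pCore p G : Set G)) g
    (hA.mono Set.subset_union_left) (Set.union_subset hAS hR) (by
      rintro _ ⟨a, ha | ha, rfl⟩
      · exact hgS ⟨a, ha, rfl⟩
      · exact hR (by simpa using hRn.conj_mem a ha g⁻¹))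
  refine ⟨n, T, x, h1, fun i => ⟨h2 i, fun r hr => ?_⟩, h3,
    fun hn => Set.subset_union_left.trans (h4 hn),
    fun i hi => (Set.image_mono Set.subset_union_left).trans (h5 i hi)⟩
  obtain ⟨i, hi⟩ := i
  cases i with
  | zero => exact h4 hi (Or.inr hr)
  | succ j =>
    set u := ((List.ofFn x).take (j + 1)).prod
    exact h5 ⟨j, by omega⟩ hi ⟨u * r * u⁻¹, Or.inr (hRn.conj_mem r hr u), show u⁻¹ * (u * r * u⁻¹) * u = r by group⟩

end Cfsg.Agent.S1966
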