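import Cfsg.Statements.S1969
import Cfsg.Agent.Lib.StableControlApps

set_option autoImplicit false
universe u
open Cfsg

namespace Cfsg.Agent.S1969

/-- Let p be a prime, G a finite group and W an isomorphism-invariant p-group functor (W assigns to every group Q a subgroup W(Q), nontrivial whenever Q is a nontrivial finite p-group, and every isomorphism from a finite p-group Q onto a group R carries W(Q) onto W(R)). Suppose that W(S*) is normal in G* whenever G* = K/R is a section of G with C_{G*}(O_p(G*)) ≤ O_p(G*) and S* is a Sylow p-subgroup of G*. Then W controls strong fusion in every section of G: for every section K/R and every Sylow p-subgroup T of K/R, the subgroup W(T) controls strong fusion in K/R. -/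
theorem result {G : Type u} [Group G] [Finite G] {p : ℕ} [Fact p.Prime] (W : ∀ (Q : Type u) [Group Q], Subgroup Q) (hW : Cfsg.IsCharPFunctor.{u} p W) (hloc : ∀ (K R : Subgroup G) [hR : (R.subgroupOf K).Normal], Subgroup.centralizer ((Cfsg.pCore p (↥K ⧸ R.subgroupOf K) : Subgroup (↥K ⧸ R.subgroupOf K)) : Set (↥K ⧸ R.subgroupOf K)) ≤ Cfsg.pCore p (↥K ⧸ R.subgroupOf K) → ∀ T : Sylow p (↥K ⧸ R.subgroupOf K), (Cfsg.inducedFunctor (G := (↥K ⧸ R.subgroupOf K)) W ((T : Subgroup (↥K ⧸ R.subgroupOf K)))).Normal) : ∀ (K R : Subgroup G) [hR : (R.subgroupOf K).Normal], ∀ T : Sylow p (↥K ⧸ R.subgroupOf K), Cfsg.ControlsStrongFusion p (Cfsg.inducedFunctor (G := (↥K ⧸ R.subgroupOf K)) W ((T : Subgroup (↥K ⧸ R.subgroupOf K)))) := by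
  intro K R hR T
  have hsec : CfsgLib.Stable.IsSec (↥K ⧸ R.subgroupOf K) G :=
    ⟨K, QuotientGroup.mk' _, QuotientGroup.mk'_surjective _⟩
  have hV : CfsgLib.Stable.LocalData p G (fun _ _ D => Cfsg.inducedFunctor W D) True := by
    refine CfsgLib.Stable.localData_functor hW ?_
    intro X _ _ hX hC S
    obtain ⟨K', R', hR', ⟨e⟩⟩ := hX.exists_equiv
    have hmap := CfsgLib.Core.map_pCore_of_mulEquiv p e
    have hC' : Subgroup.centralizer
        ((Cfsg.pCore p (↥K' ⧸ R'.subgroupOf K') : Subgroup (↥K' ⧸ R'.subgroupOf K')) :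
          Set (↥K' ⧸ R'.subgroupOf K')) ≤ Cfsg.pCore p (↥K' ⧸ R'.subgroupOf K') := by
      intro x hx
      have h1 : e x ∈ Subgroup.centralizer (Cfsg.pCore p X : Set X) := by
        rw [Subgroup.mem_centralizer_iff, ← hmap]
        rintro _ ⟨y, hy, rfl⟩
        show e y * e x = e x * e y
        rw [← map_mul, ← map_mul, Subgroup.mem_centralizer_iff.1 hx y hy]
      have h2 := hC h1
      rw [← hmap] at h2
      obtain ⟨y, hy, hye⟩ := h2
      rwa [← e.injective hye]
    have hes : Function.Surjective e.symm.toMonoidHom := e.symm.surjective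
    set T' : Sylow p (↥K' ⧸ R'.subgroupOf K') := S.mapSurjective hes with hT'
    have hn := (hloc K' R' hC' T').map e.toMonoidHom e.surjective
    rw [CfsgLib.Stable.map_inducedFunctor hW T'.2 _ (Set.injOn_of_injective e.injective)] at hn
    rwa [hT', Sylow.coe_mapSurjective, Subgroup.map_map,
      show e.toMonoidHom.comp e.symm.toMonoidHom = MonoidHom.id X from
        MonoidHom.ext fun x => e.apply_symm_apply x, Subgroup.map_id] at hn
  refine ⟨T, CfsgLib.Stable.inducedFunctor_le _, fun A hA => ?_⟩
  exact CfsgLib.Stable.controls_of_ctrl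
    (CfsgLib.Stable.goal_of_localData hV _ hsec T _ (CfsgLib.Stable.sclosed_self _) (fun _ => rfl)) A hA

end Cfsg.Agent.S1969
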