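import Cfsg.Statements.S1986
import Cfsg.Agent.Lib.LocalKInfWeak

set_option autoImplicit false
universe u
open Cfsg

namespace Cfsg.Agent.S1986

/-- Let p be a prime, G a finite group with Sylow p-subgroup S, K the lower K-infinity subgroup of S, and Z the subgroup of p-th powers of elements of Z(S). Then every element of Z commuting with all of N_G(K) is weakly closed in S with respect to G, and every subgroup of Z that is normal in N_G(K) is weakly closed in S with respect to G. -/
theorem result {G : Type u} [Group G] [Finite G] {p : ℕ} [Fact p.Prime] (S : Sylow p G) (Z : Subgroup G) (hZ : Z = Subgroup.closure ((fun z : G => z ^ p) '' (((S : Subgroup G) ⊓ Subgroup.centralizer (((S : Subgroup G) : Subgroup G) : Set G) : Subgroup G) : Set G))) : (∀ x ∈ Z ⊓ Subgroup.centralizer ((Subgroup.normalizer ((Cfsg.inducedFunctor Cfsg.kInfLower (S : Subgroup G) : Subgroup G) : Set G) : Subgroup G) : Set G), ∀ g : G, g * x * g⁻¹ ∈ (S : Subgroup G) → g * x * g⁻¹ = x) ∧ ∀ A : Subgroup G, A ≤ Z →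 Subgroup.normalizer ((Cfsg.inducedFunctor Cfsg.kInfLower (S : Subgroup G) : Subgroup G) : Set G) ≤ Subgroup.normalizer ((A : Subgroup G) : Set G) → Cfsg.IsWeaklyClosed A (S : Subgroup G) := by
  set C := (S : Subgroup G) ⊓ Subgroup.centralizer (((S : Subgroup G) : Subgroup G) : Set G) with hC
  have hroot : ∀ a ∈ Z, ∃ z ∈ (S : Subgroup G),
      (∀ s ∈ (S : Subgroup G), s * z = z * s) ∧ z ^ p = a := by
    intro a ha
    rw [hZ] at ha
    induction ha using Subgroup.closure_induction with
    | mem y hy =>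
      obtain ⟨z, hz, rfl⟩ := hy
      exact ⟨z, hz.1, fun s hs => Subgroup.mem_centralizer_iff.1 hz.2 s hs, rfl⟩
    | one => exact ⟨1, Subgroup.one_mem _, fun s _ => by group, one_pow p⟩
    | mul y y' _ _ ih ih' =>
      obtain ⟨z, hz, hzc, rfl⟩ := ih
      obtain ⟨z', hz', hzc', rfl⟩ := ih'
      exact ⟨z * z', Subgroup.mul_mem _ hz hz',
        fun s hs => ((show Commute s z from hzc s hs).mul_right (hzc' s hs)).eq,
        (show Commute z z' from hzc' z hz).mul_pow p⟩
    | inv y _ ih =>
      obtain ⟨z, hz, hzc, rfl⟩ := ih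
      exact ⟨z⁻¹, Subgroup.inv_mem _ hz,
        fun s hs => ((show Commute s z from hzc s hs).inv_right).eq, inv_pow z p⟩
  set N := Subgroup.normalizer ((Cfsg.inducedFunctor Cfsg.kInfLower (S : Subgroup G) : Subgroup G) : Set G) with hN
  have hsub : ∀ A : Subgroup G, A ≤ Z → N ≤ Subgroup.normalizer ((A : Subgroup G) : Set G) →
      Cfsg.IsWeaklyClosed A (S : Subgroup G) := fun A hA hAN =>
    CfsgLib.Local.KInf.weaklyClosed_of_power S A (fun a ha => hroot a (hA ha)) hAN
  refine ⟨?_, hsub⟩
  rintro x ⟨hxZ, hxN⟩ g hg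
  have hxc : ∀ k ∈ N, k * x = x * k := fun k hk => Subgroup.mem_centralizer_iff.1 hxN k hk
  obtain ⟨hxS, hwc⟩ := hsub (Subgroup.zpowers x) (Subgroup.zpowers_le.2 hxZ) fun k hk => by
    refine CfsgLib.Stable.mem_normalizer_of_map_eq fun y hy => ?_
    obtain ⟨i, rfl⟩ := hy
    rw [((show Commute k x from hxc k hk).zpow_right i).eq, mul_inv_cancel_right]
    exact Subgroup.zpow_mem _ (Subgroup.mem_zpowers x) i
  have he := hwc g (by
    rw [MonoidHom.map_zpowers]
    exact Subgroup.zpowers_le.2 hg)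
  have hy : g * x * g⁻¹ ∈ Subgroup.zpowers x := by
    rw [← he]
    exact ⟨x, Subgroup.mem_zpowers x, rfl⟩
  obtain ⟨z, hz, hzc, hzx⟩ := hroot x hxZ
  have hxc' : ∀ s ∈ (S : Subgroup G), s * x = x * s := fun s hs => by
    rw [← hzx]; exact ((show Commute s z from hzc s hs).pow_right p).eq
  obtain ⟨n, hn, hne⟩ := Sylow.conj_eq_normalizer_conj_of_mem_centralizer S x g⁻¹
    (Subgroup.mem_centralizer_iff.2 fun s hs => hxc' s hs) (by
      rw [inv_inv]
      refine Subgroup.mem_centralizer_iff.2 fun s hs => ?_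
      obtain ⟨i, hi⟩ := hy
      rw [← hi]
      exact ((show Commute s x from hxc' s hs).zpow_right i).eq)
  rw [inv_inv] at hne
  rw [hne]
  have hnN : n ∈ N := (CfsgLib.Stable.normalizer_le_inducedFunctor
    (CfsgLib.Local.KInf.isCharPFunctor_kInfLower p) S.isPGroup') hn
  rw [mul_assoc, ← hxc n hnN, inv_mul_cancel_left]

end Cfsg.Agent.S1986
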