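import Cfsg.Statements.S1988
import Cfsg.Agent.Lib.LocalKInfControl

set_option autoImplicit false
universe u
open Cfsg

namespace Cfsg.Agent.S1988

/-- Let p be an odd prime, G a finite group with Sylow p-subgroup S and K the lower K-infinity subgroup of S. If N_G(K) has a normal p-complement, or if N_G(K)/C_G(K) is a p-group (every element of N_G(K) of order prime to p centralizes K), then G has a normal p-complement. -/
theorem result {G : Type u} [Group G] [Finite G] {p : ℕ} [Fact p.Prime] (hp : p ≠ 2) (S : Sylow p G) (h : Cfsg.HasNormalPComplement p ↥(Subgroup.normalizer ((Cfsg.inducedFunctor Cfsg.kInfLower (S : Subgroup G) : Subgroup G) : Set G)) ∨ ∀ g ∈ Subgroup.normalizer ((Cfsg.inducedFunctor Cfsg.kInfLower (S : Subgroup G) : Subgroup G) : Set G), (orderOf g).Coprime p → g ∈ Subgroup.centralizer ((Cfsg.inducedFunctor Cfsg.kInfLower (S : Subgroup G) : Subgroup G) : Set G)) : Cfsg.HasNormalPComplement p G := by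
  refine CfsgLib.Local.KInf.npc_kInfLower hp S ?_
  rcases h with h | h
  · exact h
  set W := Cfsg.inducedFunctor Cfsg.kInfLower (S : Subgroup G) with hW
  set N := Subgroup.normalizer (W : Set G) with hN
  have hSN : (S : Subgroup G) ≤ N := Subgroup.le_normalizer.trans
    (CfsgLib.Stable.normalizer_le_inducedFunctor
      (CfsgLib.Local.KInf.isCharPFunctor_kInfLower p) S.isPGroup')
  set C := (Subgroup.centralizer (W : Set G)).subgroupOf N with hC
  haveI hCn : C.Normal := CfsgLib.Local.KInf.normal_centralizer_subgroupOf W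
  let P : Sylow p ↥C := ((S.subtype hSN).isPGroup'.comap_subtype (K := C)).toSylow
    (CfsgLib.Local.not_dvd_relIndex_of_normal (S.subtype hSN) C)
  have hP : (P : Subgroup ↥C) ≤ Subgroup.center ↥C := by
    intro x hx
    have hxS : ((x : ↥N) : G) ∈ (S : Subgroup G) := hx
    have hxW : ((x : ↥N) : G) ∈ W := by
      refine ⟨⟨_, hxS⟩, ?_, rfl⟩
      refine CfsgLib.Local.KInf.centralizer_kInfLower_le ↥(S : Subgroup G) S.isPGroup' ?_
      rw [Subgroup.mem_centralizer_iff]
      intro k hk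
      exact Subtype.ext (Subgroup.mem_centralizer_iff.1
        (x.2 : ((x : ↥N) : G) ∈ Subgroup.centralizer (W : Set G)) (k : G) ⟨k, hk, rfl⟩)
    exact Subgroup.mem_center_iff.2 fun c => Subtype.ext (Subtype.ext
      (Subgroup.mem_centralizer_iff.1
        (c.2 : ((c : ↥N) : G) ∈ Subgroup.centralizer (W : Set G)) _ hxW).symm)
  have hsup := CfsgLib.Local.pPrimeCore_sup_of_central P hP
  set M := (Cfsg.pPrimeCore p ↥C).map C.subtype with hM
  haveI hMn : M.Normal := CfsgLib.Core.map_subtype_normal_of_characteristic hCn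
    (CfsgLib.Core.characteristic_pPrimeCore p)
  have hMc : (Nat.card ↥M).Coprime p := by
    rw [hM, Subgroup.card_map_of_injective C.subtype_injective]
    exact CfsgLib.Core.coprime_card_pPrimeCore p
  haveI hOn := CfsgLib.Core.normal_pPrimeCore (G := ↥C) p
  have hq : IsPGroup p (↥N ⧸ M) := by
    intro y
    obtain ⟨g, rfl⟩ := QuotientGroup.mk'_surjective M y
    obtain ⟨k, m, hm, hgo⟩ := Nat.exists_eq_pow_mul_and_not_dvd (orderOf_pos g).ne' p
      (Fact.out : p.Prime).ne_one
    have hcop : (orderOf (g ^ p ^ k)).Coprime p := by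
      refine Nat.Coprime.coprime_dvd_left ?_
        ((Nat.Prime.coprime_iff_not_dvd (Fact.out : p.Prime)).2 hm).symm
      rw [orderOf_dvd_iff_pow_eq_one, ← pow_mul, ← hgo, pow_orderOf_eq_one]
    refine ⟨k, ?_⟩
    rw [← map_pow]
    have hgC : g ^ p ^ k ∈ C := h _ (g ^ p ^ k).2 (by rwa [Subgroup.coe_subtype, Subgroup.orderOf_coe])
    obtain ⟨c, hc, s, hs, hcs⟩ := Subgroup.mem_sup_of_normal_left.1
      (hsup.ge (Subgroup.mem_top (⟨g ^ p ^ k, hgC⟩ : ↥C)))
    have h1 : QuotientGroup.mk' M ((c : ↥N)) = 1 := (QuotientGroup.eq_one_iff _).2 ⟨c, hc, rfl⟩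
    have h2 : QuotientGroup.mk' M (g ^ p ^ k) = QuotientGroup.mk' M (s : ↥N) := by
      rw [show g ^ p ^ k = (c : ↥N) * (s : ↥N) from (congrArg Subtype.val hcs).symm, map_mul, h1,
        one_mul]
    obtain ⟨j, hj⟩ := P.isPGroup' ⟨s, hs⟩
    have h3 : (s : ↥N) ^ p ^ j = 1 :=
      congrArg (fun z : ↥(P : Subgroup ↥C) => ((z : ↥C) : ↥N)) hj
    refine orderOf_eq_one_iff.1 (Nat.eq_one_of_dvd_coprimes (Nat.Coprime.pow_right j hcop) ?_ ?_)
    · exact orderOf_map_dvd _ _
    · rw [h2]
      exact orderOf_dvd_of_pow_eq_one (by rw [← map_pow, h3, map_one])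
  obtain ⟨k, hk⟩ := IsPGroup.iff_card.1 hq
  exact CfsgLib.Core.hasNormalPComplement_iff.2 ⟨M, hMn, hMc, k, by rw [Subgroup.index_eq_card, hk]⟩

end Cfsg.Agent.S1988
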