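import Cfsg.Statements.S1989
import Cfsg.Agent.Lib.LocalKInfControl
import Cfsg.Agent.Lib.LocalQdClassTwo

set_option autoImplicit false
universe u
open Cfsg

namespace Cfsg.Agent.S1989

/-- Let p be an odd prime and G a finite group. Then Qd(p) (the natural semidirect product of an elementary abelian group of order p² by SL₂(p)) is not involved in G if and only if, in every section K/R of G and for every Sylow p-subgroup T of K/R, the lower K-infinity subgroup of T controls strong fusion in K/R. -/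
theorem result {G : Type u} [Group G] [Finite G] {p : ℕ} [Fact p.Prime] (hp : p ≠ 2) : ¬ Cfsg.Involves ↥(Cfsg.qd p) G ↔ ∀ (K R : Subgroup G) [hR : (R.subgroupOf K).Normal], ∀ T : Sylow p (↥K ⧸ R.subgroupOf K), Cfsg.ControlsStrongFusion p (Cfsg.inducedFunctor (G := (↥K ⧸ R.subgroupOf K)) Cfsg.kInfLower (T : Subgroup (↥K ⧸ R.subgroupOf K))) := by
  constructor
  · intro h K R _ T
    refine CfsgLib.Local.KInf.controls_kInfLower (fun K' R' _ => ?_) T
    refine CfsgLib.QuadPair.normalizerPStable_of_qdFree hp h ?_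
    exact ((CfsgLib.Stable.IsSec.quotient (CfsgLib.Stable.isSec_self G |>.subgroup K) _
      (QuotientGroup.mk'_surjective (R.subgroupOf K))).subgroup K').quotient _
      (QuotientGroup.mk'_surjective (R'.subgroupOf K'))
  · rintro h ⟨K, R, hR, ⟨e⟩⟩
    refine CfsgLib.QuadPair.not_controls_of_iso hp e fun T => ?_
    obtain ⟨T₀, hT₀⟩ := CfsgLib.Local.KInf.exists_sylow_classTwo_qd hp e
    have hT : ⁅(T : Subgroup (↥K ⧸ R.subgroupOf K)), (T : Subgroup (↥K ⧸ R.subgroupOf K))⁆ ≤
        Subgroup.centralizer ((T : Subgroup (↥K ⧸ R.subgroupOf K)) : Set (↥K ⧸ R.subgroupOf K)) := by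
      obtain ⟨g, rfl⟩ := MulAction.exists_smul_eq (↥K ⧸ R.subgroupOf K) T₀ T
      rw [Sylow.coe_subgroup_smul, CfsgLib.Core.conj_smul_eq_map, ← Subgroup.map_commutator]
      refine (Subgroup.map_mono hT₀).trans ?_
      rintro _ ⟨x, hx, rfl⟩
      rw [Subgroup.mem_centralizer_iff]
      rintro _ ⟨y, hy, rfl⟩
      rw [← map_mul, ← map_mul, Subgroup.mem_centralizer_iff.1 hx y hy]
    have hW : Cfsg.inducedFunctor Cfsg.kInfLower (T : Subgroup (↥K ⧸ R.subgroupOf K)) =
        (T : Subgroup (↥K ⧸ R.subgroupOf K)) := by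
      show (Cfsg.kInfLower ↥(T : Subgroup (↥K ⧸ R.subgroupOf K))).map _ = _
      rw [CfsgLib.Local.KInf.kInfLower_eq_top, ← MonoidHom.range_eq_map, Subgroup.range_subtype]
      intro x hx
      have h1 : (x : ↥K ⧸ R.subgroupOf K) ∈
          ⁅(T : Subgroup (↥K ⧸ R.subgroupOf K)), (T : Subgroup (↥K ⧸ R.subgroupOf K))⁆ := by
        rw [← Subgroup.map_subtype_commutator]
        exact ⟨x, by rw [commutator_def]; exact hx, rfl⟩
      exact Subgroup.mem_centralizer_iff.2 fun y _ =>
        Subtype.ext (Subgroup.mem_centralizer_iff.1 (hT h1) _ y.2)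
    obtain ⟨T', hT', hctl⟩ := h K R T
    rw [hW] at hT' hctl
    refine ⟨T', ?_, fun A hA => ⟨hA, fun g hg => ?_⟩⟩
    · rw [CfsgLib.Stable.centerThompsonAOf_eq]
      exact (CfsgLib.Stable.Zsub_le 0 _).trans hT'
    · obtain ⟨-, h2⟩ := hctl A hA
      obtain ⟨x, hx, hxe⟩ := h2 g hg
      refine ⟨x, ?_, hxe⟩
      rw [CfsgLib.Stable.centerThompsonAOf_eq]
      exact CfsgLib.Stable.normalizer_Jsub_le_Zsub 0 _ (CfsgLib.Stable.normalizer_le_Jsub 0 _ hx)

end Cfsg.Agent.S1989
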