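import Cfsg.Statements.S1990
import Cfsg.Agent.Lib.StableFunctor

set_option autoImplicit false
universe u
open Cfsg

namespace Cfsg.Agent.S1990

/-- Let p be an odd prime, G a finite group with Sylow p-subgroup S, and W an isomorphism-invariant p-group functor (W assigns to every group Q a subgroup W(Q), nontrivial whenever Q is a nontrivial finite p-group, and every isomorphism from a finite p-group Q onto a group R carries W(Q) onto W(R)). Suppose N_G(W(S)) has a normal p-complement, and W(T) controls strong fusion in every section G* = K/R of G all of whose sections are p-stable in the normalizer form, for every Sylow p-subgroup T of G*. Then G has a normal p-complement. -/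
theorem result {G : Type u} [Group G] [Finite G] {p : ℕ} [Fact p.Prime] (hp : p ≠ 2) (W : ∀ (Q : Type u) [Group Q], Subgroup Q) (hW : Cfsg.IsCharPFunctor.{u} p W) (S : Sylow p G) (hN : Cfsg.HasNormalPComplement p ↥(Subgroup.normalizer ((Cfsg.inducedFunctor (G := G) W (S : Subgroup G) : Subgroup G) : Set G))) (hctl : ∀ (K R : Subgroup G) [hR : (R.subgroupOf K).Normal], (∀ (K' R' : Subgroup (↥K ⧸ R.subgroupOf K)) [hR' : (R'.subgroupOf K').Normal], Cfsg.IsNormalizerPStable p (↥K' ⧸ R'.subgroupOf K')) → ∀ T : Sylow p (↥K ⧸ R.subgroupOf K), Cfsg.ControlsStrongFusion p (Cfsg.inducedFunctor (G := (↥K ⧸ R.subgroupOf K)) W (T : Subgroup (↥K ⧸ R.subgroupOf K)))) : Cfsg.HasNormalPComplement p G := by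
  refine CfsgLib.Stable.npc_of_functor hW S hN fun K R _ hC hQ T hT => ?_
  have hser := CfsgLib.Stable.hasSeries_of_reduced hQ T hT
  have hst : ∀ (K' R' : Subgroup (↥K ⧸ R.subgroupOf K)) [hR' : (R'.subgroupOf K').Normal],
      Cfsg.IsNormalizerPStable p (↥K' ⧸ R'.subgroupOf K') := fun K' R' _ =>
    CfsgLib.Stable.normalizerPStable_of_hasSeries hp
      ((hser.of_injective K'.subtype K'.subtype_injective).of_surjective
        (QuotientGroup.mk' (R'.subgroupOf K')) (QuotientGroup.mk'_surjective _))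
  obtain ⟨T', hT', hT'c⟩ := hctl K R hst T
  set W' := Cfsg.inducedFunctor (G := ↥K ⧸ R.subgroupOf K) W
    (T : Subgroup (↥K ⧸ R.subgroupOf K)) with hW'
  set U := Cfsg.pCore p (↥K ⧸ R.subgroupOf K) with hU
  have hUn : U.Normal := CfsgLib.Core.normal_pCore p
  have hUT : U ≤ (T : Subgroup (↥K ⧸ R.subgroupOf K)) := CfsgLib.Core.pCore_le_sylow T
  have hUT' : U ≤ (T' : Subgroup (↥K ⧸ R.subgroupOf K)) := CfsgLib.Core.pCore_le_sylow T'
  refine Subgroup.normalizer_eq_top_iff.1 (eq_top_iff.2 fun g _ => ?_)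
  obtain ⟨-, hg⟩ := hT'c (U : Set (↥K ⧸ R.subgroupOf K)) hUT'
  obtain ⟨x, hx, hxe⟩ := hg g (by
    rintro _ ⟨a, ha, rfl⟩
    exact hUT' (hUn.conj_mem a ha g))
  have h1 : x⁻¹ * g ∈ Subgroup.centralizer (U : Set (↥K ⧸ R.subgroupOf K)) := by
    rw [Subgroup.mem_centralizer_iff]
    intro a ha
    calc a * (x⁻¹ * g) = x⁻¹ * (x * a * x⁻¹) * g := by group
      _ = x⁻¹ * (g * a * g⁻¹) * g := by rw [hxe a ha]
      _ = x⁻¹ * g * a := by group
  have h2 := mul_mem hx ((Subgroup.le_normalizer.trans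
    (CfsgLib.Stable.normalizer_le_inducedFunctor hW T.2)) (hUT (hC h1)))
  rwa [mul_inv_cancel_left] at h2

end Cfsg.Agent.S1990
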