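import Cfsg.Statements.S1992
import Cfsg.Agent.Lib.LocalKInfApps
import Cfsg.Agent.Lib.CharBurnside

set_option autoImplicit false
open Cfsg

namespace Cfsg.Agent.S1992

/-- Let G be a finite group in which, for every prime q dividing the order of G, every Sylow q-subgroup is its own normalizer. Then the order of G is a power of a single prime (G is a q-group for some prime q; for G trivial any prime works). -/
theorem result {G : Type*} [Group G] [Finite G] (h : ∀ q : ℕ, q.Prime → q ∣ Nat.card G → ∀ Q : Sylow q G, Subgroup.normalizer ((Q : Subgroup G) : Set G) = Q) : ∃ q : ℕ, q.Prime ∧ IsPGroup q G := by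
  suffices key : ∀ (n : ℕ) (G : Type u_1) [Group G] [Finite G], Nat.card G = n →
      (∀ q : ℕ, q.Prime → q ∣ Nat.card G → ∀ Q : Sylow q G,
        Subgroup.normalizer ((Q : Subgroup G) : Set G) = Q) → ∃ q : ℕ, q.Prime ∧ IsPGroup q G from
    key _ G rfl h
  intro n
  induction n using Nat.strong_induction_on with
  | _ n ih =>
  intro G _ _ hn h
  rcases subsingleton_or_nontrivial G with h1 | h1
  · exact ⟨2, Nat.prime_two, fun g => ⟨0, Subsingleton.elim _ _⟩⟩
  obtain ⟨N, ⟨hNn, hN1⟩, hNmin⟩ := Set.exists_min_image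
    {N : Subgroup G | N.Normal ∧ N ≠ ⊥} (fun N => Nat.card ↥N) (Set.toFinite _)
    ⟨⊤, inferInstance, top_ne_bot⟩
  haveI := hNn
  -- the quotient is a group of prime power order
  have hquot : ∃ q : ℕ, q.Prime ∧ IsPGroup q (G ⧸ N) := by
    have hlt : Nat.card (G ⧸ N) < n := by
      rw [← hn, N.card_eq_card_quotient_mul_card_subgroup]
      exact lt_mul_of_one_lt_right Nat.card_pos
        (Finite.one_lt_card_iff_nontrivial.2 ((Subgroup.nontrivial_iff_ne_bot N).2 hN1))
    refine ih _ hlt (G ⧸ N) rfl fun q hq hd Q' => ?_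
    haveI : Fact q.Prime := ⟨hq⟩
    set f := QuotientGroup.mk' N with hf
    have hfs : Function.Surjective f := QuotientGroup.mk'_surjective N
    obtain ⟨Q, hQ⟩ := Sylow.mapSurjective_surjective hfs q Q'
    have hdG : q ∣ Nat.card G := hd.trans (Subgroup.card_quotient_dvd_card N)
    refine le_antisymm (fun y hy => ?_) Subgroup.le_normalizer
    obtain ⟨g, rfl⟩ := hfs y
    have hQe : (Q' : Subgroup (G ⧸ N)) = (Q : Subgroup G).map f := by rw [← hQ]; rfl
    rw [hQe] at hy ⊢
    set L := (Q : Subgroup G) ⊔ N with hL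
    have hLc : ((Q : Subgroup G).map f).comap f = L := by
      rw [Subgroup.comap_map_eq, QuotientGroup.ker_mk']
    have hgL : g ∈ Subgroup.normalizer (L : Set G) := by
      rw [Subgroup.mem_normalizer_iff]
      intro s
      rw [← hLc, Subgroup.mem_comap, Subgroup.mem_comap, map_mul, map_mul, map_inv]
      exact Subgroup.mem_normalizer_iff.1 hy (f s)
    have hQL : (Q : Subgroup G) ≤ L := le_sup_left
    have hNG := Subgroup.normal_in_normalizer (H := L)
    set QL : Sylow q ↥L := Q.subtype hQL with hQL'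
    obtain ⟨Q₂, hQ₂⟩ : ∃ Q₂ : Subgroup G, Q₂ = (Q : Subgroup G).map (MulAut.conj g).toMonoidHom :=
      ⟨_, rfl⟩
    have hQ₂L : Q₂ ≤ L := by
      rw [hQ₂]
      rintro _ ⟨s, hs, rfl⟩
      exact (Subgroup.mem_normalizer_iff.1 hgL s).1 (hQL hs)
    have hQ₂p : IsPGroup q ↥(Q₂.subgroupOf L) :=
      (hQ₂ ▸ Q.isPGroup'.map (MulAut.conj g).toMonoidHom : IsPGroup q ↥Q₂).comap_subtype
    obtain ⟨P, hP⟩ := hQ₂p.exists_le_sylow
    obtain ⟨l, hl⟩ := MulAction.exists_smul_eq ↥L P QL
    have hlg : (l : G) * g ∈ Subgroup.normalizer ((Q : Subgroup G) : Set G) := by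
      refine CfsgLib.Stable.mem_normalizer_of_map_eq fun s hs => ?_
      have hm : g * s * g⁻¹ ∈ L := (Subgroup.mem_normalizer_iff.1 hgL s).1 (hQL hs)
      have h1 : (⟨g * s * g⁻¹, hm⟩ : ↥L) ∈ (P : Subgroup ↥L) :=
        hP (show g * s * g⁻¹ ∈ Q₂ from hQ₂ ▸ ⟨s, hs, rfl⟩)
      have h2 : l * ⟨g * s * g⁻¹, hm⟩ * l⁻¹ ∈ ((l • P : Sylow q ↥L) : Subgroup ↥L) := by
        rw [Sylow.coe_subgroup_smul, CfsgLib.Core.conj_smul_eq_map]
        exact ⟨_, h1, rfl⟩
      rw [hl] at h2
      have h3 : (l : G) * (g * s * g⁻¹) * (l : G)⁻¹ ∈ (Q : Subgroup G) := h2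
      rwa [show (l : G) * g * s * ((l : G) * g)⁻¹ = (l : G) * (g * s * g⁻¹) * (l : G)⁻¹ by group]
    rw [h q hq hdG Q] at hlg
    have hgm : g ∈ L := by
      have := L.mul_mem (L.inv_mem l.2) (hQL hlg)
      rwa [inv_mul_cancel_left] at this
    rw [← hLc] at hgm
    exact hgm
  obtain ⟨q, hq, hqN⟩ := hquot
  haveI : Fact q.Prime := ⟨hq⟩
  by_cases hG' : N = ⊤
  swap
  · -- `G / N` is nontrivial
    refine ⟨q, hq, ?_⟩
    by_contra hnq
    obtain ⟨r, hr, hrG, hrq⟩ : ∃ r : ℕ, r.Prime ∧ r ∣ Nat.card G ∧ r ≠ q := by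
      by_contra hall
      push_neg at hall
      refine hnq (IsPGroup.of_card (n := (Nat.card G).primeFactorsList.length) ?_)
      exact Nat.eq_prime_pow_of_unique_prime_dvd Nat.card_pos.ne' fun {d} hd hdd => hall d hd hdd
    haveI : Fact r.Prime := ⟨hr⟩
    let R : Sylow r G := default
    have hRN : (R : Subgroup G) ≤ N := fun x hx => (QuotientGroup.eq_one_iff x).1 (by
      obtain ⟨k, hk⟩ := hqN (QuotientGroup.mk x)
      obtain ⟨j, hj⟩ := R.isPGroup' ⟨x, hx⟩
      refine orderOf_eq_one_iff.1 (Nat.eq_one_of_dvd_coprimes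
        (Nat.Coprime.pow k j ((Nat.coprime_primes hq hr).2 (Ne.symm hrq))) ?_ ?_)
      · exact orderOf_dvd_of_pow_eq_one hk
      · refine orderOf_dvd_of_pow_eq_one ?_
        rw [← QuotientGroup.mk_pow, show x ^ r ^ j = 1 from congrArg Subtype.val hj]; rfl)
    refine hG' (top_le_iff.1 fun g _ => ?_)
    obtain ⟨l, hl, m, hm, rfl⟩ := CfsgLib.Local.frattini_decomp R N g
    rw [inf_eq_right.2 hRN, h r hr hrG R] at hm
    exact N.mul_mem hl (hRN hm)
  -- no proper normal subgroups
  have hsimple : ∀ M : Subgroup G, M.Normal → M = ⊥ ∨ M = ⊤ := fun M hM => by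
    rcases eq_or_ne M ⊥ with e | e
    · exact Or.inl e
    · exact Or.inr (Subgroup.eq_top_of_le_card M (by
        have := hNmin M ⟨hM, e⟩
        rwa [hG', Subgroup.card_top] at this))
  by_cases hcomm : ∀ a b : G, a * b = b * a
  · obtain ⟨r, hr, hrG⟩ := Nat.exists_prime_and_dvd (n := Nat.card G)
      (Finite.one_lt_card (α := G)).ne'
    haveI : Fact r.Prime := ⟨hr⟩
    let R : Sylow r G := default
    have hR : (R : Subgroup G) = ⊤ := by
      rw [← h r hr hrG R, eq_top_iff]
      intro g _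
      refine CfsgLib.Stable.mem_normalizer_of_map_eq fun s hs => ?_
      rwa [hcomm g s, mul_inv_cancel_right]
    exact ⟨r, hr, fun g => by
      obtain ⟨k, hk⟩ := R.isPGroup' ⟨g, hR ▸ Subgroup.mem_top g⟩
      exact ⟨k, congrArg Subtype.val hk⟩⟩
  by_cases hbig : ∃ r : ℕ, r.Prime ∧ 5 ≤ r ∧ r ∣ Nat.card G
  · obtain ⟨r, hr, hr5, hrG⟩ := hbig
    haveI : Fact r.Prime := ⟨hr⟩
    let R : Sylow r G := default
    obtain ⟨M, hM, hMi⟩ := CfsgLib.Local.KInf.exists_normal_index_prime R
      (CfsgLib.Local.KInf.not_sylow_le_commutator hr5 _ G rfl R (R.ne_bot_of_dvd_card hrG)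
        (fun g hg hcop => by
          rw [h r hr hrG R] at hg
          obtain ⟨k, hk⟩ := IsPGroup.iff_orderOf.1 R.isPGroup' ⟨g, hg⟩
          rw [← Subgroup.orderOf_coe, Subgroup.coe_mk] at hk
          have h0 : orderOf g = 1 := by
            rw [hk] at hcop ⊢
            rcases k with _ | k
            · rfl
            · exact absurd ((Nat.coprime_self r).1 ((Nat.coprime_pow_left_iff k.succ_pos r r).1 hcop)) hr.ne_one
          rw [orderOf_eq_one_iff.1 h0]
          exact Subgroup.one_mem _))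
    rcases hsimple M hM with e | e
    · rw [e, Subgroup.index_bot] at hMi
      exact ⟨r, hr, IsPGroup.of_card (n := 1) (by rw [pow_one, hMi])⟩
    · rw [e, Subgroup.index_top] at hMi
      exact absurd hMi.symm hr.ne_one
  push_neg at hbig
  exfalso
  have hdiv : ∀ r : ℕ, r.Prime → r ∣ Nat.card G → r = 2 ∨ r = 3 := by
    intro r hr hrG
    have h5 : r < 5 := lt_of_not_ge fun h5 => hbig r hr h5 hrG
    have := hr.two_le
    interval_cases r
    · exact Or.inl rfl
    · exact Or.inr rfl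
    · exact absurd hr (by norm_num)
  have hcard : ∀ m : ℕ, m ≠ 0 → (∀ r : ℕ, r.Prime → r ∣ m → r = 2 ∨ r = 3) →
      ∃ a b : ℕ, m = 2 ^ a * 3 ^ b := by
    intro m
    induction m using Nat.strong_induction_on with
    | _ m ihm =>
      intro hm hall
      rcases eq_or_ne m 1 with e | e
      · exact ⟨0, 0, by simp [e]⟩
      obtain ⟨r, hr, c, rfl⟩ := Nat.exists_prime_and_dvd e
      have hc : c ≠ 0 := right_ne_zero_of_mul hm
      obtain ⟨a, b, hab⟩ := ihm c (lt_mul_of_one_lt_left (Nat.pos_of_ne_zero hc) hr.one_lt) hc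
        fun s hs hsd => hall s hs (hsd.mul_left r)
      rcases hall r hr (dvd_mul_right r c) with rfl | rfl
      · exact ⟨a + 1, b, by rw [hab, pow_succ]; ring⟩
      · exact ⟨a, b + 1, by rw [hab, pow_succ]; ring⟩
  obtain ⟨a, b, hab⟩ := hcard _ Nat.card_pos.ne' hdiv
  haveI := CfsgLib.Char.burnside_pq Nat.prime_two Nat.prime_three _ G a b rfl hab
  rcases hsimple (commutator G) inferInstance with e | e
  · refine hcomm fun x y => commutatorElement_eq_one_iff_mul_comm.1 ?_
    rw [← Subgroup.mem_bot, ← e, commutator_def]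
    exact Subgroup.commutator_mem_commutator (Subgroup.mem_top x) (Subgroup.mem_top y)
  · exact (Group.IsSolvable.commutator_lt_top_of_nontrivial G).ne e

end Cfsg.Agent.S1992
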