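import Cfsg.Statements.S1995
import Cfsg.Agent.Lib.LocalTransferFailure

set_option autoImplicit false
universe u
open Cfsg

namespace Cfsg.Agent.S1995

/-- Let p be a prime, G a finite group and 𝓦 a set of isomorphism-invariant p-group functors (W assigns to every group Q a subgroup W(Q), nontrivial whenever Q is a nontrivial finite p-group, and every isomorphism from a finite p-group Q onto a group R carries W(Q) onto W(R)). If the conjugacy functors induced by 𝓦 control transfer in every section G* = K/R of G with C_{G*}(O_p(G*)) ≤ O_p(G*), then they control transfer in G: S ∩ G' is generated by the subgroups S ∩ (N_G(W(S)))', W ∈ 𝓦, for a Sylow p-subgroup S. -/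
theorem result {G : Type u} [Group G] [Finite G] {p : ℕ} [Fact p.Prime] (𝓦 : Set (∀ (Q : Type u) [Group Q], Subgroup Q)) (h𝓦 : ∀ W ∈ 𝓦, Cfsg.IsCharPFunctor.{u} p W) (hloc : ∀ (K R : Subgroup G) [hR : (R.subgroupOf K).Normal], Subgroup.centralizer ((Cfsg.pCore p (↥K ⧸ R.subgroupOf K) : Subgroup (↥K ⧸ R.subgroupOf K)) : Set (↥K ⧸ R.subgroupOf K)) ≤ Cfsg.pCore p (↥K ⧸ R.subgroupOf K) → Cfsg.FamilyControlsTransferIn p ((fun W => Cfsg.inducedFunctor (G := (↥K ⧸ R.subgroupOf K)) W) '' 𝓦) ⊤) : Cfsg.FamilyControlsTransferIn p ((fun W => Cfsg.inducedFunctor (G := G) W) '' 𝓦) ⊤ := by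
  rw [← CfsgLib.Local.TransferCtl.ctl_iff_family h𝓦]
  suffices key : ∀ (n : ℕ) (X : Type u) [Group X] [Finite X], Nat.card X = n →
      CfsgLib.Stable.IsSec X G → CfsgLib.Local.TransferCtl.Ctl p 𝓦 X from
    key _ G rfl (CfsgLib.Stable.isSec_self G)
  intro n
  induction n using Nat.strong_induction_on with
  | _ n ih =>
    intro X _ _ hX hsec
    by_contra hfail
    have hI : CfsgLib.Local.TransferCtl.Ind p 𝓦 X := by
      refine ⟨fun H hH => ih _ ?_ ↥H rfl (hsec.subgroup H), fun N _ hN => ih _ ?_ (X ⧸ N) rfl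
        (hsec.quotient _ (QuotientGroup.mk'_surjective N))⟩
      · rw [← hX]
        refine lt_of_le_of_ne (Nat.card_le_card_of_injective _ H.subtype_injective) fun e => hH ?_
        exact (Subgroup.card_eq_iff_eq_top H).1 e
      · rw [← hX, N.card_eq_card_quotient_mul_card_subgroup]
        refine lt_mul_of_one_lt_right Nat.card_pos ?_
        exact Finite.one_lt_card_iff_nontrivial.2 ((Subgroup.nontrivial_iff_ne_bot N).2 hN)
    have hc := CfsgLib.Local.TransferCtl.centralizer_pCore_le h𝓦 hI hfail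
    obtain ⟨K, R, hR, ⟨e⟩⟩ := hsec.exists_equiv
    haveI := hR
    refine hfail (CfsgLib.Local.TransferCtl.ctl_equiv h𝓦 e
      ((CfsgLib.Local.TransferCtl.ctl_iff_family h𝓦).2 (hloc K R ?_)))
    intro c hc'
    have h1 : e c ∈ Cfsg.pCore p X := by
      refine hc (Subgroup.mem_centralizer_iff.2 fun y hy => ?_)
      rw [← CfsgLib.Core.map_pCore_of_mulEquiv p e] at hy
      obtain ⟨z, hz, rfl⟩ := hy
      show e z * e c = e c * e z
      rw [← map_mul, ← map_mul, Subgroup.mem_centralizer_iff.1 hc' z hz]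
    rw [← CfsgLib.Core.map_pCore_of_mulEquiv p e] at h1
    obtain ⟨z, hz, hze⟩ := h1
    rwa [← e.injective hze]

end Cfsg.Agent.S1995
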