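import Cfsg.Statements.S2007
import Cfsg.Agent.Lib.CoreTransfer

set_option autoImplicit false
open Cfsg
open scoped Pointwise

namespace Cfsg.Agent.S2007

/-- Let p be a prime, G a finite group with Sylow p-subgroup S, and T a normal subgroup of S containing C_S(T). If N_G(T)/C_G(T) is a p-group (every element of N_G(T) of order prime to p centralizes T), then N_G(T) has a normal p-complement. -/
theorem result {G : Type*} [Group G] [Finite G] {p : ℕ} [Fact p.Prime] (S : Sylow p G) (T : Subgroup G) (hTS : T ≤ (S : Subgroup G)) (hTn : (S : Subgroup G) ≤ Subgroup.normalizer ((T : Subgroup G) : Set G)) (hC : (S : Subgroup G) ⊓ Subgroup.centralizer ((T : Subgroup G) : Set G) ≤ T) (hN : ∀ g ∈ Subgroup.normalizer ((T : Subgroup G) : Set G), (orderOf g).Coprime p → g ∈ Subgroup.centralizer ((T : Subgroup G) : Set G)) : Cfsg.HasNormalPComplement p ↥(Subgroup.normalizer ((T : Subgroup G) : Set G)) := by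
  classical
  set N := Subgroup.normalizer ((T : Subgroup G) : Set G) with hNdef
  haveI : ((Subgroup.centralizer ((T : Subgroup G) : Set G)).subgroupOf N).Normal := by
    refine ⟨fun c hc g => ?_⟩
    rw [Subgroup.mem_subgroupOf] at hc ⊢
    push_cast
    intro t ht
    have ht' : (g : G)⁻¹ * t * (g : G)⁻¹⁻¹ ∈ (T : Set G) := (Subgroup.mem_normalizer_iff.1 (N.inv_mem g.2) t).1 ht
    have := hc _ ht'
    calc t * ((g : G) * c * (g : G)⁻¹) = g * (((g : G)⁻¹ * t * (g : G)⁻¹⁻¹) * c) * (g : G)⁻¹ := by group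
      _ = g * (c * ((g : G)⁻¹ * t * (g : G)⁻¹⁻¹)) * (g : G)⁻¹ := by rw [this]
      _ = g * c * (g : G)⁻¹ * t := by group
  set C := (Subgroup.centralizer ((T : Subgroup G) : Set G)).subgroupOf N with hCdef
  have hp := Fact.out (p := p.Prime)
  refine CfsgLib.Core.hasNormalPComplement_of_index_pow (N := C) inferInstance ?_ ?_
  · -- Burnside inside the centralizer
    obtain ⟨P⟩ : Nonempty (Sylow p ↥C) := inferInstance
    have hPp : IsPGroup p ((P : Subgroup ↥C).map C.subtype) := P.2.map _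
    obtain ⟨Q, hQ⟩ := hPp.exists_le_sylow
    obtain ⟨g, hg⟩ := MulAction.exists_smul_eq N (S.subtype hTn) Q
    have hcen : Subgroup.normalizer ((P : Subgroup ↥C) : Set ↥C) ≤ Subgroup.centralizer ((P : Subgroup ↥C) : Set ↥C) := by
      intro c _ x hx
      have hxQ : (x : ↥N) ∈ (Q : Subgroup ↥N) := hQ ⟨x, hx, rfl⟩
      rw [← hg, Sylow.coe_subgroup_smul] at hxQ
      obtain ⟨s, hs, hsx⟩ := hxQ
      have hsx' : (g : G) * (s : G) * (g : G)⁻¹ = ((x : ↥N) : G) := congrArg Subtype.val hsx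
      have hsS : (s : G) ∈ (S : Subgroup G) := hs
      have hsC : (s : G) ∈ Subgroup.centralizer ((T : Subgroup G) : Set G) := by
        intro t ht
        have ht' : (g : G) * t * (g : G)⁻¹ ∈ (T : Set G) := (Subgroup.mem_normalizer_iff.1 g.2 t).1 ht
        have := (x : ↥C).2 _ ht'
        calc t * s = (g : G)⁻¹ * (((g : G) * t * (g : G)⁻¹) * ((g : G) * s * (g : G)⁻¹)) * g := by group
          _ = (g : G)⁻¹ * (((g : G) * s * (g : G)⁻¹) * ((g : G) * t * (g : G)⁻¹)) * g := by rw [hsx']; exact congrArg (fun w => (g : G)⁻¹ * w * g) this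
          _ = s * t := by group
      have hxT : ((x : ↥N) : G) ∈ (T : Set G) := by
        rw [← hsx']
        exact (Subgroup.mem_normalizer_iff.1 g.2 _).1 (hC ⟨hsS, hsC⟩)
      exact Subtype.ext (Subtype.ext ((c : ↥C).2 _ hxT))
    exact ⟨P, _, inferInstance, MonoidHom.ker_transferSylow_isComplement' P hcen⟩
  · have hpg : IsPGroup p (↥N ⧸ C) := by
      intro q
      obtain ⟨x, rfl⟩ := QuotientGroup.mk'_surjective C q
      obtain ⟨a, m, hm, hxo⟩ := Nat.exists_eq_pow_mul_and_not_dvd (orderOf_pos x).ne' p hp.ne_one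
      refine ⟨a, ?_⟩
      rw [← map_pow]
      refine (QuotientGroup.eq_one_iff _).2 (hN _ (x ^ p ^ a).2 ?_)
      rw [Subgroup.coe_subtype, Subgroup.orderOf_coe]
      refine Nat.Coprime.coprime_dvd_left ?_ ((hp.coprime_iff_not_dvd.2 hm).symm)
      exact orderOf_dvd_of_pow_eq_one (by rw [← pow_mul, ← hxo, pow_orderOf_eq_one])
    obtain ⟨k, hk⟩ := IsPGroup.iff_card.1 hpg
    exact ⟨k, hk⟩

end Cfsg.Agent.S2007
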