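import Cfsg.Statements.S2008


set_option autoImplicit false
open Cfsg
open scoped Pointwise commutatorElement
set_option maxHeartbeats 800000

namespace Cfsg.Agent.S2008

theorem eq_bot_of_normal {H : Type*} [Group H] [Finite H] (z : H) (hz : orderOf z = 2)
    (hN : ∀ N : Subgroup H, N.Normal → N ≠ ⊤ → N ⊓ Subgroup.centralizer ({z} : Set H) = ⊥)
    (E : Subgroup H) (hE : IsKleinFour ↥E) (hzE : z ∈ E) (hc : ∀ e ∈ E, e ≠ 1 → IsConj z e)
    (N : Subgroup H) [hNn : N.Normal] (hNt : N ≠ ⊤) : N = ⊥ := by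
  have hfree : ∀ e ∈ E, e ≠ 1 → ∀ n ∈ N, e * n = n * e → n = 1 := by
    intro e he he1 n hn hen
    obtain ⟨c, hc⟩ := isConj_iff.1 (hc e he he1)
    have h1 : c⁻¹ * n * c ∈ N ⊓ Subgroup.centralizer ({z} : Set H) := by
      refine ⟨by simpa using hNn.conj_mem n hn c⁻¹, Subgroup.mem_centralizer_iff.2 ?_⟩
      intro z' hz'
      rw [Set.mem_singleton_iff.1 hz']
      calc z * (c⁻¹ * n * c) = c⁻¹ * ((c * z * c⁻¹) * n) * c := by group
        _ = c⁻¹ * (n * (c * z * c⁻¹)) * c := by rw [hc, hen]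
        _ = _ := by group
    rw [hN N hNn hNt, Subgroup.mem_bot] at h1
    calc n = c * (c⁻¹ * n * c) * c⁻¹ := by group
      _ = 1 := by rw [h1]; group
  have hee : ∀ e ∈ E, e * e = 1 := fun e he => by
    haveI := hE
    exact congrArg Subtype.val (IsKleinFour.mul_self (⟨e, he⟩ : ↥E))
  have hinv : ∀ e ∈ E, e ≠ 1 → ∀ n ∈ N, e * n * e⁻¹ = n⁻¹ := by
    intro e he he1
    let f : ↥N → ↥N := fun n =>
      ⟨(n : H)⁻¹ * (e * n * e⁻¹), N.mul_mem (N.inv_mem n.2) (hNn.conj_mem _ n.2 e)⟩
    have hf : Function.Injective f := by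
      intro a b hab
      have h1 : (a : H)⁻¹ * (e * a * e⁻¹) = (b : H)⁻¹ * (e * b * e⁻¹) := congrArg Subtype.val hab
      have h2 : e * ((b : H) * (a : H)⁻¹) = ((b : H) * (a : H)⁻¹) * e := by
        calc e * ((b : H) * (a : H)⁻¹)
            = (b : H) * ((b : H)⁻¹ * (e * b * e⁻¹)) * e * (a : H)⁻¹ := by group
          _ = (b : H) * ((a : H)⁻¹ * (e * a * e⁻¹)) * e * (a : H)⁻¹ := by rw [h1]
          _ = _ := by group
      have h3 := hfree e he he1 _ (N.mul_mem b.2 (N.inv_mem a.2)) h2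
      exact Subtype.ext (mul_inv_eq_one.1 h3).symm
    intro n hn
    obtain ⟨m, hm⟩ := (Finite.injective_iff_surjective.1 hf) ⟨n, hn⟩
    have hm' : (m : H)⁻¹ * (e * m * e⁻¹) = n := congrArg Subtype.val hm
    have he' : e⁻¹ = e := inv_eq_of_mul_eq_one_right (hee e he)
    rw [← hm']
    calc e * ((m : H)⁻¹ * (e * m * e⁻¹)) * e⁻¹
        = e * (m : H)⁻¹ * e * m * ((e * e)⁻¹) := by group
      _ = e * (m : H)⁻¹ * e⁻¹ * m := by rw [hee e he, inv_one, mul_one, he']
      _ = _ := by group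
  rw [eq_bot_iff]
  intro n hn
  rw [Subgroup.mem_bot]
  have hz1 : z ≠ 1 := fun h => by simp [h] at hz
  obtain ⟨w, hw, hw1, hwz⟩ : ∃ w ∈ E, w ≠ 1 ∧ w ≠ z := by
    haveI := hE
    by_contra hne
    push Not at hne
    haveI : Fintype ↥E := Fintype.ofFinite _
    have h4 : Nat.card ↥E = 4 := IsKleinFour.card_four
    classical
    have h2 : Nat.card ↥E ≤ Nat.card (({1, z} : Finset H) : Type _) := by
      classical
      exact Nat.card_le_card_of_injective (fun w => ⟨(w.1 : H), by
        by_cases h : (w.1 : H) = 1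
        · simp [h]
        · simp [hne w.1 w.2 h]⟩) fun a b hab => Subtype.ext (congrArg Subtype.val hab :)
    classical
    rw [Nat.card_eq_finsetCard] at h2
    have := Finset.card_le_two (a := (1 : H)) (b := z)
    omega
  have hwz1 : w * z ≠ 1 := fun h => hwz (by
    rw [← inv_eq_of_mul_eq_one_left h, inv_eq_of_mul_eq_one_right (hee z hzE)])
  have h1 := hinv w hw hw1 n hn
  have h2 := hinv z hzE hz1 n hn
  have h3 := hinv (w * z) (E.mul_mem hw hzE) hwz1 n hn
  have h4 : n⁻¹ = n := by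
    calc n⁻¹ = (w * z) * n * (w * z)⁻¹ := h3.symm
      _ = w * (z * n * z⁻¹) * w⁻¹ := by group
      _ = n := by rw [h2, ← conj_inv, h1, inv_inv]
  exact hfree z hzE hz1 n hn (mul_inv_eq_iff_eq_mul.1 (h2.trans h4))

theorem not_abelian {H : Type*} [Group H] (z : H) (E : Subgroup H) (hE : IsKleinFour ↥E)
    (hc : ∀ e ∈ E, e ≠ 1 → IsConj z e) (hab : ∀ a b : H, a * b = b * a) : False := by
  haveI := hE
  have key : ∀ e : ↥E, e = 1 ∨ (e : H) = z := by
    intro e
    by_cases he : e = 1
    · exact Or.inl he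
    · obtain ⟨c, hc⟩ := isConj_iff.1 (hc e e.2 (by simpa using he))
      exact Or.inr (by rw [← hc, hab c z, mul_inv_cancel_right])
  have h4 : Nat.card ↥E = 4 := IsKleinFour.card_four
  classical
  have : Nat.card ↥E ≤ Nat.card Bool := Nat.card_le_card_of_injective (fun e : ↥E => decide (e = 1))
    fun a b hab' => by
      simp only [decide_eq_decide] at hab'
      rcases key a with ha | ha
      · rw [ha, hab'.1 ha]
      · rcases key b with hb | hb
        · rw [hb, hab'.2 hb]
        · exact Subtype.ext (ha.trans hb.symm)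
  rw [h4, Nat.card_eq_fintype_card, Fintype.card_bool] at this
  omega


/-- Let H be a finite group and z an involution such that every proper normal subgroup of H meets the centralizer of z trivially, and suppose z lies in a Klein four-subgroup E of H all three of whose involutions are conjugate to z in H. Then H has no non-trivial abelian normal subgroup. -/
theorem result {H : Type*} [Group H] [Finite H] (z : H) (hz : orderOf z = 2) (hN : ∀ N : Subgroup H, N.Normal → N ≠ ⊤ → N ⊓ Subgroup.centralizer ({z} : Set H) = ⊥) (E : Subgroup H) (hE : IsKleinFour ↥E) (hzE : z ∈ E) (hc : ∀ e ∈ E, e ≠ 1 → IsConj z e) (N : Subgroup H) [N.Normal] (hab : IsMulCommutative ↥N) : N = ⊥ := by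
  by_cases hNt : N = ⊤
  · exact (not_abelian z E hE hc fun a b =>
      congrArg Subtype.val (hab.is_comm.comm ⟨a, hNt ▸ Subgroup.mem_top a⟩
        ⟨b, hNt ▸ Subgroup.mem_top b⟩)).elim
  · exact eq_bot_of_normal z hz hN E hE hzE hc N hNt

end Cfsg.Agent.S2008
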