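import Cfsg.Statements.S2119
import Cfsg.Agent.Lib.LieAutAlt

set_option autoImplicit false
open Cfsg

namespace Cfsg.Agent.S2119

/-- Automorphisms of the alternating groups: for n ≥ 4 with n ≠ 6, every automorphism of the alternating group of degree n is conjugation by a unique permutation, i.e. conjugation induces an isomorphism from the symmetric group of degree n onto the automorphism group of the alternating group (so the outer automorphism group has order 2). -/
theorem result (n : ℕ) (hn : 4 ≤ n) (h6 : n ≠ 6) : Function.Bijective (MulAut.conjNormal : Equiv.Perm (Fin n) →* MulAut ↥(alternatingGroup (Fin n))) := by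
  refine ⟨CfsgLib.AutAlt.conjNormal_injective (by rwa [Fintype.card_fin]), ?_⟩
  rcases eq_or_ne n 4 with rfl | h4
  · exact CfsgLib.AutAlt.four
  · exact CfsgLib.AutAlt.conjNormal_surjective (by rw [Fintype.card_fin]; omega) (by rw [Fintype.card_fin]; omega)

end Cfsg.Agent.S2119
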