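import Cfsg.Statements.S2158
import Cfsg.Agent.Lib.LieChevTypes
import Cfsg.Agent.Lib.LieChevRigid

set_option autoImplicit false
open Cfsg

namespace Cfsg.Agent.S2158

/-- In a Chevalley group of type G₂, B₂, D₄, F₄, E₆, E₇ or E₈ over any field, an element of the group whose matrix is the diagonal matrix `ĥ(χ)` of a character `χ` of the root lattice already lies in the diagonal subgroup H (the non-trivial inclusion of the statement that the group meets the group of all such diagonal matrices in H). -/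
theorem result {F : Type*} [Field F] (D : Cfsg.Lie.ChevalleyDatum) (hD : D ∈ [Cfsg.Lie.chevG2, Cfsg.Lie.chevB2, Cfsg.Lie.chevD4, Cfsg.Lie.chevF4, Cfsg.Lie.chevE6, Cfsg.Lie.chevE7, Cfsg.Lie.chevE8]) (χ : ℕ → Fˣ) (hχ : D.IsRootCharacter χ) (g : GL D.Idx F) (hg : g ∈ D.group F)
    (hgχ : (g : Matrix D.Idx D.Idx F) = D.charDiag F χ) : g ∈ D.diagonalSubgroup F := by
  obtain ⟨T, hT⟩ := CfsgLib.Lie.exists_good hD
  have hf := CfsgLib.Lie.Tab.isChar_of_isRootCharacter hT.checked hχ
  have e : g = CfsgLib.Lie.Tab.dg (D := D) (fun r : Fin D.nroots => χ r.val) :=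
    Units.ext (by rw [hgχ, CfsgLib.Lie.Tab.coe_dg]; rfl)
  rw [e] at hg ⊢
  exact CfsgLib.Lie.Tab.mem_diagonal_of_dg hT.checked hT.extra hf hg

end Cfsg.Agent.S2158
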