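import Cfsg.Statements.S2298
import Cfsg.Agent.Lib.LieGLTwoTable

set_option autoImplicit false
open Cfsg

namespace Cfsg.Agent.S2298

/-- Over a finite field F with q elements, every irreducible complex character of GL₂ has degree 1, q − 1, q or q + 1; and when q ≥ 3 (so that these four numbers are distinct) there are exactly q − 1 irreducible characters of degree 1, exactly q − 1 of degree q, exactly (q − 1)(q − 2)/2 of degree q + 1 and exactly q(q − 1)/2 of degree q − 1. -/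
theorem result {F : Type*} [Field F] [Fintype F] :
    (∀ χ : Matrix.GeneralLinearGroup (Fin 2) F → ℂ, Cfsg.IsIrrCharacter (Matrix.GeneralLinearGroup (Fin 2) F) χ →
      χ 1 = 1 ∨ χ 1 = (Fintype.card F : ℂ) - 1 ∨ χ 1 = (Fintype.card F : ℂ) ∨ χ 1 = (Fintype.card F : ℂ) + 1) ∧
    (3 ≤ Fintype.card F →
      Nat.card {χ : Cfsg.IrrCharacter (Matrix.GeneralLinearGroup (Fin 2) F) // (χ : Matrix.GeneralLinearGroup (Fin 2) F → ℂ) 1 = 1} = Fintype.card F - 1 ∧
      Nat.card {χ : Cfsg.IrrCharacter (Matrix.GeneralLinearGroup (Fin 2) F) // (χ : Matrix.GeneralLinearGroup (Fin 2) F → ℂ) 1 = (Fintype.card F : ℂ)} = Fintype.card F - 1 ∧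
      Nat.card {χ : Cfsg.IrrCharacter (Matrix.GeneralLinearGroup (Fin 2) F) // (χ : Matrix.GeneralLinearGroup (Fin 2) F → ℂ) 1 = (Fintype.card F : ℂ) + 1} = (Fintype.card F - 1) * (Fintype.card F - 2) / 2 ∧
      Nat.card {χ : Cfsg.IrrCharacter (Matrix.GeneralLinearGroup (Fin 2) F) // (χ : Matrix.GeneralLinearGroup (Fin 2) F → ℂ) 1 = (Fintype.card F : ℂ) - 1} = Fintype.card F * (Fintype.card F - 1) / 2) := by
  classical
  open CfsgLib.Lie.GLTwoTable CfsgLib.Lie.GLTwoPS in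
  refine ⟨fun χ hχ => ?_, fun hq => ?_⟩
  · rcases CfsgLib.Lie.GLTwoTable.cases_irr χ hχ with ⟨-, h⟩ | ⟨-, h⟩ | ⟨-, h⟩ | ⟨-, h⟩
    · exact Or.inl h
    · exact Or.inr (Or.inr (Or.inl h))
    · exact Or.inr (Or.inr (Or.inr h))
    · exact Or.inr (Or.inl h)
  have h0 : (Fintype.card F : ℂ) ≠ 0 := Nat.cast_ne_zero.2 (by omega)
  have h1 : (Fintype.card F : ℂ) ≠ 1 := Nat.cast_ne_one.2 (by omega)
  have h2 : (Fintype.card F : ℂ) ≠ 2 := fun e => by
    have : Fintype.card F = 2 := by exact_mod_cast e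
    omega
  have hn : Fintype.card (MulChar F ℂ) = Fintype.card F - 1 := by
    rw [← Nat.card_eq_fintype_card, CfsgLib.Lie.CharOrth.card_mulChar]
  refine ⟨?_, ?_, ?_, ?_⟩
  · rw [← hn, ← Nat.card_eq_fintype_card (α := MulChar F ℂ)]
    refine (Nat.card_congr (Equiv.ofBijective (fun μ => ⟨⟨_, CfsgLib.Lie.GLTwoTable.isIrr_lin μ⟩, CfsgLib.Lie.GLTwoTable.lin_one μ⟩) ⟨?_, ?_⟩)).symm
    · intro a b h
      exact CfsgLib.Lie.GLTwoTable.lin_injective (congrArg (fun x => x.1.1) h)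
    · rintro ⟨⟨χ, hχ⟩, hd⟩
      rcases CfsgLib.Lie.GLTwoTable.cases_irr χ hχ with ⟨⟨μ, rfl⟩, -⟩ | ⟨-, h⟩ | ⟨-, h⟩ | ⟨-, h⟩
      · exact ⟨μ, rfl⟩
      · exact absurd (h.symm.trans hd) h1
      · exact absurd (h.symm.trans hd) (fun e => h0 (by linear_combination e))
      · exact absurd (h.symm.trans hd) (fun e => h2 (by linear_combination e))
  · rw [← hn, ← Nat.card_eq_fintype_card (α := MulChar F ℂ)]
    refine (Nat.card_congr (Equiv.ofBijective (fun μ => ⟨⟨_, CfsgLib.Lie.GLTwoTable.isIrr_st μ⟩, CfsgLib.Lie.GLTwoTable.st_one μ⟩) ⟨?_, ?_⟩)).symm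
    · intro a b h
      exact CfsgLib.Lie.GLTwoTable.st_injective (congrArg (fun x => x.1.1) h)
    · rintro ⟨⟨χ, hχ⟩, hd⟩
      rcases CfsgLib.Lie.GLTwoTable.cases_irr χ hχ with ⟨-, h⟩ | ⟨⟨μ, rfl⟩, -⟩ | ⟨-, h⟩ | ⟨-, h⟩
      · exact absurd (h.symm.trans hd) (Ne.symm h1)
      · exact ⟨μ, rfl⟩
      · exact absurd (h.symm.trans hd) (fun e => one_ne_zero (by linear_combination e))
      · exact absurd (h.symm.trans hd) (fun e => one_ne_zero (by linear_combination -e))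
  · rw [show Fintype.card F - 2 = Fintype.card F - 1 - 1 by omega, ← hn, ← Nat.choose_two_right, ← Sym2.card_subtype_not_diag, ← Nat.card_eq_fintype_card (α := {z : Sym2 (MulChar F ℂ) // ¬ z.IsDiag})]
    have hz : ∀ z : {z : Sym2 (MulChar F ℂ) // ¬ z.IsDiag}, CfsgLib.Lie.GLTwoTable.known (Sum.inr (Sum.inr z)) 1 = (Fintype.card F : ℂ) + 1 := by
      rintro ⟨z, hz⟩
      induction z using Sym2.ind with
      | h α β => exact CfsgLib.Lie.GLTwoTable.ps_one α β
    refine (Nat.card_congr (Equiv.ofBijective (fun z => ⟨⟨_, CfsgLib.Lie.GLTwoTable.isIrr_known (Sum.inr (Sum.inr z))⟩, hz z⟩) ⟨?_, ?_⟩)).symm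
    · intro a b h
      have h' : CfsgLib.Lie.GLTwoTable.known (Sum.inr (Sum.inr a)) = CfsgLib.Lie.GLTwoTable.known (Sum.inr (Sum.inr b)) :=
        congrArg (fun x => x.1.1) h
      simpa using CfsgLib.Lie.GLTwoTable.known_injective h'
    · rintro ⟨⟨χ, hχ⟩, hd⟩
      rcases CfsgLib.Lie.GLTwoTable.cases_irr χ hχ with ⟨-, h⟩ | ⟨-, h⟩ | ⟨⟨α, β, hab, rfl⟩, -⟩ | ⟨-, h⟩
      · exact absurd (h.symm.trans hd) (fun e => h0 (by linear_combination -e))
      · exact absurd (h.symm.trans hd) (fun e => one_ne_zero (by linear_combination -e))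
      · exact ⟨⟨s(α, β), fun e => hab (Sym2.mk_isDiag_iff.1 e)⟩, rfl⟩
      · exact absurd (h.symm.trans hd) (fun e => two_ne_zero (α := ℂ) (by linear_combination -e))
  · rw [← CfsgLib.Lie.GLTwoTable.count.2]
    refine Nat.card_congr (Equiv.subtypeEquivRight fun χ => ⟨fun hd => ?_, fun hc => CfsgLib.Lie.GLTwoTable.count.1 _ χ.2 hc⟩)
    rcases CfsgLib.Lie.GLTwoTable.cases_irr χ.1 χ.2 with ⟨-, h⟩ | ⟨-, h⟩ | ⟨-, h⟩ | ⟨hc, -⟩
    · exact absurd (h.symm.trans hd) (fun e => h2 (by linear_combination -e))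
    · exact absurd (h.symm.trans hd) (fun e => one_ne_zero (by linear_combination e))
    · exact absurd (h.symm.trans hd) (fun e => two_ne_zero (α := ℂ) (by linear_combination e))
    · exact hc

end Cfsg.Agent.S2298
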