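import Cfsg.Statements.S2301
import Cfsg.Agent.Lib.ClassicalPSLTwoClasses

set_option autoImplicit false
open Cfsg

namespace Cfsg.Agent.S2301

/-- Over a finite field with q elements of odd characteristic p, the elements of order p of SL₂ (the non-identity unipotent elements) fall into exactly two conjugacy classes, each of size (q² − 1)/2; two upper unitriangular matrices with non-zero off-diagonal entries b and b′ are conjugate exactly when bb′ is a square. -/
theorem result {F : Type*} [Field F] [Fintype F] (p : ℕ) [Fact p.Prime] [CharP F p] (hp : p ≠ 2) :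
    Nat.card {C : ConjClasses (Matrix.SpecialLinearGroup (Fin 2) F) // ∃ g : Matrix.SpecialLinearGroup (Fin 2) F, orderOf g = p ∧ ConjClasses.mk g = C} = 2 ∧
    (∀ g : Matrix.SpecialLinearGroup (Fin 2) F, orderOf g = p → Nat.card (ConjClasses.mk g).carrier = (Fintype.card F ^ 2 - 1) / 2) ∧
    ∀ g h : Matrix.SpecialLinearGroup (Fin 2) F, (g : Matrix (Fin 2) (Fin 2) F) 0 0 = 1 → (g : Matrix (Fin 2) (Fin 2) F) 1 1 = 1 → (g : Matrix (Fin 2) (Fin 2) F) 1 0 = 0 → (g : Matrix (Fin 2) (Fin 2) F) 0 1 ≠ 0 →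
      (h : Matrix (Fin 2) (Fin 2) F) 0 0 = 1 → (h : Matrix (Fin 2) (Fin 2) F) 1 1 = 1 → (h : Matrix (Fin 2) (Fin 2) F) 1 0 = 0 → (h : Matrix (Fin 2) (Fin 2) F) 0 1 ≠ 0 →
      (IsConj g h ↔ IsSquare ((g : Matrix (Fin 2) (Fin 2) F) 0 1 * (h : Matrix (Fin 2) (Fin 2) F) 0 1)) := by
  classical
  obtain ⟨n, hpp, hc⟩ := FiniteField.card F p
  have h20 : (2 : F) ≠ 0 := Ring.two_ne_zero (by rwa [ringChar.eq F p])
  have hsl : ∀ g : Matrix.SpecialLinearGroup (Fin 2) F, orderOf g = p → Nat.card (ConjClasses.mk g).carrier = (Fintype.card F ^ 2 - 1) / 2 := by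
    intro g hg
    obtain ⟨b, hb, hconj⟩ := CfsgLib.SLTwoClasses.exists_conj_upperU p hg
    have hk := CfsgLib.SLTwoClasses.card_class g
    rw [← CfsgLib.SLTwoClasses.card_cent_conj hconj, CfsgLib.SLTwoClasses.card_cent_upperU hb,
      (CfsgLib.SLTwoClasses.card_roots (F := F)).2 h20, CfsgLib.Classical.Two.card_sl_two] at hk
    have hs := CfsgLib.SLTwoClasses.sq_sub_one (Fintype.card F)
    have hq : 0 < Fintype.card F := Fintype.card_pos
    have e : 2 * Nat.card (ConjClasses.mk g).carrier = Fintype.card F ^ 2 - 1 := by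
      refine Nat.eq_of_mul_eq_mul_left hq ?_
      rw [hs]
      linarith [hk]
    omega
  have hcj : ∀ b c : F, b ≠ 0 → c ≠ 0 → (IsConj (CfsgLib.Dickson.upperU b) (CfsgLib.Dickson.upperU c) ↔ IsSquare (b * c)) := by
    intro b c hb hc'
    rw [CfsgLib.SLTwoClasses.upperU_isConj hb]
    constructor
    · rintro ⟨a, -, rfl⟩; exact ⟨a * b, by ring⟩
    · rintro ⟨s, hs⟩
      refine ⟨s / b, div_ne_zero (fun e => mul_ne_zero hb hc' (by rw [hs, e, mul_zero])) hb, ?_⟩
      field_simp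
      linear_combination hs
  refine ⟨?_, hsl, ?_⟩
  · obtain ⟨ν, hν⟩ := FiniteField.exists_nonsquare (F := F) (by rwa [ringChar.eq F p])
    have hν0 : ν ≠ 0 := fun e => hν (e ▸ IsSquare.zero)
    have hset : {C : ConjClasses (Matrix.SpecialLinearGroup (Fin 2) F) | ∃ g : Matrix.SpecialLinearGroup (Fin 2) F, orderOf g = p ∧ ConjClasses.mk g = C} =
        {ConjClasses.mk (CfsgLib.Dickson.upperU (1 : F)), ConjClasses.mk (CfsgLib.Dickson.upperU ν)} := by
      ext C
      constructor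
      · rintro ⟨g, hg, rfl⟩
        obtain ⟨b, hb, hconj⟩ := CfsgLib.SLTwoClasses.exists_conj_upperU p hg
        by_cases hbs : IsSquare b
        · exact Or.inl (ConjClasses.mk_eq_mk_iff_isConj.2 (hconj.symm.trans ((hcj b 1 hb one_ne_zero).2 (by rwa [mul_one]))))
        · refine Or.inr (ConjClasses.mk_eq_mk_iff_isConj.2 (hconj.symm.trans ((hcj b ν hb hν0).2 ?_)))
          exact CfsgLib.Dickson.isSquare_mul_of_not hbs hν
      · rintro (rfl | rfl)
        exacts [⟨_, CfsgLib.SLTwoClasses.orderOf_upperU p one_ne_zero, rfl⟩, ⟨_, CfsgLib.SLTwoClasses.orderOf_upperU p hν0, rfl⟩]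
    refine (Nat.card_congr (Equiv.setCongr hset)).trans ?_
    rw [Nat.card_coe_set_eq, Set.ncard_pair]
    intro e
    have := (hcj 1 ν one_ne_zero hν0).1 (ConjClasses.mk_eq_mk_iff_isConj.1 e)
    rw [one_mul] at this
    exact hν this
  · intro g h g00 g11 g10 g01 h00 h11 h10 h01
    have hrep : ∀ x : Matrix.SpecialLinearGroup (Fin 2) F, (x : Matrix (Fin 2) (Fin 2) F) 0 0 = 1 → (x : Matrix (Fin 2) (Fin 2) F) 1 1 = 1 → (x : Matrix (Fin 2) (Fin 2) F) 1 0 = 0 → x = CfsgLib.Dickson.upperU ((x : Matrix (Fin 2) (Fin 2) F) 0 1) := by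
      intro x a b c
      apply Subtype.ext
      ext i j
      fin_cases i <;> fin_cases j <;> simp [CfsgLib.SLTwoClasses.coe_upperU_val, a, b, c]
    have := hcj _ _ g01 h01
    rwa [← hrep g g00 g11 g10, ← hrep h h00 h11 h10] at this

end Cfsg.Agent.S2301
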