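import Cfsg.Statements.S2302
import Cfsg.Agent.Lib.ClassicalPSLTwoClasses

set_option autoImplicit false
open Cfsg

namespace Cfsg.Agent.S2302

/-- Over a finite field with q elements of characteristic 2, the involutions of SL₂ (the non-identity unipotent elements) form a single conjugacy class, of size q² − 1. -/
theorem result {F : Type*} [Field F] [Fintype F] [CharP F 2] (g h : Matrix.SpecialLinearGroup (Fin 2) F) (hg : orderOf g = 2) (hh : orderOf h = 2) :
    IsConj g h ∧ Nat.card (ConjClasses.mk g).carrier = Fintype.card F ^ 2 - 1 := by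
  classical
  haveI : Fact (Nat.Prime 2) := ⟨Nat.prime_two⟩
  have h20 : (2 : F) = 0 := by exact_mod_cast CharP.cast_eq_zero F 2
  obtain ⟨b, hb, hconj⟩ := CfsgLib.SLTwoClasses.exists_conj_upperU 2 hg
  obtain ⟨c, hc, hconj'⟩ := CfsgLib.SLTwoClasses.exists_conj_upperU 2 hh
  refine ⟨hconj.symm.trans (((CfsgLib.SLTwoClasses.upperU_isConj hb).2 ?_).trans hconj'), ?_⟩
  · obtain ⟨a, ha⟩ := FiniteField.isSquare_of_char_two (ringChar.eq F 2) (c / b)
    refine ⟨a, fun e => div_ne_zero hc hb (by rw [ha, e, mul_zero]), ?_⟩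
    rw [← ha, div_mul_cancel₀ _ hb]
  · have hk := CfsgLib.SLTwoClasses.card_class g
    rw [← CfsgLib.SLTwoClasses.card_cent_conj hconj, CfsgLib.SLTwoClasses.card_cent_upperU hb,
      (CfsgLib.SLTwoClasses.card_roots (F := F)).1 h20, CfsgLib.Classical.Two.card_sl_two, one_mul] at hk
    rw [CfsgLib.SLTwoClasses.sq_sub_one]
    refine Nat.eq_of_mul_eq_mul_right (Fintype.card_pos (α := F)) (hk.trans ?_)
    ring

end Cfsg.Agent.S2302
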