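import Cfsg.Statements.S2307
import Cfsg.Agent.Lib.LieSLTwoTableCases

set_option autoImplicit false
open Cfsg

namespace Cfsg.Agent.S2307

/-- Over a finite field F with q elements, q odd, let α be the multiplicative character of F of order 2. The character of SL₂ induced from the linear character b ↦ α(b₁₁) of the upper triangular subgroup is the sum of two distinct irreducible characters, each of degree (q + 1)/2, which are conjugate under GL₂: some fixed element of GL₂ conjugates the one into the other. -/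
theorem result {F : Type*} [Field F] [Fintype F] [DecidableEq F] (hodd : Odd (Fintype.card F)) (α : MulChar F ℂ)
    (hα : α ^ 2 = 1) (hα1 : α ≠ 1) :
    ∃ χ₁ χ₂ : Matrix.SpecialLinearGroup (Fin 2) F → ℂ, Cfsg.IsIrrCharacter (Matrix.SpecialLinearGroup (Fin 2) F) χ₁ ∧ Cfsg.IsIrrCharacter (Matrix.SpecialLinearGroup (Fin 2) F) χ₂ ∧ χ₁ ≠ χ₂ ∧
      Cfsg.indFun ((Cfsg.upperTriangularGL 2 F).comap Matrix.SpecialLinearGroup.toGL) (fun b => α (((b : Matrix.SpecialLinearGroup (Fin 2) F) : Matrix (Fin 2) (Fin 2) F) 0 0)) = χ₁ + χ₂ ∧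
      χ₁ 1 = (((Fintype.card F + 1) / 2 : ℕ) : ℂ) ∧ χ₂ 1 = (((Fintype.card F + 1) / 2 : ℕ) : ℂ) ∧
      ∃ x : Matrix.GeneralLinearGroup (Fin 2) F, ∀ g h : Matrix.SpecialLinearGroup (Fin 2) F,
        Matrix.SpecialLinearGroup.toGL h = x * Matrix.SpecialLinearGroup.toGL g * x⁻¹ → χ₂ h = χ₁ g := by
  classical
  open CfsgLib.Lie.SLTwoTable in
  obtain ⟨ε, hε⟩ := exists_eps hodd
  obtain ⟨η, η', ξ, ξ', C, hne, hsum, ht, -, -, -, -, hη, -, -⟩ := CfsgLib.Lie.SLTwoTable.table_odd ε hodd hε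
  obtain ⟨r, hr⟩ := hodd
  have hh : (((Fintype.card F + 1) / 2 : ℕ) : ℂ) = ((Fintype.card F : ℂ) + 1) / 2 := by
    rw [show (Fintype.card F + 1) / 2 = r + 1 by omega, hr]; push_cast; ring
  refine ⟨η', η, η'.2, η.2, fun e => hne (Subtype.ext e.symm), ?_, ?_, ?_, ?_⟩
  · rw [CfsgLib.Lie.SLTwoTable.eq_sgn ⟨r, hr⟩ α hα hα1, add_comm, hsum]
    rfl
  · rw [hh]; linear_combination (hη η' (Or.inr rfl)).1 / 2
  · rw [hh]; linear_combination (hη η (Or.inl rfl)).1 / 2
  · refine ⟨Matrix.GeneralLinearGroup.mkOfDetNeZero !![(ε : F), 0; 0, 1] (by simp [Matrix.det_fin_two]), fun g h e => ?_⟩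
    have h' : h = CfsgLib.Lie.SLTwoTable.twist ε g := by
      have e2 : h.1 * !![(ε : F), 0; 0, 1] = !![(ε : F), 0; 0, 1] * g.1 :=
        congrArg Units.val (eq_mul_inv_iff_mul_eq.1 e)
      have e00 := congrFun (congrFun e2 0) 0
      have e01 := congrFun (congrFun e2 0) 1
      have e10 := congrFun (congrFun e2 1) 0
      have e11 := congrFun (congrFun e2 1) 1
      simp [Matrix.mul_apply, Fin.sum_univ_two] at e00 e01 e10 e11
      refine CfsgLib.Dickson.sl_ext ?_ ?_ ?_ ?_ <;> rw [CfsgLib.Lie.SLTwoTable.twist_val] <;> simp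
      · exact mul_right_cancel₀ ε.ne_zero (e00.trans (mul_comm _ _))
      · exact e01
      · rw [← e10]; field_simp
      · exact e11
    rw [h', ← ht]

end Cfsg.Agent.S2307
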