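import Cfsg.Statements.S2308
import Cfsg.Agent.Lib.ClassicalGLTwoCentraliser

set_option autoImplicit false
open Cfsg

namespace Cfsg.Agent.S2308

/-- Values of the permutation character of GL₂ over a finite field F with q elements on the cosets of its upper triangular subgroup (equivalently, the number of lines of F² that an element maps to themselves): q + 1 at a scalar matrix, 2 at a diagonal matrix with two different diagonal entries, 0 at an element with no eigenvector in F², and 1 at an upper triangular matrix with equal diagonal entries and non-zero upper right entry. -/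
theorem result {F : Type*} [Field F] [Fintype F] (g : Matrix.GeneralLinearGroup (Fin 2) F) :
    ((∃ a : F, (g : Matrix (Fin 2) (Fin 2) F) = a • (1 : Matrix (Fin 2) (Fin 2) F)) → Cfsg.fixedPointCharacter (Cfsg.upperTriangularGL 2 F) g = Fintype.card F + 1) ∧
    ((g : Matrix (Fin 2) (Fin 2) F) 0 1 = 0 → (g : Matrix (Fin 2) (Fin 2) F) 1 0 = 0 → (g : Matrix (Fin 2) (Fin 2) F) 0 0 ≠ (g : Matrix (Fin 2) (Fin 2) F) 1 1 →
      Cfsg.fixedPointCharacter (Cfsg.upperTriangularGL 2 F) g = 2) ∧
    ((∀ (c : F) (v : Fin 2 → F), v ≠ 0 → (g : Matrix (Fin 2) (Fin 2) F).mulVec v ≠ c • v) → Cfsg.fixedPointCharacter (Cfsg.upperTriangularGL 2 F) g = 0) ∧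
    ((g : Matrix (Fin 2) (Fin 2) F) 1 0 = 0 → (g : Matrix (Fin 2) (Fin 2) F) 0 0 = (g : Matrix (Fin 2) (Fin 2) F) 1 1 → (g : Matrix (Fin 2) (Fin 2) F) 0 1 ≠ 0 →
      Cfsg.fixedPointCharacter (Cfsg.upperTriangularGL 2 F) g = 1) := by
  classical
  unfold Cfsg.fixedPointCharacter
  simp only [CfsgLib.GLTwoCent.fixed_card]
  refine ⟨fun h => ?_, fun h01 h10 hne => ?_, fun hell => ?_, fun h10 heq h01 => ?_⟩
  · obtain ⟨a, ha⟩ := h
    have : Nat.card {o : Option F // o.elim ((g : Matrix (Fin 2) (Fin 2) F) 1 0 = 0)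
        (fun c => (g : Matrix (Fin 2) (Fin 2) F) 0 0 * c + (g : Matrix (Fin 2) (Fin 2) F) 0 1 = c * ((g : Matrix (Fin 2) (Fin 2) F) 1 0 * c + (g : Matrix (Fin 2) (Fin 2) F) 1 1))} = Fintype.card F + 1 := by
      rw [← Fintype.card_option, ← Nat.card_eq_fintype_card]
      exact Nat.card_congr (Equiv.subtypeUnivEquiv fun o => by cases o <;> simp [ha, mul_comm])
    rw [this]; push_cast; ring
  · have : Nat.card {o : Option F // o.elim ((g : Matrix (Fin 2) (Fin 2) F) 1 0 = 0)
        (fun c => (g : Matrix (Fin 2) (Fin 2) F) 0 0 * c + (g : Matrix (Fin 2) (Fin 2) F) 0 1 = c * ((g : Matrix (Fin 2) (Fin 2) F) 1 0 * c + (g : Matrix (Fin 2) (Fin 2) F) 1 1))} = 2 := by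
      rw [Nat.card_eq_fintype_card, Fintype.card_subtype]
      rw [show (Finset.univ.filter _) = ({none, some 0} : Finset (Option F)) from ?_]
      · exact Finset.card_pair (by simp)
      · ext o
        cases o with
        | none => simp [h10]
        | some c =>
          simp [h01, h10]
          constructor
          · intro hc
            exact (mul_eq_zero.1 (show ((g : Matrix (Fin 2) (Fin 2) F) 0 0 - (g : Matrix (Fin 2) (Fin 2) F) 1 1) * c = 0 by linear_combination hc)).resolve_left (sub_ne_zero.2 hne)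
          · rintro rfl; simp
    rw [this]; norm_num
  · have : IsEmpty {o : Option F // o.elim ((g : Matrix (Fin 2) (Fin 2) F) 1 0 = 0)
        (fun c => (g : Matrix (Fin 2) (Fin 2) F) 0 0 * c + (g : Matrix (Fin 2) (Fin 2) F) 0 1 = c * ((g : Matrix (Fin 2) (Fin 2) F) 1 0 * c + (g : Matrix (Fin 2) (Fin 2) F) 1 1))} := by
      refine ⟨fun ⟨o, ho⟩ => ?_⟩
      cases o with
      | none =>
        refine hell ((g : Matrix (Fin 2) (Fin 2) F) 0 0) ![1, 0] (by simp) ?_
        ext i; fin_cases i <;> simp_all [Matrix.mulVec, dotProduct, Fin.sum_univ_two]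
      | some c =>
        refine hell ((g : Matrix (Fin 2) (Fin 2) F) 1 0 * c + (g : Matrix (Fin 2) (Fin 2) F) 1 1) ![c, 1] (by simp) ?_
        simp only [Option.elim] at ho
        ext i; fin_cases i <;> simp [Matrix.mulVec, dotProduct, Fin.sum_univ_two]
        linear_combination ho
    simp
  · have : Nat.card {o : Option F // o.elim ((g : Matrix (Fin 2) (Fin 2) F) 1 0 = 0)
        (fun c => (g : Matrix (Fin 2) (Fin 2) F) 0 0 * c + (g : Matrix (Fin 2) (Fin 2) F) 0 1 = c * ((g : Matrix (Fin 2) (Fin 2) F) 1 0 * c + (g : Matrix (Fin 2) (Fin 2) F) 1 1))} = 1 := by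
      refine Nat.card_eq_one_iff_unique.2 ⟨⟨fun a b => Subtype.ext ?_⟩, ⟨⟨none, h10⟩⟩⟩
      have : ∀ o : {o : Option F // o.elim ((g : Matrix (Fin 2) (Fin 2) F) 1 0 = 0)
        (fun c => (g : Matrix (Fin 2) (Fin 2) F) 0 0 * c + (g : Matrix (Fin 2) (Fin 2) F) 0 1 = c * ((g : Matrix (Fin 2) (Fin 2) F) 1 0 * c + (g : Matrix (Fin 2) (Fin 2) F) 1 1))}, o.1 = none := by
        rintro ⟨o, ho⟩
        cases o with
        | none => rfl
        | some c =>
          simp only [Option.elim, h10] at ho
          exact absurd (by linear_combination ho + c * heq.symm) h01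
      rw [this a, this b]
    rw [this]; norm_num

end Cfsg.Agent.S2308
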