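import Cfsg.Statements.S2309
import Cfsg.Agent.Lib.LieGLTwoTable

set_option autoImplicit false
open Cfsg

namespace Cfsg.Agent.S2309

/-- Over a finite field F with q elements: every irreducible complex character of GL₂ of degree q − 1 vanishes at every diagonal matrix with two distinct entries, and every irreducible complex character of degree q + 1 vanishes at every element with no eigenvector in F². -/
theorem result {F : Type*} [Field F] [Fintype F] (χ : Matrix.GeneralLinearGroup (Fin 2) F → ℂ) (hχ : Cfsg.IsIrrCharacter (Matrix.GeneralLinearGroup (Fin 2) F) χ) (g : Matrix.GeneralLinearGroup (Fin 2) F) :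
    (χ 1 = (Fintype.card F : ℂ) - 1 → (g : Matrix (Fin 2) (Fin 2) F) 0 1 = 0 → (g : Matrix (Fin 2) (Fin 2) F) 1 0 = 0 → (g : Matrix (Fin 2) (Fin 2) F) 0 0 ≠ (g : Matrix (Fin 2) (Fin 2) F) 1 1 → χ g = 0) ∧
    (χ 1 = (Fintype.card F : ℂ) + 1 → (∀ (c : F) (v : Fin 2 → F), v ≠ 0 → (g : Matrix (Fin 2) (Fin 2) F).mulVec v ≠ c • v) → χ g = 0) := by
  classical
  refine ⟨fun hd h01 h10 hne => ?_, fun hd hg => ?_⟩
  · obtain ⟨a, d, hup, ha, hd'⟩ := CfsgLib.Lie.GLTwoTable.eq_up_of_diag g h10
    rw [h01] at hup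
    have had : (a : F) ≠ d := by rwa [ha, hd']
    rcases CfsgLib.Lie.GLTwoTable.cases_irr χ hχ with ⟨-, h⟩ | ⟨-, h⟩ | ⟨-, h⟩ | ⟨hc, -⟩
    · have h2 : Fintype.card F = 2 := by
        have : (Fintype.card F : ℂ) = 2 := by linear_combination hd.symm.trans h
        exact_mod_cast this
      refine absurd ?_ had
      have hs : Subsingleton Fˣ := Fintype.card_le_one_iff_subsingleton.1 (by rw [Fintype.card_units]; omega)
      rw [Subsingleton.elim a d]
    · exact absurd (h.symm.trans hd) (fun e => one_ne_zero (by linear_combination e))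
    · exact absurd (h.symm.trans hd) (fun e => two_ne_zero (α := ℂ) (by linear_combination e))
    · rw [hup]; exact CfsgLib.Lie.GLTwoTable.cusp_diag χ hχ hc a d had
  · rcases CfsgLib.Lie.GLTwoTable.cases_irr χ hχ with ⟨-, h⟩ | ⟨-, h⟩ | ⟨⟨α, β, -, rfl⟩, -⟩ | ⟨-, h⟩
    · exact absurd (h.symm.trans hd) (fun e => (Nat.cast_ne_zero.2 Fintype.card_ne_zero : (Fintype.card F : ℂ) ≠ 0) (by linear_combination -e))
    · exact absurd (h.symm.trans hd) (fun e => one_ne_zero (by linear_combination -e))
    · exact CfsgLib.Lie.GLTwoTable.ps_no_eigen α β g hg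
    · exact absurd (h.symm.trans hd) (fun e => two_ne_zero (α := ℂ) (by linear_combination -e))

end Cfsg.Agent.S2309
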