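import Cfsg.Statements.S2310
import Cfsg.Agent.Lib.LieGLTwoTable

set_option autoImplicit false
open Cfsg

namespace Cfsg.Agent.S2310

/-- Over a finite field F with q ≥ 3 elements, let u be the upper unitriangular matrix of GL₂ with off-diagonal entry 1. An irreducible complex character χ of GL₂ takes at u the value 1 if χ has degree 1 or q + 1, the value −1 if χ has degree q − 1, and the value 0 if χ has degree q. -/
theorem result {F : Type*} [Field F] [Fintype F] (hq : 3 ≤ Fintype.card F) (χ : Matrix.GeneralLinearGroup (Fin 2) F → ℂ) (hχ : Cfsg.IsIrrCharacter (Matrix.GeneralLinearGroup (Fin 2) F) χ)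
    (u : Matrix.GeneralLinearGroup (Fin 2) F) (hu : (u : Matrix (Fin 2) (Fin 2) F) = !![1, 1; 0, 1]) :
    (χ 1 = 1 → χ u = 1) ∧ (χ 1 = (Fintype.card F : ℂ) + 1 → χ u = 1) ∧
    (χ 1 = (Fintype.card F : ℂ) - 1 → χ u = -1) ∧ (χ 1 = (Fintype.card F : ℂ) → χ u = 0) := by
  classical
  have hu' : u = CfsgLib.Lie.GLTwoPS.up 1 1 1 := Units.ext (by rw [hu]; simp [CfsgLib.Lie.GLTwoPS.up_val])
  subst hu'
  have h0 : (Fintype.card F : ℂ) ≠ 0 := Nat.cast_ne_zero.2 (by omega)
  have h1 : (Fintype.card F : ℂ) ≠ 1 := Nat.cast_ne_one.2 (by omega)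
  have h2 : (Fintype.card F : ℂ) ≠ 2 := fun e => by
    have : Fintype.card F = 2 := by exact_mod_cast e
    omega
  rcases CfsgLib.Lie.GLTwoTable.cases_irr χ hχ with ⟨⟨μ, rfl⟩, h⟩ | ⟨⟨μ, rfl⟩, h⟩ | ⟨⟨α, β, -, rfl⟩, h⟩ | ⟨hc, h⟩ <;>
    refine ⟨fun hd => ?_, fun hd => ?_, fun hd => ?_, fun hd => ?_⟩ <;>
    first
      | exact absurd (h.symm.trans hd) (fun e => h0 (by linear_combination e))
      | exact absurd (h.symm.trans hd) (fun e => h0 (by linear_combination -e))
      | exact absurd (h.symm.trans hd) (fun e => h1 (by linear_combination e))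
      | exact absurd (h.symm.trans hd) (fun e => h1 (by linear_combination -e))
      | exact absurd (h.symm.trans hd) (fun e => h2 (by linear_combination e))
      | exact absurd (h.symm.trans hd) (fun e => h2 (by linear_combination -e))
      | exact absurd (h.symm.trans hd) (fun e => one_ne_zero (by linear_combination e))
      | exact absurd (h.symm.trans hd) (fun e => one_ne_zero (by linear_combination -e))
      | exact absurd (h.symm.trans hd) (fun e => two_ne_zero (α := ℂ) (by linear_combination e))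
      | exact absurd (h.symm.trans hd) (fun e => two_ne_zero (α := ℂ) (by linear_combination -e))
      | exact CfsgLib.Lie.GLTwoTable.cusp_u χ hχ hc
      | simp [CfsgLib.Lie.GLTwoTable.st, CfsgLib.Lie.GLTwoTable.lin_up, CfsgLib.Lie.GLTwoPS.ps_up]

end Cfsg.Agent.S2310
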