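import Cfsg.Statements.S2315
import Cfsg.Agent.Lib.LieNilpotentCount

set_option autoImplicit false
open Cfsg

namespace Cfsg.Agent.S2315

/-- Steinberg's count of unipotent elements for the general linear group: over a finite field with q elements of characteristic p, the number of elements of GL_n of p-power order (the unipotent matrices) is q^(n(n−1)). -/
theorem result {F : Type*} [Field F] [Fintype F] (p : ℕ) [Fact p.Prime] [CharP F p] (n : ℕ) :
    Nat.card {g : Matrix.GeneralLinearGroup (Fin n) F // ∃ k : ℕ, orderOf g = p ^ k} = Fintype.card F ^ (n * (n - 1)) := by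
  classical
  rw [← CfsgLib.Lie.NilpotentCount.card_nil (F := F) n]
  rcases Nat.eq_zero_or_pos n with hn | hn
  · subst hn
    haveI : Subsingleton (GL (Fin 0) F) := ⟨fun a b => Units.ext (Subsingleton.elim _ _)⟩
    haveI : Unique {g : GL (Fin 0) F // ∃ k : ℕ, orderOf g = p ^ k} :=
      ⟨⟨⟨1, 0, by simp⟩⟩, fun g => Subtype.ext (Subsingleton.elim _ _)⟩
    haveI : Unique (CfsgLib.Lie.NilpotentCount.Nil F 0) :=
      ⟨⟨⟨0, IsNilpotent.zero⟩⟩, fun g => Subtype.ext (Subsingleton.elim _ _)⟩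
    rw [Nat.card_unique, Nat.card_unique]
  haveI : Nonempty (Fin n) := ⟨⟨0, hn⟩⟩
  haveI : CharP (Matrix (Fin n) (Fin n) F) p :=
    charP_of_injective_ringHom (algebraMap F (Matrix (Fin n) (Fin n) F)).injective p
  have hfwd : ∀ g : GL (Fin n) F, (∃ k : ℕ, orderOf g = p ^ k) →
      IsNilpotent ((g : Matrix (Fin n) (Fin n) F) - 1) := by
    rintro g ⟨k, hk⟩
    refine ⟨p ^ k, ?_⟩
    rw [sub_pow_char_pow_of_commute _ _ (Commute.one_right _), one_pow, ← Units.val_pow_eq_pow_val,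
      ← hk, pow_orderOf_eq_one, Units.val_one, sub_self]
  have hback : ∀ A : CfsgLib.Lie.NilpotentCount.Nil F n, ∃ k, (1 + A.1) ^ p ^ k = 1 := by
    rintro ⟨A, m, hm⟩
    refine ⟨m, ?_⟩
    rw [add_pow_char_pow_of_commute _ _ (Commute.one_left _), one_pow,
      pow_eq_zero_of_le (Nat.lt_pow_self (Fact.out : p.Prime).one_lt).le hm, add_zero]
  refine Nat.card_eq_of_bijective
    (fun g => (⟨(g.1 : Matrix (Fin n) (Fin n) F) - 1, hfwd g.1 g.2⟩ : CfsgLib.Lie.NilpotentCount.Nil F n))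
    ⟨fun g h e => Subtype.ext (Units.ext (sub_left_inj.1 (congrArg Subtype.val e))), fun A => ?_⟩
  obtain ⟨k, hk⟩ := hback A
  have hu : IsUnit (1 + A.1) := IsUnit.of_pow_eq_one hk (pow_ne_zero _ (Fact.out : p.Prime).ne_zero)
  have hg : hu.unit ^ p ^ k = 1 := Units.ext (by rw [Units.val_pow_eq_pow_val, IsUnit.unit_spec]; exact hk)
  obtain ⟨j, -, hj⟩ := (Nat.dvd_prime_pow Fact.out).1 (orderOf_dvd_of_pow_eq_one hg)
  refine ⟨⟨hu.unit, j, hj⟩, Subtype.ext ?_⟩
  show (hu.unit : Matrix (Fin n) (Fin n) F) - 1 = A.1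
  rw [IsUnit.unit_spec, add_sub_cancel_left]

end Cfsg.Agent.S2315
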