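import Cfsg.Statements.S2317
import Cfsg.Agent.Lib.LieGLUnipotent

set_option autoImplicit false
open Cfsg CfsgLib.Lie.GLUnipotent

namespace Cfsg.Agent.S2317

section

open scoped MatrixGroups

variable {F : Type*} [Field F] (p : ℕ) [Fact p.Prime] [CharP F p] (n : ℕ)

/-- The unipotent element of a given type. -/
theorem exists_unipotent (P : Nat.Partition n) :
    ∃ g : GL (Fin n) F, (∃ k : ℕ, orderOf g = p ^ k) ∧
      HasType (Matrix.toLinAlgEquiv' (g : Matrix (Fin n) (Fin n) F)) P.parts (fun i => (i : ℕ)) := by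
  classical
  have hsum : ∑ i : P.parts, (i : ℕ) = n := by
    have h : ∑ i : P.parts, (i : ℕ) = P.parts.sum := by
      show (Multiset.map (fun i : P.parts => (i : ℕ)) _).sum = _
      rw [Multiset.map_univ_coe]
    exact h.trans P.parts_sum
  obtain ⟨f, hf⟩ := realize (F := F) n (fun i : P.parts => (i : ℕ)) hsum
  have hnil : (f - 1) ^ n = 0 := by
    have h := finrank_range_pow hf n
    rw [Finset.sum_eq_zero fun (i : P.parts) _ =>
      Nat.sub_eq_zero_of_le (((Finset.single_le_sum (fun (j : P.parts) _ => Nat.zero_le (j : ℕ)) (Finset.mem_univ i))).trans hsum.le),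
      Submodule.finrank_eq_zero] at h
    exact LinearMap.range_eq_bot.1 h
  have hf1 : f ^ p ^ n = 1 := by
    have hle : n ≤ p ^ n := (Nat.lt_pow_self (Fact.out : p.Prime).one_lt).le
    have h2 : (f - 1) ^ p ^ n = 0 := pow_eq_zero_of_le hle hnil
    rcases Nat.eq_zero_or_pos n with hn | hn
    · subst hn
      exact Subsingleton.elim _ _
    haveI : Nontrivial (Module.End F (Fin n → F)) := by
      haveI : Nonempty (Fin n) := ⟨⟨0, hn⟩⟩
      infer_instance
    haveI : CharP (Module.End F (Fin n → F)) p :=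
      charP_of_injective_ringHom (algebraMap F (Module.End F (Fin n → F))).injective p
    rwa [sub_pow_char_pow_of_commute _ _ (Commute.one_right f), one_pow, sub_eq_zero] at h2
  set M := Matrix.toLinAlgEquiv'.symm f with hM
  have hMp : M ^ p ^ n = 1 := by rw [hM, ← map_pow, hf1, map_one]
  have hu : IsUnit M := IsUnit.of_pow_eq_one hMp (pow_ne_zero _ (Fact.out : p.Prime).ne_zero)
  refine ⟨hu.unit, ?_, ?_⟩
  · obtain ⟨k, -, hk⟩ := (Nat.dvd_prime_pow Fact.out).1 (orderOf_dvd_of_pow_eq_one
      (show hu.unit ^ p ^ n = 1 from Units.ext (by rw [Units.val_pow_eq_pow_val, IsUnit.unit_spec]; exact hMp)))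
    exact ⟨k, hk⟩
  · rw [IsUnit.unit_spec, hM, AlgEquiv.apply_symm_apply]
    exact hf

end

/-- Over a finite field of characteristic p, the conjugacy classes of GL_n consisting of elements of p-power order (the unipotent classes) are as many as the partitions of n. -/
theorem result {F : Type*} [Field F] [Fintype F] (p : ℕ) [Fact p.Prime] [CharP F p] (n : ℕ) :
    Nat.card {C : ConjClasses (Matrix.GeneralLinearGroup (Fin n) F) //
      ∃ g : Matrix.GeneralLinearGroup (Fin n) F, (∃ k : ℕ, orderOf g = p ^ k) ∧ ConjClasses.mk g = C} =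
      Fintype.card (Nat.Partition n) := by
  classical
  rw [← Nat.card_eq_fintype_card]
  choose g hgp hgt using exists_unipotent (F := F) p n
  symm
  refine Nat.card_eq_of_bijective
    (fun P => ⟨ConjClasses.mk (g P), g P, hgp P, rfl⟩) ⟨fun P Q h => ?_, fun C => ?_⟩
  · obtain ⟨u, hu⟩ := isConj_iff.1 (ConjClasses.mk_eq_mk_iff_isConj.1 (congrArg Subtype.val h))
    let L : (Fin n → F) ≃ₗ[F] (Fin n → F) :=
      LinearEquiv.ofLinear (Matrix.toLin' (u : Matrix (Fin n) (Fin n) F))
        (Matrix.toLin' ((u⁻¹ : GL (Fin n) F) : Matrix (Fin n) (Fin n) F))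
        (by rw [← Matrix.toLin'_mul, Units.mul_inv, Matrix.toLin'_one])
        (by rw [← Matrix.toLin'_mul, Units.inv_mul, Matrix.toLin'_one])
    have hL : ∀ x, L (Matrix.toLinAlgEquiv' (g P : Matrix (Fin n) (Fin n) F) x) =
        Matrix.toLinAlgEquiv' (g Q : Matrix (Fin n) (Fin n) F) (L x) := by
      intro x
      show Matrix.toLin' _ (Matrix.toLin' _ x) = Matrix.toLin' _ (Matrix.toLin' _ x)
      rw [← Matrix.toLin'_mul_apply, ← Matrix.toLin'_mul_apply, ← Units.val_mul, ← Units.val_mul,
        mul_inv_eq_iff_eq_mul.1 hu]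
    have hP : HasType (Matrix.toLinAlgEquiv' (g P : Matrix (Fin n) (Fin n) F)) Q.parts (fun i => (i : ℕ)) :=
      type_of_conj L hL (hgt Q)
    have hk : ∀ k, 1 ≤ k → P.parts.count k = Q.parts.count k := by
      intro k hk
      have h1 := count_of_rank (fun i : P.parts => (i : ℕ)) k hk
      have h2 := count_of_rank (fun i : Q.parts => (i : ℕ)) k hk
      simp only [← finrank_range_pow (hgt P), Multiset.map_univ_coe] at h1
      simp only [← finrank_range_pow hP, Multiset.map_univ_coe] at h2
      omega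
    refine Nat.Partition.ext (Multiset.ext.2 fun k => ?_)
    rcases Nat.eq_zero_or_pos k with rfl | hk'
    · rw [Multiset.count_eq_zero.2 fun h => (P.parts_pos h).ne' rfl,
        Multiset.count_eq_zero.2 fun h => (Q.parts_pos h).ne' rfl]
    · exact hk k hk'
  · obtain ⟨C, h, ⟨k, hk⟩, rfl⟩ := C
    set f := Matrix.toLinAlgEquiv' (h : Matrix (Fin n) (Fin n) F) with hfdef
    have hf1 : f ^ p ^ k = 1 := by
      rw [hfdef, ← map_pow, ← Units.val_pow_eq_pow_val, ← hk, pow_orderOf_eq_one, Units.val_one, map_one]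
    have hnil : (f - 1) ^ p ^ k = 0 := by
      rcases Nat.eq_zero_or_pos n with hn | hn
      · subst hn
        exact Subsingleton.elim _ _
      haveI : Nonempty (Fin n) := ⟨⟨0, hn⟩⟩
      haveI : CharP (Module.End F (Fin n → F)) p :=
        charP_of_injective_ringHom (algebraMap F (Module.End F (Fin n → F))).injective p
      rw [sub_pow_char_pow_of_commute _ _ (Commute.one_right f), one_pow, hf1, sub_self]
    obtain ⟨ι, _, e, hpos, htype⟩ := exists_type f hnil
    have hsum : ∑ i, e i = n := by
      have h0 := finrank_range_pow htype 0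
      simp only [Nat.sub_zero] at h0
      rw [← h0, show ((f - 1) ^ 0) = LinearMap.id from pow_zero _, LinearMap.range_id, finrank_top, Module.finrank_fin_fun]
    let P : Nat.Partition n :=
      ⟨Finset.univ.val.map e, fun {i} hi => by obtain ⟨j, _, rfl⟩ := Multiset.mem_map.1 hi; exact hpos j, hsum⟩
    refine ⟨P, Subtype.ext ?_⟩
    obtain ⟨L, hL⟩ := conj_of_type (hgt P) htype (by rw [Multiset.map_univ_coe])
    let PM : GL (Fin n) F := ⟨LinearMap.toMatrix' L.toLinearMap, LinearMap.toMatrix' L.symm.toLinearMap,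
      by rw [← LinearMap.toMatrix'_comp]; simp, by rw [← LinearMap.toMatrix'_comp]; simp⟩
    show ConjClasses.mk (g P) = ConjClasses.mk h
    rw [ConjClasses.mk_eq_mk_iff_isConj, isConj_iff]
    refine ⟨PM, mul_inv_eq_iff_eq_mul.2 (Units.ext ?_)⟩
    refine Matrix.toLin'.injective (LinearMap.ext fun x => ?_)
    show Matrix.toLin' (LinearMap.toMatrix' L.toLinearMap * _) x =
      Matrix.toLin' (_ * LinearMap.toMatrix' L.toLinearMap) x
    rw [Matrix.toLin'_mul_apply, Matrix.toLin'_mul_apply, Matrix.toLin'_toMatrix']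
    exact hL x

end Cfsg.Agent.S2317
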