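import Cfsg.Statements.S2320
import Cfsg.Agent.Lib.LieGLTwoTable

set_option autoImplicit false
open Cfsg

namespace Cfsg.Agent.S2320

/-- Over a finite field F with q elements, every irreducible complex character of GL₂ of degree q takes a value of absolute value 1 at every diagonal matrix with two different diagonal entries and at every element with no eigenvector in F². -/
theorem result {F : Type*} [Field F] [Fintype F] (χ : Matrix.GeneralLinearGroup (Fin 2) F → ℂ) (hχ : Cfsg.IsIrrCharacter (Matrix.GeneralLinearGroup (Fin 2) F) χ) (hdeg : χ 1 = (Fintype.card F : ℂ)) (g : Matrix.GeneralLinearGroup (Fin 2) F) :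
    ((g : Matrix (Fin 2) (Fin 2) F) 0 1 = 0 → (g : Matrix (Fin 2) (Fin 2) F) 1 0 = 0 → (g : Matrix (Fin 2) (Fin 2) F) 0 0 ≠ (g : Matrix (Fin 2) (Fin 2) F) 1 1 → ‖χ g‖ = 1) ∧
    ((∀ (c : F) (v : Fin 2 → F), v ≠ 0 → (g : Matrix (Fin 2) (Fin 2) F).mulVec v ≠ c • v) → ‖χ g‖ = 1) := by
  classical
  rcases CfsgLib.Lie.GLTwoTable.cases_irr χ hχ with ⟨-, h⟩ | ⟨⟨μ, rfl⟩, -⟩ | ⟨-, h⟩ | ⟨-, h⟩
  · exact absurd (h.symm.trans hdeg) (Ne.symm (Nat.cast_ne_one.2 (Fintype.one_lt_card (α := F)).ne'))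
  · refine ⟨fun h01 h10 hne => ?_, fun hg => ?_⟩
    · obtain ⟨a, d, hup, ha, hd⟩ := CfsgLib.Lie.GLTwoTable.eq_up_of_diag g h10
      rw [h01] at hup
      have had : (a : F) ≠ d := by rwa [ha, hd]
      rw [hup, CfsgLib.Lie.GLTwoTable.st, Pi.sub_apply, CfsgLib.Lie.GLTwoPS.ps_up, if_pos had, CfsgLib.Lie.GLTwoTable.lin_up,
        mul_comm (μ (d : F)), add_sub_cancel_right, norm_mul, CfsgLib.Lie.GLTwoTable.norm_apply, CfsgLib.Lie.GLTwoTable.norm_apply, one_mul]
    · rw [CfsgLib.Lie.GLTwoTable.st, Pi.sub_apply, CfsgLib.Lie.GLTwoTable.ps_no_eigen μ μ g hg, zero_sub, norm_neg]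
      exact CfsgLib.Lie.GLTwoTable.norm_apply μ _
  · exact absurd (h.symm.trans hdeg) (fun e => one_ne_zero (by linear_combination e))
  · exact absurd (h.symm.trans hdeg) (fun e => one_ne_zero (by linear_combination -e))

end Cfsg.Agent.S2320
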