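import Cfsg.Statements.S2321
import Cfsg.Agent.Lib.LieSLTwoTableCases

set_option autoImplicit false
open Cfsg

namespace Cfsg.Agent.S2321

/-- Over a finite field F with q elements, an irreducible complex character of SL₂ of degree q (the Steinberg character) takes the value 1 at every diagonal matrix whose diagonal entry a has a² ≠ 1, the value −1 at every element with no eigenvector in F², and the value 0 at every upper triangular matrix with equal diagonal entries and non-zero upper right entry. -/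
theorem result {F : Type*} [Field F] [Fintype F] (χ : Matrix.SpecialLinearGroup (Fin 2) F → ℂ) (hχ : Cfsg.IsIrrCharacter (Matrix.SpecialLinearGroup (Fin 2) F) χ) (hdeg : χ 1 = (Fintype.card F : ℂ)) (g : Matrix.SpecialLinearGroup (Fin 2) F) :
    ((g : Matrix (Fin 2) (Fin 2) F) 0 1 = 0 → (g : Matrix (Fin 2) (Fin 2) F) 1 0 = 0 → (g : Matrix (Fin 2) (Fin 2) F) 0 0 ^ 2 ≠ 1 → χ g = 1) ∧
    ((∀ (c : F) (v : Fin 2 → F), v ≠ 0 → (g : Matrix (Fin 2) (Fin 2) F).mulVec v ≠ c • v) → χ g = -1) ∧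
    ((g : Matrix (Fin 2) (Fin 2) F) 1 0 = 0 → (g : Matrix (Fin 2) (Fin 2) F) 0 0 = (g : Matrix (Fin 2) (Fin 2) F) 1 1 → (g : Matrix (Fin 2) (Fin 2) F) 0 1 ≠ 0 → χ g = 0) := by
  classical
  open CfsgLib.Lie.SLTwoTable CfsgLib.Lie.SLTwoPS in
  have hst : χ = st := by
    have hq : 1 < Fintype.card F := Fintype.one_lt_card
    by_cases hodd : Odd (Fintype.card F)
    · obtain ⟨ε, hε⟩ := exists_eps hodd
      rcases kinds_odd hodd ε hε χ hχ with ⟨-, h⟩ | ⟨h, -⟩ | ⟨-, h⟩ | ⟨h, -⟩ | ⟨h, -⟩ | ⟨h, -⟩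
      all_goals first
        | exact h
        | (exfalso; have := Nat.cast_inj.1 (h.symm.trans hdeg); rw [Nat.odd_iff] at hodd; omega)
    · haveI := charTwo_of_not_odd hodd
      rcases kinds_even χ hχ with ⟨-, h⟩ | ⟨h, -⟩ | ⟨-, h⟩ | ⟨h, -⟩
      all_goals first
        | exact h
        | (exfalso; have := Nat.cast_inj.1 (h.symm.trans hdeg); omega)
  subst hst
  have hone : ∀ x : F, x ≠ 0 → (1 : MulChar F ℂ) x = 1 := fun x hx => MulChar.one_apply hx.isUnit
  have hd := CfsgLib.Dickson.det_eq g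
  have hv := CfsgLib.Lie.SLTwoPrincipal.values (1 : MulChar F ℂ) g
  refine ⟨fun h01 h10 ha => ?_, fun hg => ?_, fun h10 he h01 => ?_⟩
  · rw [h01, zero_mul, sub_zero] at hd
    rw [CfsgLib.Lie.SLTwoTable.st_apply, CfsgLib.Lie.SLTwoPS.ps, hv.1 h01 h10 ha, hone _ (fun e => by rw [e] at hd; simp at hd),
      hone _ (fun e => by rw [e] at hd; simp at hd)]
    ring
  · rw [CfsgLib.Lie.SLTwoTable.st_apply, CfsgLib.Lie.SLTwoTable.ps_no_eigen 1 hg]
    ring
  · rw [h10, mul_zero, sub_zero] at hd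
    rw [CfsgLib.Lie.SLTwoTable.st_apply, CfsgLib.Lie.SLTwoPS.ps, hv.2.2.1 h10 he h01, hone _ (fun e => by rw [e] at hd; simp at hd)]
    ring

end Cfsg.Agent.S2321
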