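import Cfsg.Statements.S2322
import Cfsg.Agent.Lib.LieSLTwoCuspidalTable

set_option autoImplicit false
open Cfsg

namespace Cfsg.Agent.S2322

/-- Over a finite field F with q elements, q odd: every irreducible complex character of SL₂ of degree q − 1 or (q − 1)/2 vanishes at every diagonal matrix whose diagonal entry a has a² ≠ 1, and every irreducible complex character of degree q + 1 or (q + 1)/2 vanishes at every element with no eigenvector in F². -/
theorem result {F : Type*} [Field F] [Fintype F] (hodd : Odd (Fintype.card F)) (χ : Matrix.SpecialLinearGroup (Fin 2) F → ℂ) (hχ : Cfsg.IsIrrCharacter (Matrix.SpecialLinearGroup (Fin 2) F) χ) (g : Matrix.SpecialLinearGroup (Fin 2) F) :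
    ((χ 1 = (Fintype.card F : ℂ) - 1 ∨ χ 1 = (((Fintype.card F - 1) / 2 : ℕ) : ℂ)) →
      (g : Matrix (Fin 2) (Fin 2) F) 0 1 = 0 → (g : Matrix (Fin 2) (Fin 2) F) 1 0 = 0 → (g : Matrix (Fin 2) (Fin 2) F) 0 0 ^ 2 ≠ 1 → χ g = 0) ∧
    ((χ 1 = (Fintype.card F : ℂ) + 1 ∨ χ 1 = (((Fintype.card F + 1) / 2 : ℕ) : ℂ)) →
      (∀ (c : F) (v : Fin 2 → F), v ≠ 0 → (g : Matrix (Fin 2) (Fin 2) F).mulVec v ≠ c • v) → χ g = 0) := by
  classical
  have hm := Nat.odd_iff.1 hodd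
  have hq1 : 1 < Fintype.card F := Fintype.one_lt_card
  obtain ⟨ε, hε⟩ := CfsgLib.Lie.SLTwoTable.exists_eps hodd
  have hd := CfsgLib.Dickson.det_eq g
  refine ⟨fun hdeg h01 h10 ha => ?_, fun hdeg hg => ?_⟩
  · rw [h01, zero_mul, sub_zero] at hd
    have h00 : g.1 0 0 ≠ 0 := fun e => by rw [e, zero_mul] at hd; exact zero_ne_one hd
    have h5 : 5 ≤ Fintype.card F := by
      by_contra h
      refine ha ?_
      have := FiniteField.pow_card_sub_one_eq_one _ h00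
      rwa [show Fintype.card F - 1 = 2 by omega] at this
    have hgup : g = CfsgLib.Lie.SLTwoPS.up (Units.mk0 _ h00) 0 := by
      refine CfsgLib.Dickson.sl_ext ?_ ?_ ?_ ?_ <;> simp [CfsgLib.Lie.SLTwoPS.up, h01, h10]
      exact eq_inv_of_mul_eq_one_right hd
    rw [CfsgLib.Lie.SLTwoTable.cast_q_sub_one] at hdeg
    have hav : CfsgLib.Lie.SLTwoTable.avg χ 1 = 0 := by
      rcases CfsgLib.Lie.SLTwoTable.kinds_odd hodd ε hε χ hχ with ⟨-, h⟩ | ⟨-, h⟩ | ⟨-, h⟩ | ⟨h, -⟩ | ⟨-, hav, -⟩ | ⟨-, hav, -⟩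
      all_goals first
        | exact hav
        | (exfalso; rcases hdeg with e | e <;> have := Nat.cast_inj.1 (h.symm.trans e) <;> omega)
    rw [hgup, ← CfsgLib.Lie.SLTwoTable.avg_regular (CfsgLib.Char.isCharacter_classFunction hχ.isCharacter') _ ha]
    exact ((CfsgLib.Lie.SLTwoTable.dich χ hχ.isCharacter').1 hav).1 _
  · have hs := CfsgLib.Lie.SLTwoTable.no_eigen_data hg
    rw [CfsgLib.Lie.SLTwoTable.cast_q_add_one] at hdeg
    rcases CfsgLib.Lie.SLTwoTable.kinds_odd hodd ε hε χ hχ with ⟨-, h⟩ | ⟨-, h⟩ | ⟨⟨α, -, rfl⟩, -⟩ | ⟨-, -, -, -, hv⟩ | ⟨h, hav, -⟩ | ⟨h, -⟩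
    case inr.inr.inl => exact CfsgLib.Lie.SLTwoTable.ps_no_eigen α hg
    case inr.inr.inr.inl =>
      have e := hv g hs.1 hs.2
      rw [CfsgLib.Lie.SLTwoTable.ps_no_eigen _ hg] at e
      exact (mul_eq_zero.1 e).resolve_left two_ne_zero
    case inr.inr.inr.inr.inl =>
      have h3 : Fintype.card F = 3 := by rcases hdeg with e | e <;> have := Nat.cast_inj.1 (h.symm.trans e) <;> omega
      obtain ⟨C, hC, hcard, hgC⟩ := CfsgLib.Lie.SLTwoCusp.exists_torus_of_no_eig hodd (CfsgLib.Lie.SLTwoCusp.not_hasEig_iff.2 hg)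
      haveI := hC
      obtain ⟨T, -, hT, hTp, -⟩ := CfsgLib.Lie.SLTwoCusp.param hodd C hcard
      obtain ⟨ω, θ, hθ, -, e⟩ := hTp ⟨χ, hχ⟩ ((hT _).2 ⟨by rw [CfsgLib.Lie.SLTwoTable.cast_q_sub_one]; exact h, hav⟩)
      have hX := CfsgLib.Lie.SLTwoCusp.X_torus hodd C hcard ω θ ⟨g, hgC⟩ hs.1
      rw [CfsgLib.Lie.SLTwoCusp.three_torus hodd C hcard h3 θ hθ ⟨g, hgC⟩ hs.1, neg_zero] at hX
      rw [show χ = _ from e]
      exact hX
    all_goals exfalso; rcases hdeg with e | e <;> have := Nat.cast_inj.1 (h.symm.trans e) <;> omega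

end Cfsg.Agent.S2322
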