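import Cfsg.Statements.S2323
import Cfsg.Agent.Lib.LieSLTwoTableCases

set_option autoImplicit false
open Cfsg

namespace Cfsg.Agent.S2323

/-- Over a finite field F with q ≥ 4 elements, let u be the upper unitriangular matrix of SL₂ with off-diagonal entry 1. An irreducible complex character of SL₂ takes at u the value 1 if its degree is q + 1 and the value −1 if its degree is q − 1. -/
theorem result {F : Type*} [Field F] [Fintype F] (hq : 4 ≤ Fintype.card F) (χ : Matrix.SpecialLinearGroup (Fin 2) F → ℂ) (hχ : Cfsg.IsIrrCharacter (Matrix.SpecialLinearGroup (Fin 2) F) χ)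
    (u : Matrix.SpecialLinearGroup (Fin 2) F) (hu : (u : Matrix (Fin 2) (Fin 2) F) = !![1, 1; 0, 1]) :
    (χ 1 = (Fintype.card F : ℂ) + 1 → χ u = 1) ∧ (χ 1 = (Fintype.card F : ℂ) - 1 → χ u = -1) := by
  classical
  open CfsgLib.Lie.SLTwoTable CfsgLib.Lie.SLTwoPS in
  have key : (χ 1 = ((Fintype.card F + 1 : ℕ) : ℂ) → χ u = 1) ∧ (χ 1 = ((Fintype.card F - 1 : ℕ) : ℂ) → χ u = -1) := by
    obtain rfl := eq_upperU hu
    have hps : ∀ α : MulChar F ℂ, ps α (CfsgLib.Dickson.upperU 1) = 1 := fun α => by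
      rw [ps, (CfsgLib.Lie.SLTwoPrincipal.values α _).2.2.1 (by simp [CfsgLib.Dickson.coe_upperU]) (by simp [CfsgLib.Dickson.coe_upperU]) (by simp [CfsgLib.Dickson.coe_upperU])]
      simp [CfsgLib.Dickson.coe_upperU]
    by_cases hodd : Odd (Fintype.card F)
    · have hm := Nat.odd_iff.1 hodd
      obtain ⟨ε, hε⟩ := exists_eps hodd
      rcases kinds_odd hodd ε hε χ hχ with ⟨-, h⟩ | ⟨-, h⟩ | ⟨⟨α, -, rfl⟩, h⟩ | ⟨h, -⟩ | ⟨h, -, hu', -⟩ | ⟨h, -⟩ <;>
        refine ⟨fun hd => ?_, fun hd => ?_⟩ <;>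
        first
          | exact hps α
          | exact hu'
          | (exfalso; have := Nat.cast_inj.1 (h.symm.trans hd); omega)
    · haveI := charTwo_of_not_odd hodd
      have := even_card (F := F)
      rcases kinds_even χ hχ with ⟨-, h⟩ | ⟨-, h⟩ | ⟨⟨α, -, rfl⟩, h⟩ | ⟨h, -, hu'⟩ <;>
        refine ⟨fun hd => ?_, fun hd => ?_⟩ <;>
        first
          | exact hps α
          | exact hu'
          | (exfalso; have := Nat.cast_inj.1 (h.symm.trans hd); omega)
  rwa [CfsgLib.Lie.SLTwoTable.cast_q_add_one, CfsgLib.Lie.SLTwoTable.cast_q_sub_one]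

end Cfsg.Agent.S2323
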