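import Cfsg.Statements.S2324
import Cfsg.Agent.Lib.LieSLTwoTableCases

set_option autoImplicit false
open Cfsg

namespace Cfsg.Agent.S2324

/-- Over a finite field F with q elements, q odd and q ≥ 5, let u be the upper unitriangular matrix of SL₂ with off-diagonal entry 1 and let δ = (−1)^((q−1)/2). Every irreducible complex character χ of SL₂ of degree (q + 1)/2 satisfies (2χ(u) − 1)² = δq, and every irreducible complex character χ of degree (q − 1)/2 satisfies (2χ(u) + 1)² = δq; that is, χ(u) = (1 ± √(δq))/2 in the first case and χ(u) = (−1 ± √(δq))/2 in the second. Moreover two different irreducible characters of degree (q + 1)/2 take the two different values (their values at u add up to 1), and likewise for degree (q − 1)/2 (values adding up to −1). -/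
theorem result {F : Type*} [Field F] [Fintype F] (hodd : Odd (Fintype.card F)) (hq : 5 ≤ Fintype.card F)
    (u : Matrix.SpecialLinearGroup (Fin 2) F) (hu : (u : Matrix (Fin 2) (Fin 2) F) = !![1, 1; 0, 1]) :
    (∀ χ : Matrix.SpecialLinearGroup (Fin 2) F → ℂ, Cfsg.IsIrrCharacter (Matrix.SpecialLinearGroup (Fin 2) F) χ → χ 1 = (((Fintype.card F + 1) / 2 : ℕ) : ℂ) → (2 * χ u - 1) ^ 2 = (-1 : ℂ) ^ ((Fintype.card F - 1) / 2) * (Fintype.card F : ℂ)) ∧
    (∀ χ : Matrix.SpecialLinearGroup (Fin 2) F → ℂ, Cfsg.IsIrrCharacter (Matrix.SpecialLinearGroup (Fin 2) F) χ → χ 1 = (((Fintype.card F - 1) / 2 : ℕ) : ℂ) → (2 * χ u + 1) ^ 2 = (-1 : ℂ) ^ ((Fintype.card F - 1) / 2) * (Fintype.card F : ℂ)) ∧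
    (∀ χ₁ χ₂ : Matrix.SpecialLinearGroup (Fin 2) F → ℂ, Cfsg.IsIrrCharacter (Matrix.SpecialLinearGroup (Fin 2) F) χ₁ → Cfsg.IsIrrCharacter (Matrix.SpecialLinearGroup (Fin 2) F) χ₂ → χ₁ ≠ χ₂ →
      χ₁ 1 = (((Fintype.card F + 1) / 2 : ℕ) : ℂ) → χ₂ 1 = (((Fintype.card F + 1) / 2 : ℕ) : ℂ) → χ₁ u + χ₂ u = 1) ∧
    (∀ χ₁ χ₂ : Matrix.SpecialLinearGroup (Fin 2) F → ℂ, Cfsg.IsIrrCharacter (Matrix.SpecialLinearGroup (Fin 2) F) χ₁ → Cfsg.IsIrrCharacter (Matrix.SpecialLinearGroup (Fin 2) F) χ₂ → χ₁ ≠ χ₂ →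
      χ₁ 1 = (((Fintype.card F - 1) / 2 : ℕ) : ℂ) → χ₂ 1 = (((Fintype.card F - 1) / 2 : ℕ) : ℂ) → χ₁ u + χ₂ u = -1) := by
  classical
  open CfsgLib.Lie.SLTwoTable in
  obtain ⟨ε, hε⟩ := exists_eps hodd
  obtain rfl := CfsgLib.Lie.SLTwoTable.eq_upperU hu
  have hm := Nat.odd_iff.1 hodd
  rw [← CfsgLib.Lie.SLTwoTable.sgn_neg_one hodd]
  obtain ⟨η, η', ξ, ξ', C, -, ht, -, ht', -, hSη, hSξ, d1, d2, d3, d4, hC, hall⟩ := CfsgLib.Lie.SLTwoTable.table_deg hodd ε hε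
  have hcl : ∀ χ : Cfsg.IrrCharacter (Matrix.SpecialLinearGroup (Fin 2) F),
      ((χ : Matrix.SpecialLinearGroup (Fin 2) F → ℂ) 1 = (((Fintype.card F + 1) / 2 : ℕ) : ℂ) → χ = η ∨ χ = η') ∧
      ((χ : Matrix.SpecialLinearGroup (Fin 2) F → ℂ) 1 = (((Fintype.card F - 1) / 2 : ℕ) : ℂ) → χ = ξ ∨ χ = ξ') := by
    intro χ
    rcases hall χ with h | h | h | h | h | h | h | h
    · have h1 : (χ : Matrix.SpecialLinearGroup (Fin 2) F → ℂ) 1 = ((1 : ℕ) : ℂ) := by rw [h]; simp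
      constructor <;> intro hd <;> exfalso <;> have := Nat.cast_inj.1 (h1.symm.trans hd) <;> omega
    · have h1 : (χ : Matrix.SpecialLinearGroup (Fin 2) F → ℂ) 1 = ((Fintype.card F : ℕ) : ℂ) := by rw [h, CfsgLib.Lie.SLTwoTable.st_one]
      constructor <;> intro hd <;> exfalso <;> have := Nat.cast_inj.1 (h1.symm.trans hd) <;> omega
    · obtain ⟨α, -, e⟩ := (CfsgLib.Lie.SLTwoTable.mem_psSet χ).1 h
      have h1 : (χ : Matrix.SpecialLinearGroup (Fin 2) F → ℂ) 1 = ((Fintype.card F + 1 : ℕ) : ℂ) := by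
        rw [e, CfsgLib.Lie.SLTwoPS.ps_one, CfsgLib.Lie.SLTwoTable.cast_q_add_one]
      constructor <;> intro hd <;> exfalso <;> have := Nat.cast_inj.1 (h1.symm.trans hd) <;> omega
    · subst h
      exact ⟨fun _ => Or.inl rfl, fun hd => by exfalso; have := Nat.cast_inj.1 (d1.symm.trans hd); omega⟩
    · subst h
      exact ⟨fun _ => Or.inr rfl, fun hd => by exfalso; have := Nat.cast_inj.1 (d2.symm.trans hd); omega⟩
    · constructor <;> intro hd <;> exfalso <;> have := Nat.cast_inj.1 ((hC χ h).symm.trans hd) <;> omega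
    · subst h
      exact ⟨fun hd => by exfalso; have := Nat.cast_inj.1 (d3.symm.trans hd); omega, fun _ => Or.inl rfl⟩
    · subst h
      exact ⟨fun hd => by exfalso; have := Nat.cast_inj.1 (d4.symm.trans hd); omega, fun _ => Or.inr rfl⟩
  open CfsgLib.Lie.SLTwoTable in
  refine ⟨fun χ hχ hd => ?_, fun χ hχ hd => ?_, fun χ₁ χ₂ h₁ h₂ hne e₁ e₂ => ?_, fun χ₁ χ₂ h₁ h₂ hne e₁ e₂ => ?_⟩
  · rcases kinds_odd hodd ε hε χ hχ with ⟨-, h⟩ | ⟨-, h⟩ | ⟨-, h⟩ | ⟨-, hS, hD, -⟩ | ⟨h, -⟩ | ⟨h, -⟩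
    all_goals first
      | (rw [← hD]; unfold S at hS; unfold D; linear_combination (2 * χ (CfsgLib.Dickson.upperU 1) - 1 + (χ (CfsgLib.Dickson.upperU 1) - χ (CfsgLib.Dickson.upperU (ε : F)))) * hS)
      | (exfalso; have := Nat.cast_inj.1 (h.symm.trans hd); omega)
  · rcases kinds_odd hodd ε hε χ hχ with ⟨-, h⟩ | ⟨-, h⟩ | ⟨-, h⟩ | ⟨h, -⟩ | ⟨h, -⟩ | ⟨-, -, hS, hD⟩
    all_goals first
      | (rw [← hD]; unfold S at hS; unfold D; linear_combination (2 * χ (CfsgLib.Dickson.upperU 1) + 1 + (χ (CfsgLib.Dickson.upperU 1) - χ (CfsgLib.Dickson.upperU (ε : F)))) * hS)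
      | (exfalso; have := Nat.cast_inj.1 (h.symm.trans hd); omega)
  · unfold S at hSη
    have e : (η' : Matrix.SpecialLinearGroup (Fin 2) F → ℂ) (CfsgLib.Dickson.upperU 1) = (η : Matrix.SpecialLinearGroup (Fin 2) F → ℂ) (CfsgLib.Dickson.upperU (ε : F)) := by
      rw [ht, twist_upperU, mul_one]
    rcases (hcl ⟨χ₁, h₁⟩).1 e₁ with a | a <;> rcases (hcl ⟨χ₂, h₂⟩).1 e₂ with b | b <;>
      have a' := congrArg Subtype.val a <;> have b' := congrArg Subtype.val b <;> simp only at a' b'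
    · exact absurd (a'.trans b'.symm) hne
    · rw [a', b', e]; exact hSη
    · rw [a', b', e, add_comm]; exact hSη
    · exact absurd (a'.trans b'.symm) hne
  · unfold S at hSξ
    have e : (ξ' : Matrix.SpecialLinearGroup (Fin 2) F → ℂ) (CfsgLib.Dickson.upperU 1) = (ξ : Matrix.SpecialLinearGroup (Fin 2) F → ℂ) (CfsgLib.Dickson.upperU (ε : F)) := by
      rw [ht', twist_upperU, mul_one]
    rcases (hcl ⟨χ₁, h₁⟩).2 e₁ with a | a <;> rcases (hcl ⟨χ₂, h₂⟩).2 e₂ with b | b <;>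
      have a' := congrArg Subtype.val a <;> have b' := congrArg Subtype.val b <;> simp only at a' b'
    · exact absurd (a'.trans b'.symm) hne
    · rw [a', b', e]; exact hSξ
    · rw [a', b', e, add_comm]; exact hSξ
    · exact absurd (a'.trans b'.symm) hne

end Cfsg.Agent.S2324
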