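import Cfsg.Statements.S2329


set_option autoImplicit false
open Cfsg

namespace Cfsg.Agent.S2329

/-- Over a finite field of characteristic p, any two elements of order p of GL₂ are conjugate: there is a single conjugacy class of non-identity unipotent elements. -/
theorem result {F : Type*} [Field F] [Fintype F] (p : ℕ) [Fact p.Prime] [CharP F p] (g h : Matrix.GeneralLinearGroup (Fin 2) F)
    (hg : orderOf g = p) (hh : orderOf h = p) : IsConj g h := by
  classical
  have key : ∀ g : Matrix.GeneralLinearGroup (Fin 2) F, orderOf g = p →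
      ∃ P : Matrix.GeneralLinearGroup (Fin 2) F, (g : Matrix (Fin 2) (Fin 2) F) * (P : Matrix (Fin 2) (Fin 2) F) = (P : Matrix (Fin 2) (Fin 2) F) * !![1, 1; 0, 1] := by
    intro g hg
    haveI : CharP (Matrix (Fin 2) (Fin 2) F) p := charP_of_injective_ringHom (f := Matrix.scalar (Fin 2)) (fun a b h => Matrix.scalar_inj.1 h) p
    set N : Matrix (Fin 2) (Fin 2) F := (g : Matrix (Fin 2) (Fin 2) F) - 1
    have hN : IsNilpotent N := ⟨p, by
      rw [sub_pow_char_of_commute _ (Commute.one_right _), one_pow, ← Units.val_pow_eq_pow_val, ← hg, pow_orderOf_eq_one, Units.val_one, sub_self]⟩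
    have h1 := (Matrix.isNilpotent_charpoly_sub_pow_of_isNilpotent hN).eq_zero
    rw [Fintype.card_fin, sub_eq_zero] at h1
    have hN2 : N ^ 2 = 0 := by
      have h2 := Matrix.aeval_self_charpoly N
      rwa [h1, map_pow, Polynomial.aeval_X] at h2
    obtain ⟨v, hv⟩ : ∃ v, N.mulVec v ≠ 0 := by
      by_contra h
      push Not at h
      have hN0 : N = 0 := Matrix.mulVec_injective (funext fun v => by rw [h v, Matrix.zero_mulVec])
      have : g = 1 := Units.ext (sub_eq_zero.1 hN0)
      rw [this, orderOf_one] at hg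
      exact (Fact.out : p.Prime).ne_one hg.symm
    have hw : N.mulVec (N.mulVec v) = 0 := by rw [Matrix.mulVec_mulVec, ← sq, hN2, Matrix.zero_mulVec]
    let M : Matrix (Fin 2) (Fin 2) F := Matrix.of fun i j => ![N.mulVec v, v] j i
    have hcol : M.col = ![N.mulVec v, v] := rfl
    have hu : IsUnit M := by
      rw [← Matrix.linearIndependent_cols_iff_isUnit, hcol, linearIndependent_fin2]
      simp only [Matrix.cons_val_one, Matrix.cons_val_zero]
      refine ⟨fun e => hv (by rw [e, Matrix.mulVec_zero]), fun a ha => hv ?_⟩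
      have h' := congrArg (N.mulVec) ha
      rw [Matrix.mulVec_smul, hw] at h'
      rcases smul_eq_zero.1 h' with h0 | h0
      · rw [← ha, h0, zero_smul]
      · exact h0
    have hg' : ∀ x, (g : Matrix (Fin 2) (Fin 2) F).mulVec x = x + N.mulVec x := fun x => by
      rw [Matrix.sub_mulVec, Matrix.one_mulVec, add_sub_cancel]
    refine ⟨hu.unit, ?_⟩
    rw [IsUnit.unit_spec]
    ext i j
    have hgi := fun x => congrFun (hg' x) i
    fin_cases j
    · have := hgi (N.mulVec v)
      rw [hw] at this
      simpa [M, Matrix.mul_apply, Matrix.mulVec, dotProduct, Fin.sum_univ_two] using this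
    · have := hgi v
      rw [Pi.add_apply, add_comm] at this
      fin_cases i <;> simpa [M, Matrix.mul_apply, Matrix.mulVec, dotProduct, Fin.sum_univ_two] using this
  obtain ⟨P, hP⟩ := key g hg
  obtain ⟨R, hR⟩ := key h hh
  refine isConj_iff.2 ⟨R * P⁻¹, mul_inv_eq_iff_eq_mul.2 (Units.ext ?_)⟩
  have hP' : ((P⁻¹ : Matrix.GeneralLinearGroup (Fin 2) F) : Matrix (Fin 2) (Fin 2) F) * (g : Matrix (Fin 2) (Fin 2) F) = !![1, 1; 0, 1] * ((P⁻¹ : Matrix.GeneralLinearGroup (Fin 2) F) : Matrix (Fin 2) (Fin 2) F) := by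
    rw [Units.inv_mul_eq_iff_eq_mul, ← mul_assoc, ← hP, mul_assoc, Units.mul_inv, mul_one]
  simp only [Units.val_mul]
  rw [mul_assoc, hP', ← mul_assoc, ← hR, mul_assoc]

end Cfsg.Agent.S2329
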