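import Cfsg.Statements.S2367


set_option autoImplicit false
open Cfsg

namespace Cfsg.Agent.S2367

/-- Let G be an alternating group of degree at least 5 or a simple group with the order of one of the 26 sporadic groups, and let p be an odd prime such that p³ is the exact power of p dividing the order of G. Then p³ is less than the 2-part of the order of G. -/
theorem result {G : Type*} [Group G] [Finite G] (hG : Cfsg.IsAlternating G ∨ Cfsg.IsSporadic G)
    (p : ℕ) (hp : p.Prime) (hodd : p ≠ 2) (h3 : (Nat.card G).factorization p = 3) :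
    p ^ 3 < 2 ^ (Nat.card G).factorization 2 := by
  classical
  have hpow : ∀ k, p ^ k ∣ Nat.card G ↔ k ≤ (Nat.card G).factorization p := fun k => hp.pow_dvd_iff_le_factorization Nat.card_pos.ne'
  have key : ∀ (a : ℕ) (l : List ℕ), (∀ x ∈ l, x.Prime) → 2 ^ a ∣ Nat.card G → Nat.card G ∣ l.prod ^ 60 →
      (∀ x ∈ l, x ≠ 2 → x ^ 3 ∣ Nat.card G → ¬ x ^ 4 ∣ Nat.card G → x ^ 3 < 2 ^ a) → p ^ 3 < 2 ^ (Nat.card G).factorization 2 := by
    intro a l hl h2 hdvd hl2
    have hmem : p ∈ l := by
      have h1 : p ∣ l.prod ^ 60 := (dvd_pow_self p three_ne_zero).trans (((hpow 3).2 (by omega)).trans hdvd)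
      obtain ⟨x, hx, hpx⟩ := (Prime.dvd_prod_iff hp.prime).1 (hp.dvd_of_dvd_pow h1)
      rwa [(Nat.prime_dvd_prime_iff_eq hp (hl x hx)).1 hpx]
    refine (hl2 p hmem hodd ((hpow 3).2 (by omega)) (fun h => by have := (hpow 4).1 h; omega)).trans_le ?_
    exact Nat.pow_le_pow_right two_pos ((Nat.prime_two.pow_dvd_iff_le_factorization Nat.card_pos.ne').1 h2)
  rcases hG with ⟨n, hn, ⟨e⟩⟩ | hs
  · have hc : 2 * Nat.card G = n.factorial := by
      haveI : Nontrivial (Fin n) := Fin.nontrivial_iff_two_le.2 (by omega)
      rw [Nat.card_congr e.toEquiv, two_mul_nat_card_alternatingGroup, Nat.card_perm, Nat.card_fin]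
    have hf2 : n.factorial.factorization 2 = (Nat.card G).factorization 2 + 1 := by
      rw [← hc, Nat.factorization_mul two_ne_zero Nat.card_pos.ne', Nat.Prime.factorization Nat.prime_two]
      simp [add_comm]
    have hfp : n.factorial.factorization p = 3 := by
      rw [← hc, Nat.factorization_mul two_ne_zero Nat.card_pos.ne', Nat.Prime.factorization Nat.prime_two]
      simp [h3, hodd]
    have hp3 : 3 * p ≤ n ∧ 5 ≤ p := by
      have h5 : 5 ≤ p := by
        by_contra hc5
        have := hp.two_le
        have hp3 : p = 3 := by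
          rcases (show p = 3 ∨ p = 4 by omega) with h | h
          · exact h
          · subst h; norm_num at hp
        subst hp3
        rcases Nat.lt_or_ge n 9 with h9 | h9
        · have hlog : Nat.log 3 n < 2 := Nat.log_lt_of_lt_pow (by omega) (by norm_num; omega)
          have := Nat.factorization_factorial hp hlog
          rw [hfp] at this
          simp at this
          omega
        · have h := (hp.pow_dvd_iff_le_factorization (Nat.factorial_ne_zero n)).1 ((show 3 ^ 4 ∣ Nat.factorial 9 by decide).trans (Nat.factorial_dvd_factorial h9))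
          omega
      refine ⟨?_, h5⟩
      by_contra hlt
      have hlog : Nat.log p n < 2 := Nat.log_lt_of_lt_pow (by omega) (by nlinarith)
      have := Nat.factorization_factorial hp hlog
      rw [hfp] at this
      simp at this
      have := (Nat.div_lt_iff_lt_mul hp.pos).2 (show n < 3 * p by omega)
      omega
    have hv2 : n / 2 + n / 4 ≤ n.factorial.factorization 2 := by
      rw [Nat.factorization_factorial Nat.prime_two (b := n + 1) (Nat.lt_succ_of_le (Nat.log_le_self 2 n))]
      refine le_trans (le_of_eq ?_) (Finset.sum_le_sum_of_subset (s := {1, 2}) (fun x hx => ?_))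
      · rw [Finset.sum_pair (by norm_num)]; norm_num
      · simp at hx ⊢; omega
    have hbig : ∀ k, 5 ≤ k → k ^ 3 < 2 ^ (2 * k - 1) := by
      intro k hk
      induction k, hk using Nat.le_induction with
      | base => norm_num
      | succ k hk ih =>
        have h1 : (k + 1) ^ 3 ≤ 4 * k ^ 3 := by nlinarith [Nat.mul_le_mul_right (k * k) hk, Nat.mul_le_mul_right k hk]
        rw [show 2 * (k + 1) - 1 = (2 * k - 1) + 2 by omega, pow_add]
        omega
    exact (hbig p hp3.2).trans_le (Nat.pow_le_pow_right two_pos (by omega))
  · have hlist : ∀ x ∈ [2, 3, 5, 7, 11, 13, 17, 19, 23, 29, 31, 37, 41, 43, 47, 59, 67, 71], Nat.Prime x := by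
      intro x hx; fin_cases hx <;> norm_num
    rcases hs with h | h | h | h | h | h | h | h | h | h | h | h | h | h | h | h | h | h | h | h | h | h | h | h | h | h <;> obtain ⟨-, h⟩ := h
    · exact key 4 _ hlist (by rw [h]; decide) (by rw [h]; decide) (by rw [h]; decide)
    · exact key 6 _ hlist (by rw [h]; decide) (by rw [h]; decide) (by rw [h]; decide)
    · exact key 7 _ hlist (by rw [h]; decide) (by rw [h]; decide) (by rw [h]; decide)
    · exact key 7 _ hlist (by rw [h]; decide) (by rw [h]; decide) (by rw [h]; decide)
    · exact key 10 _ hlist (by rw [h]; decide) (by rw [h]; decide) (by rw [h]; decide)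
    · exact key 3 _ hlist (by rw [h]; decide) (by rw [h]; decide) (by rw [h]; decide)
    · exact key 7 _ hlist (by rw [h]; decide) (by rw [h]; decide) (by rw [h]; decide)
    · exact key 7 _ hlist (by rw [h]; decide) (by rw [h]; decide) (by rw [h]; decide)
    · exact key 21 _ hlist (by rw [h]; decide) (by rw [h]; decide) (by rw [h]; decide)
    · exact key 21 _ hlist (by rw [h]; decide) (by rw [h]; decide) (by rw [h]; decide)
    · exact key 18 _ hlist (by rw [h]; decide) (by rw [h]; decide) (by rw [h]; decide)
    · exact key 10 _ hlist (by rw [h]; decide) (by rw [h]; decide) (by rw [h]; decide)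
    · exact key 17 _ hlist (by rw [h]; decide) (by rw [h]; decide) (by rw [h]; decide)
    · exact key 18 _ hlist (by rw [h]; decide) (by rw [h]; decide) (by rw [h]; decide)
    · exact key 21 _ hlist (by rw [h]; decide) (by rw [h]; decide) (by rw [h]; decide)
    · exact key 9 _ hlist (by rw [h]; decide) (by rw [h]; decide) (by rw [h]; decide)
    · exact key 7 _ hlist (by rw [h]; decide) (by rw [h]; decide) (by rw [h]; decide)
    · exact key 10 _ hlist (by rw [h]; decide) (by rw [h]; decide) (by rw [h]; decide)
    · exact key 14 _ hlist (by rw [h]; decide) (by rw [h]; decide) (by rw [h]; decide)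
    · exact key 13 _ hlist (by rw [h]; decide) (by rw [h]; decide) (by rw [h]; decide)
    · exact key 9 _ hlist (by rw [h]; decide) (by rw [h]; decide) (by rw [h]; decide)
    · exact key 14 _ hlist (by rw [h]; decide) (by rw [h]; decide) (by rw [h]; decide)
    · exact key 8 _ hlist (by rw [h]; decide) (by rw [h]; decide) (by rw [h]; decide)
    · exact key 15 _ hlist (by rw [h]; decide) (by rw [h]; decide) (by rw [h]; decide)
    · exact key 41 _ hlist (by rw [h]; decide) (by rw [h]; decide) (by rw [h]; decide)
    · exact key 46 _ hlist (by rw [h]; decide) (by rw [h]; decide) (by rw [h]; decide)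

end Cfsg.Agent.S2367
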