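import Cfsg.Statements.S2368


set_option autoImplicit false
open Cfsg

namespace Cfsg.Agent.S2368

/-- Let F be a finite field of characteristic p and m ≥ 1. Every element of GL(m, F) of p-power order has order less than p·m, and GL(m, F) has an element of p-power order at least m; so the largest order of a p-element of GL(m, F) is the least power of p that is at least m. -/
theorem result {F : Type*} [Field F] [Fintype F] (p : ℕ) [Fact p.Prime] [CharP F p] (m : ℕ) (hm : 1 ≤ m) :
    (∀ g : Matrix.GeneralLinearGroup (Fin m) F, (∃ j : ℕ, orderOf g = p ^ j) → orderOf g < p * m) ∧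
      ∃ g : Matrix.GeneralLinearGroup (Fin m) F, (∃ j : ℕ, orderOf g = p ^ j) ∧ m ≤ orderOf g := by
  classical
  haveI : Nonempty (Fin m) := ⟨⟨0, hm⟩⟩
  haveI : CharP (Matrix (Fin m) (Fin m) F) p := charP_of_injective_ringHom (f := Matrix.scalar (Fin m)) (fun a b h => Matrix.scalar_inj.1 h) p
  have hp := (Fact.out : p.Prime)
  -- the least power of `p` reaching `m`
  have hex : ∃ e : ℕ, m ≤ p ^ e := ⟨m, (Nat.lt_pow_self hp.one_lt).le⟩
  have hlt : p ^ Nat.find hex < p * m := by
    rcases he : Nat.find hex with _ | e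
    · rw [pow_zero]; exact lt_of_lt_of_le hp.one_lt (Nat.le_mul_of_pos_right p hm)
    · have := Nat.find_min hex (show e < Nat.find hex by omega)
      rw [not_le] at this
      rw [pow_succ']
      exact Nat.mul_lt_mul_of_pos_left this hp.pos
  refine ⟨?_, ?_⟩
  · rintro g ⟨j, hj⟩
    set N : Matrix (Fin m) (Fin m) F := (g : Matrix (Fin m) (Fin m) F) - 1
    have hg1 : (g : Matrix (Fin m) (Fin m) F) ^ p ^ j = 1 := by
      rw [← Units.val_pow_eq_pow_val, ← hj, pow_orderOf_eq_one, Units.val_one]
    have hN : IsNilpotent N := ⟨p ^ j, by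
      rw [sub_pow_char_pow_of_commute _ _ (Commute.one_right _), one_pow, hg1, sub_self]⟩
    have hNm : N ^ m = 0 := by
      have h1 := (Matrix.isNilpotent_charpoly_sub_pow_of_isNilpotent hN).eq_zero
      rw [Fintype.card_fin, sub_eq_zero] at h1
      have h2 := Matrix.aeval_self_charpoly N
      rwa [h1, map_pow, Polynomial.aeval_X] at h2
    have hge : g ^ p ^ Nat.find hex = 1 := by
      refine Units.ext ?_
      rw [Units.val_pow_eq_pow_val, Units.val_one, show (g : Matrix (Fin m) (Fin m) F) = N + 1 from (sub_add_cancel _ _).symm,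
        add_pow_char_pow_of_commute _ _ (Commute.one_right _), one_pow,
        show N ^ p ^ Nat.find hex = 0 from pow_eq_zero_of_le (Nat.find_spec hex) hNm, zero_add]
    exact lt_of_le_of_lt (Nat.le_of_dvd (pow_pos hp.pos _) (orderOf_dvd_of_pow_eq_one hge)) hlt
  · let N : Matrix (Fin m) (Fin m) F := Matrix.of fun a b => if (b : ℕ) = a + 1 then 1 else 0
    have hNk : ∀ (k : ℕ) (a b : Fin m), (N ^ k) a b = if (b : ℕ) = a + k then 1 else 0 := by
      intro k
      induction k with
      | zero => intro a b; simp [Matrix.one_apply, Fin.ext_iff, eq_comm]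
      | succ k ih =>
        intro a b
        rw [pow_succ', Matrix.mul_apply]
        by_cases h : (a : ℕ) + 1 < m
        · rw [Finset.sum_eq_single ⟨a + 1, h⟩]
          · rw [ih]; simp only [N, Matrix.of_apply, if_true, one_mul]
            congr 1
            rw [eq_iff_iff]; omega
          · intro c _ hc
            have : ¬ (c : ℕ) = a + 1 := fun e => hc (Fin.ext e)
            simp [N, this]
          · simp
        · rw [Finset.sum_eq_zero, if_neg (by omega)]
          intro c _
          have : ¬ (c : ℕ) = a + 1 := by omega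
          simp [N, this]
    have hNm : N ^ m = 0 := by
      ext a b
      rw [hNk, if_neg (by omega)]
      rfl
    have hpow : ∀ e : ℕ, (1 + N) ^ p ^ e = 1 + N ^ p ^ e := fun e => by
      rw [add_pow_char_pow_of_commute _ _ (Commute.one_left _), one_pow]
    have hu : IsUnit (1 + N) := IsNilpotent.isUnit_one_add ⟨m, hNm⟩
    have hge : hu.unit ^ p ^ Nat.find hex = 1 := Units.ext (by
      rw [Units.val_pow_eq_pow_val, IsUnit.unit_spec, hpow, pow_eq_zero_of_le (Nat.find_spec hex) hNm, add_zero, Units.val_one])
    obtain ⟨e, -, he⟩ := (Nat.dvd_prime_pow hp).1 (orderOf_dvd_of_pow_eq_one hge)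
    refine ⟨hu.unit, ⟨e, he⟩, ?_⟩
    rw [he]
    by_contra h
    rw [not_le] at h
    have h1 := congrArg Units.val (pow_orderOf_eq_one hu.unit)
    rw [he, Units.val_pow_eq_pow_val, IsUnit.unit_spec, hpow, Units.val_one, add_eq_left] at h1
    have h2 := congrFun (congrFun h1 ⟨0, hm⟩) ⟨p ^ e, h⟩
    rw [hNk, if_pos (by simp), Matrix.zero_apply] at h2
    exact one_ne_zero h2

end Cfsg.Agent.S2368
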