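import Cfsg.Statements.S2569
import Cfsg.Agent.Lib.ClassicalSemisimpleDet

set_option autoImplicit false
open Cfsg

namespace Cfsg.Agent.S2569

/-- In GL_n over a finite field of characteristic p, the conjugacy class of a semisimple element (an element of order prime to p) under the special linear group is its whole GL-conjugacy class: for every such x and every invertible g there is h of determinant one with h x h⁻¹ = g x g⁻¹. -/
theorem result {F : Type*} [Field F] [Fintype F] {p : ℕ} [Fact p.Prime] [CharP F p] {n : ℕ} (x g : GL (Fin n) F) (hx : (orderOf x).Coprime p) : ∃ h : GL (Fin n) F, (h : Matrix (Fin n) (Fin n) F).det = 1 ∧ h * x * h⁻¹ = g * x * g⁻¹ := by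
  classical
  rcases Nat.eq_zero_or_pos n with hn | hn
  · subst hn
    exact ⟨g, Matrix.det_isEmpty, rfl⟩
  haveI : NeZero n := ⟨by omega⟩
  haveI : Nontrivial (Fin n → F) := Function.nontrivial
  have hN : ((orderOf x : ℕ) : F) ≠ 0 := by
    rw [Ne, CharP.cast_eq_zero_iff F p]
    intro hdvd
    have h1 := Nat.Coprime.eq_one_of_dvd hx.symm hdvd
    exact (Fact.out : p.Prime).ne_one h1
  have hf : (Matrix.toLinAlgEquiv' (x : Matrix (Fin n) (Fin n) F)) ^ orderOf x = 1 := by
    rw [← map_pow, ← Units.val_pow_eq_pow_val, pow_orderOf_eq_one, Units.val_one, map_one]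
  obtain ⟨z, hz, hdet⟩ := CfsgLib.SemisimpleDet.exists_commute_det _ hN hf ((g : Matrix (Fin n) (Fin n) F).det)⁻¹
  have hdet' : (Matrix.toLinAlgEquiv'.symm z).det = ((g : Matrix (Fin n) (Fin n) F).det)⁻¹ := by
    rw [← hdet, ← LinearMap.det_toLin']
    exact congrArg LinearMap.det (Matrix.toLinAlgEquiv'.apply_symm_apply z)
  let Z : GL (Fin n) F := Matrix.GeneralLinearGroup.mkOfDetNeZero (Matrix.toLinAlgEquiv'.symm z) (by
    rw [hdet']; exact inv_ne_zero (Matrix.isUnits_det_units g).ne_zero)
  refine ⟨g * Z, ?_, ?_⟩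
  · show ((g : Matrix (Fin n) (Fin n) F) * Matrix.toLinAlgEquiv'.symm z).det = 1
    rw [Matrix.det_mul, hdet', mul_inv_cancel₀ (Matrix.isUnits_det_units g).ne_zero]
  · have hc : Z * x = x * Z := Units.ext (by
      show Matrix.toLinAlgEquiv'.symm z * (x : Matrix (Fin n) (Fin n) F) = (x : Matrix (Fin n) (Fin n) F) * Matrix.toLinAlgEquiv'.symm z
      apply Matrix.toLinAlgEquiv'.injective
      rw [map_mul, map_mul, Matrix.toLinAlgEquiv'.apply_symm_apply]
      exact hz)
    rw [mul_inv_rev, mul_assoc g Z x, hc, mul_assoc, mul_assoc, mul_assoc, mul_inv_cancel_left, ← mul_assoc]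

end Cfsg.Agent.S2569
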