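import Cfsg.Statements.S2388
import Cfsg.Agent.Lib.LieGLSemisimple
import Cfsg.Agent.S2569

set_option autoImplicit false
open Cfsg

namespace Cfsg.Agent.S2388

/-- In `SL_n(q)`, `q` a power of the prime `p`, two elements of order prime to `p` with the same characteristic polynomial are conjugate in `SL_n(q)` (not merely in `GL_n`). -/
theorem result {F : Type*} [Field F] [Fintype F] (p : ℕ) [Fact p.Prime] [CharP F p] (n : ℕ)
    (g h : Matrix.SpecialLinearGroup (Fin n) F) (hg : (orderOf g).Coprime p) (hh : (orderOf h).Coprime p)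
    (hc : (g : Matrix (Fin n) (Fin n) F).charpoly = (h : Matrix (Fin n) (Fin n) F).charpoly) : IsConj g h := by
  classical
  have hne : ∀ x : Matrix.SpecialLinearGroup (Fin n) F, (orderOf x).Coprime p → ((orderOf x : ℕ) : F) ≠ 0 := by
    intro x hx
    rw [Ne, CharP.cast_eq_zero_iff F p]
    intro hdvd
    exact (Fact.out : p.Prime).ne_one (Nat.Coprime.eq_one_of_dvd hx.symm hdvd)
  have hpow : ∀ x : Matrix.SpecialLinearGroup (Fin n) F,
      (Matrix.toLinAlgEquiv' (x : Matrix (Fin n) (Fin n) F)) ^ orderOf x = 1 := by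
    intro x
    rw [← map_pow, ← Matrix.SpecialLinearGroup.coe_pow, pow_orderOf_eq_one,
      Matrix.SpecialLinearGroup.coe_one, map_one]
  have hcp : ∀ M : Matrix (Fin n) (Fin n) F, (Matrix.toLinAlgEquiv' M).charpoly = M.charpoly := by
    intro M
    rw [← LinearMap.charpoly_toMatrix _ (Pi.basisFun F (Fin n))]
    congr 1
    exact LinearMap.toMatrix'_toLin' M
  obtain ⟨P, hP⟩ := CfsgLib.Lie.GLSemisimple.exists_conj _ _ (hne g hg) (hne h hh) (hpow g) (hpow h)
    (by rw [hcp, hcp, hc])
  let PM : GL (Fin n) F := ⟨LinearMap.toMatrix' P.toLinearMap, LinearMap.toMatrix' P.symm.toLinearMap,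
    by rw [← LinearMap.toMatrix'_comp]; simp, by rw [← LinearMap.toMatrix'_comp]; simp⟩
  have hcop : (orderOf (Matrix.SpecialLinearGroup.toGL g)).Coprime p := by
    rw [orderOf_injective _ Matrix.SpecialLinearGroup.toGL_injective]; exact hg
  obtain ⟨u, hu, huc⟩ := Cfsg.Agent.S2569.result (p := p) (Matrix.SpecialLinearGroup.toGL g) PM hcop
  have hPg : PM * Matrix.SpecialLinearGroup.toGL g = Matrix.SpecialLinearGroup.toGL h * PM := by
    refine Units.ext ?_
    show LinearMap.toMatrix' P.toLinearMap * (g : Matrix (Fin n) (Fin n) F) =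
      (h : Matrix (Fin n) (Fin n) F) * LinearMap.toMatrix' P.toLinearMap
    refine Matrix.toLin'.injective (LinearMap.ext fun x => ?_)
    rw [Matrix.toLin'_mul_apply, Matrix.toLin'_mul_apply, Matrix.toLin'_toMatrix']
    exact hP x
  let U : Matrix.SpecialLinearGroup (Fin n) F := ⟨(u : Matrix (Fin n) (Fin n) F), hu⟩
  have e' : Matrix.SpecialLinearGroup.toGL U = u := Units.ext rfl
  refine isConj_iff.2 ⟨U, ?_⟩
  refine Matrix.SpecialLinearGroup.toGL_injective ?_
  rw [map_mul, map_mul, map_inv, e', huc]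
  exact mul_inv_eq_iff_eq_mul.2 hPg

end Cfsg.Agent.S2388
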