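import Cfsg.Statements.S2384
import Cfsg.Agent.S2387
import Cfsg.Agent.S2388

set_option autoImplicit false
open Cfsg

namespace Cfsg.Agent.S2384

section

open Polynomial Cfsg.Agent.S2387

variable {F : Type*} [Field F] [Fintype F]

/-- Monic polynomials of degree `n` with the constant term of a determinant one map. -/
abbrev Poly1 (F : Type*) [Field F] (n : ℕ) :=
  {χ : F[X] // χ.Monic ∧ χ.natDegree = n ∧ χ.coeff 0 = (-1) ^ n}

theorem card_poly1 (m : ℕ) : Nat.card (Poly1 F (m + 1)) = Fintype.card F ^ m := by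
  classical
  let co : (Fin m → F) → Fin (m + 1) → F := fun c => Fin.cons ((-1) ^ (m + 1)) c
  let e : (Fin m → F) ≃ Poly1 F (m + 1) :=
    { toFun := fun c => ⟨X ^ (m + 1) + ∑ i, C (co c i) * X ^ (i : ℕ), by
        have hd : (∑ i, C (co c i) * X ^ (i : ℕ) : F[X]).degree < (m + 1 : ℕ) := degree_sum_fin_lt _
        refine ⟨monic_X_pow_add hd, ?_, ?_⟩
        · rw [natDegree_eq_of_degree_eq_some]
          rw [degree_add_eq_left_of_degree_lt (by rwa [degree_X_pow]), degree_X_pow]
        · have h0 : (X ^ (m + 1) + ∑ i, C (co c i) * X ^ (i : ℕ) : F[X]).coeff 0 = co c 0 := by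
            simp [coeff_add, finset_sum_coeff, coeff_C_mul, coeff_X_pow, eq_comm]
          rw [h0]; rfl⟩
      invFun := fun χ i => χ.1.coeff i.succ
      left_inv := fun c => funext fun i => by
        have : ∀ j : Fin (m + 1), (X ^ (m + 1) + ∑ i, C (co c i) * X ^ (i : ℕ) : F[X]).coeff j = co c j := by
          intro j
          simp [coeff_add, finset_sum_coeff, coeff_C_mul, coeff_X_pow, Fin.val_inj, ne_of_lt j.2]
        simpa [co] using this i.succ
      right_inv := fun χ => Subtype.ext (by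
        show X ^ (m + 1) + ∑ i : Fin (m + 1), C (co (fun i => χ.1.coeff i.succ) i) * X ^ (i : ℕ) = χ.1
        have hco : ∀ i : Fin (m + 1), co (fun i => χ.1.coeff i.succ) i = χ.1.coeff i := by
          intro i
          refine Fin.cases ?_ (fun i => ?_) i
          · simp [co, χ.2.2.2]
          · simp [co]
        simp only [hco]
        conv_rhs => rw [χ.2.1.as_sum, χ.2.2.1]
        rw [Fin.sum_univ_eq_sum_range (fun i => C (χ.1.coeff i) * X ^ i)]) }
  rw [← Nat.card_congr e, Nat.card_fun, Nat.card_fin, Nat.card_eq_fintype_card]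

end

/-- In `SL_n(q)`, `q` a power of the prime `p`, the number of conjugacy classes of elements of order prime to `p` (the semisimple classes) is `q^(n-1)`. -/
theorem result {F : Type*} [Field F] [Fintype F] {q : ℕ} (hq : Fintype.card F = q) (p : ℕ) [Fact p.Prime] [CharP F p] (n : ℕ) (hn : 1 ≤ n) :
    Nat.card {c : ConjClasses (Matrix.SpecialLinearGroup (Fin n) F) //
      ∃ g : Matrix.SpecialLinearGroup (Fin n) F, ConjClasses.mk g = c ∧ (orderOf g).Coprime p} = q ^ (n - 1) := by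
  obtain ⟨m, rfl⟩ : ∃ m, n = m + 1 := ⟨n - 1, by omega⟩
  subst hq
  classical
  rw [Nat.add_sub_cancel, ← card_poly1 (F := F) m]
  have hP1 : ∀ g : Matrix.SpecialLinearGroup (Fin (m + 1)) F,
      (g : Matrix (Fin (m + 1)) (Fin (m + 1)) F).charpoly.Monic ∧
      (g : Matrix (Fin (m + 1)) (Fin (m + 1)) F).charpoly.natDegree = m + 1 ∧
      (g : Matrix (Fin (m + 1)) (Fin (m + 1)) F).charpoly.coeff 0 = (-1) ^ (m + 1) := by
    intro g
    refine ⟨Matrix.charpoly_monic _, by rw [Matrix.charpoly_natDegree_eq_dim, Fintype.card_fin], ?_⟩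
    have h := Matrix.det_eq_sign_charpoly_coeff (g : Matrix (Fin (m + 1)) (Fin (m + 1)) F)
    rw [g.2, Fintype.card_fin] at h
    have h2 : ((-1 : F) ^ (m + 1)) * (-1) ^ (m + 1) = 1 := by rw [← mul_pow]; simp
    linear_combination ((-1 : F) ^ (m + 1)) * h.symm - (g : Matrix (Fin (m + 1)) (Fin (m + 1)) F).charpoly.coeff 0 * h2
  let Φ : {c : ConjClasses (Matrix.SpecialLinearGroup (Fin (m + 1)) F) //
      ∃ g, ConjClasses.mk g = c ∧ (orderOf g).Coprime p} → Poly1 F (m + 1) := fun c => ⟨_, hP1 c.2.choose⟩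
  refine Nat.card_eq_of_bijective Φ ⟨fun c d h => ?_, fun χ => ?_⟩
  · obtain ⟨hc1, hc2⟩ := c.2.choose_spec
    obtain ⟨hd1, hd2⟩ := d.2.choose_spec
    refine Subtype.ext ?_
    rw [← hc1, ← hd1, ConjClasses.mk_eq_mk_iff_isConj]
    exact Cfsg.Agent.S2388.result p (m + 1) _ _ hc2 hd2 (congrArg Subtype.val h)
  · obtain ⟨g, hg, hgc⟩ := Cfsg.Agent.S2387.realize p
      (⟨χ.1, χ.2.1, χ.2.2.1, by rw [χ.2.2.2]; exact pow_ne_zero _ (by simp)⟩ : Cfsg.Agent.S2387.Poly0 F (m + 1))
    have hdet : (g : Matrix (Fin (m + 1)) (Fin (m + 1)) F).det = 1 := by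
      rw [Matrix.det_eq_sign_charpoly_coeff, hgc, χ.2.2.2, Fintype.card_fin, ← mul_pow]
      simp
    let G : Matrix.SpecialLinearGroup (Fin (m + 1)) F := ⟨(g : Matrix (Fin (m + 1)) (Fin (m + 1)) F), hdet⟩
    have hG : Matrix.SpecialLinearGroup.toGL G = g := Units.ext rfl
    have hGo : (orderOf G).Coprime p := by
      rw [← orderOf_injective _ Matrix.SpecialLinearGroup.toGL_injective, hG]; exact hg
    refine ⟨⟨ConjClasses.mk G, G, rfl, hGo⟩, Subtype.ext ?_⟩
    obtain ⟨u, hu⟩ := isConj_iff.1 (ConjClasses.mk_eq_mk_iff_isConj.1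
      (Exists.choose_spec (⟨G, rfl, hGo⟩ : ∃ g', ConjClasses.mk g' = ConjClasses.mk G ∧ (orderOf g').Coprime p)).1)
    have h2 := congrArg (fun z : Matrix.SpecialLinearGroup (Fin (m + 1)) F =>
      ((Matrix.SpecialLinearGroup.toGL z : GL (Fin (m + 1)) F) : Matrix (Fin (m + 1)) (Fin (m + 1)) F).charpoly) hu
    simp only [map_mul, map_inv, Units.val_mul, Matrix.coe_units_inv, Matrix.charpoly_units_conj] at h2
    exact h2.trans hgc

end Cfsg.Agent.S2384
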