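import Cfsg.Statements.S2391


set_option autoImplicit false
open Cfsg
open Matrix

namespace Cfsg.Agent.S2391

/-- The Borel–Tits property of `SL_n(q)` in flag form: for a field `F` of characteristic `p` with finitely many elements and a non-trivial `p`-subgroup `U` of `SL_n(F)`, there is a flag `0 = V₀ < V₁ < ⋯ < V_{k+1} = F^n` with at least one proper non-zero member such that every element of the normaliser of `U` maps each `V_i` onto itself and every element of `U` acts trivially on each quotient `V_{i+1}/V_i` (so the normaliser lies in the parabolic subgroup of the flag and `U` in its unipotent radical). -/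
theorem result {F : Type*} [Field F] [Fintype F] (p : ℕ) [Fact p.Prime] [CharP F p] (n : ℕ)
    (U : Subgroup (Matrix.SpecialLinearGroup (Fin n) F)) (hU : IsPGroup p ↥U) (hne : U ≠ ⊥) :
    ∃ (k : ℕ) (V : Fin (k + 2) → Submodule F (Fin n → F)), 1 ≤ k ∧ StrictMono V ∧ V 0 = ⊥ ∧ V (Fin.last (k + 1)) = ⊤ ∧
      (∀ g ∈ Subgroup.normalizer (U : Set (Matrix.SpecialLinearGroup (Fin n) F)), ∀ i, (V i).map (Matrix.mulVecLin (g : Matrix (Fin n) (Fin n) F)) = V i) ∧
      (∀ u ∈ U, ∀ i : Fin (k + 1), ∀ v ∈ V i.succ, (u : Matrix (Fin n) (Fin n) F).mulVec v - v ∈ V (Fin.castSucc i)) := by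
  classical
  let G := Matrix.SpecialLinearGroup (Fin n) F
  let L : G → ((Fin n → F) →ₗ[F] (Fin n → F)) := fun g => Matrix.mulVecLin (g : Matrix (Fin n) (Fin n) F)
  have hL : ∀ (g h : G) (v : Fin n → F), L (g * h) v = L g (L h v) := fun g h v => by
    simp only [L, Matrix.mulVecLin_apply, Matrix.mulVec_mulVec]; rfl
  have hL1 : ∀ v : Fin n → F, L 1 v = v := fun v => by simp [L]
  let step : Submodule F (Fin n → F) → Submodule F (Fin n → F) := fun W => ⨅ u : U, W.comap (L u - LinearMap.id)
  have hstep : ∀ W v, v ∈ step W ↔ ∀ u : U, L u v - v ∈ W := fun W v => by simp [step, Submodule.mem_iInf]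
  let S : ℕ → Submodule F (Fin n → F) := fun i => step^[i] ⊥
  have hS : ∀ i, S (i + 1) = step (S i) := fun i => Function.iterate_succ_apply' step i ⊥
  have hinv : ∀ i, ∀ g ∈ Subgroup.normalizer (U : Set G), ∀ v ∈ S i, L g v ∈ S i := by
    intro i
    induction i with
    | zero => intro g _ v hv; simp only [S, Function.iterate_zero, id, Submodule.mem_bot] at hv ⊢; rw [hv, map_zero]
    | succ i ih =>
      intro g hg v hv
      rw [hS, hstep] at hv ⊢
      intro u
      have hu' : g⁻¹ * u * g ∈ U := by
        have := (Subgroup.mem_normalizer_iff'.1 hg) (g⁻¹ * u)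
        rwa [mul_inv_cancel_left, iff_true_right u.2] at this
      have h1 := ih g hg _ (hv ⟨_, hu'⟩)
      rwa [map_sub, ← hL, ← mul_assoc, mul_inv_cancel_left, hL] at h1
  have hUN : ∀ u : U, (u : G) ∈ Subgroup.normalizer (U : Set G) := fun u => Subgroup.le_normalizer u.2
  have hmono : ∀ i, S i ≤ S (i + 1) := fun i v hv => by
    rw [hS, hstep]; intro u; exact Submodule.sub_mem _ (hinv i u (hUN u) v hv) hv
  have hgrow : ∀ i, S i ≠ ⊤ → S i < S (i + 1) := by
    intro i hi
    refine lt_of_le_of_ne (hmono i) fun heq => ?_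
    let Q := (Fin n → F) ⧸ S i
    have hw : ∀ u : U, S i ≤ (S i).comap (L u) := fun u v hv => hinv i u (hUN u) v hv
    letI : MulAction U Q :=
      { smul := fun u x => (S i).mapQ (S i) (L u) (hw u) x
        one_smul := fun x => by
          induction x using Submodule.Quotient.induction_on with
          | H v => exact congrArg Submodule.Quotient.mk (hL1 v)
        mul_smul := fun u w x => by
          induction x using Submodule.Quotient.induction_on with
          | H v => exact congrArg Submodule.Quotient.mk (hL u w v) }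
    haveI : Nontrivial Q := Submodule.Quotient.nontrivial_iff.2 hi
    have hdvd : p ∣ Nat.card Q := by
      rw [Module.natCard_eq_pow_finrank (K := F) (V := Q), Nat.card_eq_fintype_card]
      obtain ⟨m, hp, hc⟩ := FiniteField.card F p
      rw [hc]
      exact dvd_pow (dvd_pow_self p m.ne_zero) (Module.finrank_pos (R := F) (M := Q)).ne'
    have h0 : (0 : Q) ∈ MulAction.fixedPoints U Q := fun u => map_zero ((S i).mapQ (S i) (L u) (hw u))
    obtain ⟨b, hb, hne⟩ := hU.exists_fixed_point_of_prime_dvd_card_of_fixed_point Q hdvd h0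
    induction b using Submodule.Quotient.induction_on with
    | H v =>
      apply hne
      rw [eq_comm, Submodule.Quotient.mk_eq_zero, heq, hS, hstep]
      intro u
      exact (Submodule.Quotient.eq _).1 (hb u)
  have hex : ∃ i, S i = ⊤ := by
    by_contra hno
    push Not at hno
    have hm : ∀ i, i ≤ Module.finrank F (S i) := by
      intro i
      induction i with
      | zero => exact Nat.zero_le _
      | succ i ih => have := Submodule.finrank_lt_finrank_of_lt (hgrow i (hno i)); omega
    have := (hm (n + 1)).trans (Submodule.finrank_le _)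
    simp at this
  have hm2 : 2 ≤ Nat.find hex := by
    have hn0 : S 0 ≠ ⊤ := by
      intro h
      apply hne
      rw [eq_bot_iff]
      intro u _
      apply Subtype.ext
      refine Matrix.ext_of_mulVec_single fun j => ?_
      have hz : ∀ v : Fin n → F, v = 0 := fun v => (Submodule.mem_bot F).1 (show v ∈ S 0 by rw [h]; trivial)
      rw [hz (_ *ᵥ _), hz (_ *ᵥ _)]
    have hn1 : S 1 ≠ ⊤ := by
      intro h
      apply hne
      rw [eq_bot_iff]
      intro u hu
      apply Subtype.ext
      refine Matrix.ext_of_mulVec_single fun j => ?_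
      have h1 : (Pi.single j 1 : Fin n → F) ∈ step ⊥ := by
        have : (Pi.single j 1 : Fin n → F) ∈ S 1 := by rw [h]; trivial
        exact this
      have := sub_eq_zero.1 ((Submodule.mem_bot F).1 ((hstep _ _).1 h1 ⟨u, hu⟩))
      exact this.trans (hL1 _).symm
    by_contra hlt
    have h3 := Nat.find_spec hex
    rcases (show Nat.find hex = 0 ∨ Nat.find hex = 1 by omega) with e | e <;> rw [e] at h3
    exacts [hn0 h3, hn1 h3]
  refine ⟨Nat.find hex - 1, fun i => S i, by omega, ?_, rfl, ?_, ?_, ?_⟩
  · refine Fin.strictMono_iff_lt_succ.2 fun i => ?_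
    exact hgrow i (Nat.find_min hex (by have := i.isLt; omega))
  · show S (Nat.find hex - 1 + 1) = ⊤
    rw [show Nat.find hex - 1 + 1 = Nat.find hex by omega]
    exact Nat.find_spec hex
  · intro g hg i
    apply le_antisymm
    · rintro _ ⟨v, hv, rfl⟩; exact hinv i g hg v hv
    · intro v hv
      refine ⟨L g⁻¹ v, hinv i g⁻¹ (inv_mem hg) v hv, ?_⟩
      show L g (L g⁻¹ v) = v
      rw [← hL, mul_inv_cancel, hL1]
  · intro u hu i v hv
    have : v ∈ step (S i) := by rw [← hS]; exact hv
    exact (hstep _ _).1 this ⟨u, hu⟩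

end Cfsg.Agent.S2391
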