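import Cfsg.Statements.S2402
import Cfsg.Agent.Lib.LieSLCycleGen

set_option autoImplicit false
open Cfsg

namespace Cfsg.Agent.S2402

/-- Explicit two-element generation of `PSL_{n+1}(K)` for a finite field `K` with more than three elements: let `k` generate the multiplicative group of `K`, `h = diag(k, k⁻¹, 1, …, 1)`, `x = 1 + E₁₂` (the elementary transvection) and `w` the monomial matrix with entries `1` in positions `(i, i+1)` and `(−1)^n` in position `(n+1, 1)`. Then `h` and `x·w` generate `SL_{n+1}(K)` modulo its centre: the subgroup they generate together with the centre is everything. -/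
theorem result {K : Type*} [Field K] [Fintype K] (hK : 3 < Fintype.card K) (n : ℕ) (hn : 1 ≤ n)
    (k : Kˣ) (hk : ∀ u : Kˣ, u ∈ Subgroup.zpowers k)
    (h x w : Matrix.SpecialLinearGroup (Fin (n + 1)) K)
    (hh : (h : Matrix (Fin (n + 1)) (Fin (n + 1)) K) =
      Matrix.diagonal (fun i => if i.val = 0 then (k : K) else if i.val = 1 then ((k⁻¹ : Kˣ) : K) else 1))
    (hx : (x : Matrix (Fin (n + 1)) (Fin (n + 1)) K) = Matrix.transvection (0 : Fin (n + 1)) (1 : Fin (n + 1)) 1)
    (hw : (w : Matrix (Fin (n + 1)) (Fin (n + 1)) K) =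
      Matrix.of (fun i j => if j.val = i.val + 1 then 1 else if i.val = n ∧ j.val = 0 then (-1) ^ n else 0)) :
    Subgroup.closure ({h, x * w} : Set (Matrix.SpecialLinearGroup (Fin (n + 1)) K)) ⊔
      Subgroup.center (Matrix.SpecialLinearGroup (Fin (n + 1)) K) = ⊤ := by
  classical
  haveI : NeZero n := ⟨by omega⟩
  have h01 : (0 : Fin (n + 1)) ≠ 1 := by
    intro e
    have := congrArg Fin.val e
    rw [Fin.val_zero, Fin.val_one', Nat.mod_eq_of_lt (by omega)] at this
    omega
  have hxT : x = Matrix.SpecialLinearGroup.transvection h01 (1 : K) := Subtype.ext hx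
  have hd := CfsgLib.Lie.SLCycle.w_mono hw
  set d : Fin (n + 1) → K := fun i => if i.val = 0 then (k : K) else if i.val = 1 then ((k⁻¹ : Kˣ) : K) else 1 with hdd
  have hk2 : (k : K) ^ 2 ≠ 1 := by
    intro e
    have e' : k ^ 2 = 1 := Units.ext (by simpa using e)
    have := orderOf_le_of_pow_eq_one two_pos e'
    rw [orderOf_eq_card_of_forall_mem_zpowers hk, Nat.card_eq_fintype_card, Fintype.card_units] at this
    omega
  set H := Subgroup.closure ({h, x * w} : Set (Matrix.SpecialLinearGroup (Fin (n + 1)) K)) with hH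
  have hhH : h ∈ H := Subgroup.subset_closure (by simp)
  have hgH : x * w ∈ H := Subgroup.subset_closure (by simp)
  set dD : Fin (n + 1) → K := fun i => d (CfsgLib.Lie.SLCycle.shift n i) with hdD
  set D := w * h * w⁻¹ with hDdef
  have hwh : (w : Matrix (Fin (n + 1)) (Fin (n + 1)) K) * (h : Matrix (Fin (n + 1)) (Fin (n + 1)) K) =
      Matrix.diagonal dD * (w : Matrix (Fin (n + 1)) (Fin (n + 1)) K) := by
    ext i j
    rw [hh, Matrix.mul_diagonal, Matrix.diagonal_mul, hd]
    split_ifs with e
    · subst e
      exact mul_comm _ _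
    · subst e
      exact mul_comm _ _
    · simp
  have hD : (D : Matrix (Fin (n + 1)) (Fin (n + 1)) K) = Matrix.diagonal dD := by
    rw [hDdef, Matrix.SpecialLinearGroup.coe_mul, Matrix.SpecialLinearGroup.coe_mul, hwh, Matrix.mul_assoc,
      ← Matrix.SpecialLinearGroup.coe_mul, mul_inv_cancel, Matrix.SpecialLinearGroup.coe_one, Matrix.mul_one]
  have hhD : h * D = D * h := by
    apply Matrix.SpecialLinearGroup.coeMonoidHom_injective
    simp only [map_mul, Matrix.SpecialLinearGroup.coeMonoidHom_apply]
    rw [hD, hh, Matrix.diagonal_mul_diagonal, Matrix.diagonal_mul_diagonal]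
    exact congrArg Matrix.diagonal (funext fun i => mul_comm _ _)
  have hd0 : d 0 = (k : K) := by simp [hdd]
  have hd1 : d 1 = ((k⁻¹ : Kˣ) : K) := by
    simp [hdd, Fin.val_one', Nat.mod_eq_of_lt (show 1 < n + 1 by omega)]
  have hdD0 : dD 0 = ((k⁻¹ : Kˣ) : K) := by simp [hdD, hd1]
  set a : K := 1 - dD 0 / dD 1 with ha
  have ha0 : a ≠ 0 := by
    rw [ha, sub_ne_zero, hdD0]
    intro e
    have e1 : dD 1 = ((k⁻¹ : Kˣ) : K) := by
      rw [eq_div_iff] at e
      · simpa using e
      · intro z
        rw [z, div_zero] at e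
        exact one_ne_zero e
    simp only [hdD, hdd, CfsgLib.Lie.SLCycle.shift, Equiv.coe_addRight] at e1
    rw [Fin.val_add, Fin.val_one', Nat.mod_eq_of_lt (show 1 < n + 1 by omega)] at e1
    rcases Nat.eq_or_lt_of_le hn with hn1 | hn1
    · subst hn1
      simp at e1
      exact hk2 (by rw [sq]; nth_rw 2 [e1]; simp)
    · rw [Nat.mod_eq_of_lt (show 1 + 1 < n + 1 by omega)] at e1
      simp at e1
      exact hk2 (by rw [show (k : K) = 1 by simpa using e1]; simp)
  have hxD : (x * w) * h * (x * w)⁻¹ = Matrix.SpecialLinearGroup.transvection h01 a * D := by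
    have e := CfsgLib.Lie.SLCycle.diag_transvection hD h01 (-1 : K)
    calc (x * w) * h * (x * w)⁻¹ = x * D * x⁻¹ := by rw [hDdef]; group
      _ = x * (D * Matrix.SpecialLinearGroup.transvection h01 (-1 : K) * D⁻¹) * D := by
        rw [hxT, Matrix.SpecialLinearGroup.transvection_inv]; group
      _ = _ := by
        rw [e, hxT, ← Matrix.SpecialLinearGroup.transvection_add]
        congr 2
        rw [ha]
        ring
  let A : AddSubgroup K :=
    { carrier := {c | Matrix.SpecialLinearGroup.transvection h01 c ∈ H}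
      zero_mem' := by simp
      add_mem' := fun {a b} ha hb => by
        simp only [Set.mem_ofPred_eq, Matrix.SpecialLinearGroup.transvection_add] at *
        exact mul_mem ha hb
      neg_mem' := fun {a} ha => by
        simp only [Set.mem_ofPred_eq, ← Matrix.SpecialLinearGroup.transvection_inv] at *
        exact inv_mem ha }
  have hconj : ∀ t, h * Matrix.SpecialLinearGroup.transvection h01 t * h⁻¹ =
      Matrix.SpecialLinearGroup.transvection h01 ((k : K) ^ 2 * t) := by
    intro t
    rw [CfsgLib.Lie.SLCycle.diag_transvection hh h01 t]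
    congr 1
    show t * d 0 / d 1 = _
    rw [hd0, hd1, Units.val_inv_eq_inv_val]
    field_simp
  have hb : ((k : K) ^ 2 - 1) * a ∈ A := by
    show Matrix.SpecialLinearGroup.transvection h01 (((k : K) ^ 2 - 1) * a) ∈ H
    have hg : Matrix.SpecialLinearGroup.transvection h01 a * D ∈ H :=
      hxD ▸ mul_mem (mul_mem hgH hhH) (inv_mem hgH)
    have e : h * (Matrix.SpecialLinearGroup.transvection h01 a * D) * h⁻¹ *
        (Matrix.SpecialLinearGroup.transvection h01 a * D)⁻¹ =
        Matrix.SpecialLinearGroup.transvection h01 (((k : K) ^ 2 - 1) * a) := by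
      calc _ = (h * Matrix.SpecialLinearGroup.transvection h01 a * h⁻¹) * (h * D * h⁻¹ * D⁻¹) *
            (Matrix.SpecialLinearGroup.transvection h01 a)⁻¹ := by group
        _ = _ := by
          rw [hhD, hconj, Matrix.SpecialLinearGroup.transvection_inv]
          rw [show D * h * h⁻¹ * D⁻¹ = 1 by group, mul_one, ← Matrix.SpecialLinearGroup.transvection_add]
          congr 1
          ring
    rw [← e]
    exact mul_mem (mul_mem (mul_mem hhH hg) (inv_mem hhH)) (inv_mem hg)
  have htop : A = ⊤ := CfsgLib.Lie.SLCycle.addSubgroup_eq_top hk A (fun t ht => by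
    show Matrix.SpecialLinearGroup.transvection h01 _ ∈ H
    rw [← hconj]
    exact mul_mem (mul_mem hhH ht) (inv_mem hhH)) hb (mul_ne_zero (sub_ne_zero.2 hk2) ha0)
  have hall : ∀ t : K, Matrix.SpecialLinearGroup.transvection h01 t ∈ H := fun t => by
    show t ∈ A
    rw [htop]
    trivial
  have hwH : w ∈ H := by
    have := mul_mem (inv_mem (hall 1)) hgH
    rwa [← hxT, inv_mul_cancel_left] at this
  rw [CfsgLib.Lie.SLCycle.eq_top hw hwH h01 hall]
  exact top_sup_eq _

end Cfsg.Agent.S2402
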