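import Cfsg.Statements.S2403
import Cfsg.Agent.Lib.LieSLCycleGen

set_option autoImplicit false
open Cfsg

namespace Cfsg.Agent.S2403

/-- Explicit two-element generation of `PSL_{n+1}(K)` over the fields with two or three elements: with `x = 1 + E₁₂` and `w` the monomial matrix with entries `1` in positions `(i, i+1)` and `(−1)^n` in position `(n+1, 1)`, the elements `x` and `w` generate `SL_{n+1}(K)` modulo its centre. -/
theorem result {K : Type*} [Field K] [Fintype K] (hK : Fintype.card K ≤ 3) (n : ℕ) (hn : 1 ≤ n)
    (x w : Matrix.SpecialLinearGroup (Fin (n + 1)) K)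
    (hx : (x : Matrix (Fin (n + 1)) (Fin (n + 1)) K) = Matrix.transvection (0 : Fin (n + 1)) (1 : Fin (n + 1)) 1)
    (hw : (w : Matrix (Fin (n + 1)) (Fin (n + 1)) K) =
      Matrix.of (fun i j => if j.val = i.val + 1 then 1 else if i.val = n ∧ j.val = 0 then (-1) ^ n else 0)) :
    Subgroup.closure ({x, w} : Set (Matrix.SpecialLinearGroup (Fin (n + 1)) K)) ⊔
      Subgroup.center (Matrix.SpecialLinearGroup (Fin (n + 1)) K) = ⊤ := by
  classical
  haveI : NeZero n := ⟨by omega⟩
  have h01 : (0 : Fin (n + 1)) ≠ 1 := by
    intro e
    have := congrArg Fin.val e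
    rw [Fin.val_zero, Fin.val_one', Nat.mod_eq_of_lt (by omega)] at this
    omega
  have hxT : x = Matrix.SpecialLinearGroup.transvection h01 (1 : K) := Subtype.ext hx
  have hkey : Subgroup.closure ({x, w} : Set (Matrix.SpecialLinearGroup (Fin (n + 1)) K)) = ⊤ := by
    refine CfsgLib.Lie.SLCycle.eq_top hw (Subgroup.subset_closure (by simp)) h01 fun t => ?_
    let A : AddSubgroup K :=
      { carrier := {c | Matrix.SpecialLinearGroup.transvection h01 c ∈ Subgroup.closure ({x, w} : Set (Matrix.SpecialLinearGroup (Fin (n + 1)) K))}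
        zero_mem' := by simp
        add_mem' := fun {a b} ha hb => by
          simp only [Set.mem_ofPred_eq, Matrix.SpecialLinearGroup.transvection_add] at *
          exact mul_mem ha hb
        neg_mem' := fun {a} ha => by
          simp only [Set.mem_ofPred_eq, ← Matrix.SpecialLinearGroup.transvection_inv] at *
          exact inv_mem ha }
    have h1 : (1 : K) ∈ A := by
      show Matrix.SpecialLinearGroup.transvection h01 (1 : K) ∈ Subgroup.closure ({x, w} : Set (Matrix.SpecialLinearGroup (Fin (n + 1)) K))
      rw [← hxT]
      exact Subgroup.subset_closure (by simp)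
    have hp : (Nat.card K).Prime := by
      have := Fintype.one_lt_card (α := K)
      rw [Nat.card_eq_fintype_card]
      interval_cases (Fintype.card K) <;> norm_num
    haveI := Fact.mk hp
    rcases A.eq_bot_or_eq_top_of_prime_card with h | h
    · rw [h, AddSubgroup.mem_bot] at h1
      exact absurd h1 one_ne_zero
    · show t ∈ A
      rw [h]
      trivial
  rw [hkey]
  exact top_sup_eq _

end Cfsg.Agent.S2403
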