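import Cfsg.Statements.S2418
import Cfsg.Agent.Lib.LieWeylCentre

set_option autoImplicit false
set_option maxHeartbeats 4000000
open Cfsg

namespace Cfsg.Agent.S2418

/-- For the Coxeter groups of types B₂, G₂, D₄, F₄, E₇, E₈ the centre has order 2 (the element acting as −1 on the root system) and is generated by a power of the Coxeter element `s₁ s₂ ⋯ s_l`; the Coxeter group of type E₆ has trivial centre. -/
theorem result (c : (Σ n : ℕ, CoxeterMatrix (Fin n)) × ℕ)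
    (hc : c ∈ [(⟨2, CoxeterMatrix.B 2⟩, 2), (⟨2, CoxeterMatrix.G₂⟩, 2), (⟨4, Cfsg.Lie.coxeterD4⟩, 2), (⟨4, CoxeterMatrix.F₄⟩, 2),
      (⟨6, CoxeterMatrix.E₆⟩, 1), (⟨7, CoxeterMatrix.E₇⟩, 2), (⟨8, CoxeterMatrix.E₈⟩, 2)]) :
    Nat.card (Subgroup.center c.1.2.Group) = c.2 ∧
      Subgroup.center c.1.2.Group ≤ Subgroup.zpowers ((List.finRange c.1.1).map c.1.2.simple).prod := by
  simp only [List.mem_cons, List.not_mem_nil, or_false] at hc
  rcases hc with rfl | rfl | rfl | rfl | rfl | rfl | rfl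
  · exact CfsgLib.Lie.Tab.center_two CfsgLib.Lie.checkedB2 CfsgLib.Lie.B2_extra CfsgLib.Lie.B2_cox (by decide +kernel) (by decide +kernel) (k := 2) (by decide +kernel) ⟨0, by decide +kernel⟩
  · exact CfsgLib.Lie.Tab.center_two CfsgLib.Lie.checkedG2 CfsgLib.Lie.G2_extra CfsgLib.Lie.G2_cox (by decide +kernel) (by decide +kernel) (k := 3) (by decide +kernel) ⟨0, by decide +kernel⟩
  · exact CfsgLib.Lie.Tab.center_two CfsgLib.Lie.checkedD4 CfsgLib.Lie.D4_extra CfsgLib.Lie.D4_cox (by decide +kernel) (by decide +kernel) (k := 3) (by decide +kernel) ⟨0, by decide +kernel⟩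
  · exact CfsgLib.Lie.Tab.center_two CfsgLib.Lie.checkedF4 CfsgLib.Lie.F4_extra CfsgLib.Lie.F4_cox (by decide +kernel) (by decide +kernel) (k := 6) (by decide +kernel) ⟨0, by decide +kernel⟩
  · have h1 := CfsgLib.Lie.Tab.center_one CfsgLib.Lie.checkedE6 CfsgLib.Lie.E6_extra CfsgLib.Lie.E6_cox (by decide +kernel) (by decide +kernel)
      ([0,1,2,0,3,1,2,0,3,2,4,3,1,2,0,3,2,4,3,1,5,4,3,1,2,0,3,2,4,3,1,5,4,3,2,0] : List (Fin 6)) (by decide +kernel) (by decide +kernel)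
    have h2 : Subgroup.center CoxeterMatrix.E₆.Group = ⊥ := @Subgroup.card_eq_one _ _ _ |>.1 h1
    exact ⟨h1, h2.trans_le bot_le⟩
  · exact CfsgLib.Lie.Tab.center_two CfsgLib.Lie.checkedE7 CfsgLib.Lie.E7_extra CfsgLib.Lie.E7_cox (by decide +kernel) (by decide +kernel) (k := 9) (by decide +kernel) ⟨0, by decide +kernel⟩
  · exact CfsgLib.Lie.Tab.center_two CfsgLib.Lie.checkedE8 CfsgLib.Lie.E8_extra CfsgLib.Lie.E8_cox (by decide +kernel) (by decide +kernel) (k := 15) (by decide +kernel) ⟨0, by decide +kernel⟩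

end Cfsg.Agent.S2418
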