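import Cfsg.Statements.S2420
import Mathlib.LinearAlgebra.Matrix.GeneralLinearGroup.Card
import Mathlib.LinearAlgebra.Matrix.Reindex
import Mathlib.LinearAlgebra.Matrix.Block
import Mathlib.Algebra.Field.GeomSum

set_option autoImplicit false
open scoped MatrixGroups
open Cfsg

namespace Cfsg.Agent.S2420

section

open Matrix

variable {F : Type*} [Field F] [Fintype F]

/-- The number of pairs of positions with increasing labels. -/
noncomputable abbrev above {ι : Type*} {n : ℕ} (b : ι → Fin n) : ℕ := Nat.card {x : ι × ι // b x.1 < b x.2}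

omit [Fintype F] in
theorem two_above {ι : Type*} [Fintype ι] {n : ℕ} (b : ι → Fin n) :
    2 * above b + ∑ a, Nat.card {i // b i = a} ^ 2 = Fintype.card ι ^ 2 := by
  classical
  have hswap : Nat.card {x : ι × ι // b x.2 < b x.1} = above b :=
    Nat.card_congr ((Equiv.prodComm ι ι).subtypeEquiv fun x => Iff.rfl)
  have heq : Nat.card {x : ι × ι // b x.1 = b x.2} = ∑ a, Nat.card {i // b i = a} ^ 2 := by
    let e : {x : ι × ι // b x.1 = b x.2} ≃ Σ a : Fin n, {i // b i = a} × {i // b i = a} :=
      { toFun := fun x => ⟨b x.1.1, ⟨x.1.1, rfl⟩, ⟨x.1.2, x.2.symm⟩⟩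
        invFun := fun s => ⟨(s.2.1.1, s.2.2.1), s.2.1.2.trans s.2.2.2.symm⟩
        left_inv := fun x => rfl
        right_inv := by rintro ⟨a, ⟨i, hi⟩, ⟨j, hj⟩⟩; subst hi; rfl }
    rw [Nat.card_congr e, Nat.card_sigma]
    exact Finset.sum_congr rfl fun a _ => by rw [Nat.card_prod, sq]
  have hall : Nat.card (ι × ι) = Nat.card {x : ι × ι // b x.1 < b x.2} +
      (Nat.card {x : ι × ι // b x.1 = b x.2} + Nat.card {x : ι × ι // b x.2 < b x.1}) := by
    simp only [Nat.card_eq_fintype_card, Fintype.card_subtype, Finset.card_filter]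
    rw [← Finset.sum_add_distrib, ← Finset.sum_add_distrib, Fintype.card_eq_sum_ones]
    refine Finset.sum_congr rfl fun x _ => ?_
    rcases lt_trichotomy (b x.1) (b x.2) with h | h | h
    · simp [h, h.ne, h.not_gt]
    · simp [h]
    · simp [h, h.ne', h.not_gt]
  rw [Nat.card_prod, Nat.card_eq_fintype_card, ← sq] at hall
  rw [hall, hswap, heq]
  ring

/-- The order of the group of invertible block triangular matrices. -/
theorem card_block {ι : Type*} [Fintype ι] [DecidableEq ι] {n : ℕ} (b : ι → Fin n) :
    Nat.card {g : GL ι F // (g : Matrix ι ι F).BlockTriangular b} =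
      (∏ a, Nat.card (GL (Fin (Nat.card {i // b i = a})) F)) * Fintype.card F ^ above b := by
  classical
  have hdet : ∀ M : Matrix ι ι F, M.BlockTriangular b → M.det = ∏ a, (M.toSquareBlock b a).det := by
    intro M hM
    exact hM.det_fintype
  let asm : (∀ a, GL {i // b i = a} F) × ({x : ι × ι // b x.1 < b x.2} → F) → Matrix ι ι F :=
    fun d i j => if h : b i = b j then (d.1 (b j) : Matrix {k // b k = b j} {k // b k = b j} F) ⟨i, h⟩ ⟨j, rfl⟩
      else if h' : b i < b j then d.2 ⟨(i, j), h'⟩ else 0
  have htri : ∀ d, (asm d).BlockTriangular b := fun d i j h => by simp [asm, h.ne', h.not_gt]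
  have hblock : ∀ d a, (asm d).toSquareBlock b a = (d.1 a : Matrix {k // b k = a} {k // b k = a} F) := by
    intro d a
    ext ⟨i, hi⟩ ⟨j, hj⟩
    subst hj
    show asm d i j = _
    exact dif_pos hi
  have hne : ∀ d, (asm d).det ≠ 0 := by
    intro d
    rw [hdet _ (htri d)]
    exact Finset.prod_ne_zero_iff.2 fun a _ => by rw [hblock]; exact (Matrix.isUnits_det_units _).ne_zero
  let e : {g : GL ι F // (g : Matrix ι ι F).BlockTriangular b} ≃
      (∀ a, GL {i // b i = a} F) × ({x : ι × ι // b x.1 < b x.2} → F) :=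
    { toFun := fun g => (fun a => GeneralLinearGroup.mkOfDetNeZero ((g.1 : Matrix ι ι F).toSquareBlock b a) (by
          have h := (Matrix.isUnits_det_units g.1).ne_zero
          rw [hdet _ g.2, Finset.prod_ne_zero_iff] at h
          exact h a (Finset.mem_univ a)),
        fun x => (g.1 : Matrix ι ι F) x.1.1 x.1.2)
      invFun := fun d => ⟨GeneralLinearGroup.mkOfDetNeZero (asm d) (hne d), htri d⟩
      left_inv := fun g => by
        refine Subtype.ext (Units.ext ?_)
        ext i j
        show asm _ i j = (g.1 : Matrix ι ι F) i j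
        simp only [asm]
        split_ifs with h h'
        · rfl
        · rfl
        · exact (g.2 (lt_of_le_of_ne (not_lt.1 h') (Ne.symm h))).symm
      right_inv := fun d => by
        refine Prod.ext (funext fun a => Units.ext ?_) (funext fun x => ?_)
        · exact hblock d a
        · show asm d x.1.1 x.1.2 = _
          simp [asm, x.2.ne, x.2] }
  rw [Nat.card_congr e, Nat.card_prod, Nat.card_pi, Nat.card_fun]
  congr 1
  · refine Finset.prod_congr rfl fun a _ => ?_
    exact Nat.card_congr (Units.mapEquiv (Matrix.reindexAlgEquiv F F (Finite.equivFin {i // b i = a})).toMulEquiv).toEquiv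
  · rw [Nat.card_eq_fintype_card (α := F)]

/-- The order of `GL_m` by `q`-integers. -/
theorem card_gl (m : ℕ) : Nat.card (GL (Fin m) F) =
    Fintype.card F ^ (∑ i ∈ Finset.range m, i) * (Fintype.card F - 1) ^ m *
      ∏ j ∈ Finset.range m, ∑ l ∈ Finset.range (j + 1), Fintype.card F ^ l := by
  set q := Fintype.card F with hq
  have h1 : 1 ≤ q := Fintype.card_pos
  rw [Matrix.card_GL_field, Fin.prod_univ_eq_prod_range (fun i => q ^ m - q ^ i), ← Finset.prod_pow_eq_pow_sum,
    mul_assoc, show (q - 1) ^ m = ∏ _i ∈ Finset.range m, (q - 1) by simp,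
    ← Finset.prod_mul_distrib,
    ← Finset.prod_range_reflect (fun j => (q - 1) * ∑ l ∈ Finset.range (j + 1), q ^ l),
    ← Finset.prod_mul_distrib]
  refine Finset.prod_congr rfl fun i hi => ?_
  rw [Finset.mem_range] at hi
  have hgs : (q - 1) * (∑ l ∈ Finset.range (m - 1 - i + 1), q ^ l) = q ^ (m - i) - 1 := by
    rw [show m - 1 - i + 1 = m - i by omega]
    obtain ⟨r, hr⟩ : ∃ r, q = r + 1 := ⟨q - 1, by omega⟩
    rw [hr, Nat.add_sub_cancel, ← geom_sum_mul_add r (m - i), mul_comm, Nat.add_sub_cancel]
  rw [hgs, Nat.mul_sub, mul_one, ← pow_add]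
  congr 2
  omega

end

/-- The number of partial flags of a given type: for a composition `μ` of `n` (with `n` parts, zeros allowed) and a field with `q` elements, the index of the standard parabolic subgroup `P_μ` in `GL_n(q)` times `∏_i {μ_i}` equals `{n}`, where `{r}` denotes the product over `k = 1, …, r` of the q-integers `1 + q + ⋯ + q^(k−1)`. -/
theorem result {F : Type*} [Field F] [Fintype F] {q : ℕ} (hq : Fintype.card F = q) {n : ℕ} (μ : Fin n → ℕ) (hμ : ∑ i, μ i = n) :
    Nat.card (GL (Fin n) F ⧸ Cfsg.parabolicGL n F μ) * ∏ i : Fin n, ∏ j ∈ Finset.range (μ i), ∑ l ∈ Finset.range (j + 1), q ^ l =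
      ∏ j ∈ Finset.range n, ∑ l ∈ Finset.range (j + 1), q ^ l := by
  classical
  subst hq
  let σ : (Σ a : Fin n, Fin (μ a)) ≃ Fin n := finSigmaFinEquiv.trans (finCongr hμ)
  let b : Fin n → Fin n := fun i => (σ.symm i).1
  have hfib : ∀ a, Nat.card {i // b i = a} = μ a := by
    intro a
    rw [Nat.card_congr ((σ.symm.subtypeEquiv (q := fun s => s.1 = a) fun i => Iff.rfl).trans (Equiv.sigmaSubtype a))]
    simp
  have hlabel : ∀ i, Cfsg.compLabel μ i = (b i : ℕ) := by
    intro i
    obtain ⟨⟨a, x⟩, rfl⟩ := σ.surjective i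
    have hb : b (σ ⟨a, x⟩) = a := by simp [b]
    rw [hb]
    have hval : ((σ ⟨a, x⟩ : Fin n) : ℕ) = ∑ k ∈ Finset.Iio a, μ k + x := by
      show ((finCongr hμ (finSigmaFinEquiv ⟨a, x⟩) : Fin n) : ℕ) = _
      rw [finCongr_apply, Fin.val_cast, finSigmaFinEquiv_apply]
      congr 1
      rw [show Finset.Iio a = Finset.univ.map (Fin.castLEEmb a.2.le) from ?_, Finset.sum_map]
      · rfl
      · ext k
        simp only [Finset.mem_Iio, Finset.mem_map, Finset.mem_univ, true_and, Fin.coe_castLEEmb]
        constructor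
        · intro hk; exact ⟨⟨k, hk⟩, rfl⟩
        · rintro ⟨l, rfl⟩; exact l.2
    have hset : (Finset.univ.filter fun j : Fin n =>
        (∑ k ∈ Finset.univ.filter (fun k : Fin n => k ≤ j), μ k) ≤ ((σ ⟨a, x⟩ : Fin n) : ℕ)) = Finset.Iio a := by
      ext j
      simp only [Finset.mem_filter, Finset.mem_univ, true_and, Finset.mem_Iio]
      rw [hval]
      constructor
      · intro h
        by_contra hj
        have hsub : insert a (Finset.Iio a) ⊆ Finset.univ.filter (fun k : Fin n => k ≤ j) := by
          intro k hk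
          simp only [Finset.mem_insert, Finset.mem_Iio] at hk
          simp only [Finset.mem_filter, Finset.mem_univ, true_and]
          rcases hk with rfl | hk
          · exact not_lt.1 hj
          · exact hk.le.trans (not_lt.1 hj)
        have h' := (Finset.sum_le_sum_of_subset (f := μ) hsub).trans h
        rw [Finset.sum_insert (by simp)] at h'
        have := x.2
        omega
      · intro hj
        exact (Finset.sum_le_sum_of_subset (f := μ) (fun k hk => by
          simp only [Finset.mem_filter, Finset.mem_univ, true_and] at hk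
          exact Finset.mem_Iio.2 (lt_of_le_of_lt hk hj))).trans (Nat.le_add_right _ _)
    show (Finset.univ.filter _).card = _
    rw [hset, Fin.card_Iio]
  have hP : Nat.card (Cfsg.parabolicGL n F μ) =
      Nat.card {g : GL (Fin n) F // (g : Matrix (Fin n) (Fin n) F).BlockTriangular b} :=
    Nat.card_congr (Equiv.subtypeEquivRight fun g => by
      show Matrix.BlockTriangular _ (Cfsg.compLabel μ) ↔ _
      simp only [Matrix.BlockTriangular, hlabel, Fin.val_fin_lt])
  rw [card_block] at hP
  rw [show (∏ a, Nat.card (GL (Fin (Nat.card {i // b i = a})) F)) = ∏ a, Nat.card (GL (Fin (μ a)) F) from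
    Finset.prod_congr rfl fun a _ => by rw [hfib a]] at hP
  have hidx := Subgroup.card_eq_card_quotient_mul_card_subgroup (Cfsg.parabolicGL n F μ)
  rw [hP, card_gl] at hidx
  simp only [card_gl, Finset.prod_mul_distrib, Finset.prod_pow_eq_pow_sum, hμ] at hidx
  have hexp : ∑ i ∈ Finset.range n, i = (∑ a, ∑ i ∈ Finset.range (μ a), i) + above b := by
    have h2 := two_above b
    simp only [hfib, Fintype.card_fin] at h2
    have hk : ∀ m : ℕ, 2 * (∑ i ∈ Finset.range m, i) + m = m ^ 2 := by
      intro m
      induction m with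
      | zero => simp
      | succ m ih => rw [Finset.sum_range_succ]; ring_nf; ring_nf at ih; omega
    have hs : 2 * (∑ a, ∑ i ∈ Finset.range (μ a), i) + n = ∑ a, μ a ^ 2 := by
      refine (show _ = _ + ∑ a, μ a by rw [hμ]).trans ?_
      rw [Finset.mul_sum, ← Finset.sum_add_distrib]
      exact Finset.sum_congr rfl fun a _ => hk (μ a)
    have := hk n
    omega
  rw [hexp, pow_add] at hidx
  have hc : 0 < Fintype.card F ^ (∑ a, ∑ i ∈ Finset.range (μ a), i) * Fintype.card F ^ above b *
      (Fintype.card F - 1) ^ n := by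
    have := Fintype.one_lt_card (α := F)
    exact Nat.mul_pos (Nat.mul_pos (pow_pos (by omega) _) (pow_pos (by omega) _)) (pow_pos (by omega) _)
  apply Nat.eq_of_mul_eq_mul_left hc
  rw [hidx]
  ring

end Cfsg.Agent.S2420
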