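import Cfsg.Statements.S2431
import Cfsg.Agent.S0261
import Cfsg.Agent.S0276
import Cfsg.Agent.Lib.DicksonFourGroups
import Cfsg.Agent.Lib.DicksonAxiomsAny
import Cfsg.Agent.Lib.DicksonPolyField
import Cfsg.Agent.Lib.ClassicalPSLTwoPoly

set_option autoImplicit false
open Cfsg

namespace Cfsg.Agent.S2431

open CfsgLib.Dickson in
theorem cent_sylow {F : Type*} [Field F] [Fintype F] (hodd : Odd (Fintype.card F))
    (S : Sylow 2 (Matrix.SpecialLinearGroup (Fin 2) F)) :
    Subgroup.centralizer ((S : Subgroup (Matrix.SpecialLinearGroup (Fin 2) F)) : Set (Matrix.SpecialLinearGroup (Fin 2) F)) =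
      Subgroup.center (Matrix.SpecialLinearGroup (Fin 2) F) := by
  obtain ⟨p, hchar⟩ := CharP.exists F
  obtain ⟨n, hp, -⟩ := FiniteField.card F p
  haveI := Fact.mk hp
  obtain ⟨k, hk, ⟨e⟩⟩ := Cfsg.Agent.S0261.sylow_two_quaternion hodd S
  have hcore := core_scalPart (p := p) (ι := MonoidHom.id (Matrix.SpecialLinearGroup (Fin 2) F)) Function.injective_id
  refine le_antisymm (fun c hc => ?_) fun c hc => Subgroup.mem_centralizer_iff.2 fun s _ => Subgroup.mem_center_iff.1 hc s
  by_cases hZ : c ∈ scalPart (MonoidHom.id (Matrix.SpecialLinearGroup (Fin 2) F))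
  · exact hcore.central hZ
  exfalso
  haveI : NeZero (2 ^ k) := ⟨pow_ne_zero _ two_ne_zero⟩
  haveI : Fact (2 < 2 * 2 ^ k) := ⟨by have := Nat.pow_le_pow_right two_pos hk; omega⟩
  have h := hcore.abel c hZ (e.symm (QuaternionGroup.a 1)).1 (e.symm (QuaternionGroup.xa 0)).1
    (Subgroup.mem_centralizer_iff.1 hc _ (e.symm (QuaternionGroup.a 1)).2)
    (Subgroup.mem_centralizer_iff.1 hc _ (e.symm (QuaternionGroup.xa 0)).2)
  have h' : QuaternionGroup.a (1 : ZMod (2 * 2 ^ k)) * QuaternionGroup.xa 0 = QuaternionGroup.xa 0 * QuaternionGroup.a 1 :=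
    e.symm.injective (Subtype.ext (by rw [map_mul, map_mul]; exact h.eq))
  simp only [QuaternionGroup.a_mul_xa, QuaternionGroup.xa_mul_a, QuaternionGroup.xa.injEq, zero_sub, zero_add] at h'
  exact ZMod.neg_one_ne_one h'

open CfsgLib.Dickson in
theorem normalizer_big {F : Type*} [Field F] [Fintype F] (hodd : Odd (Fintype.card F))
    (h17 : Fintype.card F % 8 = 1 ∨ Fintype.card F % 8 = 7)
    (S : Sylow 2 (Matrix.SpecialLinearGroup (Fin 2) F)) :
    Subgroup.normalizer ((S : Subgroup (Matrix.SpecialLinearGroup (Fin 2) F)) : Set (Matrix.SpecialLinearGroup (Fin 2) F)) =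
      (S : Subgroup (Matrix.SpecialLinearGroup (Fin 2) F)) := by
  set N := Subgroup.normalizer ((S : Subgroup (Matrix.SpecialLinearGroup (Fin 2) F)) : Set (Matrix.SpecialLinearGroup (Fin 2) F)) with hN
  obtain ⟨k, hk, ⟨e⟩⟩ := Cfsg.Agent.S0261.sylow_two_quaternion hodd S
  haveI : NeZero (2 ^ k) := ⟨pow_ne_zero _ two_ne_zero⟩
  have h16 : 2 ^ 4 ∣ Nat.card (Matrix.SpecialLinearGroup (Fin 2) F) := by
    rw [CfsgLib.Classical.Two.card_sl_two, mul_assoc]
    refine Dvd.dvd.mul_left ?_ _
    obtain ⟨j, hj⟩ : ∃ j, Fintype.card F = 8 * j + 1 ∨ Fintype.card F = 8 * j + 7 := ⟨Fintype.card F / 8, by omega⟩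
    rcases hj with hj | hj
    · exact ⟨j * (4 * j + 1), by rw [hj, Nat.add_sub_cancel]; ring⟩
    · exact ⟨(4 * j + 3) * (j + 1), by rw [hj, show 8 * j + 7 - 1 = 8 * j + 6 by omega]; ring⟩
  have hk2 : 2 ≤ k := by
    have h := S.pow_dvd_card_of_pow_dvd_card h16
    rw [Nat.card_congr e.toEquiv, Nat.card_eq_fintype_card, QuaternionGroup.card,
      show 4 * 2 ^ k = 2 ^ (k + 2) by ring] at h
    have := (Nat.pow_dvd_pow_iff_le_right (by norm_num : 1 < 2)).1 h
    omega
  have hodd' : ∀ g ∈ N, Odd (orderOf g) → g = 1 := by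
    intro g hg hgo
    set m := orderOf g with hm
    have hmem : ∀ s : (S : Subgroup (Matrix.SpecialLinearGroup (Fin 2) F)), g * s.1 * g⁻¹ ∈
        (S : Subgroup (Matrix.SpecialLinearGroup (Fin 2) F)) := fun s => (Subgroup.mem_normalizer_iff.1 hg s.1).1 s.2
    let σ : QuaternionGroup (2 ^ k) →* QuaternionGroup (2 ^ k) := MonoidHom.mk' (fun s => e ⟨_, hmem (e.symm s)⟩)
      (fun a b => by
        rw [← map_mul]
        congr 1
        apply Subtype.ext
        simp [mul_assoc])
    have hit : ∀ (i : ℕ) (s), ((e.symm (σ^[i] s)).1 : Matrix.SpecialLinearGroup (Fin 2) F) =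
        g ^ i * (e.symm s).1 * (g ^ i)⁻¹ := by
      intro i
      induction i with
      | zero => intro s; simp
      | succ i ih =>
        intro s
        have e1 : ∀ t, ((e.symm (σ t)).1 : Matrix.SpecialLinearGroup (Fin 2) F) = g * (e.symm t).1 * g⁻¹ := fun t => by
          simp [σ]
        rw [Function.iterate_succ_apply', e1, ih s, pow_succ', mul_inv_rev]
        simp only [mul_assoc]
    have hfix : ∀ s, σ^[m] s = s := fun s => e.symm.injective (Subtype.ext (by
      rw [hit, hm, pow_orderOf_eq_one]; simp))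
    have hinj : Function.Injective σ := fun a b h => by
      have h' := congrArg (fun s => (e.symm s).1) h
      simp only [σ, MonoidHom.mk'_apply, MulEquiv.symm_apply_apply] at h'
      exact e.symm.injective (Subtype.ext (mul_left_cancel (mul_right_cancel h')))
    have hord : ∀ s, orderOf (σ s) = orderOf s := fun s => orderOf_injective σ hinj s
    obtain ⟨i, hi⟩ : ∃ i, σ (QuaternionGroup.a 1) = QuaternionGroup.a i := by
      rcases hc : σ (QuaternionGroup.a 1) with i | i
      · exact ⟨i, rfl⟩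
      · have := hord (QuaternionGroup.a 1)
        rw [hc, QuaternionGroup.orderOf_xa, QuaternionGroup.orderOf_a_one] at this
        have := Nat.pow_le_pow_right two_pos hk2
        omega
    have ha : ∀ j, σ (QuaternionGroup.a j) = QuaternionGroup.a (i * j) := by
      intro j
      obtain ⟨l, rfl⟩ := ZMod.natCast_zmod_surjective j
      rw [← QuaternionGroup.a_one_pow, map_pow, hi]
      induction l with
      | zero => rw [pow_zero, Nat.cast_zero, mul_zero]; rfl
      | succ l ih => rw [pow_succ, ih, QuaternionGroup.a_mul_a]; congr 1; push_cast; ring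
    have hai : ∀ l : ℕ, σ^[l] (QuaternionGroup.a 1) = QuaternionGroup.a (i ^ l) := by
      intro l
      induction l with
      | zero => simp
      | succ l ih => rw [Function.iterate_succ_apply', ih, ha, pow_succ']
    have him : i ^ m = 1 := by simpa using (hai m).symm.trans (hfix _)
    have hi1 : i = 1 := by
      obtain ⟨u, hu⟩ : IsUnit i := (isUnit_pow_iff (n := m) (by rcases hgo with ⟨w, hw⟩; omega)).1 (him ▸ isUnit_one)
      have hum : u ^ m = 1 := Units.ext (by rw [Units.val_pow_eq_pow_val, hu, him, Units.val_one])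
      have h1 : orderOf u ∣ m := orderOf_dvd_of_pow_eq_one hum
      have h2 : orderOf u ∣ Fintype.card (ZMod (2 * 2 ^ k))ˣ := orderOf_dvd_card
      have hc : Fintype.card (ZMod (2 * 2 ^ k))ˣ = 2 ^ k := by
        rw [ZMod.card_units_eq_totient, show 2 * 2 ^ k = 2 ^ (k + 1) by ring, Nat.totient_prime_pow Nat.prime_two (by omega)]
        simp
      rw [hc] at h2
      have h3 : Nat.Coprime m (2 ^ k) := Nat.Coprime.pow_right k (Nat.coprime_two_right.2 hgo)
      have := Nat.eq_one_of_dvd_coprimes h3 h1 h2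
      rw [orderOf_eq_one_iff] at this
      rw [← hu, this, Units.val_one]
    simp only [hi1, one_mul] at ha
    obtain ⟨r, hr⟩ : ∃ r, σ (QuaternionGroup.xa 0) = QuaternionGroup.xa r := by
      rcases hc : σ (QuaternionGroup.xa 0) with r | r
      · exact absurd (hinj ((ha r).trans hc.symm)) (by simp)
      · exact ⟨r, rfl⟩
    have hx : ∀ j, σ (QuaternionGroup.xa j) = QuaternionGroup.xa (r + j) := fun j => by
      have : (QuaternionGroup.xa j : QuaternionGroup (2 ^ k)) = QuaternionGroup.xa 0 * QuaternionGroup.a j := by simp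
      rw [this, map_mul, hr, ha, QuaternionGroup.xa_mul_a]
    have hxi : ∀ l : ℕ, σ^[l] (QuaternionGroup.xa 0) = QuaternionGroup.xa ((l : ZMod (2 * 2 ^ k)) * r) := by
      intro l
      induction l with
      | zero => simp
      | succ l ih => rw [Function.iterate_succ_apply', ih, hx]; congr 1; push_cast; ring
    have hmr : (m : ZMod (2 * 2 ^ k)) * r = 0 := by simpa using (hxi m).symm.trans (hfix _)
    have hr0 : r = 0 := by
      have hu : IsUnit (m : ZMod (2 * 2 ^ k)) := by
        rw [ZMod.isUnit_iff_coprime, show 2 * 2 ^ k = 2 ^ (k + 1) by ring]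
        exact Nat.Coprime.pow_right _ (Nat.coprime_two_right.2 hgo)
      exact hu.mul_right_eq_zero.1 hmr
    simp only [hr0, zero_add] at hx
    have hgc : g ∈ Subgroup.centralizer ((S : Subgroup (Matrix.SpecialLinearGroup (Fin 2) F)) : Set (Matrix.SpecialLinearGroup (Fin 2) F)) := by
      rw [Subgroup.mem_centralizer_iff]
      intro s hs
      have hfix1 : σ (e ⟨s, hs⟩) = e ⟨s, hs⟩ := by
        rcases e ⟨s, hs⟩ with j | j
        · exact ha j
        · exact hx j
      simp only [σ, MonoidHom.mk'_apply, EmbeddingLike.apply_eq_iff_eq] at hfix1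
      have := congrArg Subtype.val hfix1
      simp only [MulEquiv.symm_apply_apply] at this
      exact (mul_inv_eq_iff_eq_mul.1 this).symm
    rw [cent_sylow hodd S] at hgc
    have hsc : IsScal g := isScal_iff_commute.2
      ⟨(Subgroup.mem_center_iff.1 hgc _).symm, (Subgroup.mem_center_iff.1 hgc _).symm⟩
    have hgg : g * g = 1 := by
      obtain ⟨h1, h2, h3⟩ := hsc
      have hd := g.2
      rw [Matrix.det_fin_two, h1, h2, h3] at hd
      refine sl_ext ?_ ?_ ?_ ?_ <;> simp [Matrix.mul_apply, Fin.sum_univ_two, h1, h2, h3] <;> linear_combination hd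
    rw [← orderOf_eq_one_iff]
    exact Nat.eq_one_of_dvd_coprimes (Nat.coprime_two_right.2 hgo) dvd_rfl (orderOf_dvd_of_pow_eq_one (by rw [pow_two, hgg]))
  have hpN : IsPGroup 2 N := by
    intro x
    obtain ⟨a, m, hm, hm'⟩ := Nat.exists_eq_two_pow_mul_odd (orderOf_pos x).ne'
    refine ⟨a, Subtype.ext (hodd' (x ^ 2 ^ a).1 (x ^ 2 ^ a).2 ?_)⟩
    rw [Subgroup.orderOf_coe, orderOf_pow' _ (pow_ne_zero _ two_ne_zero), hm',
      Nat.gcd_eq_right (Dvd.intro m rfl), Nat.mul_div_cancel_left _ (pow_pos two_pos a)]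
    exact hm
  exact S.3 hpN Subgroup.le_normalizer

open CfsgLib.Dickson in
theorem normalizer_small {F : Type*} [Field F] [Fintype F] (hodd : Odd (Fintype.card F))
    (h35 : Fintype.card F % 8 = 3 ∨ Fintype.card F % 8 = 5)
    (S : Sylow 2 (Matrix.SpecialLinearGroup (Fin 2) F)) :
    Nat.card (Subgroup.normalizer ((S : Subgroup (Matrix.SpecialLinearGroup (Fin 2) F)) : Set (Matrix.SpecialLinearGroup (Fin 2) F))) =
      3 * Nat.card S := by
  classical
  set π := QuotientGroup.mk' (Subgroup.center (Matrix.SpecialLinearGroup (Fin 2) F))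
  have hπ : Function.Surjective π := QuotientGroup.mk'_surjective _
  set P := S.mapSurjective hπ with hP
  have hcenS : Subgroup.center (Matrix.SpecialLinearGroup (Fin 2) F) ≤ (S : Subgroup (Matrix.SpecialLinearGroup (Fin 2) F)) := by
    intro c hc
    rw [← cent_sylow hodd S] at hc
    have h2 : IsPGroup 2 (Subgroup.center (Matrix.SpecialLinearGroup (Fin 2) F)) := by
      intro x
      refine ⟨1, ?_⟩
      have hsc : IsScal x.1 := isScal_iff_commute.2
        ⟨(Subgroup.mem_center_iff.1 x.2 _).symm, (Subgroup.mem_center_iff.1 x.2 _).symm⟩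
      obtain ⟨h1, h2, h3⟩ := hsc
      have hd := x.1.2
      rw [Matrix.det_fin_two, h1, h2, h3] at hd
      apply Subtype.ext
      rw [pow_one, SubgroupClass.coe_pow, pow_two]
      refine sl_ext ?_ ?_ ?_ ?_ <;> simp [Matrix.mul_apply, Fin.sum_univ_two, h1, h2, h3] <;> linear_combination hd
    obtain ⟨Q, hQ⟩ := h2.exists_le_sylow
    obtain ⟨g, hg⟩ := MulAction.exists_smul_eq (Matrix.SpecialLinearGroup (Fin 2) F) Q S
    have hc' : c ∈ Subgroup.center (Matrix.SpecialLinearGroup (Fin 2) F) := cent_sylow hodd S ▸ hc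
    rw [← hg, Sylow.coe_subgroup_smul, Subgroup.mem_pointwise_smul_iff_inv_smul_mem]
    simpa [Subgroup.mem_center_iff.1 hc' g⁻¹, mul_assoc] using hQ hc'
  have hS : (P : Subgroup (PSL F)).comap π = (S : Subgroup (Matrix.SpecialLinearGroup (Fin 2) F)) := by
    rw [hP, Sylow.coe_mapSurjective, Subgroup.comap_map_eq_self (by rwa [QuotientGroup.ker_mk'])]
  have hPK : IsKleinFour (P : Subgroup (PSL F)) := Cfsg.Agent.S0276.result rfl h35 P
  obtain ⟨u, v, h, hV⟩ := exists_pair hPK
  obtain ⟨H, -, ⟨eH⟩⟩ := CfsgLib.Classical.exists_alt_four_of_odd (F := F) hodd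
  have hle := card_normalizer_le hodd h
  have hd := dvd_normalizer hodd eH klein_alt_four h
  rw [hV] at hle hd
  rw [nat_card_alternatingGroup, Nat.card_fin, show (4 : ℕ).factorial / 2 = 12 from rfl] at hd
  have h12 : Nat.card (Subgroup.normalizer ((P : Subgroup (PSL F)) : Set (PSL F))) = 12 := by
    have hpos : 0 < Nat.card (Subgroup.normalizer ((P : Subgroup (PSL F)) : Set (PSL F))) := Nat.card_pos
    by_contra hne
    have h24 : Nat.card (Subgroup.normalizer ((P : Subgroup (PSL F)) : Set (PSL F))) = 24 := by omega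
    have h8 : 2 ^ 3 ∣ Nat.card (PSL F) :=
      ((show 2 ^ 3 ∣ 24 by norm_num).trans h24.symm.dvd).trans (Subgroup.card_subgroup_dvd_card _)
    have := P.pow_dvd_card_of_pow_dvd_card h8
    rw [hPK.card_four] at this
    norm_num at this
  have hcard : ∀ X : Subgroup (PSL F), Nat.card (X.comap π) = Nat.card π.ker * Nat.card X := by
    intro X
    have h1 := (X.comap π).card_mul_index
    rw [X.index_comap_of_surjective hπ, ← π.ker.card_mul_index, Subgroup.index_ker,
      MonoidHom.range_eq_top.2 hπ, Subgroup.card_top, ← X.card_mul_index, ← mul_assoc] at h1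
    exact Nat.eq_of_mul_eq_mul_right (Nat.pos_of_ne_zero Subgroup.FiniteIndex.index_ne_zero) h1
  rw [← hS, ← Subgroup.comap_normalizer_eq_of_surjective _ hπ, hcard, hcard, h12, hPK.card_four]
  ring

/-- Let F be a finite field with q elements, q odd, and S a Sylow 2-subgroup of SL₂ over F. The centraliser of S is the centre of SL₂ (of order 2); S is its own normaliser when q ≡ ±1 mod 8, and has index 3 in its normaliser when q ≡ ±3 mod 8. -/
theorem result {F : Type*} [Field F] [Fintype F] (hodd : Odd (Fintype.card F)) (S : Sylow 2 (Matrix.SpecialLinearGroup (Fin 2) F)) :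
    Subgroup.centralizer ((S : Subgroup (Matrix.SpecialLinearGroup (Fin 2) F)) : Set (Matrix.SpecialLinearGroup (Fin 2) F)) = Subgroup.center (Matrix.SpecialLinearGroup (Fin 2) F) ∧
    ((Fintype.card F % 8 = 1 ∨ Fintype.card F % 8 = 7) →
      Subgroup.normalizer ((S : Subgroup (Matrix.SpecialLinearGroup (Fin 2) F)) : Set (Matrix.SpecialLinearGroup (Fin 2) F)) = (S : Subgroup (Matrix.SpecialLinearGroup (Fin 2) F))) ∧
    ((Fintype.card F % 8 = 3 ∨ Fintype.card F % 8 = 5) →
      Nat.card (Subgroup.normalizer ((S : Subgroup (Matrix.SpecialLinearGroup (Fin 2) F)) : Set (Matrix.SpecialLinearGroup (Fin 2) F))) = 3 * Nat.card S) := by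
  exact ⟨cent_sylow hodd S, fun h => normalizer_big hodd h S, fun h => normalizer_small hodd h S⟩

end Cfsg.Agent.S2431
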