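import Cfsg.Statements.S2434
import Cfsg.Agent.Lib.LieSLTwoCuspidalTable

set_option autoImplicit false
open Cfsg

namespace Cfsg.Agent.S2434

/-- Let F be a finite field with q elements, q odd, and C a cyclic subgroup of order q + 1 of SL₂ over F (a non-split torus; it contains the centre). For every homomorphism θ from C to the non-zero complex numbers with θ² ≠ 1 there is an irreducible complex character χ of degree q − 1 such that χ(c) = −θ(c) − θ(c)⁻¹ for every non-central c in C, χ(zg) = θ(z)χ(g) for central z in C, χ vanishes at diagonal elements with entry a, a² ≠ 1, and χ takes the value −1 at every upper unitriangular element other than 1. Conversely every irreducible character of degree q − 1 has, for some such θ, the values −θ(c) − θ(c)⁻¹ at the non-central elements c of C (for q ≥ 5 these are exactly the cuspidal characters of degree q − 1). -/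
theorem result {F : Type*} [Field F] [Fintype F] (hodd : Odd (Fintype.card F))
    (C : Subgroup (Matrix.SpecialLinearGroup (Fin 2) F)) (hC : IsCyclic C) (hcard : Nat.card C = Fintype.card F + 1) :
    (∀ θ : C →* ℂˣ, (∃ c : C, θ c ^ 2 ≠ 1) →
      ∃ χ : Matrix.SpecialLinearGroup (Fin 2) F → ℂ, Cfsg.IsIrrCharacter (Matrix.SpecialLinearGroup (Fin 2) F) χ ∧ χ 1 = (Fintype.card F : ℂ) - 1 ∧
        (∀ c : C, (c : Matrix.SpecialLinearGroup (Fin 2) F) ∉ Subgroup.center (Matrix.SpecialLinearGroup (Fin 2) F) → χ c = -((θ c).val + (θ c)⁻¹.val)) ∧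
        (∀ c : C, (c : Matrix.SpecialLinearGroup (Fin 2) F) ∈ Subgroup.center (Matrix.SpecialLinearGroup (Fin 2) F) → ∀ g : Matrix.SpecialLinearGroup (Fin 2) F, χ ((c : Matrix.SpecialLinearGroup (Fin 2) F) * g) = (θ c).val * χ g) ∧
        (∀ g : Matrix.SpecialLinearGroup (Fin 2) F, (g : Matrix (Fin 2) (Fin 2) F) 0 1 = 0 → (g : Matrix (Fin 2) (Fin 2) F) 1 0 = 0 → (g : Matrix (Fin 2) (Fin 2) F) 0 0 ^ 2 ≠ 1 → χ g = 0) ∧
        (∀ g : Matrix.SpecialLinearGroup (Fin 2) F, (g : Matrix (Fin 2) (Fin 2) F) 1 0 = 0 → (g : Matrix (Fin 2) (Fin 2) F) 0 0 = 1 → (g : Matrix (Fin 2) (Fin 2) F) 1 1 = 1 → (g : Matrix (Fin 2) (Fin 2) F) 0 1 ≠ 0 → χ g = -1)) ∧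
    (∀ χ : Matrix.SpecialLinearGroup (Fin 2) F → ℂ, Cfsg.IsIrrCharacter (Matrix.SpecialLinearGroup (Fin 2) F) χ → χ 1 = (Fintype.card F : ℂ) - 1 →
      ∃ θ : C →* ℂˣ, (∃ c : C, θ c ^ 2 ≠ 1) ∧
        ∀ c : C, (c : Matrix.SpecialLinearGroup (Fin 2) F) ∉ Subgroup.center (Matrix.SpecialLinearGroup (Fin 2) F) → χ c = -((θ c).val + (θ c)⁻¹.val)) := by
  classical
  open CfsgLib.Lie.SLTwoCusp CfsgLib.Lie.SLTwoTable in
  haveI := hC
  refine ⟨fun θ hθ => ?_, fun χ hχ hd => ?_⟩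
  · obtain ⟨ω, hω⟩ := CfsgLib.Lie.SLTwoCusp.exists_omega hodd C hcard θ
    have hθ' : θ * θ ≠ 1 := by
      obtain ⟨c, hc⟩ := hθ
      exact fun e => hc (by rw [sq, ← MonoidHom.mul_apply, e, MonoidHom.one_apply])
    have hi := CfsgLib.Lie.SLTwoCusp.isIrr_X hodd C hcard ω θ hω hθ'
    refine ⟨_, hi, CfsgLib.Lie.SLTwoCusp.X_one hodd C hcard ω θ, fun c hc => ?_, fun c hc g => ?_,
      fun g h01 h10 ha => CfsgLib.Lie.SLTwoCusp.X_split hodd C hcard ω θ h01 h10 ha, fun g h10 h00 h11 h01 => ?_⟩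
    · exact CfsgLib.Lie.SLTwoCusp.X_torus hodd C hcard ω θ c (fun h => hc (CfsgLib.Lie.SLTwoCusp.mem_center_iff.2 h))
    · rcases CfsgLib.Lie.SLTwoCusp.scal_cases (CfsgLib.Lie.SLTwoCusp.mem_center_iff.1 hc) with e | e
      · rw [e, show c = 1 from Subtype.ext e, map_one, Units.val_one, one_mul, one_mul]
      · rw [e, neg_one_mul, CfsgLib.Lie.SLTwoCusp.X_neg hodd C hcard ω θ hω, hω,
          show c = ⟨-1, CfsgLib.Lie.SLTwoCusp.neg_one_mem hodd C hcard⟩ from Subtype.ext e]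
    · have e : g = CfsgLib.Dickson.upperU (g.1 0 1) := by
        refine CfsgLib.Dickson.sl_ext ?_ ?_ ?_ ?_ <;> simp [CfsgLib.Dickson.coe_upperU, h10, h00, h11]
      rw [e]
      exact CfsgLib.Lie.SLTwoCusp.X_unip hodd C hcard ω θ h01
  · obtain ⟨T, hT2, hT, hTp, -⟩ := CfsgLib.Lie.SLTwoCusp.param hodd C hcard
    have hex : ∀ θ : C →* ℂˣ, θ * θ ≠ 1 → ∃ c : C, θ c ^ 2 ≠ 1 := fun θ h => by
      by_contra hall
      push Not at hall
      exact h (MonoidHom.ext fun c => by rw [MonoidHom.mul_apply, ← sq, hall, MonoidHom.one_apply])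
    rcases CfsgLib.Lie.SLTwoCusp.deg_sub_one hodd χ hχ hd with ha | ⟨h3, hv⟩
    · obtain ⟨ω, θ, hθ, -, e⟩ := hTp ⟨χ, hχ⟩ ((hT _).2 ⟨hd, ha⟩)
      refine ⟨θ, hex θ hθ, fun c hc => ?_⟩
      rw [show χ = _ from e]
      exact CfsgLib.Lie.SLTwoCusp.X_torus hodd C hcard ω θ c (fun h => hc (CfsgLib.Lie.SLTwoCusp.mem_center_iff.2 h))
    · obtain ⟨z, hz⟩ : T.Nonempty := Finset.card_pos.1 (by omega)
      obtain ⟨ω, θ, hθ, -, -⟩ := hTp z hz
      refine ⟨θ, hex θ hθ, fun c hc => ?_⟩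
      have hs : ¬ CfsgLib.Dickson.IsScal (c : Matrix.SpecialLinearGroup (Fin 2) F) := fun h => hc (CfsgLib.Lie.SLTwoCusp.mem_center_iff.2 h)
      rw [hv _ (CfsgLib.Lie.SLTwoCusp.not_hasEig_iff.1 (CfsgLib.Lie.SLTwoCusp.no_eig hodd C hcard c.2 hs)),
        CfsgLib.Lie.SLTwoCusp.three_torus hodd C hcard h3 θ hθ c hs, neg_zero]

end Cfsg.Agent.S2434
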