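import Cfsg.Statements.S2435
import Cfsg.Agent.Lib.LieSLTwoCuspidalTable

set_option autoImplicit false
open Cfsg

namespace Cfsg.Agent.S2435

/-- Let F be a finite field with q elements, q odd and q ≥ 5, and χ an irreducible complex character of SL₂ over F. If χ has degree (q + 1)/2, then at a diagonal element with entry a, a² ≠ 1, χ takes the value 1 when a is a square in F and −1 otherwise. If χ has degree (q − 1)/2, then at an element g with no eigenvector in F² (so g has order dividing q + 1), χ takes the value −1 when g raised to the power (q + 1)/2 is the identity and the value 1 otherwise. -/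
theorem result {F : Type*} [Field F] [Fintype F] (hodd : Odd (Fintype.card F)) (hq : 5 ≤ Fintype.card F)
    (χ : Matrix.SpecialLinearGroup (Fin 2) F → ℂ) (hχ : Cfsg.IsIrrCharacter (Matrix.SpecialLinearGroup (Fin 2) F) χ) (g : Matrix.SpecialLinearGroup (Fin 2) F) :
    (χ 1 = (((Fintype.card F + 1) / 2 : ℕ) : ℂ) → (g : Matrix (Fin 2) (Fin 2) F) 0 1 = 0 → (g : Matrix (Fin 2) (Fin 2) F) 1 0 = 0 → (g : Matrix (Fin 2) (Fin 2) F) 0 0 ^ 2 ≠ 1 →
      (IsSquare ((g : Matrix (Fin 2) (Fin 2) F) 0 0) → χ g = 1) ∧ (¬ IsSquare ((g : Matrix (Fin 2) (Fin 2) F) 0 0) → χ g = -1)) ∧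
    (χ 1 = (((Fintype.card F - 1) / 2 : ℕ) : ℂ) → (∀ (c : F) (v : Fin 2 → F), v ≠ 0 → (g : Matrix (Fin 2) (Fin 2) F).mulVec v ≠ c • v) →
      (((g ^ ((Fintype.card F + 1) / 2)) : Matrix (Fin 2) (Fin 2) F) = 1 → χ g = -1) ∧ (((g ^ ((Fintype.card F + 1) / 2)) : Matrix (Fin 2) (Fin 2) F) ≠ 1 → χ g = 1)) := by
  classical
  have hm := Nat.odd_iff.1 hodd
  refine ⟨fun hd h01 h10 ha => ?_, fun hd hg => ?_⟩
  · obtain ⟨ε, hε⟩ := CfsgLib.Lie.SLTwoTable.exists_eps hodd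
    have hdet := CfsgLib.Dickson.det_eq g
    rw [h01, zero_mul, sub_zero] at hdet
    have h00 : g.1 0 0 ≠ 0 := fun e => by rw [e, zero_mul] at hdet; exact zero_ne_one hdet
    have hgup : g = CfsgLib.Lie.SLTwoPS.up (Units.mk0 _ h00) 0 := by
      refine CfsgLib.Dickson.sl_ext ?_ ?_ ?_ ?_ <;> simp [CfsgLib.Lie.SLTwoPS.up, h01, h10]
      exact eq_inv_of_mul_eq_one_right hdet
    rcases CfsgLib.Lie.SLTwoTable.kinds_odd hodd ε hε χ hχ with ⟨-, h⟩ | ⟨-, h⟩ | ⟨-, h⟩ | ⟨-, -, -, hav, -⟩ | ⟨h, -⟩ | ⟨h, -⟩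
    case inr.inr.inr.inl =>
      have hv : χ g = (CfsgLib.Lie.SLTwoTable.sgn : MulChar F ℂ) (g.1 0 0) := by
        have e := hav (Units.mk0 _ h00)
        rw [CfsgLib.Lie.SLTwoTable.avg_regular (CfsgLib.Char.isCharacter_classFunction hχ.isCharacter') _ ha, ← hgup] at e
        exact e
      rcases CfsgLib.Lie.SLTwoTable.sgn_cases h00 with ⟨hs, h⟩ | ⟨hs, h⟩
      · exact ⟨fun _ => by rw [hv, h], fun hn => absurd hs hn⟩
      · exact ⟨fun hs' => absurd hs' hs, fun _ => by rw [hv, h]⟩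
    all_goals exfalso; have := Nat.cast_inj.1 (h.symm.trans hd); omega
  · obtain ⟨C, hC, hcard, hgC⟩ := CfsgLib.Lie.SLTwoCusp.exists_torus_of_no_eig hodd (CfsgLib.Lie.SLTwoCusp.not_hasEig_iff.2 hg)
    haveI := hC
    have hs := (CfsgLib.Lie.SLTwoTable.no_eigen_data hg).1
    obtain ⟨h1, h2⟩ := CfsgLib.Lie.SLTwoCusp.half_value hodd C hcard hq hχ hd ⟨g, hgC⟩ hs
    have hiff : ((g ^ ((Fintype.card F + 1) / 2)) : Matrix (Fin 2) (Fin 2) F) = 1 ↔ g ^ ((Fintype.card F + 1) / 2) = 1 :=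
      ⟨fun h => Subtype.ext h, fun h => congrArg Subtype.val h⟩
    exact ⟨fun h => h1 (hiff.1 h), fun h => h2 (fun e => h (hiff.2 e))⟩

end Cfsg.Agent.S2435
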