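import Cfsg.Statements.S2438
import Cfsg.Agent.Lib.LieSLTwoTableCases

set_option autoImplicit false
open Cfsg

namespace Cfsg.Agent.S2438

/-- Let F be a finite field with q elements, q odd, q ≥ 5, U the upper unitriangular subgroup of SL₂ over F, and χ an irreducible complex character. The sum of the values of χ over U equals 2q, q, 0, q, 0 according as the degree of χ is q + 1, q, q − 1, (q + 1)/2, (q − 1)/2; so among these five degrees the sum vanishes exactly for the degrees q − 1 and (q − 1)/2, i.e. the irreducible characters of those two degrees are the ones whose restriction to U does not contain the trivial character (the cuspidal characters), while those of degree q + 1, q and (q + 1)/2 are not cuspidal. -/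
theorem result {F : Type*} [Field F] [Fintype F] [DecidableEq F] (hodd : Odd (Fintype.card F)) (hq : 5 ≤ Fintype.card F)
    (χ : Matrix.SpecialLinearGroup (Fin 2) F → ℂ) (hχ : Cfsg.IsIrrCharacter (Matrix.SpecialLinearGroup (Fin 2) F) χ) :
    (χ 1 = (Fintype.card F : ℂ) + 1 →
      (∑ g : Matrix.SpecialLinearGroup (Fin 2) F, if (g : Matrix (Fin 2) (Fin 2) F) 1 0 = 0 ∧ (g : Matrix (Fin 2) (Fin 2) F) 0 0 = 1 ∧ (g : Matrix (Fin 2) (Fin 2) F) 1 1 = 1 then χ g else 0) = 2 * (Fintype.card F : ℂ)) ∧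
    (χ 1 = (Fintype.card F : ℂ) →
      (∑ g : Matrix.SpecialLinearGroup (Fin 2) F, if (g : Matrix (Fin 2) (Fin 2) F) 1 0 = 0 ∧ (g : Matrix (Fin 2) (Fin 2) F) 0 0 = 1 ∧ (g : Matrix (Fin 2) (Fin 2) F) 1 1 = 1 then χ g else 0) = (Fintype.card F : ℂ)) ∧
    (χ 1 = (Fintype.card F : ℂ) - 1 →
      (∑ g : Matrix.SpecialLinearGroup (Fin 2) F, if (g : Matrix (Fin 2) (Fin 2) F) 1 0 = 0 ∧ (g : Matrix (Fin 2) (Fin 2) F) 0 0 = 1 ∧ (g : Matrix (Fin 2) (Fin 2) F) 1 1 = 1 then χ g else 0) = 0) ∧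
    (χ 1 = (((Fintype.card F + 1) / 2 : ℕ) : ℂ) →
      (∑ g : Matrix.SpecialLinearGroup (Fin 2) F, if (g : Matrix (Fin 2) (Fin 2) F) 1 0 = 0 ∧ (g : Matrix (Fin 2) (Fin 2) F) 0 0 = 1 ∧ (g : Matrix (Fin 2) (Fin 2) F) 1 1 = 1 then χ g else 0) = (Fintype.card F : ℂ)) ∧
    (χ 1 = (((Fintype.card F - 1) / 2 : ℕ) : ℂ) →
      (∑ g : Matrix.SpecialLinearGroup (Fin 2) F, if (g : Matrix (Fin 2) (Fin 2) F) 1 0 = 0 ∧ (g : Matrix (Fin 2) (Fin 2) F) 0 0 = 1 ∧ (g : Matrix (Fin 2) (Fin 2) F) 1 1 = 1 then χ g else 0) = 0) := by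
  classical
  open CfsgLib.Lie.SLTwoTable CfsgLib.Lie.SLTwoPS in
  have hsum : (∑ g : Matrix.SpecialLinearGroup (Fin 2) F, if (g : Matrix (Fin 2) (Fin 2) F) 1 0 = 0 ∧ (g : Matrix (Fin 2) (Fin 2) F) 0 0 = 1 ∧ (g : Matrix (Fin 2) (Fin 2) F) 1 1 = 1 then χ g else 0) = (Fintype.card F : ℂ) * avg χ 1 := by
    rw [avg_one, ← mul_assoc, mul_inv_cancel₀ q_ne_zero, one_mul, ← Finset.sum_filter]
    refine Finset.sum_bij' (fun g _ => g.1 0 1) (fun z _ => CfsgLib.Dickson.upperU z) (fun g _ => Finset.mem_univ _)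
      (fun z _ => ?_) (fun g hg => ?_) (fun z _ => ?_) (fun g hg => ?_)
    · simp [CfsgLib.Dickson.coe_upperU]
    · obtain ⟨-, h1, h2, h3⟩ := Finset.mem_filter.1 hg
      refine CfsgLib.Dickson.sl_ext ?_ ?_ ?_ ?_ <;> simp [CfsgLib.Dickson.coe_upperU, h1, h2, h3]
    · simp [CfsgLib.Dickson.coe_upperU]
    · obtain ⟨-, h1, h2, h3⟩ := Finset.mem_filter.1 hg
      congr 1
      refine CfsgLib.Dickson.sl_ext ?_ ?_ ?_ ?_ <;> simp [CfsgLib.Dickson.coe_upperU, h1, h2, h3]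
  rw [hsum, CfsgLib.Lie.SLTwoTable.cast_q_add_one, CfsgLib.Lie.SLTwoTable.cast_q_sub_one]
  have hm := Nat.odd_iff.1 hodd
  open CfsgLib.Lie.SLTwoTable CfsgLib.Lie.SLTwoPS in
  obtain ⟨ε, hε⟩ := exists_eps hodd
  open CfsgLib.Lie.SLTwoTable CfsgLib.Lie.SLTwoPS in
  rcases kinds_odd hodd ε hε χ hχ with ⟨-, h⟩ | ⟨rfl, h⟩ | ⟨⟨α, -, rfl⟩, h⟩ | ⟨h, -, -, ha, -⟩ | ⟨h, ha, -⟩ | ⟨h, ha, -⟩ <;>
    refine ⟨fun hd => ?_, fun hd => ?_, fun hd => ?_, fun hd => ?_, fun hd => ?_⟩ <;>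
    first
      | (exfalso; have := Nat.cast_inj.1 (h.symm.trans hd); omega)
      | (rw [avg_ps_one, mul_comm])
      | (rw [avg_st, mul_one])
      | (rw [ha 1, Units.val_one, map_one, mul_one])
      | (rw [ha, mul_zero])

end Cfsg.Agent.S2438
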