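import Cfsg.Statements.S2532


set_option autoImplicit false
open Cfsg

namespace Cfsg.Agent.S2532

/-- There is a function `f` of two natural-number arguments such that, whenever `m ≥ f(n, r)`, every subgroup of order `n` of the alternating group of degree `m` centralizes some subgroup of that alternating group isomorphic to the alternating group of degree `r`. -/
theorem result :
    ∃ f : ℕ → ℕ → ℕ, ∀ (m r : ℕ) (H : Subgroup ↥(alternatingGroup (Fin m))), f (Nat.card H) r ≤ m →
      ∃ K : Subgroup ↥(alternatingGroup (Fin m)), Nonempty (↥K ≃* ↥(alternatingGroup (Fin r))) ∧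
        K ≤ Subgroup.centralizer (H : Set ↥(alternatingGroup (Fin m))) := by
  classical
  refine ⟨fun k r => k * (2 ^ k * r) + 1, fun m r H hm => ?_⟩
  haveI : Fintype ↥H := Fintype.ofFinite _
  set k := Nat.card ↥H with hk
  -- the orbits are numerous
  let Ω := MulAction.orbitRel.Quotient ↥H (Fin m)
  haveI : Fintype Ω := Fintype.ofFinite _
  haveI : Fintype (Subgroup ↥H) := Fintype.ofFinite _
  have hΩ : m ≤ Fintype.card Ω * k := by
    have hsurj : Function.Surjective (fun p : Ω × ↥H => p.2 • p.1.out) := by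
      intro y
      have h0 : (MulAction.orbitRel ↥H (Fin m)) y (Quotient.out (Quotient.mk (MulAction.orbitRel ↥H (Fin m)) y)) :=
        (MulAction.orbitRel ↥H (Fin m)).symm (Quotient.mk_out y)
      obtain ⟨h, hh⟩ := h0
      exact ⟨⟨Quotient.mk _ y, h⟩, hh⟩
    have := Nat.card_le_card_of_surjective _ hsurj
    simpa [Nat.card_prod, hk] using this
  have hsub : Fintype.card (Subgroup ↥H) ≤ 2 ^ k := by
    have := Nat.card_le_card_of_injective (fun S : Subgroup ↥H => (S : Set ↥H)) SetLike.coe_injective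
    rw [Nat.card_eq_fintype_card, Nat.card_eq_fintype_card (α := Set ↥H), Fintype.card_set] at this
    rwa [hk, Nat.card_eq_fintype_card]
  have hkpos : 0 < k := Nat.card_pos
  obtain ⟨S, hS⟩ : ∃ S : Subgroup ↥H, r ≤ (Finset.univ.filter (fun ω : Ω => MulAction.stabilizer ↥H ω.out = S)).card := by
    apply Fintype.exists_le_card_fiber_of_mul_le_card
    refine le_trans (Nat.mul_le_mul_right r hsub) ?_
    refine Nat.le_of_mul_le_mul_left ?_ hkpos
    rw [Nat.mul_comm k (Fintype.card Ω)]
    exact le_trans (le_trans (Nat.le_succ _) hm) hΩ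
  obtain ⟨ω⟩ : Nonempty (Fin r ↪ {x : Ω // MulAction.stabilizer ↥H x.out = S}) := by
    rw [Function.Embedding.nonempty_iff_card_le, Fintype.card_fin, Fintype.card_subtype]
    exact hS
  let x : Fin r → Fin m := fun i => (ω i).1.out
  have hst : ∀ i (a b : ↥H), a⁻¹ * b ∈ S ↔ a • x i = b • x i := by
    intro i a b
    rw [← (ω i).2, MulAction.mem_stabilizer_iff, mul_smul, inv_smul_eq_iff]
    exact eq_comm
  let e : Fin r × (↥H ⧸ S) → Fin m := fun p =>
    Quotient.liftOn' p.2 (fun h => h • x p.1) (fun a b hab => (hst p.1 a b).1 (QuotientGroup.leftRel_apply.1 hab))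
  have he : ∀ i (h : ↥H), e (i, (h : ↥H ⧸ S)) = h • x i := fun i h => rfl
  have hinj : Function.Injective e := by
    rintro ⟨i, a⟩ ⟨j, b⟩ hab
    induction a using QuotientGroup.induction_on with
    | H a =>
      induction b using QuotientGroup.induction_on with
      | H b =>
        rw [he, he] at hab
        have hij : i = j := by
          apply ω.injective
          apply Subtype.ext
          rw [← Quotient.out_eq (ω i).1, ← Quotient.out_eq (ω j).1]
          apply Quotient.sound
          show x i ∈ MulAction.orbit ↥H (x j)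
          exact ⟨a⁻¹ * b, by show (a⁻¹ * b) • x j = x i; rw [mul_smul, ← hab, inv_smul_smul]⟩
        subst hij
        rw [QuotientGroup.eq.2 ((hst i a b).2 hab)]
  let f := Equiv.ofInjective e hinj
  let P : Equiv.Perm (Fin r) →* Equiv.Perm (Fin r × (↥H ⧸ S)) :=
    { toFun := fun σ => Equiv.prodCongr σ (Equiv.refl _)
      map_one' := by ext p <;> rfl
      map_mul' := fun σ τ => by ext p <;> rfl }
  let ψ : Equiv.Perm (Fin r) →* Equiv.Perm (Fin m) := (Equiv.Perm.extendDomainHom f).comp P
  have hψin : ∀ σ i q, ψ σ (e (i, q)) = e (σ i, q) := fun σ i q => Equiv.Perm.extendDomain_apply_image (P σ) f (i, q)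
  have hψout : ∀ σ y, y ∉ Set.range e → ψ σ y = y := fun σ y hy => Equiv.Perm.extendDomain_apply_not_subtype (P σ) f hy
  have hψinj : Function.Injective ψ := by
    intro σ τ h
    ext i
    have := congrArg (fun g : Equiv.Perm (Fin m) => g (e (i, ((1 : ↥H) : ↥H ⧸ S)))) h
    simp only [hψin] at this
    exact congrArg Fin.val (congrArg Prod.fst (hinj this))
  have hψsign : ∀ σ : ↥(alternatingGroup (Fin r)), ψ σ ∈ alternatingGroup (Fin m) := by
    intro σ
    have hs : Equiv.Perm.sign (P σ) = 1 := by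
      show Equiv.Perm.sign (Equiv.prodCongr (σ : Equiv.Perm (Fin r)) (Equiv.refl (↥H ⧸ S))) = 1
      rw [show Equiv.prodCongr (σ : Equiv.Perm (Fin r)) (Equiv.refl (↥H ⧸ S)) = Equiv.prodCongrLeft (fun _ => (σ : Equiv.Perm (Fin r))) from by ext p <;> rfl, Equiv.Perm.sign_prodCongrLeft]
      simp [Equiv.Perm.mem_alternatingGroup.1 σ.2]
    rw [Equiv.Perm.mem_alternatingGroup]
    exact (Equiv.Perm.sign_extendDomain (P σ) f).trans hs
  let Φ : ↥(alternatingGroup (Fin r)) →* ↥(alternatingGroup (Fin m)) :=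
    (ψ.comp (alternatingGroup (Fin r)).subtype).codRestrict _ hψsign
  have hΦ : Function.Injective Φ := fun a b h => Subtype.ext (hψinj (congrArg Subtype.val h))
  refine ⟨Φ.range, ⟨(MonoidHom.ofInjective hΦ).symm⟩, ?_⟩
  rintro _ ⟨σ, rfl⟩
  rw [Subgroup.mem_centralizer_iff]
  intro h hh
  apply Subtype.ext
  ext y
  show ((h : Equiv.Perm (Fin m)) (ψ σ y) : ℕ) = ψ σ ((h : Equiv.Perm (Fin m)) y)
  by_cases hy : y ∈ Set.range e
  · obtain ⟨⟨i, q⟩, rfl⟩ := hy
    induction q using QuotientGroup.induction_on with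
    | H a =>
      have hmul : ∀ j, (h : Equiv.Perm (Fin m)) (e (j, (a : ↥H ⧸ S))) = e (j, ((⟨h, hh⟩ * a : ↥H) : ↥H ⧸ S)) := by
        intro j; rw [he, he, mul_smul]; rfl
      rw [hψin, hmul, hmul, hψin]
  · rw [hψout σ y hy]
    have hy' : (h : Equiv.Perm (Fin m)) y ∉ Set.range e := by
      rintro ⟨⟨i, q⟩, hq⟩
      induction q using QuotientGroup.induction_on with
      | H a =>
        apply hy
        refine ⟨(i, (((⟨h, hh⟩ : ↥H)⁻¹ * a : ↥H) : ↥H ⧸ S)), ?_⟩
        rw [he, mul_smul, ← he, hq]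
        exact inv_smul_smul (⟨h, hh⟩ : ↥H) y
    rw [hψout σ _ hy']

end Cfsg.Agent.S2532
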