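import Cfsg.Statements.S2537
import Cfsg.Agent.Lib.DicksonMaxCases
import Cfsg.Agent.Lib.DicksonList
import Cfsg.Agent.Lib.DicksonTorus
import Cfsg.Agent.Lib.CoreHall
import Cfsg.Agent.S0803
import Cfsg.Agent.S0802

set_option autoImplicit false
open Cfsg

namespace Cfsg.Agent.S2537

open CfsgLib.Dickson in
theorem solvable_dihedral (k : ℕ) : Group.IsSolvable (DihedralGroup k) := by
  let f : DihedralGroup k →* Multiplicative (ZMod 2) :=
    { toFun := fun x => match x with | .r _ => .ofAdd 0 | .sr _ => .ofAdd 1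
      map_one' := rfl
      map_mul' := by rintro (i | i) (j | j) <;> simp <;> decide }
  haveI h1 : Group.IsSolvable f.ker := Group.isSolvable_of_comm fun a b => by
    obtain ⟨a | a, ha⟩ := a <;> obtain ⟨b | b, hb⟩ := b
    · exact Subtype.ext (by simp [add_comm])
    · exact absurd (MonoidHom.mem_ker.1 hb) (by simp [f])
    · exact absurd (MonoidHom.mem_ker.1 ha) (by simp [f])
    · exact absurd (MonoidHom.mem_ker.1 ha) (by simp [f])
  exact Group.isSolvable_of_ker_le_range (f.ker.subtype) f (by simp)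

theorem part_eq {a b c d : ℕ} (ha : ∀ r, r.Prime → r ∣ a → r = 2 ∨ r = 3) (hc : ∀ r, r.Prime → r ∣ c → r = 2 ∨ r = 3)
    (hb : ¬ 2 ∣ b ∧ ¬ 3 ∣ b) (hd : ¬ 2 ∣ d ∧ ¬ 3 ∣ d) (h : a * b = c * d) : a = c := by
  have hco : ∀ {a d : ℕ}, (∀ r, r.Prime → r ∣ a → r = 2 ∨ r = 3) → (¬ 2 ∣ d ∧ ¬ 3 ∣ d) → Nat.Coprime a d := by
    intro a d ha hd
    refine Nat.coprime_of_dvd fun r hr h1 h2 => ?_
    rcases ha r hr h1 with rfl | rfl
    · exact hd.1 h2
    · exact hd.2 h2
  exact Nat.dvd_antisymm ((hco ha hd).dvd_of_dvd_mul_right (h ▸ dvd_mul_right a b))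
    ((hco hc hb).dvd_of_dvd_mul_right (h.symm ▸ dvd_mul_right c d))

/-- Let `F` be a finite field with `q` elements of characteristic `p ≥ 5`, and `ε = 1` if `q ≡ 1 (mod 4)`, `ε = -1` otherwise. Then `PSL(2, F)` has a Hall `{2, 3}`-subgroup if and only if `3` divides `q − ε`, or the `{2,3}`-part of `q² − 1` is 24, or the `{2,3}`-part of `q² − 1` is 48 (the `{2,3}`-part of `m` being the largest divisor of `m` with no prime factor other than 2 and 3). -/
theorem result {F : Type*} [Field F] [Fintype F] {p : ℕ} [Fact p.Prime] [CharP F p]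
    (hp : 5 ≤ p) (q : ℕ) (hq : Fintype.card F = q) :
    (∃ H : Subgroup (Matrix.ProjectiveSpecialLinearGroup (Fin 2) F), Cfsg.IsPiHall ({2, 3} : Set ℕ) H) ↔
      (3 ∣ q - 1 ∧ q % 4 = 1) ∨ (3 ∣ q + 1 ∧ q % 4 = 3) ∨
        2 ^ (q ^ 2 - 1).factorization 2 * 3 ^ (q ^ 2 - 1).factorization 3 = 24 ∨
        2 ^ (q ^ 2 - 1).factorization 2 * 3 ^ (q ^ 2 - 1).factorization 3 = 48 := by
  classical
  have hpp := (Fact.out : p.Prime)
  obtain ⟨b, hb, hqb⟩ := CfsgLib.Dickson.exists_exponent (F := F) p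
  rw [hq] at hqb
  have hq5 : 5 ≤ q := hqb ▸ hp.trans (Nat.le_self_pow hb p)
  have hqc : ¬ 2 ∣ q ∧ ¬ 3 ∣ q := by
    constructor <;> intro h <;> rw [hqb] at h
    · have := (Nat.prime_dvd_prime_iff_eq Nat.prime_two hpp).1 (Nat.prime_two.dvd_of_dvd_pow h); omega
    · have := (Nat.prime_dvd_prime_iff_eq Nat.prime_three hpp).1 (Nat.prime_three.dvd_of_dvd_pow h); omega
  have hd : Nat.gcd 2 (q - 1) = 2 := Nat.gcd_eq_left (by omega)
  have hG := CfsgLib.Dickson.card_psl (F := F) hq (p := p)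
  rw [hd] at hG
  set m := q ^ 2 - 1 with hm
  have hmeq : m = (q - 1) * (q + 1) := by
    rw [hm, ← one_pow 2, Nat.sq_sub_sq, mul_comm, one_pow]
  have hm0 : m ≠ 0 := by rw [hmeq]; exact Nat.mul_ne_zero (by omega) (by omega)
  set A := m.factorization 2 with hA
  set B := m.factorization 3 with hB
  have hN : 2 ^ A * 3 ^ B ∣ m :=
    Nat.Coprime.mul_dvd_of_dvd_of_dvd (Nat.Coprime.pow _ _ (by norm_num)) (Nat.ordProj_dvd m 2) (Nat.ordProj_dvd m 3)
  obtain ⟨r, hr⟩ := hN
  have hr2 : ¬ 2 ∣ r := fun ⟨u, hu⟩ => Nat.pow_succ_factorization_not_dvd hm0 Nat.prime_two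
    ⟨3 ^ B * u, by rw [← hA, hr, hu]; ring⟩
  have hr3 : ¬ 3 ∣ r := fun ⟨u, hu⟩ => Nat.pow_succ_factorization_not_dvd hm0 Nat.prime_three
    ⟨2 ^ A * u, by rw [← hB, hr, hu]; ring⟩
  have hGm : Nat.card (Matrix.ProjectiveSpecialLinearGroup (Fin 2) F) * 2 = q * m := by
    rw [hG, hmeq, mul_assoc]
  have hNp : ∀ l, l.Prime → l ∣ 2 ^ A * 3 ^ B → l = 2 ∨ l = 3 := fun l hl h => by
    rcases hl.dvd_mul.1 h with h | h
    · exact Or.inl ((Nat.prime_dvd_prime_iff_eq hl Nat.prime_two).1 (hl.dvd_of_dvd_pow h))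
    · exact Or.inr ((Nat.prime_dvd_prime_iff_eq hl Nat.prime_three).1 (hl.dvd_of_dvd_pow h))
  have hqr : ¬ 2 ∣ q * r ∧ ¬ 3 ∣ q * r :=
    ⟨fun h => (Nat.prime_two.dvd_mul.1 h).elim hqc.1 hr2, fun h => (Nat.prime_three.dvd_mul.1 h).elim hqc.2 hr3⟩
  have h8 : 8 ∣ m := by
    obtain ⟨t, ht⟩ : ∃ t, q = 2 * t + 1 := ⟨q / 2, by omega⟩
    obtain ⟨u, hu⟩ := Nat.even_mul_succ_self t
    refine ⟨u, ?_⟩
    rw [hmeq, ht, Nat.add_sub_cancel]
    linear_combination 4 * hu
  have h3m : 3 ∣ m := by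
    rw [hmeq]
    have key : ∀ x : ℕ, ¬ 3 ∣ x → 3 ∣ x - 1 ∨ 3 ∣ x + 1 := fun x hx => by omega
    have := key q hqc.2
    rcases this with h | h
    · exact h.mul_right _
    · exact h.mul_left _
  constructor
  · rintro ⟨H, hH1, hH2⟩
    have hidx : ¬ 2 ∣ H.index ∧ ¬ 3 ∣ H.index := ⟨hH2 2 Nat.prime_two (by simp), hH2 3 Nat.prime_three (by simp)⟩
    have hHp : ∀ l, l.Prime → l ∣ Nat.card H * 2 → l = 2 ∨ l = 3 := fun l hl h => by
      rcases hl.dvd_mul.1 h with h | h
      · simpa using hH1 l hl h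
      · exact Or.inl ((Nat.prime_dvd_prime_iff_eq hl Nat.prime_two).1 h)
    have hcard : Nat.card H * 2 = 2 ^ A * 3 ^ B := part_eq hHp hNp hidx hqr (by
      have := H.card_mul_index
      calc Nat.card H * 2 * H.index = Nat.card H * H.index * 2 := by ring
        _ = q * m := by rw [this, hGm]
        _ = _ := by rw [hr]; ring)
    have hA3 : 2 ^ 3 ∣ 2 ^ A := Nat.pow_dvd_pow 2 ((Nat.prime_two.pow_dvd_iff_le_factorization hm0).1 h8)
    have hB1 : 3 ^ 1 ∣ 3 ^ B := Nat.pow_dvd_pow 3 ((Nat.prime_three.pow_dvd_iff_le_factorization hm0).1 (by simpa using h3m))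
    have h24 : 24 ∣ Nat.card H * 2 := hcard ▸ Nat.mul_dvd_mul hA3 hB1
    have h12 : 12 ∣ Nat.card H := Nat.dvd_of_mul_dvd_mul_right two_pos (by simpa using h24)
    have hpH : ¬ p ∣ Nat.card H := fun h => by
      rcases hH1 p hpp h with rfl | rfl <;> omega
    rcases CfsgLib.Dickson.dickson_list_fine hq p H with ⟨k, hk, hC⟩ | ⟨P, hP⟩ | ⟨-, ⟨e⟩⟩ | ⟨-, ⟨e⟩⟩ | ⟨-, ⟨e⟩⟩ |
        ⟨K, hK, hKf, mm, φ, f, -, -, -, -, hiso⟩
    · have hdv : Nat.card H ∣ q + 1 ∨ Nat.card H ∣ q - 1 := by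
        rw [hd] at hk
        have h2k : ∀ e, 2 ∣ e → k ∣ e / 2 → Nat.card H ∣ e := by
          intro e he hke
          have h2 : 2 * k ∣ e := (Nat.mul_dvd_mul_left 2 hke).trans (Nat.mul_div_cancel' he).dvd
          rcases hC with ⟨-, h⟩ | ⟨⟨e'⟩⟩
          · rw [h]; exact (dvd_mul_left k 2).trans h2
          · rw [Nat.card_congr e'.toEquiv, DihedralGroup.nat_card]; exact h2
        rcases hk with h | h
        · exact Or.inl (h2k _ (by omega) h)
        · exact Or.inr (h2k _ (by omega) h)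
      rcases hdv with h | h
      · have := h12.trans h
        exact Or.inr (Or.inl ⟨by omega, by omega⟩)
      · have := h12.trans h
        exact Or.inl ⟨by omega, by omega⟩
    · have h1 := h12.trans (Subgroup.card_dvd_of_le hP)
      have h2 := CfsgLib.Dickson.borel_card hq P
      rw [hd] at h2
      obtain ⟨u, hu⟩ := h1
      have h3 : 24 ∣ q * (q - 1) := ⟨u, by rw [← h2, hu]; ring⟩
      have hco : Nat.Coprime 24 q := by
        rw [show (24 : ℕ) = 2 ^ 3 * 3 by norm_num]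
        exact Nat.Coprime.mul_left (Nat.Coprime.pow_left _ (Nat.prime_two.coprime_iff_not_dvd.2 hqc.1))
          (Nat.prime_three.coprime_iff_not_dvd.2 hqc.2)
      have h4 : 24 ∣ q - 1 := hco.dvd_of_dvd_mul_left h3
      exact Or.inl ⟨by omega, by omega⟩
    · refine Or.inr (Or.inr (Or.inl ?_))
      rw [← hcard, Nat.card_congr e.toEquiv, nat_card_alternatingGroup, Nat.card_fin]
      rfl
    · refine Or.inr (Or.inr (Or.inr ?_))
      rw [← hcard, Nat.card_congr e.toEquiv, Nat.card_perm, Nat.card_fin]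
      rfl
    · have : (5 : ℕ) ∣ Nat.card H := by
        rw [Nat.card_congr e.toEquiv, nat_card_alternatingGroup, Nat.card_fin]
        decide
      rcases hH1 5 (by norm_num) this with h | h <;> simp at h
    · exfalso
      apply hpH
      haveI : CharP K p := φ.charP φ.injective p
      obtain ⟨n, -, hn⟩ := FiniteField.card K p
      have hpK : p ∣ Fintype.card K := hn ▸ dvd_pow_self p n.ne_zero
      rcases hiso with ⟨⟨e⟩⟩ | ⟨⟨e⟩⟩
      · rw [Nat.card_congr e.toEquiv]
        have := CfsgLib.Dickson.card_psl (F := K) rfl (p := p)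
        have h2 : p ∣ Nat.card (Matrix.ProjectiveSpecialLinearGroup (Fin 2) K) * Nat.gcd 2 (Fintype.card K - 1) :=
          this ▸ (hpK.mul_right _).mul_right _
        exact (hpp.dvd_mul.1 h2).resolve_right fun h => by
          have := Nat.le_of_dvd (Nat.gcd_pos_of_pos_left _ two_pos) h
          have := Nat.le_of_dvd two_pos (Nat.gcd_dvd_left 2 (Fintype.card K - 1))
          omega
      · rw [Nat.card_congr e.toEquiv, CfsgLib.Dickson.card_pgl_two]
        exact (hpK.mul_right _).mul_right _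
  · intro h
    have hmk : ∀ X : Subgroup (Matrix.ProjectiveSpecialLinearGroup (Fin 2) F),
        Nat.card X * 2 = 2 ^ A * 3 ^ B → ∃ H, Cfsg.IsPiHall ({2, 3} : Set ℕ) (H : Subgroup (Matrix.ProjectiveSpecialLinearGroup (Fin 2) F)) := by
      intro X hX
      refine ⟨X, fun l hl hd' => ?_, fun l hl hmem => ?_⟩
      · simpa using hNp l hl (hX ▸ hd'.mul_right 2)
      · have : Nat.card X * 2 * X.index = Nat.card X * 2 * (q * r) := by
          calc _ = Nat.card X * X.index * 2 := by ring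
            _ = q * m := by rw [X.card_mul_index, hGm]
            _ = _ := by rw [hr, hX]; ring
        rw [Nat.eq_of_mul_eq_mul_left (Nat.mul_pos Nat.card_pos two_pos) this]
        rcases hmem with rfl | rfl
        · exact hqr.1
        · exact hqr.2
    have hodd : Odd (Fintype.card F) := Nat.odd_iff.2 (by rw [hq]; omega)
    have hmk2 : ∀ e, (e = q - 1 ∨ e = q + 1) → (∀ e', e * e' = m → ¬ 3 ∣ e' ∧ e' % 4 = 2) →
        ∃ H, Cfsg.IsPiHall ({2, 3} : Set ℕ) (H : Subgroup (Matrix.ProjectiveSpecialLinearGroup (Fin 2) F)) := by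
      intro e he hev
      obtain ⟨C, hC, hord, hcard⟩ := CfsgLib.Dickson.exists_torus (p := p) hq (by omega) e he
      obtain ⟨n, D, hn, ⟨eD⟩, -⟩ := CfsgLib.Dickson.exists_dihedral (p := p) hq (by omega) hC hord
      rw [hcard, hd] at hn
      haveI := solvable_dihedral n
      haveI : Group.IsSolvable D := Group.isSolvable_of_isSolvable_injective (f := eD.toMonoidHom) eD.injective
      obtain ⟨K, hK1, hK2⟩ := CfsgLib.Core.exists_isHall (G := D) ({2, 3} : Set ℕ)
      have hDc : Nat.card D = e := by rw [Nat.card_congr eD.toEquiv, DihedralGroup.nat_card, hn]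
      obtain ⟨e', he'⟩ : e ∣ m := by
        rw [hmeq]; rcases he with rfl | rfl
        · exact dvd_mul_right _ _
        · exact dvd_mul_left _ _
      obtain ⟨h3e, h4e⟩ := hev e' he'.symm
      have hDi : D.index * 2 = q * e' := by
        have h1 : e * (D.index * 2) = e * (q * e') := by
          calc _ = Nat.card D * D.index * 2 := by rw [hDc]; ring
            _ = q * m := by rw [D.card_mul_index, hGm]
            _ = _ := by rw [he']; ring
        exact Nat.eq_of_mul_eq_mul_left (hDc ▸ Nat.card_pos) h1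
      have hmap : Nat.card (K.map D.subtype) = Nat.card K := Subgroup.card_map_of_injective D.subtype_injective
      refine ⟨K.map D.subtype, fun l hl hd' => hK1 l hl (hmap ▸ hd'), fun l hl hmem hdl => ?_⟩
      rw [Subgroup.index_map_subtype] at hdl
      rcases hl.dvd_mul.1 hdl with h | h
      · exact hK2 l hl h hmem
      · obtain ⟨w, hw⟩ : 2 ∣ e' := Nat.dvd_of_mod_eq_zero (by omega)
        have hDq : D.index = q * w := by
          refine Nat.eq_of_mul_eq_mul_right two_pos ?_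
          rw [hDi, hw]; ring
        rw [hDq] at h
        rcases hmem with rfl | rfl
        · exact (Nat.prime_two.dvd_mul.1 h).elim hqc.1 (by omega)
        · exact (Nat.prime_three.dvd_mul.1 h).elim hqc.2 (by omega)
    rcases h with ⟨h3, h4⟩ | ⟨h3, h4⟩ | h | h
    · refine hmk2 (q - 1) (Or.inl rfl) fun e' he' => ?_
      rw [hmeq] at he'
      rw [Nat.eq_of_mul_eq_mul_left (by omega) he']
      exact ⟨by omega, by omega⟩
    · refine hmk2 (q + 1) (Or.inr rfl) fun e' he' => ?_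
      rw [hmeq, mul_comm (q - 1)] at he'
      rw [Nat.eq_of_mul_eq_mul_left (by omega) he']
      exact ⟨by omega, by omega⟩
    · obtain ⟨H, ⟨eH⟩⟩ : ∃ H : Subgroup (Matrix.ProjectiveSpecialLinearGroup (Fin 2) F), Nonempty (H ≃* alternatingGroup (Fin 4)) :=
        (Cfsg.Agent.S0802.result p b (hq.trans hqb)).2 (fun h => by omega)
      refine hmk H ?_
      rw [h, Nat.card_congr eH.toEquiv, nat_card_alternatingGroup, Nat.card_fin]
      rfl
    · have h16 : 2 ^ 4 ∣ m := by
        refine (Nat.prime_two.pow_dvd_iff_le_factorization hm0).2 ?_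
        rw [← hA]
        by_contra hlt
        have h1 : 2 ^ 4 ∣ 2 ^ A * 3 ^ B := by rw [h]; norm_num
        have h2 : 2 ^ 4 ∣ 2 ^ A := ((Nat.Coprime.pow 4 B (by norm_num : Nat.Coprime 2 3))).dvd_of_dvd_mul_right h1
        exact hlt ((Nat.pow_dvd_pow_iff_le_right (by norm_num : 1 < 2)).1 h2)
      obtain ⟨H, ⟨eH⟩⟩ := (Cfsg.Agent.S0803.result (F := F) hq).2 (by
        have h1 : 1 ≤ q ^ 2 := Nat.one_le_pow _ _ (by omega)
        have h16' : 16 ∣ q ^ 2 - 1 := by simpa [hm] using h16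
        omega)
      refine hmk H ?_
      rw [h, Nat.card_congr eH.toEquiv, Nat.card_perm, Nat.card_fin]
      rfl

end Cfsg.Agent.S2537
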