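import Cfsg.Statements.S2540
import Cfsg.Agent.Lib.ClassicalSL

set_option autoImplicit false
open Cfsg

namespace Cfsg.Agent.S2540

/-- Let F be a finite field and n ≥ 1, excluding the case n = 2 with #F ≤ 3. A subgroup of GL_n(F) that is normalized by every element of SL_n(F) either consists of scalar matrices or contains SL_n(F). -/
theorem result {F : Type*} [Field F] [Fintype F] (n : ℕ) (hn : 1 ≤ n) (hex : ¬ (n = 2 ∧ Fintype.card F ≤ 3)) (G : Subgroup (Matrix.GeneralLinearGroup (Fin n) F)) (hG : ∀ s : Matrix.SpecialLinearGroup (Fin n) F, ∀ g ∈ G, (Matrix.SpecialLinearGroup.toGL s) * g * (Matrix.SpecialLinearGroup.toGL s)⁻¹ ∈ G) : (∀ g ∈ G, ∃ c : F, (g : Matrix (Fin n) (Fin n) F) = c • (1 : Matrix (Fin n) (Fin n) F)) ∨ (Matrix.SpecialLinearGroup.toGL : Matrix.SpecialLinearGroup (Fin n) F →* _).range ≤ G := by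
  classical
  by_cases hall : ∀ g ∈ G, ∃ c : F, (g : Matrix (Fin n) (Fin n) F) = c • (1 : Matrix (Fin n) (Fin n) F)
  · exact Or.inl hall
  right
  have hn2 : 2 ≤ n := by
    by_contra hlt
    obtain rfl : n = 1 := by omega
    refine hall fun g _ => ⟨(g : Matrix (Fin 1) (Fin 1) F) 0 0, ?_⟩
    ext i j
    rw [Subsingleton.elim i 0, Subsingleton.elim j 0]; simp
  haveI : Nontrivial (Fin n) := Fin.nontrivial_iff_two_le.2 hn2
  have hsimple : IsSimpleGroup (Matrix.ProjectiveSpecialLinearGroup (Fin n) F) ∧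
      commutator (Matrix.SpecialLinearGroup (Fin n) F) = ⊤ := by
    by_cases h3 : 3 ≤ n
    · exact ⟨CfsgLib.Classical.isSimpleGroup_psl (by simpa using h3), CfsgLib.Classical.commutator_sl_eq_top (by simpa using h3)⟩
    · obtain rfl : n = 2 := by omega
      have hq : 4 ≤ Nat.card F := by
        rw [Nat.card_eq_fintype_card]
        by_contra h
        exact hex ⟨rfl, by omega⟩
      obtain ⟨x, hx⟩ : IsCyclic Fˣ := inferInstance
      have hne : (x : F) ^ 2 ≠ 1 := fun h => by
        rw [Nat.card_eq_card_units_add_one F, ← orderOf_eq_card_of_forall_mem_zpowers hx] at hq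
        have := orderOf_le_of_pow_eq_one zero_lt_two (Units.ext (by simpa using h) : x ^ 2 = 1)
        omega
      exact ⟨Matrix.ProjectiveSpecialLinearGroup.rank_two_simple hq, Matrix.SL2.commutator_eq_top x.ne_zero hne⟩
  obtain ⟨hS, hperf⟩ := hsimple
  let S := Matrix.SpecialLinearGroup (Fin n) F
  let φ : S →* Matrix.GeneralLinearGroup (Fin n) F := Matrix.SpecialLinearGroup.toGL
  let N : Subgroup S := G.comap φ
  haveI hN : N.Normal := ⟨fun a ha s => by
    show φ (s * a * s⁻¹) ∈ G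
    rw [map_mul, map_mul, map_inv]
    exact hG s _ ha⟩
  suffices hN' : N = ⊤ by
    rintro _ ⟨s, rfl⟩
    exact (hN'.ge (Subgroup.mem_top s) : s ∈ N)
  by_contra hNtop
  let π := QuotientGroup.mk' (Subgroup.center S)
  have hmap : (N.map π).Normal := hN.map π (QuotientGroup.mk'_surjective _)
  have hcen : N ≤ Subgroup.center S := by
    rcases hS.eq_bot_or_eq_top_of_normal _ hmap with h | h
    · rwa [Subgroup.map_eq_bot_iff, QuotientGroup.ker_mk'] at h
    · exfalso
      apply hNtop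
      have htop : N ⊔ Subgroup.center S = ⊤ := by
        rw [← QuotientGroup.comap_map_mk' (Subgroup.center S) N |>.trans (sup_comm _ _)]
        exact (congrArg _ h).trans (Subgroup.comap_top _)
      rw [eq_top_iff, ← hperf, commutator_def, Subgroup.commutator_le]
      intro a _ b _
      obtain ⟨a', ha', za, hza, rfl⟩ := Subgroup.mem_sup_of_normal_left.1 (show a ∈ N ⊔ Subgroup.center S by rw [htop]; trivial)
      rw [commutatorElement_def]
      have hz : za * b * za⁻¹ = b := by
        rw [mul_inv_eq_iff_eq_mul]; exact (Subgroup.mem_center_iff.1 hza b).symm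
      rw [show a' * za * b * (a' * za)⁻¹ * b⁻¹ = a' * ((za * b * za⁻¹) * a'⁻¹ * b⁻¹) by group, hz]
      exact N.mul_mem ha' (hN.conj_mem _ (N.inv_mem ha') b)
  refine hall fun g hg => ?_
  have hdet : ∀ s : S, Matrix.det ((g * φ s * g⁻¹ * (φ s)⁻¹ : Matrix.GeneralLinearGroup (Fin n) F) : Matrix (Fin n) (Fin n) F) = 1 := by
    intro s
    have h1 : Matrix.GeneralLinearGroup.det (g * φ s * g⁻¹ * (φ s)⁻¹) = 1 := by
      rw [map_mul, map_mul, map_mul, map_inv, map_inv, mul_inv_cancel_comm, mul_inv_cancel]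
    exact congrArg (fun u : Fˣ => (u : F)) h1
  let c : S → S := fun s => ⟨_, hdet s⟩
  have hcφ : ∀ s, φ (c s) = g * φ s * g⁻¹ * (φ s)⁻¹ := fun s => Units.ext rfl
  have hcN : ∀ s, c s ∈ Subgroup.center S := fun s => hcen (by
    show φ (c s) ∈ G
    rw [hcφ, show g * φ s * g⁻¹ * (φ s)⁻¹ = g * (φ s * g⁻¹ * (φ s)⁻¹) by group]
    exact G.mul_mem hg (hG s _ (G.inv_mem hg)))
  have hinj : Function.Injective φ := Matrix.SpecialLinearGroup.toGL_injective
  have hcmul : ∀ s t, c (s * t) = c s * c t := fun s t => hinj (by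
    have hz := congrArg φ (Subgroup.mem_center_iff.1 (hcN t) s)
    rw [map_mul, map_mul, hcφ] at hz
    rw [map_mul, hcφ, hcφ, hcφ, map_mul]
    calc g * (φ s * φ t) * g⁻¹ * (φ s * φ t)⁻¹ = g * φ s * g⁻¹ * (g * φ t * g⁻¹ * (φ t)⁻¹) * (φ s)⁻¹ := by group
      _ = g * φ s * g⁻¹ * (φ s)⁻¹ * (φ s * (g * φ t * g⁻¹ * (φ t)⁻¹)) * (φ s)⁻¹ := by group
      _ = g * φ s * g⁻¹ * (φ s)⁻¹ * (g * φ t * g⁻¹ * (φ t)⁻¹ * φ s) * (φ s)⁻¹ := by rw [hz]
      _ = _ := by group)
  let χ : S →* Subgroup.center S := MonoidHom.mk' (fun s => ⟨c s, hcN s⟩) (fun s t => Subtype.ext (hcmul s t))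
  have hχ : ∀ s, c s = 1 := by
    intro s
    have hk : commutator S ≤ χ.ker := by
      rw [commutator_def, Subgroup.commutator_le]
      intro a _ b _
      rw [MonoidHom.mem_ker, map_commutatorElement, commutatorElement_def]
      refine Subtype.ext ?_
      show (χ a : S) * (χ b : S) * (χ a : S)⁻¹ * (χ b : S)⁻¹ = 1
      rw [← Subgroup.mem_center_iff.1 (χ a).2 (χ b : S)]
      rw [mul_inv_cancel_right, mul_inv_cancel]
    rw [hperf] at hk
    exact congrArg Subtype.val (hk (Subgroup.mem_top s))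
  have hcomm : ∀ s : S, g * φ s = φ s * g := fun s => by
    have h1 := congrArg φ (hχ s)
    rw [hcφ, map_one, mul_inv_eq_one, mul_inv_eq_iff_eq_mul] at h1
    exact h1
  obtain ⟨r, hr⟩ := Matrix.mem_range_scalar_of_commute_single (M := (g : Matrix (Fin n) (Fin n) F)) (fun i j hij => by
    have h1 := congrArg (fun u : Matrix.GeneralLinearGroup (Fin n) F => (u : Matrix (Fin n) (Fin n) F)) (hcomm (Matrix.SpecialLinearGroup.transvection hij (1 : F)))
    simp only [Units.val_mul] at h1
    change _ * Matrix.transvection i j (1 : F) = Matrix.transvection i j (1 : F) * _ at h1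
    simp only [Matrix.transvection, mul_add, add_mul, mul_one, one_mul, add_right_inj] at h1
    exact h1.symm)
  exact ⟨r, by rw [← hr]; ext i j; simp [Matrix.one_apply, Matrix.diagonal_apply]⟩

end Cfsg.Agent.S2540
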