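import Cfsg.Statements.S2541


set_option autoImplicit false
open Cfsg

namespace Cfsg.Agent.S2541

/-- Let F be a field with 9 elements. The symmetric group S_6 is not isomorphic to PGL_2(F) (although both have index-2 subgroups isomorphic to A_6). -/
theorem result {F : Type*} [Field F] [Fintype F] (hF : Fintype.card F = 9) : ¬ Nonempty (Equiv.Perm (Fin 6) ≃* Matrix.ProjGenLinGroup (Fin 2) F) := by
  classical
  rintro ⟨e⟩
  obtain ⟨g, hg⟩ := IsCyclic.exists_ofOrder_eq_natCard (α := Fˣ)
  rw [Nat.card_units, Nat.card_eq_fintype_card, hF] at hg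
  norm_num at hg
  let D : Matrix.GeneralLinearGroup (Fin 2) F := Matrix.GeneralLinearGroup.mkOfDetNeZero !![(g : F), 0; 0, 1] (by simp [Matrix.det_fin_two])
  have hord : orderOf (Matrix.ProjGenLinGroup.mk D) = 8 := by
    have hpow : ∀ k : ℕ, ((D ^ k : Matrix.GeneralLinearGroup (Fin 2) F) : Matrix (Fin 2) (Fin 2) F) = !![(g : F) ^ k, 0; 0, 1] := by
      intro k
      induction k with
      | zero => ext i j; fin_cases i <;> fin_cases j <;> simp
      | succ k ih =>
        rw [pow_succ, Units.val_mul, ih]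
        ext i j
        fin_cases i <;> fin_cases j <;> simp [D, Matrix.mul_apply, Fin.sum_univ_two, pow_succ]
    rw [orderOf_eq_iff (by norm_num)]
    constructor
    · rw [← map_pow, show D ^ 8 = 1 from Units.ext (by
        rw [hpow, show (g : F) ^ 8 = 1 by rw [← Units.val_pow_eq_pow_val, ← hg, pow_orderOf_eq_one, Units.val_one]]
        ext i j; fin_cases i <;> fin_cases j <;> simp), map_one]
    · intro k hk hk0 h
      rw [← map_pow, Matrix.ProjGenLinGroup.mk_eq_one, Matrix.GeneralLinearGroup.center_eq_range_scalar, MonoidHom.mem_range] at h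
      obtain ⟨c, hc⟩ := h
      have h00 := congrArg (fun u : Matrix.GeneralLinearGroup (Fin 2) F => (u : Matrix (Fin 2) (Fin 2) F) 0 0) hc
      have h11 := congrArg (fun u : Matrix.GeneralLinearGroup (Fin 2) F => (u : Matrix (Fin 2) (Fin 2) F) 1 1) hc
      simp [hpow] at h00 h11
      have : g ^ k = 1 := Units.ext (by rw [Units.val_pow_eq_pow_val, ← h00, h11, Units.val_one])
      exact pow_ne_one_of_lt_orderOf hk0.ne' (by omega) this
  have h8 : orderOf (e.symm (Matrix.ProjGenLinGroup.mk D)) = 8 := by rw [MulEquiv.orderOf_eq]; exact hord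
  have key : ∀ σ : Equiv.Perm (Fin 6), σ ^ 8 = 1 → σ ^ 4 = 1 := by decide +kernel
  have h4 := key _ (h8 ▸ pow_orderOf_eq_one _)
  have := Nat.le_of_dvd (by norm_num) (h8 ▸ orderOf_dvd_of_pow_eq_one h4)
  omega

end Cfsg.Agent.S2541
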