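import Cfsg.Statements.S2542
import Cfsg.Agent.Lib.ClassicalPSLTwoPoly
import Cfsg.Agent.Lib.ClassicalCardLinear
import Cfsg.Agent.Lib.PermPrimeDeg
import Mathlib.LinearAlgebra.Projectivization.PSL.PSL2

set_option autoImplicit false
open Cfsg

namespace Cfsg.Agent.S2542

/-- Let F be a field with 11 elements. PSL_2(F) has a subgroup H of index 11 isomorphic to the alternating group A_5, and the action of PSL_2(F) on the cosets of H is 2-transitive (of degree 11). -/
theorem result {F : Type*} [Field F] [Fintype F] (hF : Fintype.card F = 11) : ∃ H : Subgroup (Matrix.ProjectiveSpecialLinearGroup (Fin 2) F), H.index = 11 ∧ Nonempty (H ≃* alternatingGroup (Fin 5)) ∧ MulAction.IsMultiplyPretransitive (Matrix.ProjectiveSpecialLinearGroup (Fin 2) F) ((Matrix.ProjectiveSpecialLinearGroup (Fin 2) F) ⧸ H) 2 := by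
  classical
  haveI : Fact (Nat.Prime 11) := ⟨by norm_num⟩
  have hodd : Odd (Fintype.card F) := by rw [hF]; decide
  have h11 : (11 : F) = 0 := by
    have h := Nat.cast_card_eq_zero F
    rw [hF] at h; exact_mod_cast h
  obtain ⟨H, hc, ⟨e⟩⟩ := CfsgLib.Classical.exists_alt_five_of_root hodd (t := (4 : F))
    (by linear_combination h11)
  have hcard : Nat.card (Matrix.ProjectiveSpecialLinearGroup (Fin 2) F) = 660 := by
    have h := CfsgLib.Classical.card_psl_mul (F := F) (ι := Fin 2)
    rw [CfsgLib.Classical.Two.card_sl_two, Fintype.card_fin, hF] at h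
    norm_num [-Nat.card_eq_fintype_card] at h
    omega
  have hidx : H.index = 11 := by
    have h := Subgroup.card_mul_index H
    rw [hc, hcard] at h
    omega
  refine ⟨H, hidx, ⟨e⟩, ?_⟩
  have hns : ¬ Group.IsSolvable (alternatingGroup (Fin 5)) := by
    intro h
    haveI := alternatingGroup.isSimpleGroup_five
    have hcomm := IsSimpleGroup.comm_iff_isSolvable.mpr h
    obtain ⟨a, b, hab⟩ : ∃ a b : alternatingGroup (Fin 5), a * b ≠ b * a := by decide +kernel
    exact hab (hcomm a b)
  haveI hsimp := Matrix.ProjectiveSpecialLinearGroup.rank_two_simple (F := F)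
    (by rw [Nat.card_eq_fintype_card, hF]; norm_num)
  set α := Matrix.ProjectiveSpecialLinearGroup (Fin 2) F ⧸ H with hα
  haveI : Fintype α := Fintype.ofFinite α
  set φ := MulAction.toPermHom (Matrix.ProjectiveSpecialLinearGroup (Fin 2) F) α with hφ
  have hinj : Function.Injective φ := by
    refine (MonoidHom.ker_eq_bot_iff φ).1 (((φ.normal_ker).eq_bot_or_eq_top).resolve_right ?_)
    intro htop
    have hH : H = ⊤ := by
      refine eq_top_iff.2 fun g _ => ?_
      have hg : φ g = 1 := MonoidHom.mem_ker.1 (htop ▸ Subgroup.mem_top g)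
      have := congrArg (fun σ : Equiv.Perm α => σ (QuotientGroup.mk 1)) hg
      have h' : (QuotientGroup.mk (g * 1) : α) = QuotientGroup.mk 1 := this
      simpa [QuotientGroup.eq] using h'
    rw [hH, Subgroup.index_top] at hidx
    omega
  haveI : MulAction.IsPretransitive φ.range α := ⟨fun x y => by
    obtain ⟨g, hg⟩ := MulAction.exists_smul_eq (Matrix.ProjectiveSpecialLinearGroup (Fin 2) F) x y
    exact ⟨⟨φ g, g, rfl⟩, hg⟩⟩
  have hα11 : Fintype.card α = 11 := by
    rw [← Nat.card_eq_fintype_card, hα, ← Subgroup.index_eq_card, hidx]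
  rcases CfsgLib.PrimeDeg.burnside φ.range hα11 with h | h
  · haveI := h
    exfalso
    apply hns
    haveI : Group.IsSolvable (Matrix.ProjectiveSpecialLinearGroup (Fin 2) F) :=
      Group.isSolvable_of_isSolvable_injective (MonoidHom.ofInjective hinj).injective
    exact Group.isSolvable_of_isSolvable_injective (f := (H.subtype.comp e.symm.toMonoidHom))
      (H.subtype_injective.comp e.symm.injective)
  · rw [MulAction.is_two_pretransitive_iff] at h ⊢
    intro a b c d hab hcd
    obtain ⟨⟨σ, g, rfl⟩, h1, h2⟩ := h hab hcd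
    exact ⟨g, h1, h2⟩

end Cfsg.Agent.S2542
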