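import Cfsg.Statements.S2543
import Cfsg.Agent.S0804
import Cfsg.Agent.Lib.DicksonFourGroups
import Cfsg.Agent.Lib.DicksonPolyField
import Cfsg.Agent.Lib.DicksonCor

set_option autoImplicit false
open scoped Pointwise
open Cfsg

namespace Cfsg.Agent.S2543

section

open CfsgLib.Dickson Matrix
open scoped Pointwise

abbrev u0 : alternatingGroup (Fin 5) :=
  ⟨Equiv.swap 0 1 * Equiv.swap 2 3, Equiv.Perm.mem_alternatingGroup.2 (by decide +kernel)⟩

abbrev v0 : alternatingGroup (Fin 5) :=
  ⟨Equiv.swap 0 2 * Equiv.swap 1 3, Equiv.Perm.mem_alternatingGroup.2 (by decide +kernel)⟩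

theorem alt_data : (∃ x : alternatingGroup (Fin 5), x ^ 5 = 1 ∧ x ≠ 1 ∧ (x * u0) ^ 2 = 1 ∧ (x * v0) ^ 3 = 1) ∧
    (∃ a : alternatingGroup (Fin 5), a ^ 3 = 1 ∧ a ≠ 1 ∧ a * u0 * a⁻¹ ∈ ({u0, v0, u0 * v0} : Finset _) ∧
      a * v0 * a⁻¹ ∈ ({u0, v0, u0 * v0} : Finset _)) ∧
    u0 * u0 = 1 ∧ v0 * v0 = 1 ∧ u0 ≠ 1 ∧ v0 ≠ 1 ∧ u0 ≠ v0 ∧ u0 * v0 = v0 * u0 := by decide +kernel

theorem alt_orientation : ∀ x : alternatingGroup (Fin 5),
    x ^ 5 = 1 ∧ x ≠ 1 ∧ (x * u0) ^ 2 = 1 ∧ (x * v0) ^ 3 = 1 →
    ∀ y : alternatingGroup (Fin 5), y ^ 5 = 1 ∧ y ≠ 1 ∧ (y * v0) ^ 2 = 1 ∧ (y * u0) ^ 3 = 1 →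
    ∃ g : alternatingGroup (Fin 5), g * y * g⁻¹ = x * x := by decide +kernel

theorem card_five : Fintype.card {x : alternatingGroup (Fin 5) // x ^ 5 = 1 ∧ x ≠ 1} = 24 := by decide +kernel

/-- The allowed trace tuples modulo eleven. -/
def goodTuples : Finset (ZMod 11 × ZMod 11 × ZMod 11 × ZMod 11) :=
  ((({3, -3, 4, -4} : Finset (ZMod 11)) ×ˢ ({0, 1, -1, 3, -3, 4, -4} : Finset (ZMod 11)) ×ˢ
    ({0, 1, -1, 3, -3, 4, -4} : Finset (ZMod 11)) ×ˢ ({0, 1, -1, 3, -3, 4, -4} : Finset (ZMod 11)))).filter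
    fun s => s.1 * s.1 + s.2.1 * s.2.1 + s.2.2.1 * s.2.2.1 + s.2.2.2 * s.2.2.2 = 4

theorem card_goodTuples : goodTuples.card ≤ 120 := by decide +kernel

theorem mem_good {a b c d : ZMod 11} (ha : a ∈ ({3, -3, 4, -4} : Finset (ZMod 11)))
    (hb : b ∈ ({0, 1, -1, 3, -3, 4, -4} : Finset (ZMod 11))) (hc : c ∈ ({0, 1, -1, 3, -3, 4, -4} : Finset (ZMod 11)))
    (hd : d ∈ ({0, 1, -1, 3, -3, 4, -4} : Finset (ZMod 11))) (h : a * a + b * b + c * c + d * d = 4) :
    (a, b, c, d) ∈ goodTuples := by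
  simp only [goodTuples, Finset.mem_filter, Finset.mem_product]
  exact ⟨⟨ha, hb, hc, hd⟩, h⟩

theorem five_roots : ∀ s : ZMod 11, (s * s + s - 1) * (s * s - s - 1) = 0 → s ∈ ({3, -3, 4, -4} : Finset (ZMod 11)) := by
  decide +kernel

theorem one_roots : ∀ s : ZMod 11, s ^ 2 = 1 → s ∈ ({0, 1, -1, 3, -3, 4, -4} : Finset (ZMod 11)) := by
  decide +kernel

theorem five_sub : ∀ s : ZMod 11, s ∈ ({3, -3, 4, -4} : Finset (ZMod 11)) →
    s ∈ ({0, 1, -1, 3, -3, 4, -4} : Finset (ZMod 11)) ∧ s * s - 2 ≠ s ∧ s * s - 2 ≠ -s := by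
  decide +kernel

local instance fact11 : Fact (Nat.Prime 11) := ⟨by norm_num⟩

variable {F : Type*} [Field F] [Fintype F] [CharP F 11]

theorem exists_zmod (hF : Fintype.card F = 11) (x : F) : ∃ a : ZMod 11, ZMod.castHom (dvd_refl 11) F a = x := by
  have h : Function.Bijective (ZMod.castHom (dvd_refl 11) F) :=
    ZMod.castHom_bijective F hF
  exact h.2 x

/-- An element of order five. -/
theorem tr_five (hF : Fintype.card F = 11) {g : SL F} {x : PSL F} (hg : mkP g = x) (h : x ^ 5 = 1) (h1 : x ≠ 1) :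
    ∃ a ∈ ({3, -3, 4, -4} : Finset (ZMod 11)), ZMod.castHom (dvd_refl 11) F a = tr g := by
  have hs : ¬ IsScal g := fun e => h1 (hg ▸ mkP_eq_one.2 e)
  obtain ⟨a, ha⟩ := exists_zmod hF (tr g)
  refine ⟨a, five_roots a ?_, ha⟩
  apply (ZMod.castHom (dvd_refl 11) F).injective
  rw [map_zero, map_mul, map_sub, map_sub, map_add, map_sub, map_mul, map_one, ha]
  exact tr_of_five hs (isScal_pow_of_mkP (by rw [hg, h]))

theorem tr_any (hF : Fintype.card F = 11) {g : SL F} {x : PSL F} (hg : mkP g = x)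
    (h : x ^ 2 = 1 ∨ x ^ 3 = 1 ∨ x ^ 5 = 1) (h1 : x ≠ 1) :
    ∃ a ∈ ({0, 1, -1, 3, -3, 4, -4} : Finset (ZMod 11)), ZMod.castHom (dvd_refl 11) F a = tr g := by
  have hs : ¬ IsScal g := fun e => h1 (hg ▸ mkP_eq_one.2 e)
  rcases h with h | h | h
  · exact ⟨0, by simp, by rw [map_zero, tr_of_sq hs (by rw [← pow_two]; exact isScal_pow_of_mkP (by rw [hg, h]))]⟩
  · obtain ⟨a, ha⟩ := exists_zmod hF (tr g)
    refine ⟨a, one_roots a ((ZMod.castHom (dvd_refl 11) F).injective ?_), ha⟩
    rw [map_pow, map_one, ha]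
    exact tr_of_cube hs (isScal_pow_of_mkP (by rw [hg, h]))
  · obtain ⟨a, ha, e⟩ := tr_five hF hg h h1
    exact ⟨a, (five_sub a ha).1, e⟩

/-- The normaliser of a four-group. -/
theorem card_norm (hF : Fintype.card F = 11) {u v : PSL F} (h : KPair u v) :
    Nat.card (Subgroup.normalizer ((kleinOf h : Subgroup (PSL F)) : Set (PSL F))) = 12 := by
  haveI : Fact (Nat.Prime 11) := ⟨by norm_num⟩
  have hodd : Odd (Fintype.card F) := by rw [hF]; decide
  obtain ⟨H, -, ⟨eH⟩⟩ := CfsgLib.Classical.exists_alt_four_of_odd (F := F) hodd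
  have hle := card_normalizer_le hodd h
  have hd := dvd_normalizer hodd eH klein_alt_four h
  rw [nat_card_alternatingGroup, Nat.card_fin, show (4 : ℕ).factorial / 2 = 12 from rfl] at hd
  have hdG := Subgroup.card_subgroup_dvd_card (Subgroup.normalizer ((kleinOf h : Subgroup (PSL F)) : Set (PSL F)))
  have hG := CfsgLib.Dickson.card_psl (F := F) hF (p := 11)
  have h660 : Nat.card (PSL F) = 660 := by norm_num at hG; omega
  rw [h660] at hdG
  have hpos : 0 < Nat.card (Subgroup.normalizer ((kleinOf h : Subgroup (PSL F)) : Set (PSL F))) := Nat.card_pos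
  by_contra hne
  have h24 : Nat.card (Subgroup.normalizer ((kleinOf h : Subgroup (PSL F)) : Set (PSL F))) = 24 := by omega
  rw [h24] at hdG
  norm_num at hdG

/-- A subgroup isomorphic to the alternating group of degree five. -/
theorem alt_pair (hF : Fintype.card F = 11) {L : Subgroup (PSL F)} (e : L ≃* alternatingGroup (Fin 5)) :
    ∃ h : KPair ((e.symm u0 : L) : PSL F) ((e.symm v0 : L) : PSL F),
      kleinOf h ≤ L ∧ Subgroup.normalizer ((kleinOf h : Subgroup (PSL F)) : Set (PSL F)) ≤ L := by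
  obtain ⟨-, ⟨a, ha3, ha1, hau, hav⟩, hk⟩ := alt_data
  set φ := L.subtype.comp e.symm.toMonoidHom with hφ
  have hφi : Function.Injective φ := Subtype.val_injective.comp e.symm.injective
  have h : KPair (φ u0) (φ v0) := KPair.map hk φ hφi
  refine ⟨h, ?_, ?_⟩
  · intro x hx
    rcases (mem_kleinOf h).1 hx with rfl | rfl | rfl | rfl
    exacts [one_mem _, (e.symm u0).2, (e.symm v0).2, mul_mem (e.symm u0).2 (e.symm v0).2]
  set N := Subgroup.normalizer ((kleinOf h : Subgroup (PSL F)) : Set (PSL F))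
  have hV : kleinOf h ≤ L := by
    intro x hx
    rcases (mem_kleinOf h).1 hx with rfl | rfl | rfl | rfl
    exacts [one_mem _, (e.symm u0).2, (e.symm v0).2, mul_mem (e.symm u0).2 (e.symm v0).2]
  have haN : φ a ∈ N := by
    have hgen : kleinOf h = Subgroup.closure ({φ u0, φ v0} : Set (PSL F)) := by
      refine le_antisymm (fun y hy => ?_) ((Subgroup.closure_le _).2 fun y hy => ?_)
      · have mu : φ u0 ∈ Subgroup.closure ({φ u0, φ v0} : Set (PSL F)) := Subgroup.subset_closure (Or.inl rfl)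
        have mv : φ v0 ∈ Subgroup.closure ({φ u0, φ v0} : Set (PSL F)) := Subgroup.subset_closure (Or.inr rfl)
        rcases (mem_kleinOf h).1 hy with rfl | rfl | rfl | rfl
        exacts [one_mem _, mu, mv, mul_mem mu mv]
      · rcases hy with rfl | rfl
        · exact Or.inr (Or.inl rfl)
        · exact Or.inr (Or.inr (Or.inl rfl))
    have himg : ∀ y ∈ ({u0, v0, u0 * v0} : Finset (alternatingGroup (Fin 5))), φ y ∈ kleinOf h := by
      intro y hy
      simp only [Finset.mem_insert, Finset.mem_singleton] at hy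
      rcases hy with rfl | rfl | rfl
      · exact Or.inr (Or.inl rfl)
      · exact Or.inr (Or.inr (Or.inl rfl))
      · exact Or.inr (Or.inr (Or.inr (map_mul φ _ _)))
    show φ a ∈ Subgroup.normalizer ((kleinOf h : Subgroup (PSL F)) : Set (PSL F))
    rw [hgen]
    refine mem_normalizer_closure fun s hs => ?_
    rw [← hgen]
    rcases hs with e' | e' <;> rw [e', ← map_inv, ← map_mul, ← map_mul]
    · exact himg _ hau
    · exact himg _ hav
  have h3 : 3 ∣ Nat.card (N ⊓ L : Subgroup (PSL F)) := by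
    have ho : orderOf (φ a) = 3 := by
      haveI : Fact (Nat.Prime 3) := ⟨Nat.prime_three⟩
      rw [orderOf_injective φ hφi]
      exact orderOf_eq_prime ha3 ha1
    rw [← ho]
    exact Subgroup.orderOf_dvd_natCard _ ⟨haN, (e.symm a).2⟩
  have h4 : 4 ∣ Nat.card (N ⊓ L : Subgroup (PSL F)) := by
    have := Subgroup.card_dvd_of_le (le_inf (Subgroup.le_normalizer) hV : kleinOf h ≤ N ⊓ L)
    rwa [(isKleinFour_kleinOf h).card_four] at this
  have h12 : 12 ∣ Nat.card (N ⊓ L : Subgroup (PSL F)) :=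
    Nat.Coprime.mul_dvd_of_dvd_of_dvd (by norm_num : Nat.Coprime 3 4) h3 h4
  have hpos : 0 < Nat.card (N ⊓ L : Subgroup (PSL F)) := Nat.card_pos
  have hle := Subgroup.card_le_of_le (inf_le_left : N ⊓ L ≤ N)
  have heq : N ⊓ L = N := Subgroup.eq_of_le_of_card_ge inf_le_left (by
    rw [card_norm hF h]
    exact Nat.le_of_dvd hpos h12)
  exact inf_eq_left.1 heq

end

/-- Let F be a field with 11 elements. PSL_2(F) has exactly 22 subgroups isomorphic to the alternating group A_5, and they form two conjugacy classes: there are two such subgroups that are not conjugate, and every such subgroup is conjugate to one of these two. -/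
theorem result {F : Type*} [Field F] [Fintype F] (hF : Fintype.card F = 11) : Nat.card {H : Subgroup (Matrix.ProjectiveSpecialLinearGroup (Fin 2) F) // Nonempty (H ≃* alternatingGroup (Fin 5))} = 22 ∧ ∃ H K : Subgroup (Matrix.ProjectiveSpecialLinearGroup (Fin 2) F), Nonempty (H ≃* alternatingGroup (Fin 5)) ∧ Nonempty (K ≃* alternatingGroup (Fin 5)) ∧ (∀ g : Matrix.ProjectiveSpecialLinearGroup (Fin 2) F, MulAut.conj g • H ≠ K) ∧ ∀ L : Subgroup (Matrix.ProjectiveSpecialLinearGroup (Fin 2) F), Nonempty (L ≃* alternatingGroup (Fin 5)) → ∃ g : Matrix.ProjectiveSpecialLinearGroup (Fin 2) F, MulAut.conj g • L = H ∨ MulAut.conj g • L = K := by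
  classical
  open CfsgLib.Dickson Matrix in
  open scoped Pointwise in
  haveI h11 : Fact (Nat.Prime 11) := ⟨by norm_num⟩
  haveI : CharP F 11 := by
    obtain ⟨p, hp⟩ := CharP.exists F
    obtain ⟨n, hpp, hn⟩ := FiniteField.card F p
    rw [hF] at hn
    have : p = 11 := (Nat.prime_dvd_prime_iff_eq hpp h11.out).1 (hn ▸ dvd_pow_self p n.ne_zero)
    exact this ▸ hp
  set ι := ZMod.castHom (dvd_refl 11) F with hι
  have hodd : Odd (Fintype.card F) := by rw [hF]; decide
  have hG : Nat.card (PSL F) = 660 := by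
    have := CfsgLib.Dickson.card_psl (F := F) hF (p := 11)
    rw [show Nat.gcd 2 (11 - 1) = 2 from rfl] at this
    omega
  haveI hsimple : IsSimpleGroup (PSL F) := CfsgLib.Dickson.psl_card_pos (by omega)
  have h2 : (2 : F) ≠ 0 := two_ne_zero_of_char (F := F) (p := 11) (by norm_num)
  have h60 : ∀ L : Subgroup (PSL F), Nonempty (L ≃* alternatingGroup (Fin 5)) → Nat.card L = 60 := by
    rintro L ⟨e⟩
    rw [Nat.card_congr e.toEquiv, nat_card_alternatingGroup, Nat.card_fin]; rfl
  have hself : ∀ L : Subgroup (PSL F), Nonempty (L ≃* alternatingGroup (Fin 5)) →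
      Subgroup.normalizer (L : Set (PSL F)) = L := by
    intro L hL
    have hle : L ≤ Subgroup.normalizer (L : Set (PSL F)) := Subgroup.le_normalizer
    refine (Subgroup.eq_of_le_of_card_ge hle ?_).symm
    by_contra hlt
    have hd1 := Subgroup.card_dvd_of_le hle
    have hd2 := Subgroup.card_subgroup_dvd_card (Subgroup.normalizer (L : Set (PSL F)))
    rw [h60 L hL] at hd1 hlt
    rw [hG] at hd2
    obtain ⟨k, hk⟩ := hd1
    rw [hk, show (660 : ℕ) = 60 * 11 from rfl] at hd2
    have hk11 : k ∣ 11 := Nat.dvd_of_mul_dvd_mul_left (by norm_num) hd2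
    rcases (Nat.dvd_prime h11.out).1 hk11 with rfl | rfl
    · omega
    · have htop : Subgroup.normalizer (L : Set (PSL F)) = ⊤ := Subgroup.eq_top_of_card_eq _ (by rw [hk, hG])
      rcases (Subgroup.normalizer_eq_top_iff.1 htop).eq_bot_or_eq_top with h | h
      · have := h60 L hL
        rw [h, Subgroup.card_bot] at this
        omega
      · have := h60 L hL
        rw [h, Subgroup.card_top, hG] at this
        omega
  have hcard : ∀ L : Subgroup (PSL F), Nonempty (L ≃* alternatingGroup (Fin 5)) →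
      Nat.card {W : Subgroup (PSL F) // ∃ g : PSL F, W = L.map (MulAut.conj g).toMonoidHom} = 11 := by
    intro L hL
    have := card_class L
    rw [hself L hL, h60 L hL, hG] at this
    omega
  have hconjiso : ∀ (L : Subgroup (PSL F)) (g : PSL F), Nonempty (L ≃* alternatingGroup (Fin 5)) →
      Nonempty (↥(L.map (MulAut.conj g).toMonoidHom) ≃* alternatingGroup (Fin 5)) := fun L g ⟨e⟩ =>
    ⟨(L.equivMapOfInjective (MulAut.conj g).toMonoidHom (MulAut.conj g).injective).symm.trans e⟩
  -- the base subgroup and its mirror image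
  obtain ⟨H, hHn⟩ := (Cfsg.Agent.S0804.result hF).mpr (by norm_num)
  obtain ⟨eH⟩ := hHn
  obtain ⟨hp, hpH, hNH⟩ := alt_pair hF eH
  set u := ((eH.symm u0 : H) : PSL F) with hu
  set v := ((eH.symm v0 : H) : PSL F) with hv
  obtain ⟨a, b, hab⟩ := ZMod.sq_add_sq 11 (-1)
  have hab' : ι a * ι a + ι b * ι b = -1 := by
    rw [← map_mul, ← map_mul, ← map_add, ← sq, ← sq, hab, map_neg, map_one]
  obtain ⟨c, ct, cu, cv⟩ := klein_normal_form h2 hab' hp
  obtain ⟨d, dt, dv, du⟩ := klein_normal_form h2 hab' (KPair.swap hp)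
  set σ := (autP c).trans (autP d).symm with hσ
  have σu : σ u = v := by rw [hσ, MulEquiv.trans_apply, cu, ← dv, MulEquiv.symm_apply_apply]
  have σv : σ v = u := by rw [hσ, MulEquiv.trans_apply, cv, ← du, MulEquiv.symm_apply_apply]
  set K := H.map σ.toMonoidHom with hK
  have hKn : Nonempty (K ≃* alternatingGroup (Fin 5)) :=
    ⟨(H.equivMapOfInjective σ.toMonoidHom σ.injective).symm.trans eH⟩
  set V := kleinOf hp with hV
  have hVK : V ≤ K := by
    intro x hx
    rcases (mem_kleinOf hp).1 hx with rfl | rfl | rfl | rfl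
    · exact one_mem _
    · exact ⟨v, (eH.symm v0).2, σv⟩
    · exact ⟨u, (eH.symm u0).2, σu⟩
    · exact ⟨v * u, mul_mem (eH.symm v0).2 (eH.symm u0).2, by show σ (v * u) = u * v; rw [map_mul, σv, σu]⟩
  have hVcard : Nat.card V = 4 := (isKleinFour_kleinOf hp).card_four
  haveI h2f : Fact (Nat.Prime 2) := ⟨Nat.prime_two⟩
  -- distinctness
  have hne : H ≠ K := by
    intro e
    obtain ⟨⟨x0, hx5, hx1, hxu, hxv⟩, -, -⟩ := alt_data
    set φ := H.subtype.comp eH.symm.toMonoidHom with hφ
    have hφi : Function.Injective φ := Subtype.val_injective.comp eH.symm.injective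
    obtain ⟨y, hy⟩ : ∃ y : alternatingGroup (Fin 5), φ y = σ (φ x0) := by
      have hm : σ (φ x0) ∈ H := e ▸ ⟨φ x0, (eH.symm x0).2, rfl⟩
      exact ⟨eH ⟨_, hm⟩, by simp [φ]⟩
    have hu' : φ u0 = u := rfl
    have hv' : φ v0 = v := rfl
    obtain ⟨g, hg⟩ := alt_orientation x0 ⟨hx5, hx1, hxu, hxv⟩ y
      ⟨hφi (by rw [map_pow, hy, ← map_pow, ← map_pow, hx5, map_one, map_one]),
       fun e1 => hx1 (hφi (σ.injective (by rw [← hy, e1, map_one, map_one]))),
       hφi (by rw [map_pow, map_mul, hy, hv', ← σu, ← hu', ← map_mul, ← map_mul, ← map_pow, ← map_pow, hxu, map_one, map_one]),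
       hφi (by rw [map_pow, map_mul, hy, hu', ← σv, ← hv', ← map_mul, ← map_mul, ← map_pow, ← map_pow, hxv, map_one, map_one])⟩
    obtain ⟨X, hX⟩ := mkP_surjective (φ x0)
    obtain ⟨Z, hZ⟩ := mkP_surjective (φ g)
    have hY : mkP (d.symm (c X)) = σ (φ x0) := by
      rw [← hX, hσ, MulEquiv.trans_apply, autP_mk]
      apply (autP d).injective
      rw [MulEquiv.apply_symm_apply, autP_mk, MulEquiv.apply_symm_apply]
    have hrel : mkP (Z * d.symm (c X) * Z⁻¹) = mkP (X * X) := by
      rw [map_mul, map_mul, map_inv, hY, hZ, ← hy, ← map_inv, ← map_mul, ← map_mul, hg, map_mul, map_mul, hX]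
    have htr : tr (Z * d.symm (c X) * Z⁻¹) = tr X := by
      have h1 : tr (d.symm (c X)) = tr X := by rw [← dt, d.apply_symm_apply, ct]
      rw [← h1]
      have h3 := Matrix.trace_mul_cycle (Z : Matrix (Fin 2) (Fin 2) F) ((d.symm (c X) : SL F) : Matrix (Fin 2) (Fin 2) F)
        ((Z⁻¹ : SL F) : Matrix (Fin 2) (Fin 2) F)
      rw [← Matrix.SpecialLinearGroup.coe_mul, ← Matrix.SpecialLinearGroup.coe_mul, ← Matrix.SpecialLinearGroup.coe_mul,
        ← Matrix.SpecialLinearGroup.coe_mul, inv_mul_cancel, one_mul, Matrix.trace_fin_two, Matrix.trace_fin_two] at h3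
      exact h3
    have hsq : tr (X * X) = tr X * tr X - 2 := by
      have hd := X.2
      rw [Matrix.det_fin_two] at hd
      simp [tr, Matrix.SpecialLinearGroup.coe_mul, Matrix.mul_apply, Fin.sum_univ_two]
      linear_combination -2 * hd
    obtain ⟨s, hs, hst⟩ := tr_five hF hX (by rw [← map_pow, hx5, map_one]) fun e1 => hx1 (hφi (by rw [e1, map_one]))
    obtain ⟨-, n1, n2⟩ := five_sub s hs
    rcases mkP_eq_iff.1 hrel with e1 | e1
    · have := congrArg tr e1
      rw [htr, hsq, ← hst, ← map_mul, show (2 : F) = ι 2 from (map_ofNat ι 2).symm, ← map_sub] at this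
      exact n1 (ι.injective this.symm)
    · have := congrArg tr e1
      rw [htr, tr_neg, hsq, ← hst, ← map_mul, show (2 : F) = ι 2 from (map_ofNat ι 2).symm, ← map_sub, ← map_neg] at this
      have h := ι.injective this
      exact n2 (by linear_combination h)
  have hsylow : ∀ (L : Subgroup (PSL F)), Nonempty (L ≃* alternatingGroup (Fin 5)) → ∀ A B : Subgroup (PSL F),
      A ≤ L → B ≤ L → Nat.card A = 4 → Nat.card B = 4 → ∃ w ∈ L, A.map (MulAut.conj w).toMonoidHom = B := by
    intro L hL A B hA hB hA4 hB4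
    have hmk : ∀ C : Subgroup (PSL F), C ≤ L → Nat.card C = 4 → Nat.card (C.subgroupOf L) = 2 ^ (Nat.card L).factorization 2 := by
      intro C hC hC4
      rw [Nat.card_congr (Subgroup.subgroupOfEquivOfLe hC).toEquiv, hC4, h60 L hL, show (60 : ℕ) = 2 ^ 2 * 15 from rfl,
        Nat.factorization_mul (by norm_num) (by norm_num), Finsupp.add_apply, Nat.Prime.factorization_pow Nat.prime_two,
        Nat.factorization_eq_zero_of_not_dvd (by norm_num : ¬ 2 ∣ 15)]
      simp
    obtain ⟨w, hw⟩ := MulAction.exists_smul_eq L (Sylow.ofCard (A.subgroupOf L) (hmk A hA hA4))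
      (Sylow.ofCard (B.subgroupOf L) (hmk B hB hB4))
    refine ⟨w.1, w.2, ?_⟩
    have hw' := congrArg (fun P : Sylow 2 L => (P : Subgroup L).map L.subtype) hw
    simp only [Sylow.coe_subgroup_smul, Sylow.coe_ofCard] at hw'
    rw [Subgroup.map_subgroupOf_eq_of_le hB] at hw'
    rw [← hw']
    conv_lhs => rw [← Subgroup.map_subgroupOf_eq_of_le hA]
    show _ = ((A.subgroupOf L).map (MulAut.conj w).toMonoidHom).map L.subtype
    rw [Subgroup.map_map, Subgroup.map_map]
    congr 1
  have hnotconj : ∀ g : PSL F, H.map (MulAut.conj g).toMonoidHom ≠ K := by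
    intro g hg
    obtain ⟨w, hw, hwe⟩ := hsylow K hKn (V.map (MulAut.conj g).toMonoidHom) V
      (hg ▸ Subgroup.map_mono hpH) hVK
      (by rw [Subgroup.card_map_of_injective (MulAut.conj g).injective, hVcard]) hVcard
    have hmem : w * g ∈ Subgroup.normalizer (V : Set (PSL F)) := by
      rw [Subgroup.mem_normalizer_iff]
      intro z
      have hc : V.map (MulAut.conj (w * g)).toMonoidHom = V := by
        conv_rhs => rw [← hwe, Subgroup.map_map]
        congr 1
        ext z
        simp [mul_assoc]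
      conv_rhs => rw [← hc]
      exact (Subgroup.mem_map_iff_mem (MulAut.conj (w * g)).injective).symm
    have hwgH : w * g ∈ H := hNH hmem
    refine hne (le_antisymm (fun z hz => ?_) fun z hz => ?_)
    · have hz' : (w * g)⁻¹ * z * (w * g) ∈ H := mul_mem (mul_mem (inv_mem hwgH) hz) hwgH
      have : g * ((w * g)⁻¹ * z * (w * g)) * g⁻¹ ∈ K := hg ▸ ⟨_, hz', rfl⟩
      rw [show g * ((w * g)⁻¹ * z * (w * g)) * g⁻¹ = w⁻¹ * z * w by group] at this
      simpa [mul_assoc] using mul_mem (mul_mem hw this) (inv_mem hw)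
    · have hz' : w⁻¹ * z * w ∈ K := mul_mem (mul_mem (inv_mem hw) hz) hw
      rw [← hg] at hz'
      obtain ⟨y, hy, hye⟩ := hz'
      simp only [MulEquiv.coe_toMonoidHom, MulAut.conj_apply] at hye
      have : (w * g) * y * (w * g)⁻¹ ∈ H := mul_mem (mul_mem hwgH hy) (inv_mem hwgH)
      rwa [show (w * g) * y * (w * g)⁻¹ = w * (g * y * g⁻¹) * w⁻¹ by group, hye,
        show w * (w⁻¹ * z * w) * w⁻¹ = z by group] at this
  -- at most two through V
  have hmax : ∀ L : Subgroup (PSL F), Nonempty (L ≃* alternatingGroup (Fin 5)) → V ≤ L → L = H ∨ L = K := by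
    intro L hL hVL
    by_contra hcon
    push Not at hcon
    let T : Fin 3 → Subgroup (PSL F) := ![H, K, L]
    have hT : ∀ i, Nonempty (T i ≃* alternatingGroup (Fin 5)) ∧ V ≤ T i := fun i => by
      fin_cases i
      exacts [⟨⟨eH⟩, hpH⟩, ⟨hKn, hVK⟩, ⟨hL, hVL⟩]
    have hTinj : Function.Injective T := by
      intro i j e
      fin_cases i <;> fin_cases j <;> simp [T] at e ⊢
      all_goals first
        | exact hne e
        | exact hne e.symm
        | exact hcon.1 e
        | exact hcon.1 e.symm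
        | exact hcon.2 e
        | exact hcon.2 e.symm
    have eT : ∀ i, T i ≃* alternatingGroup (Fin 5) := fun i => (hT i).1.some
    have hVT : ∀ i, V ≤ T i := fun i => (hT i).2
    let S := {x : alternatingGroup (Fin 5) // x ^ 5 = 1 ∧ x ≠ 1}
    let lft : Fin 3 → S → SL F := fun i x => (mkP_surjective (((eT i).symm x.1 : T i) : PSL F)).choose
    have hl : ∀ i (x : S), mkP (lft i x) = (((eT i).symm x.1 : T i) : PSL F) := fun i x =>
      (mkP_surjective _).choose_spec
    let pt : (Fin 3 × S × Bool) → SL F := fun z => if z.2.2 then lft z.1 z.2.1 else -lft z.1 z.2.1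
    have hpt : ∀ z, mkP (pt z) = (((eT z.1).symm z.2.1.1 : T z.1) : PSL F) := fun z => by
      simp only [pt]
      split
      · exact hl _ _
      · rw [mkP_neg, hl]
    let J := stdJ (ι a) (ι b) hab'
    let tup : SL F → F × F × F × F := fun g => (tr g, tr (g * stdI), tr (g * J), tr (g * stdI * J))
    have htup : ∀ g g' : SL F, tup g = tup g' → g = g' := by
      intro g g' e
      simp only [tup, Prod.mk.injEq] at e
      obtain ⟨e0, e1, e2, e3⟩ := e
      simp only [tr, J, Matrix.SpecialLinearGroup.coe_mul] at e0 e1 e2 e3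
      simp [stdI, stdJ, Matrix.mul_apply, Fin.sum_univ_two] at e1 e2 e3
      have hD : (g.1 0 0 - g.1 1 1) - (g'.1 0 0 - g'.1 1 1) = 0 := by
        linear_combination (-ι a) * e2 + ι b * e3 + ((g.1 0 0 - g.1 1 1) - (g'.1 0 0 - g'.1 1 1)) * hab'
      have hS : (g.1 0 1 + g.1 1 0) - (g'.1 0 1 + g'.1 1 0) = 0 := by
        linear_combination (-ι b) * e2 + (-ι a) * e3 + ((g.1 0 1 + g.1 1 0) - (g'.1 0 1 + g'.1 1 0)) * hab'
      refine sl_ext ?_ ?_ ?_ ?_ <;> refine mul_left_cancel₀ h2 ?_
      · linear_combination e0 + hD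
      · linear_combination e1 + hS
      · linear_combination hS - e1
      · linear_combination e0 - hD
    let f : (Fin 3 × S × Bool) → F × F × F × F := fun z => tup (c (pt z))
    have hfi : Function.Injective f := by
      intro z z' e
      have e1 : pt z = pt z' := c.injective (htup _ _ e)
      obtain ⟨i, x, bb⟩ := z
      obtain ⟨i', x', bb'⟩ := z'
      have e2 := congrArg mkP e1
      rw [hpt, hpt] at e2
      have hii : i = i' := by
        by_contra hne'
        have hm : (((eT i).symm x.1 : T i) : PSL F) ∈ T i ⊓ T i' :=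
          ⟨SetLike.coe_mem _, e2 ▸ SetLike.coe_mem _⟩
        set I := T i ⊓ T i'
        have h5 : 5 ∣ Nat.card I := by
          haveI : Fact (Nat.Prime 5) := ⟨by norm_num⟩
          have ho : orderOf (((eT i).symm x.1 : T i) : PSL F) = 5 := by
            rw [Subgroup.orderOf_coe, MulEquiv.orderOf_eq, orderOf_eq_prime x.2.1 x.2.2]
          rw [← ho]
          exact Subgroup.orderOf_dvd_natCard _ hm
        have h4 : 4 ∣ Nat.card I := hVcard ▸ Subgroup.card_dvd_of_le (le_inf (hVT i) (hVT i'))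
        have h20 : 20 ∣ Nat.card I := Nat.Coprime.mul_dvd_of_dvd_of_dvd (by norm_num : Nat.Coprime 4 5) h4 h5
        have hdv := Subgroup.card_dvd_of_le (inf_le_left : I ≤ T i)
        rw [h60 _ ⟨eT i⟩] at hdv
        by_cases h60' : Nat.card I = 60
        · refine hne' (hTinj ?_)
          have a1 := Subgroup.eq_of_le_of_card_ge (inf_le_left : I ≤ T i) (by rw [h60 _ ⟨eT i⟩, h60'])
          have a2 := Subgroup.eq_of_le_of_card_ge (inf_le_right : I ≤ T i') (by rw [h60 _ ⟨eT i'⟩, h60'])
          exact a1.symm.trans a2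
        · have hI20 : Nat.card I = 20 := by
            obtain ⟨k, hk⟩ := h20
            rw [hk, show (60 : ℕ) = 20 * 3 from rfl] at hdv
            rcases (Nat.dvd_prime Nat.prime_three).1 (Nat.dvd_of_mul_dvd_mul_left (by norm_num) hdv) with r | r <;> omega
          haveI : IsSimpleGroup (T i) := by
            haveI := alternatingGroup.isSimpleGroup_five
            haveI : Nontrivial (T i) := (eT i).toEquiv.nontrivial
            exact IsSimpleGroup.isSimpleGroup_of_surjective (eT i).symm.toMonoidHom (eT i).symm.surjective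
          let J' := I.subgroupOf (T i)
          have hJ : J'.index = 3 := by
            have h3 := J'.card_mul_index
            rw [Nat.card_congr (Subgroup.subgroupOfEquivOfLe (inf_le_left : I ≤ T i)).toEquiv, hI20, h60 _ ⟨eT i⟩] at h3
            omega
          have hker : J'.normalCore = ⊥ := by
            rcases (Subgroup.normalCore_normal J').eq_bot_or_eq_top with h | h
            · exact h
            · have : J' = ⊤ := eq_top_iff.2 (h ▸ J'.normalCore_le)
              rw [this, Subgroup.index_top] at hJ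
              omega
          rw [Subgroup.normalCore_eq_ker] at hker
          have hle := Nat.card_le_card_of_injective _ ((MonoidHom.ker_eq_bot_iff _).1 hker)
          rw [h60 _ ⟨eT i⟩, Nat.card_perm, ← Subgroup.index_eq_card, hJ] at hle
          norm_num [Nat.factorial] at hle
      subst hii
      have hxx : x = x' := Subtype.ext ((eT i).symm.injective (Subtype.ext e2))
      subst hxx
      simp only [pt] at e1
      have hnn : -lft i x ≠ lft i x := by
        intro h
        have h0 := congrFun (congrFun (congrArg Subtype.val h) 0) 0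
        have h1 := congrFun (congrFun (congrArg Subtype.val h) 0) 1
        simp only [Matrix.SpecialLinearGroup.coe_neg, Matrix.neg_apply] at h0 h1
        have z0 : (lft i x).1 0 0 = 0 := mul_left_cancel₀ h2 (by linear_combination -h0)
        have z1 : (lft i x).1 0 1 = 0 := mul_left_cancel₀ h2 (by linear_combination -h1)
        have hd := (lft i x).2
        rw [Matrix.det_fin_two, z0, z1] at hd
        simp at hd
      cases bb <;> cases bb' <;> simp only [Bool.false_eq_true, if_false, if_true] at e1 <;>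
        first | rfl | exact absurd e1 hnn | exact absurd e1.symm hnn
    have hfg : ∀ z, f z ∈ goodTuples.image (fun s => (ι s.1, ι s.2.1, ι s.2.2.1, ι s.2.2.2)) := by
      intro z
      obtain ⟨i, x, bb⟩ := z
      set g := pt (i, x, bb) with hgdef
      set φ := (T i).subtype.comp (eT i).symm.toMonoidHom with hφ
      have hφi : Function.Injective φ := Subtype.val_injective.comp (eT i).symm.injective
      have hgx : mkP g = φ x.1 := hpt _
      obtain ⟨yu, hyu⟩ : ∃ y, φ y = u := ⟨eT i ⟨u, hVT i (Or.inr (Or.inl rfl))⟩, by simp [φ]⟩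
      obtain ⟨yv, hyv⟩ : ∃ y, φ y = v := ⟨eT i ⟨v, hVT i (Or.inr (Or.inr (Or.inl rfl)))⟩, by simp [φ]⟩
      have hnot : ∀ y ∈ V, φ x.1 * y ≠ 1 := by
        intro y hy h1
        have hxy : φ x.1 = y⁻¹ := eq_inv_of_mul_eq_one_left h1
        have hyy : φ x.1 ∈ V := hxy ▸ inv_mem hy
        haveI : Fact (Nat.Prime 5) := ⟨by norm_num⟩
        have := Subgroup.orderOf_dvd_natCard V hyy
        rw [orderOf_injective φ hφi, orderOf_eq_prime x.2.1 x.2.2, hVcard] at this
        norm_num at this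
      have hany : ∀ (k : SL F) (y : alternatingGroup (Fin 5)), mkP k = φ y → φ y ≠ 1 →
          ∃ s ∈ ({0, 1, -1, 3, -3, 4, -4} : Finset (ZMod 11)), ι s = tr k := fun k y hk h1 =>
        tr_any hF hk ((CfsgLib.Dickson.order_alt_five y).imp (fun o => by rw [← map_pow, o, map_one])
          (Or.imp (fun o => by rw [← map_pow, o, map_one]) fun o => by rw [← map_pow, o, map_one])) h1
      obtain ⟨I', hI'⟩ := c.surjective stdI
      obtain ⟨J', hJ'⟩ := c.surjective J
      have hI'm : mkP I' = u := (autP c).injective (by rw [autP_mk, hI', cu])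
      have hJ'm : mkP J' = v := (autP c).injective (by rw [autP_mk, hJ', cv])
      obtain ⟨s0, hs0, e0⟩ := tr_five hF hgx (by rw [← map_pow, x.2.1, map_one]) fun h => x.2.2 (hφi (by rw [h, map_one]))
      obtain ⟨s1, hs1, e1⟩ := hany (g * I') (x.1 * yu) (by rw [map_mul, map_mul, hgx, hI'm, hyu])
        (by rw [map_mul, hyu]; exact hnot u (Or.inr (Or.inl rfl)))
      obtain ⟨s2, hs2, e2⟩ := hany (g * J') (x.1 * yv) (by rw [map_mul, map_mul, hgx, hJ'm, hyv])
        (by rw [map_mul, hyv]; exact hnot v (Or.inr (Or.inr (Or.inl rfl))))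
      obtain ⟨s3, hs3, e3⟩ := hany (g * I' * J') (x.1 * yu * yv) (by simp only [map_mul, hgx, hI'm, hJ'm, hyu, hyv])
        (by rw [map_mul, map_mul, hyu, hyv, mul_assoc]; exact hnot _ (Or.inr (Or.inr (Or.inr rfl))))
      have E0 : ι s0 = tr (c g) := by rw [ct]; exact e0
      have E1 : ι s1 = tr (c g * stdI) := by rw [← hI', ← map_mul, ct]; exact e1
      have E2 : ι s2 = tr (c g * J) := by rw [← hJ', ← map_mul, ct]; exact e2
      have E3 : ι s3 = tr (c g * stdI * J) := by rw [← hI', ← hJ', ← map_mul, ← map_mul, ct]; exact e3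
      refine Finset.mem_image.2 ⟨(s0, s1, s2, s3), mem_good hs0 hs1 hs2 hs3 (ι.injective ?_), ?_⟩
      · simp only [map_add, map_mul, map_ofNat, E0, E1, E2, E3]
        have hd := (c g).2
        rw [Matrix.det_fin_two] at hd
        simp only [tr, J, Matrix.SpecialLinearGroup.coe_mul]
        simp [stdI, stdJ, Matrix.mul_apply, Fin.sum_univ_two]
        linear_combination 4 * hd + (((c g).1 0 0 - (c g).1 1 1) ^ 2 + ((c g).1 0 1 + (c g).1 1 0) ^ 2) * hab'
      · simp only [f, tup, E0, E1, E2, E3]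
        rw [← hgdef]
    have hle : Fintype.card (Fin 3 × S × Bool) ≤ 120 := by
      refine le_trans ?_ card_goodTuples
      refine le_trans ?_ (Finset.card_image_le (f := fun s : ZMod 11 × ZMod 11 × ZMod 11 × ZMod 11 => (ι s.1, ι s.2.1, ι s.2.2.1, ι s.2.2.2)))
      rw [← Finset.card_univ]
      exact Finset.card_le_card_of_injOn f (fun z _ => hfg z) hfi.injOn
    rw [Fintype.card_prod, Fintype.card_prod, Fintype.card_fin, Fintype.card_bool, show Fintype.card S = 24 from card_five] at hle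
    norm_num at hle
  -- every one is conjugate to one of the two
  have hall : ∀ L : Subgroup (PSL F), Nonempty (L ≃* alternatingGroup (Fin 5)) →
      ∃ g : PSL F, L.map (MulAut.conj g).toMonoidHom = H ∨ L.map (MulAut.conj g).toMonoidHom = K := by
    rintro L ⟨eL⟩
    obtain ⟨hpL, hVL, -⟩ := alt_pair hF eL
    have hKlein := CfsgLib.Dickson.card_klein (F := F) hodd
    rw [hG] at hKlein
    have hcls := card_class (kleinOf hp)
    rw [card_norm hF hp, hG] at hcls
    let inc : {W : Subgroup (PSL F) // ∃ g : PSL F, W = (kleinOf hp).map (MulAut.conj g).toMonoidHom} →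
        {W : Subgroup (PSL F) // IsKleinFour W} := fun W => ⟨W.1, by
      obtain ⟨g, hg⟩ := W.2
      rw [hg]
      haveI := isKleinFour_kleinOf hp
      let e := (kleinOf hp).equivMapOfInjective (MulAut.conj g).toMonoidHom (MulAut.conj g).injective
      exact ⟨by rw [← Nat.card_congr e.toEquiv]; exact IsKleinFour.card_four,
        by rw [← Monoid.exponent_eq_of_mulEquiv e]; exact IsKleinFour.exponent_two⟩⟩
    have hbij : Function.Bijective inc := Function.Injective.bijective_of_nat_card_le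
      (fun A B h => Subtype.ext (congrArg (fun W : {W : Subgroup (PSL F) // IsKleinFour W} => W.1) h)) (by omega)
    obtain ⟨⟨W, g, hg⟩, hW⟩ := hbij.2 ⟨kleinOf hpL, isKleinFour_kleinOf hpL⟩
    have hW' : W = kleinOf hpL := congrArg Subtype.val hW
    refine ⟨g⁻¹, hmax _ (hconjiso L g⁻¹ ⟨eL⟩) ?_⟩
    intro z hz
    refine ⟨g * z * g⁻¹, hVL ?_, by simp [mul_assoc]⟩
    rw [← hW', hg]
    exact ⟨z, hz, rfl⟩
  refine ⟨?_, H, K, ⟨eH⟩, hKn, fun g => ?_, fun L hL => ?_⟩
  · let A := {W : Subgroup (PSL F) // ∃ g : PSL F, W = H.map (MulAut.conj g).toMonoidHom}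
    let B := {W : Subgroup (PSL F) // ∃ g : PSL F, W = K.map (MulAut.conj g).toMonoidHom}
    let f : A ⊕ B → {L : Subgroup (PSL F) // Nonempty (L ≃* alternatingGroup (Fin 5))} :=
      Sum.elim (fun W => ⟨W.1, by obtain ⟨g, hg⟩ := W.2; rw [hg]; exact hconjiso H g ⟨eH⟩⟩)
        (fun W => ⟨W.1, by obtain ⟨g, hg⟩ := W.2; rw [hg]; exact hconjiso K g hKn⟩)
    have hmul : ∀ (X : Subgroup (PSL F)) (g k : PSL F),
        (X.map (MulAut.conj g).toMonoidHom).map (MulAut.conj k).toMonoidHom = X.map (MulAut.conj (k * g)).toMonoidHom := by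
      intro X g k
      rw [Subgroup.map_map]
      congr 1
      ext x
      simp [mul_assoc]
    have hone : ∀ X : Subgroup (PSL F), X.map (MulAut.conj (1 : PSL F)).toMonoidHom = X := by
      intro X; ext x; simp
    have hf : Function.Bijective f := by
      constructor
      · rintro (⟨W, g, hg⟩ | ⟨W, g, hg⟩) (⟨W', g', hg'⟩ | ⟨W', g', hg'⟩) e <;> have e' : W = W' := congrArg Subtype.val e
        · subst e'; rfl
        · exact absurd (by rw [← hmul, ← hg, e', hg', hmul, inv_mul_cancel, hone]) (hnotconj (g'⁻¹ * g))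
        · exact absurd (by rw [← hmul, ← hg', ← e', hg, hmul, inv_mul_cancel, hone]) (hnotconj (g⁻¹ * g'))
        · subst e'; rfl
      · rintro ⟨L, hL⟩
        obtain ⟨g, hg | hg⟩ := hall L hL
        · exact ⟨Sum.inl ⟨L, g⁻¹, by rw [← hg, hmul, inv_mul_cancel, hone]⟩, rfl⟩
        · exact ⟨Sum.inr ⟨L, g⁻¹, by rw [← hg, hmul, inv_mul_cancel, hone]⟩, rfl⟩
    rw [← Nat.card_eq_of_bijective f hf, Nat.card_sum, hcard H ⟨eH⟩, hcard K hKn]
  · rw [Subgroup.pointwise_smul_def]
    exact hnotconj g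
  · obtain ⟨g, hg⟩ := hall L hL
    refine ⟨g, ?_⟩
    rw [Subgroup.pointwise_smul_def]
    exact hg

end Cfsg.Agent.S2543
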