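import Cfsg.Statements.S2550
import Cfsg.Agent.Lib.ClassicalCardLinear
import Cfsg.Agent.Lib.ClassicalTransvecClass
import Cfsg.Agent.S0243

set_option autoImplicit false
open Cfsg
open Matrix

namespace Cfsg.Agent.S2550

/-- Let F be a field with 2 elements and K a field with 4 elements. PSL_4(F) and PSL_3(K) have the same order (20160) but are not isomorphic. -/
theorem result {F K : Type*} [Field F] [Fintype F] [Field K] [Fintype K] (hF : Fintype.card F = 2) (hK : Fintype.card K = 4) : Nat.card (Matrix.ProjectiveSpecialLinearGroup (Fin 4) F) = Nat.card (Matrix.ProjectiveSpecialLinearGroup (Fin 3) K) ∧ ¬ Nonempty (Matrix.ProjectiveSpecialLinearGroup (Fin 4) F ≃* Matrix.ProjectiveSpecialLinearGroup (Fin 3) K) := by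
  classical
  have hcF := CfsgLib.Classical.card_center_sl (F := F) (ι := Fin 4)
  rw [Fintype.card_fin, hF, show Nat.gcd 4 (2 - 1) = 1 from rfl] at hcF
  have hcK := CfsgLib.Classical.card_center_sl (F := K) (ι := Fin 3)
  rw [Fintype.card_fin, hK, show Nat.gcd 3 (4 - 1) = 3 from rfl] at hcK
  constructor
  · have h1 := Cfsg.Agent.S0243.result hF 4 (by norm_num)
    have h2 := Cfsg.Agent.S0243.result hK 3 (by norm_num)
    rw [show Nat.gcd 4 (2 - 1) = 1 from rfl, Fin.prod_univ_four] at h1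
    rw [show Nat.gcd 3 (4 - 1) = 3 from rfl, Fin.prod_univ_three] at h2
    simp only [Fin.val_zero, Fin.val_one, Fin.val_two, show ((3 : Fin 4) : ℕ) = 3 from rfl] at h1 h2
    norm_num [-Nat.card_eq_fintype_card] at h1 h2
    omega
  rintro ⟨e⟩
  haveI : CharP K 2 := by
    obtain ⟨p, hchar⟩ := CharP.exists K
    haveI := hchar
    obtain ⟨k, hp, hc⟩ := FiniteField.card K p
    have : p ∣ 2 ^ 2 := by rw [show (2 : ℕ) ^ 2 = p ^ (k : ℕ) by rw [← hc, hK]; norm_num]; exact dvd_pow_self p k.ne_zero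
    rwa [← (Nat.prime_dvd_prime_iff_eq hp Nat.prime_two).1 (hp.dvd_of_dvd_pow this)]
  have h2K : (2 : K) = 0 := by exact_mod_cast CharP.cast_eq_zero K 2
  let SK := Matrix.SpecialLinearGroup (Fin 3) K
  let π : SK →* Matrix.ProjectiveSpecialLinearGroup (Fin 3) K := QuotientGroup.mk' _
  let ρ : Matrix.SpecialLinearGroup (Fin 4) F →* Matrix.ProjectiveSpecialLinearGroup (Fin 4) F := QuotientGroup.mk' _
  have hρ : Function.Injective ρ := by
    rw [← MonoidHom.ker_eq_bot_iff, QuotientGroup.ker_mk', Subgroup.eq_bot_iff_card, hcF]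
  have lift : ∀ z, z ≠ 1 → z * z = 1 → ∃ y : SK, π y = z ∧ Cfsg.IsTransvection (y : Matrix (Fin 3) (Fin 3) K) := by
    intro z hz1 hz2
    obtain ⟨x, rfl⟩ := QuotientGroup.mk'_surjective _ z
    have hxc : x * x ∈ Subgroup.center SK := (QuotientGroup.eq_one_iff _).1 (by rw [← hz2]; rfl)
    have hy2 : x ^ 3 * x ^ 3 = 1 := by
      have h3 : (⟨x * x, hxc⟩ : Subgroup.center SK) ^ 3 = 1 := orderOf_dvd_iff_pow_eq_one.1 ((orderOf_dvd_natCard _).trans (dvd_of_eq hcK))
      have h3' := congrArg Subtype.val h3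
      simp only [Subgroup.coe_pow, Subgroup.coe_one] at h3'
      rw [← h3', ← sq x, ← pow_mul, ← pow_add]
    have hπy : π (x ^ 3) = π x := by
      rw [map_pow, pow_succ, sq]
      show π x * π x * π x = π x
      rw [show π x * π x = 1 from hz2, one_mul]
    refine ⟨x ^ 3, hπy, ?_⟩
    set M := ((x ^ 3 : SK) : Matrix (Fin 3) (Fin 3) K) with hM
    have hMM : M * M = 1 := by rw [hM, ← Matrix.SpecialLinearGroup.coe_mul, hy2, Matrix.SpecialLinearGroup.coe_one]
    have hsq : (M - 1) * (M - 1) = 0 := by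
      have : ∀ i j, ((1 : Matrix (Fin 3) (Fin 3) K) + 1 - M - M) i j = 0 := fun i j => by
        simp only [Matrix.sub_apply, Matrix.add_apply]
        linear_combination ((1 : Matrix (Fin 3) (Fin 3) K) i j - M i j) * h2K
      ext i j
      rw [Matrix.sub_mul, Matrix.mul_sub, Matrix.mul_one, Matrix.one_mul, hMM, Matrix.zero_apply, ← this i j]
      simp only [Matrix.sub_apply, Matrix.add_apply]
      ring
    refine ⟨?_, hsq⟩
    have hle : LinearMap.range (M - 1).mulVecLin ≤ LinearMap.ker (M - 1).mulVecLin := by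
      rintro _ ⟨v, rfl⟩
      rw [LinearMap.mem_ker, Matrix.mulVecLin_apply, Matrix.mulVecLin_apply, Matrix.mulVec_mulVec, hsq, Matrix.zero_mulVec]
    have h1 := Submodule.finrank_mono hle
    have h3 := LinearMap.finrank_range_add_finrank_ker (M - 1).mulVecLin
    rw [Module.finrank_fintype_fun_eq_card, Fintype.card_fin] at h3
    have h4 : Module.finrank K (LinearMap.range (M - 1).mulVecLin) ≠ 0 := by
      intro h
      apply hz1
      have h5 : M - 1 = 0 := by
        refine Matrix.ext_of_mulVec_single fun i => ?_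
        rw [Matrix.zero_mulVec]
        exact LinearMap.congr_fun (LinearMap.range_eq_bot.1 (Submodule.finrank_eq_zero.1 h)) _
      rw [← hπy, show (x ^ 3 : SK) = 1 from Subtype.ext (by rw [Matrix.SpecialLinearGroup.coe_one]; exact sub_eq_zero.1 h5), map_one]
    show Module.finrank K (LinearMap.range (M - 1).mulVecLin) = 1
    omega
  have hconj : ∀ y y' : SK, Cfsg.IsTransvection (y : Matrix (Fin 3) (Fin 3) K) → Cfsg.IsTransvection (y' : Matrix (Fin 3) (Fin 3) K) → IsConj y y' := by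
    intro y y' hy hy'
    obtain ⟨g, hg⟩ := isConj_iff.1 (CfsgLib.TransvecClass.isConj_of_transvection (Matrix.SpecialLinearGroup.toGL y) (Matrix.SpecialLinearGroup.toGL y') hy hy')
    obtain ⟨a, φ, ha, hφ, h, hv⟩ := CfsgLib.TransvecClass.exists_vec hy
    obtain ⟨k, h1, h2, hdet⟩ := CfsgLib.TransvecClass.exists_fix (le_refl 3) ha hφ h (d := ((g : Matrix (Fin 3) (Fin 3) K).det)⁻¹) (inv_ne_zero (Matrix.isUnits_det_units g).ne_zero)
    have hky : (k : Matrix (Fin 3) (Fin 3) K) * (y : Matrix (Fin 3) (Fin 3) K) = (y : Matrix (Fin 3) (Fin 3) K) * (k : Matrix (Fin 3) (Fin 3) K) := by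
      rw [hv]; exact CfsgLib.TransvecClass.conj_vec h1 h2
    let c : SK := ⟨(g : Matrix (Fin 3) (Fin 3) K) * (k : Matrix (Fin 3) (Fin 3) K), by rw [Matrix.det_mul, hdet, mul_inv_cancel₀ (Matrix.isUnits_det_units g).ne_zero]⟩
    refine isConj_iff.2 ⟨c, mul_inv_eq_iff_eq_mul.2 (Subtype.ext ?_)⟩
    show (g : Matrix (Fin 3) (Fin 3) K) * (k : Matrix (Fin 3) (Fin 3) K) * (y : Matrix (Fin 3) (Fin 3) K) = (y' : Matrix (Fin 3) (Fin 3) K) * ((g : Matrix (Fin 3) (Fin 3) K) * (k : Matrix (Fin 3) (Fin 3) K))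
    rw [Matrix.mul_assoc, hky, ← Matrix.mul_assoc, ← Matrix.mul_assoc]
    congr 1
    exact congrArg Units.val (mul_inv_eq_iff_eq_mul.1 hg)
  have h2F : (2 : F) = 0 := by
    have h := FiniteField.cast_card_eq_zero F
    rw [hF] at h
    exact_mod_cast h
  let a : Matrix.SpecialLinearGroup (Fin 4) F := ⟨!![1, 1, 0, 0; 0, 1, 0, 0; 0, 0, 1, 0; 0, 0, 0, 1], by simp [Matrix.det_succ_row_zero, Fin.sum_univ_succ]⟩
  let b : Matrix.SpecialLinearGroup (Fin 4) F := ⟨!![1, 1, 0, 0; 0, 1, 0, 0; 0, 0, 1, 1; 0, 0, 0, 1], by simp [Matrix.det_succ_row_zero, Fin.sum_univ_succ]⟩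
  have h11 : (1 : F) + 1 = 0 := by linear_combination h2F
  have hav : (a : Matrix (Fin 4) (Fin 4) F) = !![1, 1, 0, 0; 0, 1, 0, 0; 0, 0, 1, 0; 0, 0, 0, 1] := rfl
  have ha2 : a * a = 1 := by
    apply Subtype.ext
    ext i j
    rw [Matrix.SpecialLinearGroup.coe_mul, Matrix.SpecialLinearGroup.coe_one, hav]
    fin_cases i <;> fin_cases j <;> simp [Matrix.mul_apply, Fin.sum_univ_four, Matrix.one_apply, h11]
  have hbv : (b : Matrix (Fin 4) (Fin 4) F) = !![1, 1, 0, 0; 0, 1, 0, 0; 0, 0, 1, 1; 0, 0, 0, 1] := rfl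
  have hb2 : b * b = 1 := by
    apply Subtype.ext
    ext i j
    rw [Matrix.SpecialLinearGroup.coe_mul, Matrix.SpecialLinearGroup.coe_one, hbv]
    fin_cases i <;> fin_cases j <;> simp [Matrix.mul_apply, Fin.sum_univ_four, Matrix.one_apply, h11]
  have hne : ∀ t : Matrix.SpecialLinearGroup (Fin 4) F, (t : Matrix (Fin 4) (Fin 4) F) 0 1 = 1 → e (ρ t) ≠ 1 := by
    intro t ht h
    rw [e.map_eq_one_iff] at h
    have := hρ (h.trans (map_one ρ).symm)
    rw [this] at ht
    simp at ht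
  obtain ⟨y, hy, hyt⟩ := lift (e (ρ a)) (hne a (by simp [a])) (by rw [← map_mul, ← map_mul, ha2, map_one, map_one])
  obtain ⟨y', hy', hyt'⟩ := lift (e (ρ b)) (hne b (by simp [b])) (by rw [← map_mul, ← map_mul, hb2, map_one, map_one])
  have hc := π.map_isConj (hconj y y' hyt hyt')
  rw [hy, hy'] at hc
  obtain ⟨c, hc⟩ := isConj_iff.1 hc
  obtain ⟨c', hc'⟩ := QuotientGroup.mk'_surjective _ (e.symm c)
  have hab : c' * a * c'⁻¹ = b := hρ (e.injective (by
    rw [map_mul, map_mul, map_inv, map_mul, map_mul, map_inv, show ρ c' = e.symm c from hc', MulEquiv.apply_symm_apply, hc]))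
  rw [mul_inv_eq_iff_eq_mul] at hab
  have hab' := congrArg Subtype.val hab
  simp only [Matrix.SpecialLinearGroup.coe_mul] at hab'
  have hrow : ∀ j, j ≠ 1 → (c' : Matrix (Fin 4) (Fin 4) F) 1 j = 0 ∧ (c' : Matrix (Fin 4) (Fin 4) F) 3 j = 0 := by
    intro j hj
    have e0 := congrFun (congrFun hab' 0) j
    have e2 := congrFun (congrFun hab' 2) j
    fin_cases j <;> simp [a, b, Matrix.mul_apply, Fin.sum_univ_four] at e0 e2 hj ⊢ <;> simp_all
  have key : ∃ v : Fin 4 → F, v ≠ 0 ∧ v ᵥ* (c' : Matrix (Fin 4) (Fin 4) F) = 0 := by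
    by_cases h31 : (c' : Matrix (Fin 4) (Fin 4) F) 3 1 = 0
    · refine ⟨Pi.single 3 1, by simp, ?_⟩
      funext j
      rcases eq_or_ne j 1 with rfl | hj
      · simp [Matrix.single_vecMul, h31]
      · simp [Matrix.single_vecMul, (hrow j hj).2]
    · refine ⟨![0, (c' : Matrix (Fin 4) (Fin 4) F) 3 1, 0, -((c' : Matrix (Fin 4) (Fin 4) F) 1 1)], fun h => h31 (by simpa using congrFun h 1), ?_⟩
      funext j
      rcases eq_or_ne j 1 with rfl | hj
      · simp [Matrix.vecMul, dotProduct, Fin.sum_univ_four]; ring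
      · simp [Matrix.vecMul, dotProduct, Fin.sum_univ_four, (hrow j hj).1, (hrow j hj).2]
  have := Matrix.exists_vecMul_eq_zero_iff.1 key
  rw [c'.2] at this
  exact one_ne_zero this

end Cfsg.Agent.S2550
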