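import Cfsg.Statements.S2552


set_option autoImplicit false
open Cfsg

namespace Cfsg.Agent.S2552

/-- Let F be a finite field and n ≥ 1. For every k, the special linear group SL_n(F) acts transitively on the set of k-dimensional subspaces of F^n: any two subspaces of the same dimension are carried onto each other by some matrix of determinant 1. -/
theorem result {F : Type*} [Field F] [Fintype F] (n : ℕ) (hn : 1 ≤ n) (U₁ U₂ : Submodule F (Fin n → F)) (h : Module.finrank F U₁ = Module.finrank F U₂) : ∃ g : Matrix.SpecialLinearGroup (Fin n) F, U₁.map ((Matrix.SpecialLinearGroup.toLin' g : (Fin n → F) ≃ₗ[F] (Fin n → F)) : (Fin n → F) →ₗ[F] (Fin n → F)) = U₂ := by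
  classical
  obtain ⟨C₁, hC₁⟩ := Submodule.exists_isCompl U₁
  obtain ⟨C₂, hC₂⟩ := Submodule.exists_isCompl U₂
  have hdim : Module.finrank F C₁ = Module.finrank F C₂ := by
    have a := Submodule.finrank_add_eq_of_isCompl hC₁
    have b := Submodule.finrank_add_eq_of_isCompl hC₂
    omega
  let e₁ : (Fin n → F) ≃ₗ[F] (Fin n → F) :=
    (Submodule.prodEquivOfIsCompl U₁ C₁ hC₁).symm.trans
      (((LinearEquiv.ofFinrankEq U₁ U₂ h).prodCongr (LinearEquiv.ofFinrankEq C₁ C₂ hdim)).trans (Submodule.prodEquivOfIsCompl U₂ C₂ hC₂))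
  have he₁ : U₁.map (e₁ : (Fin n → F) →ₗ[F] (Fin n → F)) = U₂ := by
    refine Submodule.eq_of_le_of_finrank_eq ?_ (by rw [LinearEquiv.finrank_map_eq, h])
    rintro _ ⟨x, hx, rfl⟩
    simp [e₁, Submodule.prodEquivOfIsCompl_symm_apply_left U₁ C₁ hC₁ ⟨x, hx⟩]
  obtain ⟨D, hD, hDdet⟩ : ∃ D : (Fin n → F) ≃ₗ[F] (Fin n → F), (∀ x ∈ U₂, D x ∈ U₂) ∧ LinearMap.det (D : (Fin n → F) →ₗ[F] (Fin n → F)) = (LinearMap.det (e₁ : (Fin n → F) →ₗ[F] (Fin n → F)))⁻¹ := by
    set d := (LinearMap.det (e₁ : (Fin n → F) →ₗ[F] (Fin n → F)))⁻¹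
    have hd : d ≠ 0 := inv_ne_zero (LinearEquiv.isUnit_det' e₁).ne_zero
    let bs := (Module.finBasis F U₂).prod (Module.finBasis F C₂)
    let b := bs.map (Submodule.prodEquivOfIsCompl U₂ C₂ hC₂)
    have hpos : Nonempty (Fin (Module.finrank F U₂) ⊕ Fin (Module.finrank F C₂)) := by
      have a := Submodule.finrank_add_eq_of_isCompl hC₂
      rw [Module.finrank_fintype_fun_eq_card, Fintype.card_fin] at a
      rcases Nat.eq_zero_or_pos (Module.finrank F U₂) with h0 | h0
      · exact ⟨Sum.inr ⟨0, by omega⟩⟩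
      · exact ⟨Sum.inl ⟨0, h0⟩⟩
    obtain ⟨i₀⟩ := hpos
    let w : Fin (Module.finrank F U₂) ⊕ Fin (Module.finrank F C₂) → Fˣ := fun i => if i = i₀ then Units.mk0 d hd else 1
    refine ⟨b.equiv (b.unitsSMul w) (Equiv.refl _), fun x hx => ?_, ?_⟩
    · obtain ⟨y, rfl⟩ : ∃ y : U₂, (Submodule.prodEquivOfIsCompl U₂ C₂ hC₂) (y, 0) = x := ⟨⟨x, hx⟩, by simp⟩
      rw [← (Module.finBasis F U₂).sum_repr y]
      rw [show ((∑ i, (Module.finBasis F U₂).repr y i • (Module.finBasis F U₂) i, (0 : C₂)) : U₂ × C₂) = ∑ i, (Module.finBasis F U₂).repr y i • bs (Sum.inl i) by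
        simp [bs, Prod.ext_iff, Prod.fst_sum, Prod.snd_sum]]
      simp only [map_sum, map_smul]
      refine Submodule.sum_mem _ fun i _ => Submodule.smul_mem _ _ ?_
      rw [show (Submodule.prodEquivOfIsCompl U₂ C₂ hC₂) (bs (Sum.inl i)) = b (Sum.inl i) from rfl, Module.Basis.equiv_apply, Equiv.refl_apply, Module.Basis.unitsSMul_apply]
      refine Submodule.smul_mem _ _ ?_
      simp [b, bs]
    · rw [← LinearMap.det_toMatrix b, show LinearMap.toMatrix b b (b.equiv (b.unitsSMul w) (Equiv.refl _) : (Fin n → F) →ₗ[F] (Fin n → F)) = Matrix.diagonal (fun i => (w i : F)) from ?_, Matrix.det_diagonal, Finset.prod_eq_single i₀]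
      · simp [w]
      · intro i _ hi; simp [w, hi]
      · simp
      · ext i j
        rw [LinearMap.toMatrix_apply]
        simp [Module.Basis.unitsSMul_apply, Finsupp.single_apply, Matrix.diagonal, Units.smul_def]
        by_cases hij : i = j
        · subst hij; simp
        · simp [hij, Ne.symm hij]
  set L : (Fin n → F) →ₗ[F] (Fin n → F) := D.toLinearMap ∘ₗ e₁.toLinearMap with hLdef
  have hL : (LinearMap.toMatrix' L).det = 1 := by
    rw [LinearMap.det_toMatrix', hLdef, LinearMap.det_comp, hDdet, inv_mul_cancel₀ (LinearEquiv.isUnit_det' e₁).ne_zero]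
  refine ⟨⟨LinearMap.toMatrix' L, hL⟩, ?_⟩
  have hg : ((Matrix.SpecialLinearGroup.toLin' (⟨LinearMap.toMatrix' L, hL⟩ : Matrix.SpecialLinearGroup (Fin n) F) : (Fin n → F) ≃ₗ[F] (Fin n → F)) : (Fin n → F) →ₗ[F] (Fin n → F)) = L := by
    refine LinearMap.ext fun x => ?_
    exact LinearMap.toMatrix'_mulVec L x
  rw [hg, hLdef, Submodule.map_comp, he₁]
  refine Submodule.eq_of_le_of_finrank_eq ?_ (LinearEquiv.finrank_map_eq D U₂)
  rintro _ ⟨x, hx, rfl⟩
  exact hD x hx

end Cfsg.Agent.S2552
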