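import Cfsg.Statements.S2564
import Cfsg.Agent.Lib.ClassicalArf

set_option autoImplicit false
open Cfsg

namespace Cfsg.Agent.S2564

/-- On the 2m-dimensional space over the field of two elements (m ≥ 1) let f be the alternating form obtained by polarizing the plus-type form Σ xᵢyᵢ, and let q be any quadratic form polarizing to f. For a vector w, the function q + f(·, w) again polarizes to f, and it is equivalent to q under an invertible linear map (that is, has the same type) if and only if q(w) = 0. -/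
theorem result (m : ℕ) (hm : 1 ≤ m) (q : (Fin m ⊕ Fin m → ZMod 2) → ZMod 2) (hq : (∀ u v : (Fin m ⊕ Fin m → ZMod 2), q (u + v) = q u + q v + (Cfsg.quadFormPlus m (ZMod 2) (u + v) - Cfsg.quadFormPlus m (ZMod 2) u - Cfsg.quadFormPlus m (ZMod 2) v))) (w : (Fin m ⊕ Fin m → ZMod 2)) :
    (∀ u v : (Fin m ⊕ Fin m → ZMod 2), (q (u + v) + (Cfsg.quadFormPlus m (ZMod 2) (u + v + w) - Cfsg.quadFormPlus m (ZMod 2) (u + v) - Cfsg.quadFormPlus m (ZMod 2) w)) =
        (q u + (Cfsg.quadFormPlus m (ZMod 2) (u + w) - Cfsg.quadFormPlus m (ZMod 2) u - Cfsg.quadFormPlus m (ZMod 2) w)) + (q v + (Cfsg.quadFormPlus m (ZMod 2) (v + w) - Cfsg.quadFormPlus m (ZMod 2) v - Cfsg.quadFormPlus m (ZMod 2) w)) +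
        (Cfsg.quadFormPlus m (ZMod 2) (u + v) - Cfsg.quadFormPlus m (ZMod 2) u - Cfsg.quadFormPlus m (ZMod 2) v)) ∧
    ((∃ g : (Fin m ⊕ Fin m → ZMod 2) ≃ₗ[ZMod 2] (Fin m ⊕ Fin m → ZMod 2), ∀ v, q v + (Cfsg.quadFormPlus m (ZMod 2) (v + w) - Cfsg.quadFormPlus m (ZMod 2) v - Cfsg.quadFormPlus m (ZMod 2) w) = q (g v)) ↔ q w = 0) := by
  classical
  have hf : ∀ u v, Cfsg.quadFormPlus m (ZMod 2) (u + v) - Cfsg.quadFormPlus m (ZMod 2) u - Cfsg.quadFormPlus m (ZMod 2) v = CfsgLib.Arf.bp u v := fun u v => rfl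
  simp only [hf] at hq ⊢
  have hcomm := CfsgLib.Arf.bp_comm (m := m)
  refine ⟨fun u v => by rw [hq, CfsgLib.Arf.bp_add_left]; ring, ?_, fun hw => ?_⟩
  · rintro ⟨g, hg⟩
    by_contra hw
    have hcases : ∀ a : ZMod 2, a ≠ 0 → a = 1 := by decide
    have hw1 := hcases _ hw
    have hS : (∑ v, CfsgLib.Arf.sgn (q v)) = ∑ v, CfsgLib.Arf.sgn (q v + CfsgLib.Arf.bp v w) := by
      refine (Fintype.sum_equiv g.toEquiv _ _ fun v => ?_).symm
      exact congrArg CfsgLib.Arf.sgn (hg v)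
    have hS2 : (∑ v, CfsgLib.Arf.sgn (q v + CfsgLib.Arf.bp v w)) = ∑ v, - CfsgLib.Arf.sgn (q v) := by
      refine Fintype.sum_equiv (Equiv.addRight w) _ _ fun v => ?_
      show _ = - CfsgLib.Arf.sgn (q (v + w))
      rw [hq, hw1]
      have hs : ∀ a b : ZMod 2, CfsgLib.Arf.sgn (a + b) = - CfsgLib.Arf.sgn (a + 1 + b) := by decide
      exact hs _ _
    rw [Finset.sum_neg_distrib] at hS2
    have hsq := CfsgLib.Arf.gauss_sq q hq
    have h0 : (∑ v, CfsgLib.Arf.sgn (q v)) = 0 := by omega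
    rw [h0] at hsq
    exact pow_ne_zero (2 * m) (two_ne_zero : (2 : ℤ) ≠ 0) (by rw [← hsq]; simp)
  · let g : (Fin m ⊕ Fin m → ZMod 2) →ₗ[ZMod 2] (Fin m ⊕ Fin m → ZMod 2) :=
      { toFun := fun v => v + CfsgLib.Arf.bp v w • w
        map_add' := fun a b => by rw [CfsgLib.Arf.bp_add_left, add_smul]; abel
        map_smul' := fun c a => by rw [CfsgLib.Arf.bp_smul_left, RingHom.id_apply, smul_add, smul_smul] }
    have h2 : ∀ c : ZMod 2, c + c = 0 := by decide
    have hinv : Function.Involutive g := fun v => by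
      show (v + CfsgLib.Arf.bp v w • w) + CfsgLib.Arf.bp (v + CfsgLib.Arf.bp v w • w) w • w = v
      rw [CfsgLib.Arf.bp_add_left, CfsgLib.Arf.bp_smul_left, CfsgLib.Arf.bp_self, mul_zero, add_zero, add_assoc, ← add_smul, h2, zero_smul, add_zero]
    refine ⟨LinearEquiv.ofInvolutive g hinv, fun v => ?_⟩
    show _ = q (v + CfsgLib.Arf.bp v w • w)
    have hq0 : q 0 = 0 := by
      have h1 := hq 0 0
      rw [add_zero, CfsgLib.Arf.bp_self, add_zero] at h1
      simpa using h1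
    rw [hq, CfsgLib.Arf.bp_smul_right]
    have hcases : ∀ a : ZMod 2, a = 0 ∨ a = 1 := by decide
    rcases hcases (CfsgLib.Arf.bp v w) with e | e <;> simp [e, hq0, hw]

end Cfsg.Agent.S2564
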