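import Cfsg.Statements.S2561
import Cfsg.Agent.Lib.ClassicalArf
import Cfsg.Agent.S2564

set_option autoImplicit false
open Cfsg

namespace Cfsg.Agent.S2561

/-- Fix the non-singular alternating form on the 2m-dimensional space over the field of two elements obtained by polarizing the plus-type form Σ xᵢyᵢ (m ≥ 1). The functions q on the space with q(u + v) = q(u) + q(v) + f(u, v) (the quadratic forms polarizing to f) number 2^(2m); each is equivalent under an invertible linear map either to the plus-type form or to the minus-type form Σ xᵢyᵢ + (z₁² + z₁z₂ + z₂²); and those of plus type number 2^(2m−1) + 2^(m−1), those of minus type 2^(2m−1) − 2^(m−1). -/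
theorem result (m : ℕ) (hm : 1 ≤ m) :
    Nat.card {q : (Fin m ⊕ Fin m → ZMod 2) → ZMod 2 // (∀ u v : (Fin m ⊕ Fin m → ZMod 2), q (u + v) = q u + q v + (Cfsg.quadFormPlus m (ZMod 2) (u + v) - Cfsg.quadFormPlus m (ZMod 2) u - Cfsg.quadFormPlus m (ZMod 2) v))} = 2 ^ (2 * m) ∧
    (∀ q : (Fin m ⊕ Fin m → ZMod 2) → ZMod 2, (∀ u v : (Fin m ⊕ Fin m → ZMod 2), q (u + v) = q u + q v + (Cfsg.quadFormPlus m (ZMod 2) (u + v) - Cfsg.quadFormPlus m (ZMod 2) u - Cfsg.quadFormPlus m (ZMod 2) v)) →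
      (∃ g : (Fin m ⊕ Fin m → ZMod 2) ≃ₗ[ZMod 2] (Fin m ⊕ Fin m → ZMod 2), ∀ v, q v = Cfsg.quadFormPlus m (ZMod 2) (g v)) ∨
      (∃ g : (Fin m ⊕ Fin m → ZMod 2) ≃ₗ[ZMod 2] ((Fin (m - 1) ⊕ Fin (m - 1)) ⊕ Fin 2 → ZMod 2), ∀ v, q v = Cfsg.quadFormMinus (m - 1) (ZMod 2) 1 1 (g v))) ∧
    Nat.card {q : (Fin m ⊕ Fin m → ZMod 2) → ZMod 2 // (∀ u v : (Fin m ⊕ Fin m → ZMod 2), q (u + v) = q u + q v + (Cfsg.quadFormPlus m (ZMod 2) (u + v) - Cfsg.quadFormPlus m (ZMod 2) u - Cfsg.quadFormPlus m (ZMod 2) v)) ∧ ∃ g : (Fin m ⊕ Fin m → ZMod 2) ≃ₗ[ZMod 2] (Fin m ⊕ Fin m → ZMod 2), ∀ v, q v = Cfsg.quadFormPlus m (ZMod 2) (g v)} = 2 ^ (2 * m - 1) + 2 ^ (m - 1) ∧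
    Nat.card {q : (Fin m ⊕ Fin m → ZMod 2) → ZMod 2 // (∀ u v : (Fin m ⊕ Fin m → ZMod 2), q (u + v) = q u + q v + (Cfsg.quadFormPlus m (ZMod 2) (u + v) - Cfsg.quadFormPlus m (ZMod 2) u - Cfsg.quadFormPlus m (ZMod 2) v)) ∧ ∃ g : (Fin m ⊕ Fin m → ZMod 2) ≃ₗ[ZMod 2] ((Fin (m - 1) ⊕ Fin (m - 1)) ⊕ Fin 2 → ZMod 2), ∀ v, q v = Cfsg.quadFormMinus (m - 1) (ZMod 2) 1 1 (g v)} = 2 ^ (2 * m - 1) - 2 ^ (m - 1) := by
  classical
  obtain ⟨k, rfl⟩ : ∃ k, m = k + 1 := ⟨m - 1, by omega⟩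
  let V := Fin (k + 1) ⊕ Fin (k + 1) → ZMod 2
  let q0 : V → ZMod 2 := Cfsg.quadFormPlus (k + 1) (ZMod 2)
  let bp : V → V → ZMod 2 := CfsgLib.Arf.bp
  have hf : ∀ u v, Cfsg.quadFormPlus (k + 1) (ZMod 2) (u + v) - Cfsg.quadFormPlus (k + 1) (ZMod 2) u - Cfsg.quadFormPlus (k + 1) (ZMod 2) v = bp u v := fun u v => rfl
  have h2 : ∀ c : ZMod 2, c + c = 0 := by decide
  have hv2 : ∀ v : V, v + v = 0 := fun v => funext fun i => h2 _
  have hq0 : ∀ u v, q0 (u + v) = q0 u + q0 v + bp u v := fun u v => by rw [← hf]; ring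
  let T : V → (V → ZMod 2) := fun w v => q0 v + bp v w
  have hTq : ∀ w u v, T w (u + v) = T w u + T w v + bp u v := fun w u v => by
    simp only [T, bp]; rw [hq0, CfsgLib.Arf.bp_add_left]; simp only [bp]; ring
  have hTinj : Function.Injective T := by
    intro a b hab
    by_contra hne
    obtain ⟨x, hx⟩ := ((CfsgLib.Classical.isNondegenerate_quadFormPlus (F := ZMod 2) (k + 1)).nondegenerate (a + b) (fun h => hne (by
      calc a = a + (b + b) := by rw [hv2, add_zero]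
        _ = b := by rw [← add_assoc, h, zero_add]))).1
    apply hx
    show bp x (a + b) = 0
    have := congrFun hab x
    simp only [T, bp, add_right_inj] at this
    simp only [bp]
    rw [CfsgLib.Arf.bp_add_right, this, h2]
  let b : Module.Basis (Fin (k + 1) ⊕ Fin (k + 1)) (ZMod 2) V := Pi.basisFun _ _
  have hTsurj : ∀ q : V → ZMod 2, (∀ u v, q (u + v) = q u + q v + bp u v) → ∃ w, T w = q := by
    intro q hq
    let d : V →ₗ[ZMod 2] ZMod 2 :=
      { toFun := fun v => q v + q0 v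
        map_add' := fun u v => by rw [hq, hq0]; linear_combination (h2 (bp u v))
        map_smul' := fun c v => by
          have hcases : ∀ a : ZMod 2, a = 0 ∨ a = 1 := by decide
          have h0 : ∀ r : V → ZMod 2, (∀ u v, r (u + v) = r u + r v + bp u v) → r 0 = 0 := fun r hr => by
            have := hr 0 0
            simp only [bp] at this
            rw [add_zero, CfsgLib.Arf.bp_self, add_zero] at this
            simpa using this
          rcases hcases c with rfl | rfl <;> simp [h0 q hq, h0 q0 hq0] }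
    let B : V →ₗ[ZMod 2] Module.Dual (ZMod 2) V :=
      LinearMap.mk₂ (ZMod 2) (fun u v => bp v u) (fun a a' c => CfsgLib.Arf.bp_add_right c a a')
        (fun r a c => CfsgLib.Arf.bp_smul_right r c a) (fun a c c' => CfsgLib.Arf.bp_add_left c c' a) (fun r a c => CfsgLib.Arf.bp_smul_left r c a)
    have hB : Function.Injective B := fun u v huv => hTinj (funext fun x => by
      show q0 x + bp x u = q0 x + bp x v
      exact congrArg (q0 x + ·) (LinearMap.congr_fun huv x))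
    obtain ⟨w, hw⟩ := (LinearMap.injective_iff_surjective_of_finrank_eq_finrank (Subspace.dual_finrank_eq).symm).1 hB d
    refine ⟨w, funext fun v => ?_⟩
    have : bp v w = q v + q0 v := LinearMap.congr_fun hw v
    show q0 v + bp v w = q v
    linear_combination this + h2 (q0 v)
  let ε : (Fin k ⊕ Fin k) ⊕ Fin 2 → Fin (k + 1) ⊕ Fin (k + 1) :=
    Sum.elim (Sum.elim (fun i => Sum.inl i.castSucc) (fun i => Sum.inr i.castSucc)) ![Sum.inl (Fin.last k), Sum.inr (Fin.last k)]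
  have hε : Function.Bijective ε := by
    rw [Fintype.bijective_iff_surjective_and_card]
    refine ⟨?_, by simp; omega⟩
    rintro (i | i)
    · induction i using Fin.lastCases with
      | last => exact ⟨.inr 0, rfl⟩
      | cast i => exact ⟨.inl (.inl i), rfl⟩
    · induction i using Fin.lastCases with
      | last => exact ⟨.inr 1, rfl⟩
      | cast i => exact ⟨.inl (.inr i), rfl⟩
  let e : V ≃ₗ[ZMod 2] ((Fin k ⊕ Fin k) ⊕ Fin 2 → ZMod 2) := LinearEquiv.funCongrLeft (ZMod 2) (ZMod 2) (Equiv.ofBijective ε hε)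
  let ws : V := Pi.single (Sum.inl (Fin.last k)) 1 + Pi.single (Sum.inr (Fin.last k)) 1
  have hwsA : ∀ j, ws j = (Pi.single (Sum.inl (Fin.last k)) 1 : Fin (k + 1) ⊕ Fin (k + 1) → ZMod 2) j + (Pi.single (Sum.inr (Fin.last k)) 1 : Fin (k + 1) ⊕ Fin (k + 1) → ZMod 2) j := fun j => rfl
  have he : ∀ v, T ws v = Cfsg.quadFormMinus k (ZMod 2) 1 1 (e v) := by
    intro v
    have hb : bp v ws = v (.inl (Fin.last k)) + v (.inr (Fin.last k)) := by
      show QuadraticMap.polar (Cfsg.quadFormPlus (k + 1) (ZMod 2)) v ws = _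
      rw [CfsgLib.Classical.polar_quadFormPlus, Fin.sum_univ_castSucc]
      simp only [hwsA]
      simp [Pi.single_apply, (Fin.castSucc_lt_last _).ne]
    have hsq : ∀ a : ZMod 2, a ^ 2 = a := by decide
    show q0 v + bp v ws = _
    rw [hb]
    simp only [q0, Cfsg.quadFormPlus, Cfsg.quadFormMinus, Fin.sum_univ_castSucc]
    simp [e, LinearEquiv.funCongrLeft, LinearMap.funLeft, ε, hsq]
    ring
  have hws : q0 ws = 1 := by
    simp only [q0, Cfsg.quadFormPlus, hwsA]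
    simp [Fin.sum_univ_castSucc, Pi.single_apply, (Fin.castSucc_lt_last _).ne]
  have htr : ∀ q : V → ZMod 2, (∀ u v, q (u + v) = q u + q v + bp u v) → ∀ w, ((∃ g : V ≃ₗ[ZMod 2] V, ∀ v, q v + bp v w = q (g v)) ↔ q w = 0) :=
    fun q hq w => (Cfsg.Agent.S2564.result (k + 1) hm q (fun u v => by rw [hq, hf]) w).2
  have hbq0 : q0 0 = 0 := Finset.sum_eq_zero fun i _ => mul_zero _
  have hplus : ∀ w, (∃ g : V ≃ₗ[ZMod 2] V, ∀ v, T w v = q0 (g v)) ↔ q0 w = 0 := fun w => htr q0 hq0 w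
  have hminus : ∀ w, (∃ g : V ≃ₗ[ZMod 2] ((Fin k ⊕ Fin k) ⊕ Fin 2 → ZMod 2), ∀ v, T w v = Cfsg.quadFormMinus k (ZMod 2) 1 1 (g v)) ↔ q0 w = 1 := by
    have hcases : ∀ a : ZMod 2, a = 0 ∨ a = 1 := by decide
    intro w
    constructor
    · rintro ⟨g, hg⟩
      refine (hcases _).resolve_left fun h0 => ?_
      obtain ⟨g', hg'⟩ := (hplus w).2 h0
      have : ∃ g : V ≃ₗ[ZMod 2] V, ∀ v, T ws v = q0 (g v) := ⟨(e.trans g.symm).trans g', fun v => by
        rw [he]; simp only [LinearEquiv.trans_apply]; rw [← hg', hg, LinearEquiv.apply_symm_apply]⟩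
      have := (hplus ws).1 this
      rw [hws] at this
      exact one_ne_zero this
    · intro hw
      have hv : T ws (ws + w) = 0 := by
        show q0 (ws + w) + bp (ws + w) ws = 0
        rw [hq0, hws, hw]
        simp only [bp]
        rw [CfsgLib.Arf.bp_add_left ws w ws, CfsgLib.Arf.bp_self ws, CfsgLib.Arf.bp_comm w ws]
        linear_combination h2 1 + h2 (CfsgLib.Arf.bp ws w)
      obtain ⟨g, hg⟩ := (htr (T ws) (hTq ws) (ws + w)).2 hv
      refine ⟨g.trans e, fun v => ?_⟩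
      rw [LinearEquiv.trans_apply, ← he, ← hg]
      show q0 v + bp v w = q0 v + bp v ws + bp v (ws + w)
      simp only [bp]
      rw [CfsgLib.Arf.bp_add_right v ws w]
      linear_combination -(h2 (CfsgLib.Arf.bp v ws))
  have hcnt : ∀ P : (V → ZMod 2) → Prop, Nat.card {q : V → ZMod 2 // (∀ u v : V, q (u + v) = q u + q v + bp u v) ∧ P q} = Nat.card {w : V // P (T w)} := by
    intro P
    symm
    refine Nat.card_eq_of_bijective (fun w => ⟨T w.1, hTq _, w.2⟩) ⟨fun a c h => Subtype.ext (hTinj (congrArg Subtype.val h)), fun q => ?_⟩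
    obtain ⟨w, hw⟩ := hTsurj q.1 q.2.1
    exact ⟨⟨w, by rw [hw]; exact q.2.2⟩, Subtype.ext hw⟩
  -- the Gauss sum of the plus form
  have hS : (∑ v : V, CfsgLib.Arf.sgn (q0 v)) = 2 ^ (k + 1) := by
    have hsum : ∀ (n : ℕ) (a : Fin n → ZMod 2), CfsgLib.Arf.sgn (∑ i, a i) = ∏ i, CfsgLib.Arf.sgn (a i) := by
      intro n
      induction n with
      | zero => intro a; simp [CfsgLib.Arf.sgn]
      | succ n ih => intro a; rw [Fin.sum_univ_succ, CfsgLib.Arf.sgn_add, ih, Fin.prod_univ_succ]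
    have h4 : (∑ p : ZMod 2 × ZMod 2, CfsgLib.Arf.sgn (p.1 * p.2)) = 2 := by decide
    calc (∑ v : V, CfsgLib.Arf.sgn (q0 v)) = ∑ x : Fin (k + 1) → ZMod 2 × ZMod 2, ∏ i, CfsgLib.Arf.sgn ((x i).1 * (x i).2) := by
          refine Fintype.sum_equiv ((Equiv.sumArrowEquivProdArrow _ _ _).trans (Equiv.arrowProdEquivProdArrow (Fin (k + 1)) (fun _ => ZMod 2) (fun _ => ZMod 2)).symm) _ _ fun v => ?_
          show CfsgLib.Arf.sgn (Cfsg.quadFormPlus (k + 1) (ZMod 2) v) = _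
          rw [Cfsg.quadFormPlus, hsum]
          rfl
      _ = 2 ^ (k + 1) := by rw [← Fintype.prod_sum (fun (_ : Fin (k + 1)) (p : ZMod 2 × ZMod 2) => CfsgLib.Arf.sgn (p.1 * p.2))]; simp [h4]
  have htot : Nat.card V = 2 ^ (2 * (k + 1)) := by simp [V, two_mul, pow_add]
  set A := Nat.card {w : V // q0 w = 0} with hA
  set B := Nat.card {w : V // q0 w = 1} with hB
  have hAB : A + B = 2 ^ (2 * (k + 1)) ∧ (A : ℤ) - B = 2 ^ (k + 1) := by
    have hfilter : (Finset.univ.filter fun w : V => ¬ q0 w = 0) = Finset.univ.filter fun w : V => q0 w = 1 := by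
      have : ∀ a : ZMod 2, ¬ a = 0 ↔ a = 1 := by decide
      simp only [this]
    constructor
    · rw [← htot, hA, hB, Nat.card_eq_fintype_card, Nat.card_eq_fintype_card, Nat.card_eq_fintype_card, Fintype.card_subtype, Fintype.card_subtype, ← hfilter, Finset.card_filter_add_card_filter_not, Finset.card_univ]
    · rw [← hS, hA, hB, Nat.card_eq_fintype_card, Nat.card_eq_fintype_card, Fintype.card_subtype, Fintype.card_subtype, ← hfilter]
      simp only [CfsgLib.Arf.sgn]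
      rw [Finset.sum_ite]
      simp only [Finset.sum_const, nsmul_eq_mul, mul_one, mul_neg, sub_eq_add_neg]
  have hAv : A = 2 ^ (2 * (k + 1) - 1) + 2 ^ (k + 1 - 1) ∧ B = 2 ^ (2 * (k + 1) - 1) - 2 ^ (k + 1 - 1) := by
    rw [show 2 * (k + 1) - 1 = 2 * k + 1 by omega, Nat.add_sub_cancel]
    obtain ⟨h1, h3⟩ := hAB
    rw [show 2 * (k + 1) = 2 * k + 1 + 1 by omega, pow_succ] at h1
    rw [pow_succ] at h3
    have hle : 2 ^ k ≤ 2 ^ (2 * k + 1) := Nat.pow_le_pow_right (by omega) (by omega)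
    have h4 : ((2 ^ k : ℕ) : ℤ) = 2 ^ k := by norm_num
    rw [← h4] at h3
    omega
  refine ⟨?_, fun q hq => ?_, ?_, ?_⟩
  · rw [← htot]
    refine (Nat.card_eq_of_bijective (fun w => ⟨T w, fun u v => by rw [hTq, hf]⟩) ⟨fun a c h => hTinj (congrArg Subtype.val h), fun q => ?_⟩).symm
    obtain ⟨w, hw⟩ := hTsurj q.1 (fun u v => by rw [q.2 u v, hf])
    exact ⟨w, Subtype.ext hw⟩
  · obtain ⟨w, rfl⟩ := hTsurj q (fun u v => by rw [hq u v, hf])
    have hcases : ∀ a : ZMod 2, a = 0 ∨ a = 1 := by decide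
    rcases hcases (q0 w) with h | h
    · exact Or.inl ((hplus w).2 h)
    · exact Or.inr ((hminus w).2 h)
  · refine Eq.trans ?_ hAv.1
    refine (hcnt (fun q => ∃ g : V ≃ₗ[ZMod 2] V, ∀ v, q v = q0 (g v))).trans (Nat.card_congr (Equiv.subtypeEquivRight hplus))
  · refine Eq.trans ?_ hAv.2
    exact (hcnt (fun q => ∃ g : V ≃ₗ[ZMod 2] ((Fin k ⊕ Fin k) ⊕ Fin 2 → ZMod 2), ∀ v, q v = Cfsg.quadFormMinus k (ZMod 2) 1 1 (g v))).trans (Nat.card_congr (Equiv.subtypeEquivRight hminus))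

end Cfsg.Agent.S2561
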