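import Cfsg.Statements.S2562
import Cfsg.Agent.Lib.ClassicalHalfTS

set_option autoImplicit false
open Cfsg

namespace Cfsg.Agent.S2562

/-- Witt indices over the field of two elements, m ≥ 1: for the plus-type form Σ xᵢyᵢ in dimension 2m some m-dimensional subspace is totally singular and no totally singular subspace has larger dimension; for the minus-type form Σ xᵢyᵢ + (z₁² + z₁z₂ + z₂²) in dimension 2m the maximal dimension of a totally singular subspace is m − 1. -/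
theorem result (m : ℕ) (hm : 1 ≤ m) :
    (∃ U : Submodule (ZMod 2) (Fin m ⊕ Fin m → ZMod 2), (∀ u ∈ U, Cfsg.quadFormPlus m (ZMod 2) u = 0) ∧ Module.finrank (ZMod 2) ↥U = m) ∧
    (∀ U : Submodule (ZMod 2) (Fin m ⊕ Fin m → ZMod 2), (∀ u ∈ U, Cfsg.quadFormPlus m (ZMod 2) u = 0) → Module.finrank (ZMod 2) ↥U ≤ m) ∧
    (∃ U : Submodule (ZMod 2) ((Fin (m - 1) ⊕ Fin (m - 1)) ⊕ Fin 2 → ZMod 2), (∀ u ∈ U, Cfsg.quadFormMinus (m - 1) (ZMod 2) 1 1 u = 0) ∧ Module.finrank (ZMod 2) ↥U = m - 1) ∧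
    (∀ U : Submodule (ZMod 2) ((Fin (m - 1) ⊕ Fin (m - 1)) ⊕ Fin 2 → ZMod 2), (∀ u ∈ U, Cfsg.quadFormMinus (m - 1) (ZMod 2) 1 1 u = 0) → Module.finrank (ZMod 2) ↥U ≤ m - 1) := by
  classical
  obtain ⟨n, rfl⟩ : ∃ n, m = n + 1 := ⟨m - 1, by omega⟩
  have hQp := CfsgLib.Classical.isNondegenerate_quadFormPlus (F := ZMod 2) (n + 1)
  have hab : ∀ z₁ z₂ : ZMod 2, z₁ ^ 2 + 1 * z₁ * z₂ + 1 * z₂ ^ 2 = 0 → z₁ = 0 ∧ z₂ = 0 := by decide
  have hQm := CfsgLib.Classical.isNondegenerate_quadFormMinus (F := ZMod 2) n hab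
  have key : ∀ U : Submodule (ZMod 2) ((Fin n ⊕ Fin n) ⊕ Fin 2 → ZMod 2), (∀ u ∈ U, Cfsg.quadFormMinus n (ZMod 2) 1 1 u = 0) →
      Module.finrank (ZMod 2) U ≤ n := by
    intro U hU
    let P : ((Fin n ⊕ Fin n) ⊕ Fin 2 → ZMod 2) →ₗ[ZMod 2] (Fin n → ZMod 2) := LinearMap.funLeft _ _ (fun i => Sum.inl (Sum.inl i))
    let Z : ((Fin n ⊕ Fin n) ⊕ Fin 2 → ZMod 2) →ₗ[ZMod 2] (Fin 2 → ZMod 2) := LinearMap.funLeft _ _ Sum.inr
    set L := LinearMap.ker P with hL
    set W := L ⊓ LinearMap.ker Z with hW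
    have hLdim : Module.finrank (ZMod 2) L = n + 2 := by
      have h1 := LinearMap.finrank_range_add_finrank_ker P
      rw [LinearMap.range_eq_top.2 (LinearMap.funLeft_surjective_of_injective _ _ _ (fun a b h => Sum.inl_injective (Sum.inl_injective h))), finrank_top,
        Module.finrank_fin_fun, Module.finrank_fintype_fun_eq_card] at h1
      simp at h1
      rw [hL]; omega
    have hUL : U ⊓ L ≤ U ⊓ W := by
      rintro x ⟨hxU, hxL⟩
      refine ⟨hxU, hxL, LinearMap.mem_ker.2 ?_⟩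
      have hx : ∀ i, x (Sum.inl (Sum.inl i)) = 0 := fun i => congrFun (LinearMap.mem_ker.1 hxL) i
      have h0 := hU x hxU
      simp only [Cfsg.quadFormMinus, hx, zero_mul, Finset.sum_const_zero, zero_add] at h0
      obtain ⟨a, b⟩ := hab _ _ h0
      funext k
      fin_cases k
      · exact a
      · exact b
    have hsup : U ⊔ L ≤ CfsgLib.Classical.qorth hQm (U ⊓ W) := by
      refine sup_le (fun x hx => (CfsgLib.Classical.mem_qorth hQm).2 fun s hs => ?_) (fun x hx => (CfsgLib.Classical.mem_qorth hQm).2 fun s hs => ?_)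
      · simp [QuadraticMap.polar, hU x hx, hU s hs.1, hU _ (U.add_mem hx hs.1)]
      · have hx' : ∀ i, x (Sum.inl (Sum.inl i)) = 0 := fun i => congrFun (LinearMap.mem_ker.1 hx) i
        have hs' : ∀ i, s (Sum.inl (Sum.inl i)) = 0 := fun i => congrFun (LinearMap.mem_ker.1 hs.2.1) i
        have hsz : ∀ k, s (Sum.inr k) = 0 := fun k => congrFun (LinearMap.mem_ker.1 hs.2.2) k
        rw [CfsgLib.Classical.polar_quadFormMinus]
        simp [hx', hs', hsz]
    have h1 := Submodule.finrank_mono hsup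
    have h2 := CfsgLib.Classical.finrank_qorth hQm (U ⊓ W)
    have h3 := Submodule.finrank_sup_add_finrank_inf_eq U L
    have h4 := Submodule.finrank_mono hUL
    simp only [Fintype.card_sum, Fintype.card_fin] at h2
    omega
  refine ⟨⟨CfsgLib.Classical.coordHalf (ZMod 2) (n + 1) ∅, fun u hu => CfsgLib.Classical.coordHalf_ts (n + 1) ∅ u hu,
    CfsgLib.Classical.finrank_coordHalf (n + 1) ∅⟩, fun U hU => ?_, ?_, fun U hU => key U hU⟩
  · by_contra hlt
    obtain ⟨a, ha, ha'⟩ := CfsgLib.Classical.exists_nonsing hQp U (by simp; omega)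
    exact ha' (hU a ha)
  · let e : (Fin n → ZMod 2) →ₗ[ZMod 2] ((Fin n ⊕ Fin n) ⊕ Fin 2 → ZMod 2) :=
      { toFun := fun y => Sum.elim (Sum.elim 0 y) 0
        map_add' := fun y y' => by ext ((i | i) | i) <;> simp
        map_smul' := fun c y => by ext ((i | i) | i) <;> simp }
    refine ⟨LinearMap.range e, ?_, ?_⟩
    · rintro _ ⟨y, rfl⟩
      simp [e, Cfsg.quadFormMinus]
    · rw [LinearMap.finrank_range_of_inj (fun y y' h => funext fun i => congrFun h (Sum.inl (Sum.inr i))), Module.finrank_fin_fun]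

end Cfsg.Agent.S2562
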