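import Cfsg.Statements.S2563
import Cfsg.Agent.Lib.ClassicalPermModule

set_option autoImplicit false
open Cfsg

namespace Cfsg.Agent.S2563

section

open Matrix CfsgLib.Classical.PermModule

local notation "𝔽" => ZMod 2

theorem h2' : (2 : 𝔽) = 0 := rfl

theorem val_add : ∀ a b : 𝔽, (a + b).val + 2 * (a.val * b.val) = a.val + b.val := by decide

theorem val_cast : ∀ a b : 𝔽, ((a.val * b.val : ℕ) : 𝔽) = a * b := by decide

theorem quad_id : ∀ a b c d : 𝔽, (a * b + a + b) + (c * d + c + d) =
    (a + b + d) * (b + d) + (a + c + d) * (a + c) := by decide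

theorem hyp_id : ∀ a b : 𝔽, a * b + a = a * (a + b) := by decide

theorem ell_id : ∀ a b : 𝔽, a * b + a + b = a ^ 2 + 1 * a * b + 1 * b ^ 2 := by decide

variable {n : ℕ}

def wt (x : Fin n → 𝔽) : ℕ := ∑ a, (x a).val

def hw (x : Fin n → 𝔽) : 𝔽 := ((wt x / 2 : ℕ) : 𝔽)

theorem wt_even {x : Fin n → 𝔽} (hx : InE x) : Even (wt x) := by
  rw [← CharP.cast_eq_zero_iff 𝔽 2 (wt x) |>.trans (even_iff_two_dvd).symm]
  unfold wt
  rw [Nat.cast_sum]
  simpa [InE] using hx

theorem hw_add {x y : Fin n → 𝔽} (hx : InE x) (hy : InE y) :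
    hw (x + y) = hw x + hw y + ∑ a, x a * y a := by
  have h : wt (x + y) + 2 * ∑ a, (x a).val * (y a).val = wt x + wt y := by
    unfold wt
    rw [Finset.mul_sum, ← Finset.sum_add_distrib, ← Finset.sum_add_distrib]
    exact Finset.sum_congr rfl fun a _ => val_add _ _
  have hxy : InE (x + y) := by
    unfold InE at *
    simp [Finset.sum_add_distrib, hx, hy]
  obtain ⟨a, ha⟩ := wt_even hx
  obtain ⟨b, hb⟩ := wt_even hy
  obtain ⟨c, hc⟩ := wt_even hxy
  have hs : ((∑ a, (x a).val * (y a).val : ℕ) : 𝔽) = ∑ a, x a * y a := by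
    rw [Nat.cast_sum]
    exact Finset.sum_congr rfl fun a _ => val_cast _ _
  have h' : wt (x + y) / 2 + ∑ a, (x a).val * (y a).val = wt x / 2 + wt y / 2 := by omega
  have h'' := congrArg (fun k : ℕ => (k : 𝔽)) h'
  simp only [Nat.cast_add, hs] at h''
  unfold hw
  linear_combination h'' - (∑ a, x a * y a) * h2'

theorem hw_act (σ : Equiv.Perm (Fin n)) (x : Fin n → 𝔽) : hw (act σ x) = hw x := by
  unfold hw wt
  simp only [act_apply]
  rw [Equiv.sum_comp σ.symm (fun a => (x a).val)]

theorem hw_const (k : ℕ) (c : 𝔽) : hw (fun _ : Fin (4 * k + 4) => c) = 0 := by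
  unfold hw wt
  rw [Finset.sum_const, Finset.card_univ, Fintype.card_fin, smul_eq_mul,
    show (4 * k + 4) * c.val = 2 * (2 * ((k + 1) * c.val)) by ring,
    Nat.mul_div_cancel_left _ (by norm_num : 0 < 2), Nat.cast_mul]
  rw [show ((2 : ℕ) : 𝔽) = 0 from rfl, zero_mul]

/-- the quadratic form on the heart in symplectic coordinates -/
def qh (m : ℕ) (w : Fin m ⊕ Fin m → 𝔽) : 𝔽 :=
  ∑ i, (w (.inl i) * w (.inr i) + w (.inl i) + (((i : ℕ) + 1 : ℕ) : 𝔽) * w (.inr i))

theorem hw_sympL (m : ℕ) (w : Fin m ⊕ Fin m → 𝔽) : hw (sympL m w) = qh m w := by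
  classical
  let d : (Fin m ⊕ Fin m → 𝔽) →+ 𝔽 := AddMonoidHom.mk' (fun w => hw (sympL m w) - qh m w) (fun u v => by
    rw [map_add, hw_add (x := sympL m u) (y := sympL m v) ((sympModel h2' m).hLE u) ((sympModel h2' m).hLE v),
      dot_eq_sympForm h2', CfsgLib.Classical.sympForm_apply]
    simp only [qh, Pi.add_apply, Finset.sum_add_distrib, add_mul, mul_add, Finset.sum_sub_distrib]
    have h : ∑ x, v (.inl x) * u (.inr x) = ∑ x, u (.inr x) * v (.inl x) :=
      Finset.sum_congr rfl fun x _ => mul_comm _ _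
    linear_combination -(∑ x, u (.inl x) * v (.inr x)) * h2' - h)
  have hcast : ∀ a : 𝔽, a = 0 ∨ a = 1 := by decide
  suffices h : ∀ p, d (Pi.single p 1) = 0 by
    have hd : d = 0 := by
      refine AddMonoidHom.functions_ext _ _ _ fun p a => ?_
      rcases hcast a with rfl | rfl
      · simp
      · simpa using h p
    exact sub_eq_zero.mp (DFunLike.congr_fun hd w)
  intro p
  show hw _ - qh m _ = 0
  rw [sub_eq_zero]
  have hsum : ∀ w, wt (sympL m w) = (∑ i : Fin m, ((embFun m w (.inl (i, 0))).val + (embFun m w (.inl (i, 1))).val))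
      + ((embFun m w (.inr 0)).val + (embFun m w (.inr 1)).val) := by
    intro w
    unfold wt
    rw [← Equiv.sum_comp (pts m) (fun a => (sympL m w a).val), Fintype.sum_sum_type, Fintype.sum_prod_type]
    simp [Fin.sum_univ_two, sympL_pts]
  unfold hw
  rw [hsum]
  rcases p with j | j
  · have hq : qh m (Pi.single (Sum.inl j) 1) = 1 := by
      simp [qh, Pi.single_apply]
    rw [hq]
    have he : ∀ i t, (embFun m (Pi.single (Sum.inl j) (1 : 𝔽)) (.inl (i, t))).val = if i = j then 1 else 0 := by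
      intro i t
      simp only [embFun, tailSum, Pi.single_apply]
      split_ifs with h <;> simp_all [ZMod.val_one]
    have he' : ∀ t, (embFun m (Pi.single (Sum.inl j) (1 : 𝔽)) (.inr t)).val = 0 := by
      intro t
      simp [embFun, Pi.single_apply]
    simp only [he, he', Finset.sum_add_distrib, Finset.sum_ite_eq', Finset.mem_univ, if_true]
    rfl
  · have hq : qh m (Pi.single (Sum.inr j) 1) = (((j : ℕ) + 1 : ℕ) : 𝔽) := by
      simp [qh, Pi.single_apply]
    rw [hq]
    have ht : ∀ i, tailSum m (Pi.single (Sum.inr j) (1 : 𝔽)) i = if i < j then 1 else 0 := by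
      intro i
      simp [tailSum, Pi.single_apply]
    have he : ∀ i, (embFun m (Pi.single (Sum.inr j) (1 : 𝔽)) (.inl (i, 0))).val + (embFun m (Pi.single (Sum.inr j) (1 : 𝔽)) (.inl (i, 1))).val =
        2 * (if i < j then 1 else 0) + (if i = j then 1 else 0) := by
      intro i
      simp only [embFun, ht, Pi.single_apply]
      rcases lt_trichotomy i j with h | h | h
      · simp [h, h.ne]; decide
      · subst h; simp [ZMod.val_one]
      · simp [h.ne', not_lt.mpr h.le]
    have he' : (embFun m (Pi.single (Sum.inr j) (1 : 𝔽)) (.inr 0)).val + (embFun m (Pi.single (Sum.inr j) (1 : 𝔽)) (.inr 1)).val = 1 := by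
      simp [embFun, Pi.single_apply, ZMod.val_one]
    simp only [he, he', Finset.sum_add_distrib, ← Finset.mul_sum, Finset.sum_ite_eq', Finset.mem_univ, if_true]
    have hc : (∑ i : Fin m, if i < j then (1 : ℕ) else 0) = (j : ℕ) := by
      rw [← Finset.card_filter, show Finset.univ.filter (fun i => i < j) = Finset.Iio j from by ext; simp, Fin.card_Iio]
    rw [hc, show (2 * (j : ℕ) + 1 + 1) / 2 = j + 1 by omega]

theorem embed_of_coord (k : ℕ) (hk : 1 ≤ k) {κ : Type} [Fintype κ] [DecidableEq κ] (Q : (κ → 𝔽) → 𝔽)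
    (T : (Fin (2 * k + 1) ⊕ Fin (2 * k + 1) → 𝔽) →+ (κ → 𝔽)) (hT : Function.Injective T)
    (hc : Fintype.card κ = 2 * (2 * k + 1)) (hQ : ∀ w, Q (T w) = qh _ w) :
    ∃ φ : Equiv.Perm (Fin (4 * k + 4)) →* ↥(Cfsg.isometryGroup 𝔽 Q), Function.Injective φ := by
  classical
  let M := sympModel h2' (2 * k + 1)
  let e := LinearEquiv.ofInjectiveOfFinrankEq (T.toZModLinearMap 2) hT (by simp; omega)
  let M' : Model (2 * (2 * k + 1) + 2) κ 𝔽 :=
    { L := M.L.comp e.symm.toLinearMap
      π := e.toLinearMap.comp M.π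
      hLE := fun v => M.hLE _
      hπL := fun v => by
        simp only [LinearMap.comp_apply, LinearEquiv.coe_coe, M.hπL, LinearEquiv.apply_symm_apply]
      hK := fun x hx => by
        obtain ⟨c, hc⟩ := M.hK x hx
        refine ⟨c, ?_⟩
        simp only [LinearMap.comp_apply, LinearEquiv.coe_coe, LinearEquiv.symm_apply_apply]
        exact hc
      hπ1 := fun c h => by
        simp only [LinearMap.comp_apply, LinearEquiv.coe_coe, M.hπ1 c h, map_zero] }
  have hinv : ∀ x, InE x → Q (M'.π x) = hw x := by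
    intro x hx
    show Q (T (M.π x)) = hw x
    rw [hQ, ← hw_sympL]
    obtain ⟨c, hc⟩ := M.hK x hx
    have hcE : InE (fun _ : Fin (2 * (2 * k + 1) + 2) => c) := by
      unfold InE
      simp
      exact Or.inl (by rw [show (2 : 𝔽) = 0 from rfl]; simp)
    conv_rhs => rw [hc, hw_add (M.hLE _) hcE, ← Finset.sum_mul, M.hLE, zero_mul, add_zero]
    have hh : hw (fun _ : Fin (2 * (2 * k + 1) + 2) => c) = 0 := by
      have := hw_const k c
      rwa [show 4 * k + 4 = 2 * (2 * k + 1) + 2 by ring] at this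
    rw [hh, add_zero]
    rfl
  have hmem : ∀ σ, M'.rho σ ∈ Cfsg.isometryGroup 𝔽 Q := fun σ =>
    M'.rho_preserves (fun u _ => Q u) (fun τ x y hx _ => by
      rw [hinv _ (inE_act hx), hinv _ hx, hw_act]) σ
  refine ⟨((M'.rho.codRestrict _ hmem)).comp
    (finCongr (show 4 * k + 4 = 2 * (2 * k + 1) + 2 by ring)).permCongrHom.toMonoidHom, ?_⟩
  intro a b h
  exact (MulEquiv.injective _) (M'.rho_injective (by omega) h2' (congrArg Subtype.val h))

theorem exists_planes (k : ℕ) :
    ∃ E : Fin (k + 1) ⊕ Fin k ≃ Fin (2 * k + 1), (∀ i, (((E (.inl i) : ℕ) + 1 : ℕ) : 𝔽) = 1) ∧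
      ∀ i, (((E (.inr i) : ℕ) + 1 : ℕ) : 𝔽) = 0 := by
  let f : Fin (k + 1) ⊕ Fin k → Fin (2 * k + 1) :=
    Sum.elim (fun i => ⟨2 * i.val, by omega⟩) (fun i => ⟨2 * i.val + 1, by omega⟩)
  have hf : Function.Bijective f := by
    rw [Fintype.bijective_iff_injective_and_card]
    refine ⟨?_, by simp; omega⟩
    intro a b h
    rcases a with a | a <;> rcases b with b | b <;>
      simp [f, Fin.ext_iff] at h ⊢ <;> omega
  refine ⟨Equiv.ofBijective f hf, fun i => ?_, fun i => ?_⟩
  · show ((2 * i.val + 1 : ℕ) : 𝔽) = 1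
    rw [Nat.cast_add, Nat.cast_mul, show ((2 : ℕ) : 𝔽) = 0 from rfl, zero_mul, zero_add, Nat.cast_one]
  · show ((2 * i.val + 1 + 1 : ℕ) : 𝔽) = 0
    rw [show 2 * i.val + 1 + 1 = 2 * (i.val + 1) by ring, Nat.cast_mul, show ((2 : ℕ) : 𝔽) = 0 from rfl, zero_mul]

theorem qh_planes (k : ℕ) (E : Fin (k + 1) ⊕ Fin k ≃ Fin (2 * k + 1))
    (h1 : ∀ i, (((E (.inl i) : ℕ) + 1 : ℕ) : 𝔽) = 1) (h0 : ∀ i, (((E (.inr i) : ℕ) + 1 : ℕ) : 𝔽) = 0)
    (w : Fin (2 * k + 1) ⊕ Fin (2 * k + 1) → 𝔽) :
    qh _ w = (∑ i, (w (.inl (E (.inl i))) * w (.inr (E (.inl i))) + w (.inl (E (.inl i))) + w (.inr (E (.inl i))))) +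
      ∑ i, w (.inl (E (.inr i))) * (w (.inl (E (.inr i))) + w (.inr (E (.inr i)))) := by
  unfold qh
  rw [← E.sum_comp, Fintype.sum_sum_type]
  congr 1
  · exact Finset.sum_congr rfl fun i _ => by rw [h1, one_mul]
  · exact Finset.sum_congr rfl fun i _ => by rw [h0, zero_mul, add_zero, hyp_id]

end

/-- For k ≥ 1 the symmetric group of degree 4k + 4 embeds in a full orthogonal group in dimension 4k + 2 over the field of two elements: in the isometry group of the plus-type form Σ xᵢyᵢ when k is odd, and in that of the minus-type form Σ xᵢyᵢ + (z₁² + z₁z₂ + z₂²) when k is even (through its action on even partitions of a (4k+4)-set, with the form 'half the size of a part, modulo 2'). -/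
theorem result (k : ℕ) (hk : 1 ≤ k) :
    (Odd k → ∃ φ : Equiv.Perm (Fin (4 * k + 4)) →* ↥(Cfsg.isometryGroup (ZMod 2) (Cfsg.quadFormPlus (2 * k + 1) (ZMod 2))), Function.Injective φ) ∧
    (Even k → ∃ φ : Equiv.Perm (Fin (4 * k + 4)) →* ↥(Cfsg.isometryGroup (ZMod 2) (Cfsg.quadFormMinus (2 * k) (ZMod 2) 1 1)), Function.Injective φ) := by
  classical
  obtain ⟨E, h1, h0⟩ := exists_planes k
  constructor
  · rintro ⟨r, rfl⟩
    let J : Fin (r + 1) ⊕ Fin (r + 1) ≃ Fin (2 * r + 1 + 1) := finSumFinEquiv.trans (finCongr (by ring))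
    let I : (Fin (r + 1) ⊕ Fin (r + 1)) ⊕ Fin (2 * r + 1) ≃ Fin (2 * (2 * r + 1) + 1) :=
      (Equiv.sumCongr J (Equiv.refl _)).trans E
    let T : (Fin (2 * (2 * r + 1) + 1) ⊕ Fin (2 * (2 * r + 1) + 1) → ZMod 2) →+
        (Fin (2 * (2 * r + 1) + 1) ⊕ Fin (2 * (2 * r + 1) + 1) → ZMod 2) := AddMonoidHom.mk'
      (fun w =>
        let A := fun i => w (.inl (E (.inl (J (.inl i)))))
        let B := fun i => w (.inr (E (.inl (J (.inl i)))))
        let C := fun i => w (.inl (E (.inl (J (.inr i)))))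
        let D := fun i => w (.inr (E (.inl (J (.inr i)))))
        Sum.elim
          (fun p => Sum.elim (Sum.elim (fun i => A i + B i + D i) (fun i => A i + C i + D i))
            (fun i => w (.inl (E (.inr i)))) (I.symm p))
          (fun p => Sum.elim (Sum.elim (fun i => B i + D i) (fun i => A i + C i))
            (fun i => w (.inl (E (.inr i))) + w (.inr (E (.inr i)))) (I.symm p)))
      (fun u v => by
        funext p
        rcases p with p | p <;> simp only [Sum.elim_inl, Sum.elim_inr, Pi.add_apply] <;>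
          rcases I.symm p with (i | i) | i <;> simp only [Sum.elim_inl, Sum.elim_inr] <;> ring)
    refine embed_of_coord (2 * r + 1) hk _ T ?_ (by simp; ring) fun w => ?_
    · rw [injective_iff_map_eq_zero]
      intro w hw
      have hl := fun p => congrFun hw (.inl (I p))
      have hr := fun p => congrFun hw (.inr (I p))
      simp only [T, AddMonoidHom.mk'_apply, Sum.elim_inl, Sum.elim_inr, Equiv.symm_apply_apply,
        Pi.zero_apply] at hl hr
      have k1 : ∀ a b c d : ZMod 2, a + b + d = 0 → b + d = 0 → a + c + d = 0 → a + c = 0 →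
          a = 0 ∧ b = 0 ∧ c = 0 ∧ d = 0 := by decide
      have key := fun i => k1 _ _ _ _ (hl (.inl (.inl i))) (hr (.inl (.inl i))) (hl (.inl (.inr i))) (hr (.inl (.inr i)))
      funext p
      rcases p with p | p <;> obtain ⟨q, rfl⟩ := E.surjective p <;> rcases q with q | q
      · obtain ⟨s, rfl⟩ := J.surjective q
        rcases s with s | s
        · exact (key s).1
        · exact (key s).2.2.1
      · exact hl (.inr q)
      · obtain ⟨s, rfl⟩ := J.surjective q
        rcases s with s | s
        · exact (key s).2.1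
        · exact (key s).2.2.2
      · have a := hl (.inr q)
        have b := hr (.inr q)
        simp only [Sum.elim_inr] at a b
        rwa [a, zero_add] at b
    · rw [qh_planes _ E h1 h0]
      unfold Cfsg.quadFormPlus
      rw [← I.sum_comp, Fintype.sum_sum_type, Fintype.sum_sum_type, ← J.sum_comp,
        Fintype.sum_sum_type, ← Finset.sum_add_distrib, ← Finset.sum_add_distrib]
      simp only [T, AddMonoidHom.mk'_apply, Sum.elim_inl, Sum.elim_inr, Equiv.symm_apply_apply,
        ← quad_id]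
  · rintro ⟨r, rfl⟩
    let J : (Fin r ⊕ Fin r) ⊕ Fin 1 ≃ Fin (r + r + 1) := (Equiv.sumCongr finSumFinEquiv (Equiv.refl _)).trans finSumFinEquiv
    let I : (Fin r ⊕ Fin r) ⊕ Fin (r + r) ≃ Fin (2 * (r + r)) :=
      (Equiv.sumCongr finSumFinEquiv (Equiv.refl _)).trans (finSumFinEquiv.trans (finCongr (by ring)))
    let T : (Fin (2 * (r + r) + 1) ⊕ Fin (2 * (r + r) + 1) → ZMod 2) →+
        ((Fin (2 * (r + r)) ⊕ Fin (2 * (r + r))) ⊕ Fin 2 → ZMod 2) := AddMonoidHom.mk'
      (fun w =>
        let A := fun i => w (.inl (E (.inl (J (.inl (.inl i))))))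
        let B := fun i => w (.inr (E (.inl (J (.inl (.inl i))))))
        let C := fun i => w (.inl (E (.inl (J (.inl (.inr i))))))
        let D := fun i => w (.inr (E (.inl (J (.inl (.inr i))))))
        Sum.elim (Sum.elim
          (fun p => Sum.elim (Sum.elim (fun i => A i + B i + D i) (fun i => A i + C i + D i))
            (fun i => w (.inl (E (.inr i)))) (I.symm p))
          (fun p => Sum.elim (Sum.elim (fun i => B i + D i) (fun i => A i + C i))
            (fun i => w (.inl (E (.inr i))) + w (.inr (E (.inr i)))) (I.symm p)))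
          ![w (.inl (E (.inl (J (.inr 0))))), w (.inr (E (.inl (J (.inr 0)))))])
      (fun u v => by
        funext p
        rcases p with (p | p) | p <;> simp only [Sum.elim_inl, Sum.elim_inr, Pi.add_apply]
        · rcases I.symm p with (i | i) | i <;> simp only [Sum.elim_inl, Sum.elim_inr] <;> ring
        · rcases I.symm p with (i | i) | i <;> simp only [Sum.elim_inl, Sum.elim_inr] <;> ring
        · fin_cases p <;> rfl)
    refine embed_of_coord (r + r) hk _ T ?_ (by simp; ring) fun w => ?_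
    · rw [injective_iff_map_eq_zero]
      intro w hw
      have hl := fun p => congrFun hw (.inl (.inl (I p)))
      have hr := fun p => congrFun hw (.inl (.inr (I p)))
      have ha := congrFun hw (.inr 0)
      have hb := congrFun hw (.inr 1)
      simp only [T, AddMonoidHom.mk'_apply, Sum.elim_inl, Sum.elim_inr, Equiv.symm_apply_apply,
        Pi.zero_apply, Matrix.cons_val_zero, Matrix.cons_val_one] at hl hr ha hb
      have k1 : ∀ a b c d : ZMod 2, a + b + d = 0 → b + d = 0 → a + c + d = 0 → a + c = 0 →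
          a = 0 ∧ b = 0 ∧ c = 0 ∧ d = 0 := by decide
      have key := fun i => k1 _ _ _ _ (hl (.inl (.inl i))) (hr (.inl (.inl i))) (hl (.inl (.inr i))) (hr (.inl (.inr i)))
      funext p
      rcases p with p | p <;> obtain ⟨q, rfl⟩ := E.surjective p <;> rcases q with q | q
      · obtain ⟨s, rfl⟩ := J.surjective q
        rcases s with (s | s) | s
        · exact (key s).1
        · exact (key s).2.2.1
        · rw [Fin.fin_one_eq_zero s]; exact ha
      · exact hl (.inr q)
      · obtain ⟨s, rfl⟩ := J.surjective q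
        rcases s with (s | s) | s
        · exact (key s).2.1
        · exact (key s).2.2.2
        · rw [Fin.fin_one_eq_zero s]; exact hb
      · have a := hl (.inr q)
        have b := hr (.inr q)
        simp only [Sum.elim_inr] at a b
        rwa [a, zero_add] at b
    · rw [qh_planes _ E h1 h0]
      unfold Cfsg.quadFormMinus
      rw [← I.sum_comp, Fintype.sum_sum_type, Fintype.sum_sum_type, ← J.sum_comp,
        Fintype.sum_sum_type, Fintype.sum_sum_type, ← Finset.sum_add_distrib, ← Finset.sum_add_distrib]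
      simp only [T, AddMonoidHom.mk'_apply, Sum.elim_inl, Sum.elim_inr, Equiv.symm_apply_apply,
        ← quad_id, Matrix.cons_val_zero, Matrix.cons_val_one, Fintype.sum_unique, Fin.default_eq_zero,
        ← ell_id]
      ring

end Cfsg.Agent.S2563
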