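import Cfsg.Statements.S2566
import Cfsg.Agent.Lib.ClassicalOrdersO
import Cfsg.Agent.Lib.ClassicalProjLine
import Cfsg.Agent.S0250

set_option autoImplicit false
open Cfsg
open Matrix
open scoped Kronecker

namespace Cfsg.Agent.S2566

/-- The full orthogonal group of the plus-type form x₁y₁ + x₂y₂ in dimension 4 over the field of two elements has order 72 and is isomorphic to the wreath product of the symmetric group of degree 3 by a group of order 2: it has a normal subgroup isomorphic to the direct product of two symmetric groups of degree 3, of index 2, whose two direct factors are interchanged by conjugation by some element. -/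
theorem result :
    Nat.card ↥(Cfsg.isometryGroup (ZMod 2) (Cfsg.quadFormPlus 2 (ZMod 2))) = 72 ∧
    ∃ (A B : Subgroup ↥(Cfsg.isometryGroup (ZMod 2) (Cfsg.quadFormPlus 2 (ZMod 2)))),
      Nonempty (↥A ≃* Equiv.Perm (Fin 3)) ∧ Nonempty (↥B ≃* Equiv.Perm (Fin 3)) ∧ A ⊓ B = ⊥ ∧ (∀ a ∈ A, ∀ b ∈ B, a * b = b * a) ∧
      (A ⊔ B).index = 2 ∧ ∃ g : ↥(Cfsg.isometryGroup (ZMod 2) (Cfsg.quadFormPlus 2 (ZMod 2))), A.map (MulAut.conj g).toMonoidHom = B := by
  classical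
  let G := Cfsg.isometryGroup (ZMod 2) (Cfsg.quadFormPlus 2 (ZMod 2))
  let S := Matrix.SpecialLinearGroup (Fin 2) (ZMod 2)
  have hcard : Nat.card G = 72 := by
    rw [CfsgLib.Classical.Orders.card_O_plus (by norm_num), ZMod.card]; decide
  refine ⟨hcard, ?_⟩
  let e : Fin 2 × Fin 2 ≃ Fin 2 ⊕ Fin 2 :=
    { toFun := fun p => if p.1 = 0 then .inl p.2 else .inr (if p.2 = 0 then 1 else 0)
      invFun := Sum.elim (fun j => (0, j)) (fun j => (1, if j = 0 then 1 else 0))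
      left_inv := by decide
      right_inv := by decide }
  let re : Matrix (Fin 2 × Fin 2) (Fin 2 × Fin 2) (ZMod 2) ≃ₐ[ZMod 2] Matrix (Fin 2 ⊕ Fin 2) (Fin 2 ⊕ Fin 2) (ZMod 2) := Matrix.reindexAlgEquiv (ZMod 2) (ZMod 2) e
  let mA : S →* Matrix (Fin 2 ⊕ Fin 2) (Fin 2 ⊕ Fin 2) (ZMod 2) :=
    { toFun := fun g => re ((g : Matrix (Fin 2) (Fin 2) (ZMod 2)) ⊗ₖ (1 : Matrix (Fin 2) (Fin 2) (ZMod 2)))
      map_one' := by rw [Matrix.SpecialLinearGroup.coe_one, Matrix.one_kronecker_one, map_one]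
      map_mul' := fun g h => by rw [← map_mul, ← Matrix.mul_kronecker_mul, mul_one]; rfl }
  let mB : S →* Matrix (Fin 2 ⊕ Fin 2) (Fin 2 ⊕ Fin 2) (ZMod 2) :=
    { toFun := fun g => re ((1 : Matrix (Fin 2) (Fin 2) (ZMod 2)) ⊗ₖ (g : Matrix (Fin 2) (Fin 2) (ZMod 2)))
      map_one' := by rw [Matrix.SpecialLinearGroup.coe_one, Matrix.one_kronecker_one, map_one]
      map_mul' := fun g h => by rw [← map_mul, ← Matrix.mul_kronecker_mul, mul_one]; rfl }
  have hAent : ∀ g p r, mA g (e p) (e r) = (g : Matrix (Fin 2) (Fin 2) (ZMod 2)) p.1 r.1 * (1 : Matrix (Fin 2) (Fin 2) (ZMod 2)) p.2 r.2 := fun g p r => by simp [mA, re]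
  have hBent : ∀ g p r, mB g (e p) (e r) = (1 : Matrix (Fin 2) (Fin 2) (ZMod 2)) p.1 r.1 * (g : Matrix (Fin 2) (Fin 2) (ZMod 2)) p.2 r.2 := fun g p r => by simp [mB, re]
  have hcomm : ∀ g h, Commute (mA g) (mB h) := fun g h => by
    show re _ * re _ = re _ * re _
    rw [← map_mul, ← map_mul, ← Matrix.mul_kronecker_mul, ← Matrix.mul_kronecker_mul, one_mul, mul_one, one_mul, mul_one]
  have h2 : (2 : ZMod 2) = 0 := rfl
  have hsum : ∀ (M : Matrix (Fin 2 ⊕ Fin 2) (Fin 2 ⊕ Fin 2) (ZMod 2)) (v : Fin 2 ⊕ Fin 2 → ZMod 2) i, (M *ᵥ v) i = M i (e (0, 0)) * v (e (0, 0)) + M i (e (0, 1)) * v (e (0, 1)) + M i (e (1, 0)) * v (e (1, 0)) + M i (e (1, 1)) * v (e (1, 1)) := fun M v i => by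
    rw [Matrix.mulVec, dotProduct, ← e.sum_comp, Fintype.sum_prod_type, Fin.sum_univ_two, Fin.sum_univ_two, Fin.sum_univ_two]; ring
  have hQ : ∀ v, Cfsg.quadFormPlus 2 (ZMod 2) v = v (e (0, 0)) * v (e (1, 1)) + v (e (0, 1)) * v (e (1, 0)) := fun v => by
    simp [Cfsg.quadFormPlus, Fin.sum_univ_two, e]
  have hprA : ∀ g : S, ∀ v, Cfsg.quadFormPlus 2 (ZMod 2) (mA g *ᵥ v) = Cfsg.quadFormPlus 2 (ZMod 2) v := fun g v => by
    have hd := g.2
    rw [Matrix.det_fin_two] at hd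
    rw [hQ, hQ, hsum, hsum, hsum, hsum]
    simp only [hAent]
    simp only [Matrix.one_apply_eq, Matrix.one_apply_ne (show (0 : Fin 2) ≠ 1 by decide), Matrix.one_apply_ne (show (1 : Fin 2) ≠ 0 by decide), mul_one, mul_zero, zero_mul, add_zero, zero_add]
    linear_combination (v (e (0, 0)) * v (e (1, 1)) + v (e (0, 1)) * v (e (1, 0))) * hd + ((g : Matrix (Fin 2) (Fin 2) (ZMod 2)) 0 1 * (g : Matrix (Fin 2) (Fin 2) (ZMod 2)) 1 0 * (v (e (0, 0)) * v (e (1, 1)) + v (e (0, 1)) * v (e (1, 0))) + (g : Matrix (Fin 2) (Fin 2) (ZMod 2)) 0 0 * (g : Matrix (Fin 2) (Fin 2) (ZMod 2)) 1 0 * v (e (0, 0)) * v (e (0, 1)) + (g : Matrix (Fin 2) (Fin 2) (ZMod 2)) 0 1 * (g : Matrix (Fin 2) (Fin 2) (ZMod 2)) 1 1 * v (e (1, 0)) * v (e (1, 1))) * h2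
  let T : Matrix (Fin 2 ⊕ Fin 2) (Fin 2 ⊕ Fin 2) (ZMod 2) := re (Matrix.of fun p r => if p = Prod.swap r then 1 else 0)
  have hT2 : T * T = 1 := by
    show re _ * re _ = 1
    rw [← map_mul, ← map_one re]; congr 1
    ext ⟨i, j⟩ ⟨k, l⟩
    fin_cases i <;> fin_cases j <;> fin_cases k <;> fin_cases l <;> simp [Matrix.mul_apply, Fintype.sum_prod_type]
  have hTv : ∀ v p, (T *ᵥ v) (e p) = v (e p.swap) := fun v p => by
    rw [hsum]; simp only [T, re, Matrix.reindexAlgEquiv_apply, Matrix.reindex_apply, Matrix.submatrix_apply, Equiv.symm_apply_apply, Matrix.of_apply]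
    obtain ⟨i, j⟩ := p
    fin_cases i <;> fin_cases j <;> simp
  have hprT : ∀ v, Cfsg.quadFormPlus 2 (ZMod 2) (T *ᵥ v) = Cfsg.quadFormPlus 2 (ZMod 2) v := fun v => by
    rw [hQ, hQ, hTv, hTv, hTv, hTv]; simp only [Prod.swap_prod_mk]; ring
  let T' : G := ⟨⟨T, T, hT2, hT2⟩, fun u _ => hprT u⟩
  let φA : S →* G := ((mA.toHomUnits)).codRestrict G (fun g u _ => hprA g u)
  let φB : S →* G := (MulAut.conj T').toMonoidHom.comp φA
  have hBm : ∀ g, mB g = T * mA g * T := fun g => by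
    show re _ = re _ * re _ * re _
    rw [← map_mul, ← map_mul]; congr 1
    ext p r
    simp only [Matrix.mul_apply, Matrix.kroneckerMap_apply, Matrix.of_apply, Fintype.sum_prod_type, Fin.sum_univ_two]
    obtain ⟨i, j⟩ := p
    obtain ⟨k, l⟩ := r
    fin_cases i <;> fin_cases j <;> fin_cases k <;> fin_cases l <;> simp
  have hBval : ∀ g, (((φB g : G) : GL (Fin 2 ⊕ Fin 2) (ZMod 2)) : Matrix (Fin 2 ⊕ Fin 2) (Fin 2 ⊕ Fin 2) (ZMod 2)) = mB g := fun g => (hBm g).symm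
  have hcomm' : ∀ g h, Commute (φA g) (φB h) := fun g h => by
    refine Subtype.ext (Units.ext ?_)
    show mA g * _ = _ * mA g
    rw [hBval]; exact hcomm g h
  have hinj : Function.Injective (φA.noncommCoprod φB hcomm') := by
    rw [← MonoidHom.ker_eq_bot_iff, eq_bot_iff]
    rintro ⟨g, h⟩ hgh
    rw [MonoidHom.mem_ker, MonoidHom.noncommCoprod_apply] at hgh
    have h1 : mA g * mB h = 1 := by
      rw [← hBval]; exact congrArg (fun y : G => ((y : GL (Fin 2 ⊕ Fin 2) (ZMod 2)) : Matrix (Fin 2 ⊕ Fin 2) (Fin 2 ⊕ Fin 2) (ZMod 2))) hgh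
    have h3 : ∀ p r : Fin 2 × Fin 2, (g : Matrix (Fin 2) (Fin 2) (ZMod 2)) p.1 r.1 * (h : Matrix (Fin 2) (Fin 2) (ZMod 2)) p.2 r.2 = if p = r then 1 else 0 := fun p r => by
      have h5 : re ((g : Matrix (Fin 2) (Fin 2) (ZMod 2)) ⊗ₖ (h : Matrix (Fin 2) (Fin 2) (ZMod 2))) = 1 := by
        rw [← h1]; show _ = re _ * re _
        rw [← map_mul, ← Matrix.mul_kronecker_mul, mul_one, one_mul]
      have h6 : (g : Matrix (Fin 2) (Fin 2) (ZMod 2)) ⊗ₖ (h : Matrix (Fin 2) (Fin 2) (ZMod 2)) = 1 := re.injective (h5.trans (map_one re).symm)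
      exact (congrFun (congrFun h6 p) r).trans Matrix.one_apply
    have hz : ∀ a b : ZMod 2, a * b = 1 → a = 1 ∧ b = 1 := by decide
    obtain ⟨g00, h00⟩ := hz _ _ ((h3 (0, 0) (0, 0)).trans (if_pos rfl))
    obtain ⟨g11, h11⟩ := hz _ _ ((h3 (1, 1) (1, 1)).trans (if_pos rfl))
    have g01 := (h3 (0, 0) (1, 0)).trans (if_neg (by decide))
    have g10 := (h3 (1, 0) (0, 0)).trans (if_neg (by decide))
    have h01 := (h3 (0, 0) (0, 1)).trans (if_neg (by decide))
    have h10 := (h3 (0, 1) (0, 0)).trans (if_neg (by decide))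
    simp only [g00, h00, mul_one, one_mul] at g01 g10 h01 h10
    refine Subgroup.mem_bot.2 (Prod.ext ?_ ?_)
    · apply Subtype.ext; ext i j; fin_cases i <;> fin_cases j <;> simp [g00, g11, g01, g10]
    · apply Subtype.ext; ext i j; fin_cases i <;> fin_cases j <;> simp [h00, h11, h01, h10]
  have hAi : Function.Injective φA := fun a b hab => by
    have := hinj (show (φA.noncommCoprod φB hcomm') (a, 1) = (φA.noncommCoprod φB hcomm') (b, 1) by simp [MonoidHom.noncommCoprod_apply, hab])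
    exact (Prod.ext_iff.1 this).1
  have hBi : Function.Injective φB := fun a b hab => by
    have := hinj (show (φA.noncommCoprod φB hcomm') (1, a) = (φA.noncommCoprod φB hcomm') (1, b) by simp [MonoidHom.noncommCoprod_apply, hab])
    exact (Prod.ext_iff.1 this).2
  obtain ⟨eS⟩ := Cfsg.Agent.S0250.result (F := ZMod 2) (ZMod.card 2)
  refine ⟨φA.range, φB.range, ⟨(MonoidHom.ofInjective hAi).symm.trans eS⟩, ⟨(MonoidHom.ofInjective hBi).symm.trans eS⟩, ?_, ?_, ?_, T', ?_⟩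
  · rw [eq_bot_iff]
    rintro x ⟨⟨g, rfl⟩, h, hh⟩
    have := hinj (show (φA.noncommCoprod φB hcomm') (g, h⁻¹) = (φA.noncommCoprod φB hcomm') 1 by
      rw [map_one, MonoidHom.noncommCoprod_apply, map_inv, hh, mul_inv_cancel])
    have hg1 : g = 1 := (Prod.ext_iff.1 this).1
    rw [hg1, map_one]
    exact one_mem _
  · rintro _ ⟨g, rfl⟩ _ ⟨h, rfl⟩
    exact hcomm' g h
  · rw [← MonoidHom.noncommCoprod_range (comm := hcomm')]
    have hr : Nat.card (φA.noncommCoprod φB hcomm').range = 36 := by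
      rw [← Nat.card_congr (MonoidHom.ofInjective hinj).toEquiv, Nat.card_prod, CfsgLib.Classical.Two.card_sl_two, ZMod.card]
    have := Subgroup.index_mul_card (φA.noncommCoprod φB hcomm').range
    rw [hr, show Nat.card ↥(Cfsg.isometryGroup (ZMod 2) (Cfsg.quadFormPlus 2 (ZMod 2))) = 72 from hcard] at this
    omega
  · exact (MonoidHom.range_comp _ _).symm

end Cfsg.Agent.S2566
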