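import Cfsg.Statements.S2567


set_option autoImplicit false
open Cfsg

namespace Cfsg.Agent.S2567

/-- Lifting elements of prime order from PGL to GL: let F be a finite field with q elements, r a prime not dividing q − 1, and x an element of order r in GL_n(F) modulo its centre (the scalar matrices). Then x has exactly one preimage in GL_n(F) of order r. -/
theorem result {F : Type*} [Field F] [Fintype F] {q n r : ℕ} (hF : Fintype.card F = q) (hr : r.Prime) (hdiv : ¬ r ∣ q - 1) (x : GL (Fin n) F ⧸ Subgroup.center (GL (Fin n) F)) (hx : orderOf x = r) : ∃! g : GL (Fin n) F, (QuotientGroup.mk g : GL (Fin n) F ⧸ Subgroup.center (GL (Fin n) F)) = x ∧ orderOf g = r := by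
  classical
  haveI : Fact r.Prime := ⟨hr⟩
  obtain ⟨g₀, rfl⟩ := QuotientGroup.mk_surjective x
  set Z := Subgroup.center (GL (Fin n) F) with hZ
  have hco : (Nat.card Z).Coprime r := by
    refine (hr.coprime_iff_not_dvd.2 fun h => hdiv ?_).symm
    refine h.trans ?_
    rw [hZ, Matrix.GeneralLinearGroup.center_eq_range_scalar, ← hF, ← Fintype.card_units, ← Nat.card_eq_fintype_card]
    exact Subgroup.card_range_dvd _
  have hlam : g₀ ^ r ∈ Z := (QuotientGroup.eq_one_iff _).1 (by rw [QuotientGroup.mk_pow, ← hx, pow_orderOf_eq_one])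
  obtain ⟨⟨μ, hμZ⟩, hμ⟩ := (powCoprime hco).surjective ⟨g₀ ^ r, hlam⟩
  have hμ' : μ ^ r = g₀ ^ r := congrArg Subtype.val hμ
  have hcm : ∀ z ∈ Z, ∀ g, Commute g z := fun z hz g => Subgroup.mem_center_iff.1 hz g
  have hmk : (QuotientGroup.mk (g₀ * μ⁻¹) : GL (Fin n) F ⧸ Z) = QuotientGroup.mk g₀ := by
    rw [QuotientGroup.eq]
    rw [mul_inv_rev, inv_inv, mul_assoc, inv_mul_cancel, mul_one]
    exact hμZ
  have hpow : (g₀ * μ⁻¹) ^ r = 1 := by
    rw [(hcm _ (inv_mem hμZ) g₀).mul_pow, inv_pow, hμ', mul_inv_cancel]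
  have hne : g₀ * μ⁻¹ ≠ 1 := fun e => by
    rw [← hmk, e, QuotientGroup.mk_one, orderOf_one] at hx
    exact hr.ne_one hx.symm
  refine ⟨g₀ * μ⁻¹, ⟨hmk, orderOf_eq_prime hpow hne⟩, ?_⟩
  rintro g ⟨hg, hgo⟩
  have hν : (g₀ * μ⁻¹)⁻¹ * g ∈ Z := QuotientGroup.eq.1 (hmk.trans hg.symm)
  have h1 : ((g₀ * μ⁻¹)⁻¹ * g) ^ r = 1 := by
    have hc := hcm _ hν (g₀ * μ⁻¹)
    have e : g = (g₀ * μ⁻¹) * ((g₀ * μ⁻¹)⁻¹ * g) := (mul_inv_cancel_left _ _).symm
    have := congrArg (· ^ r) e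
    simp only [hc.mul_pow, hpow, one_mul] at this
    rw [← this, ← hgo, pow_orderOf_eq_one]
  have h2 : orderOf ((g₀ * μ⁻¹)⁻¹ * g) = 1 :=
    Nat.eq_one_of_dvd_coprimes hco (Subgroup.orderOf_dvd_natCard Z hν) (orderOf_dvd_of_pow_eq_one h1)
  exact (inv_mul_eq_one.1 (orderOf_eq_one_iff.1 h2)).symm

end Cfsg.Agent.S2567
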