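import Cfsg.Statements.S2568
import Cfsg.Agent.Lib.LieGLSemisimple
import Cfsg.Agent.S2387

set_option autoImplicit false
open Cfsg

namespace Cfsg.Agent.S2568

section

open Polynomial CfsgLib.Lie.GLSemisimple

variable {F : Type*} [Field F] [Fintype F]

theorem dvd_pow_sub_one_iff (r k : ℕ) :
    r ∣ Fintype.card F ^ k - 1 ↔ orderOf ((Fintype.card F : ℕ) : ZMod r) ∣ k := by
  rw [orderOf_dvd_iff_pow_eq_one, ← CharP.cast_eq_zero_iff (ZMod r) r,
    Nat.cast_sub (Nat.one_le_pow _ _ Fintype.card_pos), sub_eq_zero, Nat.cast_pow, Nat.cast_one]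

/-- The irreducible divisors of `X^r - 1` other than `X - 1` have degree the order of `q` modulo `r`. -/
theorem natDegree_factor {r : ℕ} [Fact r.Prime] {f : F[X]} (hf : Irreducible f) (hdvd : f ∣ X ^ r - 1)
    (hne : ¬ f ∣ X - 1) : f.natDegree = orderOf ((Fintype.card F : ℕ) : ZMod r) := by
  classical
  haveI := Fact.mk hf
  set a := AdjoinRoot.root f with hadef
  set q := Fintype.card F with hq
  have har : a ^ r = 1 := by
    obtain ⟨g, hg⟩ := hdvd
    have := congrArg (AdjoinRoot.mk f) hg
    simp only [map_sub, map_pow, map_one, map_mul, AdjoinRoot.mk_self, zero_mul, AdjoinRoot.mk_X] at this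
    exact sub_eq_zero.mp this
  have ha1 : a ≠ 1 := by
    intro h
    apply hne
    rw [← AdjoinRoot.mk_eq_zero, map_sub, map_one, AdjoinRoot.mk_X]
    exact sub_eq_zero.mpr h
  have hord : orderOf a = r := orderOf_eq_prime har ha1
  let B := AdjoinRoot.powerBasis hf.ne_zero
  haveI : FiniteDimensional F (AdjoinRoot f) := B.finite
  haveI : Finite (AdjoinRoot f) := Module.finite_of_finite F
  letI := Fintype.ofFinite (AdjoinRoot f)
  have hcard : Fintype.card (AdjoinRoot f) = q ^ f.natDegree := by
    rw [Module.card_eq_pow_finrank (K := F) (V := AdjoinRoot f), B.finrank, AdjoinRoot.powerBasis_dim]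
  have ha0 : a ≠ 0 := by
    intro h
    rw [h, zero_pow (Fact.out : r.Prime).ne_zero] at har
    exact zero_ne_one har
  have h1 : orderOf ((q : ℕ) : ZMod r) ∣ f.natDegree := by
    rw [hq, ← dvd_pow_sub_one_iff, ← hq, ← hcard, ← hord]
    exact orderOf_dvd_of_pow_eq_one (FiniteField.pow_card_sub_one_eq_one a ha0)
  refine le_antisymm ?_ (Nat.le_of_dvd hf.natDegree_pos h1)
  set i := orderOf ((q : ℕ) : ZMod r) with hi
  have hi0 : 0 < i := Nat.pos_of_dvd_of_pos h1 hf.natDegree_pos
  have hri : r ∣ q ^ i - 1 := by rw [hq, dvd_pow_sub_one_iff]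
  have hfix : a ^ (q ^ i) = a := by
    obtain ⟨c, hc⟩ := hri
    rw [show q ^ i = r * c + 1 by have := Nat.one_le_pow i q Fintype.card_pos; omega, pow_succ, pow_mul, har,
      one_pow, one_mul]
  obtain ⟨p, hp⟩ := CharP.exists F
  haveI := hp
  haveI : Fact p.Prime := ⟨CharP.char_is_prime F p⟩
  have hall : ∀ x : AdjoinRoot f, x ^ (q ^ i) = x := by
    intro x
    induction x using AdjoinRoot.induction_on with
    | ih g =>
      have hfrob : ∀ k : ℕ, ((FiniteField.frobeniusAlgHom F (AdjoinRoot f)) ^ k : AdjoinRoot f →ₐ[F] AdjoinRoot f) =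
          ((FiniteField.frobeniusAlgHom F (AdjoinRoot f)) ^ k : AdjoinRoot f →ₐ[F] AdjoinRoot f) := fun _ => rfl
      have hpow : ∀ (k : ℕ) (y : AdjoinRoot f), ((FiniteField.frobeniusAlgHom F (AdjoinRoot f)) ^ k) y = y ^ (q ^ k) := by
        intro k
        induction k with
        | zero => intro y; simp
        | succ k ih =>
          intro y
          rw [pow_succ', AlgHom.mul_apply, ih, FiniteField.frobeniusAlgHom_apply, ← pow_mul, ← pow_succ]
      have e : ((FiniteField.frobeniusAlgHom F (AdjoinRoot f)) ^ i) = AlgHom.id F (AdjoinRoot f) :=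
        AdjoinRoot.algHom_ext (by rw [hpow]; exact hfix)
      rw [← hpow, e]
      rfl
  have hle : Fintype.card (AdjoinRoot f) ≤ q ^ i := by
    have hq1 : 1 < q ^ i := Nat.one_lt_pow hi0.ne' Fintype.one_lt_card
    have hne0 : (X ^ (q ^ i) - X : (AdjoinRoot f)[X]) ≠ 0 := FiniteField.X_pow_card_sub_X_ne_zero _ hq1
    have h := card_le_degree_of_subset_roots (Z := (Finset.univ : Finset (AdjoinRoot f)))
      (p := (X ^ (q ^ i) - X : (AdjoinRoot f)[X])) (fun x _ => by
        rw [Finset.mem_val] at *
        rw [mem_roots hne0, IsRoot, eval_sub, eval_pow, eval_X, hall, sub_self])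
    rwa [FiniteField.X_pow_card_sub_X_natDegree_eq _ hq1] at h
  rw [hcard] at hle
  exact (Nat.pow_le_pow_iff_right Fintype.one_lt_card).1 hle

/-- The irreducible factors of a semisimple element of exponent `r`. -/
theorem charpoly_factors [DecidableEq F] {n r : ℕ} (hr : (r : F) ≠ 0) (g : Module.End F (Fin n → F)) (hg : g ^ r = 1) :
    ∀ f ∈ UniqueFactorizationMonoid.normalizedFactors g.charpoly, f ∣ X ^ r - 1 := by
  intro f hf
  obtain ⟨ι, _, P, hP, ⟨φ⟩, hχ⟩ := decomp g hr hg
  classical
  rw [hχ, Finset.prod_eq_multiset_prod, UniqueFactorizationMonoid.normalizedFactors_prod_eq _ (fun x hx => by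
    obtain ⟨i, _, rfl⟩ := Multiset.mem_map.1 hx
    exact (hP i).1)] at hf
  simp only [Multiset.mem_map, Finset.mem_val, Finset.mem_univ, true_and, exists_exists_eq_and] at hf
  obtain ⟨i, rfl⟩ := hf
  rw [(hP i).2.normalize_eq_self]
  have h1 : ((X : F[X]) ^ r - 1) • (Pi.single i (Submodule.Quotient.mk 1) : ∀ j, Q (P j)) = 0 := by
    obtain ⟨y, hy⟩ := φ.surjective (Pi.single i (Submodule.Quotient.mk 1))
    obtain ⟨v, rfl⟩ := (Module.AEval'.of g).surjective y
    rw [← hy, ← map_smul, sub_smul, one_smul, Module.AEval'.X_pow_smul_of, hg]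
    simp
  have h2 := congrFun h1 i
  rw [Pi.smul_apply, Pi.single_eq_same, Pi.zero_apply, ← Submodule.Quotient.mk_smul, smul_eq_mul, mul_one,
    Submodule.Quotient.mk_eq_zero, Submodule.mem_span_singleton] at h2
  obtain ⟨c, hc⟩ := h2
  exact ⟨c, by rw [← hc, smul_eq_mul, mul_comm]⟩

theorem pow_eq_one_of_factors [DecidableEq F] {n N r : ℕ} (hN : (N : F) ≠ 0) (g : Module.End F (Fin n → F)) (hg : g ^ N = 1)
    (h : ∀ f ∈ UniqueFactorizationMonoid.normalizedFactors g.charpoly, f ∣ X ^ r - 1) : g ^ r = 1 := by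
  obtain ⟨ι, _, P, hP, ⟨φ⟩, hχ⟩ := decomp g hN hg
  classical
  refine LinearMap.ext fun v => ?_
  have h0 : ((X : F[X]) ^ r - 1) • φ (Module.AEval'.of g v) = 0 := by
    refine funext fun i => ?_
    obtain ⟨a, ha⟩ := Submodule.Quotient.mk_surjective _ (φ (Module.AEval'.of g v) i)
    rw [Pi.smul_apply, ← ha, ← Submodule.Quotient.mk_smul, Pi.zero_apply, Submodule.Quotient.mk_eq_zero,
      Submodule.mem_span_singleton]
    have hmem : P i ∈ UniqueFactorizationMonoid.normalizedFactors g.charpoly := by
      rw [UniqueFactorizationMonoid.mem_normalizedFactors_iff' (LinearMap.charpoly_monic g).ne_zero, hχ]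
      exact ⟨(hP i).1, (hP i).2.normalize_eq_self, Finset.dvd_prod_of_mem _ (Finset.mem_univ i)⟩
    obtain ⟨c, hc⟩ := h _ hmem
    exact ⟨c * a, by rw [smul_eq_mul, smul_eq_mul, hc]; ring⟩
  rw [← map_smul, LinearEquiv.map_eq_zero_iff, sub_smul, one_smul, Module.AEval'.X_pow_smul_of, ← map_sub,
    LinearEquiv.map_eq_zero_iff, sub_eq_zero] at h0
  exact h0

end

/-- Number of conjugacy classes of elements of a given prime order r, coprime to the characteristic, in GL_n(q): if i is the multiplicative order of q modulo r and t = (r − 1)/i, the classes correspond to the non-zero t-tuples of natural numbers (a_1, …, a_t) with i(a_1 + ⋯ + a_t) ≤ n (a_j is the multiplicity of the j-th Frobenius orbit of nontrivial r-th roots of unity among the eigenvalues), so there are exactly C(⌊n/i⌋ + t, t) − 1 of them. -/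
theorem result {F : Type*} [Field F] [Fintype F] {p q : ℕ} [Fact p.Prime] [CharP F p] (hF : Fintype.card F = q) (n r i t : ℕ) (hr : r.Prime) (hrp : r ≠ p) (hi : i = orderOf (q : ZMod r)) (ht : t * i = r - 1) : Nat.card {C : ConjClasses (GL (Fin n) F) // ∃ g : GL (Fin n) F, ConjClasses.mk g = C ∧ orderOf g = r} = Nat.choose (n / i + t) t - 1 := by
  classical
  subst hF
  haveI : Fact r.Prime := ⟨hr⟩
  have hr0 : (r : F) ≠ 0 := fun h => hrp ((Nat.prime_dvd_prime_iff_eq (Fact.out : p.Prime) hr).1
    ((CharP.cast_eq_zero_iff F p r).1 h)).symm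
  have hi0 : 0 < i := by
    rcases Nat.eq_zero_or_pos i with h | h
    · rw [h, mul_zero] at ht
      have := hr.two_le
      omega
    · exact h
  open Polynomial UniqueFactorizationMonoid in
  have key : Nat.card {C : ConjClasses (GL (Fin n) F) // ∃ g : GL (Fin n) F, ConjClasses.mk g = C ∧ orderOf g = r} =
      Nat.choose (n / i + t) t - 1 := by
    set T : Finset F[X] := ((normalizedFactors (X ^ r - 1 : F[X])).toFinset).erase (X - 1) with hTdef
    have hX1 : Irreducible (X - 1 : F[X]) := by simpa using irreducible_X_sub_C (1 : F)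
    have hX1m : (X - 1 : F[X]).Monic := by simpa using monic_X_sub_C (1 : F)
    have hX1n : normalize (X - 1 : F[X]) = X - 1 := hX1m.normalize_eq_self
    have hXr : (X ^ r - 1 : F[X]) ≠ 0 := by simpa using X_pow_sub_C_ne_zero hr.pos (1 : F)
    have hT : ∀ f : F[X], f ∈ T ↔ f ≠ X - 1 ∧ Irreducible f ∧ normalize f = f ∧ f ∣ X ^ r - 1 := by
      intro f
      rw [hTdef, Finset.mem_erase, Multiset.mem_toFinset, mem_normalizedFactors_iff' hXr]
    have hdeg : ∀ f ∈ T, f.natDegree = i := by
      intro f hf
      obtain ⟨h1, h2, h3, h4⟩ := (hT f).1 hf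
      rw [hi]
      refine natDegree_factor h2 h4 fun h => h1 ?_
      rw [← h3, ← hX1n]
      exact normalize_eq_normalize_iff.2 ⟨(h2.associated_of_dvd hX1 h).dvd, (h2.associated_of_dvd hX1 h).symm.dvd⟩
    have hmon : ∀ f ∈ T, f.Monic := fun f hf => by
      obtain ⟨_, h2, h3, _⟩ := (hT f).1 hf
      rw [← h3]; exact monic_normalize h2.ne_zero
    have hnd : (normalizedFactors (X ^ r - 1 : F[X])).Nodup :=
      (squarefree_iff_nodup_normalizedFactors hXr).1 (Polynomial.X_pow_sub_one_separable_iff.2 hr0).squarefree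
    have hcardT : T.card = t := by
      have hprod : ∏ f ∈ (normalizedFactors (X ^ r - 1 : F[X])).toFinset, f = X ^ r - 1 := by
        rw [Finset.prod_eq_multiset_prod, Multiset.toFinset_val, hnd.dedup, Multiset.map_id',
          prod_normalizedFactors_eq hXr]
        exact (monic_X_pow_sub_C (1 : F) hr.ne_zero).normalize_eq_self ▸ by simp
      have hin : (X - 1 : F[X]) ∈ (normalizedFactors (X ^ r - 1 : F[X])).toFinset := by
        rw [Multiset.mem_toFinset, mem_normalizedFactors_iff' hXr]
        exact ⟨hX1, hX1n, sub_one_dvd_pow_sub_one X r⟩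
      rw [← Finset.mul_prod_erase _ _ hin, ← hTdef] at hprod
      have hd := congrArg natDegree hprod
      rw [Monic.natDegree_mul hX1m (monic_prod_of_monic _ _ hmon), natDegree_prod_of_monic _ _ hmon,
        Finset.sum_congr rfl hdeg, Finset.sum_const, smul_eq_mul, show (X - 1 : F[X]) = X - C 1 by simp,
        natDegree_X_sub_C, show (X ^ r - 1 : F[X]) = X ^ r - C 1 by simp, natDegree_X_pow_sub_C] at hd
      have hti : T.card * i = t * i := by omega
      exact Nat.eq_of_mul_eq_mul_right hi0 hti
    set N := n / i with hNdef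
    have hNi : N * i ≤ n := Nat.div_mul_le_self n i
    let Y := {P : Option T → ℕ // ∑ x, P x = N}
    let χ : Y → F[X] := fun P => (X - 1) ^ (n - i * ∑ f : T, P.1 (some f)) * ∏ f : T, (f : F[X]) ^ P.1 (some f)
    have hχm : ∀ P : Y, (χ P).Monic := fun P =>
      (hX1m.pow _).mul (monic_prod_of_monic _ _ fun f _ => (hmon _ f.2).pow _)
    have hsum : ∀ P : Y, i * ∑ f : T, P.1 (some f) ≤ n := by
      intro P
      have h := P.2
      rw [Fintype.sum_option] at h
      refine le_trans ?_ hNi
      rw [mul_comm N i]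
      exact Nat.mul_le_mul_left i (by omega)
    have hχd : ∀ P : Y, (χ P).natDegree = n := by
      intro P
      simp only [χ]
      rw [Monic.natDegree_mul (hX1m.pow _) (monic_prod_of_monic _ _ fun f _ => (hmon _ f.2).pow _),
        natDegree_prod_of_monic _ _ (fun f _ => (hmon _ f.2).pow _), natDegree_pow,
        show (X - 1 : F[X]) = X - C 1 by simp, natDegree_X_sub_C]
      simp only [natDegree_pow]
      rw [Finset.sum_congr rfl fun (f : T) _ => congrArg (P.1 (some f) * ·) (hdeg _ f.2), ← Finset.sum_mul, mul_comm _ i]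
      have := hsum P
      omega
    have hdvd : ∀ P : Y, ∀ f ∈ normalizedFactors (χ P), f ∣ X ^ r - 1 := by
      intro P f hf
      obtain ⟨h1, h2, h3⟩ := (mem_normalizedFactors_iff' (hχm P).ne_zero).1 hf
      rcases h1.prime.dvd_or_dvd h3 with h | h
      · exact (h1.prime.dvd_of_dvd_pow h).trans (sub_one_dvd_pow_sub_one X r)
      · obtain ⟨g, _, hg⟩ := h1.prime.exists_mem_finset_dvd h
        exact (h1.prime.dvd_of_dvd_pow hg).trans ((hT _).1 g.2).2.2.2
    have hχ0 : ∀ P : Y, (χ P).coeff 0 ≠ 0 := by
      intro P h0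
      have hdv : (X : F[X]) ∣ χ P := X_dvd_iff.2 h0
      have hmem : normalize (X : F[X]) ∈ normalizedFactors (χ P) := by
        rw [mem_normalizedFactors_iff' (hχm P).ne_zero]
        exact ⟨(associated_normalize _).irreducible irreducible_X, normalize_idem _, normalize_dvd_iff.2 hdv⟩
      have := X_dvd_iff.1 ((dvd_normalize_iff.2 dvd_rfl).trans (hdvd P _ hmem))
      simp [coeff_sub, coeff_X_pow, hr.ne_zero.symm] at this
    have hrel : ∀ g : GL (Fin n) F, g ^ r = 1 ↔ (orderOf g).Coprime p ∧
        ∀ f ∈ normalizedFactors (g : Matrix (Fin n) (Fin n) F).charpoly, f ∣ X ^ r - 1 := by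
      intro g
      have hcp : (Matrix.toLinAlgEquiv' (g : Matrix (Fin n) (Fin n) F)).charpoly =
          (g : Matrix (Fin n) (Fin n) F).charpoly := by
        rw [← LinearMap.charpoly_toMatrix _ (Pi.basisFun F (Fin n))]
        congr 1
        exact LinearMap.toMatrix'_toLin' _
      constructor
      · intro hg
        refine ⟨Nat.Coprime.coprime_dvd_left (orderOf_dvd_of_pow_eq_one hg)
          ((Nat.coprime_primes hr Fact.out).2 hrp), ?_⟩
        rw [← hcp]
        exact charpoly_factors hr0 _ (by
          rw [← map_pow, ← Units.val_pow_eq_pow_val, hg, Units.val_one, map_one])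
      · rintro ⟨hg, hf⟩
        rw [← hcp] at hf
        have hne : ((orderOf g : ℕ) : F) ≠ 0 := by
          rw [Ne, CharP.cast_eq_zero_iff F p]
          exact fun hd => (Fact.out : p.Prime).ne_one (Nat.Coprime.eq_one_of_dvd hg.symm hd)
        have := pow_eq_one_of_factors hne _ (by
          rw [← map_pow, ← Units.val_pow_eq_pow_val, pow_orderOf_eq_one, Units.val_one, map_one]) hf
        rw [← map_pow, ← Units.val_pow_eq_pow_val, map_eq_one_iff _ Matrix.toLinAlgEquiv'.injective,
          Units.val_eq_one] at this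
        exact this
    have hconj : ∀ g h : GL (Fin n) F, g ^ r = 1 → h ^ r = 1 →
        ((g : Matrix (Fin n) (Fin n) F).charpoly = (h : Matrix (Fin n) (Fin n) F).charpoly ↔ IsConj g h) := by
      intro g h hg hh
      refine ⟨fun hc => ?_, fun hc => ?_⟩
      · obtain ⟨L, hL⟩ := CfsgLib.Lie.GLSemisimple.exists_conj _ _ hr0 hr0
          (show (Matrix.toLinAlgEquiv' (g : Matrix (Fin n) (Fin n) F)) ^ r = 1 by
            rw [← map_pow, ← Units.val_pow_eq_pow_val, hg, Units.val_one, map_one])
          (show (Matrix.toLinAlgEquiv' (h : Matrix (Fin n) (Fin n) F)) ^ r = 1 by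
            rw [← map_pow, ← Units.val_pow_eq_pow_val, hh, Units.val_one, map_one])
          (by
            rw [← LinearMap.charpoly_toMatrix _ (Pi.basisFun F (Fin n)),
              ← LinearMap.charpoly_toMatrix _ (Pi.basisFun F (Fin n))]
            exact (congrArg Matrix.charpoly (LinearMap.toMatrix'_toLin' _)).trans
              (hc.trans (congrArg Matrix.charpoly (LinearMap.toMatrix'_toLin' _)).symm))
        let PM : GL (Fin n) F := ⟨LinearMap.toMatrix' L.toLinearMap, LinearMap.toMatrix' L.symm.toLinearMap,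
          by rw [← LinearMap.toMatrix'_comp]; simp, by rw [← LinearMap.toMatrix'_comp]; simp⟩
        rw [isConj_iff]
        refine ⟨PM, mul_inv_eq_iff_eq_mul.2 (Units.ext ?_)⟩
        refine Matrix.toLin'.injective (LinearMap.ext fun x => ?_)
        show Matrix.toLin' (LinearMap.toMatrix' L.toLinearMap * _) x =
          Matrix.toLin' (_ * LinearMap.toMatrix' L.toLinearMap) x
        rw [Matrix.toLin'_mul_apply, Matrix.toLin'_mul_apply, Matrix.toLin'_toMatrix']
        exact hL x
      · obtain ⟨u, hu⟩ := isConj_iff.1 hc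
        rw [← hu, Units.val_mul, Units.val_mul, Matrix.coe_units_inv, Matrix.charpoly_units_conj]
    choose G hGc hGχ using fun P : Y => Cfsg.Agent.S2387.realize p
      (⟨χ P, hχm P, hχd P, hχ0 P⟩ : Cfsg.Agent.S2387.Poly0 F n)
    have hGr : ∀ P, G P ^ r = 1 := fun P => (hrel _).2 ⟨hGc P, by rw [hGχ]; exact hdvd P⟩
    -- the class map is injective and has the classes of exponent `r` as its image
    have hinjχ : Function.Injective χ := by
      intro P Q h
      have hsplit : ∀ (P : Y) (f : T), (normalizedFactors (χ P)).count (f : F[X]) = P.1 (some f) := by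
        intro P f
        have h0 : ∀ g : T, ((g : F[X]) ^ P.1 (some g)) ≠ 0 := fun g => (hmon _ g.2).pow _ |>.ne_zero
        rw [normalizedFactors_mul (hX1m.pow _).ne_zero (Finset.prod_ne_zero_iff.2 fun g _ => h0 g),
          Multiset.count_add, normalizedFactors_pow, normalizedFactors_irreducible hX1, hX1n,
          Multiset.count_nsmul, Multiset.count_singleton, if_neg ((hT _).1 f.2).1, mul_zero, zero_add,
          Finset.prod_eq_multiset_prod, normalizedFactors_multiset_prod _ (by
            rw [Multiset.mem_map]; rintro ⟨g, _, hg⟩; exact h0 g hg)]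
        rw [Multiset.map_map, Multiset.count_sum]
        rw [← Finset.sum_eq_multiset_sum, Finset.sum_eq_single f]
        · simp [normalizedFactors_pow, normalizedFactors_irreducible ((hT _).1 f.2).2.1, ((hT _).1 f.2).2.2.1]
        · intro g _ hgf
          have hne : (f : F[X]) ≠ (g : F[X]) := fun e => hgf (Subtype.ext e.symm)
          simp [normalizedFactors_pow, normalizedFactors_irreducible ((hT _).1 g.2).2.1, ((hT _).1 g.2).2.2.1,
            Multiset.count_singleton, hne]
        · intro h; exact absurd (Finset.mem_univ f) h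
      refine Subtype.ext (funext fun x => ?_)
      have hs : ∀ f : T, P.1 (some f) = Q.1 (some f) := fun f => by rw [← hsplit, ← hsplit, h]
      rcases x with _ | f
      · have h1 := P.2
        have h2 := Q.2
        rw [Fintype.sum_option] at h1 h2
        rw [Finset.sum_congr rfl fun f _ => hs f] at h1
        omega
      · exact hs f
    have hbij : Nat.card {C : ConjClasses (GL (Fin n) F) // ∃ g : GL (Fin n) F, ConjClasses.mk g = C ∧ g ^ r = 1} =
        Nat.card Y := by
      symm
      refine Nat.card_eq_of_bijective (fun P => ⟨ConjClasses.mk (G P), G P, rfl, hGr P⟩) ⟨fun P Q h => ?_, ?_⟩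
      · apply hinjχ
        have h' := (hconj _ _ (hGr P) (hGr Q)).2 (ConjClasses.mk_eq_mk_iff_isConj.1 (congrArg Subtype.val h))
        rwa [hGχ, hGχ] at h'
      rintro ⟨C, g, rfl, hg⟩
      set c := (g : Matrix (Fin n) (Fin n) F).charpoly with hcdef
      have hcm : c.Monic := Matrix.charpoly_monic _
      have hcf := ((hrel g).1 hg).2
      let b : T → ℕ := fun f => (normalizedFactors c).count (f : F[X])
      have hXT : (X - 1 : F[X]) ∉ T := fun h => ((hT _).1 h).1 rfl
      have hsub : (normalizedFactors c).toFinset ⊆ insert (X - 1) T := by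
        intro f hf
        rw [Multiset.mem_toFinset] at hf
        obtain ⟨h1, h2, h3⟩ := (mem_normalizedFactors_iff' hcm.ne_zero).1 hf
        rw [Finset.mem_insert, hT]
        by_cases h : f = X - 1
        · exact Or.inl h
        · exact Or.inr ⟨h, h1, h2, hcf f hf⟩
      have hprod : c = (X - 1) ^ (normalizedFactors c).count (X - 1) * ∏ f : T, (f : F[X]) ^ b f := by
        conv_lhs => rw [← hcm.normalize_eq_self, ← prod_normalizedFactors_eq hcm.ne_zero,
          Finset.prod_multiset_count_of_subset _ _ hsub, Finset.prod_insert hXT, ← Finset.prod_coe_sort]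
      have hcd : n = (normalizedFactors c).count (X - 1) + i * ∑ f, b f := by
        have h := congrArg natDegree hprod
        rw [hcdef, Matrix.charpoly_natDegree_eq_dim, Fintype.card_fin,
          Monic.natDegree_mul (hX1m.pow _) (monic_prod_of_monic _ _ fun f _ => (hmon _ f.2).pow _),
          natDegree_prod_of_monic _ _ (fun f _ => (hmon _ f.2).pow _), natDegree_pow,
          show (X - 1 : F[X]) = X - C 1 by simp, natDegree_X_sub_C, ← show (X - 1 : F[X]) = X - C 1 by simp, mul_one] at h
        simp only [natDegree_pow] at h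
        rwa [Finset.sum_congr rfl fun (f : T) _ => congrArg (b f * ·) (hdeg _ f.2), ← Finset.sum_mul, mul_comm _ i] at h
      have hbN : ∑ f, b f ≤ N := (Nat.le_div_iff_mul_le hi0).2 (by rw [mul_comm]; omega)
      let P : Y := ⟨fun x => x.elim (N - ∑ f, b f) b, by
        rw [Fintype.sum_option]; simp only [Option.elim_none, Option.elim_some]; omega⟩
      refine ⟨P, Subtype.ext (ConjClasses.mk_eq_mk_iff_isConj.2 ((hconj _ _ (hGr P) hg).1 ?_))⟩
      rw [hGχ, ← hcdef, hprod]
      show (X - 1) ^ (n - i * ∑ f : T, b f) * _ = _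
      rw [show n - i * ∑ f, b f = (normalizedFactors c).count (X - 1) by omega]
      rfl
    have hY : Nat.card Y = Nat.choose (N + t) t := by
      rw [← Nat.card_congr (Sym.equivNatSumOfFintype (Option T) N), Nat.card_eq_fintype_card,
        Sym.card_sym_eq_choose, Fintype.card_option, Fintype.card_coe, hcardT,
        show t + 1 + N - 1 = N + t by rw [Nat.add_right_comm, Nat.add_sub_cancel, add_comm], Nat.choose_symm_add]
    rw [← hY, ← hbij]
    have hins : {C : ConjClasses (GL (Fin n) F) | ∃ g : GL (Fin n) F, ConjClasses.mk g = C ∧ g ^ r = 1} =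
        insert (ConjClasses.mk 1) {C | ∃ g : GL (Fin n) F, ConjClasses.mk g = C ∧ orderOf g = r} := by
      ext C
      simp only [Set.mem_insert_iff, Set.mem_setOf_eq]
      constructor
      · rintro ⟨g, rfl, hg⟩
        by_cases h1 : g = 1
        · exact Or.inl (by rw [h1])
        · exact Or.inr ⟨g, rfl, orderOf_eq_prime hg h1⟩
      · rintro (rfl | ⟨g, rfl, hg⟩)
        · exact ⟨1, rfl, one_pow r⟩
        · exact ⟨g, rfl, by rw [← hg, pow_orderOf_eq_one]⟩
    have hnot : ConjClasses.mk (1 : GL (Fin n) F) ∉ {C | ∃ g : GL (Fin n) F, ConjClasses.mk g = C ∧ orderOf g = r} := by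
      rintro ⟨g, hg, hgo⟩
      rw [ConjClasses.mk_eq_mk_iff_isConj, isConj_one_left] at hg
      rw [hg, orderOf_one] at hgo
      exact hr.ne_one hgo.symm
    show Nat.card ({C | ∃ g : GL (Fin n) F, ConjClasses.mk g = C ∧ orderOf g = r} : Set _) =
      Nat.card ({C | ∃ g : GL (Fin n) F, ConjClasses.mk g = C ∧ g ^ r = 1} : Set _) - 1
    rw [Nat.card_coe_set_eq, Nat.card_coe_set_eq, hins, Set.ncard_insert_of_notMem hnot (Set.toFinite _)]
    omega
  exact key

end Cfsg.Agent.S2568
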