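import Cfsg.Statements.S2570
import Cfsg.Agent.S2317

set_option autoImplicit false
open Cfsg CfsgLib.Lie.GLUnipotent

namespace Cfsg.Agent.S2570

section

open scoped MatrixGroups

variable {F : Type*} [Field F]

/-- Conjugate unipotent elements have the same type. -/
theorem parts_eq {n : ℕ} {g h : GL (Fin n) F} (hc : IsConj g h) {P Q : Nat.Partition n}
    (hP : HasType (Matrix.toLinAlgEquiv' (g : Matrix (Fin n) (Fin n) F)) P.parts (fun i => (i : ℕ)))
    (hQ : HasType (Matrix.toLinAlgEquiv' (h : Matrix (Fin n) (Fin n) F)) Q.parts (fun i => (i : ℕ))) : P = Q := by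
  obtain ⟨u, hu⟩ := isConj_iff.1 hc
  let L : (Fin n → F) ≃ₗ[F] (Fin n → F) :=
    LinearEquiv.ofLinear (Matrix.toLin' (u : Matrix (Fin n) (Fin n) F))
      (Matrix.toLin' ((u⁻¹ : GL (Fin n) F) : Matrix (Fin n) (Fin n) F))
      (by rw [← Matrix.toLin'_mul, Units.mul_inv, Matrix.toLin'_one])
      (by rw [← Matrix.toLin'_mul, Units.inv_mul, Matrix.toLin'_one])
  have hL : ∀ x, L (Matrix.toLinAlgEquiv' (g : Matrix (Fin n) (Fin n) F) x) =
      Matrix.toLinAlgEquiv' (h : Matrix (Fin n) (Fin n) F) (L x) := by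
    intro x
    show Matrix.toLin' _ (Matrix.toLin' _ x) = Matrix.toLin' _ (Matrix.toLin' _ x)
    rw [← Matrix.toLin'_mul_apply, ← Matrix.toLin'_mul_apply, ← Units.val_mul, ← Units.val_mul,
      mul_inv_eq_iff_eq_mul.1 hu]
  have hP' := type_of_conj L hL hQ
  refine Nat.Partition.ext (Multiset.ext.2 fun k => ?_)
  rcases Nat.eq_zero_or_pos k with rfl | hk
  · rw [Multiset.count_eq_zero.2 fun h => (P.parts_pos h).ne' rfl,
      Multiset.count_eq_zero.2 fun h => (Q.parts_pos h).ne' rfl]
  · have h1 := count_of_rank (fun i : P.parts => (i : ℕ)) k hk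
    have h2 := count_of_rank (fun i : Q.parts => (i : ℕ)) k hk
    simp only [← finrank_range_pow hP, Multiset.map_univ_coe] at h1
    simp only [← finrank_range_pow hP', Multiset.map_univ_coe] at h2
    omega

theorem le_iff {n : ℕ} {f : Module.End F (Fin n → F)} {P : Nat.Partition n}
    (hP : HasType f P.parts (fun i => (i : ℕ))) (k : ℕ) : (∀ a ∈ P.parts, a ≤ k) ↔ (f - 1) ^ k = 0 := by
  rw [← LinearMap.range_eq_bot (f := (f - 1) ^ k), ← Submodule.finrank_eq_zero, finrank_range_pow hP,
    Finset.sum_eq_zero_iff]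
  constructor
  · intro h i _
    have := h (i : ℕ) Multiset.coe_mem
    omega
  · intro h a ha
    have := h (P.parts.mkToType a ⟨0, Multiset.count_pos.2 ha⟩) (Finset.mem_univ _)
    simp only [Multiset.coe_mk] at this
    omega

theorem order_iff {p : ℕ} [Fact p.Prime] [CharP F p] {n : ℕ} [NeZero n] (g : GL (Fin n) F) :
    orderOf g = p ↔ ((Matrix.toLinAlgEquiv' (g : Matrix (Fin n) (Fin n) F) - 1) ^ p = 0 ∧
      Matrix.toLinAlgEquiv' (g : Matrix (Fin n) (Fin n) F) - 1 ≠ 0) := by
  haveI : CharP (Module.End F (Fin n → F)) p :=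
    charP_of_injective_ringHom (algebraMap F (Module.End F (Fin n → F))).injective p
  rw [sub_pow_char_of_commute (p := p) (Commute.one_right _), one_pow, sub_eq_zero, sub_ne_zero, ← map_pow,
    ← Units.val_pow_eq_pow_val, ne_eq, map_eq_one_iff _ Matrix.toLinAlgEquiv'.injective,
    map_eq_one_iff _ Matrix.toLinAlgEquiv'.injective, Units.val_eq_one, Units.val_eq_one]
  constructor
  · intro h
    refine ⟨by rw [← h]; exact pow_orderOf_eq_one g, fun e => ?_⟩
    rw [e, orderOf_one] at h
    exact (Fact.out : p.Prime).ne_one h.symm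
  · exact fun h => orderOf_eq_prime h.1 h.2

end

/-- Number of conjugacy classes of elements of order p in GL_n over a finite field of characteristic p: they correspond to the Jordan types, that is, to the partitions of n with all parts at most p other than the partition into ones, so there are (number of partitions of n with parts ≤ p) − 1 of them. -/
theorem result {F : Type*} [Field F] [Fintype F] {p : ℕ} [Fact p.Prime] [CharP F p] (n : ℕ) : Nat.card {C : ConjClasses (GL (Fin n) F) // ∃ g : GL (Fin n) F, ConjClasses.mk g = C ∧ orderOf g = p} = (Finset.univ.filter (fun μ : Nat.Partition n => ∀ a ∈ μ.parts, a ≤ p)).card - 1 := by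
  classical
  rcases Nat.eq_zero_or_pos n with hn | hn
  · subst hn
    haveI : Subsingleton (GL (Fin 0) F) := ⟨fun a b => Units.ext (Subsingleton.elim _ _)⟩
    haveI : IsEmpty {C : ConjClasses (GL (Fin 0) F) // ∃ g : GL (Fin 0) F, ConjClasses.mk g = C ∧ orderOf g = p} :=
      ⟨fun C => by
        obtain ⟨g, -, hg⟩ := C.2
        rw [Subsingleton.elim g 1, orderOf_one] at hg
        exact (Fact.out : p.Prime).ne_one hg.symm⟩
    rw [Nat.card_of_isEmpty, eq_comm, Nat.sub_eq_zero_iff_le]
    exact (Finset.card_le_univ _).trans (by simp)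
  haveI : NeZero n := ⟨by omega⟩
  let one : Nat.Partition n := ⟨Multiset.replicate n 1, fun {i} hi => by rw [Multiset.eq_of_mem_replicate hi]; omega,
    by simp⟩
  have hone : ∀ P : Nat.Partition n, (∀ a ∈ P.parts, a ≤ 1) ↔ P = one := by
    intro P
    refine ⟨fun h => Nat.Partition.ext ?_, fun h a ha => by subst h; rw [Multiset.eq_of_mem_replicate ha]⟩
    have h1 : P.parts = Multiset.replicate (Multiset.card P.parts) 1 :=
      Multiset.eq_replicate_card.2 fun b hb => le_antisymm (h b hb) (P.parts_pos hb)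
    have h2 := P.parts_sum
    rw [h1, Multiset.sum_replicate, smul_eq_mul, mul_one] at h2
    rw [h1, h2]
  set S := Finset.univ.filter (fun μ : Nat.Partition n => ∀ a ∈ μ.parts, a ≤ p)
  have hmem : one ∈ S := Finset.mem_filter.2 ⟨Finset.mem_univ _, fun a ha => ((hone one).2 rfl a ha).trans (Fact.out : p.Prime).one_lt.le⟩
  rw [← Finset.card_erase_of_mem hmem, ← Fintype.card_coe, ← Nat.card_eq_fintype_card]
  choose g hgp hgt using Cfsg.Agent.S2317.exists_unipotent (F := F) p n
  have hord : ∀ P : S.erase one, orderOf (g P.1) = p := by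
    rintro ⟨P, hP⟩
    obtain ⟨hP1, hP2⟩ := Finset.mem_erase.1 hP
    rw [order_iff, ← le_iff (hgt P), ne_eq, ← pow_one (Matrix.toLinAlgEquiv' (g P : Matrix (Fin n) (Fin n) F) - 1),
      ← le_iff (hgt P), hone]
    exact ⟨(Finset.mem_filter.1 hP2).2, hP1⟩
  symm
  refine Nat.card_eq_of_bijective (fun P : S.erase one => ⟨ConjClasses.mk (g P.1), g P.1, rfl, hord P⟩)
    ⟨fun P Q h => Subtype.ext (parts_eq (ConjClasses.mk_eq_mk_iff_isConj.1 (congrArg Subtype.val h)) (hgt _) (hgt _)),
      fun C => ?_⟩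
  obtain ⟨C, h, rfl, hh⟩ := C
  obtain ⟨h1, h2⟩ := (order_iff h).1 hh
  obtain ⟨ι, _, e, hpos, htype⟩ := exists_type _ h1
  have hsum : ∑ i, e i = n := by
    have h0 := finrank_range_pow htype 0
    simp only [Nat.sub_zero] at h0
    rw [← h0, show ((Matrix.toLinAlgEquiv' (h : Matrix (Fin n) (Fin n) F) - 1) ^ 0) = LinearMap.id from pow_zero _,
      LinearMap.range_id, finrank_top, Module.finrank_fin_fun]
  let P : Nat.Partition n :=
    ⟨Finset.univ.val.map e, fun {i} hi => by obtain ⟨j, _, rfl⟩ := Multiset.mem_map.1 hi; exact hpos j, hsum⟩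
  obtain ⟨L, hL⟩ := conj_of_type (hgt P) htype (by rw [Multiset.map_univ_coe])
  have hconj : IsConj (g P) h := by
    let PM : GL (Fin n) F := ⟨LinearMap.toMatrix' L.toLinearMap, LinearMap.toMatrix' L.symm.toLinearMap,
      by rw [← LinearMap.toMatrix'_comp]; simp, by rw [← LinearMap.toMatrix'_comp]; simp⟩
    rw [isConj_iff]
    refine ⟨PM, mul_inv_eq_iff_eq_mul.2 (Units.ext ?_)⟩
    refine Matrix.toLin'.injective (LinearMap.ext fun x => ?_)
    show Matrix.toLin' (LinearMap.toMatrix' L.toLinearMap * _) x =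
      Matrix.toLin' (_ * LinearMap.toMatrix' L.toLinearMap) x
    rw [Matrix.toLin'_mul_apply, Matrix.toLin'_mul_apply, Matrix.toLin'_toMatrix']
    exact hL x
  have ho : orderOf (g P) = p := by
    obtain ⟨u, hu⟩ := isConj_iff.1 hconj
    rw [← hh, ← hu, ← MulAut.conj_apply, MulEquiv.orderOf_eq]
  obtain ⟨k1, k2⟩ := (order_iff (g P)).1 ho
  have hPmem : P ∈ S.erase one := by
    refine Finset.mem_erase.2 ⟨?_, Finset.mem_filter.2 ⟨Finset.mem_univ _, (le_iff (hgt P) p).2 k1⟩⟩
    intro e1
    apply k2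
    rw [← pow_one (Matrix.toLinAlgEquiv' (g P : Matrix (Fin n) (Fin n) F) - 1)]
    exact (le_iff (hgt P) 1).1 ((hone P).2 e1)
  exact ⟨⟨P, hPmem⟩, Subtype.ext (ConjClasses.mk_eq_mk_iff_isConj.2 hconj)⟩

end Cfsg.Agent.S2570
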