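import Cfsg.Statements.S2574
import Cfsg.Agent.Lib.ClassicalRegUnip

set_option autoImplicit false
open Cfsg
open Matrix

namespace Cfsg.Agent.S2574

/-- A regular unipotent element of the symplectic group has totally isotropic small invariant subspaces: over a finite field, if u ∈ Sp_2m(F) satisfies (u − 1)^(2m) = 0 and rank(u − 1) = 2m − 1, and W is a u-invariant subspace with 2 dim W ≤ 2m, then the alternating form vanishes identically on W. -/
theorem result {F : Type*} [Field F] [Finite F] {m : ℕ} (u : Matrix.symplecticGroup (Fin m) F) (hnil : ((u : Matrix (Fin m ⊕ Fin m) (Fin m ⊕ Fin m) F) - 1) ^ (2 * m) = 0) (hreg : ((u : Matrix (Fin m ⊕ Fin m) (Fin m ⊕ Fin m) F) - 1).rank = 2 * m - 1) (W : Submodule F (Fin m ⊕ Fin m → F)) (hW : ∀ v ∈ W, (u : Matrix (Fin m ⊕ Fin m) (Fin m ⊕ Fin m) F).mulVec v ∈ W) (hdim : 2 * Module.finrank F W ≤ 2 * m) : ∀ v ∈ W, ∀ w ∈ W, Cfsg.sympForm m F v w = 0 := by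
  classical
  set U : Matrix (Fin m ⊕ Fin m) (Fin m ⊕ Fin m) F := (u : Matrix (Fin m ⊕ Fin m) (Fin m ⊕ Fin m) F) with hU
  set V' : Matrix (Fin m ⊕ Fin m) (Fin m ⊕ Fin m) F := ((u⁻¹ : Matrix.symplecticGroup (Fin m) F) : Matrix (Fin m ⊕ Fin m) (Fin m ⊕ Fin m) F) with hV
  have hUV : U * V' = 1 := congrArg Subtype.val (mul_inv_cancel u)
  have hVU : V' * U = 1 := congrArg Subtype.val (inv_mul_cancel u)
  have hform : ∀ a b, Cfsg.sympForm m F (U *ᵥ a) (U *ᵥ b) = Cfsg.sympForm m F a b := by
    intro a b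
    unfold Cfsg.sympForm
    rw [← Matrix.vecMul_transpose, ← Matrix.dotProduct_mulVec, Matrix.mulVec_mulVec, Matrix.mulVec_mulVec, SymplecticGroup.mem_iff'.1 u.2]
  have h := CfsgLib.RegUnip.isReg_of_matrix (n := 2 * m) (by simp [two_mul]) hnil hreg
  set N : Module.End F (Fin m ⊕ Fin m → F) := (Matrix.toLinAlgEquiv' (U - 1) : Module.End F (Fin m ⊕ Fin m → F)) with hN
  have hNapp : ∀ x, N x = U *ᵥ x - x := fun x => by
    rw [hN, Matrix.toLinAlgEquiv'_apply, Matrix.sub_mulVec, Matrix.one_mulVec]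
  have hNU : ∀ x, N (U *ᵥ x) = U *ᵥ N x := fun x => by
    rw [hNapp, hNapp, Matrix.mulVec_sub]
  have hpowU : ∀ (j : ℕ) (x : Fin m ⊕ Fin m → F), (N ^ j) (U *ᵥ x) = U *ᵥ (N ^ j) x := by
    intro j
    induction j with
    | zero => intro x; rfl
    | succ j ih => intro x; rw [pow_succ', Module.End.mul_apply, Module.End.mul_apply, ih, hNU]
  have key : ∀ (j : ℕ) (a w : Fin m ⊕ Fin m → F), (N ^ j) w = 0 → Cfsg.sympForm m F ((N ^ j) a) w = 0 := by
    intro j
    induction j with
    | zero =>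
      intro a w hw
      have hw' : w = 0 := hw
      simp [Cfsg.sympForm, hw']
    | succ j ih =>
      intro a w hw
      set w' := V' *ᵥ w with hw'
      have hw2 : U *ᵥ w' = w := by rw [hw', Matrix.mulVec_mulVec, hUV, Matrix.one_mulVec]
      have h0 : (N ^ j) (N w') = 0 := by
        rw [← Module.End.mul_apply, ← pow_succ]
        have h1 := hpowU (j + 1) w'
        rw [hw2, hw] at h1
        have h2 := congrArg (V' *ᵥ ·) h1.symm
        simpa [Matrix.mulVec_mulVec, hVU] using h2
      rw [pow_succ', Module.End.mul_apply, hNapp]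
      set x := (N ^ j) a
      have h3 := ih a (N w') h0
      rw [hNapp, hw2] at h3
      have hlin : ∀ p r s : Fin m ⊕ Fin m → F, Cfsg.sympForm m F (p - r) s = Cfsg.sympForm m F p s - Cfsg.sympForm m F r s := fun p r s => by
        simp [Cfsg.sympForm, sub_dotProduct]
      have hlin' : ∀ p r s : Fin m ⊕ Fin m → F, Cfsg.sympForm m F s (p - r) = Cfsg.sympForm m F s p - Cfsg.sympForm m F s r := fun p r s => by
        simp [Cfsg.sympForm, Matrix.mulVec_sub, dotProduct_sub]
      rw [hlin' w w' x] at h3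
      have h4 : Cfsg.sympForm m F (U *ᵥ x) w = Cfsg.sympForm m F x w' := by
        conv_lhs => rw [← hw2]
        exact hform x w'
      rw [hlin, h4]
      linear_combination -h3
  have hWN : ∀ x ∈ W, N x ∈ W := fun x hx => by
    rw [hNapp]; exact sub_mem (hW x hx) hx
  have hWk := h.invariant_eq W hWN
  set k := Module.finrank F W
  have hR : W ≤ LinearMap.range (N ^ k) := by
    have hinv : ∀ x ∈ LinearMap.range (N ^ k), N x ∈ LinearMap.range (N ^ k) := by
      rintro _ ⟨y, rfl⟩
      exact ⟨N y, by rw [← Module.End.mul_apply, ← pow_succ, pow_succ', Module.End.mul_apply]⟩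
    have hr := h.invariant_eq _ hinv
    rw [hWk, hr]
    intro x hx
    have h1 := LinearMap.finrank_range_add_finrank_ker (N ^ k)
    rw [h.dim, ← hWk] at h1
    rw [LinearMap.mem_ker] at hx ⊢
    rw [show Module.finrank F (LinearMap.range (N ^ k)) = (Module.finrank F (LinearMap.range (N ^ k)) - k) + k by omega, pow_add, Module.End.mul_apply, hx, map_zero]
  intro v hv w hw
  obtain ⟨a, rfl⟩ := hR hv
  rw [hWk, LinearMap.mem_ker] at hw
  exact key k a w hw

end Cfsg.Agent.S2574
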