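import Cfsg.Statements.S2575


set_option autoImplicit false
open Cfsg

namespace Cfsg.Agent.S2575

/-- Which diagonal involutions of PGL_n(q) lie in PSL_n(q), q odd: for the diagonal matrix t with i entries −1 and n − i entries 1, some non-zero scalar multiple of t has determinant one if and only if i is even or the 2-part of q − 1 exceeds the 2-part of n (that is, −1 is an n-th power in the field exactly in the latter case). -/
theorem result {F : Type*} [Field F] [Fintype F] {q : ℕ} (hF : Fintype.card F = q) (hq : Odd q) {n : ℕ} (hn : 1 ≤ n) (i : ℕ) (hi : i ≤ n) : (∃ c : F, c ≠ 0 ∧ (c • Matrix.diagonal (fun j : Fin n => if (j : ℕ) < i then (-1 : F) else 1)).det = 1) ↔ (Even i ∨ padicValNat 2 n < padicValNat 2 (q - 1)) := by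
  classical
  haveI : Fact (Nat.Prime 2) := ⟨Nat.prime_two⟩
  have hdet : ∀ c : F, (c • Matrix.diagonal (fun j : Fin n => if (j : ℕ) < i then (-1 : F) else 1)).det = c ^ n * (-1) ^ i := by
    intro c
    rw [Matrix.det_smul, Fintype.card_fin, Matrix.det_diagonal, Finset.prod_ite, Finset.prod_const, Finset.prod_const_one, mul_one]
    congr 2
    rw [Fin.card_filter_val_lt, min_eq_right hi]
  simp only [hdet]
  rcases Nat.even_or_odd i with hev | hodd
  · exact ⟨fun _ => Or.inl hev, fun _ => ⟨1, one_ne_zero, by rw [one_pow, one_mul, hev.neg_one_pow]⟩⟩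
  have hni : ¬ Even i := Nat.not_even_iff_odd.2 hodd
  simp only [hni, false_or, hodd.neg_one_pow, mul_neg, mul_one, neg_eq_iff_eq_neg]
  have hq1 : 1 < q := hF ▸ Fintype.one_lt_card
  have hneg : (-1 : F) ≠ 1 := by
    intro h
    have h2 : (2 : F) = 0 := by linear_combination -h
    have := FiniteField.even_card_of_char_two (F := F) ?_
    · rw [Nat.odd_iff, ← hF] at hq; omega
    · exact CharP.ringChar_of_prime_eq_zero Nat.prime_two (by exact_mod_cast h2)
  obtain ⟨k, a, ha, hna⟩ := Nat.exists_eq_two_pow_mul_odd (show n ≠ 0 by omega)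
  have hk : padicValNat 2 n = k := by
    rw [hna, padicValNat.mul (by positivity) (by rcases ha with ⟨j, rfl⟩; omega), padicValNat.prime_pow,
      padicValNat.eq_zero_of_not_dvd (fun h => by rcases ha with ⟨j, rfl⟩; omega), add_zero]
  have hiff : padicValNat 2 n < padicValNat 2 (q - 1) ↔ 2 ^ (k + 1) ∣ Nat.card Fˣ := by
    rw [hk, Nat.card_units, Nat.card_eq_fintype_card, hF, padicValNat_dvd_iff_le (by omega), Nat.succ_le_iff]
  rw [hiff]
  constructor
  · rintro ⟨c, hc0, hc⟩
    let u : Fˣ := Units.mk0 c hc0 ^ a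
    have h1 : u ^ 2 ^ k = -1 := Units.ext (by
      show (c ^ a) ^ 2 ^ k = -1
      rw [← pow_mul, mul_comm, ← hna, hc])
    have h2 : orderOf u = 2 ^ (k + 1) := by
      refine orderOf_eq_prime_pow ?_ ?_
      · rw [h1]; exact fun e => hneg (congrArg Units.val e)
      · rw [pow_succ, pow_mul, h1]; simp
    exact h2 ▸ orderOf_dvd_natCard u
  · intro h
    obtain ⟨g, hg⟩ := IsCyclic.exists_ofOrder_eq_natCard (α := Fˣ)
    obtain ⟨d, hd⟩ := h
    have hu : orderOf (g ^ d) = 2 ^ (k + 1) := by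
      have hd0 : d ≠ 0 := fun e => by rw [e, mul_zero] at hd; exact Nat.card_pos.ne' hd
      rw [orderOf_pow_of_dvd hd0 (by rw [hg, hd]; exact dvd_mul_left d _), hg, hd, Nat.mul_div_cancel _ (Nat.pos_of_ne_zero hd0)]
    refine ⟨(g ^ d : Fˣ), Units.ne_zero _, ?_⟩
    have h2 : ((g ^ d) ^ 2 ^ k : Fˣ).1 * ((g ^ d) ^ 2 ^ k : Fˣ).1 = 1 := by
      rw [← Units.val_mul, ← pow_add, ← mul_two, ← pow_succ, ← hu, pow_orderOf_eq_one, Units.val_one]
    have h3 : ((g ^ d) ^ 2 ^ k : Fˣ).1 ≠ 1 := fun e => pow_ne_one_of_lt_orderOf (by positivity)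
      (by rw [hu]; exact Nat.pow_lt_pow_right (by norm_num) (Nat.lt_succ_self k)) (Units.ext e)
    have h4 := (mul_self_eq_one_iff.1 h2).resolve_left h3
    rw [hna, pow_mul, ← Units.val_pow_eq_pow_val, h4, ha.neg_one_pow]

end Cfsg.Agent.S2575
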