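import Cfsg.Statements.S2576


set_option autoImplicit false
open Cfsg

namespace Cfsg.Agent.S2576

/-- Which involutions of PGL_2m(q) coming from a scalar of the quadratic extension field lie in PSL_2m(q), q odd: let μ generate the Sylow 2-subgroup of the multiplicative group of the field with q elements (μ has order the 2-part of q − 1) and let t be the block-diagonal matrix with m diagonal blocks [[0, 1], [μ, 0]] (so t² is the scalar μ and t is an involution modulo scalars). Then some non-zero scalar multiple of t has determinant one if and only if q ≡ 3 (mod 4) or the 2-part of q − 1 is less than the 2-part of 2m. -/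
theorem result {F : Type*} [Field F] [Fintype F] {q : ℕ} (hF : Fintype.card F = q) (hq : Odd q) {m : ℕ} (hm : 1 ≤ m) (μ : F) (hμ : orderOf μ = 2 ^ padicValNat 2 (q - 1)) : (∃ c : F, c ≠ 0 ∧ (c • Matrix.blockDiagonal (fun _ : Fin m => !![(0 : F), 1; μ, 0])).det = 1) ↔ (q % 4 = 3 ∨ padicValNat 2 (q - 1) < padicValNat 2 (2 * m)) := by
  classical
  have hdet : ∀ c : F, (c • Matrix.blockDiagonal (fun _ : Fin m => !![(0 : F), 1; μ, 0])).det = c ^ (2 * m) * (-μ) ^ m := by
    intro c
    rw [Matrix.det_smul, Matrix.det_blockDiagonal]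
    simp [Matrix.det_fin_two]
  simp only [hdet]
  haveI : Fact (Nat.Prime 2) := ⟨Nat.prime_two⟩
  have hq1 : 1 < q := hF ▸ Fintype.one_lt_card
  have h20 : q - 1 ≠ 0 := by omega
  set a := padicValNat 2 (q - 1) with ha
  have ha1 : 1 ≤ a := by
    have : 2 ∣ q - 1 := by obtain ⟨j, hj⟩ := hq; exact ⟨j, by omega⟩
    exact one_le_padicValNat_of_dvd h20 this
  obtain ⟨r, hr⟩ : 2 ^ a ∣ q - 1 := pow_padicValNat_dvd
  have hrodd : Odd r := by
    by_contra h
    rw [Nat.not_odd_iff_even] at h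
    obtain ⟨j, hj⟩ := h
    have h1 : 2 ^ (a + 1) ∣ q - 1 := ⟨j, by rw [hr, hj]; ring⟩
    exact pow_succ_padicValNat_not_dvd h20 h1
  have hμ1 : μ ^ 2 ^ a = 1 := hμ ▸ pow_orderOf_eq_one μ
  have hμh : μ ^ 2 ^ (a - 1) = -1 := by
    have h1 : (μ ^ 2 ^ (a - 1)) ^ 2 = 1 := by rw [← pow_mul, ← pow_succ, Nat.sub_add_cancel ha1, hμ1]
    rcases sq_eq_one_iff.1 h1 with h | h
    · exfalso
      have h2 := orderOf_dvd_of_pow_eq_one h
      rw [hμ, Nat.pow_dvd_pow_iff_le_right (by norm_num : 1 < 2)] at h2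
      omega
    · exact h
  have hm0 : m ≠ 0 := by omega
  have hv : padicValNat 2 (2 * m) = padicValNat 2 m + 1 := by
    rw [padicValNat.mul (by norm_num) hm0, padicValNat.self (by norm_num), add_comm]
  obtain ⟨v, hvdef⟩ : ∃ v, padicValNat 2 m = v := ⟨_, rfl⟩
  obtain ⟨m', hm'⟩ : 2 ^ v ∣ m := hvdef ▸ pow_padicValNat_dvd
  have hm'odd : Odd m' := by
    by_contra h
    rw [Nat.not_odd_iff_even] at h
    obtain ⟨j, hj⟩ := h
    refine pow_succ_padicValNat_not_dvd (p := 2) hm0 ⟨j, ?_⟩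
    rw [hvdef, hm', hj, pow_succ]; ring
  have ha4 : a = 1 → q % 4 = 3 := by
    intro h
    rw [h, pow_one] at hr
    obtain ⟨j, hj⟩ := hrodd
    omega
  have h4a : q % 4 = 3 → a = 1 := by
    intro h
    by_contra hne
    have h1 : 2 ^ 2 ∣ q - 1 := (pow_dvd_pow 2 (by omega : 2 ≤ a)).trans ⟨r, hr⟩
    omega
  constructor
  · rintro ⟨c, hc0, hc⟩
    by_contra hcon
    push Not at hcon
    have ha2 : 2 ≤ a := by
      by_contra h
      exact hcon.1 (ha4 (by omega))
    have hva : v < a := by omega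
    have hneg : (-μ) ^ 2 ^ (a - 1) = -1 := by
      rw [Even.neg_pow ((Nat.even_pow).2 ⟨even_two, by omega⟩), hμh]
    have hc1 : c ^ (q - 1) = 1 := hF ▸ FiniteField.pow_card_sub_one_eq_one c hc0
    have hexp : (2 * m) * (2 ^ (a - 1 - v) * r) = (q - 1) * m' := by
      rw [hr]
      conv_lhs => rw [hm']
      rw [show 2 * (2 ^ v * m') * (2 ^ (a - 1 - v) * r) = (2 ^ (1 + v + (a - 1 - v))) * r * m' by rw [pow_add, pow_add]; ring,
        show 1 + v + (a - 1 - v) = a by omega]
    have hexp' : m * (2 ^ (a - 1 - v) * r) = 2 ^ (a - 1) * (r * m') := by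
      conv_lhs => rw [hm']
      rw [show 2 ^ (a - 1) = 2 ^ v * 2 ^ (a - 1 - v) by rw [← pow_add]; congr 1; omega]
      ring
    have h1 := congrArg (fun x => x ^ (2 ^ (a - 1 - v) * r)) hc
    simp only [mul_pow, one_pow] at h1
    rw [← pow_mul, hexp, pow_mul, hc1, one_pow, one_mul, ← pow_mul, hexp', pow_mul, hneg, (hrodd.mul hm'odd).neg_one_pow] at h1
    have h2 : (2 : F) = 0 := by linear_combination -h1
    exact (Ring.two_ne_zero (fun hc2 => by
      have := FiniteField.even_card_of_char_two hc2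
      rw [hF] at this
      obtain ⟨j, hj⟩ := hq
      omega)) h2
  · intro h
    refine ⟨1, one_ne_zero, ?_⟩
    rw [one_pow, one_mul]
    rcases h with h | h
    · have h1 := h4a h
      rw [h1] at hμh
      simp at hμh
      rw [hμh, neg_neg, one_pow]
    · have hle : a ≤ v := by omega
      have hdvd : 2 ^ a ∣ m := (pow_dvd_pow 2 hle).trans (hvdef ▸ pow_padicValNat_dvd)
      have heven : Even m := (even_iff_two_dvd).2 ((dvd_pow_self 2 (by omega : a ≠ 0)).trans hdvd)
      obtain ⟨j, hj⟩ := hdvd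
      rw [heven.neg_pow, hj, pow_mul, hμ1, one_pow]

end Cfsg.Agent.S2576
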