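import Cfsg.Statements.S2577
import Cfsg.Agent.Lib.LieGLSemisimple

set_option autoImplicit false
open Cfsg

namespace Cfsg.Agent.S2577

section

open Polynomial

variable {F : Type*} [Field F] [Fintype F] {n : ℕ}

theorem factors_sq (h2 : (2 : F) ≠ 0) {c : F} (hc : c ≠ 0) {A : Matrix (Fin n) (Fin n) F}
    (hA : A * A = c • (1 : Matrix (Fin n) (Fin n) F)) :
    ∃ s : Multiset F[X], A.charpoly = s.prod ∧ ∀ p ∈ s, Irreducible p ∧ p.Monic ∧ p ∣ X ^ 2 - C c := by
  classical
  set f : Module.End F (Fin n → F) := Matrix.toLinAlgEquiv' A with hf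
  have hff : f ^ 2 = c • (1 : Module.End F (Fin n → F)) := by
    rw [hf, ← map_pow, pow_two, hA, map_smul, map_one]
  have hq : 1 < Fintype.card F := Fintype.one_lt_card
  have hN : ((2 * (Fintype.card F - 1) : ℕ) : F) ≠ 0 := by
    rw [Nat.cast_mul, Nat.cast_sub hq.le, FiniteField.cast_card_eq_zero]
    simpa using h2
  have hpow : f ^ (2 * (Fintype.card F - 1)) = 1 := by
    rw [pow_mul, hff, _root_.smul_pow, one_pow, FiniteField.pow_card_sub_one_eq_one c hc, one_smul]
  obtain ⟨ι, _, p, hp, ⟨φ⟩, hcp⟩ := CfsgLib.Lie.GLSemisimple.decomp f hN hpow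
  refine ⟨Finset.univ.val.map p, ?_, fun q hq => ?_⟩
  · rw [← Matrix.charpoly_toLin']
    exact hcp
  obtain ⟨i, -, rfl⟩ := Multiset.mem_map.1 hq
  refine ⟨(hp i).1, (hp i).2, ?_⟩
  have h0 : ∀ y : Module.AEval' f, ((X : F[X]) ^ 2 - C c) • y = 0 := by
    intro y
    obtain ⟨v, rfl⟩ := (Module.AEval'.of f).surjective y
    rw [sub_smul, Module.AEval'.X_pow_smul_of, hff, C_eq_algebraMap, algebraMap_smul, ← map_smul, ← map_sub]
    simp
  obtain ⟨y, hy⟩ := φ.surjective (Pi.single i (Ideal.Quotient.mk _ 1))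
  have h1 := congrArg (fun z => φ z i) (h0 y)
  simp only [map_smul, hy, Pi.smul_apply, Pi.single_eq_same, map_zero, Pi.zero_apply] at h1
  change Ideal.Quotient.mk (F[X] ∙ p i) (((X : F[X]) ^ 2 - C c) * 1) = 0 at h1
  rw [mul_one, Ideal.Quotient.eq_zero_iff_mem] at h1
  exact Ideal.mem_span_singleton.1 h1

theorem charpoly_one (h2 : (2 : F) ≠ 0) {A : Matrix (Fin n) (Fin n) F} (hA : A * A = 1) :
    ∃ a ≤ n, A.charpoly = (X - C (-1 : F)) ^ a * (X - C 1) ^ (n - a) := by
  classical
  obtain ⟨s, hs, hp⟩ := factors_sq h2 (one_ne_zero (α := F)) (hA.trans (one_smul _ _).symm)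
  have hcase : ∀ p ∈ s, p = X - C (-1 : F) ∨ p = X - C 1 := by
    intro p hps
    obtain ⟨hi, hm, hd⟩ := hp p hps
    have : (X : F[X]) ^ 2 - C 1 = (X - C (-1)) * (X - C 1) := by simp only [map_neg, map_one]; ring
    rw [this] at hd
    rcases hi.prime.dvd_or_dvd hd with h | h
    · exact Or.inl (eq_of_monic_of_associated hm (monic_X_sub_C _) (hi.associated_of_dvd (irreducible_X_sub_C _) h))
    · exact Or.inr (eq_of_monic_of_associated hm (monic_X_sub_C _) (hi.associated_of_dvd (irreducible_X_sub_C _) h))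
  refine ⟨s.count (X - C (-1 : F)), ?_⟩
  have hne : (X - C (-1 : F)) ≠ X - C 1 := by
    intro e
    have := congrArg (fun q : F[X] => q.eval 1) e
    simp at this
    exact h2 (by linear_combination this)
  have hsplit : s = Multiset.replicate (s.count (X - C (-1 : F))) (X - C (-1 : F)) +
      Multiset.replicate (s.count (X - C (1 : F))) (X - C 1) := by
    ext q
    rw [Multiset.count_add, Multiset.count_replicate, Multiset.count_replicate]
    by_cases h1 : q = X - C (-1 : F)
    · subst h1; rw [if_pos rfl, if_neg hne.symm, add_zero]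
    by_cases h1' : q = X - C (1 : F)
    · subst h1'; rw [if_neg hne, if_pos rfl, zero_add]
    rw [if_neg (Ne.symm h1), if_neg (Ne.symm h1'), add_zero, Multiset.count_eq_zero]
    exact fun h => (hcase q h).elim h1 h1'
  have hprod : A.charpoly = (X - C (-1 : F)) ^ s.count (X - C (-1 : F)) * (X - C 1) ^ s.count (X - C (1 : F)) := by
    rw [hs]
    conv_lhs => rw [hsplit, Multiset.prod_add, Multiset.prod_replicate, Multiset.prod_replicate]
  have hdeg := congrArg natDegree hprod
  rw [Matrix.charpoly_natDegree_eq_dim, Fintype.card_fin, ((monic_X_sub_C _).pow _).natDegree_mul ((monic_X_sub_C _).pow _),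
    natDegree_pow, natDegree_pow, natDegree_X_sub_C, natDegree_X_sub_C, mul_one, mul_one] at hdeg
  exact ⟨by omega, by rw [hprod, show n - s.count (X - C (-1 : F)) = s.count (X - C (1 : F)) by omega]⟩

theorem charpoly_nonsq (h2 : (2 : F) ≠ 0) {c : F} (hc : ¬ IsSquare c) {A : Matrix (Fin n) (Fin n) F}
    (hA : A * A = c • (1 : Matrix (Fin n) (Fin n) F)) :
    Even n ∧ A.charpoly = (X ^ 2 - C c) ^ (n / 2) := by
  classical
  have hc0 : c ≠ 0 := fun e => hc (e ▸ IsSquare.zero)
  obtain ⟨s, hs, hp⟩ := factors_sq h2 hc0 hA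
  have hirr : Irreducible ((X : F[X]) ^ 2 - C c) := by
    rw [(monic_X_pow_sub_C c two_ne_zero).irreducible_iff_roots_eq_zero_of_degree_le_three (by simp) (by simp),
      Multiset.eq_zero_iff_forall_notMem]
    intro a ha
    simp only [mem_roots', IsRoot.def, eval_sub, eval_pow, eval_X, eval_C, sub_eq_zero] at ha
    exact hc ⟨a, by rw [← ha.2, sq]⟩
  have hall : s = Multiset.replicate s.card (X ^ 2 - C c) := Multiset.eq_replicate_card.2 fun p hps =>
    eq_of_monic_of_associated (hp p hps).2.1 (monic_X_pow_sub_C c two_ne_zero)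
      ((hp p hps).1.associated_of_dvd hirr (hp p hps).2.2)
  have hprod : A.charpoly = (X ^ 2 - C c) ^ s.card := by
    rw [hs]
    conv_lhs => rw [hall, Multiset.prod_replicate]
  have hdeg := congrArg natDegree hprod
  rw [Matrix.charpoly_natDegree_eq_dim, Fintype.card_fin, natDegree_pow, natDegree_X_pow_sub_C] at hdeg
  exact ⟨⟨s.card, by omega⟩, by rw [hprod, show n / 2 = s.card by omega]⟩

/-- The diagonal sign matrix. -/
def D (F : Type*) [Field F] (n a : ℕ) : GL (Fin n) F :=
  ⟨Matrix.diagonal fun i => if i.val < a then -1 else 1, Matrix.diagonal fun i => if i.val < a then -1 else 1,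
    by
      rw [Matrix.diagonal_mul_diagonal, ← Matrix.diagonal_one]
      congr 1; funext i; split <;> simp,
    by
      rw [Matrix.diagonal_mul_diagonal, ← Matrix.diagonal_one]
      congr 1; funext i; split <;> simp⟩

theorem D_val (a : ℕ) : (D F n a : Matrix (Fin n) (Fin n) F) = Matrix.diagonal fun i => if i.val < a then -1 else 1 := rfl

theorem D_sq (a : ℕ) : (D F n a : Matrix (Fin n) (Fin n) F) * D F n a = 1 := (D F n a).3

theorem D_charpoly {a : ℕ} (ha : a ≤ n) :
    (D F n a : Matrix (Fin n) (Fin n) F).charpoly = (X - C (-1 : F)) ^ a * (X - C 1) ^ (n - a) := by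
  classical
  rw [D_val, Matrix.charpoly_diagonal]
  simp only [apply_ite C, apply_ite (HSub.hSub (X : F[X]))]
  rw [Finset.prod_ite, Finset.prod_const, Finset.prod_const, Fin.card_filter_val_lt, min_eq_right ha]
  congr 2
  have := Finset.card_filter_add_card_filter_not (s := (Finset.univ : Finset (Fin n))) (fun i : Fin n => i.val < a)
  rw [Fin.card_filter_val_lt, Finset.card_univ, Fintype.card_fin, min_eq_right ha] at this
  omega

theorem conj_of_charpoly (h2 : (2 : F) ≠ 0) {c : F} (hc : c ≠ 0) (g h : GL (Fin n) F)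
    (hg : (g : Matrix (Fin n) (Fin n) F) * g = c • (1 : Matrix (Fin n) (Fin n) F))
    (hh : (h : Matrix (Fin n) (Fin n) F) * h = c • (1 : Matrix (Fin n) (Fin n) F))
    (e : (g : Matrix (Fin n) (Fin n) F).charpoly = (h : Matrix (Fin n) (Fin n) F).charpoly) : IsConj g h := by
  classical
  have hq : 1 < Fintype.card F := Fintype.one_lt_card
  have hN : ((2 * (Fintype.card F - 1) : ℕ) : F) ≠ 0 := by
    rw [Nat.cast_mul, Nat.cast_sub hq.le, FiniteField.cast_card_eq_zero]
    simpa using h2
  have hpow : ∀ A : Matrix (Fin n) (Fin n) F, A * A = c • (1 : Matrix (Fin n) (Fin n) F) →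
      (Matrix.toLinAlgEquiv' A) ^ (2 * (Fintype.card F - 1)) = 1 := by
    intro A hA
    rw [← map_pow, pow_mul, pow_two, hA, _root_.smul_pow, one_pow, FiniteField.pow_card_sub_one_eq_one c hc, one_smul, map_one]
  obtain ⟨P, hP⟩ := CfsgLib.Lie.GLSemisimple.exists_conj (Matrix.toLinAlgEquiv' (g : Matrix (Fin n) (Fin n) F))
    (Matrix.toLinAlgEquiv' (h : Matrix (Fin n) (Fin n) F)) hN hN (hpow _ hg) (hpow _ hh) (by
      show (Matrix.toLin' (g : Matrix (Fin n) (Fin n) F)).charpoly = (Matrix.toLin' (h : Matrix (Fin n) (Fin n) F)).charpoly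
      rw [Matrix.charpoly_toLin', Matrix.charpoly_toLin', e])
  have hdet : (LinearMap.toMatrix' P.toLinearMap).det ≠ 0 := by
    rw [LinearMap.det_toMatrix']
    exact (LinearEquiv.isUnit_det' P).ne_zero
  refine isConj_iff.2 ⟨Matrix.GeneralLinearGroup.mkOfDetNeZero _ hdet, ?_⟩
  rw [mul_inv_eq_iff_eq_mul]
  apply Units.ext
  rw [Units.val_mul, Units.val_mul]
  apply Matrix.toLin'.injective
  show Matrix.toLin' (LinearMap.toMatrix' P.toLinearMap * _) = Matrix.toLin' (_ * LinearMap.toMatrix' P.toLinearMap)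
  rw [Matrix.toLin'_mul, Matrix.toLin'_mul, Matrix.toLin'_toMatrix']
  exact LinearMap.ext hP

/-- The scalar element. -/
noncomputable def sc (n : ℕ) (b : Fˣ) : GL (Fin n) F := Units.map (Matrix.scalar (Fin n)).toMonoidHom b

theorem sc_val (b : Fˣ) : (sc n b : Matrix (Fin n) (Fin n) F) = (b : F) • (1 : Matrix (Fin n) (Fin n) F) := by
  simp [sc, Matrix.smul_one_eq_diagonal]

theorem mem_center {g : GL (Fin n) F} :
    g ∈ Subgroup.center (GL (Fin n) F) ↔ ∃ b : Fˣ, g = sc n b := by
  rw [Matrix.GeneralLinearGroup.center_eq_range_scalar, MonoidHom.mem_range]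
  exact ⟨fun ⟨b, hb⟩ => ⟨b, hb.symm⟩, fun ⟨b, hb⟩ => ⟨b, hb.symm⟩⟩

theorem mk_sc_mul (b : Fˣ) (g : GL (Fin n) F) :
    (QuotientGroup.mk' (Subgroup.center (GL (Fin n) F))) (sc n b * g) = QuotientGroup.mk' _ g := by
  rw [map_mul, (QuotientGroup.eq_one_iff _).2 (mem_center.2 ⟨b, rfl⟩) |> fun h => (show QuotientGroup.mk' (Subgroup.center (GL (Fin n) F)) (sc n b) = 1 from h), one_mul]

theorem sc_mul_val (b : Fˣ) (g : GL (Fin n) F) :
    ((sc n b * g : GL (Fin n) F) : Matrix (Fin n) (Fin n) F) = (b : F) • (g : Matrix (Fin n) (Fin n) F) := by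
  rw [Units.val_mul, sc_val, smul_mul_assoc, one_mul]

/-- The pairing of consecutive indices. -/
def swapIdx (hn : Even n) (i : Fin n) : Fin n :=
  if h : i.val % 2 = 0 then ⟨i.val + 1, by obtain ⟨r, rfl⟩ := hn; have := i.isLt; omega⟩ else ⟨i.val - 1, by omega⟩

/-- The block matrix. -/
def B (hn : Even n) (c : F) : Matrix (Fin n) (Fin n) F :=
  Matrix.of fun i j => if j = swapIdx hn i then (if i.val % 2 = 0 then 1 else c) else 0

theorem swap_val (hn : Even n) (i : Fin n) :
    (swapIdx hn i).val = if i.val % 2 = 0 then i.val + 1 else i.val - 1 := by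
  unfold swapIdx
  split <;> rfl

theorem B_sq (hn : Even n) (c : F) : B hn c * B hn c = c • (1 : Matrix (Fin n) (Fin n) F) := by
  classical
  ext i k
  rw [Matrix.mul_apply, Matrix.smul_apply, Matrix.one_apply]
  simp only [B, Matrix.of_apply, ite_mul, zero_mul, Finset.sum_ite_eq', Finset.mem_univ, if_true]
  have h1 : swapIdx hn (swapIdx hn i) = i := by
    apply Fin.ext
    rw [swap_val, swap_val]
    split_ifs <;> omega
  have h2 : (swapIdx hn i).val % 2 = 0 ↔ ¬ i.val % 2 = 0 := by
    rw [swap_val]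
    split_ifs <;> omega
  rw [h1]
  by_cases hi : i.val % 2 = 0 <;> by_cases hk : k = i <;> simp [hi, h2, hk, Ne.symm, eq_comm]

end

/-- Number of conjugacy classes of involutions in PGL_n(q) for q odd and n ≥ 2: there are ⌊n/2⌋ classes represented by diagonal matrices with i entries −1 (1 ≤ i ≤ n/2) and, when n is even, one more class represented by a block-diagonal matrix of 2 × 2 blocks [[0, 1], [μ, 0]] with μ a non-square (a matrix squaring to a scalar but having no eigenvalue in the field); in all ⌊n/2⌋ + 1 classes if n is even and ⌊n/2⌋ if n is odd. -/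
theorem result {F : Type*} [Field F] [Fintype F] {q : ℕ} (hF : Fintype.card F = q) (hq : Odd q) {n : ℕ} (hn : 2 ≤ n) : Nat.card {C : ConjClasses (GL (Fin n) F ⧸ Subgroup.center (GL (Fin n) F)) // ∃ g : GL (Fin n) F ⧸ Subgroup.center (GL (Fin n) F), ConjClasses.mk g = C ∧ orderOf g = 2} = n / 2 + (if Even n then 1 else 0) := by
  classical
  open Polynomial in
  have h2 : (2 : F) ≠ 0 := Ring.two_ne_zero fun h => by
    have := FiniteField.even_card_iff_char_two.1 h
    rw [hF] at this
    exact absurd hq (Nat.not_odd_iff.2 this)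
  obtain ⟨μ, hμ⟩ := FiniteField.exists_nonsquare (F := F) (fun h => by
    have := FiniteField.even_card_iff_char_two.1 h
    rw [hF] at this
    exact absurd hq (Nat.not_odd_iff.2 this))
  have hμ0 : μ ≠ 0 := fun e => hμ (e ▸ IsSquare.zero)
  set mk := QuotientGroup.mk' (Subgroup.center (GL (Fin n) F)) with hmk
  have hBdet : ∀ h : Even n, (B h μ).det ≠ 0 := fun h e => by
    have := congrArg Matrix.det (B_sq h μ)
    rw [Matrix.det_mul, e, mul_zero, Matrix.det_smul, Matrix.det_one, mul_one] at this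
    exact pow_ne_zero _ hμ0 this.symm
  let rep : {a : ℕ // a ∈ Finset.Icc 1 (n / 2)} ⊕ {_u : Unit // Even n} → GL (Fin n) F :=
    Sum.elim (fun a => D F n a.1) (fun u => Matrix.GeneralLinearGroup.mkOfDetNeZero _ (hBdet u.2))
  have hrepsq : ∀ i, ∃ c : F, c ≠ 0 ∧ ((rep i : Matrix (Fin n) (Fin n) F) * rep i = c • 1) ∧
      (Sum.isRight i = true → c = μ) ∧ (Sum.isRight i = false → c = 1) := by
    rintro (a | u)
    · exact ⟨1, one_ne_zero, by rw [one_smul]; exact D_sq a.1, by simp, fun _ => rfl⟩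
    · exact ⟨μ, hμ0, B_sq u.2 μ, fun _ => rfl, by simp⟩
  have hnsc : ∀ i, rep i ∉ Subgroup.center (GL (Fin n) F) := by
    intro i hi
    obtain ⟨b, hb⟩ := mem_center.1 hi
    have hv : (rep i : Matrix (Fin n) (Fin n) F) = (b : F) • (1 : Matrix (Fin n) (Fin n) F) := by rw [hb, sc_val]
    rcases i with a | u
    · have ha := Finset.mem_Icc.1 a.2
      have h0 := congrFun (congrFun hv ⟨0, by omega⟩) ⟨0, by omega⟩
      have h1 := congrFun (congrFun hv ⟨n - 1, by omega⟩) ⟨n - 1, by omega⟩
      simp [rep, D_val, show 0 < a.1 by omega, show ¬ n - 1 < a.1 by omega] at h0 h1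
      exact h2 (by linear_combination h1 - h0)
    · have hne : (⟨0, by omega⟩ : Fin n) ≠ ⟨1, by omega⟩ := by simp
      have h01 := congrFun (congrFun hv ⟨0, by omega⟩) ⟨1, by omega⟩
      simp [rep, B, swapIdx, hne] at h01
  have hord : ∀ i, orderOf (mk (rep i)) = 2 := by
    intro i
    obtain ⟨c, hc, hsq, -, -⟩ := hrepsq i
    refine orderOf_eq_prime ?_ fun e => hnsc i ((QuotientGroup.eq_one_iff _).1 e)
    have e : rep i * rep i = sc n (Units.mk0 c hc) := Units.ext (by rw [Units.val_mul, hsq, sc_val, Units.val_mk0])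
    rw [pow_two, ← map_mul, e]
    exact (QuotientGroup.eq_one_iff _).2 (mem_center.2 ⟨_, rfl⟩)
  let f : {a : ℕ // a ∈ Finset.Icc 1 (n / 2)} ⊕ {_u : Unit // Even n} →
      {C : ConjClasses (GL (Fin n) F ⧸ Subgroup.center (GL (Fin n) F)) // ∃ g : GL (Fin n) F ⧸ Subgroup.center (GL (Fin n) F), ConjClasses.mk g = C ∧ orderOf g = 2} :=
    fun i => ⟨ConjClasses.mk (mk (rep i)), _, rfl, hord i⟩
  have hconj : ∀ g h : GL (Fin n) F, IsConj (mk g) (mk h) → ∃ b : Fˣ, IsConj g (sc n b * h) := by
    intro g h e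
    obtain ⟨x, hx⟩ := isConj_iff.1 e
    obtain ⟨x, rfl⟩ := QuotientGroup.mk'_surjective _ x
    rw [hmk, ← map_inv, ← map_mul, ← map_mul] at hx
    have hx' : x * g * x⁻¹ * h⁻¹ ∈ Subgroup.center (GL (Fin n) F) := by
      refine (QuotientGroup.eq_one_iff _).1 ?_
      show QuotientGroup.mk' _ _ = 1
      rw [map_mul, hx, ← map_mul, mul_inv_cancel, map_one]
    obtain ⟨b, hb⟩ := mem_center.1 hx'
    exact ⟨b, isConj_iff.2 ⟨x, by rw [← hb]; group⟩⟩
  have hchar : ∀ g h : GL (Fin n) F, IsConj g h →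
      (g : Matrix (Fin n) (Fin n) F).charpoly = (h : Matrix (Fin n) (Fin n) F).charpoly := by
    intro g h e
    obtain ⟨x, rfl⟩ := isConj_iff.1 e
    rw [Units.val_mul, Units.val_mul, ← Matrix.charpoly_units_conj x (g : Matrix (Fin n) (Fin n) F), Matrix.coe_units_inv]
  have hsqconj : ∀ (g h : GL (Fin n) F) (b : Fˣ) (c d : F), IsConj g (sc n b * h) →
      (g : Matrix (Fin n) (Fin n) F) * g = c • (1 : Matrix (Fin n) (Fin n) F) →
      (h : Matrix (Fin n) (Fin n) F) * h = d • (1 : Matrix (Fin n) (Fin n) F) → c = (b : F) * b * d := by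
    intro g h b c d e hg hh
    obtain ⟨x, hx⟩ := isConj_iff.1 e
    have hv := congrArg (fun u : GL (Fin n) F => (u : Matrix (Fin n) (Fin n) F)) (show x * (g * g) * x⁻¹ = sc n b * h * (sc n b * h) by rw [← hx]; group)
    simp only [Units.val_mul, sc_val, smul_mul_assoc, mul_smul_comm, one_mul, hg, hh, smul_smul, mul_one] at hv
    rw [Matrix.GeneralLinearGroup.coe_inv] at hv
    rw [Matrix.mul_nonsing_inv _ ((Matrix.isUnit_iff_isUnit_det _).1 x.isUnit)] at hv
    have := congrFun (congrFun hv ⟨0, by omega⟩) ⟨0, by omega⟩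
    simpa [mul_assoc] using this
  have hinj : Function.Injective f := by
    intro i j e
    have e' := congrArg Subtype.val e
    obtain ⟨b, hb⟩ := hconj _ _ (ConjClasses.mk_eq_mk_iff_isConj.1 e')
    rcases i with a | u <;> rcases j with a' | u'
    · have ha := Finset.mem_Icc.1 a.2
      have ha' := Finset.mem_Icc.1 a'.2
      have hbb := hsqconj _ _ b 1 1 hb (by rw [one_smul]; exact D_sq a.1) (by rw [one_smul]; exact D_sq a'.1)
      rw [mul_one] at hbb
      have hp := hchar _ _ hb
      rw [sc_mul_val] at hp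
      simp only [rep, Sum.elim_inl] at hp
      rw [D_charpoly (show a.1 ≤ n by omega)] at hp
      have hm1 : (-1 : F) ≠ 1 := fun h => h2 (by linear_combination -h)
      open Polynomial in
      have hroot : ∀ k l : ℕ, ((X - C (-1 : F)) ^ k * (X - C 1) ^ l).rootMultiplicity (-1) = k := by
        intro k l
        rw [rootMultiplicity_mul (mul_ne_zero (pow_ne_zero _ (X_sub_C_ne_zero _)) (pow_ne_zero _ (X_sub_C_ne_zero _))),
          rootMultiplicity_X_sub_C_pow, rootMultiplicity_eq_zero (by simp [sub_eq_zero, hm1]), add_zero]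
      rcases mul_self_eq_one_iff.1 hbb.symm with h | h
      · rw [h, one_smul, D_charpoly (show a'.1 ≤ n by omega)] at hp
        have := congrArg (Polynomial.rootMultiplicity (-1 : F)) hp
        rw [hroot, hroot] at this
        exact congrArg Sum.inl (Subtype.ext this)
      · rw [h, D_val, ← Matrix.diagonal_smul, Matrix.charpoly_diagonal] at hp
        simp only [Pi.smul_apply, smul_eq_mul, mul_ite, mul_neg, mul_one, neg_neg, apply_ite Polynomial.C,
          apply_ite (HSub.hSub (Polynomial.X : Polynomial F))] at hp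
        rw [Finset.prod_ite, Finset.prod_const, Finset.prod_const, Fin.card_filter_val_lt, min_eq_right (by omega)] at hp
        have hcnt := Finset.card_filter_add_card_filter_not (s := (Finset.univ : Finset (Fin n))) (fun i : Fin n => i.val < a'.1)
        rw [Fin.card_filter_val_lt, Finset.card_univ, Fintype.card_fin, min_eq_right (by omega)] at hcnt
        have := congrArg (Polynomial.rootMultiplicity (-1 : F)) hp
        rw [hroot, mul_comm, hroot] at this
        exact congrArg Sum.inl (Subtype.ext (by omega))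
    · exfalso
      have := hsqconj _ _ b 1 μ hb (by rw [one_smul]; exact D_sq a.1) (B_sq u'.2 μ)
      exact hμ ⟨(b : F)⁻¹, by field_simp; linear_combination -this⟩
    · exfalso
      have := hsqconj _ _ b μ 1 hb (B_sq u.2 μ) (by rw [one_smul]; exact D_sq a'.1)
      exact hμ ⟨b, by rw [this, mul_one]⟩
    · exact congrArg Sum.inr (Subtype.ext (Subsingleton.elim _ _))
  have hsurj : Function.Surjective f := by
    rintro ⟨C, g, hC, hg⟩
    obtain ⟨g, rfl⟩ := QuotientGroup.mk'_surjective _ g
    subst hC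
    have hg2 : g * g ∈ Subgroup.center (GL (Fin n) F) := by
      refine (QuotientGroup.eq_one_iff _).1 ?_
      show QuotientGroup.mk' _ _ = 1
      rw [map_mul, ← pow_two]
      exact (congrArg (_ ^ ·) hg.symm).trans (pow_orderOf_eq_one _)
    have hg1 : g ∉ Subgroup.center (GL (Fin n) F) := by
      intro h
      rw [show QuotientGroup.mk' (Subgroup.center (GL (Fin n) F)) g = 1 from (QuotientGroup.eq_one_iff _).2 h, orderOf_one] at hg
      omega
    obtain ⟨c, hc⟩ := mem_center.1 hg2
    have hgv : (g : Matrix (Fin n) (Fin n) F) * g = (c : F) • (1 : Matrix (Fin n) (Fin n) F) := by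
      rw [← Units.val_mul, hc, sc_val]
    have hdone : ∀ (i) (b : Fˣ), IsConj (sc n b * g) (rep i) → ∃ i, f i = ⟨ConjClasses.mk (mk g), mk g, rfl, hg⟩ := by
      intro i b h
      refine ⟨i, Subtype.ext (ConjClasses.mk_eq_mk_iff_isConj.2 ?_)⟩
      have := (MonoidHom.map_isConj mk h).symm
      rwa [hmk, mk_sc_mul] at this
    by_cases hsq : IsSquare (c : F)
    · obtain ⟨r, hr⟩ := hsq
      have hr0 : r ≠ 0 := by rintro rfl; exact c.ne_zero (by simpa using hr)
      let b : Fˣ := (Units.mk0 r hr0)⁻¹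
      have hone : ((sc n b * g : GL (Fin n) F) : Matrix (Fin n) (Fin n) F) * (sc n b * g : GL (Fin n) F) = 1 := by
        rw [sc_mul_val, smul_mul_assoc, mul_smul_comm, hgv, smul_smul, smul_smul, hr]
        simp [b, hr0, mul_assoc]
      obtain ⟨a, han, hcp⟩ := charpoly_one h2 hone
      have hcon : IsConj (sc n b * g) (D F n a) := conj_of_charpoly h2 one_ne_zero _ _
        (by rw [one_smul]; exact hone) (by rw [one_smul]; exact D_sq a) (by rw [hcp, D_charpoly han])
      have hdeg : ∀ d : Fˣ, D F n a ≠ sc n d := by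
        intro d e
        rw [e, isConj_comm, isConj_iff] at hcon
        obtain ⟨x, hx⟩ := hcon
        rw [show x * sc n d * x⁻¹ = sc n d by
          rw [Subgroup.mem_center_iff.1 (mem_center.2 ⟨d, rfl⟩) x, mul_inv_cancel_right]] at hx
        refine hg1 (mem_center.2 ⟨b⁻¹ * d, ?_⟩)
        rw [sc, map_mul, map_inv]
        exact (eq_inv_mul_of_mul_eq hx.symm)
      have ha1 : 1 ≤ a := Nat.pos_of_ne_zero fun e => hdeg 1 (Units.ext (by
        subst e; rw [D_val, sc_val]; simp [Matrix.smul_one_eq_diagonal]))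
      have ha2 : a < n := lt_of_le_of_ne han fun e => hdeg (-1) (Units.ext (by
        subst e; rw [D_val, sc_val, Matrix.smul_one_eq_diagonal]
        congr 1; funext i; simp [i.isLt]))
      by_cases hle : a ≤ n / 2
      · exact hdone (Sum.inl ⟨a, Finset.mem_Icc.2 ⟨ha1, hle⟩⟩) b hcon
      · have hone' : ((sc n (-1 : Fˣ) * (sc n b * g) : GL (Fin n) F) : Matrix (Fin n) (Fin n) F) *
            (sc n (-1 : Fˣ) * (sc n b * g) : GL (Fin n) F) = (1 : F) • (1 : Matrix (Fin n) (Fin n) F) := by
          rw [sc_mul_val, smul_mul_assoc, mul_smul_comm, hone, smul_smul]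
          simp
        refine hdone (Sum.inl ⟨n - a, Finset.mem_Icc.2 ⟨by omega, by omega⟩⟩) (-1 * b) ?_
        rw [show sc n (-1 * b) * g = sc n (-1 : Fˣ) * (sc n b * g) by rw [← mul_assoc]; congr 1; exact map_mul _ _ _]
        refine conj_of_charpoly h2 one_ne_zero _ _ hone' (by rw [one_smul]; exact D_sq _) ?_
        have hcon' : IsConj (sc n (-1 : Fˣ) * (sc n b * g)) (sc n (-1 : Fˣ) * D F n a) := by
          obtain ⟨x, hx⟩ := isConj_iff.1 hcon
          refine isConj_iff.2 ⟨x, ?_⟩
          rw [← hx, ← mul_assoc x, Subgroup.mem_center_iff.1 (mem_center.2 ⟨-1, rfl⟩) x]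
          group
        rw [hchar _ _ hcon', sc_mul_val]
        show _ = (D F n (n - a) : Matrix (Fin n) (Fin n) F).charpoly
        rw [D_charpoly (by omega), D_val, ← Matrix.diagonal_smul, Matrix.charpoly_diagonal]
        simp only [Pi.smul_apply, smul_eq_mul, Units.val_neg, Units.val_one, mul_ite, mul_neg, mul_one, neg_neg,
          apply_ite Polynomial.C, apply_ite (HSub.hSub (Polynomial.X : Polynomial F))]
        rw [Finset.prod_ite, Finset.prod_const, Finset.prod_const, Fin.card_filter_val_lt, min_eq_right han]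
        have hcnt := Finset.card_filter_add_card_filter_not (s := (Finset.univ : Finset (Fin n))) (fun i : Fin n => i.val < a)
        rw [Fin.card_filter_val_lt, Finset.card_univ, Fintype.card_fin, min_eq_right han] at hcnt
        rw [mul_comm, show n - (n - a) = a by omega]
        congr 2
        omega
    · have hq' : IsSquare (μ / (c : F)) := by
        have h1 := quadraticChar_neg_one_iff_not_isSquare.2 hμ
        have h2' := quadraticChar_neg_one_iff_not_isSquare.2 hsq
        refine (quadraticChar_one_iff_isSquare (div_ne_zero hμ0 c.ne_zero)).1 ?_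
        have h3 : quadraticChar F (μ / c) * quadraticChar F (c : F) = quadraticChar F μ := by
          rw [← map_mul, div_mul_cancel₀ _ c.ne_zero]
        rw [h1, h2'] at h3
        linarith
      obtain ⟨r, hr⟩ := hq'
      have hr0 : r ≠ 0 := by rintro rfl; simp [hμ0] at hr
      let b : Fˣ := Units.mk0 r hr0
      have hone : ((sc n b * g : GL (Fin n) F) : Matrix (Fin n) (Fin n) F) * (sc n b * g : GL (Fin n) F) =
          μ • (1 : Matrix (Fin n) (Fin n) F) := by
        rw [sc_mul_val, smul_mul_assoc, mul_smul_comm, hgv, smul_smul, smul_smul]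
        congr 1
        show r * r * (c : F) = μ
        rw [← hr, div_mul_cancel₀ _ c.ne_zero]
      obtain ⟨hev, hcp⟩ := charpoly_nonsq h2 hμ hone
      refine hdone (Sum.inr ⟨(), hev⟩) b (conj_of_charpoly h2 hμ0 _ _ hone (B_sq hev μ) ?_)
      rw [hcp]
      exact (charpoly_nonsq h2 hμ (B_sq hev μ)).2.symm
  rw [← Nat.card_eq_of_bijective f ⟨hinj, hsurj⟩, Nat.card_sum, Nat.card_eq_fintype_card, Fintype.card_coe,
    Nat.card_Icc, Nat.add_sub_cancel]
  congr 1
  split_ifs with h
  · rw [Nat.card_eq_one_iff_unique]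
    exact ⟨⟨fun x y => Subtype.ext rfl⟩, ⟨⟨(), h⟩⟩⟩
  · haveI : IsEmpty {_u : Unit // Even n} := ⟨fun u => h u.2⟩
    exact Nat.card_of_isEmpty

end Cfsg.Agent.S2577
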