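import Cfsg.Statements.S2578
import Cfsg.Agent.Lib.ClassicalRegUnip

set_option autoImplicit false
open Cfsg

namespace Cfsg.Agent.S2578

/-- Regular unipotent classes of SL_n(q): for n ≥ 2 over the field with q elements, the matrices u of determinant one with (u − 1)^n = 0 and rank(u − 1) = n − 1 form a single GL_n(q)-class which splits into exactly gcd(n, q − 1) conjugacy classes of SL_n(q). -/
theorem result {F : Type*} [Field F] [Fintype F] {q : ℕ} (hF : Fintype.card F = q) {n : ℕ} (hn : 2 ≤ n) : Nat.card {C : ConjClasses (Matrix.SpecialLinearGroup (Fin n) F) // ∃ u : Matrix.SpecialLinearGroup (Fin n) F, ConjClasses.mk u = C ∧ ((u : Matrix (Fin n) (Fin n) F) - 1) ^ n = 0 ∧ ((u : Matrix (Fin n) (Fin n) F) - 1).rank = n - 1} = Nat.gcd n (q - 1) := by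
  classical
  have hn1 : 1 ≤ n := by omega
  let P : Matrix (Fin n) (Fin n) F → Prop := fun M => (M - 1) ^ n = 0 ∧ (M - 1).rank = n - 1
  set U0 : Matrix (Fin n) (Fin n) F := 1 + CfsgLib.RegUnip.upShift n F with hU0
  have hP0 : P U0 := by
    refine ⟨?_, ?_⟩ <;> rw [hU0, add_sub_cancel_left]
    · exact CfsgLib.RegUnip.upShift_pow
    · exact CfsgLib.RegUnip.upShift_rank
  have hdet0 : U0.det = 1 := by
    have := CfsgLib.RegUnip.det_scalar_add_nil (1 : F) (CfsgLib.RegUnip.upShift_pow (n := n))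
    rwa [map_one, one_pow] at this
  have hconjP : ∀ (g : GL (Fin n) F), P ((g : Matrix (Fin n) (Fin n) F) * U0 * ((g⁻¹ : GL (Fin n) F) : Matrix (Fin n) (Fin n) F)) := by
    intro g
    have hgi : ((g : Matrix (Fin n) (Fin n) F)) * ((g⁻¹ : GL (Fin n) F) : Matrix (Fin n) (Fin n) F) = 1 := Units.mul_inv g
    have hsub : (g : Matrix (Fin n) (Fin n) F) * U0 * ((g⁻¹ : GL (Fin n) F) : Matrix (Fin n) (Fin n) F) - 1 = (g : Matrix (Fin n) (Fin n) F) * (U0 - 1) * ((g⁻¹ : GL (Fin n) F) : Matrix (Fin n) (Fin n) F) := by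
      rw [mul_sub, sub_mul, mul_one, hgi]
    refine ⟨?_, ?_⟩ <;> rw [hsub]
    · rw [Units.conj_pow, hP0.1, mul_zero, zero_mul]
    · rw [Matrix.rank_mul_eq_left_of_isUnit_det _ _ (Matrix.isUnits_det_units (g⁻¹)), Matrix.rank_mul_eq_right_of_isUnit_det _ _ (Matrix.isUnits_det_units g), hP0.2]
  let D : Fˣ → GL (Fin n) F := fun d =>
    Matrix.GeneralLinearGroup.mkOfDetNeZero (Matrix.diagonal (fun i : Fin n => if (i : ℕ) = 0 then (d : F) else 1)) (by
      rw [Matrix.det_diagonal, Finset.prod_eq_single ⟨0, by omega⟩]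
      · simp
      · intro i _ hi
        rw [if_neg (fun e => hi (Fin.ext e))]
      · simp)
  have hD : ∀ d, ((D d : GL (Fin n) F) : Matrix (Fin n) (Fin n) F).det = (d : F) := by
    intro d
    show (Matrix.diagonal _).det = _
    rw [Matrix.det_diagonal, Finset.prod_eq_single ⟨0, by omega⟩]
    · simp
    · intro i _ hi
      rw [if_neg (fun e => hi (Fin.ext e))]
    · simp
  let rep : Fˣ → Matrix.SpecialLinearGroup (Fin n) F := fun d =>
    ⟨((D d : GL (Fin n) F) : Matrix (Fin n) (Fin n) F) * U0 * (((D d)⁻¹ : GL (Fin n) F) : Matrix (Fin n) (Fin n) F), by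
      rw [Matrix.det_mul, Matrix.det_mul, hdet0, mul_one, ← Matrix.det_mul, Units.mul_inv, Matrix.det_one]⟩
  let X := {C : ConjClasses (Matrix.SpecialLinearGroup (Fin n) F) // ∃ u : Matrix.SpecialLinearGroup (Fin n) F, ConjClasses.mk u = C ∧ ((u : Matrix (Fin n) (Fin n) F) - 1) ^ n = 0 ∧ ((u : Matrix (Fin n) (Fin n) F) - 1).rank = n - 1}
  let H : Subgroup Fˣ := (powMonoidHom n : Fˣ →* Fˣ).range
  let f0 : Fˣ → X := fun d => ⟨ConjClasses.mk (rep d), rep d, rfl, hconjP (D d)⟩
  have hiff : ∀ d d' : Fˣ, f0 d = f0 d' ↔ d⁻¹ * d' ∈ H := by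
    intro d d'
    constructor
    · intro e
      obtain ⟨h, hh⟩ := isConj_iff.1 (ConjClasses.mk_eq_mk_iff_isConj.1 (congrArg Subtype.val e))
      have h1 : (h : Matrix (Fin n) (Fin n) F) * (rep d : Matrix (Fin n) (Fin n) F) = (rep d' : Matrix (Fin n) (Fin n) F) * (h : Matrix (Fin n) (Fin n) F) := by
        have h2 : h * rep d = rep d' * h := by rw [← hh]; group
        exact congrArg Subtype.val h2
      obtain ⟨c, hc⟩ := CfsgLib.RegUnip.det_eq_pow (U := U0) (g := (((D d')⁻¹ : GL (Fin n) F) : Matrix (Fin n) (Fin n) F) * (h : Matrix (Fin n) (Fin n) F) * ((D d : GL (Fin n) F) : Matrix (Fin n) (Fin n) F)) hn1 hP0.1 hP0.2 (by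
        calc _ = (((D d')⁻¹ : GL (Fin n) F) : Matrix (Fin n) (Fin n) F) * ((h : Matrix (Fin n) (Fin n) F) * (rep d : Matrix (Fin n) (Fin n) F)) * ((D d : GL (Fin n) F) : Matrix (Fin n) (Fin n) F) := by
              show _ = _ * (_ * (((D d : GL (Fin n) F) : Matrix (Fin n) (Fin n) F) * U0 * _)) * _
              simp only [mul_assoc]
              rw [← Units.val_mul, inv_mul_cancel, Units.val_one, mul_one]
          _ = _ := by
              rw [h1]
              show _ * ((((D d' : GL (Fin n) F) : Matrix (Fin n) (Fin n) F) * U0 * _) * _) * _ = _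
              simp only [← mul_assoc]
              rw [← Units.val_mul, inv_mul_cancel, Units.val_one, one_mul])
      have hdi : ((((D d')⁻¹ : GL (Fin n) F) : Matrix (Fin n) (Fin n) F)).det = ((d'⁻¹ : Fˣ) : F) := by
        have h3 := congrArg Matrix.det (Units.mul_inv (D d'))
        rw [Matrix.det_mul, hD, Matrix.det_one] at h3
        rw [Units.val_inv_eq_inv_val]
        exact eq_inv_of_mul_eq_one_right h3
      rw [Matrix.det_mul, Matrix.det_mul, hdi, hD, show (h : Matrix (Fin n) (Fin n) F).det = 1 from h.2, mul_one] at hc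
      have hc0 : c ≠ 0 := by
        intro h0
        rw [h0, zero_pow (by omega)] at hc
        exact (mul_ne_zero (Units.ne_zero _) (Units.ne_zero _)) hc
      refine ⟨(Units.mk0 c hc0)⁻¹, ?_⟩
      apply inv_injective
      rw [powMonoidHom_apply, inv_pow, inv_inv, mul_inv_rev, inv_inv]
      exact Units.ext (by simpa using hc.symm)
    · rintro ⟨c, hc⟩
      rw [powMonoidHom_apply] at hc
      refine Subtype.ext (ConjClasses.mk_eq_mk_iff_isConj.2 (isConj_iff.2 ?_))
      let S : GL (Fin n) F := Matrix.GeneralLinearGroup.mkOfDetNeZero (Matrix.scalar (Fin n) ((c⁻¹ : Fˣ) : F)) (by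
        simp [Matrix.scalar_apply, Matrix.det_diagonal])
      set G : GL (Fin n) F := D d' * S * (D d)⁻¹ with hG
      have hdetG : ((G : GL (Fin n) F) : Matrix (Fin n) (Fin n) F).det = 1 := by
        have h3 := congrArg Matrix.det (Units.mul_inv (D d))
        rw [Matrix.det_mul, hD, Matrix.det_one] at h3
        rw [hG, Units.val_mul, Units.val_mul, Matrix.det_mul, Matrix.det_mul, hD, eq_inv_of_mul_eq_one_right h3,
          show ((S : GL (Fin n) F) : Matrix (Fin n) (Fin n) F).det = ((c⁻¹ : Fˣ) : F) ^ n by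
            show (Matrix.scalar (Fin n) _).det = _
            simp [Matrix.scalar_apply, Matrix.det_diagonal]]
        have hd' : d' = d * c ^ n := by rw [hc, mul_inv_cancel_left]
        rw [hd']
        push_cast
        field_simp
        rw [← mul_pow, mul_one_div, div_self (Units.ne_zero c), one_pow]
      refine ⟨⟨_, hdetG⟩, ?_⟩
      refine mul_inv_eq_iff_eq_mul.2 (Subtype.ext ?_)
      have hS : ∀ M : Matrix (Fin n) (Fin n) F, ((S : GL (Fin n) F) : Matrix (Fin n) (Fin n) F) * M = M * ((S : GL (Fin n) F) : Matrix (Fin n) (Fin n) F) :=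
        fun M => (Matrix.scalar_commute _ (fun r => Commute.all _ _) M).eq
      show ((G : GL (Fin n) F) : Matrix (Fin n) (Fin n) F) * (rep d : Matrix (Fin n) (Fin n) F) = (rep d' : Matrix (Fin n) (Fin n) F) * ((G : GL (Fin n) F) : Matrix (Fin n) (Fin n) F)
      simp only [rep, hG, Units.val_mul, mul_assoc, Units.inv_mul_cancel_left]
      rw [← mul_assoc ((S : GL (Fin n) F) : Matrix (Fin n) (Fin n) F) U0, hS U0, mul_assoc]
  let f : Fˣ ⧸ H → X := Quotient.lift f0 (fun a b h => (hiff a b).2 (QuotientGroup.leftRel_apply.1 h))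
  have hf : Function.Bijective f := by
    constructor
    · rintro ⟨a⟩ ⟨b⟩ h
      exact QuotientGroup.eq.2 ((hiff a b).1 h)
    · rintro ⟨C, u, rfl, h1, h2⟩
      obtain ⟨v, hv⟩ := (CfsgLib.RegUnip.isReg_toEnd hP0.1 hP0.2).exists_cyclic hn1
      obtain ⟨v', hv'⟩ := (CfsgLib.RegUnip.isReg_toEnd h1 h2).exists_cyclic hn1
      obtain ⟨g, hg, -⟩ := CfsgLib.RegUnip.exists_conj hP0.1 hP0.2 h1 h2 hv hv'
      set d := Matrix.GeneralLinearGroup.det g with hd
      refine ⟨QuotientGroup.mk d, Subtype.ext (ConjClasses.mk_eq_mk_iff_isConj.2 (isConj_iff.2 ?_))⟩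
      set G : GL (Fin n) F := g * (D d)⁻¹ with hG
      have hdetG : ((G : GL (Fin n) F) : Matrix (Fin n) (Fin n) F).det = 1 := by
        have h3 := congrArg Matrix.det (Units.mul_inv (D d))
        rw [Matrix.det_mul, hD, Matrix.det_one] at h3
        rw [hG, Units.val_mul, Matrix.det_mul]
        exact h3
      refine ⟨⟨_, hdetG⟩, ?_⟩
      refine mul_inv_eq_iff_eq_mul.2 (Subtype.ext ?_)
      show ((G : GL (Fin n) F) : Matrix (Fin n) (Fin n) F) * (rep d : Matrix (Fin n) (Fin n) F) = (u : Matrix (Fin n) (Fin n) F) * ((G : GL (Fin n) F) : Matrix (Fin n) (Fin n) F)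
      simp only [rep, hG, Units.val_mul, mul_assoc, Units.inv_mul_cancel_left]
      rw [← mul_assoc (g : Matrix (Fin n) (Fin n) F) U0, hg, mul_assoc]
  show Nat.card X = _
  rw [← Nat.card_congr (Equiv.ofBijective f hf), ← Subgroup.index_eq_card, IsCyclic.index_powMonoidHom_range, Nat.card_units, Nat.card_eq_fintype_card, hF, Nat.gcd_comm]

end Cfsg.Agent.S2578
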