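import Cfsg.Statements.S2579
import Cfsg.Agent.Lib.ClassicalTransvecClass

set_option autoImplicit false
open Cfsg

namespace Cfsg.Agent.S2579

/-- In SL_n(F) with n ≥ 3, over a finite field F, any two transvections (matrices t with t − 1 of rank one and square zero) are conjugate by an element of SL_n(F). -/
theorem result {F : Type*} [Field F] [Finite F] {n : ℕ} (hn : 3 ≤ n) (s t : Matrix.SpecialLinearGroup (Fin n) F) (hs : Cfsg.IsTransvection (s : Matrix (Fin n) (Fin n) F)) (ht : Cfsg.IsTransvection (t : Matrix (Fin n) (Fin n) F)) : IsConj s t := by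
  classical
  obtain ⟨a, φ, ha, hφ, h, hse⟩ := CfsgLib.TransvecClass.exists_vec hs
  obtain ⟨a', φ', ha', hφ', h', hte⟩ := CfsgLib.TransvecClass.exists_vec ht
  obtain ⟨g, h1, h2⟩ := CfsgLib.TransvecClass.exists_gl ha hφ h ha' hφ' h'
  obtain ⟨k, k1, k2, k3⟩ := CfsgLib.TransvecClass.exists_fix hn ha hφ h (inv_ne_zero ((Matrix.isUnits_det_units g).ne_zero))
  set G := g * k with hG
  have hdet : ((G : GL (Fin n) F) : Matrix (Fin n) (Fin n) F).det = 1 := by
    rw [hG, Units.val_mul, Matrix.det_mul, k3, mul_inv_cancel₀ (Matrix.isUnits_det_units g).ne_zero]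
  refine isConj_iff.2 ⟨⟨_, hdet⟩, mul_inv_eq_iff_eq_mul.2 (Subtype.ext ?_)⟩
  show ((G : GL (Fin n) F) : Matrix (Fin n) (Fin n) F) * (s : Matrix (Fin n) (Fin n) F) = (t : Matrix (Fin n) (Fin n) F) * ((G : GL (Fin n) F) : Matrix (Fin n) (Fin n) F)
  rw [hse, hte, CfsgLib.TransvecClass.conj_vec (g := G) (a' := a') (φ' := φ')]
  · rw [hG, Units.val_mul, ← Matrix.mulVec_mulVec, k1, h1]
  · rw [hG, Units.val_mul, ← Matrix.vecMul_vecMul, h2, k2]

end Cfsg.Agent.S2579
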