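import Cfsg.Statements.S2585


set_option autoImplicit false
open Cfsg
open Matrix

namespace Cfsg.Agent.S2585

/-- Over a finite field of characteristic two every element of the symplectic group is orthogonal for a suitable quadratic form: for each A in Sp_2m(F) there is a quadratic form Q on F^(2m) whose polar form is the alternating form defining Sp_2m(F) (so Q is non-degenerate) and which A preserves. Equivalently, for m ≥ 1, Sp_2m(F) is the union of the conjugates of its two orthogonal subgroups O⁺_2m(F) and O⁻_2m(F). -/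
theorem result {F : Type*} [Field F] [Fintype F] [CharP F 2] {m : ℕ} (A : Matrix.symplecticGroup (Fin m) F) : ∃ Q : QuadraticForm F (Fin m ⊕ Fin m → F), (∀ u v : Fin m ⊕ Fin m → F, QuadraticMap.polar ⇑Q u v = Cfsg.sympForm m F u v) ∧ ∀ v : Fin m ⊕ Fin m → F, Q ((A : Matrix (Fin m ⊕ Fin m) (Fin m ⊕ Fin m) F).mulVec v) = Q v := by
  classical
  let n := Fin m ⊕ Fin m
  let J := Matrix.J (Fin m) F
  -- a form polarizing the symplectic form
  let B : Matrix n n F := Matrix.fromBlocks 0 1 0 0
  let Q0 : QuadraticForm F (n → F) := LinearMap.BilinMap.toQuadraticMap (Matrix.toLinearMap₂' F B)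
  have hBJ : B + B.transpose = J := by
    ext (i | i) (j | j) <;>
      simp [B, J, Matrix.J, Matrix.one_apply, CharTwo.neg_eq, eq_comm]
  have hQ0 : ∀ u v : n → F, QuadraticMap.polar ⇑Q0 u v = Cfsg.sympForm m F u v := fun u v => by
    show QuadraticMap.polar ⇑Q0 u v = u ⬝ᵥ (J *ᵥ v)
    rw [LinearMap.BilinMap.polar_toQuadraticMap, Matrix.toLinearMap₂'_apply', Matrix.toLinearMap₂'_apply',
      ← hBJ, Matrix.add_mulVec, dotProduct_add, Matrix.mulVec_transpose, dotProduct_comm u (v ᵥ* B), ← Matrix.dotProduct_mulVec]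
  have hA : ∀ u v : n → F, Cfsg.sympForm m F ((A : Matrix n n F) *ᵥ u) ((A : Matrix n n F) *ᵥ v) = Cfsg.sympForm m F u v := fun u v => by
    have h := SymplecticGroup.mem_iff'.1 A.2
    show ((A : Matrix n n F) *ᵥ u) ⬝ᵥ (J *ᵥ ((A : Matrix n n F) *ᵥ v)) = u ⬝ᵥ (J *ᵥ v)
    rw [Matrix.mulVec_mulVec, Matrix.dotProduct_mulVec, Matrix.vecMul_mulVec, ← Matrix.dotProduct_mulVec, ← Matrix.mul_assoc, h]
  -- the defect is the square of a linear functional
  let f : (n → F) → F := fun v => Q0 ((A : Matrix n n F) *ᵥ v) + Q0 v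
  have hadd : ∀ u v, f (u + v) = f u + f v := fun u v => by
    simp only [f, Matrix.mulVec_add, QuadraticMap.map_add (⇑Q0), hQ0, hA]
    linear_combination (Cfsg.sympForm m F u v) * (CharTwo.two_eq_zero : (2 : F) = 0)
  have hsmul : ∀ (a : F) v, f (a • v) = a ^ 2 * f v := fun a v => by
    simp only [f, Matrix.mulVec_smul, QuadraticMap.map_smul, smul_eq_mul]; ring
  haveI : Fact (Nat.Prime 2) := ⟨Nat.prime_two⟩
  have hsqrt : ∀ x : F, ∃ y : F, y ^ 2 = x := fun x => by
    obtain ⟨y, hy⟩ := FiniteField.isSquare_of_char_two (CharP.ringChar_of_prime_eq_zero Nat.prime_two (by exact_mod_cast (CharTwo.two_eq_zero : (2:F) = 0))) x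
    exact ⟨y, by rw [hy, sq]⟩
  choose r hr using hsqrt
  have hinj : ∀ x y : F, x ^ 2 = y ^ 2 → x = y := fun x y h => by
    rcases sq_eq_sq_iff_eq_or_eq_neg.1 h with h | h
    · exact h
    · rw [h, CharTwo.neg_eq]
  let L : (n → F) →ₗ[F] F :=
    { toFun := fun v => r (f v)
      map_add' := fun u v => hinj _ _ (by rw [CharTwo.add_sq, hr, hr, hr, hadd])
      map_smul' := fun a v => hinj _ _ (by rw [RingHom.id_apply, smul_eq_mul, mul_pow, hr, hr, hsmul]) }
  let T : (n → F) →ₗ[F] (n → F) := Matrix.mulVecLin (A : Matrix n n F) + LinearMap.id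
  have hker : L ∈ (LinearMap.ker T).dualAnnihilator := by
    rw [Submodule.mem_dualAnnihilator]
    intro v hv
    have hv' : (A : Matrix n n F) *ᵥ v + v = 0 := hv
    have : (A : Matrix n n F) *ᵥ v = v := by
      funext i
      have := congrFun hv' i
      rw [Pi.add_apply, Pi.zero_apply, add_eq_zero_iff_eq_neg, CharTwo.neg_eq] at this
      exact this
    exact hinj _ _ (by
      show r (f v) ^ 2 = 0 ^ 2
      rw [hr, zero_pow two_ne_zero]
      simp only [f, this, CharTwo.add_self_eq_zero])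
  rw [← LinearMap.range_dualMap_eq_dualAnnihilator_ker] at hker
  obtain ⟨l, hl⟩ := hker
  refine ⟨Q0 + QuadraticMap.linMulLin l l, fun u v => ?_, fun v => ?_⟩
  · rw [← hQ0]
    simp only [QuadraticMap.polar, QuadraticMap.add_apply, QuadraticMap.linMulLin_apply, map_add]
    linear_combination (l u * l v) * (CharTwo.two_eq_zero : (2 : F) = 0)
  · have h := congrArg (fun φ : (n → F) →ₗ[F] F => φ v ^ 2) hl
    simp only [LinearMap.dualMap_apply] at h
    change (l ((A : Matrix n n F) *ᵥ v + v)) ^ 2 = r (f v) ^ 2 at h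
    rw [hr, map_add, CharTwo.add_sq] at h
    simp only [f] at h
    simp only [QuadraticMap.add_apply, QuadraticMap.linMulLin_apply]
    linear_combination h + (Q0 ((A : Matrix n n F) *ᵥ v) - l v * l v) * (CharTwo.two_eq_zero : (2 : F) = 0)

end Cfsg.Agent.S2585
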