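import Cfsg.Statements.S2594
import Cfsg.Agent.S0245

set_option autoImplicit false
open Cfsg
open Matrix

namespace Cfsg.Agent.S2594

/-- Over a finite field with q elements, q even, an element t of Sp_2m(F) with rank(t − 1) = 1 (a symplectic transvection) has centraliser in Sp_2m(F) of order q^(2m−1) · |Sp_(2m−2)(q)| = q^(2m−1) · q^((m−1)²) · Π_(i=1)^(m−1) (q^(2i) − 1). -/
theorem result {F : Type*} [Field F] [Fintype F] [CharP F 2] {q : ℕ} (hF : Fintype.card F = q) {m : ℕ} (hm : 1 ≤ m) (t : Matrix.symplecticGroup (Fin m) F) (ht : ((t : Matrix (Fin m ⊕ Fin m) (Fin m ⊕ Fin m) F) - 1).rank = 1) : Nat.card ↥(Subgroup.centralizer ({t} : Set ↥(Matrix.symplecticGroup (Fin m) F))) = q ^ (2 * m - 1) * (q ^ ((m - 1) ^ 2) * ∏ i : Fin (m - 1), (q ^ (2 * ((i : ℕ) + 1)) - 1)) := by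
  classical
  have hG := Cfsg.Agent.S0245.result hF m
  subst hF
  set f := Cfsg.sympForm m F with hfdef
  have hf : Cfsg.Geo.IsSymplecticForm f := CfsgLib.Classical.isSymplecticForm_sympForm
  have hsq : ∀ x : F, ∃ d, d * d = x := fun x => by
    obtain ⟨d, hd⟩ := (PerfectRing.bijective_frobenius (R := F) (p := 2)).2 x
    exact ⟨d, by rw [← hd]; exact (sq d).symm⟩
  have hpres : ∀ (g : Matrix.symplecticGroup (Fin m) F) u v, f ((g : Matrix (Fin m ⊕ Fin m) (Fin m ⊕ Fin m) F) *ᵥ u) ((g : Matrix (Fin m ⊕ Fin m) (Fin m ⊕ Fin m) F) *ᵥ v) = f u v :=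
    fun g => CfsgLib.Classical.mem_symplecticGroup_iff.1 g.2
  obtain ⟨⟨a, ha⟩, ha0, hspan⟩ := finrank_eq_one_iff'.1 ht
  have ha' : a ≠ 0 := fun h => ha0 (Subtype.ext h)
  have hφ : ∀ x, ∃ c : F, (((t : Matrix (Fin m ⊕ Fin m) (Fin m ⊕ Fin m) F) - 1).mulVecLin) x = c • a := fun x => by
    obtain ⟨c, hc⟩ := hspan ⟨_, LinearMap.mem_range_self _ x⟩
    exact ⟨c, (congrArg Subtype.val hc).symm⟩
  choose φ hφ using hφ
  have htx : ∀ x, (t : Matrix (Fin m ⊕ Fin m) (Fin m ⊕ Fin m) F) *ᵥ x = x + φ x • a := fun x => by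
    rw [← hφ x, Matrix.mulVecLin_apply, Matrix.sub_mulVec, Matrix.one_mulVec, add_sub_cancel]
  obtain ⟨-, y, hy⟩ := hf.nondegenerate a ha'
  have hy' : f a y ≠ 0 := by
    rcases hf.nondegenerate a ha' with ⟨⟨z, hz⟩, z', hz'⟩
    first
      | exact hy
      | (rw [hf.skew]; exact neg_ne_zero.2 hy)
  have hφeq : ∀ x, φ x * f a y + φ y * f x a = 0 := fun x => by
    have := hpres t x y
    rw [htx, htx, hf.bilinear.add_left, hf.bilinear.add_right, hf.bilinear.add_right, hf.bilinear.smul_left, hf.bilinear.smul_left, hf.bilinear.smul_right, hf.bilinear.smul_right, hf.alternating] at this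
    linear_combination this
  obtain ⟨d, hd⟩ := hsq (- φ y / f a y)
  have hw : ∀ x, (t : Matrix (Fin m ⊕ Fin m) (Fin m ⊕ Fin m) F) *ᵥ x = x + f x (d • a) • (d • a) := fun x => by
    rw [htx, hf.bilinear.smul_right, smul_smul, show d * f x a * d = d * d * f x a by ring, hd]
    congr 2
    rw [div_mul_eq_mul_div, eq_div_iff hy']
    linear_combination hφeq x
  set w := d • a with hwdef
  have hw0 : w ≠ 0 := by
    intro h
    apply ha'
    have hne : ∃ x, φ x ≠ 0 := by
      by_contra hc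
      push_neg at hc
      obtain ⟨x, hx⟩ := ha
      apply ha'
      rw [← hx, hφ, hc, zero_smul]
    obtain ⟨x, hx⟩ := hne
    have := htx x
    rw [hw x, h] at this
    simpa [hx] using this
  have hC : ∀ g : Matrix.symplecticGroup (Fin m) F, g ∈ Subgroup.centralizer ({t} : Set ↥(Matrix.symplecticGroup (Fin m) F)) ↔ (g : Matrix (Fin m ⊕ Fin m) (Fin m ⊕ Fin m) F) *ᵥ w = w := by
    intro g
    rw [Subgroup.mem_centralizer_singleton_iff]
    constructor
    · intro h
      set u := (g : Matrix (Fin m ⊕ Fin m) (Fin m ⊕ Fin m) F) *ᵥ w with hu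
      have h1 : ∀ x, f x w • u = f ((g : Matrix (Fin m ⊕ Fin m) (Fin m ⊕ Fin m) F) *ᵥ x) w • w := by
        intro x
        have h2 := congrArg (fun M : ↥(Matrix.symplecticGroup (Fin m) F) => (M : Matrix (Fin m ⊕ Fin m) (Fin m ⊕ Fin m) F) *ᵥ x) h
        simp only [Submonoid.coe_mul, ← Matrix.mulVec_mulVec, hw, Matrix.mulVec_add, Matrix.mulVec_smul] at h2
        first
          | exact add_left_cancel h2
          | exact (add_left_cancel h2).symm
      obtain ⟨⟨z, hz⟩, z', hz'⟩ := hf.nondegenerate w hw0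
      have hzw : ∃ x, f x w ≠ 0 := by
        first
          | exact ⟨z, hz⟩
          | exact ⟨z', hz'⟩
      obtain ⟨x, hx⟩ := hzw
      obtain ⟨μ, hμ⟩ : ∃ μ : F, u = μ • w := ⟨(f x w)⁻¹ * f ((g : Matrix (Fin m ⊕ Fin m) (Fin m ⊕ Fin m) F) *ᵥ x) w, by
        rw [← smul_smul, ← h1, smul_smul, inv_mul_cancel₀ hx, one_smul]⟩
      have h3 : f ((g : Matrix (Fin m ⊕ Fin m) (Fin m ⊕ Fin m) F) *ᵥ x) u = f x w := hpres g x w
      rw [hμ, hf.bilinear.smul_right] at h3
      have h4 : (f x w * μ) • w = f ((g : Matrix (Fin m ⊕ Fin m) (Fin m ⊕ Fin m) F) *ᵥ x) w • w := by rw [← smul_smul, ← hμ, h1]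
      have h5 := smul_left_injective F hw0 h4
      have h6 : (μ - 1) ^ 2 = 0 := by
        have h8 : μ * μ = 1 := mul_left_cancel₀ hx (by rw [mul_one, ← mul_assoc, h5]; linear_combination h3)
        linear_combination h8 - (μ - 1) * (CharTwo.two_eq_zero (R := F))
      rw [hμ, sub_eq_zero.1 (pow_eq_zero_iff (two_ne_zero) |>.1 h6), one_smul]
    · intro h
      apply Subtype.ext
      refine Matrix.ext_of_mulVec_single fun i => ?_
      simp only [Submonoid.coe_mul, ← Matrix.mulVec_mulVec, hw, Matrix.mulVec_add, Matrix.mulVec_smul, h]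
      congr 2
      conv_rhs => rw [← h, hpres]
  let C := Subgroup.centralizer ({t} : Set ↥(Matrix.symplecticGroup (Fin m) F))
  let orb : ↥(Matrix.symplecticGroup (Fin m) F) ⧸ C → {v : Fin m ⊕ Fin m → F // v ≠ 0} := fun p =>
    Quotient.liftOn' p (fun g => ⟨(g : Matrix (Fin m ⊕ Fin m) (Fin m ⊕ Fin m) F) *ᵥ w, fun h0 => hw0 (by
      have : w = ((g⁻¹ * g : ↥(Matrix.symplecticGroup (Fin m) F)) : Matrix (Fin m ⊕ Fin m) (Fin m ⊕ Fin m) F) *ᵥ w := by simp
      rw [this, Submonoid.coe_mul, ← Matrix.mulVec_mulVec, h0, Matrix.mulVec_zero])⟩) (fun g k hgk => by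
      have := (hC _).1 (QuotientGroup.leftRel_apply.1 hgk)
      apply Subtype.ext
      show (g : Matrix (Fin m ⊕ Fin m) (Fin m ⊕ Fin m) F) *ᵥ w = _
      show _ = (k : Matrix (Fin m ⊕ Fin m) (Fin m ⊕ Fin m) F) *ᵥ w
      conv_rhs => rw [← mul_inv_cancel_left g k, Submonoid.coe_mul, ← Matrix.mulVec_mulVec, this])
  have hbij : Function.Bijective orb := by
    constructor
    · intro p q
      induction p using QuotientGroup.induction_on with
      | H g =>
        induction q using QuotientGroup.induction_on with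
        | H k =>
          intro h
          apply QuotientGroup.eq.2
          apply (hC _).2
          have h' : (g : Matrix (Fin m ⊕ Fin m) (Fin m ⊕ Fin m) F) *ᵥ w = (k : Matrix (Fin m ⊕ Fin m) (Fin m ⊕ Fin m) F) *ᵥ w := congrArg Subtype.val h
          rw [Submonoid.coe_mul, ← Matrix.mulVec_mulVec, ← h', Matrix.mulVec_mulVec, ← Submonoid.coe_mul, inv_mul_cancel]
          simp
    · rintro ⟨v, hv⟩
      obtain ⟨g, hg, hgw⟩ := CfsgLib.Classical.exists_sympGen_map hf (CfsgLib.Classical.nondegOn_top hf) (W := ⊤) (v := w) (w := v) trivial hw0 trivial hv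
      obtain ⟨A, -, hA⟩ := CfsgLib.Classical.exists_spTransGen_of_sympGen hg
      exact ⟨(A : ↥(Matrix.symplecticGroup (Fin m) F) ⧸ C), Subtype.ext (by show _ *ᵥ w = v; rw [hA, hgw])⟩
  have hcard := Subgroup.card_eq_card_quotient_mul_card_subgroup C
  rw [Nat.card_congr (Equiv.ofBijective orb hbij), hG] at hcard
  rw [show Nat.card {v : Fin m ⊕ Fin m → F // v ≠ 0} = Fintype.card F ^ (2 * m) - 1 by
    simp [Nat.card_eq_fintype_card, Fintype.card_subtype_compl, two_mul]] at hcard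
  obtain ⟨k, rfl⟩ : ∃ k, m = k + 1 := ⟨m - 1, by omega⟩
  have hq : 1 < Fintype.card F := Fintype.one_lt_card
  have hpos : 0 < Fintype.card F ^ (2 * (k + 1)) - 1 := by
    have := Nat.one_lt_pow (show 2 * (k + 1) ≠ 0 by omega) hq
    omega
  show Nat.card C = _
  refine Nat.eq_of_mul_eq_mul_left hpos ?_
  rw [← hcard, Finset.prod_range_succ, ← Fin.prod_univ_eq_prod_range (fun i => Fintype.card F ^ (2 * (i + 1)) - 1), Nat.add_sub_cancel, show (k + 1) ^ 2 = (2 * (k + 1) - 1) + k ^ 2 by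
    have : (k+1)^2 = 2*k + 1 + k^2 := by ring
    omega, pow_add]
  simp only [mul_comm, mul_left_comm, mul_assoc]

end Cfsg.Agent.S2594
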