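import Cfsg.Statements.S2599


set_option autoImplicit false
open Cfsg
open Matrix

namespace Cfsg.Agent.S2599

/-- An irreducible invariant subspace of a semisimple isometry is non-degenerate or totally singular: let Q be a quadratic form on F^n (F finite of characteristic p) with non-degenerate polar form f, x an isometry of Q of order prime to p, and U a non-zero x-invariant subspace containing no x-invariant subspace other than 0 and U. Then U meets its f-orthogonal trivially, or Q vanishes on U, or p = 2, U is a line spanned by a non-singular vector and x fixes U pointwise. -/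
theorem result {F : Type*} [Field F] [Fintype F] {p : ℕ} [Fact p.Prime] [CharP F p] {n : ℕ} (Q : QuadraticForm F (Fin n → F)) (hQ : (QuadraticMap.polarBilin Q).Nondegenerate) (x : ↥(Cfsg.isometryGroup F ⇑Q)) (hx : (orderOf x).Coprime p) (U : Submodule F (Fin n → F)) (hU0 : U ≠ ⊥) (hUx : ∀ u ∈ U, ((x : Matrix.GeneralLinearGroup (Fin n) F) : Matrix (Fin n) (Fin n) F).mulVec u ∈ U) (hirr : ∀ W : Submodule F (Fin n → F), W ≤ U → (∀ w ∈ W, ((x : Matrix.GeneralLinearGroup (Fin n) F) : Matrix (Fin n) (Fin n) F).mulVec w ∈ W) → W = ⊥ ∨ W = U) : U ⊓ LinearMap.BilinForm.orthogonal (QuadraticMap.polarBilin Q) U = ⊥ ∨ (∀ u ∈ U, Q u = 0) ∨ (p = 2 ∧ Module.finrank F U = 1 ∧ (∃ u ∈ U, Q u ≠ 0) ∧ ∀ u ∈ U, ((x : Matrix.GeneralLinearGroup (Fin n) F) : Matrix (Fin n) (Fin n) F).mulVec u = u) := by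
  classical
  set M : Matrix (Fin n) (Fin n) F := ((x : Matrix.GeneralLinearGroup (Fin n) F) : Matrix (Fin n) (Fin n) F) with hM
  set xi : Matrix (Fin n) (Fin n) F := (((x : Matrix.GeneralLinearGroup (Fin n) F)⁻¹ : Matrix.GeneralLinearGroup (Fin n) F) : Matrix (Fin n) (Fin n) F) with hxi
  have hQx : ∀ v, Q (M *ᵥ v) = Q v := fun v => x.2 v v
  have hP : ∀ v w, QuadraticMap.polar (⇑Q) (M *ᵥ v) (M *ᵥ w) = QuadraticMap.polar (⇑Q) v w := fun v w => by
    simp only [QuadraticMap.polar, ← Matrix.mulVec_add, hQx]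
  have hMi : ∀ v, M *ᵥ (xi *ᵥ v) = v := fun v => by
    rw [Matrix.mulVec_mulVec, hM, hxi, Units.mul_inv, Matrix.one_mulVec]
  have hUback : ∀ u ∈ U, ∃ w ∈ U, M *ᵥ w = u := by
    intro u hu
    let T : U →ₗ[F] U := (M.mulVecLin.comp U.subtype).codRestrict U fun w => hUx w w.2
    have hT : Function.Injective T := fun a b hab => by
      have h1 : M *ᵥ (a : Fin n → F) = M *ᵥ (b : Fin n → F) := congrArg Subtype.val hab
      exact Subtype.ext (Matrix.mulVec_injective_of_isUnit (Units.isUnit _) h1)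
    obtain ⟨w, hw⟩ := (LinearMap.injective_iff_surjective.1 hT) ⟨u, hu⟩
    exact ⟨w, w.2, congrArg Subtype.val hw⟩
  have hmem : ∀ v, v ∈ LinearMap.BilinForm.orthogonal (QuadraticMap.polarBilin Q) U ↔ ∀ u ∈ U, QuadraticMap.polar (⇑Q) u v = 0 := fun v => Iff.rfl
  set W := U ⊓ LinearMap.BilinForm.orthogonal (QuadraticMap.polarBilin Q) U with hW
  have hWx : ∀ w ∈ W, M *ᵥ w ∈ W := by
    intro w hw
    refine ⟨hUx w hw.1, (hmem _).2 fun u hu => ?_⟩
    obtain ⟨u', hu', rfl⟩ := hUback u hu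
    rw [hP]
    exact (hmem _).1 hw.2 u' hu'
  rcases hirr W inf_le_left hWx with h | h
  · exact Or.inl h
  have hort : ∀ u ∈ U, ∀ v ∈ U, QuadraticMap.polar (⇑Q) u v = 0 := fun u hu v hv =>
    (hmem v).1 ((inf_eq_left.1 h) hv) u hu
  by_cases hall : ∀ u ∈ U, Q u = 0
  · exact Or.inr (Or.inl hall)
  push Not at hall
  obtain ⟨u₀, hu₀, hQu₀⟩ := hall
  have h2 : (2 : F) = 0 := by
    have h1 := hort u₀ hu₀ u₀ hu₀
    rw [QuadraticMap.polar_self, two_smul, ← two_mul] at h1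
    rcases mul_eq_zero.1 h1 with h1 | h1
    · exact h1
    · exact absurd h1 hQu₀
  have hp : p = 2 := by
    have : ((2 : ℕ) : F) = 0 := by exact_mod_cast h2
    exact (Nat.prime_dvd_prime_iff_eq (Fact.out) Nat.prime_two).1 ((CharP.cast_eq_zero_iff F p 2).1 this)
  have hc2 : ringChar F = 2 := by rw [ringChar.eq F p, hp]
  have hadd : ∀ u ∈ U, ∀ v ∈ U, Q (u + v) = Q u + Q v := fun u hu v hv => by
    rw [QuadraticMap.map_add (⇑Q), hort u hu v hv, add_zero]
  let K : Submodule F (Fin n → F) :=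
    { carrier := {v | v ∈ U ∧ Q v = 0}
      add_mem' := fun {a b} ha hb => ⟨U.add_mem ha.1 hb.1, by rw [hadd a ha.1 b hb.1, ha.2, hb.2, add_zero]⟩
      zero_mem' := ⟨U.zero_mem, QuadraticMap.map_zero Q⟩
      smul_mem' := fun c v hv => ⟨U.smul_mem c hv.1, by rw [QuadraticMap.map_smul, hv.2, smul_zero]⟩ }
  have hK : K = ⊥ := by
    rcases hirr K (fun v hv => hv.1) (fun v hv => ⟨hUx v hv.1, by rw [hQx]; exact hv.2⟩) with h | h
    · exact h
    · exact absurd ((h.ge hu₀ : u₀ ∈ K).2) hQu₀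
  have hspan : ∀ v ∈ U, ∃ c : F, c • u₀ = v := by
    intro v hv
    obtain ⟨c, hc⟩ := FiniteField.isSquare_of_char_two hc2 (Q v / Q u₀)
    refine ⟨c, ?_⟩
    have h3 : c • u₀ + v ∈ K := ⟨U.add_mem (U.smul_mem c hu₀) hv, by
      rw [hadd _ (U.smul_mem c hu₀) v hv, QuadraticMap.map_smul, smul_eq_mul, ← hc, div_mul_cancel₀ _ hQu₀, ← two_mul, h2, zero_mul]⟩
    rw [hK, Submodule.mem_bot, add_eq_zero_iff_eq_neg] at h3
    rw [h3]
    have : (-1 : F) = 1 := by linear_combination -h2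
    rw [← neg_one_smul F v, this, one_smul]
  have hu₀0 : u₀ ≠ 0 := fun e => hQu₀ (by rw [e, QuadraticMap.map_zero])
  refine Or.inr (Or.inr ⟨hp, ?_, ⟨u₀, hu₀, hQu₀⟩, fun u hu => ?_⟩)
  · refine finrank_eq_one (⟨u₀, hu₀⟩ : U) (fun e => hu₀0 (congrArg Subtype.val e)) fun w => ?_
    obtain ⟨c, hc⟩ := hspan w w.2
    exact ⟨c, Subtype.ext hc⟩
  · have h3 : M *ᵥ u + u ∈ K := ⟨U.add_mem (hUx u hu) hu, by rw [hadd _ (hUx u hu) u hu, hQx, ← two_mul, h2, zero_mul]⟩
    rw [hK, Submodule.mem_bot, add_eq_zero_iff_eq_neg] at h3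
    show M *ᵥ u = u
    rw [h3]
    have : (-1 : F) = 1 := by linear_combination -h2
    rw [← neg_one_smul F u, this, one_smul]

end Cfsg.Agent.S2599
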