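import Cfsg.Statements.S2610
import Cfsg.Agent.Lib.ClassicalSpinorEval
import Cfsg.Agent.Lib.ClassicalDiagForm
import Cfsg.Agent.Lib.ClassicalDiscriminant

set_option autoImplicit false
open Cfsg
open Matrix

namespace Cfsg.Agent.S2610

/-- For a quadratic form Q on F^n with non-degenerate polar form, F finite of odd order and n ≥ 2 even, the isometry −1 lies in Ω (the commutator subgroup of the orthogonal group) if and only if the discriminant of Q (the determinant of the Gram matrix of its polar form) is a square. -/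
theorem result {F : Type*} [Field F] [Fintype F] (h2 : (2 : F) ≠ 0) {n : ℕ} (hn : 2 ≤ n) (he : Even n) (Q : QuadraticForm F (Fin n → F)) (hQ : (QuadraticMap.polarBilin Q).Nondegenerate) : (∃ g : ↥(Cfsg.isometryGroup F ⇑Q), g ∈ Cfsg.Omega F ⇑Q ∧ ((g : Matrix.GeneralLinearGroup (Fin n) F) : Matrix (Fin n) (Fin n) F) = -1) ↔ IsSquare (Matrix.of (fun i j : Fin n => QuadraticMap.polar ⇑Q (Pi.single i 1) (Pi.single j 1))).det := by
  classical
  have hQ' := CfsgLib.Classical.isNondegenerateQuadraticForm_coe Q hQ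
  obtain ⟨k, rfl⟩ : ∃ k, n = k + 1 := ⟨n - 1, by omega⟩
  obtain ⟨b, δ, hδ, hb, ho⟩ := CfsgLib.DiagForm.exists_normal h2 k (Fin (k + 1) → F) Q (fun x hx => hQ.1 x hx) (by simp)
  set G := Matrix.of (fun i j : Fin (k + 1) => QuadraticMap.polar ⇑Q (Pi.single i 1) (Pi.single j 1)) with hG
  have hbne : ∀ i, Q (b i) ≠ 0 := fun i => by
    rw [hb]; split_ifs
    · exact hδ
    · exact one_ne_zero
  have key : ∀ l : List (Fin (k + 1)), l.Nodup → ∃ g : ↥(Cfsg.isometryGroup F ⇑Q),
      ((g : Matrix.GeneralLinearGroup (Fin (k + 1)) F) : Matrix (Fin (k + 1)) (Fin (k + 1)) F) = ((l.map b).map (fun v => Cfsg.reflectionMatrix ⇑Q v)).prod ∧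
      ∀ j, ((g : Matrix.GeneralLinearGroup (Fin (k + 1)) F) : Matrix (Fin (k + 1)) (Fin (k + 1)) F) *ᵥ b j = if j ∈ l then -b j else b j := by
    intro l
    induction l with
    | nil => intro _; exact ⟨1, by simp, fun j => by simp⟩
    | cons i l ih =>
      intro hl
      rw [List.nodup_cons] at hl
      obtain ⟨g, hg, hgb⟩ := ih hl.2
      refine ⟨CfsgLib.Classical.rI hQ' (b i) (hbne i) * g, ?_, fun j => ?_⟩
      · rw [List.map_cons, List.map_cons, List.prod_cons, ← CfsgLib.Classical.qR_val hQ' (hbne i), ← hg]; rfl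
      · show ((CfsgLib.Classical.qR hQ' (b i) * (g : Matrix.GeneralLinearGroup (Fin (k + 1)) F) : Matrix.GeneralLinearGroup (Fin (k + 1)) F) : Matrix (Fin (k + 1)) (Fin (k + 1)) F) *ᵥ b j = _
        rw [Units.val_mul, ← Matrix.mulVec_mulVec, hgb]
        by_cases hji : j = i
        · subst hji
          rw [if_neg hl.1, CfsgLib.Classical.qR_mulVec hQ' (hbne j), CfsgLib.DiagForm.polar_self2, if_pos (List.mem_cons_self ..)]
          rw [show (Q (b j))⁻¹ * (2 * Q (b j)) = 2 by field_simp [hbne j]]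
          module
        · have hp : ∀ c : F, QuadraticMap.polar (⇑Q) (c • b j) (b i) = 0 := fun c => by
            rw [QuadraticMap.polar_smul_left, ho j i hji, smul_zero]
          by_cases hjl : j ∈ l
          · rw [if_pos hjl, CfsgLib.Classical.qR_mulVec hQ' (hbne i), if_pos (List.mem_cons_of_mem _ hjl)]
            rw [show -b j = (-1 : F) • b j by simp, hp]; simp
          · rw [if_neg hjl, CfsgLib.Classical.qR_mulVec hQ' (hbne i), if_neg (by simp [hji, hjl]), ho j i hji]; simp
  obtain ⟨g, hg, hgb⟩ := key (List.finRange (k + 1)) (List.nodup_finRange _)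
  have hg1 : ((g : Matrix.GeneralLinearGroup (Fin (k + 1)) F) : Matrix (Fin (k + 1)) (Fin (k + 1)) F) = -1 := by
    apply (Matrix.toLin' (R := F) (m := Fin (k + 1)) (n := Fin (k + 1))).injective
    refine b.ext fun j => ?_
    rw [Matrix.toLin'_apply, Matrix.toLin'_apply, hgb, if_pos (List.mem_finRange j), Matrix.neg_mulVec, Matrix.one_mulVec]
  have hmem := CfsgLib.Classical.mem_omega_reflections hQ' h2 (by simpa using hn) g ((List.finRange (k + 1)).map b) (by
    intro v hv; obtain ⟨i, -, rfl⟩ := List.mem_map.1 hv; exact hbne i) hg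
  rw [List.length_map, List.length_finRange, List.map_map, and_iff_right he] at hmem
  have hprod : ((List.finRange (k + 1)).map ((fun v => Q v) ∘ b)).prod = δ := by
    rw [← List.ofFn_eq_map, List.prod_ofFn]
    simp [hb, Finset.prod_ite_eq']
  rw [hprod] at hmem
  obtain ⟨d, hd, hdet⟩ := CfsgLib.Classical.gram_det_square G b
  have he2 : (Matrix.of fun i j : Fin (k + 1) => b i ⬝ᵥ G *ᵥ b j) = Matrix.diagonal (fun i => 2 * (if i = Fin.last k then δ else 1)) := by
    ext i j
    have hb2 := Matrix.toLinearMap₂'_apply' (LinearMap.toMatrix₂' F (QuadraticMap.polarBilin Q)) (b i) (b j)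
    rw [Matrix.toLinearMap₂'_toMatrix', QuadraticMap.polarBilin_apply_apply] at hb2
    have hGeq : LinearMap.toMatrix₂' F (QuadraticMap.polarBilin Q) = G := by
      ext a c; simp [G, LinearMap.toMatrix₂'_apply]
    rw [hGeq] at hb2
    rw [Matrix.of_apply, ← hb2]
    by_cases hij : i = j
    · subst hij
      rw [Matrix.diagonal_apply_eq, CfsgLib.DiagForm.polar_self2, hb]
    · rw [Matrix.diagonal_apply_ne _ hij, ho i j hij]
  rw [he2, Matrix.det_diagonal, Finset.prod_mul_distrib] at hdet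
  simp [Finset.prod_ite_eq'] at hdet
  obtain ⟨r, hr⟩ := he
  rw [show (2 : F) ^ (k + 1) = 2 ^ r * 2 ^ r by rw [← pow_add, ← hr]] at hdet
  have h2r : (2 : F) ^ r ≠ 0 := pow_ne_zero _ h2
  constructor
  · rintro ⟨g', hg', e⟩
    rw [show g' = g from Subtype.ext (Units.ext (e.trans hg1.symm))] at hg'
    obtain ⟨s, hs⟩ := hmem.1 hg'
    refine ⟨2 ^ r * s / d, ?_⟩
    field_simp
    linear_combination -hdet + (2 ^ r * 2 ^ r) * hs
  · rintro ⟨s, hs⟩
    refine ⟨g, hmem.2 ⟨d * s / 2 ^ r, ?_⟩, hg1⟩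
    field_simp
    linear_combination hdet + d ^ 2 * hs

end Cfsg.Agent.S2610
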