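import Cfsg.Statements.S2612
import Cfsg.Agent.Lib.LieOmegaOrbit
import Cfsg.Agent.Lib.ClassicalQuadStd2

set_option autoImplicit false
open Cfsg

namespace Cfsg.Agent.S2612

open Cfsg.Agent.Lib.LieOmegaOrbit Matrix in
/-- For the hyperbolic quadratic form Σ x_i y_i on F^(2m) (F finite, m ≥ 1, excluding m = 2 over the field of two elements), Ω⁺_2m(F) (the commutator subgroup of the orthogonal group) contains an element interchanging the two complementary maximal totally singular subspaces {y = 0} and {x = 0} if and only if m is even (dimension divisible by 4). -/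
theorem result {F : Type*} [Field F] [Fintype F] {m : ℕ} (hm : 1 ≤ m) (h : Fintype.card F ≠ 2 ∨ m ≠ 2) : (∃ g : ↥(Cfsg.isometryGroup F (Cfsg.quadFormPlus m F)), g ∈ Cfsg.Omega F (Cfsg.quadFormPlus m F) ∧ (∀ v : Fin m ⊕ Fin m → F, (∀ i, v (Sum.inr i) = 0) → ∀ i, (((g : Matrix.GeneralLinearGroup (Fin m ⊕ Fin m) F) : Matrix (Fin m ⊕ Fin m) (Fin m ⊕ Fin m) F).mulVec v) (Sum.inl i) = 0) ∧ (∀ v : Fin m ⊕ Fin m → F, (∀ i, v (Sum.inl i) = 0) → ∀ i, (((g : Matrix.GeneralLinearGroup (Fin m ⊕ Fin m) F) : Matrix (Fin m ⊕ Fin m) (Fin m ⊕ Fin m) F).mulVec v) (Sum.inr i) = 0)) ↔ Even m := by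
  classical
  let Qf : QuadraticForm F (Fin m ⊕ Fin m → F) := ∑ i : Fin m,
      QuadraticMap.linMulLin (LinearMap.proj (Sum.inl i)) (LinearMap.proj (Sum.inr i))
  have hf : (⇑Qf : (Fin m ⊕ Fin m → F) → F) = Cfsg.quadFormPlus m F := funext fun v => by
    simp [Qf, Cfsg.quadFormPlus]
  rw [← hf]
  have hQ' : Cfsg.Geo.IsNondegenerateQuadraticForm ⇑Qf := hf ▸ CfsgLib.Classical.isNondegenerate_quadFormPlus (F := F) m
  obtain ⟨-, hnd⟩ : True ∧ (QuadraticMap.polarBilin Qf).Nondegenerate := by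
    obtain ⟨Q', hQ'', hnd⟩ := CfsgLib.Classical.exists_quadraticForm hQ'
    have : Q' = Qf := DFunLike.coe_injective hQ''
    exact ⟨trivial, this ▸ hnd⟩
  have hcard : Nat.card F ≠ 2 ∨ Fintype.card (Fin m ⊕ Fin m) ≠ 4 := by
    rcases h with h | h
    · exact Or.inl (by rwa [Nat.card_eq_fintype_card])
    · exact Or.inr (by simp; omega)
  obtain ⟨D, hD⟩ := CfsgLib.Classical.exists_dickson hQ' hcard
  let U₀ := CfsgLib.Classical.coordHalf F m ∅
  let U₁ := CfsgLib.Classical.coordHalf F m Finset.univ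
  have hm0 : ∀ v, v ∈ U₀ ↔ ∀ i, v (Sum.inr i) = 0 := fun v =>
    ⟨fun hv i => (hv i).2 (by simp), fun hv i => ⟨fun hi => absurd hi (by simp), fun _ => hv i⟩⟩
  have hm1 : ∀ v, v ∈ U₁ ↔ ∀ i, v (Sum.inl i) = 0 := fun v =>
    ⟨fun hv i => (hv i).1 (by simp), fun hv i => ⟨fun _ => hv i, fun hi => absurd (Finset.mem_univ i) hi⟩⟩
  have hh0 : CfsgLib.Classical.IsHalfTS (Q := ⇑Qf) U₀ :=
    ⟨hf.symm ▸ CfsgLib.Classical.coordHalf_ts m ∅, by rw [CfsgLib.Classical.finrank_coordHalf]; simp; ring⟩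
  have hpar : ∀ g : ↥(Cfsg.isometryGroup F ⇑Qf), (∀ v ∈ U₀, ((g : GL (Fin m ⊕ Fin m) F) : Matrix (Fin m ⊕ Fin m) (Fin m ⊕ Fin m) F) *ᵥ v ∈ U₁) →
      (m % 2 = 0 ↔ D g = 1) := by
    intro g hg
    have hp := CfsgLib.Classical.dickson_parity hQ' hcard hD g U₀ U₀ hh0 hh0
    have h1 : U₀.map (Matrix.toLin' ((g : GL (Fin m ⊕ Fin m) F) : Matrix (Fin m ⊕ Fin m) (Fin m ⊕ Fin m) F)) = U₁ :=
      map_eq (by rw [CfsgLib.Classical.finrank_coordHalf, CfsgLib.Classical.finrank_coordHalf]) _ hg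
    have h0 : U₀ ⊓ U₁ = ⊥ := by
      rw [eq_bot_iff]
      rintro v ⟨a, b⟩
      rw [Submodule.mem_bot]
      funext i
      rcases i with i | i
      · exact (hm1 v).mp b i
      · exact (hm0 v).mp a i
    rw [h1, h0, inf_idem, finrank_bot, CfsgLib.Classical.finrank_coordHalf, zero_add] at hp
    exact hp
  constructor
  · rintro ⟨g, hgΩ, hga, -⟩
    rw [Nat.even_iff, hpar g (fun v hv => (hm1 _).mpr (hga v ((hm0 v).mp hv)))]
    have := Abelianization.commutator_subset_ker D hgΩ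
    exact MonoidHom.mem_ker.mp this
  · intro hme
    let J : GL (Fin m ⊕ Fin m) F := ⟨(Equiv.sumComm (Fin m) (Fin m)).toPEquiv.toMatrix,
      (Equiv.sumComm (Fin m) (Fin m)).toPEquiv.toMatrix,
      by rw [← PEquiv.toMatrix_trans, ← Equiv.toPEquiv_trans, show (Equiv.sumComm (Fin m) (Fin m)).trans (Equiv.sumComm (Fin m) (Fin m)) = Equiv.refl _ from by ext i; simp, Equiv.toPEquiv_refl, PEquiv.toMatrix_refl],
      by rw [← PEquiv.toMatrix_trans, ← Equiv.toPEquiv_trans, show (Equiv.sumComm (Fin m) (Fin m)).trans (Equiv.sumComm (Fin m) (Fin m)) = Equiv.refl _ from by ext i; simp, Equiv.toPEquiv_refl, PEquiv.toMatrix_refl]⟩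
    have hJ : ∀ v i, ((J : Matrix (Fin m ⊕ Fin m) (Fin m ⊕ Fin m) F) *ᵥ v) i = v i.swap := by
      intro v i
      simp [J, PEquiv.toMatrix_toPEquiv_mulVec]
    let g : ↥(Cfsg.isometryGroup F ⇑Qf) := ⟨J, fun u v => by
      show Qf ((J : Matrix (Fin m ⊕ Fin m) (Fin m ⊕ Fin m) F) *ᵥ u) = Qf u
      simp only [hf, Cfsg.quadFormPlus, hJ, Sum.swap_inl, Sum.swap_inr]
      exact Finset.sum_congr rfl fun i _ => mul_comm _ _⟩
    have hg1 : ∀ v ∈ U₀, ((g : GL (Fin m ⊕ Fin m) F) : Matrix (Fin m ⊕ Fin m) (Fin m ⊕ Fin m) F) *ᵥ v ∈ U₁ := by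
      intro v hv
      exact (hm1 _).mpr fun i => by rw [hJ]; exact (hm0 v).mp hv i
    have hDg : D g = 1 := (hpar g hg1).mp (Nat.even_iff.mp hme)
    by_cases h2 : (2 : F) = 0
    · haveI : CharP F 2 := CharTwo.of_one_ne_zero_of_two_eq_zero one_ne_zero h2
      refine ⟨g, ?_, fun v hv i => ?_, fun v hv i => ?_⟩
      · rw [CfsgLib.Classical.omega_eq_ker hQ' hcard hD]; exact hDg
      · rw [hJ]; exact hv i
      · rw [hJ]; exact hv i
    · obtain ⟨θ, hθ⟩ := CfsgLib.Classical.exists_spinor hQ' h2 (by simp; omega)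
      rcases Int.units_eq_one_or (θ g) with e2 | e2
      · refine ⟨g, ?_, fun v hv i => ?_, fun v hv i => ?_⟩
        · rw [CfsgLib.Classical.omega_eq_inf hQ' h2 (by simp; omega) hD hθ]; simp [Subgroup.mem_inf, hDg, e2]
        · rw [hJ]; exact hv i
        · rw [hJ]; exact hv i
      · let i0 : Fin m := ⟨0, hm⟩
        have hpol : ∀ x y, QuadraticMap.polar (⇑Qf) x y = ∑ i : Fin m, (x (.inl i) * y (.inr i) + y (.inl i) * x (.inr i)) := by
          intro x y; rw [hf, CfsgLib.Classical.polar_quadFormPlus]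
        obtain ⟨s, hs1, hs2, hs3⟩ := exists_pair_elem Qf hQ' h2 (u := Pi.single (.inl i0) 1) (f := Pi.single (.inr i0) 1)
          (by simp [hf, Cfsg.quadFormPlus]) (by simp [hf, Cfsg.quadFormPlus])
          (by simp [hpol, Pi.single_apply]) D θ hD hθ
        refine ⟨g * s, ?_, fun v hv i => ?_, fun v hv i => ?_⟩
        · rw [CfsgLib.Classical.omega_eq_inf hQ' h2 (by simp; omega) hD hθ]
          simp [Subgroup.mem_inf, hDg, e2, hs1, hs2]
        · obtain ⟨a, b, hab⟩ := hs3 v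
          rw [Subgroup.coe_mul, Units.val_mul, ← Matrix.mulVec_mulVec, hab, hJ]
          simp [hpol, Pi.single_apply, hv]
        · obtain ⟨a, b, hab⟩ := hs3 v
          rw [Subgroup.coe_mul, Units.val_mul, ← Matrix.mulVec_mulVec, hab, hJ]
          simp [hpol, Pi.single_apply, hv]

end Cfsg.Agent.S2612
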