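import Cfsg.Statements.S2616
import Cfsg.Agent.Lib.ClassicalQuadBasis

set_option autoImplicit false
open Cfsg

namespace Cfsg.Agent.S2616

/-- Standard bases of a non-degenerate quadratic space of even dimension 2m over a finite field: either there is a hyperbolic basis e_i, f_i (Q(e_i) = Q(f_i) = 0, B(e_i, f_j) = δ_ij, the e's pairwise orthogonal and the f's pairwise orthogonal, B the polar form), or there is an elliptic basis: hyperbolic pairs e_i, f_i for i < m − 1 together with x, y orthogonal to them with Q(x) = 1, B(x, y) = 1, Q(y) = ζ where t² + t + ζ has no root in the field. -/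
theorem result {F V : Type*} [Field F] [Finite F] [AddCommGroup V] [Module F V] [FiniteDimensional F V] {m : ℕ} (hm : 1 ≤ m) (hV : Module.finrank F V = 2 * m) (Q : QuadraticForm F V) (hQ : (QuadraticMap.polarBilin Q).Nondegenerate) : (∃ b : Module.Basis (Fin m ⊕ Fin m) F V, (∀ i, Q (b (Sum.inl i)) = 0 ∧ Q (b (Sum.inr i)) = 0) ∧ (∀ i j, QuadraticMap.polar ⇑Q (b (Sum.inl i)) (b (Sum.inr j)) = if i = j then 1 else 0) ∧ (∀ i j, QuadraticMap.polar ⇑Q (b (Sum.inl i)) (b (Sum.inl j)) = 0 ∧ QuadraticMap.polar ⇑Q (b (Sum.inr i)) (b (Sum.inr j)) = 0)) ∨ (∃ (b : Module.Basis ((Fin (m - 1) ⊕ Fin (m - 1)) ⊕ Fin 2) F V) (ζ : F), (∀ t : F, t ^ 2 + t + ζ ≠ 0) ∧ (∀ i, Q (b (Sum.inl (Sum.inl i))) = 0 ∧ Q (b (Sum.inl (Sum.inr i))) = 0) ∧ (∀ i j, QuadraticMap.polar ⇑Q (b (Sum.inl (Sum.inl i))) (b (Sum.inl (Sum.inr j))) = if i = j then 1 else 0) ∧ (∀ i j, QuadraticMap.polar ⇑Q (b (Sum.inl (Sum.inl i))) (b (Sum.inl (Sum.inl j))) = 0 ∧ QuadraticMap.polar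 ⇑Q (b (Sum.inl (Sum.inr i))) (b (Sum.inl (Sum.inr j))) = 0) ∧ (∀ i (k : Fin 2), QuadraticMap.polar ⇑Q (b (Sum.inl (Sum.inl i))) (b (Sum.inr k)) = 0 ∧ QuadraticMap.polar ⇑Q (b (Sum.inl (Sum.inr i))) (b (Sum.inr k)) = 0) ∧ Q (b (Sum.inr 0)) = 1 ∧ QuadraticMap.polar ⇑Q (b (Sum.inr 0)) (b (Sum.inr 1)) = 1 ∧ Q (b (Sum.inr 1)) = ζ) := by
  classical
  obtain ⟨k, rfl⟩ : ∃ k, m = k + 1 := ⟨m - 1, by omega⟩
  obtain ⟨e, f, R, hdec, hR⟩ := CfsgLib.QuadBasis.exists_decomp (Q := Q) k 2 (by norm_num) ⊤ (CfsgLib.QuadBasis.ndP_top hQ) (by rw [finrank_top, hV]; ring)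
  by_cases han : ∃ x ∈ R, x ≠ 0 ∧ Q x = 0
  · obtain ⟨x, hx, hx0, hQx⟩ := han
    obtain ⟨e₀, f₀, he, hf, hQe, hQf, hef, hNd, -⟩ := CfsgLib.QuadBasis.exists_pair hdec.2.1 hx hx0 hQx
    have hd := CfsgLib.QuadBasis.decomp_snoc hdec he hf hQe hQf hef hNd
    have hli := hd.independent (κ := Empty) (w := Empty.elim) (fun i => i.elim) linearIndependent_empty_type
    have hli' := hli.comp Sum.inl Sum.inl_injective
    rw [Sum.elim_comp_inl] at hli'
    let b := basisOfLinearIndependentOfCardEqFinrank hli' (by simp [hV]; omega)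
    obtain ⟨-, -, -, hs, hp, hz, -⟩ := hd
    exact Or.inl ⟨b, fun i => by simpa [b] using hs i, fun i j => by simpa [b] using hp i j, fun i j => by simpa [b] using hz i j⟩
  · push Not at han
    obtain ⟨v, w, hv, hw, hQv, hvw, hi, hroot⟩ := CfsgLib.QuadBasis.exists_anisotropic_pair hdec.2.1 hR han
    have hmem : ∀ k : Fin 2, ![v, w] k ∈ R := by
      intro k; fin_cases k <;> assumption
    have hli := hdec.independent hmem hi
    let b := basisOfLinearIndependentOfCardEqFinrank hli (by simp [hV]; omega)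
    obtain ⟨-, -, -, hs, hp, hz, ho⟩ := hdec
    refine Or.inr ⟨b, Q w, hroot, fun i => ?_, fun i j => ?_, fun i j => ?_, fun i j => ?_, ?_, ?_, ?_⟩
    · simpa [b] using hs i
    · simpa [b] using hp i j
    · simpa [b] using hz i j
    · have := ho i _ (hmem j)
      simpa [b] using this
    · simpa [b] using hQv
    · simpa [b] using hvw
    · simp [b]

end Cfsg.Agent.S2616
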