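import Cfsg.Statements.S2617


set_option autoImplicit false
open Cfsg
open Matrix

namespace Cfsg.Agent.S2617

/-- The two standard quadratic forms of even dimension 2m over a finite field are not isometric: there is no linear isomorphism carrying the elliptic form Σ_(i<m−1) x_i y_i + z₁² + z₁z₂ + ζ z₂² (t² + t + ζ without roots) to the hyperbolic form Σ_(i<m) x_i y_i (they have different Witt index). -/
theorem result {F : Type*} [Field F] [Finite F] {m : ℕ} (hm : 1 ≤ m) (ζ : F) (hζ : ∀ t : F, t ^ 2 + t + ζ ≠ 0) (g : (Fin m ⊕ Fin m → F) ≃ₗ[F] ((Fin (m - 1) ⊕ Fin (m - 1)) ⊕ Fin 2 → F)) : ¬ (∀ v : Fin m ⊕ Fin m → F, Cfsg.quadFormMinus (m - 1) F 1 ζ (g v) = Cfsg.quadFormPlus m F v) := by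
  classical
  intro hg
  obtain ⟨k, rfl⟩ : ∃ k, m = k + 1 := ⟨m - 1, by omega⟩
  change (Fin (k + 1) ⊕ Fin (k + 1) → F) ≃ₗ[F] ((Fin k ⊕ Fin k) ⊕ Fin 2 → F) at g
  change ∀ v : Fin (k + 1) ⊕ Fin (k + 1) → F, Cfsg.quadFormMinus k F 1 ζ (g v) = Cfsg.quadFormPlus (k + 1) F v at hg
  have hani : ∀ a b : F, a ^ 2 + a * b + ζ * b ^ 2 = 0 → a = 0 ∧ b = 0 := by
    intro a b h
    by_cases hb : b = 0
    · subst hb
      refine ⟨pow_eq_zero_iff two_ne_zero |>.1 (by linear_combination h), rfl⟩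
    · exact absurd (show (a / b) ^ 2 + a / b + ζ = 0 by field_simp; linear_combination h) (hζ _)
  -- the image of a maximal singular subspace
  let ι₀ : (Fin (k + 1) → F) →ₗ[F] ((Fin k ⊕ Fin k) ⊕ Fin 2 → F) :=
    g.toLinearMap.comp (LinearMap.pi (fun i : Fin (k + 1) ⊕ Fin (k + 1) => Sum.elim (fun a => LinearMap.proj a) (fun _ => 0) i))
  have hQ : ∀ u, Cfsg.quadFormMinus k F 1 ζ (ι₀ u) = 0 := fun u => by
    show Cfsg.quadFormMinus k F 1 ζ (g _) = 0
    rw [hg]
    simp [Cfsg.quadFormPlus]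
  have hinj : Function.Injective ι₀ := by
    intro u v h
    have h' := g.injective h
    funext i
    exact congrFun h' (Sum.inl i)
  let fx : (Fin (k + 1) → F) →ₗ[F] (Fin k → F) := LinearMap.pi fun i => (LinearMap.proj (Sum.inl (Sum.inl i))).comp ι₀
  let fy : (Fin (k + 1) → F) →ₗ[F] (Fin k → F) := LinearMap.pi fun i => (LinearMap.proj (Sum.inl (Sum.inr i))).comp ι₀
  have hker : ∀ u, fx u = 0 → ι₀ u (Sum.inr 0) = 0 ∧ ι₀ u (Sum.inr 1) = 0 := by
    intro u hu
    refine hani _ _ ?_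
    have h := hQ u
    have hx : ∀ i, ι₀ u (Sum.inl (Sum.inl i)) = 0 := fun i => congrFun hu i
    simpa [Cfsg.quadFormMinus, hx] using h
  have hyinj : Function.Injective (fy.domRestrict (LinearMap.ker fx)) := by
    refine (injective_iff_map_eq_zero _).2 fun u hu => ?_
    refine Subtype.ext (hinj ?_)
    rw [ZeroMemClass.coe_zero, map_zero]
    funext i
    rcases i with (i | i) | i
    · exact congrFun (LinearMap.mem_ker.1 u.2) i
    · exact congrFun hu i
    · fin_cases i
      · exact (hker _ (LinearMap.mem_ker.1 u.2)).1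
      · exact (hker _ (LinearMap.mem_ker.1 u.2)).2
  let Y := LinearMap.range (fy.domRestrict (LinearMap.ker fx))
  have hperp : LinearMap.range ((dotProductEquiv F (Fin k) : (Fin k → F) →ₗ[F] Module.Dual F (Fin k → F)).comp fx) ≤ Y.dualAnnihilator := by
    rintro _ ⟨u, rfl⟩
    rw [Submodule.mem_dualAnnihilator]
    rintro _ ⟨⟨v, hv⟩, rfl⟩
    show fx u ⬝ᵥ fy v = 0
    have h := hQ (u + v)
    have hu := hQ u
    have hv' := hQ v
    have hz := hker v (LinearMap.mem_ker.1 hv)
    have hx : ∀ i, ι₀ v (Sum.inl (Sum.inl i)) = 0 := fun i => congrFun (LinearMap.mem_ker.1 hv) i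
    simp only [Cfsg.quadFormMinus, map_add, Pi.add_apply, hx, hz.1, hz.2, add_zero, add_mul, mul_add, Finset.sum_add_distrib] at h hu hv'
    show ∑ i, ι₀ u (Sum.inl (Sum.inl i)) * ι₀ v (Sum.inl (Sum.inr i)) = 0
    linear_combination h - hu
  have h1 := LinearMap.finrank_range_add_finrank_ker fx
  have h2 := LinearMap.finrank_range_of_inj hyinj
  have h3 : Module.finrank F (LinearMap.range fx) ≤ Module.finrank F Y.dualAnnihilator := by
    refine le_trans (le_of_eq ?_) (Submodule.finrank_mono hperp)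
    rw [LinearMap.range_comp]
    exact (LinearEquiv.finrank_map_eq (dotProductEquiv F (Fin k)) (LinearMap.range fx)).symm
  have h4 := Subspace.finrank_add_finrank_dualAnnihilator_eq Y
  rw [Module.finrank_fintype_fun_eq_card, Fintype.card_fin] at h1 h4
  rw [show Module.finrank F Y = Module.finrank F (LinearMap.ker fx) from h2] at h4
  omega

end Cfsg.Agent.S2617
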