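import Cfsg.Statements.S2618
import Cfsg.Agent.Lib.ClassicalQuadBasis

set_option autoImplicit false
open Cfsg

namespace Cfsg.Agent.S2618

/-- Standard (parabolic) basis of a non-degenerate quadratic space of odd dimension 2m + 1 over a finite field (the non-degeneracy of the polar form forces the characteristic to be odd): there is a basis e_i, f_i (i < m), x with Q(e_i) = Q(f_i) = 0, B(e_i, f_j) = δ_ij (B the polar form), the e's pairwise orthogonal and the f's pairwise orthogonal, x orthogonal to all of them and Q(x) ≠ 0. -/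
theorem result {F V : Type*} [Field F] [Finite F] [AddCommGroup V] [Module F V] [FiniteDimensional F V] {m : ℕ} (hV : Module.finrank F V = 2 * m + 1) (Q : QuadraticForm F V) (hQ : (QuadraticMap.polarBilin Q).Nondegenerate) : ∃ b : Module.Basis (Unit ⊕ (Fin m ⊕ Fin m)) F V, Q (b (Sum.inl ())) ≠ 0 ∧ (∀ i, QuadraticMap.polar ⇑Q (b (Sum.inl ())) (b (Sum.inr (Sum.inl i))) = 0 ∧ QuadraticMap.polar ⇑Q (b (Sum.inl ())) (b (Sum.inr (Sum.inr i))) = 0) ∧ (∀ i, Q (b (Sum.inr (Sum.inl i))) = 0 ∧ Q (b (Sum.inr (Sum.inr i))) = 0) ∧ (∀ i j, QuadraticMap.polar ⇑Q (b (Sum.inr (Sum.inl i))) (b (Sum.inr (Sum.inr j))) = if i = j then 1 else 0) ∧ (∀ i j, QuadraticMap.polar ⇑Q (b (Sum.inr (Sum.inl i))) (b (Sum.inr (Sum.inl j))) = 0 ∧ QuadraticMap.polar ⇑Q (b (Sum.inr (Sum.inr i))) (b (Sum.inr (Sum.inr j))) = 0) := by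
  classical
  obtain ⟨e, f, R, hdec, hR⟩ := CfsgLib.QuadBasis.exists_decomp (Q := Q) m 1 le_rfl ⊤ (CfsgLib.QuadBasis.ndP_top hQ) (by rw [finrank_top, hV])
  obtain ⟨v, hvR, hv0⟩ : ∃ v ∈ R, v ≠ 0 := by
    by_contra! h
    have : R = ⊥ := (Submodule.eq_bot_iff R).2 h
    rw [this, finrank_bot] at hR
    exact zero_ne_one hR
  have hspan : ∀ y ∈ R, ∃ c : F, c • v = y := by
    intro y hy
    have := (finrank_eq_one_iff_of_nonzero' (⟨v, hvR⟩ : R) (fun h => hv0 (congrArg Subtype.val h))).1 hR ⟨y, hy⟩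
    obtain ⟨c, hc⟩ := this
    exact ⟨c, congrArg Subtype.val hc⟩
  have hQv : Q v ≠ 0 := by
    intro h
    refine hv0 (hdec.2.1 v hvR fun y hy => ?_)
    obtain ⟨c, rfl⟩ := hspan y hy
    rw [QuadraticMap.polar_smul_right, CfsgLib.QuadBasis.polar_self', h, mul_zero, smul_zero]
  have hli := hdec.independent (κ := Unit) (w := fun _ => v) (fun _ => hvR) (linearIndependent_unique_iff.2 hv0)
  have hli' : LinearIndependent F (Sum.elim (fun _ : Unit => v) (Sum.elim e f)) := by
    have := hli.comp (Equiv.sumComm Unit (Fin m ⊕ Fin m)) (Equiv.injective _)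
    convert this using 1
    ext (k | k) <;> rfl
  let b := basisOfLinearIndependentOfCardEqFinrank hli' (by simp [hV]; omega)
  have hb : ∀ k, b k = Sum.elim (fun _ : Unit => v) (Sum.elim e f) k := fun k => by
    simp [b]
  obtain ⟨-, -, -, hs, hp, hz, ho⟩ := hdec
  refine ⟨b, by simpa [hb] using hQv, fun i => ?_, fun i => ?_, fun i j => ?_, fun i j => ?_⟩
  · simp only [hb, Sum.elim_inl, Sum.elim_inr]
    exact ⟨by rw [QuadraticMap.polar_comm]; exact (ho i v hvR).1, by rw [QuadraticMap.polar_comm]; exact (ho i v hvR).2⟩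
  · simpa [hb] using hs i
  · simpa [hb] using hp i j
  · simpa [hb] using hz i j

end Cfsg.Agent.S2618
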