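import Cfsg.Statements.S2619


set_option autoImplicit false
open Cfsg

namespace Cfsg.Agent.S2619

/-- Over a finite field of characteristic two, given an alternating bilinear form B on a finite-dimensional space, a basis (v_i) and scalars (λ_i), there is exactly one quadratic form whose polar form is B and whose value at each v_i is λ_i. -/
theorem result {F V ι : Type*} [Field F] [Finite F] [CharP F 2] [AddCommGroup V] [Module F V] [Fintype ι] (b : Module.Basis ι F V) (B : LinearMap.BilinForm F V) (hB : B.IsAlt) (c : ι → F) : ∃! Q : QuadraticForm F V, QuadraticMap.polarBilin Q = B ∧ ∀ i, Q (b i) = c i := by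
  classical
  letI : LinearOrder ι := LinearOrder.lift' (Fintype.equivFin ι) (Equiv.injective _)
  set B' : LinearMap.BilinMap F V F := b.constr (S := F) fun i => b.constr (S := F) fun j =>
    if i = j then c i else if i < j then B (b i) (b j) else 0 with hB'
  have happ : ∀ i j, B' (b i) (b j) = if i = j then c i else if i < j then B (b i) (b j) else 0 := fun i j => by
    rw [hB', Module.Basis.constr_basis, Module.Basis.constr_basis]
  have hflip : ∀ i j, B (b j) (b i) = B (b i) (b j) := fun i j => by
    have h := LinearMap.IsAlt.neg hB (b i) (b j); rw [CharTwo.neg_eq] at h; exact h.symm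
  refine ⟨B'.toQuadraticMap, ⟨?_, fun i => ?_⟩, ?_⟩
  · refine b.ext fun i => b.ext fun j => ?_
    show QuadraticMap.polar _ (b i) (b j) = _
    rw [LinearMap.BilinMap.polar_toQuadraticMap, happ, happ]
    rcases lt_trichotomy i j with h | rfl | h
    · rw [if_neg h.ne, if_pos h, if_neg h.ne', if_neg h.not_gt, add_zero]
    · rw [if_pos rfl, CharTwo.add_self_eq_zero, hB.self_eq_zero]
    · rw [if_neg h.ne', if_neg h.not_gt, if_neg h.ne, if_pos h, zero_add, hflip]
  · rw [LinearMap.BilinMap.toQuadraticMap_apply, happ, if_pos rfl]
  · rintro Q ⟨hQ, hc⟩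
    rw [← QuadraticMap.toQuadraticMap_toBilin Q b]
    refine congrArg LinearMap.BilinMap.toQuadraticMap ?_
    refine b.ext fun i => b.ext fun j => ?_
    rw [QuadraticMap.toBilin_apply, happ, hc]
    rw [← QuadraticMap.polarBilin_apply_apply, hQ]

end Cfsg.Agent.S2619
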