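import Cfsg.Statements.S2620
import Cfsg.Agent.Lib.ClassicalDiscriminant

set_option autoImplicit false
open Cfsg
open Matrix

namespace Cfsg.Agent.S2620

/-- Discriminant of the hyperbolic quadratic form Σ_(i<m) x_i y_i over a field with q elements, q odd, m ≥ 1: the determinant of the Gram matrix of its polar form in any basis is a square if and only if m(q − 1)/2 is even (equivalently q^m ≡ 1 (mod 4)). -/
theorem result {F : Type*} [Field F] [Fintype F] {q : ℕ} (hF : Fintype.card F = q) (hq : Odd q) {m : ℕ} (hm : 1 ≤ m) {ι : Type*} [Fintype ι] [DecidableEq ι] (b : Module.Basis ι F (Fin m ⊕ Fin m → F)) : IsSquare (Matrix.of (fun i j : ι => QuadraticMap.polar (Cfsg.quadFormPlus m F) (b i) (b j))).det ↔ Even (m * (q - 1) / 2) := by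
  classical
  let G : Matrix (Fin m ⊕ Fin m) (Fin m ⊕ Fin m) F := Matrix.fromBlocks 0 1 1 0
  obtain ⟨d, hd, hdet⟩ := CfsgLib.Classical.gram_det_square G b
  have hmat : (Matrix.of fun i j : ι => QuadraticMap.polar (Cfsg.quadFormPlus m F) (b i) (b j)) =
      Matrix.of fun i j : ι => b i ⬝ᵥ G *ᵥ b j := by
    ext i j
    simp [G, CfsgLib.Classical.polar_quadFormPlus, dotProduct, Matrix.mulVec, Fintype.sum_sum_type, Matrix.one_apply,
      Finset.sum_add_distrib, mul_comm]
  rw [hmat, hdet, CfsgLib.Classical.det_hyperbolic, Fintype.card_fin, ← CfsgLib.Classical.isSquare_neg_one_pow_iff_even hF hq m]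
  constructor
  · rintro ⟨s, hs⟩
    refine ⟨s / d, ?_⟩
    field_simp
    linear_combination hs
  · rintro ⟨s, hs⟩
    exact ⟨d * s, by rw [hs]; ring⟩

end Cfsg.Agent.S2620
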