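import Cfsg.Statements.S2621
import Cfsg.Agent.Lib.ClassicalDiscriminant

set_option autoImplicit false
open Cfsg
open Matrix

namespace Cfsg.Agent.S2621

/-- Discriminant of an elliptic quadratic form Σ_(i<m−1) x_i y_i + z₁² + a z₁z₂ + c z₂² (binary part anisotropic) in dimension 2m over a field with q elements, q odd, m ≥ 1: the determinant of the Gram matrix of its polar form in any basis is a square if and only if m(q − 1)/2 is odd (equivalently q^m ≡ 3 (mod 4)). -/
theorem result {F : Type*} [Field F] [Fintype F] {q : ℕ} (hF : Fintype.card F = q) (hq : Odd q) {m : ℕ} (hm : 1 ≤ m) (a c : F) (hac : ∀ z₁ z₂ : F, z₁ ^ 2 + a * z₁ * z₂ + c * z₂ ^ 2 = 0 → z₁ = 0 ∧ z₂ = 0) {ι : Type*} [Fintype ι] [DecidableEq ι] (b : Module.Basis ι F ((Fin (m - 1) ⊕ Fin (m - 1)) ⊕ Fin 2 → F)) : IsSquare (Matrix.of (fun i j : ι => QuadraticMap.polar (Cfsg.quadFormMinus (m - 1) F a c) (b i) (b j))).det ↔ ¬ Even (m * (q - 1) / 2) := by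
  classical
  have h2 : (2 : F) ≠ 0 := by
    intro h
    have := FiniteField.even_card_of_char_two (F := F) (CharP.ringChar_of_prime_eq_zero Nat.prime_two (by exact_mod_cast h))
    rw [Nat.odd_iff, ← hF] at hq; omega
  let B : Matrix (Fin 2) (Fin 2) F := !![2, a; a, 2 * c]
  let G : Matrix ((Fin (m - 1) ⊕ Fin (m - 1)) ⊕ Fin 2) ((Fin (m - 1) ⊕ Fin (m - 1)) ⊕ Fin 2) F :=
    Matrix.fromBlocks (Matrix.fromBlocks 0 1 1 0) 0 0 B
  obtain ⟨d, hd, hdet⟩ := CfsgLib.Classical.gram_det_square G b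
  have hmat : (Matrix.of fun i j : ι => QuadraticMap.polar (Cfsg.quadFormMinus (m - 1) F a c) (b i) (b j)) =
      Matrix.of fun i j : ι => b i ⬝ᵥ G *ᵥ b j := by
    ext i j
    simp [G, B, CfsgLib.Classical.polar_quadFormMinus, dotProduct, Matrix.mulVec, Fintype.sum_sum_type, Matrix.one_apply,
      Finset.sum_add_distrib, Fin.sum_univ_two, mul_comm]
    ring
  have hν : ¬ IsSquare (a ^ 2 - 4 * c) := by
    rintro ⟨s, hs⟩
    exact one_ne_zero (hac ((-a + s) / 2) 1 (by field_simp; linear_combination -hs)).2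
  have hval : G.det = (-1) ^ m * (a ^ 2 - 4 * c) := by
    obtain ⟨k, rfl⟩ : ∃ k, m = k + 1 := ⟨m - 1, by omega⟩
    show (Matrix.fromBlocks _ 0 0 B).det = _
    rw [Matrix.det_fromBlocks_zero₁₂, CfsgLib.Classical.det_hyperbolic, Fintype.card_fin]
    simp [B, Matrix.det_fin_two, pow_succ]
    ring
  rw [hmat, hdet, hval, ← CfsgLib.Classical.isSquare_neg_one_pow_iff_even hF hq m,
    ← CfsgLib.Classical.isSquare_mul_iff h2 (pow_ne_zero m (neg_ne_zero.2 one_ne_zero)) hν]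
  constructor
  · rintro ⟨s, hs⟩
    refine ⟨s / d, ?_⟩
    field_simp
    linear_combination hs
  · rintro ⟨s, hs⟩
    exact ⟨d * s, by rw [hs]; ring⟩

end Cfsg.Agent.S2621
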