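import Cfsg.Statements.S2622


set_option autoImplicit false
open Cfsg

namespace Cfsg.Agent.S2622

/-- Over a finite field of characteristic two, a non-degenerate symmetric bilinear form that is not alternating (some vector v has B(v, v) ≠ 0) admits an orthonormal basis. -/
theorem result {F V : Type*} [Field F] [Finite F] [CharP F 2] [AddCommGroup V] [Module F V] [FiniteDimensional F V] {n : ℕ} (hV : Module.finrank F V = n) (B : LinearMap.BilinForm F V) (hS : B.IsSymm) (hB : B.Nondegenerate) (hna : ∃ v : V, B v v ≠ 0) : ∃ b : Module.Basis (Fin n) F V, ∀ i j, B (b i) (b j) = if i = j then 1 else 0 := by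
  classical
  have hsqrt : ∀ x : F, ∃ y : F, y ^ 2 = x := fun x => by
    obtain ⟨y, hy⟩ := FiniteField.isSquare_of_char_two (CharP.ringChar_of_prime_eq_zero Nat.prime_two (by exact_mod_cast (CharTwo.two_eq_zero : (2:F) = 0))) x
    exact ⟨y, by rw [hy, sq]⟩
  have hunit : ∀ {W : Type _} [AddCommGroup W] [Module F W] (C : LinearMap.BilinForm F W), (∃ v, C v v ≠ 0) → ∃ v, C v v = 1 := by
    intro W _ _ C ⟨v, hv⟩
    obtain ⟨y, hy⟩ := hsqrt (C v v)⁻¹
    refine ⟨y • v, ?_⟩
    simp only [map_smul, LinearMap.smul_apply, smul_eq_mul, ← mul_assoc, ← sq, hy]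
    exact inv_mul_cancel₀ hv
  have main : ∀ (k : ℕ) {W : Type _} [AddCommGroup W] [Module F W] [FiniteDimensional F W], Module.finrank F W = k →
      ∀ C : LinearMap.BilinForm F W, (∀ x y, C x y = C y x) → (∀ x, (∀ y, C x y = 0) → x = 0) → (k = 0 ∨ ∃ v, C v v ≠ 0) →
      ∃ c : Fin k → W, ∀ i j, C (c i) (c j) = if i = j then 1 else 0 := by
    intro k
    induction k with
    | zero => intro W _ _ _ _ C _ _ _; exact ⟨Fin.elim0, fun i => i.elim0⟩
    | succ k ih =>
      intro W _ _ _ hk C hsym hnd hne
      have hne' : ∃ v, C v v ≠ 0 := hne.resolve_left (Nat.succ_ne_zero k)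
      -- a unit vector with non-alternating orthogonal
      obtain ⟨v, hv, hgood⟩ : ∃ v, C v v = 1 ∧ (k = 0 ∨ ∃ w, C v w = 0 ∧ C w w ≠ 0) := by
        obtain ⟨v, hv⟩ := hunit C hne'
        by_cases hk0 : k = 0
        · exact ⟨v, hv, Or.inl hk0⟩
        by_cases hw : ∃ w, C v w = 0 ∧ C w w ≠ 0
        · exact ⟨v, hv, Or.inr hw⟩
        push Not at hw
        obtain ⟨e, he0, he⟩ : ∃ e, e ≠ 0 ∧ C v e = 0 := by
          have h1 := LinearMap.finrank_range_add_finrank_ker (C v)
          have h2 : Module.finrank F (LinearMap.range (C v)) ≤ 1 :=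
            (Submodule.finrank_le _).trans (le_of_eq (Module.finrank_self F))
          rw [hk] at h1
          have h3 : LinearMap.ker (C v) ≠ ⊥ := fun hb => by rw [hb, finrank_bot] at h1; omega
          obtain ⟨e, he, he0⟩ := Submodule.exists_mem_ne_zero_of_ne_bot h3
          exact ⟨e, he0, LinearMap.mem_ker.1 he⟩
        obtain ⟨y, hy⟩ : ∃ y, C e y ≠ 0 := by
          by_contra h; push Not at h; exact he0 (hnd e h)
        let f := (C e y)⁻¹ • (y - C v y • v)
        have hvf : C v f = 0 := by simp [f, hv]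
        have hef : C e f = 1 := by simp [f, hsym e v, he, hy]
        have hee := hw e he
        have hff := hw f hvf
        have hsame : ∀ a b, C (v + a) (v + b) = C v v + C v b + (C a v + C a b) := fun a b => by
          simp only [map_add, LinearMap.add_apply]; ring
        refine ⟨v + e, ?_, Or.inr ⟨v + f, ?_, ?_⟩⟩
        · rw [hsame, hv, he, hsym e v, he, hee]; ring
        · rw [hsame, hv, hvf, hsym e v, he, hef, add_zero, zero_add, CharTwo.add_self_eq_zero]
        · rw [hsame, hv, hvf, hsym f v, hvf, hff]; simp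
      let P := LinearMap.ker (C v)
      have hP : Module.finrank F P = k := by
        have h1 := LinearMap.finrank_range_add_finrank_ker (C v)
        have h2 : LinearMap.range (C v) = ⊤ := LinearMap.range_eq_top.2 fun t => ⟨t • v, by simp [hv]⟩
        rw [h2, finrank_top, Module.finrank_self, hk] at h1
        show Module.finrank F (LinearMap.ker (C v)) = k
        omega
      have hCP : ∀ x : P, C v x = 0 := fun x => LinearMap.mem_ker.1 x.2
      obtain ⟨c, hc⟩ := ih hP (C.compl₁₂ P.subtype P.subtype) (fun x y => hsym _ _) (fun x hx => Subtype.ext (hnd x fun y => by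
          have hy : y - C v y • v ∈ P := LinearMap.mem_ker.2 (by simp [hv])
          have h := hx ⟨_, hy⟩
          simp only [LinearMap.compl₁₂_apply, Submodule.subtype_apply, map_sub, map_smul, (hsym (x : W) v).trans (hCP x), smul_zero, sub_zero] at h
          exact h))
        (hgood.imp_right fun ⟨w, hw, hww⟩ => ⟨⟨w, LinearMap.mem_ker.2 hw⟩, hww⟩)
      refine ⟨Fin.cons v fun i => (c i : W), fun i j => ?_⟩
      rcases Fin.eq_zero_or_eq_succ i with rfl | ⟨a, rfl⟩ <;> rcases Fin.eq_zero_or_eq_succ j with rfl | ⟨b, rfl⟩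
      · simp [hv]
      · simp [hCP, eq_comm]
      · simp [hsym _ v, hCP]
      · simpa using hc a b
  obtain ⟨c, hc⟩ := main n hV B (fun x y => hS.eq x y) (fun x hx => hB.1 x hx) (Or.inr hna)
  have hli : LinearIndependent F c := Fintype.linearIndependent_iff.2 fun a ha i => by
    have := congrArg (B (c i)) ha
    simpa [hc] using this
  rcases Nat.eq_zero_or_pos n with h0 | h0
  · subst h0
    obtain ⟨v, hv⟩ := hna
    haveI : Subsingleton V := Module.finrank_zero_iff.1 hV
    exact absurd (by rw [Subsingleton.elim v 0]; simp) hv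
  haveI : Nonempty (Fin n) := ⟨⟨0, h0⟩⟩
  refine ⟨basisOfLinearIndependentOfCardEqFinrank hli (by rw [Fintype.card_fin, hV]), fun i j => ?_⟩
  simp [hc]

end Cfsg.Agent.S2622
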