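import Cfsg.Statements.S2623
import Cfsg.Agent.Lib.ClassicalDiscriminant
import Cfsg.Agent.Lib.ClassicalSimilitude
import Cfsg.Agent.Lib.ClassicalDiagForm

set_option autoImplicit false
open Cfsg
open Matrix

namespace Cfsg.Agent.S2623

/-- Over a finite field of odd order, two quadratic forms on F^n with non-degenerate polar forms are isometric (related by an invertible linear change of variables) if and only if their discriminants (determinants of the Gram matrices of their polar forms) lie in the same square class. -/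
theorem result {F : Type*} [Field F] [Fintype F] (h2 : (2 : F) ≠ 0) {n : ℕ} (Q₁ Q₂ : QuadraticForm F (Fin n → F)) (h₁ : (QuadraticMap.polarBilin Q₁).Nondegenerate) (h₂ : (QuadraticMap.polarBilin Q₂).Nondegenerate) : (∃ g : (Fin n → F) ≃ₗ[F] (Fin n → F), ∀ v, Q₂ (g v) = Q₁ v) ↔ IsSquare ((Matrix.of (fun i j : Fin n => QuadraticMap.polar ⇑Q₁ (Pi.single i 1) (Pi.single j 1))).det * (Matrix.of (fun i j : Fin n => QuadraticMap.polar ⇑Q₂ (Pi.single i 1) (Pi.single j 1))).det) := by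
  classical
  set G₁ := Matrix.of (fun i j : Fin n => QuadraticMap.polar ⇑Q₁ (Pi.single i 1) (Pi.single j 1)) with hG₁
  set G₂ := Matrix.of (fun i j : Fin n => QuadraticMap.polar ⇑Q₂ (Pi.single i 1) (Pi.single j 1)) with hG₂
  have hgram : ∀ (Q : QuadraticForm F (Fin n → F)) (u v : Fin n → F),
      QuadraticMap.polar (⇑Q) u v = u ⬝ᵥ (Matrix.of (fun i j : Fin n => QuadraticMap.polar ⇑Q (Pi.single i 1) (Pi.single j 1))) *ᵥ v := by
    intro Q u v
    have hb := Matrix.toLinearMap₂'_apply' (LinearMap.toMatrix₂' F (QuadraticMap.polarBilin Q)) u v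
    rw [Matrix.toLinearMap₂'_toMatrix'] at hb
    rw [QuadraticMap.polarBilin_apply_apply] at hb
    rw [hb]
    congr 2
  constructor
  · rintro ⟨g, hg⟩
    obtain ⟨d, hd, hdet⟩ := CfsgLib.Classical.gram_det_square G₂ ((Pi.basisFun F (Fin n)).map g)
    have he : (Matrix.of fun i j : Fin n => ((Pi.basisFun F (Fin n)).map g) i ⬝ᵥ G₂ *ᵥ ((Pi.basisFun F (Fin n)).map g) j) = G₁ := by
      ext i j
      rw [Matrix.of_apply, hG₂, ← hgram Q₂]
      simp only [Module.Basis.map_apply, Pi.basisFun_apply, hG₁, Matrix.of_apply]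
      simp [QuadraticMap.polar, ← map_add, hg]
    rw [he] at hdet
    exact ⟨d * G₂.det, by rw [hdet]; ring⟩
  · intro hsq
    rcases Nat.eq_zero_or_pos n with hn | hn
    · subst hn
      exact ⟨LinearEquiv.refl F _, fun v => by rw [LinearEquiv.refl_apply, Subsingleton.elim v 0, QuadraticMap.map_zero, QuadraticMap.map_zero]⟩
    obtain ⟨k, rfl⟩ : ∃ k, n = k + 1 := ⟨n - 1, by omega⟩
    have hfin : Module.finrank F (Fin (k + 1) → F) = k + 1 := by simp
    obtain ⟨b₁, δ₁, hδ₁, hb₁, ho₁⟩ := CfsgLib.DiagForm.exists_normal h2 k (Fin (k + 1) → F) Q₁ (fun x hx => h₁.1 x hx) hfin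
    obtain ⟨b₂, δ₂, hδ₂, hb₂, ho₂⟩ := CfsgLib.DiagForm.exists_normal h2 k (Fin (k + 1) → F) Q₂ (fun x hx => h₂.1 x hx) hfin
    have hdiag : ∀ (Q : QuadraticForm F (Fin (k + 1) → F)) (b : Module.Basis (Fin (k + 1)) F (Fin (k + 1) → F)) (δ : F),
        (∀ i, Q (b i) = if i = Fin.last k then δ else 1) → (∀ i j, i ≠ j → QuadraticMap.polar (⇑Q) (b i) (b j) = 0) →
        ∃ d : F, d ≠ 0 ∧ 2 ^ (k + 1) * δ = d ^ 2 * (Matrix.of (fun i j : Fin (k + 1) => QuadraticMap.polar ⇑Q (Pi.single i 1) (Pi.single j 1))).det := by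
      intro Q b δ hb ho
      obtain ⟨d, hd, hdet⟩ := CfsgLib.Classical.gram_det_square (Matrix.of (fun i j : Fin (k + 1) => QuadraticMap.polar ⇑Q (Pi.single i 1) (Pi.single j 1))) b
      refine ⟨d, hd, ?_⟩
      rw [← hdet]
      have he : (Matrix.of fun i j : Fin (k + 1) => b i ⬝ᵥ (Matrix.of (fun i j : Fin (k + 1) => QuadraticMap.polar ⇑Q (Pi.single i 1) (Pi.single j 1))) *ᵥ b j) = Matrix.diagonal (fun i => 2 * (if i = Fin.last k then δ else 1)) := by
        ext i j
        rw [Matrix.of_apply, ← hgram Q]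
        by_cases hij : i = j
        · subst hij
          rw [Matrix.diagonal_apply_eq, CfsgLib.DiagForm.polar_self2, hb]
        · rw [Matrix.diagonal_apply_ne _ hij, ho i j hij]
      rw [he, Matrix.det_diagonal, Finset.prod_mul_distrib]
      simp [Finset.prod_ite_eq']
    obtain ⟨d₁, hd₁, e₁⟩ := hdiag Q₁ b₁ δ₁ hb₁ ho₁
    obtain ⟨d₂, hd₂, e₂⟩ := hdiag Q₂ b₂ δ₂ hb₂ ho₂
    obtain ⟨r, hr⟩ := hsq
    have h2k : (2 : F) ^ (k + 1) ≠ 0 := pow_ne_zero _ h2
    obtain ⟨s, hs⟩ : ∃ s : F, δ₁ = s * s * δ₂ := by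
      refine ⟨d₁ * d₂ * r / (2 ^ (k + 1) * δ₂), ?_⟩
      field_simp
      linear_combination (2 ^ (k + 1) * δ₂) * e₁ + d₁ ^ 2 * G₁.det * e₂ + (d₁ ^ 2 * d₂ ^ 2) * hr
    obtain ⟨g, hg⟩ := CfsgLib.Similitude.exists_equiv Q₁ Q₂ h₁ rfl b₁
      (fun i => (if i = Fin.last k then s else 1) • b₂ i) one_ne_zero
      (fun i => by
        rw [QuadraticMap.map_smul, hb₂, hb₁, smul_eq_mul, one_mul]
        split_ifs <;> simp [hs])
      (fun i j => by
        rw [QuadraticMap.polar_smul_left, QuadraticMap.polar_smul_right, one_mul]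
        by_cases hij : i = j
        · subst hij
          rw [CfsgLib.DiagForm.polar_self2, CfsgLib.DiagForm.polar_self2, hb₂, hb₁]
          split_ifs <;> simp [hs] <;> ring
        · rw [ho₁ i j hij, ho₂ i j hij, smul_zero, smul_zero])
    exact ⟨g, fun v => by rw [hg, one_mul]⟩

end Cfsg.Agent.S2623
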