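import Cfsg.Statements.S2624
import Cfsg.Agent.Lib.ClassicalSimilitude
import Cfsg.Agent.S2616

set_option autoImplicit false
open Cfsg

namespace Cfsg.Agent.S2624

/-- For a quadratic form Q on F^n with non-degenerate polar form, F finite and n ≥ 2 even, every non-zero scalar c is the multiplier of some similarity: there is an invertible linear map g with Q(g v) = c·Q(v) for all v. -/
theorem result {F : Type*} [Field F] [Fintype F] {n : ℕ} (hn : 2 ≤ n) (he : Even n) (Q : QuadraticForm F (Fin n → F)) (hQ : (QuadraticMap.polarBilin Q).Nondegenerate) (c : F) (hc : c ≠ 0) : ∃ g : (Fin n → F) ≃ₗ[F] (Fin n → F), ∀ v, Q (g v) = c * Q v := by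
  classical
  obtain ⟨m, rfl⟩ := he
  have hV : Module.finrank F (Fin (m + m) → F) = 2 * m := by simp [two_mul]
  rcases Cfsg.Agent.S2616.result (by omega : 1 ≤ m) hV Q hQ with ⟨b, hs, hp, hz⟩ | ⟨b, ζ, hroot, hs, hp, hz, ho, hv, hvw, hw⟩
  · have hself : ∀ k, QuadraticMap.polar (⇑Q) (b k) (b k) = 2 * Q (b k) := fun k => by
      rw [QuadraticMap.polar_self, two_smul, two_mul]
    refine CfsgLib.Similitude.exists_equiv Q Q hQ rfl b (Sum.elim (fun i => c • b (Sum.inl i)) (fun i => b (Sum.inr i))) hc ?_ ?_
    · rintro (i | i) <;> simp [QuadraticMap.map_smul, (hs i).1, (hs i).2]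
    · rintro (i | i) (j | j)
      · simp [QuadraticMap.polar_smul_left, QuadraticMap.polar_smul_right, (hz i j).1]
      · simp [QuadraticMap.polar_smul_left, hp]
      · simp [QuadraticMap.polar_smul_right, QuadraticMap.polar_comm _ (b (Sum.inr i)) (b (Sum.inl j)), hp]
      · simp [(hz i j).2]
  · obtain ⟨a, d, had⟩ : ∃ a d : F, a ^ 2 + a * d + ζ * d ^ 2 = c := by
      by_cases h2 : ringChar F = 2
      · obtain ⟨r, hr⟩ := FiniteField.isSquare_of_char_two h2 c
        exact ⟨r, 0, by rw [hr]; ring⟩
      · have h20 : (2 : F) ≠ 0 := Ring.two_ne_zero h2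
        have h40 : (4 : F) ≠ 0 := by rw [show (4 : F) = 2 * 2 by norm_num]; exact mul_ne_zero h20 h20
        have hE : ζ - 1 / 4 ≠ 0 := by
          intro e
          refine hroot (-(1 / 2)) ?_
          have hζ : ζ = 1 / 4 := sub_eq_zero.1 e
          rw [hζ]
          field_simp
          ring
        obtain ⟨u, d, hud⟩ := FiniteField.exists_root_sum_quadratic (f := Polynomial.X ^ 2)
          (g := Polynomial.C (ζ - 1 / 4) * Polynomial.X ^ 2 - Polynomial.C c)
          (Polynomial.degree_X_pow 2)
          (by rw [Polynomial.degree_sub_C (by rw [Polynomial.degree_C_mul_X_pow 2 hE]; norm_num),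
            Polynomial.degree_C_mul_X_pow 2 hE]; norm_num)
          (FiniteField.odd_card_of_char_ne_two h2)
        simp only [Polynomial.eval_sub, Polynomial.eval_mul, Polynomial.eval_pow, Polynomial.eval_C, Polynomial.eval_X] at hud
        refine ⟨u - d / 2, d, ?_⟩
        field_simp at hud ⊢
        linear_combination hud
    have hvv : QuadraticMap.polar (⇑Q) (b (Sum.inr 0)) (b (Sum.inr 0)) = 2 := by
      rw [QuadraticMap.polar_self, two_smul, hv]; norm_num
    have hww : QuadraticMap.polar (⇑Q) (b (Sum.inr 1)) (b (Sum.inr 1)) = 2 * ζ := by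
      rw [QuadraticMap.polar_self, two_smul, hw, two_mul]
    have hwv : QuadraticMap.polar (⇑Q) (b (Sum.inr 1)) (b (Sum.inr 0)) = 1 := by rw [QuadraticMap.polar_comm, hvw]
    refine CfsgLib.Similitude.exists_equiv Q Q hQ rfl b
      (Sum.elim (Sum.elim (fun i => c • b (Sum.inl (Sum.inl i))) (fun i => b (Sum.inl (Sum.inr i))))
        ![a • b (Sum.inr 0) + d • b (Sum.inr 1), (-d * ζ) • b (Sum.inr 0) + (a + d) • b (Sum.inr 1)]) hc ?_ ?_
    · rintro ((i | i) | k)
      · simp [QuadraticMap.map_smul, (hs i).1]
      · simp [(hs i).2]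
      · fin_cases k <;> simp [QuadraticMap.map_add (⇑Q), QuadraticMap.map_smul, QuadraticMap.polar_smul_left, QuadraticMap.polar_smul_right, hv, hvw, hw]
        · linear_combination had
        · linear_combination ζ * had
    · rintro ((i | i) | k) ((j | j) | k')
      · simp [QuadraticMap.polar_smul_left, QuadraticMap.polar_smul_right, (hz i j).1]
      · simp [QuadraticMap.polar_smul_left, hp]
      · fin_cases k' <;> simp [QuadraticMap.polar_add_right, QuadraticMap.polar_smul_left, QuadraticMap.polar_smul_right, (ho i 0).1, (ho i 1).1]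
      · simp [QuadraticMap.polar_smul_right, QuadraticMap.polar_comm _ (b (Sum.inl (Sum.inr i))) (b (Sum.inl (Sum.inl j))), hp]
      · simp [(hz i j).2]
      · fin_cases k' <;> simp [QuadraticMap.polar_add_right, QuadraticMap.polar_smul_right, (ho i 0).2, (ho i 1).2]
      · fin_cases k <;> simp [QuadraticMap.polar_add_left, QuadraticMap.polar_smul_left, QuadraticMap.polar_smul_right, QuadraticMap.polar_comm _ (b (Sum.inr _)) (b (Sum.inl (Sum.inl j))), (ho j 0).1, (ho j 1).1]
      · fin_cases k <;> simp [QuadraticMap.polar_add_left, QuadraticMap.polar_smul_left, QuadraticMap.polar_comm _ (b (Sum.inr _)) (b (Sum.inl (Sum.inr j))), (ho j 0).2, (ho j 1).2]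
      · fin_cases k <;> fin_cases k' <;> simp [QuadraticMap.polar_add_left, QuadraticMap.polar_add_right, QuadraticMap.polar_smul_left, QuadraticMap.polar_smul_right, hvv, hww, hvw, hwv, -QuadraticMap.polar_self]
        · linear_combination 2 * had
        · linear_combination had
        · linear_combination had
        · linear_combination 2 * ζ * had

end Cfsg.Agent.S2624
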