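import Cfsg.Statements.S2625


set_option autoImplicit false
open Cfsg

namespace Cfsg.Agent.S2625

/-- For a quadratic form Q on F^n with non-degenerate polar form, F finite and n odd (so |F| is odd), the multiplier of any similarity is a square: if g is an invertible linear map with Q(g v) = c·Q(v) for all v then c is a square. -/
theorem result {F : Type*} [Field F] [Fintype F] {n : ℕ} (hn : Odd n) (Q : QuadraticForm F (Fin n → F)) (hQ : (QuadraticMap.polarBilin Q).Nondegenerate) (g : (Fin n → F) ≃ₗ[F] (Fin n → F)) (c : F) (hg : ∀ v, Q (g v) = c * Q v) : IsSquare c := by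
  classical
  let G := LinearMap.toMatrix₂' F (QuadraticMap.polarBilin Q)
  have hG : G.det ≠ 0 := by
    rw [← Matrix.nondegenerate_iff_det_ne_zero]
    exact LinearMap.nondegenerate_toMatrix₂'_iff.2 hQ
  let M := LinearMap.toMatrix' (g : (Fin n → F) →ₗ[F] (Fin n → F))
  have hcomp : (QuadraticMap.polarBilin Q).compl₁₂ (g : (Fin n → F) →ₗ[F] (Fin n → F)) (g : (Fin n → F) →ₗ[F] (Fin n → F)) = c • QuadraticMap.polarBilin Q := by
    refine LinearMap.ext fun u => LinearMap.ext fun v => ?_
    show QuadraticMap.polar Q (g u) (g v) = c * QuadraticMap.polar Q u v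
    simp only [QuadraticMap.polar, ← map_add, hg]
    ring
  have hdet := congrArg (fun B => (LinearMap.toMatrix₂' F B).det) hcomp
  simp only [LinearMap.toMatrix₂'_compl₁₂, map_smul, Matrix.det_mul, Matrix.det_transpose, Matrix.det_smul, Fintype.card_fin] at hdet
  have h2 : M.det ^ 2 = c ^ n := mul_right_cancel₀ hG (by rw [← hdet]; ring)
  obtain ⟨k, rfl⟩ := hn
  rcases eq_or_ne c 0 with rfl | hc
  · exact IsSquare.zero
  refine ⟨M.det / c ^ k, ?_⟩
  field_simp
  rw [h2]; ring

end Cfsg.Agent.S2625
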