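import Cfsg.Statements.S2627
import Cfsg.Agent.Lib.LieOmegaOrbit

set_option autoImplicit false
open Cfsg

namespace Cfsg.Agent.S2627

open Cfsg.Agent.Lib.LieOmegaOrbit Matrix in
/-- For an orthogonal direct sum Q = Q₁ ⊕ Q₂ of quadratic forms with non-degenerate polar forms over a finite field, an isometry g₁ of Q₁ extended by the identity on the second summand lies in Ω(Q) (the commutator subgroup of the orthogonal group of Q) if and only if g₁ lies in Ω(Q₁). (Excluded: the field of two elements when the first summand or the whole space has dimension 4, where the commutator subgroup of O⁺₄(2) is smaller than the group usually called Ω.) -/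
theorem result {F : Type*} [Field F] [Fintype F] {k l : ℕ} (h : Fintype.card F ≠ 2 ∨ (k ≠ 4 ∧ k + l ≠ 4)) (Q₁ : QuadraticForm F (Fin k → F)) (Q₂ : QuadraticForm F (Fin l → F)) (h₁ : (QuadraticMap.polarBilin Q₁).Nondegenerate) (h₂ : (QuadraticMap.polarBilin Q₂).Nondegenerate) (g₁ : ↥(Cfsg.isometryGroup F ⇑Q₁)) : (∃ g : ↥(Cfsg.isometryGroup F (fun v : Fin k ⊕ Fin l → F => Q₁ (v ∘ Sum.inl) + Q₂ (v ∘ Sum.inr))), g ∈ Cfsg.Omega F (fun v : Fin k ⊕ Fin l → F => Q₁ (v ∘ Sum.inl) + Q₂ (v ∘ Sum.inr)) ∧ ((g : Matrix.GeneralLinearGroup (Fin k ⊕ Fin l) F) : Matrix (Fin k ⊕ Fin l) (Fin k ⊕ Fin l) F) = Matrix.fromBlocks ((g₁ : Matrix.GeneralLinearGroup (Fin k) F) : Matrix (Fin k) (Fin k) F) 0 0 1) ↔ g₁ ∈ Cfsg.Omega F ⇑Q₁ := by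
  classical
  let M : Matrix (Fin k) (Fin k) F →* Matrix (Fin k ⊕ Fin l) (Fin k ⊕ Fin l) F :=
    { toFun := fun g => Matrix.fromBlocks g 0 0 1
      map_one' := Matrix.fromBlocks_one
      map_mul' := fun g h => by simp [Matrix.fromBlocks_multiply] }
  let Qs : QuadraticForm F (Fin k ⊕ Fin l → F) :=
    Q₁.comp (LinearMap.funLeft F F Sum.inl) + Q₂.comp (LinearMap.funLeft F F Sum.inr)
  have hf : (⇑Qs : (Fin k ⊕ Fin l → F) → F) = fun v => Q₁ (v ∘ Sum.inl) + Q₂ (v ∘ Sum.inr) := rfl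
  rw [← hf]
  have hM : ∀ (g : Matrix (Fin k) (Fin k) F) (v : Fin k ⊕ Fin l → F),
      M g *ᵥ v = Sum.elim (g *ᵥ (v ∘ Sum.inl)) (v ∘ Sum.inr) := fun g v => by
    simp [M, Matrix.fromBlocks_mulVec]
  let φ : ↥(Cfsg.isometryGroup F ⇑Q₁) →* ↥(Cfsg.isometryGroup F ⇑Qs) :=
    ((Units.map M).comp (Cfsg.isometryGroup F ⇑Q₁).subtype).codRestrict _ fun g u v => by
      show Qs (M (g.1 : Matrix (Fin k) (Fin k) F) *ᵥ u) = Qs u
      rw [hM]
      simp only [hf, Sum.elim_comp_inl, Sum.elim_comp_inr]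
      congr 1
      exact g.2 (u ∘ Sum.inl) (u ∘ Sum.inl)
  have hφ : ∀ g, ((φ g : GL (Fin k ⊕ Fin l) F) : Matrix (Fin k ⊕ Fin l) (Fin k ⊕ Fin l) F) =
      Matrix.fromBlocks ((g : GL (Fin k) F) : Matrix (Fin k) (Fin k) F) 0 0 1 := fun g => rfl
  constructor
  · rintro ⟨g, hg, hgm⟩
    obtain rfl : g = φ g₁ := Subtype.ext (Units.ext hgm)
    have hQ₁ := CfsgLib.Classical.isNondegenerateQuadraticForm_coe Q₁ h₁
    have hp : ∀ v w, QuadraticMap.polar (⇑Qs) v w = QuadraticMap.polar (⇑Q₁) (v ∘ Sum.inl) (w ∘ Sum.inl) +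
        QuadraticMap.polar (⇑Q₂) (v ∘ Sum.inr) (w ∘ Sum.inr) := fun v w => by
      simp only [QuadraticMap.polar, hf]
      rw [show (v + w) ∘ Sum.inl = v ∘ Sum.inl + w ∘ Sum.inl from rfl,
        show (v + w) ∘ Sum.inr = v ∘ Sum.inr + w ∘ Sum.inr from rfl]
      ring
    have hsym : ∀ x, (∀ y, QuadraticMap.polarBilin Qs x y = 0) → x = 0 := by
      intro x hx
      have ha : x ∘ Sum.inl = 0 := h₁.1 _ fun y => by
        have := hx (Sum.elim y 0)
        simpa [hp] using this
      have hb : x ∘ Sum.inr = 0 := h₂.1 _ fun y => by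
        have := hx (Sum.elim 0 y)
        simpa [hp] using this
      funext i
      rcases i with i | i
      · exact congrFun ha i
      · exact congrFun hb i
    have hnd : (QuadraticMap.polarBilin Qs).Nondegenerate := ⟨hsym, fun x hx => hsym x fun y => by
      rw [QuadraticMap.polarBilin_apply_apply, QuadraticMap.polar_comm]; exact hx y⟩
    have hQs := CfsgLib.Classical.isNondegenerateQuadraticForm_coe Qs hnd
    have hc₁ : Nat.card F ≠ 2 ∨ Fintype.card (Fin k) ≠ 4 := by
      rw [Nat.card_eq_fintype_card, Fintype.card_fin]; exact h.imp id And.left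
    have hc : Nat.card F ≠ 2 ∨ Fintype.card (Fin k ⊕ Fin l) ≠ 4 := by
      rw [Nat.card_eq_fintype_card, Fintype.card_sum, Fintype.card_fin, Fintype.card_fin]
      exact h.imp id And.right
    have hQsd : ∀ d, Qs (Sum.elim d 0) = Q₁ d := fun d => by simp [hf]
    have hR : ∀ d (hd : Q₁ d ≠ 0), φ (CfsgLib.Classical.rI hQ₁ d hd) =
        CfsgLib.Classical.rI hQs (Sum.elim d 0) (by rw [hQsd]; exact hd) := by
      intro d hd
      refine Subtype.ext (CfsgLib.Classical.gl_ext_mulVec fun x => ?_)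
      rw [hφ, rI_apply hQs, Matrix.fromBlocks_mulVec, rI_apply hQ₁, hQsd, hp]
      funext i
      rcases i with i | i <;> simp [QuadraticMap.polar]
    obtain ⟨D, hD⟩ := CfsgLib.Classical.exists_dickson hQs hc
    have hDg : D (φ g₁) = 1 := MonoidHom.mem_ker.mp (Abelianization.commutator_subset_ker D hg)
    have hgen : g₁ ∈ Subgroup.closure (CfsgLib.Classical.reflSet hQ₁) :=
      CfsgLib.Classical.closure_reflSet hQ₁ hc₁ ▸ Subgroup.mem_top g₁
    rcases le_or_gt 2 k with hk | hk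
    · have hD1 : ∀ d (hd : Q₁ d ≠ 0), (D.comp φ) (CfsgLib.Classical.rI hQ₁ d hd) = -1 := fun d hd => by
        rw [MonoidHom.comp_apply, hR d hd, hD]
      by_cases h2 : (2 : F) = 0
      · haveI : CharP F 2 := CharTwo.of_one_ne_zero_of_two_eq_zero one_ne_zero h2
        rw [CfsgLib.Classical.omega_eq_ker hQ₁ hc₁ hD1]
        exact hDg
      · obtain ⟨θ, hθ⟩ := CfsgLib.Classical.exists_spinor hQs h2 (by simp; omega)
        have hθ1 : ∀ d (hd : Q₁ d ≠ 0), (θ.comp φ) (CfsgLib.Classical.rI hQ₁ d hd) = -1 ↔ ¬ IsSquare (Q₁ d) :=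
          fun d hd => by rw [MonoidHom.comp_apply, hR d hd, hθ, hQsd]
        rw [CfsgLib.Classical.omega_eq_inf hQ₁ h2 (by simp; omega) hD1 hθ1]
        exact ⟨hDg, MonoidHom.mem_ker.mp (Abelianization.commutator_subset_ker θ hg)⟩
    · have key : g₁ = 1 ∨ ∃ d, ∃ hd : Q₁ d ≠ 0, g₁ = CfsgLib.Classical.rI hQ₁ d hd := by
        refine Subgroup.closure_induction_left ?_ ?_ ?_ hgen
        · exact Or.inl rfl
        all_goals
          rintro x ⟨d, hd, rfl⟩ y _ hy
          try rw [inv_eq_of_mul_eq_one_right (CfsgLib.Classical.rI_sq hQ₁ hd)]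
          rcases hy with rfl | ⟨e, he, rfl⟩
          · exact Or.inr ⟨d, hd, mul_one _⟩
          · left
            obtain ⟨t, ht, rfl⟩ : ∃ t : F, t ≠ 0 ∧ e = t • d := by
              have hd0 : d ≠ 0 := fun h0 => hd (by rw [h0, QuadraticMap.map_zero])
              obtain ⟨i, hi⟩ := Function.ne_iff.mp hd0
              refine ⟨e i / d i, fun h0 => he ?_, ?_⟩
              · rw [div_eq_zero_iff] at h0
                have he0 : e = 0 := funext fun j => by
                  rw [show j = i from Fin.ext (by omega)]; exact h0.resolve_right hi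
                rw [he0, QuadraticMap.map_zero]
              · funext j
                rw [Pi.smul_apply, show j = i from Fin.ext (by omega), smul_eq_mul, div_mul_cancel₀ _ hi]
            rw [show CfsgLib.Classical.rI hQ₁ (t • d) he = CfsgLib.Classical.rI hQ₁ d hd from
              Subtype.ext (CfsgLib.Classical.qR_smul hQ₁ hd ht), CfsgLib.Classical.rI_sq]
      rcases key with rfl | ⟨d, hd, rfl⟩
      · exact Subgroup.one_mem _
      · rw [hR d hd, hD] at hDg
        exact absurd hDg (by decide)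
  · intro hg
    refine ⟨φ g₁, ?_, hφ g₁⟩
    have := Subgroup.mem_map_of_mem φ hg
    rw [Cfsg.Omega, commutator_def, Subgroup.map_commutator] at this
    exact Subgroup.commutator_mono le_top le_top this

end Cfsg.Agent.S2627
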