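import Cfsg.Statements.S2629
import Cfsg.Agent.Lib.ClassicalFamilies

set_option autoImplicit false
open Cfsg

namespace Cfsg.Agent.S2629

/-- For the hyperbolic form Σ x_i y_i on F^(2m) over a finite field of odd order (m ≥ 1), an isometry g preserves the class of the maximal totally singular subspace U₀ = {y = 0} (that is, m − dim(U₀ ∩ gU₀) is even) if and only if det g = 1: the stabiliser of each of the two classes of maximal totally singular subspaces is SO. -/
theorem result {F : Type*} [Field F] [Fintype F] (h2 : (2 : F) ≠ 0) {m : ℕ} (hm : 1 ≤ m) (g : ↥(Cfsg.isometryGroup F (Cfsg.quadFormPlus m F))) : Even (m - Module.finrank F ↥(LinearMap.ker (LinearMap.funLeft F F (Sum.inr : Fin m → Fin m ⊕ Fin m)) ⊓ (LinearMap.ker (LinearMap.funLeft F F (Sum.inr : Fin m → Fin m ⊕ Fin m))).map (Matrix.mulVecLin ((g : Matrix.GeneralLinearGroup (Fin m ⊕ Fin m) F) : Matrix (Fin m ⊕ Fin m) (Fin m ⊕ Fin m) F)))) ↔ ((g : Matrix.GeneralLinearGroup (Fin m ⊕ Fin m) F) :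 Matrix (Fin m ⊕ Fin m) (Fin m ⊕ Fin m) F).det = 1 := by
  classical
  have hQ := CfsgLib.Classical.isNondegenerate_quadFormPlus (F := F) m
  have hcase : Nat.card F ≠ 2 ∨ Fintype.card (Fin m ⊕ Fin m) ≠ 4 := Or.inl fun h => by
    have h0 := FiniteField.cast_card_eq_zero F
    rw [← Nat.card_eq_fintype_card, h, Nat.cast_ofNat] at h0
    exact h2 h0
  obtain ⟨D, hD⟩ := CfsgLib.Classical.exists_dickson hQ hcase
  have hker : LinearMap.ker (LinearMap.funLeft F F (Sum.inr : Fin m → Fin m ⊕ Fin m)) = CfsgLib.Classical.coordHalf F m ∅ := by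
    ext v
    constructor
    · intro hv i; exact ⟨fun h => absurd h (by simp), fun _ => congrFun (LinearMap.mem_ker.1 hv) i⟩
    · intro hv; exact LinearMap.mem_ker.2 (funext fun i => (hv i).2 (by simp))
  have hU : CfsgLib.Classical.IsHalfTS (Q := Cfsg.quadFormPlus m F) (CfsgLib.Classical.coordHalf F m ∅) :=
    ⟨CfsgLib.Classical.coordHalf_ts m ∅, by rw [CfsgLib.Classical.finrank_coordHalf]; simp; ring⟩
  have hp := CfsgLib.Classical.dickson_parity hQ hcase hD g _ _ hU hU
  rw [inf_idem, CfsgLib.Classical.finrank_coordHalf] at hp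
  rw [hker]
  have hdet : D g = 1 ↔ ((g : Matrix.GeneralLinearGroup (Fin m ⊕ Fin m) F) : Matrix (Fin m ⊕ Fin m) (Fin m ⊕ Fin m) F).det = 1 := by
    let φ : ↥(Cfsg.isometryGroup F (Cfsg.quadFormPlus m F)) →* Fˣ := Matrix.GeneralLinearGroup.det.comp (Subgroup.subtype _)
    let ψ : ↥(Cfsg.isometryGroup F (Cfsg.quadFormPlus m F)) →* Fˣ := (Units.map (Int.castRingHom F).toMonoidHom).comp D
    have e : φ = ψ := MonoidHom.eq_of_eqOn_dense (CfsgLib.Classical.closure_reflSet hQ hcase) (by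
      rintro _ ⟨d, hd, rfl⟩
      show Matrix.GeneralLinearGroup.det ((CfsgLib.Classical.rI hQ d hd : Matrix.GeneralLinearGroup (Fin m ⊕ Fin m) F)) = Units.map _ (D _)
      rw [CfsgLib.Classical.det_rI hQ hd, hD d hd]
      exact Units.ext (by simp))
    have he := congrArg (fun u : Fˣ => (u : F)) (DFunLike.congr_fun e g)
    change ((g : Matrix.GeneralLinearGroup (Fin m ⊕ Fin m) F) : Matrix (Fin m ⊕ Fin m) (Fin m ⊕ Fin m) F).det = _ at he
    rw [he]
    rcases Int.units_eq_one_or (D g) with e' | e' <;> simp [ψ, e']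
    intro h
    exact h2 (by linear_combination -h)
  rw [← hdet, ← hp]
  have hle : Module.finrank F ↥(CfsgLib.Classical.coordHalf F m ∅ ⊓ (CfsgLib.Classical.coordHalf F m ∅).map (Matrix.toLin' ((g : Matrix.GeneralLinearGroup (Fin m ⊕ Fin m) F) : Matrix (Fin m ⊕ Fin m) (Fin m ⊕ Fin m) F))) ≤ m :=
    (Submodule.finrank_mono inf_le_left).trans (CfsgLib.Classical.finrank_coordHalf m ∅).le
  rw [Nat.even_iff]
  show (m - Module.finrank F ↥(CfsgLib.Classical.coordHalf F m ∅ ⊓ (CfsgLib.Classical.coordHalf F m ∅).map (Matrix.toLin' ((g : Matrix.GeneralLinearGroup (Fin m ⊕ Fin m) F) : Matrix (Fin m ⊕ Fin m) (Fin m ⊕ Fin m) F)))) % 2 = 0 ↔ _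
  omega

end Cfsg.Agent.S2629
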