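import Cfsg.Statements.S2630
import Cfsg.Agent.Lib.ClassicalFamilies

set_option autoImplicit false
open Cfsg

namespace Cfsg.Agent.S2630

/-- For the hyperbolic form Σ x_i y_i on F^(2m) over a finite field of characteristic two (m ≥ 1, excluding m = 2 over the field of two elements), an isometry g preserves the class of the maximal totally singular subspace U₀ = {y = 0} (m − dim(U₀ ∩ gU₀) even) if and only if g lies in Ω (the commutator subgroup of the orthogonal group): the stabiliser of each class is Ω. -/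
theorem result {F : Type*} [Field F] [Fintype F] [CharP F 2] {m : ℕ} (hm : 1 ≤ m) (h : Fintype.card F ≠ 2 ∨ m ≠ 2) (g : ↥(Cfsg.isometryGroup F (Cfsg.quadFormPlus m F))) : Even (m - Module.finrank F ↥(LinearMap.ker (LinearMap.funLeft F F (Sum.inr : Fin m → Fin m ⊕ Fin m)) ⊓ (LinearMap.ker (LinearMap.funLeft F F (Sum.inr : Fin m → Fin m ⊕ Fin m))).map (Matrix.mulVecLin ((g : Matrix.GeneralLinearGroup (Fin m ⊕ Fin m) F) : Matrix (Fin m ⊕ Fin m) (Fin m ⊕ Fin m) F)))) ↔ g ∈ Cfsg.Omega F (Cfsg.quadFormPlus m F) := by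
  classical
  have hQ := CfsgLib.Classical.isNondegenerate_quadFormPlus (F := F) m
  have hcase : Nat.card F ≠ 2 ∨ Fintype.card (Fin m ⊕ Fin m) ≠ 4 := by
    rcases h with h | h
    · exact Or.inl (by rwa [Nat.card_eq_fintype_card])
    · exact Or.inr (by simp; omega)
  obtain ⟨D, hD⟩ := CfsgLib.Classical.exists_dickson hQ hcase
  have hker : LinearMap.ker (LinearMap.funLeft F F (Sum.inr : Fin m → Fin m ⊕ Fin m)) = CfsgLib.Classical.coordHalf F m ∅ := by
    ext v
    constructor
    · intro hv i; exact ⟨fun h => absurd h (by simp), fun _ => congrFun (LinearMap.mem_ker.1 hv) i⟩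
    · intro hv; exact LinearMap.mem_ker.2 (funext fun i => (hv i).2 (by simp))
  have hU : CfsgLib.Classical.IsHalfTS (Q := Cfsg.quadFormPlus m F) (CfsgLib.Classical.coordHalf F m ∅) :=
    ⟨CfsgLib.Classical.coordHalf_ts m ∅, by rw [CfsgLib.Classical.finrank_coordHalf]; simp; ring⟩
  have hp := CfsgLib.Classical.dickson_parity hQ hcase hD g _ _ hU hU
  rw [inf_idem, CfsgLib.Classical.finrank_coordHalf] at hp
  rw [hker]
  rw [CfsgLib.Classical.omega_eq_ker hQ hcase hD, MonoidHom.mem_ker, ← hp]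
  have hle : Module.finrank F ↥(CfsgLib.Classical.coordHalf F m ∅ ⊓ (CfsgLib.Classical.coordHalf F m ∅).map (Matrix.toLin' ((g : Matrix.GeneralLinearGroup (Fin m ⊕ Fin m) F) : Matrix (Fin m ⊕ Fin m) (Fin m ⊕ Fin m) F))) ≤ m :=
    (Submodule.finrank_mono inf_le_left).trans (CfsgLib.Classical.finrank_coordHalf m ∅).le
  rw [Nat.even_iff]
  show (m - Module.finrank F ↥(CfsgLib.Classical.coordHalf F m ∅ ⊓ (CfsgLib.Classical.coordHalf F m ∅).map (Matrix.toLin' ((g : Matrix.GeneralLinearGroup (Fin m ⊕ Fin m) F) : Matrix (Fin m ⊕ Fin m) (Fin m ⊕ Fin m) F)))) % 2 = 0 ↔ _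
  omega

end Cfsg.Agent.S2630
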