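import Cfsg.Statements.S2631
import Cfsg.Agent.Lib.LieOmegaOrbit
import Cfsg.Agent.Lib.ClassicalQuadStd2

set_option autoImplicit false
open Cfsg

namespace Cfsg.Agent.S2631

open Cfsg.Agent.Lib.LieOmegaOrbit Matrix in
/-- For the hyperbolic form Σ x_i y_i on F^(2m) over a finite field (m ≥ 1, excluding m = 2 over the field of two elements), Ω (the commutator subgroup of the orthogonal group) acts transitively on each of the two classes of maximal totally singular subspaces: if U and W are m-dimensional totally singular subspaces with m − dim(U ∩ W) even, some element of Ω carries U to W. -/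
theorem result {F : Type*} [Field F] [Fintype F] {m : ℕ} (hm : 1 ≤ m) (h : Fintype.card F ≠ 2 ∨ m ≠ 2) (U W : Submodule F (Fin m ⊕ Fin m → F)) (hU : Module.finrank F U = m) (hW : Module.finrank F W = m) (hU0 : ∀ u ∈ U, Cfsg.quadFormPlus m F u = 0) (hW0 : ∀ w ∈ W, Cfsg.quadFormPlus m F w = 0) (he : Even (m - Module.finrank F ↥(U ⊓ W))) : ∃ g : ↥(Cfsg.isometryGroup F (Cfsg.quadFormPlus m F)), g ∈ Cfsg.Omega F (Cfsg.quadFormPlus m F) ∧ U.map (Matrix.mulVecLin ((g : Matrix.GeneralLinearGroup (Fin m ⊕ Fin m) F) : Matrix (Fin m ⊕ Fin m) (Fin m ⊕ Fin m) F)) = W := by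
  classical
  let Qf : QuadraticForm F (Fin m ⊕ Fin m → F) := ∑ i : Fin m,
      QuadraticMap.linMulLin (LinearMap.proj (Sum.inl i)) (LinearMap.proj (Sum.inr i))
  have hf : (⇑Qf : (Fin m ⊕ Fin m → F) → F) = Cfsg.quadFormPlus m F := funext fun v => by
    simp [Qf, Cfsg.quadFormPlus]
  rw [← hf] at hU0 hW0 ⊢
  have hQ' : Cfsg.Geo.IsNondegenerateQuadraticForm ⇑Qf := hf ▸ CfsgLib.Classical.isNondegenerate_quadFormPlus (F := F) m
  obtain ⟨-, hnd⟩ : True ∧ (QuadraticMap.polarBilin Qf).Nondegenerate := by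
    obtain ⟨Q', hQ'', hnd⟩ := CfsgLib.Classical.exists_quadraticForm hQ'
    have : Q' = Qf := DFunLike.coe_injective hQ''
    exact ⟨trivial, this ▸ hnd⟩
  have hcard : Nat.card F ≠ 2 ∨ Fintype.card (Fin m ⊕ Fin m) ≠ 4 := by
    rcases h with h | h
    · exact Or.inl (by rwa [Nat.card_eq_fintype_card])
    · exact Or.inr (by simp; omega)
  obtain ⟨D, hD⟩ := CfsgLib.Classical.exists_dickson hQ' hcard
  have hhU : CfsgLib.Classical.IsHalfTS (Q := ⇑Qf) U := ⟨hU0, by rw [hU]; simp; ring⟩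
  let e : U ≃ₗ[F] W := LinearEquiv.ofFinrankEq _ _ (hU.trans hW.symm)
  obtain ⟨g, hg⟩ := exists_witt Qf hnd U W e (fun u => by rw [hW0 _ (e u).2, hU0 _ u.2])
  have hgW : U.map (Matrix.mulVecLin ((g : GL (Fin m ⊕ Fin m) F) : Matrix (Fin m ⊕ Fin m) (Fin m ⊕ Fin m) F)) = W :=
    map_eq (hU.trans hW.symm) _ hg
  have hDg : D g = 1 := by
    have hp := CfsgLib.Classical.dickson_parity hQ' hcard hD g U U hhU hhU
    rw [← hp, inf_idem, hU]
    have hgW' : U.map (Matrix.toLin' ((g : GL (Fin m ⊕ Fin m) F) : Matrix (Fin m ⊕ Fin m) (Fin m ⊕ Fin m) F)) = W := hgW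
    rw [hgW']
    have := Submodule.finrank_mono (inf_le_left : U ⊓ W ≤ U)
    rw [hU] at this
    obtain ⟨r, hr⟩ := he
    omega
  obtain ⟨s, hs, hmem⟩ : ∃ s, St U s ∧ g * s ∈ Cfsg.Omega F ⇑Qf := by
    by_cases h2 : (2 : F) = 0
    · haveI : CharP F 2 := CharTwo.of_one_ne_zero_of_two_eq_zero one_ne_zero h2
      exact ⟨1, fun x hx => by simpa using hx, by
        rw [mul_one, CfsgLib.Classical.omega_eq_ker hQ' hcard hD]; exact hDg⟩
    · obtain ⟨θ, hθ⟩ := CfsgLib.Classical.exists_spinor hQ' h2 (by simp; omega)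
      rw [CfsgLib.Classical.omega_eq_inf hQ' h2 (by simp; omega) hD hθ]
      rcases Int.units_eq_one_or (θ g) with e2 | e2
      · exact ⟨1, fun x hx => by simpa using hx, by simp [Subgroup.mem_inf, hDg, e2]⟩
      · haveI : Nontrivial U := Module.nontrivial_of_finrank_pos (R := F) (by omega)
        obtain ⟨⟨u, huU⟩, hu⟩ := exists_ne (0 : U)
        obtain ⟨f, hQf, huf⟩ := hyperbolic_partner Qf hnd (hU0 u huU) (fun h0 => hu (Subtype.ext h0))
        obtain ⟨s, hs1, hs2, hs3⟩ := exists_pair_elem Qf hQ' h2 (hU0 u huU) hQf huf D θ hD hθ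
        refine ⟨s, fun x hx => ?_, by simp [Subgroup.mem_inf, hDg, e2, hs1, hs2]⟩
        obtain ⟨a, b, hab⟩ := hs3 x
        have hxu : QuadraticMap.polar (⇑Qf) x u = 0 := by
          simp [QuadraticMap.polar, hU0 _ hx, hU0 _ huU, hU0 _ (U.add_mem hx huU)]
        rw [hab, hxu, zero_mul, zero_smul, add_zero]
        exact U.add_mem hx (U.smul_mem _ huU)
  refine ⟨g * s, hmem, map_eq (hU.trans hW.symm) _ fun x hx => ?_⟩
  rw [Subgroup.coe_mul, Units.val_mul, ← Matrix.mulVec_mulVec]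
  exact hg _ (hs _ hx)

end Cfsg.Agent.S2631
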