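import Cfsg.Statements.S2632
import Cfsg.Agent.Lib.LieOmegaOrbit

set_option autoImplicit false
open Cfsg

namespace Cfsg.Agent.S2632

open Cfsg.Agent.Lib.LieOmegaOrbit Matrix in
/-- Ω is transitive on non-degenerate subspaces of each isometry type: for a quadratic form Q on F^n, n ≥ 3, with non-degenerate polar form (F finite; excluding dimension 4 over the field of two elements), if U and W are subspaces on which the polar form is non-degenerate and there is a Q-preserving linear isomorphism U → W, then some element of Ω (the commutator subgroup of the orthogonal group) carries U to W. (In dimension 2 this fails: Ω can be {±1}, which fixes every line.) -/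
theorem result {F : Type*} [Field F] [Fintype F] {n : ℕ} (hn : 3 ≤ n) (h : Fintype.card F ≠ 2 ∨ n ≠ 4) (Q : QuadraticForm F (Fin n → F)) (hQ : (QuadraticMap.polarBilin Q).Nondegenerate) (U W : Submodule F (Fin n → F)) (hU : U ⊓ LinearMap.BilinForm.orthogonal (QuadraticMap.polarBilin Q) U = ⊥) (hW : W ⊓ LinearMap.BilinForm.orthogonal (QuadraticMap.polarBilin Q) W = ⊥) (e : U ≃ₗ[F] W) (he : ∀ u : U, Q (e u : Fin n → F) = Q (u : Fin n → F)) : ∃ g : ↥(Cfsg.isometryGroup F ⇑Q), g ∈ Cfsg.Omega F ⇑Q ∧ U.map (Matrix.mulVecLin ((g : Matrix.GeneralLinearGroup (Fin n) F) : Matrix (Fin n) (Fin n) F)) = W := by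
  classical
  have hQ' := CfsgLib.Classical.isNondegenerateQuadraticForm_coe Q hQ
  have hB : ∀ x y, QuadraticMap.polarBilin Q x y = QuadraticMap.polar (⇑Q) x y := fun x y => rfl
  have hcard : Nat.card F ≠ 2 ∨ Fintype.card (Fin n) ≠ 4 := by
    rw [Nat.card_eq_fintype_card, Fintype.card_fin]; exact h
  set O := LinearMap.BilinForm.orthogonal (QuadraticMap.polarBilin Q) U with hO
  have hmemO : ∀ x, x ∈ O ↔ ∀ u ∈ U, QuadraticMap.polar (⇑Q) u x = 0 := fun x =>
    LinearMap.BilinForm.mem_orthogonal_iff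
  have hndU : ∀ x ∈ U, (∀ y ∈ U, QuadraticMap.polar (⇑Q) x y = 0) → x = 0 := by
    intro x hx hxy
    have h1 : x ∈ U ⊓ O := ⟨hx, (hmemO x).mpr fun u hu => by
      rw [QuadraticMap.polar_comm]; exact hxy u hu⟩
    rwa [hU, Submodule.mem_bot] at h1
  have hsup : U ⊔ O = ⊤ := by
    refine Submodule.eq_top_of_finrank_eq ?_
    have h1 := Submodule.finrank_sup_add_finrank_inf_eq U O
    have h3 : Module.finrank F O = Module.finrank F (Fin n → F) - Module.finrank F U :=
      LinearMap.BilinForm.finrank_orthogonal hQ U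
    rw [hU, finrank_bot, h3] at h1
    have h4 := Submodule.finrank_le U
    omega
  have hndO : ∀ x ∈ O, (∀ y ∈ O, QuadraticMap.polar (⇑Q) x y = 0) → x = 0 := by
    intro x hx hxy
    refine hQ.1 x fun y => ?_
    rw [hB]
    obtain ⟨a, ha, b, hb, rfl⟩ := Submodule.mem_sup.mp (show y ∈ U ⊔ O by rw [hsup]; trivial)
    rw [QuadraticMap.polar_add_right, QuadraticMap.polar_comm, (hmemO x).mp hx a ha, hxy b hb, add_zero]
  have hst : ∀ d (hd : Q d ≠ 0), d ∈ U ∨ d ∈ O → St U (CfsgLib.Classical.rI hQ' d hd) := by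
    intro d hd hdm x hx
    rw [rI_apply hQ' hd]
    rcases hdm with hdm | hdm
    · exact U.sub_mem hx (U.smul_mem _ hdm)
    · rw [(hmemO d).mp hdm x hx, zero_div, zero_smul, sub_zero]
      exact hx
  have hmul : ∀ s t : ↥(Cfsg.isometryGroup F ⇑Q), St U s → St U t → St U (s * t) := fun s t hs ht x hx => by
    rw [Subgroup.coe_mul, Units.val_mul, ← Matrix.mulVec_mulVec]
    exact hs _ (ht _ hx)
  have hdim : Module.finrank F U + Module.finrank F O = n := by
    have h1 := Submodule.finrank_sup_add_finrank_inf_eq U O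
    rw [hsup, hU, finrank_bot, finrank_top, Module.finrank_fin_fun, add_zero] at h1
    omega
  obtain ⟨R, hR, hR2, hRm⟩ : ∃ R : Submodule F (Fin n → F), (∀ x ∈ R, (∀ y ∈ R, QuadraticMap.polar (⇑Q) x y = 0) → x = 0) ∧
      2 ≤ Module.finrank F R ∧ ∀ d ∈ R, d ∈ U ∨ d ∈ O := by
    rcases le_or_gt 2 (Module.finrank F U) with h1 | h1
    · exact ⟨U, hndU, h1, fun d hd => Or.inl hd⟩
    · exact ⟨O, hndO, by omega, fun d hd => Or.inr hd⟩
  have key : ∀ g, ∃ s, St U s ∧ g * s ∈ Cfsg.Omega F ⇑Q := by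
    intro g
    by_cases h2 : (2 : F) = 0
    · haveI : CharP F 2 := CharTwo.of_one_ne_zero_of_two_eq_zero one_ne_zero h2
      haveI : Nontrivial R := Module.nontrivial_of_finrank_pos (R := F) (by omega)
      obtain ⟨d, hd⟩ := CfsgLib.DiagForm.exists_value_ne_zero (Q.comp R.subtype) fun x hx =>
        Subtype.ext (hR x.1 x.2 fun y hy => by simpa [QuadraticMap.polar] using hx ⟨y, hy⟩)
      exact fix_even hQ' hcard U d hd (hst _ hd (hRm _ d.2)) g
    · have hF2 : ringChar F ≠ 2 := fun hr => h2 (by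
        have := ringChar.Nat.cast_ringChar (R := F); rw [hr] at this; simpa using this)
      obtain ⟨ν, hν⟩ := FiniteField.exists_nonsquare (F := F) hF2
      have hν0 : ν ≠ 0 := fun h => hν (h ▸ IsSquare.zero)
      obtain ⟨a, haR, ha⟩ := exists_value_in Q h2 R hR hR2 hQ' 1
      obtain ⟨b, hbR, hb⟩ := exists_value_in Q h2 R hR hR2 hQ' ν
      exact fix_odd hQ' h2 (by rw [Fintype.card_fin]; omega) U a (ha ▸ one_ne_zero) (hst _ _ (hRm _ haR))
        a b (ha ▸ one_ne_zero) (hb ▸ hν0) (ha ▸ IsSquare.one) (hb ▸ hν)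
        (hmul _ _ (hst _ _ (hRm _ haR)) (hst _ _ (hRm _ hbR))) g
  obtain ⟨g, hg⟩ := exists_witt Q hQ U W e he
  obtain ⟨s, hs, hmem⟩ := key g
  refine ⟨g * s, hmem, map_eq (LinearEquiv.finrank_eq e) _ fun x hx => ?_⟩
  rw [Subgroup.coe_mul, Units.val_mul, ← Matrix.mulVec_mulVec]
  exact hg _ (hs _ hx)

end Cfsg.Agent.S2632
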