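import Cfsg.Statements.S2633
import Cfsg.Agent.Lib.LieOmegaOrbit

set_option autoImplicit false
open Cfsg

namespace Cfsg.Agent.S2633

open Cfsg.Agent.Lib.LieOmegaOrbit Matrix in
/-- Ω is transitive on totally singular subspaces of each dimension less than half the dimension: for a quadratic form Q on F^n with non-degenerate polar form (F finite; excluding dimension 4 over the field of two elements), if U and W are subspaces of the same dimension k with 2k < n on which Q vanishes, then some element of Ω (the commutator subgroup of the orthogonal group) carries U to W. -/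
theorem result {F : Type*} [Field F] [Fintype F] {n : ℕ} (h : Fintype.card F ≠ 2 ∨ n ≠ 4) (Q : QuadraticForm F (Fin n → F)) (hQ : (QuadraticMap.polarBilin Q).Nondegenerate) (U W : Submodule F (Fin n → F)) {k : ℕ} (hk : 2 * k < n) (hU : Module.finrank F U = k) (hW : Module.finrank F W = k) (hU0 : ∀ u ∈ U, Q u = 0) (hW0 : ∀ w ∈ W, Q w = 0) : ∃ g : ↥(Cfsg.isometryGroup F ⇑Q), g ∈ Cfsg.Omega F ⇑Q ∧ U.map (Matrix.mulVecLin ((g : Matrix.GeneralLinearGroup (Fin n) F) : Matrix (Fin n) (Fin n) F)) = W := by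
  classical
  have hQ' := CfsgLib.Classical.isNondegenerateQuadraticForm_coe Q hQ
  have hB : ∀ x y, QuadraticMap.polarBilin Q x y = QuadraticMap.polar (⇑Q) x y := fun x y => rfl
  have hcard : Nat.card F ≠ 2 ∨ Fintype.card (Fin n) ≠ 4 := by
    rw [Nat.card_eq_fintype_card, Fintype.card_fin]; exact h
  rcases Nat.eq_zero_or_pos k with rfl | hk0
  · refine ⟨1, Subgroup.one_mem _, ?_⟩
    rw [Submodule.finrank_eq_zero.mp hU, Submodule.finrank_eq_zero.mp hW, Submodule.map_bot]
  let e : U ≃ₗ[F] W := LinearEquiv.ofFinrankEq _ _ (hU.trans hW.symm)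
  have he : ∀ u : U, Q (e u : Fin n → F) = Q (u : Fin n → F) := fun u => by
    rw [hW0 _ (e u).2, hU0 _ u.2]
  have hpol : ∀ x ∈ U, ∀ y ∈ U, QuadraticMap.polar (⇑Q) x y = 0 := fun x hx y hy => by
    simp [QuadraticMap.polar, hU0 _ hx, hU0 _ hy, hU0 _ (U.add_mem hx hy)]
  set O := LinearMap.BilinForm.orthogonal (QuadraticMap.polarBilin Q) U with hO
  have hmemO : ∀ x, x ∈ O ↔ ∀ u ∈ U, QuadraticMap.polar (⇑Q) u x = 0 := fun x =>
    LinearMap.BilinForm.mem_orthogonal_iff
  have hrefl : LinearMap.BilinForm.IsRefl (QuadraticMap.polarBilin Q) :=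
    fun a b hab => by rw [hB] at hab ⊢; rwa [QuadraticMap.polar_comm]
  obtain ⟨d, hdO, hd⟩ : ∃ d ∈ O, Q d ≠ 0 := by
    by_contra hcon
    push_neg at hcon
    have hle : O ≤ LinearMap.BilinForm.orthogonal (QuadraticMap.polarBilin Q) O := fun x hx =>
      LinearMap.BilinForm.mem_orthogonal_iff.mpr fun y hy => by
        show QuadraticMap.polar (⇑Q) y x = 0
        simp [QuadraticMap.polar, hcon _ hx, hcon _ hy, hcon _ (O.add_mem hy hx)]
    have h1 := Submodule.finrank_mono hle
    rw [LinearMap.BilinForm.finrank_orthogonal hQ O, hO,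
      LinearMap.BilinForm.finrank_orthogonal hQ U, hU, Module.finrank_fin_fun] at h1
    omega
  have hst : St U (CfsgLib.Classical.rI hQ' d hd) := by
    intro x hx
    rw [rI_apply hQ' hd, (hmemO d).mp hdO x hx, zero_div, zero_smul, sub_zero]
    exact hx
  have key : ∀ g, ∃ s, St U s ∧ g * s ∈ Cfsg.Omega F ⇑Q := by
    intro g
    by_cases h2 : (2 : F) = 0
    · haveI : CharP F 2 := CharTwo.of_one_ne_zero_of_two_eq_zero one_ne_zero h2
      exact fix_even hQ' hcard U d hd hst g
    · have hF2 : ringChar F ≠ 2 := fun hr => h2 (by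
        have := ringChar.Nat.cast_ringChar (R := F); rw [hr] at this; simpa using this)
      obtain ⟨ν, hν⟩ := FiniteField.exists_nonsquare (F := F) hF2
      have hν0 : ν ≠ 0 := fun h => hν (h ▸ IsSquare.zero)
      haveI : Nontrivial U := Module.nontrivial_of_finrank_pos (R := F) (by omega)
      obtain ⟨⟨u, huU⟩, hu⟩ := exists_ne (0 : U)
      have hu0 : u ≠ 0 := fun h => hu (Subtype.ext h)
      obtain ⟨f₀, hf₀⟩ : ∃ f₀, QuadraticMap.polar (⇑Q) u f₀ ≠ 0 := by
        by_contra! hall
        exact hu0 (hQ.1 u fun y => hall y)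
      obtain ⟨f₁, hf₁⟩ : ∃ f₁, QuadraticMap.polar (⇑Q) u f₁ = 1 :=
        ⟨(QuadraticMap.polar (⇑Q) u f₀)⁻¹ • f₀, by rw [QuadraticMap.polar_smul_right, smul_eq_mul, inv_mul_cancel₀ hf₀]⟩
      obtain ⟨f, hQf, huf⟩ : ∃ f, Q f = 0 ∧ QuadraticMap.polar (⇑Q) u f = 1 := by
        refine ⟨f₁ - Q f₁ • u, ?_, ?_⟩
        · rw [sub_eq_add_neg, QuadraticMap.map_add (⇑Q), ← neg_smul, QuadraticMap.polar_smul_right,
            QuadraticMap.map_smul, hU0 _ huU, QuadraticMap.polar_comm, hf₁]
          simp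
        · rw [sub_eq_add_neg, QuadraticMap.polar_add_right, ← neg_smul, QuadraticMap.polar_smul_right,
            hpol u huU u huU, hf₁]
          simp
      have hval : ∀ c : F, Q (u + c • f) = c := fun c => by
        rw [QuadraticMap.map_add (⇑Q), QuadraticMap.map_smul, QuadraticMap.polar_smul_right,
          hU0 _ huU, hQf, huf]
        simp
      have ha : Q (u + (1 : F) • f) ≠ 0 := by rw [hval]; exact one_ne_zero
      have hb : Q (u + ν • f) ≠ 0 := by rw [hval]; exact hν0
      refine fix_odd hQ' h2 (by rw [Fintype.card_fin]; omega) U d hd hst _ _ ha hb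
        (by rw [hval]; exact IsSquare.one) (by rw [hval]; exact hν) ?_ g
      intro x hx
      have hxu := hpol x hx u huU
      have hff : QuadraticMap.polar (⇑Q) f f = 0 := by rw [QuadraticMap.polar_self, hQf, smul_zero]
      have hfu : QuadraticMap.polar (⇑Q) f u = 1 := by rw [QuadraticMap.polar_comm, huf]
      have huu := hpol u huU u huU
      obtain ⟨t, ht⟩ : ∃ t, t = QuadraticMap.polar (⇑Q) x f := ⟨_, rfl⟩
      rw [Subgroup.coe_mul, Units.val_mul, ← Matrix.mulVec_mulVec, rI_apply hQ' hb, rI_apply hQ' ha]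
      simp only [QuadraticMap.polar_add_right, QuadraticMap.polar_smul_right, sub_eq_add_neg, ← neg_smul,
        QuadraticMap.polar_add_left, QuadraticMap.polar_smul_left, hval, hxu, hff, hfu, huu, huf, smul_eq_mul, ← ht]
      have e1 : x + -((0 + ν * t) / ν) • (u + ν • f) +
          -((0 + -((0 + ν * t) / ν) * (0 + ν * 1) + 1 * (t + -((0 + ν * t) / ν) * (1 + ν * 0))) / 1) • (u + (1 : F) • f) =
          x + (t * (ν - 1)) • u := by
        field_simp
        match_scalars <;> field_simp <;> ring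
      rw [e1]
      exact U.add_mem hx (U.smul_mem _ huU)
  obtain ⟨g, hg⟩ := exists_witt Q hQ U W e he
  obtain ⟨s, hs, hmem⟩ := key g
  refine ⟨g * s, hmem, map_eq (LinearEquiv.finrank_eq e) _ fun x hx => ?_⟩
  rw [Subgroup.coe_mul, Units.val_mul, ← Matrix.mulVec_mulVec]
  exact hg _ (hs _ hx)

end Cfsg.Agent.S2633
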