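import Cfsg.Statements.S2634
import Cfsg.Agent.Lib.LieOmegaOrbit

set_option autoImplicit false
open Cfsg

namespace Cfsg.Agent.S2634

open Cfsg.Agent.Lib.LieOmegaOrbit Matrix in
/-- Over a finite field of characteristic two, Ω (the commutator subgroup of the orthogonal group of a quadratic form Q on F^n with non-degenerate polar form; excluding dimension 4 over the field of two elements) acts transitively on the non-singular 1-spaces: for u, v with Q(u) ≠ 0 and Q(v) ≠ 0 some element of Ω carries the line through u to the line through v. -/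
theorem result {F : Type*} [Field F] [Fintype F] [CharP F 2] {n : ℕ} (h : Fintype.card F ≠ 2 ∨ n ≠ 4) (Q : QuadraticForm F (Fin n → F)) (hQ : (QuadraticMap.polarBilin Q).Nondegenerate) (u v : Fin n → F) (hu : Q u ≠ 0) (hv : Q v ≠ 0) : ∃ g : ↥(Cfsg.isometryGroup F ⇑Q), g ∈ Cfsg.Omega F ⇑Q ∧ (F ∙ ((g : Matrix.GeneralLinearGroup (Fin n) F) : Matrix (Fin n) (Fin n) F).mulVec u) = F ∙ v := by
  classical
  have hQ' := CfsgLib.Classical.isNondegenerateQuadraticForm_coe Q hQ
  have hB : ∀ x y, QuadraticMap.polarBilin Q x y = QuadraticMap.polar (⇑Q) x y := fun x y => rfl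
  have hcard : Nat.card F ≠ 2 ∨ Fintype.card (Fin n) ≠ 4 := by
    rw [Nat.card_eq_fintype_card, Fintype.card_fin]; exact h
  obtain ⟨t, ht⟩ : ∃ t : F, Q u = t * t * Q v := by
    obtain ⟨t, ht⟩ := FiniteField.isSquare_of_char_two (F := F) (ringChar.eq F 2) (Q u / Q v)
    exact ⟨t, by rw [← ht, div_mul_cancel₀ _ hv]⟩
  have ht0 : t ≠ 0 := fun h0 => hu (by rw [ht, h0]; simp)
  obtain ⟨g₀, hg₀, hgu⟩ := CfsgLib.Classical.exists_iso_map hQ' hu (b := t • v)
    (by rw [QuadraticMap.map_smul, smul_eq_mul, ← ht])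
  have huu : ∀ x : Fin n → F, QuadraticMap.polar (⇑Q) x x = 0 := fun x => by
    rw [QuadraticMap.polar_self, two_nsmul, CharTwo.add_self_eq_zero]
  have hst : St (F ∙ u) (CfsgLib.Classical.rI hQ' u hu) := by
    intro x hx
    obtain ⟨c, rfl⟩ := Submodule.mem_span_singleton.mp hx
    rw [rI_apply hQ' hu, QuadraticMap.polar_smul_left, huu, smul_zero, zero_div, zero_smul, sub_zero]
    exact hx
  obtain ⟨s, hs, hmem⟩ := fix_even hQ' hcard (F ∙ u) u hu hst ⟨g₀, hg₀⟩
  refine ⟨_, hmem, ?_⟩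
  obtain ⟨c, hc⟩ := Submodule.mem_span_singleton.mp (hs u (Submodule.mem_span_singleton_self u))
  have hc0 : c ≠ 0 := by
    intro h0
    rw [h0, zero_smul] at hc
    have := congrArg (fun w => (((s : GL (Fin n) F)⁻¹ : GL (Fin n) F) : Matrix (Fin n) (Fin n) F) *ᵥ w) hc
    simp [Matrix.mulVec_mulVec] at this
    exact hu (by rw [← this, QuadraticMap.map_zero])
  rw [Subgroup.coe_mul, Units.val_mul, ← Matrix.mulVec_mulVec, ← hc, Matrix.mulVec_smul, hgu, smul_smul]
  exact Submodule.span_singleton_smul_eq (IsUnit.mk0 _ (mul_ne_zero hc0 ht0)) v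

end Cfsg.Agent.S2634
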