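import Cfsg.Statements.S2635
import Cfsg.Agent.Lib.LieOmegaOrbit

set_option autoImplicit false
open Cfsg

namespace Cfsg.Agent.S2635

open Cfsg.Agent.Lib.LieOmegaOrbit Matrix in
/-- Over a finite field of characteristic two, for a quadratic form Q on F^n with non-degenerate polar form, n ≥ 2, other than dimension 4 over the field of two elements, Ω (the commutator subgroup of the orthogonal group) is exactly the subgroup generated by the products of two reflections (orthogonal transvections) x ↦ x − Q(v)⁻¹ f(x, v) v, Q(v) ≠ 0: the products of an even number of reflections. -/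
theorem result {F : Type*} [Field F] [Fintype F] [CharP F 2] {n : ℕ} (hn : 2 ≤ n) (h : Fintype.card F ≠ 2 ∨ n ≠ 4) (Q : QuadraticForm F (Fin n → F)) (hQ : (QuadraticMap.polarBilin Q).Nondegenerate) : Cfsg.Omega F ⇑Q = Subgroup.closure {g : ↥(Cfsg.isometryGroup F ⇑Q) | ∃ u v : Fin n → F, Q u ≠ 0 ∧ Q v ≠ 0 ∧ ((g : Matrix.GeneralLinearGroup (Fin n) F) : Matrix (Fin n) (Fin n) F) = Cfsg.reflectionMatrix ⇑Q u * Cfsg.reflectionMatrix ⇑Q v} := by
  classical
  have hQ' := CfsgLib.Classical.isNondegenerateQuadraticForm_coe Q hQ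
  have hcard : Nat.card F ≠ 2 ∨ Fintype.card (Fin n) ≠ 4 := by
    rw [Nat.card_eq_fintype_card, Fintype.card_fin]; exact h
  obtain ⟨D, hD⟩ := CfsgLib.Classical.exists_dickson hQ' hcard
  rw [CfsgLib.Classical.omega_eq_ker hQ' hcard hD]
  set S := {g : ↥(Cfsg.isometryGroup F ⇑Q) | ∃ u v : Fin n → F, Q u ≠ 0 ∧ Q v ≠ 0 ∧ ((g : Matrix.GeneralLinearGroup (Fin n) F) : Matrix (Fin n) (Fin n) F) = Cfsg.reflectionMatrix ⇑Q u * Cfsg.reflectionMatrix ⇑Q v} with hS
  have hpair : ∀ u v (hu : Q u ≠ 0) (hv : Q v ≠ 0),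
      CfsgLib.Classical.rI hQ' u hu * CfsgLib.Classical.rI hQ' v hv ∈ Subgroup.closure S := fun u v hu hv =>
    Subgroup.subset_closure ⟨u, v, hu, hv, by
      rw [Subgroup.coe_mul, Units.val_mul, ← CfsgLib.Classical.qR_val hQ' hu, ← CfsgLib.Classical.qR_val hQ' hv]
      rfl⟩
  have hle : Subgroup.closure S ≤ D.ker := by
    rw [Subgroup.closure_le]
    rintro g ⟨u, v, hu, hv, hg⟩
    have : g = CfsgLib.Classical.rI hQ' u hu * CfsgLib.Classical.rI hQ' v hv := by
      apply Subtype.ext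
      apply Units.ext
      rw [hg, Subgroup.coe_mul, Units.val_mul, ← CfsgLib.Classical.qR_val hQ' hu, ← CfsgLib.Classical.qR_val hQ' hv]
      rfl
    simp [this, hD]
  refine le_antisymm (fun g hg => ?_) hle
  rcases eq_or_ne g 1 with rfl | _
  · exact Subgroup.one_mem _
  have hgen : g ∈ Subgroup.closure (CfsgLib.Classical.reflSet hQ') :=
    CfsgLib.Classical.closure_reflSet hQ' hcard ▸ Subgroup.mem_top g
  have key : g ∈ Subgroup.closure S ∨ ∃ d, ∃ hd : Q d ≠ 0, CfsgLib.Classical.rI hQ' d hd * g ∈ Subgroup.closure S := by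
    refine Subgroup.closure_induction_left ?_ ?_ ?_ hgen
    · exact Or.inl (Subgroup.one_mem _)
    all_goals
      rintro x ⟨d, hd, rfl⟩ y _ hy
      try rw [inv_eq_of_mul_eq_one_right (CfsgLib.Classical.rI_sq hQ' hd)]
      rcases hy with hy | ⟨e, he, hy⟩
      · exact Or.inr ⟨d, hd, by rwa [← mul_assoc, CfsgLib.Classical.rI_sq, one_mul]⟩
      · left
        have := Subgroup.mul_mem _ (hpair d e hd he) hy
        rwa [mul_assoc, ← mul_assoc (CfsgLib.Classical.rI hQ' e he), CfsgLib.Classical.rI_sq, one_mul] at this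
  rcases key with hk | ⟨d, hd, hk⟩
  · exact hk
  · have := MonoidHom.mem_ker.mp (hle hk)
    rw [map_mul, hD, MonoidHom.mem_ker.mp hg, mul_one] at this
    exact absurd this (by decide)

end Cfsg.Agent.S2635
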