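import Cfsg.Statements.S2636


set_option autoImplicit false
open Cfsg

namespace Cfsg.Agent.S2636

/-- Centraliser of a field automorphism in PGL_n: let F be the field with q = q₀^r elements, σ a field automorphism of F of prime order r (so its fixed field has q₀ elements) and n ≥ 1. The invertible matrices g whose entrywise image under σ is a scalar multiple of g — those whose coset modulo scalars is fixed by σ — number (q − 1)/(q₀ − 1) · |GL_n(q₀)|; equivalently the centraliser in PGL_n(q) of the induced automorphism has the order of PGL_n(q₀). -/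
theorem result {F : Type*} [Field F] [Fintype F] {q₀ r n : ℕ} (hr : r.Prime) (hn : 1 ≤ n) (hF : Fintype.card F = q₀ ^ r) (σ : F ≃+* F) (hσ : orderOf σ = r) : Nat.card {g : GL (Fin n) F // ∃ c : F, c ≠ 0 ∧ (g : Matrix (Fin n) (Fin n) F).map σ = c • (g : Matrix (Fin n) (Fin n) F)} = (q₀ ^ r - 1) / (q₀ - 1) * ∏ i : Fin n, (q₀ ^ n - q₀ ^ (i : ℕ)) := by
  classical
  let G := Subgroup.zpowers (σ : RingAut F)
  haveI : Finite (RingAut F) := Finite.of_injective (fun e : RingAut F => (e : F → F)) DFunLike.coe_injective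
  haveI : Fintype G := Fintype.ofFinite _
  let K := FixedPoints.subfield G F
  have hK : ∀ x : F, x ∈ K ↔ σ x = x := by
    intro x
    constructor
    · intro h; exact h ⟨σ, Subgroup.mem_zpowers σ⟩
    · rintro h ⟨g, hg⟩
      obtain ⟨j, rfl⟩ := hg
      have hfix : (σ : RingAut F) ∈ MulAction.stabilizer (RingAut F) x := h
      exact Subgroup.zpow_mem _ hfix j
  haveI : Fintype K := Fintype.ofFinite _
  have hcK : Nat.card K = q₀ := by
    have h1 := FixedPoints.finrank_eq_card G F
    have h2 : Nat.card G = r := by rw [Nat.card_zpowers, hσ]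
    rw [← Nat.card_eq_fintype_card, h2] at h1
    have h3 := Module.natCard_eq_pow_finrank (K := K) (V := F)
    rw [Nat.card_eq_fintype_card, hF, h1] at h3
    exact (Nat.pow_left_injective hr.ne_zero h3).symm
  let ι : K →+* F := K.subtype
  let Φ : Fˣ × GL (Fin n) K →* GL (Fin n) F :=
    MonoidHom.noncommCoprod (Units.map (Matrix.scalar (Fin n) : F →+* Matrix (Fin n) (Fin n) F).toMonoidHom) (Matrix.GeneralLinearGroup.map ι)
      (fun d h => Units.ext (Matrix.scalar_commute (d : F) (fun x => Commute.all _ x) _).eq)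
  have hΦ : ∀ d h i j, (Φ (d, h) : Matrix (Fin n) (Fin n) F) i j = (d : F) * ((h : Matrix (Fin n) (Fin n) K) i j : F) := by
    intro d h i j
    simp [Φ, ι, Matrix.GeneralLinearGroup.map]
  have hσK : ∀ x : K, σ (x : F) = x := fun x => (hK _).1 x.2
  have hrange : {g : GL (Fin n) F | ∃ c : F, c ≠ 0 ∧ (g : Matrix (Fin n) (Fin n) F).map σ = c • (g : Matrix (Fin n) (Fin n) F)} = (Φ.range : Set (GL (Fin n) F)) := by
    ext g
    constructor
    · rintro ⟨c, hc, hg⟩
      obtain ⟨i₀, j₀, hd⟩ : ∃ i j, (g : Matrix (Fin n) (Fin n) F) i j ≠ 0 := by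
        by_contra hno
        push_neg at hno
        have h1 := congrFun (congrFun g.mul_inv ⟨0, hn⟩) ⟨0, hn⟩
        simp [Matrix.mul_apply, hno] at h1
      set d := (g : Matrix (Fin n) (Fin n) F) i₀ j₀ with hddef
      have he : ∀ i j, σ ((g : Matrix (Fin n) (Fin n) F) i j) = c * (g : Matrix (Fin n) (Fin n) F) i j := fun i j => by
        simpa using congrFun (congrFun hg i) j
      have hmem : ∀ i j, d⁻¹ * (g : Matrix (Fin n) (Fin n) F) i j ∈ K := fun i j => by
        rw [hK, map_mul, map_inv₀, he i j, show σ d = c * d from he i₀ j₀]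
        field_simp
      let h : Matrix (Fin n) (Fin n) K := fun i j => ⟨_, hmem i j⟩
      have hh : h.map ι = d⁻¹ • (g : Matrix (Fin n) (Fin n) F) := by ext i j; rfl
      have hdet : IsUnit h.det := by
        rw [isUnit_iff_ne_zero]
        intro h0
        have : (ι.mapMatrix h).det = 0 := by rw [← RingHom.map_det, h0, map_zero]
        rw [RingHom.mapMatrix_apply, hh, Matrix.det_smul] at this
        exact mul_ne_zero (pow_ne_zero _ (inv_ne_zero hd)) (Matrix.GeneralLinearGroup.det g).ne_zero this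
      refine ⟨(Units.mk0 d hd, Matrix.GeneralLinearGroup.mk'' h hdet), ?_⟩
      apply Units.ext
      ext i j
      rw [hΦ]
      show d * (d⁻¹ * (g : Matrix (Fin n) (Fin n) F) i j) = _
      rw [← mul_assoc, mul_inv_cancel₀ hd, one_mul]
    · rintro ⟨⟨d, h⟩, rfl⟩
      refine ⟨σ d / d, div_ne_zero (by simpa using d.ne_zero) d.ne_zero, ?_⟩
      ext i j
      simp only [Matrix.map_apply, Matrix.smul_apply, hΦ, map_mul, hσK, smul_eq_mul]
      field_simp [d.ne_zero]
  have hker : Nat.card Φ.ker = q₀ - 1 := by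
    rw [← hcK, ← Nat.card_units]
    symm
    let f : Kˣ →* Fˣ × GL (Fin n) K := (Units.map ι.toMonoidHom).prod ((Units.map (Matrix.scalar (Fin n) : K →+* Matrix (Fin n) (Fin n) K).toMonoidHom).comp invMonoidHom)
    have hf : f.range = Φ.ker := by
      ext ⟨d, h⟩
      rw [MonoidHom.mem_ker]
      constructor
      · rintro ⟨u, hu⟩
        rw [← hu]
        apply Units.ext
        ext i j
        rw [show f u = (Units.map ι.toMonoidHom u, Units.map (Matrix.scalar (Fin n) : K →+* Matrix (Fin n) (Fin n) K).toMonoidHom u⁻¹) from rfl, hΦ]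
        by_cases hij : i = j
        · subst hij; simp [ι]
        · simp [hij]
      · intro h1
        have he : ∀ i j, (d : F) * ((h : Matrix (Fin n) (Fin n) K) i j : F) = (1 : Matrix (Fin n) (Fin n) F) i j := fun i j => by rw [← hΦ, h1]; rfl
        have h00 := he ⟨0, hn⟩ ⟨0, hn⟩
        rw [Matrix.one_apply_eq] at h00
        have hdK : (d : F) ∈ K := by
          rw [eq_inv_of_mul_eq_one_left h00]
          exact K.inv_mem ((h : Matrix (Fin n) (Fin n) K) _ _).2
        refine ⟨Units.mk0 ⟨(d : F), hdK⟩ (fun e => d.ne_zero (congrArg Subtype.val e)), Prod.ext (Units.ext rfl) ?_⟩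
        apply Units.ext
        ext i j
        apply mul_left_cancel₀ d.ne_zero
        rw [he]
        by_cases hij : i = j
        · subst hij; simp [f, ι, Matrix.one_apply_eq, mul_inv_cancel₀ d.ne_zero]
        · simp [f, ι, Matrix.one_apply_ne hij, hij]
    rw [← hf]
    refine Nat.card_congr (MonoidHom.ofInjective ?_).toEquiv
    intro a b hab
    exact Units.ext (Subtype.ext (congrArg (fun p : Fˣ × GL (Fin n) K => (p.1 : F)) hab))
  have hcard := Subgroup.card_eq_card_quotient_mul_card_subgroup Φ.ker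
  rw [Nat.card_congr (QuotientGroup.quotientKerEquivRange Φ).toEquiv, Nat.card_prod, Nat.card_units, hker, Matrix.card_GL_field, ← Nat.card_eq_fintype_card, hcK, Nat.card_eq_fintype_card, hF] at hcard
  have hset : Nat.card {g : GL (Fin n) F // ∃ c : F, c ≠ 0 ∧ (g : Matrix (Fin n) (Fin n) F).map σ = c • (g : Matrix (Fin n) (Fin n) F)} = Nat.card Φ.range :=
    Nat.card_congr (Equiv.setCongr hrange)
  have hq : 1 < q₀ := hcK ▸ Finite.one_lt_card
  obtain ⟨t, ht⟩ : q₀ - 1 ∣ q₀ ^ r - 1 := by simpa using Nat.sub_dvd_pow_sub_pow q₀ 1 r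
  rw [hset, ht, Nat.mul_div_cancel_left _ (by omega)]
  rw [ht, mul_assoc, mul_comm (Nat.card Φ.range)] at hcard
  exact (Nat.eq_of_mul_eq_mul_left (by omega) hcard).symm

end Cfsg.Agent.S2636
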