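import Cfsg.Statements.S2641
import Cfsg.Agent.S2640
import Cfsg.Agent.S2679

set_option autoImplicit false
open Cfsg

namespace Cfsg.Agent.S2641

open Cfsg.Agent.S2640 Matrix in
set_option maxHeartbeats 1600000 in
/-- For m odd, the unitary group GU_m(q) (over the field with q² elements) embeds in the orthogonal group O⁻_2m(q) of an elliptic form (Σ_(i<m−1) x_i y_i plus an anisotropic binary form) over the field with q elements (there is an injective homomorphism). -/
theorem result {K F : Type*} [Field K] [Fintype K] [Field F] [Fintype F] {q : ℕ} (hK : Fintype.card K = q ^ 2) (hF : Fintype.card F = q) (m : ℕ) (hm : Odd m) (a b : F) (hab : ∀ z₁ z₂ : F, z₁ ^ 2 + a * z₁ * z₂ + b * z₂ ^ 2 = 0 → z₁ = 0 ∧ z₂ = 0) : ∃ φ : ↥(Cfsg.GU m K q) →* ↥(Cfsg.isometryGroup F (Cfsg.quadFormMinus (m - 1) F a b)), Function.Injective φ := by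
  classical
  obtain ⟨k, rfl⟩ : ∃ k, m = k + k + 1 := by
    obtain ⟨k, rfl⟩ := hm
    exact ⟨k, by omega⟩
  show ∃ φ : ↥(Cfsg.GU (k + k + 1) K q) →* ↥(Cfsg.isometryGroup F (Cfsg.quadFormMinus (k + k) F a b)), Function.Injective φ
  rename' a => ca, b => cb
  have hq : 2 ≤ q := hF ▸ Fintype.one_lt_card
  obtain ⟨ι, hι⟩ := exists_embed hK hF
  obtain ⟨r, hr⟩ := Cfsg.Agent.S2679.exists_root hK hF ι ca cb hab
  have hrF : ∀ u, ι u ≠ r := by
    intro u hu
    rw [← hu, ← map_pow, ← map_mul, ← map_add, ← map_add, map_eq_zero] at hr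
    exact one_ne_zero (hab u 1 (by linear_combination hr)).2
  have hrq0 : r ^ q ≠ r := fun h => by
    obtain ⟨u, hu⟩ := Cfsg.Agent.S2679.fixed_mem ι hF hι r h
    exact hrF u hu
  obtain ⟨e, z, he, hz, hz1⟩ := exists_roots hK hq
  obtain ⟨ω, hω⟩ : ∃ ω : K, ∀ c, ι c ≠ ω := ⟨r, hrF⟩
  obtain ⟨p, hp⟩ := CharP.exists K
  haveI : Fact p.Prime := ⟨CharP.char_is_prime K p⟩
  obtain ⟨⟨a, ha0⟩, hpp, hc⟩ := FiniteField.card K p
  obtain ⟨b, -, hb⟩ := (Nat.dvd_prime_pow hpp).mp (show q ∣ p ^ a from
    ⟨q, by rw [← pow_two]; exact hc.symm.trans hK⟩)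
  have add_q : ∀ x y : K, (x + y) ^ q = x ^ q + y ^ q := fun x y => by
    subst hb
    exact add_pow_char_pow x y p b
  have sub_q : ∀ x y : K, (x - y) ^ q = x ^ q - y ^ q := fun x y => by
    subst hb
    exact sub_pow_char_pow x y b
  have qq : ∀ x : K, (x ^ q) ^ q = x := fun x => by
    rw [← pow_mul, ← pow_two, ← hK, FiniteField.pow_card]
  have hdel : ω ^ q - ω ≠ 0 := by
    intro h
    rw [sub_eq_zero] at h
    obtain ⟨c, hc⟩ : ∃ c, ι c = ω := by
      by_contra hcon
      push_neg at hcon
      -- the roots of X ^ q - X are the image of ι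
      have hsub : (Finset.univ.image ι) ∪ {ω} ⊆ (Polynomial.X ^ q - Polynomial.X : Polynomial K).roots.toFinset := by
        intro x hx
        rw [Multiset.mem_toFinset, Polynomial.mem_roots
          (FiniteField.X_pow_card_sub_X_ne_zero K hq), Polynomial.IsRoot, Polynomial.eval_sub,
          Polynomial.eval_pow, Polynomial.eval_X, sub_eq_zero]
        rcases Finset.mem_union.mp hx with hx | hx
        · obtain ⟨c, -, rfl⟩ := Finset.mem_image.mp hx
          exact hι c
        · rw [Finset.mem_singleton.mp hx, h]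
      have h1 := (Finset.card_le_card hsub).trans ((Multiset.toFinset_card_le _).trans
        (Polynomial.card_roots' _))
      rw [FiniteField.X_pow_card_sub_X_natDegree_eq K hq, Finset.card_union_of_disjoint
        (by simp [hcon]), Finset.card_image_of_injective _ ι.injective, Finset.card_univ, hF,
        Finset.card_singleton] at h1
      omega
    exact hω c hc
  set ν := ω ^ q with hν
  have hνq : ν ^ q = ω := qq ω
  set β0 : K := -ω / (ν - ω) with hβ0
  set β1 : K := 1 / (ν - ω) with hβ1
  have hβ1q : β1 ^ q = -β1 := by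
    rw [hβ1, div_pow, one_pow, sub_q, hνq, ← hν, ← neg_sub ν ω, div_neg]
  have hβ0q : β0 ^ q = β0 * 0 + ν / (ν - ω) := by
    rw [hβ0, div_pow, sub_q, hνq, ← hν, ← neg_sub ν ω]
    have hnq : ((-ω) ^ q : K) = -ν := by
      have := sub_q 0 ω
      rw [zero_sub, zero_pow (by omega), zero_sub] at this
      exact this
    rw [hnq, neg_div_neg_eq]
    ring
  set f := e * z with hf
  have hfq : f ^ (q + 1) = -1 := by rw [hf, mul_pow, he, hz, mul_one]
  have he0 : e ≠ 0 := by
    intro h
    rw [h, zero_pow (by omega)] at he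
    exact one_ne_zero (by linear_combination he)
  set γ := 1 + e ^ q * f with hγ
  have hγ' : γ = 1 - z := by
    rw [hγ, hf, ← mul_assoc, ← pow_succ, he]
    ring
  have hγ0 : γ ≠ 0 := by
    rw [hγ']
    exact sub_ne_zero.mpr (Ne.symm hz1)
  let I : Fin k ⊕ Fin k ≃ Fin (k + k) := finSumFinEquiv
  let A : (Fin (k + k) ⊕ Fin (k + k) → F) → Fin k → K := fun v j =>
    ι (v (.inl (I (.inl j)))) + ι (v (.inl (I (.inr j)))) * ω
  let B : (Fin (k + k) ⊕ Fin (k + k) → F) → Fin k → K := fun v j =>
    γ⁻¹ * (ι (v (.inr (I (.inl j)))) * β0 + ι (v (.inr (I (.inr j)))) * β1)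
  let s : (Fin (k + k) ⊕ Fin (k + k) → F) →+ (Fin (k + k) → K) := AddMonoidHom.mk'
    (fun v i => Sum.elim (fun j => A v j + B v j) (fun j => e * A v j + f * B v j) (I.symm i))
    (fun u v => by
      funext i
      simp only [A, B, Pi.add_apply, map_add]
      rcases I.symm i with j | j <;> simp only [Sum.elim_inl, Sum.elim_inr] <;> ring)
  have hsl : ∀ (c : F) v, s (c • v) = ι c • s v := by
    intro c v
    funext i
    simp only [s, A, B, AddMonoidHom.mk'_apply, Pi.smul_apply, smul_eq_mul, map_mul]
    rcases I.symm i with j | j <;> simp only [Sum.elim_inl, Sum.elim_inr] <;> ring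
  have hinj : Function.Injective s := by
    rw [injective_iff_map_eq_zero]
    intro v hv
    have key : ∀ j, v (.inl (I (.inl j))) = 0 ∧ v (.inl (I (.inr j))) = 0 ∧
        v (.inr (I (.inl j))) = 0 ∧ v (.inr (I (.inr j))) = 0 := by
      intro j
      have h1 := congrFun hv (I (.inl j))
      have h2 := congrFun hv (I (.inr j))
      simp only [s, AddMonoidHom.mk'_apply, Equiv.symm_apply_apply, Sum.elim_inl, Sum.elim_inr,
        Pi.zero_apply] at h1 h2
      have hB : B v j = 0 := by
        have : (f - e) * B v j = 0 := by linear_combination h2 - e * h1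
        refine (mul_eq_zero.mp this).resolve_left ?_
        rw [hf, ← mul_sub_one]
        exact mul_ne_zero he0 (sub_ne_zero.mpr hz1)
      have hA : A v j = 0 := by linear_combination h1 - hB
      simp only [A] at hA
      simp only [B, mul_eq_zero, inv_eq_zero, hγ0, false_or] at hB
      have hy : v (.inl (I (.inr j))) = 0 := by
        by_contra h
        refine hω (-v (.inl (I (.inl j))) / v (.inl (I (.inr j)))) ?_
        rw [map_div₀, map_neg, div_eq_iff ((map_ne_zero ι).mpr h)]
        linear_combination -hA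
      rw [hy, map_zero, zero_mul, add_zero, map_eq_zero] at hA
      have hz0 : v (.inr (I (.inr j))) = 0 := by
        have h3 : ι (v (.inr (I (.inr j)))) = ι (v (.inr (I (.inl j)))) * ω := by
          rw [hβ0, hβ1] at hB
          field_simp at hB
          linear_combination hB
        by_contra h
        rcases eq_or_ne (v (.inr (I (.inl j)))) 0 with h4 | h4
        · rw [h4, map_zero, zero_mul, map_eq_zero] at h3
          exact h h3
        · refine hω (v (.inr (I (.inr j))) / v (.inr (I (.inl j)))) ?_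
          rw [map_div₀, h3]
          field_simp [(map_ne_zero ι).mpr h4]
      rw [hz0, map_zero, zero_mul, add_zero, mul_eq_zero, map_eq_zero] at hB
      refine ⟨hA, hy, hB.resolve_right ?_, hz0⟩
      rw [hβ0]
      refine div_ne_zero (neg_ne_zero.mpr ?_) hdel
      intro h
      exact hω 0 (by rw [map_zero, h])
    funext i
    rcases i with i | i <;> obtain ⟨j, rfl⟩ := I.surjective i <;> rcases j with j | j
    · exact (key j).1
    · exact (key j).2.1
    · exact (key j).2.2.1
    · exact (key j).2.2.2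
  let s' : ((Fin (k + k) ⊕ Fin (k + k)) ⊕ Fin 2 → F) →+ (Fin (k + k + 1) → K) := AddMonoidHom.mk'
    (fun v => Fin.snoc (s fun i => v (.inl i)) (ι (v (.inr 0)) - r * ι (v (.inr 1))))
    (fun u v => by
      funext i
      refine Fin.lastCases ?_ (fun j => ?_) i
      · simp; ring
      · simp only [Fin.snoc_castSucc, Pi.add_apply]
        exact congrFun (map_add s (fun i => u (.inl i)) (fun i => v (.inl i))) j)
  have hsl' : ∀ (c : F) v, s' (c • v) = ι c • s' v := by
    intro c v
    funext i
    refine Fin.lastCases ?_ (fun j => ?_) i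
    · simp [s']; ring
    · simp only [s', AddMonoidHom.mk'_apply, Fin.snoc_castSucc, Pi.smul_apply]
      exact congrFun (hsl c fun i => v (.inl i)) j
  have hbij : Function.Bijective s' := by
    rw [Fintype.bijective_iff_injective_and_card]
    refine ⟨(injective_iff_map_eq_zero s').mpr fun v hv => ?_, ?_⟩
    · have h1 : (fun i => v (.inl i)) = 0 := hinj (by
        rw [map_zero]
        funext j
        simpa [s'] using congrFun hv j.castSucc)
      have h2 : ι (v (.inr 0)) - r * ι (v (.inr 1)) = 0 := by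
        simpa [s'] using congrFun hv (Fin.last _)
      have h3 : v (.inr 1) = 0 := by
        by_contra h
        apply hrF (v (.inr 0) / v (.inr 1))
        rw [map_div₀, div_eq_iff ((map_ne_zero ι).mpr h)]
        linear_combination h2
      rw [h3, map_zero, mul_zero, sub_zero, map_eq_zero] at h2
      funext i
      rcases i with i | i
      · exact congrFun h1 i
      · fin_cases i
        · exact h2
        · exact h3
    · simp only [Fintype.card_fun, Fintype.card_sum, Fintype.card_fin, hK, hF]
      rw [← pow_mul]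
      ring_nf
  have hQ : ∀ v, ι (Cfsg.quadFormPlus (k + k) F v) = Cfsg.hermForm (k + k) K q (s v) (s v) := by
    intro v
    simp only [Cfsg.quadFormPlus, Cfsg.hermForm, map_sum, map_mul]
    rw [← I.sum_comp, ← I.sum_comp (fun i => s v i * s v i ^ q), Fintype.sum_sum_type,
      Fintype.sum_sum_type, ← Finset.sum_add_distrib, ← Finset.sum_add_distrib]
    refine Finset.sum_congr rfl fun j _ => ?_
    simp only [s, AddMonoidHom.mk'_apply, Equiv.symm_apply_apply, Sum.elim_inl, Sum.elim_inr]
    set x0 := ι (v (.inl (I (.inl j))))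
    set x1 := ι (v (.inl (I (.inr j))))
    set y0 := ι (v (.inr (I (.inl j))))
    set y1 := ι (v (.inr (I (.inr j))))
    have hAq : A v j ^ q = x0 + x1 * ν := by
      simp only [A]
      rw [add_q, mul_pow, hι, hι]
    have hgB : γ * B v j = y0 * β0 + y1 * β1 := by
      simp only [B]
      rw [← mul_assoc, mul_inv_cancel₀ hγ0, one_mul]
    have hgBq : γ ^ q * B v j ^ q = y0 * β0 ^ q + y1 * β1 ^ q := by
      rw [← mul_pow, hgB, add_q, mul_pow, mul_pow, hι, hι]
    have hgq : γ ^ q = 1 + e * f ^ q := by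
      rw [hγ, add_q, one_pow, mul_pow, qq]
    rw [pow_succ] at he hfq
    have hA0 : A v j = x0 + x1 * ω := rfl
    have hAB : A v j ^ q * (γ * B v j) + A v j * (γ ^ q * B v j ^ q) = x0 * y0 + x1 * y1 := by
      rw [hgB, hgBq, hAq, hA0, hβ0q, hβ1q, hβ0, hβ1]
      field_simp
      ring
    rw [hgq, hγ] at hAB
    exact (fin_step q (A v j) (B v j) e f _ (add_q _ _) (add_q _ _) he hfq hAB).symm

  have hrq : r ^ q = -ι ca - r := by
    have h1 : (r ^ q) ^ 2 + ι ca * r ^ q + ι cb = 0 := by
      have h0 := congrArg (fun x : K => x ^ q) hr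
      simp only [add_q, mul_pow, zero_pow (show q ≠ 0 by omega), hι] at h0
      rw [← h0]
      ring
    have h2 : (r ^ q - r) * (r ^ q + r + ι ca) = 0 := by linear_combination h1 - hr
    have h3 := (mul_eq_zero.mp h2).resolve_left (sub_ne_zero.mpr hrq0)
    linear_combination h3
  refine embed_core ι (Cfsg.quadFormMinus (k + k) F ca cb) s' hbij hsl' fun v => ?_
  have h0 := hQ fun i => v (.inl i)
  simp only [Cfsg.quadFormPlus, Cfsg.hermForm] at h0
  simp only [Cfsg.quadFormMinus, Cfsg.hermForm, map_add]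
  rw [h0, Fin.sum_univ_castSucc]
  simp only [s', AddMonoidHom.mk'_apply, Fin.snoc_castSucc, Fin.snoc_last]
  rw [sub_q, mul_pow, hι, hι, hrq]
  simp only [map_pow, map_mul]
  linear_combination (-(ι (v (.inr 1))) ^ 2) * (-hr)

end Cfsg.Agent.S2641
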