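import Cfsg.Statements.S2665

set_option autoImplicit false
open scoped MatrixGroups
open Cfsg

namespace Cfsg.Agent.S2665

section

open Polynomial Matrix

variable {K : Type*} [Field K] [IsAlgClosed K]

/-- Fixed vectors of a bijective Frobenius-semilinear map span. -/
theorem span_fixed {n q : ℕ} (hq : 2 ≤ q) (σ : K →+* K) (hσ : ∀ x, σ x = x ^ q) (g : GL (Fin n) K) :
    Submodule.span K {v : Fin n → K | (g : Matrix (Fin n) (Fin n) K) *ᵥ (σ ∘ v) = v} = ⊤ := by
  classical
  let φ : (Fin n → K) → (Fin n → K) := fun v => (g : Matrix (Fin n) (Fin n) K) *ᵥ (σ ∘ v)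
  have hadd : ∀ u v, φ (u + v) = φ u + φ v := fun u v => by
    show (g : Matrix (Fin n) (Fin n) K) *ᵥ (σ ∘ (u + v)) = _
    rw [← Matrix.mulVec_add]
    congr 1
    funext i
    simp
  have hsmul : ∀ (t : K) v, φ (t • v) = σ t • φ v := fun t v => by
    show (g : Matrix (Fin n) (Fin n) K) *ᵥ (σ ∘ (t • v)) = _
    rw [← Matrix.mulVec_smul]
    congr 1
    funext i
    simp
  have hinj : Function.Injective φ := by
    intro u v h
    have h' := congrArg (fun w => ((g⁻¹ : GL (Fin n) K) : Matrix (Fin n) (Fin n) K) *ᵥ w) h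
    simp only [φ, Matrix.mulVec_mulVec, Units.inv_mul, Matrix.one_mulVec] at h'
    funext i
    exact σ.injective (congrFun h' i)
  have hzero : φ 0 = 0 := by simpa using hsmul 0 0
  have hsum : ∀ (k : ℕ) (f : Fin k → Fin n → K), φ (∑ i, f i) = ∑ i, φ (f i) := fun k f =>
    map_sum (AddMonoidHom.mk' φ hadd) f _
  have hσsurj : ∀ t : K, ∃ s, σ s = t := fun t => by
    obtain ⟨s, hs⟩ := IsAlgClosed.exists_pow_nat_eq t (show 0 < q by omega)
    exact ⟨s, (hσ s).trans hs⟩
  have has : ∀ t : K, ∃ s, σ s - s = t := fun t => by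
    have hd : (X ^ q - (X + C t) : K[X]).degree = (q : ℕ) := by
      rw [degree_sub_eq_left_of_degree_lt] <;> rw [degree_X_pow]
      rw [degree_X_add_C]
      exact_mod_cast (show 1 < q by omega)
    obtain ⟨s, hs⟩ := IsAlgClosed.exists_root (X ^ q - (X + C t) : K[X]) (by rw [hd]; exact_mod_cast (show q ≠ 0 by omega))
    simp only [IsRoot.def, eval_sub, eval_pow, eval_X, eval_add, eval_C] at hs
    exact ⟨s, by rw [hσ]; linear_combination hs⟩
  set S := {v : Fin n → K | (g : Matrix (Fin n) (Fin n) K) *ᵥ (σ ∘ v) = v} with hS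
  set W := Submodule.span K S with hW
  have hWin : ∀ w ∈ W, φ w ∈ W := by
    intro w hw
    induction hw using Submodule.span_induction with
    | mem x hx => rw [show φ x = x from hx]; exact Submodule.subset_span hx
    | zero => rw [hzero]; exact zero_mem _
    | add x y _ _ h1 h2 => rw [hadd]; exact add_mem h1 h2
    | smul t x _ h1 => rw [hsmul]; exact Submodule.smul_mem _ _ h1
  have hWpre : ∀ w ∈ W, ∃ u ∈ W, φ u = w := by
    intro w hw
    induction hw using Submodule.span_induction with
    | mem x hx => exact ⟨x, Submodule.subset_span hx, hx⟩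
    | zero => exact ⟨0, zero_mem _, hzero⟩
    | add x y _ _ h1 h2 =>
      obtain ⟨a, ha, rfl⟩ := h1
      obtain ⟨b, hb, rfl⟩ := h2
      exact ⟨a + b, add_mem ha hb, hadd a b⟩
    | smul t x _ h1 =>
      obtain ⟨a, ha, rfl⟩ := h1
      obtain ⟨s, rfl⟩ := hσsurj t
      exact ⟨s • a, Submodule.smul_mem _ _ ha, hsmul s a⟩
  have hWas : ∀ w ∈ W, ∀ t : K, ∃ u ∈ W, φ u - u = t • w := by
    intro w hw
    induction hw using Submodule.span_induction with
    | mem x hx =>
      intro t
      obtain ⟨s, hs⟩ := has t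
      refine ⟨s • x, Submodule.smul_mem _ _ (Submodule.subset_span hx), ?_⟩
      rw [hsmul, show φ x = x from hx, ← sub_smul, hs]
    | zero => intro t; exact ⟨0, zero_mem _, by rw [hzero]; simp⟩
    | add x y _ _ h1 h2 =>
      intro t
      obtain ⟨a, ha, ha'⟩ := h1 t
      obtain ⟨b, hb, hb'⟩ := h2 t
      exact ⟨a + b, add_mem ha hb, by rw [hadd, smul_add, ← ha', ← hb']; abel⟩
    | smul r x _ h1 =>
      intro t
      obtain ⟨a, ha, ha'⟩ := h1 (t * r)
      exact ⟨a, ha, by rw [ha', smul_smul]⟩
  by_contra htop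
  obtain ⟨v, -, hv⟩ := SetLike.exists_of_lt (lt_top_iff_ne_top.2 htop)
  let U : ℕ → Submodule K (Fin n → K) := fun k => W ⊔ Submodule.span K (Set.range fun i : Fin k => φ^[i.val] v)
  have hex : ∃ k, φ^[k] v ∈ U k := by
    by_contra hno
    push Not at hno
    have hgrow : ∀ k, k ≤ Module.finrank K (U k) := by
      intro k
      induction k with
      | zero => exact Nat.zero_le _
      | succ k ih =>
        have hle : U k ≤ U (k + 1) := by
          refine sup_le_sup_left (Submodule.span_mono ?_) _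
          rintro _ ⟨i, rfl⟩
          exact ⟨i.castSucc, rfl⟩
        have hlt : U k < U (k + 1) := lt_of_le_of_ne hle fun e => hno k (e.symm ▸
          Submodule.mem_sup_right (Submodule.subset_span ⟨Fin.last k, rfl⟩))
        have := Submodule.finrank_lt_finrank_of_lt hlt
        omega
    have h1 := hgrow (n + 1)
    have h2 := Submodule.finrank_le (U (n + 1))
    rw [Module.finrank_fin_fun] at h2
    omega
  set k := Nat.find hex with hk
  have hkmem := Nat.find_spec hex
  rw [← hk] at hkmem
  obtain ⟨k', hk'⟩ : ∃ k', k = k' + 1 := by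
    refine ⟨k - 1, ?_⟩
    rcases Nat.eq_zero_or_pos k with h | h
    · exfalso
      rw [h] at hkmem
      apply hv
      have hU0 : U 0 = W := by simp [U, Set.range_eq_empty]
      rwa [hU0] at hkmem
    · omega
  have hmin : φ^[k'] v ∉ U k' := Nat.find_min hex (by omega)
  rw [hk'] at hkmem
  obtain ⟨w0, hw0, z, hz, hwz⟩ := Submodule.mem_sup.1 hkmem
  obtain ⟨a, ha⟩ := (Submodule.mem_span_range_iff_exists_fun K).1 hz
  have ha0 : a 0 ≠ 0 := by
    intro h0
    obtain ⟨u0, hu0, hu0'⟩ := hWpre w0 hw0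
    choose b hb using fun i : Fin k' => hσsurj (a i.succ)
    apply hmin
    have heq : φ^[k'] v = u0 + ∑ i, b i • φ^[i.val] v := hinj (by
      rw [hadd, hu0', hsum, ← Function.iterate_succ_apply' φ k' v, ← hwz, ← ha, Fin.sum_univ_succ, h0, zero_smul, zero_add]
      congr 1
      refine Finset.sum_congr rfl fun i _ => ?_
      rw [hsmul, hb, Fin.val_succ, Function.iterate_succ_apply'])
    rw [heq]
    exact add_mem (Submodule.mem_sup_left hu0) (Submodule.mem_sup_right
      ((Submodule.mem_span_range_iff_exists_fun K).2 ⟨b, rfl⟩))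
  let A : ℕ → K := fun i => if h : i < k' + 1 then a ⟨i, h⟩ else 0
  let P : ℕ → K[X] := fun i => Nat.rec (C (A 0) * X ^ q) (fun i Pi => Pi ^ q + C (A (i + 1)) * X ^ q) i
  have hP : ∀ i, (P i).natDegree = q ^ (i + 1) ∧ X ^ 2 ∣ P i := by
    intro i
    induction i with
    | zero =>
      refine ⟨?_, Dvd.dvd.mul_left (pow_dvd_pow X hq) _⟩
      show (C (A 0) * X ^ q).natDegree = q ^ 1
      rw [pow_one, natDegree_C_mul_X_pow]
      simpa [A] using ha0
    | succ i ih =>
      refine ⟨?_, dvd_add (ih.2.trans (dvd_pow_self _ (by omega))) (Dvd.dvd.mul_left (pow_dvd_pow X hq) _)⟩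
      show (P i ^ q + C (A (i + 1)) * X ^ q).natDegree = q ^ (i + 1 + 1)
      have hd : (P i ^ q).natDegree = q ^ (i + 1 + 1) := by rw [natDegree_pow, ih.1, pow_succ' q (i + 1)]
      rw [natDegree_add_eq_left_of_natDegree_lt, hd]
      refine lt_of_le_of_lt (natDegree_C_mul_X_pow_le _ _) ?_
      rw [hd]
      exact lt_of_eq_of_lt (pow_one q).symm (Nat.pow_lt_pow_right (by omega) (by omega))
  obtain ⟨Sx, hSx⟩ := (hP k').2
  have hfin : ∃ c : K, c ≠ 0 ∧ eval c (P k') = c := by
    have hdeg : (X * Sx - 1 : K[X]).natDegree ≠ 0 := by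
      intro h
      have h2 : (P k' - X).natDegree ≤ 1 := by
        rw [hSx, show X ^ 2 * Sx - X = X * (X * Sx - 1) by ring]
        refine natDegree_mul_le.trans ?_
        rw [natDegree_X, h]
      have hlt : (X : K[X]).natDegree < (P k').natDegree := by
        rw [natDegree_X, (hP k').1]
        exact Nat.one_lt_pow (by omega) (by omega)
      rw [natDegree_sub_eq_left_of_natDegree_lt hlt, (hP k').1] at h2
      have := Nat.one_lt_pow (show k' + 1 ≠ 0 by omega) (show 1 < q by omega)
      omega
    obtain ⟨c, hc⟩ := IsAlgClosed.exists_root (X * Sx - 1 : K[X]) (fun h => hdeg (natDegree_eq_zero_iff_degree_le_zero.2 h.le))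
    simp only [IsRoot.def, eval_sub, eval_mul, eval_X, eval_one] at hc
    refine ⟨c, fun e => by rw [e] at hc; simp at hc, ?_⟩
    rw [hSx, eval_mul, eval_pow, eval_X]
    linear_combination c * hc
  obtain ⟨c, hc0, hck⟩ := hfin
  let w := ∑ i : Fin (k' + 1), eval c (P i.val) • φ^[i.val] v
  have hrec : φ w - w = σ c • w0 := by
    have h1 : φ w = (∑ i : Fin k', σ (eval c (P i.val)) • φ^[i.val + 1] v) +
        σ c • (w0 + ∑ i, a i • φ^[i.val] v) := by
      rw [hsum, Fin.sum_univ_castSucc]
      congr 1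
      · refine Finset.sum_congr rfl fun i _ => ?_
        rw [hsmul, Fin.val_castSucc, Function.iterate_succ_apply']
      · rw [hsmul, Fin.val_last, hck, ha, hwz, Function.iterate_succ_apply']
    have e0 : eval c (P 0) = σ c * a 0 := by
      show eval c (C (A 0) * X ^ q) = _
      rw [eval_mul, eval_C, eval_pow, eval_X, hσ, show A 0 = a 0 from dif_pos (Nat.succ_pos k'), mul_comm]
    have e1 : ∀ i : Fin k', eval c (P (i.val + 1)) = σ (eval c (P i.val)) + σ c * a i.succ := by
      intro i
      show eval c (P i.val ^ q + C (A (i.val + 1)) * X ^ q) = _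
      rw [hσ, hσ]
      rw [eval_add, eval_pow, eval_mul, eval_C, eval_pow, eval_X,
        show A (i.val + 1) = a i.succ from dif_pos (Nat.succ_lt_succ i.isLt), mul_comm (a i.succ)]
    have h2 : w = (σ c * a 0) • φ^[0] v + ∑ i : Fin k', (σ (eval c (P i.val)) + σ c * a i.succ) • φ^[i.val + 1] v := by
      show (∑ i : Fin (k' + 1), eval c (P i.val) • φ^[i.val] v) = _
      rw [Fin.sum_univ_succ]
      simp only [Fin.val_zero, Fin.val_succ, e0, e1]
    rw [h1, h2, Fin.sum_univ_succ (f := fun i => a i • φ^[i.val] v)]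
    simp only [Fin.val_zero, Fin.val_succ, add_smul, smul_add, mul_smul, Finset.sum_add_distrib, Finset.smul_sum]
    abel
  have hwW : w ∉ W := by
    intro hw
    apply hmin
    have hsplit : w = (∑ i : Fin k', eval c (P i.val) • φ^[i.val] v) + c • φ^[k'] v := by
      show (∑ i : Fin (k' + 1), eval c (P i.val) • φ^[i.val] v) = _
      rw [Fin.sum_univ_castSucc]
      simp [hck]
    have hmem : c • φ^[k'] v ∈ U k' := by
      rw [show c • φ^[k'] v = w - ∑ i : Fin k', eval c (P i.val) • φ^[i.val] v by rw [hsplit]; abel]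
      exact sub_mem (Submodule.mem_sup_left hw) (Submodule.mem_sup_right
        ((Submodule.mem_span_range_iff_exists_fun K).2 ⟨_, rfl⟩))
    simpa [smul_smul, inv_mul_cancel₀ hc0] using (U k').smul_mem c⁻¹ hmem
  obtain ⟨u, hu, hu'⟩ := hWas w0 hw0 (-σ c)
  apply hwW
  have hfix : φ (w + u) = w + u := by
    rw [hadd, ← sub_eq_zero, show φ w + φ u - (w + u) = (φ w - w) + (φ u - u) by abel, hrec, hu', neg_smul, add_neg_cancel]
  simpa using sub_mem (Submodule.subset_span hfix : w + u ∈ W) hu

end

/-- The Lang–Steinberg Theorem for the general linear group. Let `K` be an algebraically closed field of prime characteristic `p`, let `q = p^f` with `f ≥ 1`, and let `σ` be the endomorphism of GL_n(K) raising every matrix entry to the `q`-th power. Then every element `g` of GL_n(K) can be written `g = x · σ(x)⁻¹` for some `x` in GL_n(K): the map `x ↦ x σ(x)⁻¹` is surjective. -/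
theorem result {K : Type*} [Field K] [IsAlgClosed K] (p : ℕ) [Fact p.Prime] [CharP K p]
    (f : ℕ) (hf : 1 ≤ f) (n : ℕ) (g : GL (Fin n) K) :
    ∃ x : GL (Fin n) K, g = x * (Matrix.GeneralLinearGroup.map (iterateFrobenius K p f) x)⁻¹ := by
  classical
  set σ := iterateFrobenius K p f with hσ
  have hspan := span_fixed (q := p ^ f) ((show 2 ≤ p from (Fact.out : p.Prime).two_le).trans (Nat.le_self_pow (by omega) p)) σ
    (fun x => iterateFrobenius_def p f x) g
  obtain ⟨b, hbS, hbspan, hbli⟩ := exists_linearIndependent K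
    {v : Fin n → K | Matrix.mulVec (g : Matrix (Fin n) (Fin n) K) (σ ∘ v) = v}
  rw [hspan] at hbspan
  let B := Module.Basis.mk hbli (by simpa using hbspan.ge)
  haveI : Fintype b := @Fintype.ofFinite _ (Module.Finite.finite_basis B)
  have hcard : Fintype.card b = n := by rw [← Module.finrank_eq_card_basis B, Module.finrank_fin_fun]
  let e : b ≃ Fin n := (Fintype.equivFinOfCardEq hcard)
  let B' := B.reindex e
  let M : Matrix (Fin n) (Fin n) K := Matrix.of fun i j => B' j i
  have hM : IsUnit M.det := by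
    have hunit := (Pi.basisFun K (Fin n)).isUnit_det B'
    rw [Module.Basis.det_apply] at hunit
    convert hunit using 2
    ext i j
    simp [M, Module.Basis.toMatrix_apply]
  let x : GL (Fin n) K := Matrix.GeneralLinearGroup.mk'' M hM
  refine ⟨x, ?_⟩
  rw [eq_mul_inv_iff_mul_eq]
  apply Units.ext
  show (g : Matrix (Fin n) (Fin n) K) * M.map σ = M
  ext i j
  have hfix : Matrix.mulVec (g : Matrix (Fin n) (Fin n) K) (σ ∘ (B' j)) = B' j := by
    have hb : (B' j : Fin n → K) = ((e.symm j : b) : Fin n → K) := by simp [B', B]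
    rw [hb]
    exact hbS (e.symm j).2
  exact congrFun hfix i

end Cfsg.Agent.S2665
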