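import Cfsg.Statements.S2668
import Cfsg.Agent.Lib.ClassicalShintani

set_option autoImplicit false
open Cfsg

namespace Cfsg.Agent.S2668

/-- Shintani descent and powers (abstract form). Let `σ` be an automorphism of a group `X`, `e ≥ 1` and `d ≥ 1`, let `g` be fixed by `σᵉ` and let `a` satisfy `g = a σ(a)⁻¹`, so that the Shintani map of `(X, σ, e)` sends the class of `g σ` to the class of `x = σᵉ(a)⁻¹ a`. Put `h = g σ(g) ⋯ σ^(d-1)(g)`, the part in `X` of the `d`-th power `(g σ)^d = h σ^d`. Then `h = a σ^d(a)⁻¹` (so `a` also serves for `h` with respect to `σ^d`), `h` is fixed by `(σ^d)ᵉ`, and `(σ^d)ᵉ(a)⁻¹ a = x^d`: the Shintani map of `(X, σ^d, e)` sends the class of `(g σ)^d` to the class of `x^d`. (When `d` divides `e`, the Shintani map of `(X, σ^d, e/d)` sends it to the class of `x` itself, since `(σ^d)^(e/d) = σᵉ`.) -/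
theorem result {X : Type*} [Group X] (σ : MulAut X) (e d : ℕ) (he : 1 ≤ e) (hd : 1 ≤ d)
    (g : X) (hg : g ∈ (MulEquiv.toMonoidHom (σ ^ e)).eqLocus (MonoidHom.id X)) (a : X) (ha : g = a * (σ a)⁻¹) :
    ((List.range d).map (fun i => (σ ^ i) g)).prod = a * ((σ ^ d) a)⁻¹ ∧
      ((List.range d).map (fun i => (σ ^ i) g)).prod ∈ (MulEquiv.toMonoidHom ((σ ^ d) ^ e)).eqLocus (MonoidHom.id X) ∧
      (((σ ^ d) ^ e) a)⁻¹ * a = (((σ ^ e) a)⁻¹ * a) ^ d := by
  simp only [CfsgLib.Shintani.mem_fix] at hg ⊢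
  have hx := CfsgLib.Shintani.desc_fix σ ha e hg
  refine ⟨CfsgLib.Shintani.prod_range σ ha d, ?_, ?_⟩
  · have h1 : ∀ i, ((σ ^ d) ^ e) ((σ ^ i) g) = (σ ^ i) g := fun i => by
      rw [← pow_mul, ← MulAut.mul_apply, ← pow_add, Nat.add_comm, pow_add, MulAut.mul_apply, Nat.mul_comm, pow_mul,
        CfsgLib.Shintani.pow_fix (σ ^ e) hg d]
    rw [map_list_prod, List.map_map]
    congr 1
    exact List.map_congr_left fun i _ => h1 i
  · rw [← pow_mul, Nat.mul_comm, pow_mul]
    have hxx := CfsgLib.Shintani.pow_fix σ hx e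
    clear hd
    induction d with
    | zero => simp
    | succ d ih =>
      have h2 := congrArg (σ ^ e) ih
      rw [map_mul, map_inv, map_pow, hxx, ← CfsgLib.Shintani.pow_comm_apply] at h2
      rw [pow_succ, MulAut.mul_apply, pow_succ (((σ ^ e) a)⁻¹ * a) d, ← h2]
      group

end Cfsg.Agent.S2668
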