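import Cfsg.Statements.S2669
import Cfsg.Agent.Lib.ClassicalShintani

set_option autoImplicit false
open Cfsg

namespace Cfsg.Agent.S2669

/-- Shintani descent preserves numbers of fixed points on coset spaces (abstract form). Let `σ` be an automorphism of a group `X` and `e ≥ 1`; write `G` for the fixed points of `σᵉ` and `H` for the fixed points of `σ`, and assume `G` is finite. Let `Y` be a `σ`-stable subgroup of `X` on which the maps `a ↦ a σ(a)⁻¹` and `a ↦ a σᵉ(a)⁻¹` are surjective (as for a closed connected `σ`-stable subgroup of an algebraic group). Let `g ∈ G`, let `a ∈ X` satisfy `g = a σ(a)⁻¹` and put `x = σᵉ(a)⁻¹ a` (the Shintani image, an element of `H`). The element `g σ` of the semidirect product acts on the cosets of `Y ∩ G` in `G` by `k (Y ∩ G) ↦ g σ(k) (Y ∩ G)`, fixing that coset exactly when `k⁻¹ g σ(k) ∈ Y`; and `x` fixes the coset `h (Y ∩ H)`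 of `H` exactly when `h⁻¹ x h ∈ Y`. Then the two numbers of fixed cosets agree; in cross-multiplied form, `#{k ∈ G : k⁻¹ g σ(k) ∈ Y} · |Y ∩ H| = #{h ∈ H : h⁻¹ x h ∈ Y} · |Y ∩ G|`. -/
theorem result {X : Type*} [Group X] (σ : MulAut X) (e : ℕ) (he : 1 ≤ e)
    [Finite ↥((MulEquiv.toMonoidHom (σ ^ e)).eqLocus (MonoidHom.id X))]
    (Y : Subgroup X) (hY : ∀ y : X, y ∈ Y ↔ σ y ∈ Y)
    (hYL : ∀ y ∈ Y, ∃ a ∈ Y, y = a * (σ a)⁻¹) (hYLe : ∀ y ∈ Y, ∃ a ∈ Y, y = a * ((σ ^ e) a)⁻¹)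
    (g : X) (hg : g ∈ (MulEquiv.toMonoidHom (σ ^ e)).eqLocus (MonoidHom.id X)) (a : X) (ha : g = a * (σ a)⁻¹) :
    Nat.card {k : ↥((MulEquiv.toMonoidHom (σ ^ e)).eqLocus (MonoidHom.id X)) // (k : X)⁻¹ * g * σ k ∈ Y} *
        Nat.card ↥(Y ⊓ (MulEquiv.toMonoidHom σ).eqLocus (MonoidHom.id X)) =
      Nat.card {h : ↥((MulEquiv.toMonoidHom σ).eqLocus (MonoidHom.id X)) // (h : X)⁻¹ * (((σ ^ e) a)⁻¹ * a) * h ∈ Y} *
        Nat.card ↥(Y ⊓ (MulEquiv.toMonoidHom (σ ^ e)).eqLocus (MonoidHom.id X)) := by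
  classical
  simp only [CfsgLib.Shintani.mem_fix] at hg
  set G := (MulEquiv.toMonoidHom (σ ^ e)).eqLocus (MonoidHom.id X) with hGdef
  set H := (MulEquiv.toMonoidHom σ).eqLocus (MonoidHom.id X) with hHdef
  have hG : ∀ x, x ∈ G ↔ (σ ^ e) x = x := fun x => Iff.rfl
  have hH : ∀ x, x ∈ H ↔ σ x = x := fun x => Iff.rfl
  have hx := CfsgLib.Shintani.desc_fix σ ha e hg
  have hσY : ∀ c ∈ Y, σ c ∈ Y := fun c hc => (hY c).1 hc
  have hτY : ∀ n : ℕ, ∀ c ∈ Y, (σ ^ n) c ∈ Y := by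
    intro n
    induction n with
    | zero => intro c hc; simpa using hc
    | succ n ih => intro c hc; rw [pow_succ, MulAut.mul_apply]; exact ih _ (hσY c hc)
  let T1 := {p : G × Y // (p.1 : X)⁻¹ * g * σ p.1 = (p.2 : X) * (σ p.2)⁻¹}
  let T2 := {p : H × Y // ((σ ^ e) p.2)⁻¹ * (p.2 : X) = (p.1 : X)⁻¹ * (((σ ^ e) a)⁻¹ * a) * p.1}
  choose c1 hc1 hc1' using hYL
  have hYL2 : ∀ y ∈ Y, ∃ c ∈ Y, ((σ ^ e) c)⁻¹ * c = y := fun y hy => by
    obtain ⟨c, hc, hc'⟩ := hYLe y⁻¹ (Y.inv_mem hy)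
    exact ⟨c⁻¹, Y.inv_mem hc, by rw [map_inv, inv_inv, ← inv_inv y, hc']; group⟩
  choose c2 hc2 hc2' using hYL2
  have hm1 : ∀ t : T1, (t.1.1 : X)⁻¹ * g * σ t.1.1 ∈ Y := fun t => by
    rw [t.2]; exact Y.mul_mem t.1.2.2 (Y.inv_mem (hσY _ t.1.2.2))
  have hm2 : ∀ t : T2, (t.1.1 : X)⁻¹ * (((σ ^ e) a)⁻¹ * a) * t.1.1 ∈ Y := fun t => by
    rw [← t.2]; exact Y.mul_mem (Y.inv_mem (hτY e _ t.1.2.2)) t.1.2.2
  have E1 : {k : G // (k : X)⁻¹ * g * σ k ∈ Y} × ↥(Y ⊓ H) ≃ T1 :=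
    { toFun := fun p => ⟨(p.1.1, ⟨c1 _ p.1.2 * (p.2 : X), Y.mul_mem (hc1 _ _) (Subgroup.mem_inf.1 p.2.2).1⟩), by
        show _ = c1 _ p.1.2 * (p.2 : X) * (σ (c1 _ p.1.2 * (p.2 : X)))⁻¹
        rw [map_mul, (hH _).1 (Subgroup.mem_inf.1 p.2.2).2]
        exact (hc1' _ p.1.2).trans (by group)⟩
      invFun := fun t => (⟨t.1.1, hm1 t⟩,
        ⟨(c1 _ (hm1 t))⁻¹ * (t.1.2 : X), by
          have hm : (t.1.1 : X)⁻¹ * g * σ t.1.1 ∈ Y := hm1 t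
          refine Subgroup.mem_inf.2 ⟨Y.mul_mem (Y.inv_mem (hc1 _ _)) t.1.2.2, ?_⟩
          have h3 : c1 _ hm * (σ (c1 _ hm))⁻¹ = (t.1.2 : X) * (σ t.1.2)⁻¹ := (hc1' _ hm).symm.trans t.2
          rw [hH, map_mul, map_inv]
          calc (σ (c1 _ hm))⁻¹ * σ (t.1.2 : X) = (c1 _ hm)⁻¹ * (c1 _ hm * (σ (c1 _ hm))⁻¹) * σ (t.1.2 : X) := by group
            _ = _ := by rw [h3]; group⟩)
      left_inv := fun p => by
        refine Prod.ext (Subtype.ext rfl) (Subtype.ext ?_)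
        exact inv_mul_cancel_left _ _
      right_inv := fun t => by
        refine Subtype.ext (Prod.ext rfl (Subtype.ext ?_))
        exact mul_inv_cancel_left _ _ }
  have E2 : {h : H // (h : X)⁻¹ * (((σ ^ e) a)⁻¹ * a) * h ∈ Y} × ↥(Y ⊓ G) ≃ T2 :=
    { toFun := fun p => ⟨(p.1.1, ⟨(p.2 : X) * c2 _ p.1.2, Y.mul_mem (Subgroup.mem_inf.1 p.2.2).1 (hc2 _ _)⟩), by
        show ((σ ^ e) ((p.2 : X) * c2 _ p.1.2))⁻¹ * ((p.2 : X) * c2 _ p.1.2) = _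
        rw [map_mul, (hG _).1 (Subgroup.mem_inf.1 p.2.2).2]
        exact Eq.trans (by group) (hc2' _ p.1.2)⟩
      invFun := fun t => (⟨t.1.1, hm2 t⟩,
        ⟨(t.1.2 : X) * (c2 _ (hm2 t))⁻¹, by
          have hm : (t.1.1 : X)⁻¹ * (((σ ^ e) a)⁻¹ * a) * t.1.1 ∈ Y := hm2 t
          refine Subgroup.mem_inf.2 ⟨Y.mul_mem t.1.2.2 (Y.inv_mem (hc2 _ _)), ?_⟩
          have h3 : ((σ ^ e) (c2 _ hm))⁻¹ * c2 _ hm = ((σ ^ e) (t.1.2 : X))⁻¹ * t.1.2 := (hc2' _ hm).trans t.2.symm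
          rw [hG, map_mul, map_inv]
          calc (σ ^ e) (t.1.2 : X) * ((σ ^ e) (c2 _ hm))⁻¹ = (σ ^ e) (t.1.2 : X) * (((σ ^ e) (c2 _ hm))⁻¹ * c2 _ hm) * (c2 _ hm)⁻¹ := by group
            _ = _ := by rw [h3]; group⟩)
      left_inv := fun p => by
        refine Prod.ext (Subtype.ext rfl) (Subtype.ext ?_)
        exact mul_inv_cancel_right _ _
      right_inv := fun t => by
        refine Subtype.ext (Prod.ext rfl (Subtype.ext ?_))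
        exact inv_mul_cancel_right _ _ }
  have e1 : σ a = g⁻¹ * a := by rw [ha]; group
  have E3 : T1 ≃ T2 :=
    { toFun := fun t => ⟨(⟨a⁻¹ * t.1.1 * t.1.2, by
          have e2 : σ (t.1.1 : X) = g⁻¹ * t.1.1 * ((t.1.2 : X) * (σ t.1.2)⁻¹) := by rw [← t.2]; group
          rw [hH, map_mul, map_mul, map_inv, e1, e2]; group⟩, t.1.2), by
        have e2 : σ (t.1.1 : X) = g⁻¹ * t.1.1 * ((t.1.2 : X) * (σ t.1.2)⁻¹) := by rw [← t.2]; group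
        have hh : σ (a⁻¹ * t.1.1 * t.1.2) = a⁻¹ * t.1.1 * t.1.2 := by
          rw [map_mul, map_mul, map_inv, e1, e2]; group
        have h4 := CfsgLib.Shintani.pow_fix σ hh e
        rw [map_mul, map_mul, map_inv, (hG _).1 t.1.1.2] at h4
        show ((σ ^ e) (t.1.2 : X))⁻¹ * t.1.2 = (a⁻¹ * t.1.1 * t.1.2)⁻¹ * (((σ ^ e) a)⁻¹ * a) * (a⁻¹ * t.1.1 * t.1.2)
        conv_rhs => arg 1; arg 1; rw [← h4]
        group⟩
      invFun := fun t => ⟨(⟨a * t.1.1 * (t.1.2 : X)⁻¹, by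
          rw [hG, map_mul, map_mul, map_inv, CfsgLib.Shintani.pow_fix σ ((hH _).1 t.1.1.2) e]
          calc (σ ^ e) a * (t.1.1 : X) * ((σ ^ e) (t.1.2 : X))⁻¹
              = (σ ^ e) a * (t.1.1 : X) * (((σ ^ e) (t.1.2 : X))⁻¹ * t.1.2) * (t.1.2 : X)⁻¹ := by group
            _ = _ := by rw [t.2]; group⟩, t.1.2), by
        show (a * t.1.1 * (t.1.2 : X)⁻¹)⁻¹ * g * σ (a * t.1.1 * (t.1.2 : X)⁻¹) = (t.1.2 : X) * (σ t.1.2)⁻¹
        rw [map_mul, map_mul, map_inv, (hH _).1 t.1.1.2, e1]; group⟩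
      left_inv := fun t => by
        refine Subtype.ext (Prod.ext (Subtype.ext ?_) rfl)
        show a * (a⁻¹ * t.1.1 * t.1.2) * (t.1.2 : X)⁻¹ = t.1.1
        group
      right_inv := fun t => by
        refine Subtype.ext (Prod.ext (Subtype.ext ?_) rfl)
        show a⁻¹ * (a * t.1.1 * (t.1.2 : X)⁻¹) * t.1.2 = t.1.1
        group }
  have h := Nat.card_congr ((E1.trans E3).trans E2.symm)
  rwa [Nat.card_prod, Nat.card_prod] at h

end Cfsg.Agent.S2669
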