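import Cfsg.Statements.S2678
import Cfsg.Agent.Lib.ClassicalHerm
import Cfsg.Agent.Lib.ClassicalOrders
import Cfsg.Agent.Lib.ClassicalSpStd

set_option autoImplicit false
open Cfsg
open Matrix

namespace Cfsg.Agent.S2678

/-- Field-extension embedding of symplectic groups: for a field K with q² elements and a field F with q elements there is an injective homomorphism Sp_2a(K) → Sp_4a(F). -/
theorem result {K F : Type*} [Field K] [Fintype K] [Field F] [Fintype F] {q : ℕ} (hK : Fintype.card K = q ^ 2) (hF : Fintype.card F = q) (a : ℕ) : ∃ φ : ↥(Matrix.symplecticGroup (Fin a) K) →* ↥(Matrix.symplecticGroup (Fin (2 * a)) F), Function.Injective φ := by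
  classical
  obtain ⟨σ₀, hσp, hσne, hσ2⟩ := CfsgLib.Classical.Orders.exists_sigma hK
  let σ : K ≃+* K := RingEquiv.ofBijective σ₀ (Function.Involutive.bijective hσ2)
  have hσa : ∀ x, σ x = x ^ q := hσp
  have hσσ : ∀ x, σ (σ x) = x := hσ2
  have hσ' : σ ≠ RingEquiv.refl K := fun h => hσne (RingHom.ext fun x => RingEquiv.congr_fun h x)
  let G := Subgroup.zpowers (σ : RingAut K)
  haveI : Finite (RingAut K) := Finite.of_injective (fun e : RingAut K => (e : K → K)) DFunLike.coe_injective
  haveI : Fintype G := Fintype.ofFinite _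
  let K0 := FixedPoints.subfield G K
  haveI : Fintype K0 := Fintype.ofFinite _
  have hK0 : ∀ x : K, σ x = x → x ∈ K0 := by
    rintro x h ⟨g, hg⟩
    obtain ⟨j, rfl⟩ := hg
    have hfix : (σ : RingAut K) ∈ MulAction.stabilizer (RingAut K) x := h
    exact Subgroup.zpow_mem _ hfix j
  have hfix : ∀ c : K0, σ (c : K) = c := fun c => c.2 ⟨σ, Subgroup.mem_zpowers σ⟩
  have hfin2 : Module.finrank K0 K = 2 := by
    rw [FixedPoints.finrank_eq_card G K, ← Nat.card_eq_fintype_card, Nat.card_zpowers]
    refine orderOf_eq_prime ?_ hσ'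
    exact RingEquiv.ext hσσ
  have hcK : Fintype.card K0 = q := by
    have h3 := Module.natCard_eq_pow_finrank (K := K0) (V := K)
    rw [Nat.card_eq_fintype_card, hK, hfin2, Nat.card_eq_fintype_card] at h3
    exact (Nat.pow_left_injective two_ne_zero h3).symm
  let ψ : K0 ≃+* F := FiniteField.ringEquivOfCardEq (hcK.trans hF.symm)
  obtain ⟨δ, hδ⟩ := CfsgLib.Classical.exists_trace_one hσ' hσσ
  let h : (Fin a ⊕ Fin a → K) → (Fin a ⊕ Fin a → K) → K := Cfsg.sympForm a K
  have hf : Cfsg.Geo.IsSymplecticForm (Cfsg.sympForm a K) := CfsgLib.Classical.isSymplecticForm_sympForm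
  let t : K → K0 := fun x => ⟨x + σ x, hK0 _ (by rw [map_add, hσσ, add_comm])⟩
  have ht_add : ∀ x y, t (x + y) = t x + t y := fun x y => Subtype.ext (by simp [t]; ring)
  have ht_smul : ∀ (c : K0) (x : K), t (c * x) = c * t x := fun c x => Subtype.ext (by simp [t, hfix]; ring)
  let B : LinearMap.BilinForm K0 (Fin a ⊕ Fin a → K) := LinearMap.mk₂ K0 (fun u v => t (h u v))
    (fun u u' v => by simp only [h, hf.bilinear.add_left, ht_add])
    (fun c u v => by
      show t (Cfsg.sympForm a K ((c : K) • u) v) = _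
      rw [hf.bilinear.smul_left, ht_smul]; rfl)
    (fun u v v' => by simp only [h, hf.bilinear.add_right, ht_add])
    (fun c u v => by
      show t (Cfsg.sympForm a K u ((c : K) • v)) = _
      rw [hf.bilinear.smul_right, ht_smul]; rfl)
  have hB : ∀ u v, B u v = t (h u v) := fun u v => rfl
  have hA : B.IsAlt := fun u => by
    rw [hB]
    apply Subtype.ext
    show h u u + σ (h u u) = 0
    rw [show h u u = 0 from hf.alternating u, map_zero, add_zero]
  have hnd : CfsgLib.Classical.NondegOn B ⊤ := by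
    intro v _ hv
    obtain ⟨⟨w, hw⟩, -⟩ := hf.nondegenerate v hv
    have hw' : Cfsg.sympForm a K w v ≠ 0 := by
      first
        | exact hw
        | (rw [hf.skew]; exact neg_ne_zero.2 hw)
    refine ⟨(δ * (Cfsg.sympForm a K w v)⁻¹) • w, trivial, ?_⟩
    rw [hB]
    intro h0
    have h1 : h ((δ * (Cfsg.sympForm a K w v)⁻¹) • w) v = δ := by
      simp only [h, hf.bilinear.smul_left]
      rw [mul_assoc, inv_mul_cancel₀ hw', mul_one]
    rw [h1] at h0
    have h3 := congrArg Subtype.val h0
    simp only [t, hδ] at h3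
    exact one_ne_zero h3
  haveI : FiniteDimensional K0 (Fin a ⊕ Fin a → K) := Module.Finite.of_finite
  obtain ⟨k, b₀, hb, hk⟩ := CfsgLib.Classical.exists_hypBasis hA ⊤ hnd
  rw [finrank_top] at hk
  obtain rfl : k = 2 * a := by
    have hd : Module.finrank K0 (Fin a ⊕ Fin a → K) = (a + a) * 2 := by rw [Module.finrank_pi_fintype]; simp [hfin2]
    omega
  let b := b₀.map Submodule.topEquiv
  let L : ↥(Matrix.symplecticGroup (Fin a) K) → ((Fin a ⊕ Fin a → K) →ₗ[K0] (Fin a ⊕ Fin a → K)) := fun g => (Matrix.mulVecLin (g : Matrix (Fin a ⊕ Fin a) (Fin a ⊕ Fin a) K)).restrictScalars K0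
  let Φ : ↥(Matrix.symplecticGroup (Fin a) K) →* Matrix (Fin (2 * a) ⊕ Fin (2 * a)) (Fin (2 * a) ⊕ Fin (2 * a)) K0 :=
    { toFun := fun g => LinearMap.toMatrix b b (L g)
      map_one' := by
        have : L 1 = LinearMap.id := by ext1 x; simp [L]
        rw [this, LinearMap.toMatrix_id]
      map_mul' := fun g g' => by
        rw [← LinearMap.toMatrix_comp b b b]
        congr 1
        ext1 x
        simp [L, Matrix.mulVec_mulVec] }
  have hΦ : ∀ g, Φ g ∈ Matrix.symplecticGroup (Fin (2 * a)) K0 := by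
    intro g
    rw [CfsgLib.Classical.mem_symplecticGroup_iff]
    have hmul : ∀ x, Φ g *ᵥ x = b.equivFun (L g (b.equivFun.symm x)) := fun x => by
      have := LinearMap.toMatrix_mulVec_repr b b (L g) (b.equivFun.symm x)
      rw [← Module.Basis.equivFun_apply, LinearEquiv.apply_symm_apply] at this
      exact this
    have hform : ∀ x y, Cfsg.sympForm (2 * a) K0 x y = - B (b.equivFun.symm x) (b.equivFun.symm y) := by
      intro x y
      have hhe : ∀ i j, B (b (.inr i)) (b (.inl j)) = if i = j then -1 else 0 := fun i j => by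
        rw [← CfsgLib.Classical.alt_neg hA]
        show - B (b₀ (.inl j) : Fin a ⊕ Fin a → K) (b₀ (.inr i)) = _
        rw [hb.eh]
        split_ifs <;> simp_all
      have hee : ∀ i j, B (b (.inl i)) (b (.inl j)) = 0 := hb.ee
      have hhh : ∀ i j, B (b (.inr i)) (b (.inr j)) = 0 := hb.hh
      have heh : ∀ i j, B (b (.inl i)) (b (.inr j)) = if i = j then 1 else 0 := hb.eh
      simp only [Module.Basis.equivFun_symm_apply, map_sum, map_smul, LinearMap.sum_apply, LinearMap.smul_apply, Fintype.sum_sum_type, map_add, LinearMap.add_apply, hee, hhh, heh, hhe, smul_eq_mul, mul_ite, mul_one, mul_zero, mul_neg, Finset.sum_const_zero, Finset.sum_ite_eq, Finset.sum_ite_eq', Finset.mem_univ, if_true, zero_add, add_zero, CfsgLib.Classical.sympForm_apply, Finset.sum_sub_distrib, Finset.sum_neg_distrib]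
      rw [show (∑ i, x (Sum.inr i) * y (Sum.inl i)) = ∑ i, y (Sum.inl i) * x (Sum.inr i) from Finset.sum_congr rfl fun i _ => mul_comm _ _,
        show (∑ i, x (Sum.inl i) * y (Sum.inr i)) = ∑ i, y (Sum.inr i) * x (Sum.inl i) from Finset.sum_congr rfl fun i _ => mul_comm _ _]
      ring
    intro x y
    rw [hmul, hmul, hform, hform, LinearEquiv.symm_apply_apply, LinearEquiv.symm_apply_apply, hB, hB]
    congr 2
    exact CfsgLib.Classical.mem_symplecticGroup_iff.1 g.2 _ _
  let Φ' : ↥(Matrix.symplecticGroup (Fin a) K) →* ↥(Matrix.symplecticGroup (Fin (2 * a)) F) :=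
    (((ψ : K0 →+* F).mapMatrix.toMonoidHom).comp Φ).codRestrict _ (fun g => by
      have h1 := hΦ g
      rw [SymplecticGroup.mem_iff'] at h1 ⊢
      have h2 := congrArg (fun M : Matrix (Fin (2 * a) ⊕ Fin (2 * a)) (Fin (2 * a) ⊕ Fin (2 * a)) K0 => M.map ψ) h1
      have hJ : (Matrix.J (Fin (2 * a)) K0).map ψ = Matrix.J (Fin (2 * a)) F := by
        ext i j; rcases i with i | i <;> rcases j with j | j <;> simp [Matrix.J, Matrix.one_apply, apply_ite ψ]
      simp only [Matrix.map_mul, hJ, Matrix.transpose_map] at h2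
      exact h2)
  refine ⟨Φ', fun g c hac => ?_⟩
  have h1 : Φ g = Φ c := Matrix.map_injective ψ.injective (congrArg Subtype.val hac)
  have h2 : L g = L c := (LinearMap.toMatrix b b).injective h1
  apply Subtype.ext
  refine Matrix.ext_of_mulVec_single fun i => ?_
  exact LinearMap.congr_fun h2 _

end Cfsg.Agent.S2678
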