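import Cfsg.Statements.S2738

set_option autoImplicit false
open Cfsg

namespace Cfsg.Agent.S2738

/-- The special linear group SL(3, 4) has centre of order 3 and does not split over it: no subgroup is a complement to the centre (so SL(3, 4) is a non-split central extension of PSL(3, 4) by a group of order 3). -/
theorem result (F : Type*) [Field F] [Fintype F] (hF : Fintype.card F = 4) : Nat.card ↥(Subgroup.center (Matrix.SpecialLinearGroup (Fin 3) F)) = 3 ∧ ¬ ∃ K : Subgroup (Matrix.SpecialLinearGroup (Fin 3) F), Subgroup.IsComplement' (Subgroup.center (Matrix.SpecialLinearGroup (Fin 3) F)) K := by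
  classical
  have hu : Fintype.card Fˣ = 3 := by rw [Fintype.card_units, hF]
  have hω : ∃ u : Fˣ, u ≠ 1 := Fintype.exists_ne_of_one_lt_card (by omega) 1
  obtain ⟨u, hu1⟩ := hω
  have hu3 : ∀ v : Fˣ, v ^ 3 = 1 := fun v => hu ▸ pow_card_eq_one
  refine ⟨?_, ?_⟩
  · rw [Nat.card_congr (Matrix.SpecialLinearGroup.center_equiv_rootsOfUnity (n := Fin 3) (R := F)).toEquiv]
    have : (rootsOfUnity 3 F) = ⊤ := by
      ext v
      simp [mem_rootsOfUnity, hu3 v]
    simp only [Fintype.card_fin]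
    rw [show max 3 1 = 3 from rfl, this, Nat.card_congr Subgroup.topEquiv.toEquiv, Nat.card_eq_fintype_card, hu]
  · rintro ⟨K, hK⟩
    set w : F := (u : F) with hw
    have hw3 : w ^ 3 = 1 := by rw [hw, ← Units.val_pow_eq_pow_val, hu3, Units.val_one]
    let P : Matrix.SpecialLinearGroup (Fin 3) F :=
      ⟨!![0, 1, 0; 0, 0, 1; 1, 0, 0], by simp [Matrix.det_fin_three]⟩
    let P' : Matrix.SpecialLinearGroup (Fin 3) F :=
      ⟨!![0, 0, 1; 1, 0, 0; 0, 1, 0], by simp [Matrix.det_fin_three]⟩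
    let D : Matrix.SpecialLinearGroup (Fin 3) F :=
      ⟨Matrix.diagonal ![1, w, w ^ 2], by rw [Matrix.det_diagonal, Fin.prod_univ_three]; simpa [← pow_succ'] using hw3⟩
    let D' : Matrix.SpecialLinearGroup (Fin 3) F :=
      ⟨Matrix.diagonal ![1, w ^ 2, w], by rw [Matrix.det_diagonal, Fin.prod_univ_three]; simpa [← pow_succ] using hw3⟩
    let Z : Matrix.SpecialLinearGroup (Fin 3) F :=
      ⟨Matrix.diagonal fun _ => w ^ 2, by rw [Matrix.det_diagonal, Fin.prod_univ_three]; linear_combination (w ^ 3 + 1) * hw3⟩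
    have hDD : D * D' = 1 := by
      refine Subtype.ext ?_
      show Matrix.diagonal _ * Matrix.diagonal _ = 1
      rw [Matrix.diagonal_mul_diagonal, Matrix.diagonal_eq_one]
      funext i; fin_cases i <;> simp <;> linear_combination hw3
    have hPP : P * P' = 1 := by
      refine Subtype.ext ?_
      show !![0, 1, 0; 0, 0, 1; 1, 0, 0] * !![0, 0, 1; 1, 0, 0; 0, 1, 0] = (1 : Matrix (Fin 3) (Fin 3) F)
      ext i j; fin_cases i <;> fin_cases j <;> simp [Matrix.mul_apply, Fin.sum_univ_three]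
    have hcomm : D * P * D⁻¹ * P⁻¹ = Z := by
      rw [inv_eq_of_mul_eq_one_right hDD, inv_eq_of_mul_eq_one_right hPP]
      refine Subtype.ext ?_
      show Matrix.diagonal ![1, w, w ^ 2] * !![0, 1, 0; 0, 0, 1; 1, 0, 0] * Matrix.diagonal ![1, w ^ 2, w] *
        !![0, 0, 1; 1, 0, 0; 0, 1, 0] = Matrix.diagonal fun _ => w ^ 2
      ext i j
      fin_cases i <;> fin_cases j <;> simp [Matrix.mul_apply, Fin.sum_univ_three, Matrix.diagonal, ← pow_succ'] <;>
        grind
    have hZc : Z ∈ Subgroup.center (Matrix.SpecialLinearGroup (Fin 3) F) :=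
      Matrix.SpecialLinearGroup.mem_center_iff.2 ⟨w ^ 2, by rw [Fintype.card_fin, ← pow_mul, pow_mul', hw3, one_pow], rfl⟩
    have hsplit : ∀ g, ∃ z ∈ Subgroup.center (Matrix.SpecialLinearGroup (Fin 3) F), ∃ k ∈ K, z * k = g := fun g => by
      obtain ⟨⟨z, k⟩, hzk⟩ := hK.surjective g
      exact ⟨z, z.2, k, k.2, hzk⟩
    obtain ⟨z, hz, k, hk, hD⟩ := hsplit D
    obtain ⟨z', hz', k', hk', hP⟩ := hsplit P
    have hZK : Z ∈ K := by
      rw [← hcomm, ← hD, ← hP]
      have e : z * k * (z' * k') * (z * k)⁻¹ * (z' * k')⁻¹ = k * k' * k⁻¹ * k'⁻¹ :=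
        calc z * k * (z' * k') * (z * k)⁻¹ * (z' * k')⁻¹ = z * (k * z') * k' * k⁻¹ * (z⁻¹ * k'⁻¹) * z'⁻¹ := by group
          _ = z * (z' * k) * k' * k⁻¹ * (k'⁻¹ * z⁻¹) * z'⁻¹ := by
            rw [Subgroup.mem_center_iff.1 hz' k, ← Subgroup.mem_center_iff.1 (inv_mem hz) k'⁻¹]
          _ = (z * z') * (k * k' * k⁻¹ * k'⁻¹) * (z⁻¹ * z'⁻¹) := by group
          _ = k * k' * k⁻¹ * k'⁻¹ := by
            rw [← Subgroup.mem_center_iff.1 (mul_mem hz hz'), Subgroup.mem_center_iff.1 hz' z]; group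
      rw [e]
      exact mul_mem (mul_mem (mul_mem hk hk') (inv_mem hk)) (inv_mem hk')
    have h1 : Z = 1 := by
      have h := hK.disjoint.le_bot (Subgroup.mem_inf.2 ⟨hZc, hZK⟩)
      exact Subgroup.mem_bot.1 h
    have h00 : w ^ 2 = 1 := by
      have := congrArg (fun A : Matrix.SpecialLinearGroup (Fin 3) F => (A : Matrix (Fin 3) (Fin 3) F) 0 0) h1
      simpa [Z] using this
    refine hu1 (Units.ext ?_)
    show w = 1
    linear_combination hw3 - w * h00

end Cfsg.Agent.S2738
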