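import Cfsg.Statements.S2739
import Cfsg.Agent.Lib.LieGLSemisimple

set_option autoImplicit false
open scoped Pointwise
open Cfsg

namespace Cfsg.Agent.S2739

open Polynomial in
theorem charpoly_eq {F : Type*} [Field F] [Fintype F] (hF : Fintype.card F = 4)
    (x : Matrix.SpecialLinearGroup (Fin 3) F) (hx : ∀ a : F, (x : Matrix (Fin 3) (Fin 3) F) ≠ a • 1)
    {c : F} (hc : (x : Matrix (Fin 3) (Fin 3) F) ^ 3 = c • 1) :
    (x : Matrix (Fin 3) (Fin 3) F).charpoly = X ^ 3 + 1 ∧ (x : Matrix (Fin 3) (Fin 3) F) ^ 3 = 1 := by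
  classical
  set A := (x : Matrix (Fin 3) (Fin 3) F) with hA
  haveI : CharP F 2 := by
    obtain ⟨p, hp⟩ := CharP.exists F
    obtain ⟨n, hpp, hn⟩ := FiniteField.card F p
    rw [hF] at hn
    have : p ∣ 2 ^ 2 := by rw [show (2 : ℕ) ^ 2 = p ^ (n : ℕ) from hn]; exact dvd_pow_self p n.ne_zero
    have := (Nat.prime_dvd_prime_iff_eq hpp Nat.prime_two).1 (hpp.dvd_of_dvd_pow this)
    exact this ▸ hp
  have h1 : A.det = 1 := x.2
  have hdeg : A.charpoly.natDegree = 3 := by simp [Matrix.charpoly_natDegree_eq_dim]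
  have h0 : A.charpoly.coeff 0 = 1 := by
    have := Matrix.det_eq_sign_charpoly_coeff A
    rw [h1, Fintype.card_fin, CharTwo.neg_eq, one_pow, one_mul] at this
    exact this.symm
  have h3 : A.charpoly.coeff 3 = 1 := by
    have := (Matrix.charpoly_monic A).coeff_natDegree
    rwa [hdeg] at this
  set t := A.charpoly.coeff 2
  set s := A.charpoly.coeff 1
  have hsum : A.charpoly = X ^ 3 + C t * X ^ 2 + C s * X + 1 := by
    conv_lhs => rw [A.charpoly.as_sum_range, hdeg]
    rw [Finset.sum_range_succ, Finset.sum_range_succ, Finset.sum_range_succ, Finset.sum_range_one, h0, h3]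
    simp only [← C_mul_X_pow_eq_monomial, map_one, one_mul, pow_zero, pow_one]
    ring
  have hch : A ^ 3 + t • A ^ 2 + s • A + 1 = 0 := by
    have := Matrix.aeval_self_charpoly A
    rw [hsum] at this
    simpa [Algebra.smul_def] using this
  rw [hc] at hch
  have hind : ∀ a b : F, a • A + b • (1 : Matrix (Fin 3) (Fin 3) F) = 0 → a = 0 ∧ b = 0 := by
    intro a b h
    have ha : a = 0 := by
      by_contra ha
      refine hx (-b / a) ?_
      have := congrArg (fun M => a⁻¹ • M) h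
      simp only [smul_add, smul_smul, inv_mul_cancel₀ ha, one_smul, smul_zero] at this
      rw [eq_neg_of_add_eq_zero_left this, ← neg_smul]
      congr 1
      ring
    subst ha
    refine ⟨rfl, ?_⟩
    simpa using h
  by_cases ht : t = 0
  · rw [ht] at hch hsum
    obtain ⟨hs, hc1⟩ := hind s (c + 1) (by rw [add_smul, one_smul, ← hch]; module)
    refine ⟨by rw [hsum, hs]; simp, ?_⟩
    rw [hc, eq_neg_of_add_eq_zero_left hc1, CharTwo.neg_eq, one_smul]
  exfalso
  obtain ⟨α, β, h2⟩ : ∃ α β : F, A ^ 2 = α • A + β • (1 : Matrix (Fin 3) (Fin 3) F) := by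
    refine ⟨-s / t, -(c + 1) / t, ?_⟩
    have h' := congrArg (fun M => t⁻¹ • M) hch
    simp only [smul_add, smul_smul, inv_mul_cancel₀ ht, one_smul, smul_zero] at h'
    rw [neg_div, neg_div, neg_smul, neg_smul, div_eq_inv_mul, div_eq_inv_mul, ← sub_eq_zero, ← h']
    module
  have hA3 : A ^ 3 = (α * α + β) • A + (α * β) • (1 : Matrix (Fin 3) (Fin 3) F) := by
    rw [pow_succ, h2, add_mul, smul_mul_assoc, smul_mul_assoc, one_mul, ← pow_two, h2]
    module
  rw [hc] at hA3
  obtain ⟨e1, e2⟩ := hind (α * α + β) (α * β - c) (by rw [sub_smul]; linear_combination (norm := module) -hA3)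
  have hc0 : c ≠ 0 := by
    intro e
    have := congrArg Matrix.det hc
    rw [e, zero_smul, Matrix.det_zero, Matrix.det_pow, h1, one_pow] at this
    exact one_ne_zero this
  have hα : α ≠ 0 := fun e => hc0 (by rw [e, zero_mul] at e2; linear_combination -e2)
  have hcα : c = 1 := by
    have h3 : α ^ 3 = 1 := by
      have := FiniteField.pow_card_sub_one_eq_one α hα
      rwa [hF] at this
    have : c = -(α ^ 3) := by linear_combination α * e1 - e2
    rw [this, h3, CharTwo.neg_eq]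
  subst hcα
  rw [one_smul] at hch hc
  have hch' : t • A ^ 2 + s • A = 0 := by
    have e : (1 : Matrix (Fin 3) (Fin 3) F) + 1 = 0 := by
      rw [← two_smul F (1 : Matrix (Fin 3) (Fin 3) F), CharTwo.two_eq_zero, zero_smul]
    linear_combination (norm := module) hch - e
  have := congrArg (fun M => M * A ^ 2) hch'
  simp only [add_mul, smul_mul_assoc, zero_mul, ← pow_succ', ← pow_add] at this
  rw [show A ^ (2 + 2) = A by rw [pow_succ, hc, one_mul], hc] at this
  exact ht (hind t s this).1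

open Polynomial in
theorem conj_of_noncentral {F : Type*} [Field F] [Fintype F] (hF : Fintype.card F = 4)
    (x y : Matrix.SpecialLinearGroup (Fin 3) F)
    (hx : x ∉ Subgroup.center (Matrix.SpecialLinearGroup (Fin 3) F)) (hx3 : x ^ 3 ∈ Subgroup.center (Matrix.SpecialLinearGroup (Fin 3) F))
    (hy : y ∉ Subgroup.center (Matrix.SpecialLinearGroup (Fin 3) F)) (hy3 : y ^ 3 ∈ Subgroup.center (Matrix.SpecialLinearGroup (Fin 3) F)) :
    IsConj x y := by
  classical
  obtain ⟨w, hw, hw1⟩ : ∃ w : F, w ≠ 0 ∧ w ≠ 1 := by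
    have : ({0, 1} : Finset F).card < Fintype.card F := lt_of_le_of_lt Finset.card_le_two (by omega)
    obtain ⟨w, -, hw⟩ := Finset.exists_mem_notMem_of_card_lt_card (s := ({0, 1} : Finset F)) (t := Finset.univ) (by rw [Finset.card_univ]; exact this)
    simp only [Finset.mem_insert, Finset.mem_singleton, not_or] at hw
    exact ⟨w, hw.1, hw.2⟩
  have hw3 : w ^ 3 = 1 := by
    have := FiniteField.pow_card_sub_one_eq_one w hw
    rwa [hF] at this
  have hsc : ∀ z : Matrix.SpecialLinearGroup (Fin 3) F, z ∈ Subgroup.center _ ↔ ∃ a : F, (z : Matrix (Fin 3) (Fin 3) F) = a • 1 := by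
    intro z
    rw [Matrix.SpecialLinearGroup.mem_center_iff]
    constructor
    · rintro ⟨r, -, hr⟩
      exact ⟨r, by rw [← hr, Matrix.smul_one_eq_diagonal]; rfl⟩
    · rintro ⟨a, ha⟩
      refine ⟨a, ?_, by rw [ha, Matrix.smul_one_eq_diagonal]; rfl⟩
      have := z.2
      rwa [ha, Matrix.det_smul, Matrix.det_one, mul_one] at this
  let d : Matrix.SpecialLinearGroup (Fin 3) F := ⟨Matrix.diagonal ![1, w, w ^ 2], by
    simp [Fin.prod_univ_three]; linear_combination hw3⟩
  suffices h : ∀ z : Matrix.SpecialLinearGroup (Fin 3) F, z ∉ Subgroup.center _ → z ^ 3 ∈ Subgroup.center _ → IsConj z d from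
    (h x hx hx3).trans (h y hy hy3).symm
  intro z hz hz3
  have hd0 : d ∉ Subgroup.center (Matrix.SpecialLinearGroup (Fin 3) F) := by
    rw [hsc]
    rintro ⟨a, ha⟩
    have h00 := congrFun (congrFun ha 0) 0
    have h11 := congrFun (congrFun ha 1) 1
    simp [d] at h00 h11
    exact hw1 (h11.trans h00.symm)
  have hd3 : d ^ 3 ∈ Subgroup.center (Matrix.SpecialLinearGroup (Fin 3) F) := by
    rw [hsc]
    refine ⟨1, ?_⟩
    rw [Matrix.SpecialLinearGroup.coe_pow, one_smul]
    show Matrix.diagonal ![1, w, w ^ 2] ^ 3 = 1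
    rw [Matrix.diagonal_pow, ← Matrix.diagonal_one]
    congr 1
    ext i
    fin_cases i <;> simp [hw3, ← pow_mul]
    rw [show w ^ 6 = (w ^ 3) ^ 2 by ring, hw3, one_pow]
  obtain ⟨c, hc⟩ := (hsc _).1 hz3
  obtain ⟨c', hc'⟩ := (hsc _).1 hd3
  rw [Matrix.SpecialLinearGroup.coe_pow] at hc hc'
  obtain ⟨p1, q1⟩ := charpoly_eq hF z (fun a ha => hz ((hsc z).2 ⟨a, ha⟩)) hc
  obtain ⟨p2, q2⟩ := charpoly_eq hF d (fun a ha => hd0 ((hsc d).2 ⟨a, ha⟩)) hc'
  have h3 : ((3 : ℕ) : F) ≠ 0 := by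
    intro e
    obtain ⟨p, hp⟩ := CharP.exists F
    obtain ⟨n, hpp, hn⟩ := FiniteField.card F p
    have h1 := (CharP.cast_eq_zero_iff F p 3).1 e
    have h2 : p ∣ 2 ^ 2 := by rw [show (2 : ℕ) ^ 2 = p ^ (n : ℕ) from hF.symm.trans hn]; exact dvd_pow_self p n.ne_zero
    have h4 := (Nat.prime_dvd_prime_iff_eq hpp Nat.prime_two).1 (hpp.dvd_of_dvd_pow h2)
    rw [h4] at h1
    omega
  obtain ⟨P, hP⟩ := CfsgLib.Lie.GLSemisimple.exists_conj (Matrix.toLinAlgEquiv' (z : Matrix (Fin 3) (Fin 3) F))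
    (Matrix.toLinAlgEquiv' (d : Matrix (Fin 3) (Fin 3) F)) h3 h3
    (by rw [← map_pow, q1, map_one]) (by rw [← map_pow, q2, map_one])
    (by
      show (Matrix.toLin' (z : Matrix (Fin 3) (Fin 3) F)).charpoly = (Matrix.toLin' (d : Matrix (Fin 3) (Fin 3) F)).charpoly
      rw [Matrix.charpoly_toLin', Matrix.charpoly_toLin', p1, p2])
  set Q : Matrix (Fin 3) (Fin 3) F := LinearMap.toMatrix' P.toLinearMap with hQ
  have hQz : Q * (z : Matrix (Fin 3) (Fin 3) F) = (d : Matrix (Fin 3) (Fin 3) F) * Q := by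
    apply Matrix.toLin'.injective
    rw [Matrix.toLin'_mul, Matrix.toLin'_mul, hQ, Matrix.toLin'_toMatrix']
    exact LinearMap.ext hP
  have hdet : Q.det ≠ 0 := by
    rw [hQ, LinearMap.det_toMatrix']
    exact (LinearEquiv.isUnit_det' P).ne_zero
  let E : Matrix (Fin 3) (Fin 3) F := Matrix.diagonal ![Q.det⁻¹, 1, 1]
  let g : Matrix.SpecialLinearGroup (Fin 3) F := ⟨E * Q, by
    simp [E, Matrix.det_mul, Fin.prod_univ_three, hdet]⟩
  refine isConj_iff.2 ⟨g, ?_⟩
  rw [mul_inv_eq_iff_eq_mul]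
  apply Matrix.SpecialLinearGroup.coeMonoidHom_injective
  simp only [map_mul, Matrix.SpecialLinearGroup.coeMonoidHom_apply]
  show E * Q * (z : Matrix (Fin 3) (Fin 3) F) = (d : Matrix (Fin 3) (Fin 3) F) * (E * Q)
  rw [Matrix.mul_assoc, hQz, ← Matrix.mul_assoc, ← Matrix.mul_assoc]
  congr 1
  show E * Matrix.diagonal ![1, w, w ^ 2] = Matrix.diagonal ![1, w, w ^ 2] * E
  rw [Matrix.diagonal_mul_diagonal, Matrix.diagonal_mul_diagonal]
  exact congrArg Matrix.diagonal (funext fun i => mul_comm _ _)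

/-- In the projective special linear group PSL(3, 4) all subgroups of order 3 are conjugate. -/
theorem result (F : Type*) [Field F] [Fintype F] (hF : Fintype.card F = 4) (X Y : Subgroup (Matrix.ProjectiveSpecialLinearGroup (Fin 3) F)) (hX : Nat.card ↥X = 3) (hY : Nat.card ↥Y = 3) : ∃ g : Matrix.ProjectiveSpecialLinearGroup (Fin 3) F, MulAut.conj g • X = Y := by
  classical
  haveI : Fact (Nat.Prime 3) := ⟨Nat.prime_three⟩
  obtain ⟨a, ha⟩ := exists_prime_orderOf_dvd_card' (G := X) 3 (by rw [hX])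
  obtain ⟨b, hb⟩ := exists_prime_orderOf_dvd_card' (G := Y) 3 (by rw [hY])
  rw [← Subgroup.orderOf_coe] at ha hb
  obtain ⟨x, hxa⟩ := QuotientGroup.mk'_surjective (Subgroup.center (Matrix.SpecialLinearGroup (Fin 3) F)) a.1
  obtain ⟨y, hyb⟩ := QuotientGroup.mk'_surjective (Subgroup.center (Matrix.SpecialLinearGroup (Fin 3) F)) b.1
  have hlift : ∀ (z : Matrix.SpecialLinearGroup (Fin 3) F) (u : Matrix.ProjectiveSpecialLinearGroup (Fin 3) F),
      QuotientGroup.mk' (Subgroup.center _) z = u → orderOf u = 3 →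
      z ∉ Subgroup.center _ ∧ z ^ 3 ∈ Subgroup.center (Matrix.SpecialLinearGroup (Fin 3) F) := by
    intro z u hz hu
    constructor
    · intro h
      have : u = 1 := hz ▸ (QuotientGroup.eq_one_iff z).2 h
      rw [this, orderOf_one] at hu
      omega
    · refine (QuotientGroup.eq_one_iff _).1 ?_
      show QuotientGroup.mk' (Subgroup.center (Matrix.SpecialLinearGroup (Fin 3) F)) (z ^ 3) = 1
      rw [map_pow, hz]
      exact (congrArg (u ^ ·) hu.symm).trans (pow_orderOf_eq_one u)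
  obtain ⟨hx1, hx2⟩ := hlift x _ hxa ha
  obtain ⟨hy1, hy2⟩ := hlift y _ hyb hb
  obtain ⟨g, hg⟩ := isConj_iff.1 (conj_of_noncentral hF x y hx1 hx2 hy1 hy2)
  have hXa : X = Subgroup.zpowers a.1 :=
    (Subgroup.eq_of_le_of_card_ge (Subgroup.zpowers_le.2 a.2) (by rw [Nat.card_zpowers, ha, hX])).symm
  have hYb : Y = Subgroup.zpowers b.1 :=
    (Subgroup.eq_of_le_of_card_ge (Subgroup.zpowers_le.2 b.2) (by rw [Nat.card_zpowers, hb, hY])).symm
  refine ⟨QuotientGroup.mk' _ g, ?_⟩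
  rw [hXa, hYb]
  show (Subgroup.zpowers a.1).map (MulAut.conj (QuotientGroup.mk' _ g)).toMonoidHom = _
  rw [MonoidHom.map_zpowers]
  congr 1
  rw [← hxa, ← hyb, ← hg, map_mul, map_mul, map_inv]
  rfl

end Cfsg.Agent.S2739
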