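import Cfsg.Statements.S2756
import Cfsg.Agent.Lib.LocalInvertTwo

set_option autoImplicit false
open Cfsg

namespace Cfsg.Agent.S2756

/-- For a finite group G the following are equivalent: (a) G has a normal Sylow 2-subgroup; (b) for every odd prime q dividing the order of G and every Sylow q-subgroup T, the normalizer of Z(J(T)) has a normal Sylow 2-subgroup; (c) for every odd prime q and every Sylow q-subgroup T, no nonidentity element of T is inverted by an element of the normalizer of Z(J(T)). Here J(T) is the Thompson subgroup generated by the abelian subgroups of T of largest order. Stated as the two equivalences (a) ⇔ (b) and (a) ⇔ (c). -/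
theorem result {G : Type*} [Group G] [Finite G] : ((∀ P : Sylow 2 G, (P : Subgroup G).Normal) ↔ ∀ (q : ℕ) [Fact q.Prime], q ≠ 2 → q ∣ Nat.card G → ∀ T : Sylow q G, ∀ P : Sylow 2 ↥(Subgroup.normalizer (Cfsg.centerThompsonAOf (T : Subgroup G) : Set G)), (P : Subgroup ↥(Subgroup.normalizer (Cfsg.centerThompsonAOf (T : Subgroup G) : Set G))).Normal) ∧ ((∀ P : Sylow 2 G, (P : Subgroup G).Normal) ↔ ∀ (q : ℕ) [Fact q.Prime], q ≠ 2 → ∀ T : Sylow q G, ∀ x ∈ (T : Subgroup G), x ≠ 1 → ∀ g ∈ Subgroup.normalizer (Cfsg.centerThompsonAOf (T : Subgroup G) : Set G), g * x * g⁻¹ ≠ x⁻¹) := by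
  classical
  open CfsgLib.Local.Invert CfsgLib.Stable in
  have hc_a : (∀ (q : ℕ) [Fact q.Prime], q ≠ 2 → ∀ T : Sylow q G,
      ¬ InvIn q (Subgroup.normalizer (Zsub 0 (T : Subgroup G) : Set G))) →
      ∀ P : Sylow 2 G, (P : Subgroup G).Normal := by
    intro h P
    by_contra hP
    obtain ⟨q, hq, hq2, hinv⟩ := exists_odd_invIn P hP
    haveI : Fact q.Prime := ⟨hq⟩
    obtain ⟨T⟩ := (inferInstance : Nonempty (Sylow q G))
    exact h q hq2 T (invIn_normalizer_Zsub hq2 T hinv)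
  open CfsgLib.Local.Invert CfsgLib.Stable in
  have key : ∀ (q : ℕ) [Fact q.Prime] (T : Sylow q G),
      InvIn q (Subgroup.normalizer (Zsub 0 (T : Subgroup G) : Set G)) →
      ∃ x ∈ (T : Subgroup G), x ≠ 1 ∧ ∃ g ∈ Subgroup.normalizer (Zsub 0 (T : Subgroup G) : Set G),
        g * x * g⁻¹ = x⁻¹ := by
    intro q _ T hinv
    obtain ⟨g, hg, x, hx, ⟨k, hk⟩, hx1, he⟩ := hinv
    set N := Subgroup.normalizer (Zsub 0 (T : Subgroup G) : Set G) with hN
    have hTN : (T : Subgroup G) ≤ N :=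
      Subgroup.le_normalizer.trans ((normalizer_le_Jsub 0 _).trans (normalizer_Jsub_le_Zsub 0 _))
    obtain ⟨R, hR⟩ := (show IsPGroup q ↥(Subgroup.zpowers (⟨x, hx⟩ : ↥N)) from by
      obtain ⟨i, -, hi⟩ := (Nat.dvd_prime_pow (Fact.out : q.Prime)).1
        (orderOf_dvd_of_pow_eq_one (show (⟨x, hx⟩ : ↥N) ^ q ^ k = 1 from Subtype.ext hk))
      exact IsPGroup.of_card (n := i) (by rw [Nat.card_zpowers, hi])).exists_le_sylow
    obtain ⟨m, hm⟩ := MulAction.exists_smul_eq ↥N R (T.subtype hTN)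
    refine ⟨(m : G) * x * (m : G)⁻¹, ?_, fun e => hx1 (by simpa using e),
      (m : G) * g * (m : G)⁻¹, N.mul_mem (N.mul_mem m.2 hg) (N.inv_mem m.2), ?_⟩
    · have h : m * ⟨x, hx⟩ * m⁻¹ ∈ ((T.subtype hTN : Sylow q ↥N) : Subgroup ↥N) := by
        rw [← hm, Sylow.coe_subgroup_smul]
        exact ⟨⟨x, hx⟩, hR (Subgroup.mem_zpowers _), rfl⟩
      rw [Sylow.coe_subtype, Subgroup.mem_subgroupOf] at h
      exact h
    · calc _ = (m : G) * (g * x * g⁻¹) * (m : G)⁻¹ := by group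
        _ = _ := by rw [he]; group
  refine ⟨⟨fun h q _ _ _ T P => CfsgLib.Local.Invert.sylow_two_normal_subgroup h _ P,
      fun h => hc_a fun q _ hq T hinv => ?_⟩, ⟨fun h q _ hq T x hxT hx1 g hg he => ?_,
      fun h => hc_a fun q _ hq T hinv => ?_⟩⟩
  · obtain ⟨x, hxT, hx1, -⟩ := key q T hinv
    have hdvd : q ∣ Nat.card G := by
      haveI : Nontrivial ↥(T : Subgroup G) := ⟨⟨⟨x, hxT⟩, 1, fun e => hx1 (congrArg Subtype.val e)⟩⟩
      obtain ⟨i, hi0, hi⟩ := T.2.nontrivial_iff_card.1 inferInstance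
      exact (hi ▸ dvd_pow_self q hi0.ne').trans (Subgroup.card_subgroup_dvd_card _)
    refine CfsgLib.Local.Invert.not_invIn_of_sylow_two_normal hq _ (fun P => ?_) hinv
    have h' := h q hq hdvd T
    rw [CfsgLib.Stable.centerThompsonAOf_eq] at h'
    exact h' P
  · have hTN : (T : Subgroup G) ≤ Subgroup.normalizer
        (Cfsg.centerThompsonAOf (T : Subgroup G) : Set G) := by
      rw [CfsgLib.Stable.centerThompsonAOf_eq]
      exact Subgroup.le_normalizer.trans ((CfsgLib.Stable.normalizer_le_Jsub 0 _).trans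
        (CfsgLib.Stable.normalizer_Jsub_le_Zsub 0 _))
    refine CfsgLib.Local.Invert.not_invIn_of_sylow_two_normal (q := q) hq _
      (fun P => CfsgLib.Local.Invert.sylow_two_normal_subgroup h _ P)
      ⟨g, hg, x, hTN hxT, ?_, hx1, he⟩
    obtain ⟨k, hk⟩ := T.2 ⟨x, hxT⟩
    exact ⟨k, congrArg Subtype.val hk⟩
  · obtain ⟨x, hxT, hx1, g, hg, he⟩ := key q T hinv
    rw [← CfsgLib.Stable.centerThompsonAOf_eq] at hg
    exact h q hq T x hxT hx1 g hg he

end Cfsg.Agent.S2756
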