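import Cfsg.Statements.S2758
import Cfsg.Agent.Lib.DicksonDihedral

set_option autoImplicit false
open Cfsg

namespace Cfsg.Agent.S2758

section Aux

variable {G : Type*} [Group G]

theorem mem_normalizer_zpowers {x y : G} (hxy : x * y * x⁻¹ = y⁻¹) : x ∈ Subgroup.normalizer (Subgroup.zpowers y : Set G) := by
  refine Subgroup.mem_normalizer_iff.2 fun h => ⟨fun hh => ?_, fun hh => ?_⟩
  · obtain ⟨i, rfl⟩ := Subgroup.mem_zpowers_iff.1 hh
    rw [← conj_zpow, hxy, inv_zpow]
    exact inv_mem (Subgroup.zpow_mem_zpowers y i)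
  · obtain ⟨i, hi⟩ := Subgroup.mem_zpowers_iff.1 hh
    have e : x * y ^ (-i) * x⁻¹ = y ^ i := by rw [← conj_zpow, hxy, inv_zpow, zpow_neg, inv_inv]
    rw [← e] at hi
    have := mul_left_cancel (mul_right_cancel hi)
    rw [← this]; exact Subgroup.zpow_mem_zpowers y _

theorem involves_to_action [Finite G] {p : ℕ} [hpf : Fact p.Prime] (hp : p ≠ 2) {K : Subgroup G}
    (f : K →* DihedralGroup p) (hf : Function.Surjective f) :
    ∃ (x : G) (P : Subgroup G), (∃ k : ℕ, orderOf x = 2 ^ k) ∧ IsPGroup p ↥P ∧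
      x ∈ Subgroup.normalizer (P : Set G) ∧ x ∉ Subgroup.centralizer (P : Set G) := by
  haveI : NeZero p := ⟨hpf.out.ne_zero⟩
  set Rot : Subgroup (DihedralGroup p) := Subgroup.zpowers (DihedralGroup.r 1) with hRot
  have hRc : Nat.card Rot = p := by rw [hRot, Nat.card_zpowers, DihedralGroup.orderOf_r_one]
  haveI hRn : Rot.Normal := Subgroup.normal_of_index_eq_two (by
    have := Rot.card_mul_index
    rw [hRc, DihedralGroup.nat_card, mul_comm 2 p] at this
    exact Nat.eq_of_mul_eq_mul_left hpf.out.pos this)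
  have hmemR : ∀ d ∈ Rot, ∃ i : ZMod p, d = DihedralGroup.r i := by
    intro d hd
    obtain ⟨i, rfl⟩ := Subgroup.mem_zpowers_iff.1 hd
    exact ⟨(i : ZMod p), by rw [DihedralGroup.r_one_zpow]⟩
  let N : Subgroup K := Rot.comap f
  let P : Sylow p N := default
  have hfr := Sylow.normalizer_sup_eq_top P
  obtain ⟨n, hn, hnR⟩ : ∃ n ∈ Subgroup.normalizer (((P : Subgroup N).map N.subtype : Subgroup K) : Set K), f n ∉ Rot := by
    by_contra hcon
    push Not at hcon
    have htop : (⊤ : Subgroup K) ≤ N := by rw [← hfr]; exact sup_le hcon le_rfl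
    obtain ⟨z, hz⟩ := hf (DihedralGroup.sr 0)
    obtain ⟨i, hi⟩ := hmemR _ (hz ▸ htop (Subgroup.mem_top z) : DihedralGroup.sr 0 ∈ Rot)
    simp at hi
  obtain ⟨j, m, hm, he⟩ := Nat.exists_eq_pow_mul_and_not_dvd (orderOf_pos n).ne' 2 (by norm_num)
  set x := n ^ m with hxdef
  have hxo : orderOf x = 2 ^ j := by
    rw [hxdef, orderOf_pow' n (by rintro rfl; exact hm (dvd_zero 2)), he, Nat.gcd_mul_left_left, Nat.mul_div_cancel]
    exact Nat.pos_of_ne_zero fun h => hm (h ▸ dvd_zero 2)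
  have hfx : f x ∉ Rot := by
    obtain ⟨l, hl⟩ : Odd m := Nat.not_even_iff_odd.1 fun h => hm h.two_dvd
    intro h
    apply hnR
    have hn2 : f n ^ 2 ∈ Rot := by
      rcases hd : f n with i | i
      · exact Subgroup.pow_mem _ (Subgroup.mem_zpowers_iff.2 ⟨(i.val : ℤ), by simp⟩) 2
      · rw [pow_two, DihedralGroup.sr_mul_self]; exact one_mem _
    rw [hxdef, map_pow, hl, pow_succ, pow_mul] at h
    exact (Subgroup.mul_mem_cancel_left Rot (pow_mem hn2 l)).1 h
  obtain ⟨a, haP, ha1⟩ : ∃ a ∈ (P : Subgroup N), f (a : K) ≠ 1 := by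
    by_contra hcon
    push Not at hcon
    have hle : (P : Subgroup N) ≤ (f.subgroupComap Rot).ker := fun a ha => Subtype.ext (hcon a ha)
    have hs : Function.Surjective (f.subgroupComap Rot) := MonoidHom.subgroupComap_surjective_of_surjective f Rot hf
    have hidx : (f.subgroupComap Rot).ker.index = p := by
      rw [Subgroup.index_ker, MonoidHom.range_eq_top.2 hs, Subgroup.card_top, hRc]
    exact P.not_dvd_index ((dvd_of_eq hidx.symm).trans (Subgroup.index_dvd_of_le hle))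
  refine ⟨(x : G), ((P : Subgroup N).map N.subtype).map K.subtype, ⟨j, by rw [Subgroup.orderOf_coe, hxo]⟩,
    (P.2.map _).map _, ?_, ?_⟩
  · exact Subgroup.le_normalizer_map K.subtype ⟨x, pow_mem hn m, rfl⟩
  · intro h
    have h' := Subgroup.mem_centralizer_iff.1 h _ ⟨(a : K), ⟨a, haP, rfl⟩, rfl⟩
    have hc : f (a : K) * f x = f x * f (a : K) := by
      rw [← map_mul, ← map_mul]; exact congrArg f (Subtype.ext h')
    obtain ⟨i, hi⟩ := hmemR _ a.2
    rcases hd : f x with l | l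
    · exact hfx (by rw [hd]; exact Subgroup.mem_zpowers_iff.2 ⟨(l.val : ℤ), by simp⟩)
    · rw [hd, hi, DihedralGroup.r_mul_sr, DihedralGroup.sr_mul_r, DihedralGroup.sr.injEq] at hc
      apply ha1
      have h2 : (2 : ZMod p) * i = 0 := by linear_combination -hc
      rcases mul_eq_zero.1 h2 with h0 | h0
      · exfalso
        have : ((2 : ℕ) : ZMod p) = 0 := by exact_mod_cast h0
        rw [ZMod.natCast_eq_zero_iff] at this
        exact hp ((Nat.prime_dvd_prime_iff_eq hpf.out Nat.prime_two).1 this)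
      · rw [hi, h0]; rfl

theorem inverted_to_involves [Finite G] {p : ℕ} [hpf : Fact p.Prime] (hp : p ≠ 2) (x y : G) (hx : ∃ k : ℕ, orderOf x = 2 ^ k)
    (k : ℕ) (hk : orderOf y = p ^ k) (hy1 : y ≠ 1) (hxy : x * y * x⁻¹ = y⁻¹) : Cfsg.Involves (DihedralGroup p) G := by
  obtain ⟨l, rfl⟩ : ∃ l, k = l + 1 := Nat.exists_eq_succ_of_ne_zero fun h => hy1 (orderOf_eq_one_iff.1 (by rw [hk, h, pow_zero]))
  set z := y ^ p ^ l with hz
  have hzo : orderOf z = p := by
    rw [hz, orderOf_pow' y (pow_ne_zero _ hpf.out.ne_zero), hk, pow_succ, Nat.gcd_mul_right_left, Nat.mul_div_cancel_left _ (pow_pos hpf.out.pos _)]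
  have hxz : x * z * x⁻¹ = z⁻¹ := by rw [hz, ← conj_pow, hxy, inv_pow]
  have hx2z : Commute (x ^ 2) z := by
    refine mul_inv_eq_iff_eq_mul.1 ?_
    rw [pow_two]
    calc (x * x) * z * (x * x)⁻¹ = x * (x * z * x⁻¹) * x⁻¹ := by simp [mul_assoc]
      _ = x * z⁻¹ * x⁻¹ := by rw [hxz]
      _ = (x * z * x⁻¹)⁻¹ := by simp [mul_assoc]
      _ = z := by rw [hxz, inv_inv]
  set K : Subgroup G := Subgroup.closure {x, z} with hK
  have hxK : x ∈ K := Subgroup.subset_closure (by simp)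
  have hzK : z ∈ K := Subgroup.subset_closure (by simp)
  set R : Subgroup G := Subgroup.zpowers (x ^ 2) with hR
  have hKC : K ≤ Subgroup.centralizer ({x ^ 2} : Set G) := by
    rw [hK, Subgroup.closure_le]
    rintro w (rfl | rfl)
    · exact Subgroup.mem_centralizer_singleton_iff.2 ((Commute.refl _).pow_right 2).eq
    · exact Subgroup.mem_centralizer_singleton_iff.2 hx2z.symm.eq
  haveI hRn : (R.subgroupOf K).Normal := ⟨fun a ha b => by
    obtain ⟨i, hi⟩ := Subgroup.mem_zpowers_iff.1 (show (a : G) ∈ R from ha)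
    have hcb : Commute (b : G) (x ^ 2) := Subgroup.mem_centralizer_singleton_iff.1 (hKC b.2)
    show (b : G) * a * (b : G)⁻¹ ∈ R
    rw [← hi, (hcb.zpow_right i).eq, mul_inv_cancel_right]
    exact Subgroup.zpow_mem_zpowers _ i⟩
  let q := QuotientGroup.mk' (R.subgroupOf K)
  set c := q ⟨z, hzK⟩ with hc
  set g := q ⟨x, hxK⟩ with hg
  have hinv : g * c * g⁻¹ = c⁻¹ := by
    rw [hc, hg, ← map_inv, ← map_mul, ← map_mul, ← map_inv]; exact congrArg q (Subtype.ext hxz)
  have hg2 : g * g = 1 := by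
    rw [hg, ← map_mul, ← MonoidHom.mem_ker, QuotientGroup.ker_mk']
    show x * x ∈ R
    rw [← pow_two]; exact Subgroup.mem_zpowers _
  have hc1 : c ≠ 1 := fun h => by
    rw [hc, ← MonoidHom.mem_ker, QuotientGroup.ker_mk'] at h
    have hd := Subgroup.orderOf_dvd_natCard R (show z ∈ R from h)
    rw [hzo, hR, Nat.card_zpowers] at hd
    obtain ⟨i, hi⟩ := hx
    have := hd.trans (orderOf_pow_dvd (x := x) 2)
    rw [hi] at this
    exact hp ((Nat.prime_dvd_prime_iff_eq hpf.out Nat.prime_two).1 (hpf.out.dvd_of_dvd_pow this))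
  have hco : orderOf c = p := by
    refine orderOf_eq_prime ?_ hc1
    rw [hc, ← map_pow]
    have : (⟨z, hzK⟩ : K) ^ p = 1 := Subtype.ext (by show z ^ p = 1; rw [← hzo, pow_orderOf_eq_one])
    rw [this, map_one]
  have hgc : g ∉ Subgroup.zpowers c := fun h => by
    obtain ⟨i, hi⟩ := Subgroup.mem_zpowers_iff.1 h
    have hcm : g * c = c * g := by rw [← hi]; exact ((Commute.refl c).zpow_left i).eq
    rw [hcm, mul_inv_cancel_right] at hinv
    have h2 : c ^ 2 = 1 := by rw [pow_two]; exact mul_eq_one_iff_eq_inv.2 hinv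
    have := orderOf_dvd_of_pow_eq_one h2
    rw [hco] at this
    exact hp ((Nat.prime_dvd_prime_iff_eq hpf.out Nat.prime_two).1 this)
  have hgen : Subgroup.closure {g, c} = ⊤ := by
    have h1 : Subgroup.closure ({⟨x, hxK⟩, ⟨z, hzK⟩} : Set K) = ⊤ := by
      apply Subgroup.map_injective K.subtype_injective
      rw [MonoidHom.map_closure, ← MonoidHom.range_eq_map, Subgroup.range_subtype, Set.image_pair]
      rfl
    have h2 := congrArg (Subgroup.map q) h1
    rw [MonoidHom.map_closure, Set.image_pair, Subgroup.map_top_of_surjective q (QuotientGroup.mk'_surjective _)] at h2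
    exact h2
  haveI hcn : (Subgroup.zpowers c).Normal := by
    rw [← Subgroup.normalizer_eq_top_iff, ← top_le_iff, ← hgen, Subgroup.closure_le]
    rintro w (rfl | rfl)
    · exact mem_normalizer_zpowers hinv
    · exact Subgroup.le_normalizer (Subgroup.mem_zpowers _)
  have hcard : Nat.card (K ⧸ R.subgroupOf K) = 2 * p := by
    have hsup : Subgroup.zpowers g ⊔ Subgroup.zpowers c = ⊤ := by
      rw [← top_le_iff, ← hgen, Subgroup.closure_le]
      rintro w (rfl | rfl)
      · exact Subgroup.mem_sup_left (Subgroup.mem_zpowers _)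
      · exact Subgroup.mem_sup_right (Subgroup.mem_zpowers _)
    have hle : Nat.card (K ⧸ R.subgroupOf K) ≤ Nat.card (Subgroup.zpowers g × Subgroup.zpowers c) := by
      refine Nat.card_le_card_of_surjective (fun w => (w.1 : K ⧸ R.subgroupOf K) * w.2) fun w => ?_
      have hw : w ∈ Subgroup.zpowers g ⊔ Subgroup.zpowers c := by rw [hsup]; trivial
      obtain ⟨a, ha, b, hb, hab⟩ := Subgroup.mem_sup_of_normal_right.1 hw
      exact ⟨(⟨a, ha⟩, ⟨b, hb⟩), hab⟩
    rw [Nat.card_prod, Nat.card_zpowers, Nat.card_zpowers, hco] at hle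
    have hgo : orderOf g ≤ 2 := Nat.le_of_dvd (by norm_num) (orderOf_dvd_of_pow_eq_one (by rw [pow_two, hg2]))
    have hidx := (Subgroup.zpowers c).card_mul_index
    rw [Nat.card_zpowers, hco] at hidx
    have hne1 : (Subgroup.zpowers c).index ≠ 1 := fun h => hgc (by rw [Subgroup.index_eq_one.1 h]; trivial)
    have hne0 : (Subgroup.zpowers c).index ≠ 0 := Subgroup.index_ne_zero_of_finite
    have h2p : 2 * p ≤ Nat.card (K ⧸ R.subgroupOf K) := by
      rw [← hidx, mul_comm 2]; exact Nat.mul_le_mul_left p (by omega)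
    exact le_antisymm (hle.trans (Nat.mul_le_mul_right p hgo)) h2p
  exact ⟨K, R, hRn, CfsgLib.Dickson.equiv_dihedral hco hcard hg2 hgc hinv⟩

end Aux

/-- For an odd prime p and a finite group G the following are equivalent: the dihedral group of order 2p is involved in G; some element of 2-power order normalizes but does not centralize some p-subgroup of G; some element of 2-power order inverts some nonidentity element of p-power order. -/
theorem result {G : Type*} [Group G] [Finite G] {p : ℕ} [Fact p.Prime] (hp : p ≠ 2) : (Cfsg.Involves (DihedralGroup p) G ↔ ∃ (x : G) (P : Subgroup G), (∃ k : ℕ, orderOf x = 2 ^ k) ∧ IsPGroup p ↥P ∧ x ∈ Subgroup.normalizer (P : Set G) ∧ x ∉ Subgroup.centralizer (P : Set G)) ∧ (Cfsg.Involves (DihedralGroup p) G ↔ ∃ x y : G, (∃ k : ℕ, orderOf x = 2 ^ k) ∧ (∃ k : ℕ, orderOf y = p ^ k) ∧ y ≠ 1 ∧ x * y * x⁻¹ = y⁻¹) := by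
  have hcb : (∃ x y : G, (∃ k : ℕ, orderOf x = 2 ^ k) ∧ (∃ k : ℕ, orderOf y = p ^ k) ∧ y ≠ 1 ∧ x * y * x⁻¹ = y⁻¹) →
      ∃ (x : G) (P : Subgroup G), (∃ k : ℕ, orderOf x = 2 ^ k) ∧ IsPGroup p ↥P ∧ x ∈ Subgroup.normalizer (P : Set G) ∧ x ∉ Subgroup.centralizer (P : Set G) := by
    rintro ⟨x, y, hx, ⟨k, hk⟩, hy1, hxy⟩
    refine ⟨x, Subgroup.zpowers y, hx, IsPGroup.of_card (n := k) (by rw [Nat.card_zpowers, hk]), ?_, fun h => hy1 ?_⟩
    · exact mem_normalizer_zpowers hxy
    · have := Subgroup.mem_centralizer_iff.1 h y (Subgroup.mem_zpowers y)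
      rw [← this, mul_inv_cancel_right] at hxy
      have h2 : y ^ 2 = 1 := by rw [pow_two]; exact mul_eq_one_iff_eq_inv.2 hxy
      exact orderOf_eq_one_iff.1 (Nat.eq_one_of_dvd_coprimes
        (((Nat.coprime_primes Fact.out Nat.prime_two).2 hp).pow_left k) (dvd_of_eq hk) (orderOf_dvd_of_pow_eq_one h2))
  have hbc : (∃ (x : G) (P : Subgroup G), (∃ k : ℕ, orderOf x = 2 ^ k) ∧ IsPGroup p ↥P ∧ x ∈ Subgroup.normalizer (P : Set G) ∧ x ∉ Subgroup.centralizer (P : Set G)) →
      ∃ x y : G, (∃ k : ℕ, orderOf x = 2 ^ k) ∧ (∃ k : ℕ, orderOf y = p ^ k) ∧ y ≠ 1 ∧ x * y * x⁻¹ = y⁻¹ := by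
    rintro ⟨x, P, ⟨k, hk⟩, hP, hxN, hxC⟩
    classical
    have hex : ∃ j : ℕ, x ^ 2 ^ j ∈ Subgroup.centralizer (P : Set G) :=
      ⟨k, by rw [← hk, pow_orderOf_eq_one]; exact one_mem _⟩
    obtain ⟨j, hj⟩ : ∃ j, Nat.find hex = j + 1 := by
      rcases Nat.eq_zero_or_pos (Nat.find hex) with h | h
      · exfalso
        have := Nat.find_spec hex
        rw [h, pow_zero, pow_one] at this
        exact hxC this
      · exact ⟨Nat.find hex - 1, by omega⟩
    have hno := Nat.find_min hex (show j < Nat.find hex by omega)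
    have hsq := Nat.find_spec hex
    rw [hj, pow_succ, pow_mul] at hsq
    set u := x ^ 2 ^ j with hu
    rw [Subgroup.mem_centralizer_iff] at hno
    push Not at hno
    obtain ⟨a, haP, ha⟩ := hno
    have huN : u ∈ Subgroup.normalizer (P : Set G) := pow_mem hxN _
    have hyP : a⁻¹ * (u * a * u⁻¹) ∈ P := mul_mem (inv_mem haP) ((Subgroup.mem_normalizer_iff.1 huN a).1 haP)
    refine ⟨u, a⁻¹ * (u * a * u⁻¹), ?_, ?_, ?_, ?_⟩
    · obtain ⟨i, -, hi⟩ := (Nat.dvd_prime_pow Nat.prime_two).1 (hk ▸ orderOf_pow_dvd (x := x) (2 ^ j))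
      exact ⟨i, hi⟩
    · obtain ⟨i, hi⟩ := IsPGroup.iff_orderOf.1 hP ⟨_, hyP⟩
      exact ⟨i, by rwa [Subgroup.orderOf_mk] at hi⟩
    · intro h
      exact ha (mul_inv_eq_iff_eq_mul.1 (inv_mul_eq_one.1 h).symm).symm
    · have hc : u ^ 2 * a * (u ^ 2)⁻¹ = a := by
        rw [← Subgroup.mem_centralizer_iff.1 hsq a haP, mul_inv_cancel_right]
      calc u * (a⁻¹ * (u * a * u⁻¹)) * u⁻¹ = (u * a * u⁻¹)⁻¹ * (u ^ 2 * a * (u ^ 2)⁻¹) := by group
        _ = _ := by rw [hc]; group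
  have hab : Cfsg.Involves (DihedralGroup p) G →
      ∃ (x : G) (P : Subgroup G), (∃ k : ℕ, orderOf x = 2 ^ k) ∧ IsPGroup p ↥P ∧ x ∈ Subgroup.normalizer (P : Set G) ∧ x ∉ Subgroup.centralizer (P : Set G) := by
    rintro ⟨K, R, hR, ⟨e⟩⟩
    haveI := hR
    exact involves_to_action hp (e.toMonoidHom.comp (QuotientGroup.mk' (R.subgroupOf K)))
      (e.surjective.comp (QuotientGroup.mk'_surjective _))
  have hca : (∃ x y : G, (∃ k : ℕ, orderOf x = 2 ^ k) ∧ (∃ k : ℕ, orderOf y = p ^ k) ∧ y ≠ 1 ∧ x * y * x⁻¹ = y⁻¹) →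
      Cfsg.Involves (DihedralGroup p) G := by
    rintro ⟨x, y, hx, ⟨k, hk⟩, hy1, hxy⟩
    exact inverted_to_involves hp x y hx k hk hy1 hxy
  exact ⟨⟨hab, fun h => hca (hbc h)⟩, ⟨fun h => hbc (hab h), hca⟩⟩

end Cfsg.Agent.S2758
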