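import Cfsg.Statements.S2761
-- import your own Cfsg.Agent.* helpers here

set_option autoImplicit false
open Cfsg

namespace Cfsg.Agent.S2761

set_option maxRecDepth 10000
set_option synthInstance.maxSize 1000
set_option synthInstance.maxHeartbeats 100000

/-- The four points of the plane, as vectors. -/
def pt : Fin 4 → ZMod 2 × ZMod 2 := ![(0, 0), (1, 0), (0, 1), (1, 1)]

/-- The entries of the affine matrix of a permutation of the four points. -/
def ent (σ : Equiv.Perm (Fin 4)) : Fin 3 → Fin 3 → ZMod 2 :=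
  ![![(pt (σ 1)).1 - (pt (σ 0)).1, (pt (σ 2)).1 - (pt (σ 0)).1, (pt (σ 0)).1],
    ![(pt (σ 1)).2 - (pt (σ 0)).2, (pt (σ 2)).2 - (pt (σ 0)).2, (pt (σ 0)).2],
    ![0, 0, 1]]

theorem ent_det : ∀ σ, ent σ 0 0 * ent σ 1 1 - ent σ 0 1 * ent σ 1 0 = 1 := by decide +kernel

theorem ent_mul : ∀ σ τ : Equiv.Perm (Fin 4), ∀ i j,
    ent (σ * τ) i j = ent σ i 0 * ent τ 0 j + ent σ i 1 * ent τ 1 j + ent σ i 2 * ent τ 2 j := by decide +kernel

theorem ent_inj : ∀ σ, (∀ i j, ent σ i j = if i = j then 1 else 0) → σ = 1 := by decide +kernel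

theorem ent_surj : ∀ a b c d e f : ZMod 2, a * e - b * d = 1 →
    ∃ σ, ent σ 0 0 = a ∧ ent σ 0 1 = b ∧ ent σ 0 2 = c ∧ ent σ 1 0 = d ∧ ent σ 1 1 = e ∧ ent σ 1 2 = f := by
  decide +kernel

/-- The special linear matrix of a permutation. -/
def toSL (σ : Equiv.Perm (Fin 4)) : Matrix.SpecialLinearGroup (Fin 3) (ZMod 2) :=
  ⟨Matrix.of (ent σ), by
    rw [Matrix.det_fin_three]
    have h := ent_det σ
    simp only [Matrix.of_apply]
    simp only [show ent σ 2 0 = 0 from rfl, show ent σ 2 1 = 0 from rfl, show ent σ 2 2 = 1 from rfl]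
    linear_combination h⟩

/-- The affine representation of the symmetric group of degree four. -/
def hom : Equiv.Perm (Fin 4) →* Matrix.SpecialLinearGroup (Fin 3) (ZMod 2) :=
  MonoidHom.mk' toSL fun σ τ => Subtype.ext <| by
    ext i j
    show ent (σ * τ) i j = (Matrix.of (ent σ) * Matrix.of (ent τ)) i j
    rw [Matrix.mul_apply, Fin.sum_univ_three]
    exact ent_mul σ τ i j

theorem hom_injective : Function.Injective hom := by
  rw [injective_iff_map_eq_one]
  intro σ h
  refine ent_inj σ fun i j => ?_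
  have := congrFun (congrFun (congrArg Subtype.val h) i) j
  exact this.trans (Matrix.one_apply (i := i) (j := j))

theorem range_hom : hom.range = Cfsg.qd 2 := by
  refine le_antisymm ?_ ((Subgroup.closure_le _).mpr ?_)
  · rintro _ ⟨σ, rfl⟩
    exact Subgroup.subset_closure ⟨rfl, rfl, rfl⟩
  · rintro M ⟨h0, h1, h2⟩
    have hd : (M : Matrix (Fin 3) (Fin 3) (ZMod 2)).det = 1 := M.2
    rw [Matrix.det_fin_three, h0, h1, h2] at hd
    obtain ⟨σ, e1, e2, e3, e4, e5, e6⟩ := ent_surj (M.1 0 0) (M.1 0 1) (M.1 0 2) (M.1 1 0) (M.1 1 1) (M.1 1 2)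
      (by linear_combination hd)
    refine ⟨σ, Subtype.ext ?_⟩
    ext i j
    fin_cases i <;> fin_cases j <;> first
      | exact e1 | exact e2 | exact e3 | exact e4 | exact e5 | exact e6
      | exact h0.symm | exact h1.symm | exact h2.symm

/-- The group Qd(2), the natural semidirect product of an elementary abelian group of order 4 by SL₂(2) (realised as the affine subgroup of SL₃(2)), is isomorphic to the symmetric group of degree 4. -/
theorem result : Nonempty (↥(Cfsg.qd 2) ≃* Equiv.Perm (Fin 4)) := by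
  exact ⟨((MonoidHom.ofInjective hom_injective).trans (MulEquiv.subgroupCongr range_hom)).symm⟩

end Cfsg.Agent.S2761
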