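import Cfsg.Statements.S2762
import Cfsg.Agent.Lib.CoreBasic
import Mathlib

set_option autoImplicit false
open Cfsg

namespace Cfsg.Agent.S2762

open Matrix in
theorem pgroup_sl_two_trivial {F : Type*} [Field F] [Fintype F] {p : ℕ} [Fact p.Prime] [CharP F p]
    (N : Subgroup (Matrix.SpecialLinearGroup (Fin 2) F)) (hn : N.Normal) (hp : IsPGroup p N) : N = ⊥ := by
  have htr : ∀ x ∈ N, (x : Matrix (Fin 2) (Fin 2) F) 0 0 + (x : Matrix (Fin 2) (Fin 2) F) 1 1 = 2 := by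
    intro x hx
    obtain ⟨k, hk⟩ := hp ⟨x, hx⟩
    have h1 : (x : Matrix (Fin 2) (Fin 2) F) ^ p ^ k = 1 := by
      rw [← Matrix.SpecialLinearGroup.coe_pow, show x ^ p ^ k = 1 from congrArg Subtype.val hk, Matrix.SpecialLinearGroup.coe_one]
    have h2 : IsNilpotent ((x : Matrix (Fin 2) (Fin 2) F) - 1) := by
      haveI : CharP (Matrix (Fin 2) (Fin 2) F) p := inferInstance
      exact ⟨p ^ k, by rw [sub_pow_expChar_pow_of_commute (p := p) k (Commute.one_right _), h1, one_pow, sub_self]⟩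
    have h3 := (Matrix.isNilpotent_trace_of_isNilpotent h2).eq_zero
    rw [Matrix.trace_fin_two] at h3
    simp at h3
    linear_combination h3
  refine (Subgroup.eq_bot_iff_forall N).mpr fun x hx => ?_
  have hc : ∀ u : Matrix.SpecialLinearGroup (Fin 2) F, x⁻¹ * u * x * u⁻¹ ∈ N := by
    intro u
    simpa [mul_assoc] using mul_mem (inv_mem hx) (hn.conj_mem x hx u)
  have hdet := x.2
  rw [Matrix.det_fin_two] at hdet
  obtain ⟨u, hu⟩ : ∃ u : Matrix.SpecialLinearGroup (Fin 2) F, (u : Matrix (Fin 2) (Fin 2) F) = !![1, 1; 0, 1] :=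
    ⟨⟨_, by simp [Matrix.det_fin_two]⟩, rfl⟩
  obtain ⟨u', hu'⟩ : ∃ u : Matrix.SpecialLinearGroup (Fin 2) F, (u : Matrix (Fin 2) (Fin 2) F) = !![1, 0; 1, 1] :=
    ⟨⟨_, by simp [Matrix.det_fin_two]⟩, rfl⟩
  have h10 := htr _ (hc u)
  have h01 := htr _ (hc u')
  simp only [Matrix.SpecialLinearGroup.coe_mul, Matrix.SpecialLinearGroup.coe_inv, hu, hu'] at h10 h01
  simp [Matrix.adjugate_fin_two, Matrix.mul_apply, Matrix.vecMul, dotProduct, Fin.sum_univ_two] at h10 h01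
  have e10 : (x : Matrix (Fin 2) (Fin 2) F) 1 0 = 0 := by
    have : (x : Matrix (Fin 2) (Fin 2) F) 1 0 * (x : Matrix (Fin 2) (Fin 2) F) 1 0 = 0 := by linear_combination h10 - 2 * hdet
    exact mul_self_eq_zero.mp this
  have e01 : (x : Matrix (Fin 2) (Fin 2) F) 0 1 = 0 := by
    have : (x : Matrix (Fin 2) (Fin 2) F) 0 1 * (x : Matrix (Fin 2) (Fin 2) F) 0 1 = 0 := by linear_combination h01 - 2 * hdet
    exact mul_self_eq_zero.mp this
  have ht := htr x hx
  rw [e01, e10] at hdet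
  have e00 : (x : Matrix (Fin 2) (Fin 2) F) 0 0 = 1 := by
    have : ((x : Matrix (Fin 2) (Fin 2) F) 0 0 - 1) * ((x : Matrix (Fin 2) (Fin 2) F) 0 0 - 1) = 0 := by
      linear_combination (x : Matrix (Fin 2) (Fin 2) F) 0 0 * ht - hdet
    exact sub_eq_zero.mp (mul_self_eq_zero.mp this)
  have e11 : (x : Matrix (Fin 2) (Fin 2) F) 1 1 = 1 := by linear_combination ht - e00
  ext i j
  fin_cases i <;> fin_cases j <;> simp [e00, e01, e10, e11]

variable {F : Type*} [Field F]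
set_option maxHeartbeats 1000000

theorem qd_mem : ∀ M : ↥(Cfsg.qdOver F), M.1.1 2 0 = 0 ∧ M.1.1 2 1 = 0 ∧ M.1.1 2 2 = 1 := by
  rintro ⟨M, hM⟩
  induction hM using Subgroup.closure_induction with
  | mem x hx => exact hx
  | one => simp
  | mul a b _ _ ha hb =>
    obtain ⟨a0, a1, a2⟩ := ha
    obtain ⟨b0, b1, b2⟩ := hb
    simp only at *
    rw [Matrix.SpecialLinearGroup.coe_mul]
    refine ⟨?_, ?_, ?_⟩ <;> simp [Matrix.mul_apply, Fin.sum_univ_three, a0, a1, a2, b0, b1, b2]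
  | inv a _ ha =>
    obtain ⟨a0, a1, a2⟩ := ha
    simp only at *
    have hd := a.2
    rw [Matrix.det_fin_three] at hd
    simp only [a0, a1, a2] at hd
    rw [Matrix.SpecialLinearGroup.coe_inv]
    refine ⟨?_, ?_, ?_⟩ <;> simp [Matrix.adjugate_fin_three, a0, a1, a2]
    linear_combination hd

def projAux (M : ↥(Cfsg.qdOver F)) : Matrix.SpecialLinearGroup (Fin 2) F :=
  ⟨Matrix.of (fun i j => M.1.1 (Fin.castSucc i) (Fin.castSucc j)), by
    have h := M.1.2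
    rw [Matrix.det_fin_three] at h
    obtain ⟨a0, a1, a2⟩ := qd_mem M
    simp only [a0, a1, a2] at h
    simp [Matrix.det_fin_two]
    linear_combination h⟩

theorem projAux_apply (M : ↥(Cfsg.qdOver F)) (i j : Fin 2) :
    (projAux M).1 i j = M.1.1 (Fin.castSucc i) (Fin.castSucc j) := rfl

def qdProj : ↥(Cfsg.qdOver F) →* Matrix.SpecialLinearGroup (Fin 2) F :=
  MonoidHom.mk' projAux fun A B => by
    obtain ⟨b0, b1, b2⟩ := qd_mem B
    apply Subtype.ext
    ext i j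
    rw [Matrix.SpecialLinearGroup.coe_mul, projAux_apply, Matrix.mul_apply, Fin.sum_univ_two, projAux_apply,
      projAux_apply, projAux_apply, projAux_apply, Subgroup.coe_mul, Matrix.SpecialLinearGroup.coe_mul,
      Matrix.mul_apply, Fin.sum_univ_three]
    fin_cases j <;> simp [b0, b1]

theorem qdProj_apply (M : ↥(Cfsg.qdOver F)) (i j : Fin 2) :
    (qdProj M).1 i j = M.1.1 (Fin.castSucc i) (Fin.castSucc j) := rfl


/-- Structure of Qd over a finite field F of characteristic p (the affine subgroup of SL₃(F)): its largest normal p-subgroup is the group of translations (matrices with upper-left block the identity), the block-diagonal matrices form a complement isomorphic to SL₂(F), and the translation subgroup is a natural SL₂(F)-module for that complement. -/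
theorem result {F : Type*} [Field F] [Fintype F] {p : ℕ} [Fact p.Prime] [CharP F p] : (∀ M : ↥(Cfsg.qdOver F), M ∈ Cfsg.pCore p ↥(Cfsg.qdOver F) ↔ ((M : Matrix.SpecialLinearGroup (Fin 3) F) : Matrix (Fin 3) (Fin 3) F) 0 0 = 1 ∧ ((M : Matrix.SpecialLinearGroup (Fin 3) F) : Matrix (Fin 3) (Fin 3) F) 0 1 = 0 ∧ ((M : Matrix.SpecialLinearGroup (Fin 3) F) : Matrix (Fin 3) (Fin 3) F) 1 0 = 0 ∧ ((M : Matrix.SpecialLinearGroup (Fin 3) F) : Matrix (Fin 3) (Fin 3) F) 1 1 = 1) ∧ ∃ K : Subgroup ↥(Cfsg.qdOver F), (∀ M : ↥(Cfsg.qdOver F), M ∈ K ↔ ((M : Matrix.SpecialLinearGroup (Fin 3) F) : Matrix (Fin 3) (Fin 3) F) 0 2 = 0 ∧ ((M : Matrix.SpecialLinearGroup (Fin 3) F) : Matrix (Fin 3) (Fin 3) F) 1 2 = 0) ∧ K ⊓ Cfsg.pCore p ↥(Cfsg.qdOver F) = ⊥ ∧ K ⊔ Cfsg.pCore p ↥(Cfsg.qdOver F) = ⊤ ∧ Nonempty (↥K ≃* Matrix.SpecialLinearGroup (Fin 2) F) ∧ Cfsg.IsNaturalSL2Module F (Cfsg.pCore p ↥(Cfsg.qdOver F)) K := by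
  classical
  have hm := qd_mem (F := F)
  let π := qdProj (F := F)
  have hπ : ∀ (M : ↥(Cfsg.qdOver F)) (i j : Fin 2), (π M).1 i j = M.1.1 (Fin.castSucc i) (Fin.castSucc j) := qdProj_apply
  have hsmem : ∀ A : Matrix.SpecialLinearGroup (Fin 2) F, ∃ M : ↥(Cfsg.qdOver F), π M = A ∧
      ((M : Matrix.SpecialLinearGroup (Fin 3) F) : Matrix (Fin 3) (Fin 3) F) 0 2 = 0 ∧
      ((M : Matrix.SpecialLinearGroup (Fin 3) F) : Matrix (Fin 3) (Fin 3) F) 1 2 = 0 := by
    intro A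
    have h := A.2
    rw [Matrix.det_fin_two] at h
    refine ⟨⟨⟨!![(A : Matrix (Fin 2) (Fin 2) F) 0 0, (A : Matrix (Fin 2) (Fin 2) F) 0 1, 0;
      (A : Matrix (Fin 2) (Fin 2) F) 1 0, (A : Matrix (Fin 2) (Fin 2) F) 1 1, 0; 0, 0, 1], ?_⟩, Subgroup.subset_closure ?_⟩, ?_, ?_, ?_⟩
    · simp [Matrix.det_fin_three]
      linear_combination h
    · exact ⟨rfl, rfl, rfl⟩
    · apply Subtype.ext
      ext i j
      rw [hπ]
      fin_cases i <;> fin_cases j <;> rfl
    · rfl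
    · rfl
  have hsurj : Function.Surjective π := fun A => let ⟨M, h, _⟩ := hsmem A; ⟨M, h⟩
  have hker : ∀ M, M ∈ π.ker ↔ (((M : Matrix.SpecialLinearGroup (Fin 3) F) : Matrix (Fin 3) (Fin 3) F) 0 0 = 1 ∧
      ((M : Matrix.SpecialLinearGroup (Fin 3) F) : Matrix (Fin 3) (Fin 3) F) 0 1 = 0 ∧
      ((M : Matrix.SpecialLinearGroup (Fin 3) F) : Matrix (Fin 3) (Fin 3) F) 1 0 = 0 ∧
      ((M : Matrix.SpecialLinearGroup (Fin 3) F) : Matrix (Fin 3) (Fin 3) F) 1 1 = 1) := by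
    intro M
    rw [MonoidHom.mem_ker]
    constructor
    · intro h
      exact ⟨congrArg (fun A : Matrix.SpecialLinearGroup (Fin 2) F => (A : Matrix (Fin 2) (Fin 2) F) 0 0) h,
        congrArg (fun A : Matrix.SpecialLinearGroup (Fin 2) F => (A : Matrix (Fin 2) (Fin 2) F) 0 1) h,
        congrArg (fun A : Matrix.SpecialLinearGroup (Fin 2) F => (A : Matrix (Fin 2) (Fin 2) F) 1 0) h,
        congrArg (fun A : Matrix.SpecialLinearGroup (Fin 2) F => (A : Matrix (Fin 2) (Fin 2) F) 1 1) h⟩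
    · rintro ⟨h1, h2, h3, h4⟩
      apply Subtype.ext
      ext i j
      rw [hπ]
      fin_cases i <;> fin_cases j <;> simp [h1, h2, h3, h4]
  have hext : ∀ A B : ↥(Cfsg.qdOver F), π A = π B →
      ((A : Matrix.SpecialLinearGroup (Fin 3) F) : Matrix (Fin 3) (Fin 3) F) 0 2 = ((B : Matrix.SpecialLinearGroup (Fin 3) F) : Matrix (Fin 3) (Fin 3) F) 0 2 →
      ((A : Matrix.SpecialLinearGroup (Fin 3) F) : Matrix (Fin 3) (Fin 3) F) 1 2 = ((B : Matrix.SpecialLinearGroup (Fin 3) F) : Matrix (Fin 3) (Fin 3) F) 1 2 → A = B := by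
    intro A B h h0 h1
    obtain ⟨a0, a1, a2⟩ := hm A
    obtain ⟨b0, b1, b2⟩ := hm B
    have k := fun i j => congrArg (fun A : Matrix.SpecialLinearGroup (Fin 2) F => (A : Matrix (Fin 2) (Fin 2) F) i j) h
    have k00 := k 0 0
    have k01 := k 0 1
    have k10 := k 1 0
    have k11 := k 1 1
    apply Subtype.ext
    apply Subtype.ext
    ext i j
    fin_cases i <;> fin_cases j
    · exact k00
    · exact k01
    · exact h0
    · exact k10
    · exact k11
    · exact h1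
    · exact a0.trans b0.symm
    · exact a1.trans b1.symm
    · exact a2.trans b2.symm
  have hψ : ∀ A : π.ker, ∀ B : ↥(Cfsg.qdOver F), ∀ i : Fin 2,
      (((A : ↥(Cfsg.qdOver F)) * B : ↥(Cfsg.qdOver F)) : Matrix.SpecialLinearGroup (Fin 3) F).1 (Fin.castSucc i) 2 =
        (A : ↥(Cfsg.qdOver F)).1.1 (Fin.castSucc i) 2 + B.1.1 (Fin.castSucc i) 2 := by
    intro A B i
    obtain ⟨h1, h2, h3, h4⟩ := (hker _).mp A.2
    obtain ⟨b0, b1, b2⟩ := hm B
    fin_cases i <;> simp [Matrix.mul_apply, Fin.sum_univ_three, h1, h2, h3, h4, b2, add_comm]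
  have hU : IsPGroup p π.ker := by
    intro A
    refine ⟨1, ?_⟩
    have hp : ∀ n : ℕ, ∀ i : Fin 2, ((A ^ n : π.ker) : ↥(Cfsg.qdOver F)).1.1 (Fin.castSucc i) 2 = n • (A : ↥(Cfsg.qdOver F)).1.1 (Fin.castSucc i) 2 := by
      intro n i
      induction n with
      | zero => fin_cases i <;> simp
      | succ n ih => rw [pow_succ, Subgroup.coe_mul, hψ, ih, succ_nsmul]
    rw [pow_one]
    refine Subtype.ext (hext _ _ ((MonoidHom.mem_ker.mp (A ^ p).2).trans (map_one π).symm) ?_ ?_)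
    · exact (hp p 0).trans (by simp)
    · exact (hp p 1).trans (by simp)
  have hcore : Cfsg.pCore p ↥(Cfsg.qdOver F) = π.ker := by
    refine le_antisymm ?_ (le_sSup ⟨inferInstance, hU⟩)
    haveI hn : (Cfsg.pCore p ↥(Cfsg.qdOver F)).Normal := CfsgLib.Core.normal_pCore p
    rw [← Subgroup.map_eq_bot_iff]
    exact pgroup_sl_two_trivial _ (hn.map π hsurj) ((CfsgLib.Core.isPGroup_pCore p).map π)
  rw [hcore]
  let K : Subgroup ↥(Cfsg.qdOver F) :=
    { carrier := {M | M.1.1 0 2 = 0 ∧ M.1.1 1 2 = 0}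
      one_mem' := by simp
      mul_mem' := by
        rintro A B ⟨a0, a1⟩ ⟨b0, b1⟩
        obtain ⟨c0, c1, c2⟩ := hm B
        constructor <;> simp [Matrix.mul_apply, Fin.sum_univ_three, a0, a1, b0, b1]
      inv_mem' := by
        rintro A ⟨a0, a1⟩
        obtain ⟨c0, c1, c2⟩ := hm A
        constructor <;> simp [Matrix.SpecialLinearGroup.coe_inv, Matrix.adjugate_fin_three, a0, a1] }
  have hKU : ∀ M ∈ K, M ∈ π.ker → M = 1 := fun M hM hk =>
    hext M 1 ((MonoidHom.mem_ker.mp hk).trans (map_one π).symm) (by simpa using hM.1) (by simpa using hM.2)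
  have hKsurj : ∀ A, ∃ M ∈ K, π M = A := fun A => let ⟨M, h, h0, h1⟩ := hsmem A; ⟨M, ⟨h0, h1⟩, h⟩
  refine ⟨hker, K, fun M => Iff.rfl, ?_, ?_, ⟨MulEquiv.ofBijective (π.comp K.subtype) ⟨?_, ?_⟩⟩, ?_, π.comp K.subtype, ?_⟩
  · exact (Subgroup.eq_bot_iff_forall _).mpr fun M hM => hKU M hM.1 hM.2
  · refine eq_top_iff.mpr fun M _ => ?_
    obtain ⟨k, hk, hke⟩ := hKsurj (π M)
    rw [show M = k * (k⁻¹ * M) by group]
    exact mul_mem (Subgroup.mem_sup_left hk) (Subgroup.mem_sup_right (MonoidHom.mem_ker.mpr (by rw [map_mul, map_inv, hke, inv_mul_cancel])))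
  · exact (injective_iff_map_eq_one _).mpr fun M hM => Subtype.ext (hKU M M.2 (MonoidHom.mem_ker.mpr hM))
  · exact fun A => let ⟨M, hM, h⟩ := hKsurj A; ⟨⟨M, hM⟩, h⟩
  · rw [Subgroup.normalizer_eq_top]
    exact le_top
  let toU : (Fin 2 → F) → π.ker := fun v =>
    ⟨⟨⟨!![1, 0, v 0; 0, 1, v 1; 0, 0, 1], by simp [Matrix.det_fin_three]⟩, Subgroup.subset_closure ⟨rfl, rfl, rfl⟩⟩,
      (hker _).mpr ⟨rfl, rfl, rfl, rfl⟩⟩
  let ψ : Additive π.ker ≃+ (Fin 2 → F) :=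
    { toFun := fun A i => (Additive.toMul A).1.1.1 (Fin.castSucc i) 2
      invFun := fun v => Additive.ofMul (toU v)
      left_inv := fun A => by
        refine congrArg Additive.ofMul (Subtype.ext (hext _ _ ?_ ?_ ?_))
        · exact (MonoidHom.mem_ker.mp (toU fun i => (Additive.toMul A).1.1.1 (Fin.castSucc i) 2).2).trans (MonoidHom.mem_ker.mp (Additive.toMul A).2).symm
        · rfl
        · rfl
      right_inv := fun v => by
        funext i
        fin_cases i <;> simp [toU]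
      map_add' := fun A B => funext fun i => hψ _ _ i }
  refine ⟨ψ, fun A => let ⟨M, hM, h⟩ := hKsurj A; ⟨⟨M, hM⟩, h⟩, ?_, ?_⟩
  · ext l
    constructor
    · intro hl
      have : (l : ↥(Cfsg.qdOver F)) = 1 := hKU _ l.2 hl
      refine Subgroup.mem_subgroupOf.mpr ?_
      rw [this]
      exact one_mem _
    · intro hl
      rw [Subgroup.mem_subgroupOf] at hl
      rw [MonoidHom.mem_ker]
      obtain ⟨c0, c1, c2⟩ := hm l
      obtain ⟨d0, d1⟩ := l.2
      have h0 := congrArg (fun M : ↥(Cfsg.qdOver F) => (M.1.1 0 2, M.1.1 1 2)) (hl _ (toU ![1, 0]).2)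
      have h1 := congrArg (fun M : ↥(Cfsg.qdOver F) => (M.1.1 0 2, M.1.1 1 2)) (hl _ (toU ![0, 1]).2)
      simp only [Subgroup.coe_mul, Matrix.SpecialLinearGroup.coe_mul] at h0 h1
      simp [toU, Matrix.mul_apply, Fin.sum_univ_three, c2, d0, d1] at h0 h1
      exact (hker (l : ↥(Cfsg.qdOver F))).mpr ⟨h0.1.symm, h1.1.symm, h0.2.symm, h1.2.symm⟩
  · intro l v
    set w : π.ker := ⟨(l : ↥(Cfsg.qdOver F)) * v * (l : ↥(Cfsg.qdOver F))⁻¹, (MonoidHom.normal_ker π).conj_mem _ v.2 _⟩ with hw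
    refine ⟨w, rfl, funext fun i => ?_⟩
    have h1 : (w : ↥(Cfsg.qdOver F)) * l = (l : ↥(Cfsg.qdOver F)) * v := by simp [hw, mul_assoc]
    have h2 := congrArg (fun M : ↥(Cfsg.qdOver F) => M.1.1 (Fin.castSucc i) 2) h1
    simp only [hψ] at h2
    obtain ⟨d0, d1⟩ := l.2
    obtain ⟨c0, c1, c2⟩ := hm v
    fin_cases i <;> simp [hπ, ψ, Matrix.mulVec, dotProduct, Fin.sum_univ_two, Matrix.mul_apply, Fin.sum_univ_three, c2, d0, d1] at h2 ⊢ <;> exact h2


end Cfsg.Agent.S2762
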