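import Cfsg.Statements.S2779
import Cfsg.Agent.Lib.NaturalSLTwoSylow

set_option autoImplicit false
open Cfsg

namespace Cfsg.Agent.S2779

/-- Let L act on the elementary abelian p-group V (inside a finite group, by conjugation, faithfully) as SL₂(F) on its natural module, F a field with p^n elements, and let S be a Sylow p-subgroup of L. Then [V, S, S] = 1; |V| = p^(2n) and |C_V(S)| = p^n; and for every nonidentity s ∈ S and every v ∈ V outside C_V(S): C_V(s) = C_V(S) = [V, S] = [V, s] = the subgroup generated by the commutators [v, t], t ∈ S. -/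
theorem result {G : Type*} [Group G] [Finite G] {p : ℕ} [Fact p.Prime] {F : Type*} [Field F] [Fintype F] (n : ℕ) (hF : Fintype.card F = p ^ n) (V L : Subgroup G) (hnat : Cfsg.IsNaturalSL2Module F V L) (hf : L ⊓ Subgroup.centralizer (V : Set G) = ⊥) (S : Sylow p ↥L) (T : Subgroup G) (hT : T = ((S : Subgroup ↥L).map L.subtype)) : ⁅⁅V, T⁆, T⁆ = ⊥ ∧ Nat.card V = p ^ (2 * n) ∧ Nat.card ↥(V ⊓ Subgroup.centralizer ((T : Subgroup G) : Set G)) = p ^ n ∧ ∀ s ∈ T, s ≠ 1 → (V ⊓ Subgroup.centralizer ({s} : Set G)) = (V ⊓ Subgroup.centralizer ((T : Subgroup G) : Set G)) ∧ ⁅V, T⁆ = (V ⊓ Subgroup.centralizer ((T : Subgroup G) : Set G)) ∧ ⁅V, Subgroup.zpowers s⁆ = (V ⊓ Subgroup.centralizer ((T : Subgroup G) : Set G)) ∧ ∀ v ∈ V, v ∉ Subgroup.centralizer (T : Set G) → Subgroup.closure {x : G | ∃ t ∈ T, x = v * t * v⁻¹ * t⁻¹} = (V ⊓ Subgroup.centralizer ((T : Subgroup G) : Set G)) := by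
  classical
  have hn : 0 < n := Nat.pos_of_ne_zero fun h => by
    have := Fintype.one_lt_card (α := F)
    rw [hF, h, pow_zero] at this
    exact lt_irrefl 1 this
  obtain ⟨φ, τ, hbij, hadd, hτT, hTτ, hτ0, hact⟩ :=
    CfsgLib.NaturalSLTwo.coords n hn hF V L hnat hf S
  subst hT
  set T := (S : Subgroup ↥L).map L.subtype with hTdef
  have hφ1 : φ 1 = 0 := by
    have := hadd 1 1
    rw [mul_one] at this
    exact add_eq_left.1 this.symm
  have hφinv : ∀ v : ↥V, φ v⁻¹ = -φ v := fun v =>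
    eq_neg_of_add_eq_zero_left (by rw [← hadd, inv_mul_cancel, hφ1])
  -- the fixed points
  have hK : ∀ v : ↥V, (v : G) ∈ Subgroup.centralizer (T : Set G) ↔ (φ v).2 = 0 := by
    intro v
    constructor
    · intro h
      obtain ⟨w, hw, hwφ⟩ := hact 1 v
      have e : w = v := Subtype.ext (by
        rw [hw, (Subgroup.mem_centralizer_iff.1 h) _ (hτT 1), mul_inv_cancel_right])
      rw [e] at hwφ
      have := congrArg Prod.fst hwφ
      simpa using this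
    · intro h
      refine Subgroup.mem_centralizer_iff.2 fun t ht => ?_
      obtain ⟨a, rfl⟩ := hTτ t ht
      obtain ⟨w, hw, hwφ⟩ := hact a v
      have e : w = v := hbij.1 (by rw [hwφ, h, mul_zero, add_zero]; exact Prod.ext rfl h.symm)
      rw [e] at hw
      exact (eq_mul_inv_iff_mul_eq.1 hw).symm
  have hVc : Nat.card V = p ^ (2 * n) := by
    rw [Nat.card_congr (Equiv.ofBijective φ hbij), Nat.card_prod, Nat.card_eq_fintype_card, hF, ← pow_add,
      two_mul]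
  have hKc : Nat.card ↥(V ⊓ Subgroup.centralizer (T : Set G)) = p ^ n := by
    rw [← hF, ← Nat.card_eq_fintype_card]
    refine Nat.card_congr (Equiv.ofBijective
      (fun x : ↥(V ⊓ Subgroup.centralizer (T : Set G)) => (φ ⟨x, x.2.1⟩).1) ⟨fun x y h => ?_, fun a => ?_⟩)
    · have h2 : φ ⟨x, x.2.1⟩ = φ ⟨y, y.2.1⟩ := Prod.ext h
        (((hK _).1 x.2.2).trans ((hK _).1 y.2.2).symm)
      exact Subtype.ext (congrArg (fun v : ↥V => (v : G)) (hbij.1 h2))
    · obtain ⟨v, hv⟩ := hbij.2 (a, 0)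
      exact ⟨⟨v, v.2, (hK v).2 (by rw [hv])⟩, by simp [hv]⟩
  -- commutators
  have hcomm : ∀ (a : F) (v : ↥V), ∃ c : ↥V, (c : G) = (v : G) * τ a * (v : G)⁻¹ * (τ a)⁻¹ ∧
      φ c = (-(a * (φ v).2), 0) := by
    intro a v
    obtain ⟨w, hw, hwφ⟩ := hact a v⁻¹
    refine ⟨v * w, by rw [Subgroup.coe_mul, hw, Subgroup.coe_inv]; group, ?_⟩
    rw [hadd, hwφ, hφinv]
    ext <;> simp
  have hle : ∀ (a : F) (v : ↥V), (v : G) * τ a * (v : G)⁻¹ * (τ a)⁻¹ ∈
      V ⊓ Subgroup.centralizer (T : Set G) := fun a v => by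
    obtain ⟨c, hc, hcφ⟩ := hcomm a v
    rw [← hc]
    exact ⟨c.2, (hK c).2 (by rw [hcφ])⟩
  have hVT : ⁅V, T⁆ ≤ V ⊓ Subgroup.centralizer (T : Set G) := by
    rw [Subgroup.commutator_le]
    intro v hv t ht
    obtain ⟨a, rfl⟩ := hTτ t ht
    exact hle a ⟨v, hv⟩
  refine ⟨?_, hVc, hKc, fun s hs hs1 => ?_⟩
  · rw [Subgroup.commutator_eq_bot_iff_le_centralizer]
    exact hVT.trans inf_le_right
  obtain ⟨a, rfl⟩ := hTτ s hs
  have ha : a ≠ 0 := fun h => hs1 (h ▸ hτ0)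
  have hgen : ∀ k ∈ V ⊓ Subgroup.centralizer (T : Set G), ∃ v : ↥V,
      k = (v : G) * τ a * (v : G)⁻¹ * (τ a)⁻¹ := fun k hk => by
    obtain ⟨v, hv⟩ := hbij.2 (0, -((φ ⟨k, hk.1⟩).1 / a))
    obtain ⟨c, hc, hcφ⟩ := hcomm a v
    refine ⟨v, ?_⟩
    rw [← hc]
    refine congrArg Subtype.val (hbij.1 (show φ ⟨k, hk.1⟩ = φ c from ?_))
    rw [hcφ, hv]
    refine Prod.ext ?_ ((hK ⟨k, hk.1⟩).1 hk.2)
    simp only
    field_simp
  have hzle : ⁅V, Subgroup.zpowers (τ a)⁆ = V ⊓ Subgroup.centralizer (T : Set G) := by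
    refine le_antisymm ((Subgroup.commutator_mono le_rfl (Subgroup.zpowers_le.2 hs)).trans hVT)
      fun k hk => ?_
    obtain ⟨v, rfl⟩ := hgen k hk
    exact Subgroup.commutator_mem_commutator v.2 (Subgroup.mem_zpowers _)
  refine ⟨le_antisymm (fun x hx => ?_) (inf_le_inf_left _ (Subgroup.centralizer_le
      (Set.singleton_subset_iff.2 hs))), ?_, hzle, fun v hv hvc => ?_⟩
  · obtain ⟨w, hw, hwφ⟩ := hact a ⟨x, hx.1⟩
    have e : w = ⟨x, hx.1⟩ := Subtype.ext (by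
      rw [hw, Subgroup.mem_centralizer_iff.1 hx.2 _ rfl, mul_inv_cancel_right])
    rw [e] at hwφ
    have h1 := congrArg Prod.fst hwφ
    exact ⟨hx.1, (hK ⟨x, hx.1⟩).2 (by simpa [ha] using h1)⟩
  · exact le_antisymm hVT (hzle ▸ Subgroup.commutator_mono le_rfl (Subgroup.zpowers_le.2 hs))
  refine le_antisymm ((Subgroup.closure_le _).2 ?_) fun k hk => Subgroup.subset_closure ?_
  · rintro _ ⟨t, ht, rfl⟩
    obtain ⟨b, rfl⟩ := hTτ t ht
    exact hle b ⟨v, hv⟩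
  · have hv2 : (φ ⟨v, hv⟩).2 ≠ 0 := fun h => hvc ((hK ⟨v, hv⟩).2 h)
    obtain ⟨c, hc, hcφ⟩ := hcomm (-((φ ⟨k, hk.1⟩).1 / (φ ⟨v, hv⟩).2)) ⟨v, hv⟩
    refine ⟨_, hτT _, Eq.trans ?_ hc⟩
    refine congrArg Subtype.val (hbij.1 (show φ ⟨k, hk.1⟩ = φ c from ?_))
    rw [hcφ]
    refine Prod.ext ?_ ((hK ⟨k, hk.1⟩).1 hk.2)
    simp only
    field_simp

end Cfsg.Agent.S2779
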