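import Cfsg.Statements.S2780
import Cfsg.Agent.Lib.NaturalSLTwoFull

set_option autoImplicit false
open Cfsg Matrix

namespace Cfsg.Agent.S2780

/-- Let L act on the elementary abelian p-group V (inside a finite group, faithfully) as SL₂(F) on its natural module, F a field with p^n elements, S a Sylow p-subgroup of L. Then: for every g ∈ L not normalizing S, V is the internal direct product of C_V(S) and C_V(gSg⁻¹); every nonidentity element of L of order prime to p acts on V without nonidentity fixed points; and C_V(S) and V/C_V(S) are irreducible for N_L(S): the only N_L(S)-invariant subgroups of C_V(S) are 1 and C_V(S), and the only N_L(S)-invariant subgroups between C_V(S) and V are those two. -/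
theorem result {G : Type*} [Group G] [Finite G] {p : ℕ} [Fact p.Prime] {F : Type*} [Field F] [Fintype F] (n : ℕ) (hF : Fintype.card F = p ^ n) (V L : Subgroup G) (hnat : Cfsg.IsNaturalSL2Module F V L) (hf : L ⊓ Subgroup.centralizer (V : Set G) = ⊥) (S : Sylow p ↥L) (T : Subgroup G) (hT : T = ((S : Subgroup ↥L).map L.subtype)) : (∀ g ∈ L, g ∉ Subgroup.normalizer (T : Set G) → Cfsg.IsInternalDirectProduct (V ⊓ Subgroup.centralizer ((T : Subgroup G) : Set G)) (V ⊓ Subgroup.centralizer ((T.map (MulAut.conj g).toMonoidHom : Subgroup G) : Set G)) V) ∧ (∀ x ∈ L, x ≠ 1 → (orderOf x).Coprime p → (V ⊓ Subgroup.centralizer ({x} : Set G)) = ⊥) ∧ (∀ U : Subgroup G, U ≤ (V ⊓ Subgroup.centralizer ((T : Subgroup G) : Set G)) → L ⊓ Subgroup.normalizer (T : Set G) ≤ Subgroup.normalizer (U : Set G) → U = ⊥ ∨ U = (V ⊓ Subgroup.centralizer ((T : Subgroup G) : Set G))) ∧ (∀ U : Subgroup G, (V ⊓ Subgroup.centralizer ((T : Subgroup G) : Set G)) ≤ U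 → U ≤ V → L ⊓ Subgroup.normalizer (T : Set G) ≤ Subgroup.normalizer (U : Set G) → U = (V ⊓ Subgroup.centralizer ((T : Subgroup G) : Set G)) ∨ U = V) := by
  classical
  have hn : 0 < n := Nat.pos_of_ne_zero fun h => by
    have := Fintype.one_lt_card (α := F)
    rw [hF, h, pow_zero] at this
    exact lt_irrefl 1 this
  obtain ⟨φ, θ, hbij, hadd, hθ, hS, hact⟩ :=
    CfsgLib.NaturalSLTwoFull.coordsFull n hn hF V L hnat hf S
  subst hT
  set T := (S : Subgroup ↥L).map L.subtype with hTdef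
  have hVc : IsMulCommutative ↥V := ⟨⟨fun a b => hbij.1 (by rw [hadd, hadd, add_comm])⟩⟩
  have hφ1 : φ 1 = 0 := by
    have := hadd 1 1
    rw [mul_one] at this
    exact add_eq_left.1 this.symm
  -- the action of an element, read in coordinates
  have hfixed : ∀ (l : ↥L) (v : ↥V), (l : G) * v = v * l ↔ (θ l).1 *ᵥ φ v = φ v := by
    intro l v
    obtain ⟨w, hw, hwφ⟩ := hact l v
    rw [← hwφ, hbij.1.eq_iff, ← SetLike.coe_eq_coe, hw, mul_inv_eq_iff_eq_mul]
  have hTfix : ∀ v : ↥V, (v : G) ∈ Subgroup.centralizer (T : Set G) ↔ φ v 1 = 0 := by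
    intro v
    constructor
    · intro h
      obtain ⟨l, hl⟩ := hθ.2 (Cfsg.Agent.RootSLTwo.up 1)
      have e := (hfixed l v).1 (Subgroup.mem_centralizer_iff.1 h _ ⟨l, (hS l).2 ⟨1, hl⟩, rfl⟩)
      have e0 := congrFun e 0
      simp [hl, Cfsg.Agent.RootSLTwo.val_up, Matrix.mulVec, dotProduct] at e0
      exact e0
    · intro h
      refine Subgroup.mem_centralizer_iff.2 ?_
      rintro _ ⟨l, hl, rfl⟩
      obtain ⟨a, ha⟩ := (hS l).1 hl
      refine (hfixed l v).2 ?_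
      funext i; fin_cases i <;> simp [ha, Cfsg.Agent.RootSLTwo.val_up, Matrix.mulVec, dotProduct, h]
  -- a diagonal element
  have htor : ∀ b : F, b ≠ 0 → ∃ d ∈ L ⊓ Subgroup.normalizer (T : Set G), ∀ v : ↥V, ∃ w : ↥V,
      (w : G) = d * v * d⁻¹ ∧ φ w = ![b * φ v 0, b⁻¹ * φ v 1] := by
    intro b hb
    obtain ⟨D, hD⟩ : ∃ D : Matrix.SpecialLinearGroup (Fin 2) F, D.1 = !![b, 0; 0, b⁻¹] :=
      ⟨⟨!![b, 0; 0, b⁻¹], by simp [Matrix.det_fin_two, hb]⟩, rfl⟩
    obtain ⟨d, hd⟩ := hθ.2 D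
    refine ⟨d, ⟨d.2, ?_⟩, fun v => ?_⟩
    · have hN : d ∈ Subgroup.normalizer ((S : Subgroup ↥L) : Set ↥L) := by
        refine Subgroup.mem_normalizer_fintype fun s hs => ?_
        obtain ⟨a, ha⟩ := (hS s).1 hs
        refine (hS _).2 ⟨b * b * a, ?_⟩
        rw [map_mul, map_mul, map_inv, hd, ha]
        refine mul_inv_eq_of_eq_mul (Subtype.ext ?_)
        rw [Matrix.SpecialLinearGroup.coe_mul, Matrix.SpecialLinearGroup.coe_mul, hD]
        ext i j
        fin_cases i <;> fin_cases j <;>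
          simp [Cfsg.Agent.RootSLTwo.val_up, Matrix.mul_apply, Fin.sum_univ_two]
        field_simp
      exact Subgroup.le_normalizer_map L.subtype ⟨d, hN, rfl⟩
    · obtain ⟨w, hw, hwφ⟩ := hact d v
      refine ⟨w, hw, ?_⟩
      rw [hwφ, hd, hD]
      funext i; fin_cases i <;> simp [Matrix.mulVec, dotProduct]
  refine ⟨fun g hg hgN => ?_, fun x hx hx1 hxo => ?_, fun U hU hinv => ?_, fun U hKU hUV hinv => ?_⟩
  · set l : ↥L := ⟨g, hg⟩
    have h10 : (θ l).1 1 0 ≠ 0 := by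
      intro h0
      refine hgN (Subgroup.le_normalizer_map L.subtype ⟨l, ?_, rfl⟩)
      refine Subgroup.mem_normalizer_fintype fun s hs => ?_
      obtain ⟨a, ha⟩ := (hS s).1 hs
      refine (hS _).2 ⟨(θ l).1 0 0 * (θ l).1 0 0 * a, ?_⟩
      rw [map_mul, map_mul, map_inv, ha]
      refine mul_inv_eq_of_eq_mul (Subtype.ext ?_)
      rw [Matrix.SpecialLinearGroup.coe_mul, Matrix.SpecialLinearGroup.coe_mul]
      have hd := (θ l).2
      rw [Matrix.det_fin_two, h0, mul_zero, sub_zero] at hd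
      ext i j
      fin_cases i <;> fin_cases j <;>
        simp [Cfsg.Agent.RootSLTwo.val_up, h0, Matrix.mul_apply, Fin.sum_univ_two]
      linear_combination (-(θ l).1 0 0 * a) * hd
    set T' := T.map (MulAut.conj g).toMonoidHom
    have hC' : ∀ w : ↥V, (w : G) ∈ Subgroup.centralizer (T' : Set G) ↔
        ∃ v : ↥V, φ v 1 = 0 ∧ φ w = (θ l).1 *ᵥ φ v := by
      intro w
      constructor
      · intro h
        obtain ⟨v, hv, hvφ⟩ := hact l⁻¹ w
        refine ⟨v, (hTfix v).1 (Subgroup.mem_centralizer_iff.2 fun t ht => ?_), ?_⟩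
        · have e := Subgroup.mem_centralizer_iff.1 h _ ⟨t, ht, rfl⟩
          simp only [MulEquiv.coe_toMonoidHom, MulAut.conj_apply] at e
          rw [hv, Subgroup.coe_inv, inv_inv]
          show t * (g⁻¹ * w * g) = g⁻¹ * w * g * t
          calc t * (g⁻¹ * w * g) = g⁻¹ * (g * t * g⁻¹ * w) * g := by group
            _ = g⁻¹ * (w * (g * t * g⁻¹)) * g := by rw [e]
            _ = _ := by group
        · rw [hvφ, Matrix.mulVec_mulVec, ← Matrix.SpecialLinearGroup.coe_mul, ← map_mul,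
            mul_inv_cancel, map_one, Matrix.SpecialLinearGroup.coe_one, Matrix.one_mulVec]
      · rintro ⟨v, hv, hw⟩
        obtain ⟨u, hu, huφ⟩ := hact l v
        obtain rfl : w = u := hbij.1 (hw.trans huφ.symm)
        refine Subgroup.mem_centralizer_iff.2 ?_
        rintro _ ⟨t, ht, rfl⟩
        have e := Subgroup.mem_centralizer_iff.1 ((hTfix v).2 hv) t ht
        rw [hu]
        show g * t * g⁻¹ * (g * v * g⁻¹) = g * v * g⁻¹ * (g * t * g⁻¹)
        calc g * t * g⁻¹ * (g * v * g⁻¹) = g * (t * v) * g⁻¹ := by group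
          _ = g * (v * t) * g⁻¹ := by rw [e]
          _ = _ := by group
    refine ⟨inf_le_left, inf_le_left, fun a ha b hb => ?_, ?_, ?_⟩
    · exact congrArg Subtype.val (hVc.is_comm.comm ⟨a, ha.1⟩ ⟨b, hb.1⟩)
    · refine eq_bot_iff.2 fun x hx => ?_
      obtain ⟨v, hv, hxv⟩ := (hC' ⟨x, hx.1.1⟩).1 hx.2.2
      have h1 := (hTfix ⟨x, hx.1.1⟩).1 hx.1.2
      rw [hxv] at h1
      simp [Matrix.mulVec, dotProduct, hv, h10] at h1
      have hv0 : φ v = 0 := by funext i; fin_cases i <;> simp [h1, hv]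
      have : φ ⟨x, hx.1.1⟩ = φ 1 := by rw [hxv, hv0, Matrix.mulVec_zero, hφ1]
      exact Subgroup.mem_bot.2 (congrArg Subtype.val (hbij.1 this))
    · refine le_antisymm (sup_le inf_le_left inf_le_left) fun x hx => ?_
      obtain ⟨v, hv⟩ := hbij.2 ![φ ⟨x, hx⟩ 1 / (θ l).1 1 0, 0]
      obtain ⟨w, hw⟩ := hbij.2 ((θ l).1 *ᵥ φ v)
      obtain ⟨k, hk⟩ := hbij.2 (φ ⟨x, hx⟩ - φ w)
      have hxe : (⟨x, hx⟩ : ↥V) = k * w := hbij.1 (by rw [hadd, hk, sub_add_cancel])
      rw [show x = (k : G) * w from congrArg Subtype.val hxe]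
      refine mul_mem (Subgroup.mem_sup_left ⟨k.2, (hTfix k).2 ?_⟩)
        (Subgroup.mem_sup_right ⟨w.2, (hC' w).2 ⟨v, by simp [hv], hw⟩⟩)
      simp [hk, hw, hv, Matrix.mulVec, dotProduct]
      field_simp
      ring
  · set l : ↥L := ⟨x, hx⟩
    refine eq_bot_iff.2 fun v hv => ?_
    by_contra hv1
    have e := (hfixed l ⟨v, hv.1⟩).1 (Subgroup.mem_centralizer_iff.1 hv.2 x rfl).symm.symm
    set u := φ ⟨v, hv.1⟩
    have hu : u ≠ 0 := fun h => hv1 (Subgroup.mem_bot.2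
      (congrArg Subtype.val (hbij.1 (h.trans hφ1.symm))))
    -- move `u` to the first basis vector
    obtain ⟨g, hg⟩ : ∃ g : Matrix.SpecialLinearGroup (Fin 2) F, g.1 *ᵥ ![1, 0] = u := by
      by_cases h0 : u 0 = 0
      · have h1 : u 1 ≠ 0 := fun h1 => hu (by funext i; fin_cases i <;> simp [h0, h1])
        refine ⟨⟨!![u 0, -(u 1)⁻¹; u 1, 0], by simp [Matrix.det_fin_two, h1]⟩, ?_⟩
        funext i; fin_cases i <;> simp [Matrix.mulVec, dotProduct]
      · refine ⟨⟨!![u 0, 0; u 1, (u 0)⁻¹], by simp [Matrix.det_fin_two, h0]⟩, ?_⟩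
        funext i; fin_cases i <;> simp [Matrix.mulVec, dotProduct]
    obtain ⟨c, hc⟩ := hθ.2 g
    set y := c⁻¹ * l * c
    have hyS : y ∈ (S : Subgroup ↥L) := by
      refine (hS y).2 ⟨(θ y).1 0 1, ?_⟩
      have he : (θ y).1 *ᵥ ![1, 0] = ![1, 0] := by
        rw [map_mul, map_mul, map_inv, hc, Matrix.SpecialLinearGroup.coe_mul,
          Matrix.SpecialLinearGroup.coe_mul, ← Matrix.mulVec_mulVec, hg, ← Matrix.mulVec_mulVec, e, ← hg,
          Matrix.mulVec_mulVec, ← Matrix.SpecialLinearGroup.coe_mul, inv_mul_cancel,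
          Matrix.SpecialLinearGroup.coe_one, Matrix.one_mulVec]
      have h00 := congrFun he 0
      have h10 := congrFun he 1
      simp [Matrix.mulVec, dotProduct] at h00 h10
      have hd := (θ y).2
      rw [Matrix.det_fin_two, h00, h10, one_mul, mul_zero, sub_zero] at hd
      ext i j
      rw [Cfsg.Agent.RootSLTwo.val_up]
      fin_cases i <;> fin_cases j <;> simp [h00, h10, hd]
    obtain ⟨k, hk⟩ := S.isPGroup' ⟨y, hyS⟩
    have hk' : y ^ p ^ k = 1 := congrArg Subtype.val hk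
    have hlk : l ^ p ^ k = 1 := by
      have e1 : (MulAut.conj c) (y ^ p ^ k) = l ^ p ^ k := by
        rw [map_pow]
        exact congrArg (· ^ p ^ k) (by simp [y, mul_assoc])
      rw [← e1, hk', map_one]
    have hdvd : orderOf x ∣ p ^ k := orderOf_dvd_of_pow_eq_one (congrArg Subtype.val hlk)
    exact hx1 (orderOf_eq_one_iff.1 (Nat.eq_one_of_dvd_coprimes (Nat.Coprime.pow_right k hxo) dvd_rfl hdvd))
  · by_cases hb : U = ⊥
    · exact Or.inl hb
    refine Or.inr (le_antisymm hU fun x hx => ?_)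
    obtain ⟨u, huU, hu1⟩ := (Subgroup.ne_bot_iff_exists_ne_one.1 hb : ∃ u : ↥U, u ≠ 1) |>.elim
      (fun u h => (⟨(u : G), u.2, fun e => h (Subtype.ext e)⟩ : ∃ u ∈ U, u ≠ 1))
    set uv : ↥V := ⟨u, (hU huU).1⟩
    have hu10 : φ uv 1 = 0 := (hTfix uv).1 (hU huU).2
    have hu00 : φ uv 0 ≠ 0 := fun h => hu1 (congrArg Subtype.val (hbij.1 (show φ uv = φ 1 from by
      rw [hφ1]; funext i; fin_cases i <;> simp [h, hu10])))
    by_cases hx0 : φ ⟨x, hx.1⟩ 0 = 0
    · have : φ ⟨x, hx.1⟩ = φ 1 := by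
        rw [hφ1]; funext i; fin_cases i <;> simp [hx0, (hTfix ⟨x, hx.1⟩).1 hx.2]
      have h' : x = 1 := congrArg Subtype.val (hbij.1 this)
      rw [h']; exact one_mem _
    obtain ⟨d, hd, hdv⟩ := htor (φ ⟨x, hx.1⟩ 0 / φ uv 0) (div_ne_zero hx0 hu00)
    obtain ⟨w, hw, hwφ⟩ := hdv uv
    have e : w = ⟨x, hx.1⟩ := hbij.1 (by
      rw [hwφ]; funext i; fin_cases i
      · simp [hu00]
      · simp [hu10, (hTfix ⟨x, hx.1⟩).1 hx.2])
    rw [e] at hw
    rw [show x = d * u * d⁻¹ from hw]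
    exact (Subgroup.mem_normalizer_iff.1 (hinv hd) u).1 huU
  · by_cases hb : U ≤ Subgroup.centralizer (T : Set G)
    · exact Or.inl (le_antisymm (le_inf hUV hb) hKU)
    refine Or.inr (le_antisymm hUV fun x hx => ?_)
    obtain ⟨u, huU, huc⟩ := SetLike.not_le_iff_exists.1 hb
    have hu1 : φ ⟨u, hUV huU⟩ 1 ≠ 0 := fun h => huc ((hTfix _).2 h)
    by_cases hx0 : φ ⟨x, hx⟩ 1 = 0
    · exact hKU ⟨hx, (hTfix ⟨x, hx⟩).2 hx0⟩
    obtain ⟨d, hd, hdv⟩ := htor (φ ⟨u, hUV huU⟩ 1 / φ ⟨x, hx⟩ 1) (div_ne_zero hu1 hx0)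
    obtain ⟨w, hw, hwφ⟩ := hdv ⟨u, hUV huU⟩
    obtain ⟨k, hk⟩ := hbij.2 (φ ⟨x, hx⟩ - φ w)
    have hxe : (⟨x, hx⟩ : ↥V) = k * w := hbij.1 (by rw [hadd, hk, sub_add_cancel])
    rw [show x = (k : G) * w from congrArg Subtype.val hxe]
    refine mul_mem (hKU ⟨k.2, (hTfix k).2 ?_⟩)
      (hw ▸ (Subgroup.mem_normalizer_iff.1 (hinv hd) u).1 huU)
    simp [hk, hwφ]
    field_simp
    ring

end Cfsg.Agent.S2780
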