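import Cfsg.Statements.S2781
import Mathlib

set_option autoImplicit false
open Cfsg

namespace Cfsg.Agent.S2781

/-- Let H act faithfully by conjugation on the elementary abelian p-subgroup V of a finite group, let O^p(H) be the subgroup of H generated by its elements of order prime to p, and T a Sylow p-subgroup of O^p(H). If V is generated by the H-conjugates of C_V(T) (V is the smallest H-invariant subgroup containing C_V(T)), then V = [V, O^p(H)]·C_V(O^p(H)). -/
theorem result {G : Type*} [Group G] [Finite G] {p : ℕ} [Fact p.Prime] (V H : Subgroup G) (hV : Cfsg.IsElementaryAbelian p V) (hHV : H ≤ Subgroup.normalizer (V : Set G)) (hf : H ⊓ Subgroup.centralizer (V : Set G) = ⊥) (R : Subgroup G) (hR : R = (Cfsg.pResidual p ↥H).map H.subtype) (S : Sylow p ↥R) (T : Subgroup G) (hT : T = ((S : Subgroup ↥R).map R.subtype)) (hgen : ∀ W : Subgroup G, H ≤ Subgroup.normalizer (W : Set G) → (V ⊓ Subgroup.centralizer ((T : Subgroup G) : Set G)) ≤ W → V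 ≤ W) : ⁅V, R⁆ ⊔ (V ⊓ Subgroup.centralizer ((R : Subgroup G) : Set G)) = V := by
  classical
  obtain ⟨hab, hexp⟩ := hV
  set RH := Cfsg.pResidual p ↥H with hRH
  have hRHn : ∀ h : H, ∀ x ∈ RH, h * x * h⁻¹ ∈ RH := by
    intro h x hx
    suffices RH ≤ RH.comap (MulAut.conj h).toMonoidHom from this hx
    conv_lhs => rw [hRH, Cfsg.pResidual]
    refine (Subgroup.closure_le _).mpr fun g hg => Subgroup.subset_closure ?_
    show Nat.Coprime (orderOf ((MulAut.conj h).toMonoidHom g)) p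
    rw [orderOf_injective (MulAut.conj h).toMonoidHom (MulAut.conj h).injective g]
    exact hg
  have hRH' : R ≤ H := hR.le.trans (Subgroup.map_subtype_le _)
  have hRV : ∀ r ∈ R, ∀ v ∈ V, r * v * r⁻¹ ∈ V := fun r hr v hv =>
    (Subgroup.mem_normalizer_iff.mp (hHV (hRH' hr)) v).mp hv
  have hHR : ∀ h ∈ H, ∀ r ∈ R, h * r * h⁻¹ ∈ R := by
    intro h hh r hr
    rw [hR] at hr ⊢
    obtain ⟨y, hy, rfl⟩ := hr
    exact ⟨⟨h, hh⟩ * y * ⟨h, hh⟩⁻¹, hRHn ⟨h, hh⟩ y hy, rfl⟩
  set W := ⁅V, R⁆ ⊔ (V ⊓ Subgroup.centralizer (R : Set G)) with hW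
  have hWV : W ≤ V := sup_le (Subgroup.commutator_le.mpr fun v hv r hr => by
    rw [commutatorElement_def, mul_assoc, mul_assoc, ← mul_assoc r]
    exact mul_mem hv (hRV r hr _ (inv_mem hv))) inf_le_left
  have hHW : ∀ h ∈ H, ∀ w ∈ W, h * w * h⁻¹ ∈ W := by
    intro h hh
    suffices W ≤ W.comap (MulAut.conj h).toMonoidHom from fun w hw => this hw
    refine sup_le (Subgroup.commutator_le.mpr fun v hv r hr => ?_) fun v hv => Subgroup.mem_sup_right ?_
    · refine Subgroup.mem_comap.mpr ?_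
      rw [map_commutatorElement]
      exact Subgroup.mem_sup_left (Subgroup.commutator_mem_commutator
        ((Subgroup.mem_normalizer_iff.mp (hHV hh) v).mp hv) (hHR h hh r hr))
    · refine ⟨(Subgroup.mem_normalizer_iff.mp (hHV hh) v).mp hv.1, fun r hr => ?_⟩
      have h1 := hv.2 (h⁻¹ * r * h) (by simpa using hHR h⁻¹ (inv_mem hh) r hr)
      show r * (h * v * h⁻¹) = h * v * h⁻¹ * r
      calc r * (h * v * h⁻¹) = h * ((h⁻¹ * r * h) * v) * h⁻¹ := by group
        _ = h * (v * (h⁻¹ * r * h)) * h⁻¹ := by rw [h1]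
        _ = _ := by group
  refine le_antisymm hWV (hgen W (fun h hh => Subgroup.mem_normalizer_iff.mpr fun w => ⟨hHW h hh w, fun hw => ?_⟩) ?_)
  · simpa [mul_assoc] using hHW h⁻¹ (inv_mem hh) _ hw
  -- averaging over the cosets of the Sylow subgroup
  rintro v ⟨hvV, hvT⟩
  letI : CommGroup V := { (inferInstance : Group V) with mul_comm := fun a b => hab.is_comm.comm a b }
  let φ : R → V →* V := fun r =>
    { toFun := fun x => ⟨r * x * (r : G)⁻¹, hRV r r.2 x x.2⟩
      map_one' := Subtype.ext (by simp)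
      map_mul' := fun a b => Subtype.ext (by simp [mul_assoc]) }
  have hφ : ∀ a b x, φ (a * b) x = φ a (φ b x) := fun a b x => Subtype.ext (by simp [φ, mul_assoc])
  have hfix : ∀ s ∈ (S : Subgroup R), φ s ⟨v, hvV⟩ = ⟨v, hvV⟩ := fun s hs => Subtype.ext (by
    have h1 := hvT (s : G) (hT ▸ ⟨s, hs, rfl⟩)
    show (s : G) * v * (s : G)⁻¹ = v
    rw [h1, mul_inv_cancel_right])
  let f : R ⧸ (S : Subgroup R) → V := fun q => φ q.out ⟨v, hvV⟩
  haveI := Fintype.ofFinite (R ⧸ (S : Subgroup R))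
  have hf : ∀ r : R, f (r : R ⧸ (S : Subgroup R)) = φ r ⟨v, hvV⟩ := by
    intro r
    obtain ⟨s, hs⟩ := QuotientGroup.mk_out_eq_mul (S : Subgroup R) r
    show φ (Quotient.out (r : R ⧸ (S : Subgroup R))) ⟨v, hvV⟩ = _
    rw [hs, hφ, hfix _ s.2]
  set w := ∏ q, f q with hw
  have hwfix : ∀ g : R, φ g w = w := by
    intro g
    rw [hw, map_prod]
    refine Fintype.prod_equiv (MulAction.toPerm g) _ _ fun q => ?_
    induction q using QuotientGroup.induction_on with
    | H r => rw [hf, MulAction.toPerm_apply, MulAction.Quotient.smul_coe, hf, smul_eq_mul, hφ]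
  have hwC : (w : G) ∈ W := Subgroup.mem_sup_right ⟨w.2, fun r hr => by
    have h1 := congrArg Subtype.val (hwfix ⟨r, hr⟩)
    exact mul_inv_eq_iff_eq_mul.mp h1⟩
  have hc : ((∏ q, (⟨v, hvV⟩ : V)⁻¹ * f q : V) : G) ∈ W := by
    refine Finset.prod_induction _ (fun x : V => (x : G) ∈ W) (fun a b ha hb => by
      rw [Subgroup.coe_mul]; exact mul_mem ha hb) (one_mem W) fun q _ => ?_
    have h1 := Subgroup.commutator_mem_commutator (inv_mem hvV) q.out.2
    rw [commutatorElement_def, inv_inv] at h1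
    refine Subgroup.mem_sup_left ?_
    show v⁻¹ * ((q.out : R) * v * ((q.out : R) : G)⁻¹) ∈ ⁅V, R⁆
    simpa [mul_assoc] using h1
  set n := Fintype.card (R ⧸ (S : Subgroup R)) with hn
  have hvn : v ^ n ∈ W := by
    have h1 : (∏ q, (⟨v, hvV⟩ : V)⁻¹ * f q) = ((⟨v, hvV⟩ : V) ^ n)⁻¹ * w := by
      rw [Finset.prod_mul_distrib, Finset.prod_const, Finset.card_univ, inv_pow]
    rw [h1, Subgroup.coe_mul, Subgroup.coe_inv, SubmonoidClass.coe_pow] at hc
    exact inv_mem_iff.mp ((Subgroup.mul_mem_cancel_right W hwC).mp hc)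
  have hcop : n.Coprime p := by
    rw [hn, ← Nat.card_eq_fintype_card]
    exact ((Fact.out : p.Prime).coprime_iff_not_dvd.mpr S.not_dvd_index).symm
  set W' := Subgroup.zpowers v ⊓ W
  obtain ⟨a, b, hab'⟩ : ∃ a b : ℤ, (1 : ℤ) = n * a + p * b :=
    ⟨_, _, by rw [← Nat.gcd_eq_gcd_ab, hcop.gcd_eq_one]; rfl⟩
  rw [← zpow_one v, hab', zpow_add, zpow_mul, zpow_mul, zpow_natCast, zpow_natCast, hexp v hvV, one_zpow, mul_one]
  exact zpow_mem hvn a

end Cfsg.Agent.S2781
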