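import Cfsg.Statements.S2791
import Cfsg.Agent.Lib.LocalStronglyClosed

set_option autoImplicit false
open Cfsg

namespace Cfsg.Agent.S2791

/-- Let S be a Sylow p-subgroup of the finite group G and A an abelian subgroup of S that is strongly closed in S with respect to G. Then A controls strong fusion in G: for some Sylow p-subgroup T containing A, whenever a subset of T is conjugated into T by an element of G, the same elementwise conjugation is induced by an element of N_G(A). -/
theorem result {G : Type*} [Group G] [Finite G] {p : ℕ} [Fact p.Prime] (S : Sylow p G) (A : Subgroup G) (hA : IsMulCommutative ↥A) (hsc : Cfsg.IsStronglyClosed A (S : Subgroup G)) : Cfsg.ControlsStrongFusion p A := by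
  refine ⟨S, hsc.1, fun B hB => ⟨hB, fun g hg => ?_⟩⟩
  obtain ⟨x, hx, h⟩ := CfsgLib.Local.StronglyClosed.controls S A hA hsc B g⁻¹ hB (by
    rintro _ ⟨b, hb, rfl⟩
    simpa using hg ⟨b, hb, rfl⟩)
  exact ⟨x⁻¹, inv_mem hx, fun b hb => by simpa using h b hb⟩

end Cfsg.Agent.S2791
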