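import Cfsg.Statements.S2794
import Cfsg.Agent.Lib.QuadPairQdZJ

set_option autoImplicit false
open Cfsg

namespace Cfsg.Agent.S2794

/-- For an odd prime p and a finite group G, the group Qd(p) is not involved in G if and only if in every section K/R of G, for every Sylow p-subgroup S* of K/R, the centre of J(S*) (J generated by the abelian subgroups of largest order) controls strong fusion in K/R. -/
theorem result {G : Type*} [Group G] [Finite G] {p : ℕ} [Fact p.Prime] (hp : p ≠ 2) : ¬ Cfsg.Involves ↥(Cfsg.qd p) G ↔ ∀ (K R : Subgroup G) [hR : (R.subgroupOf K).Normal], ∀ T : Sylow p (K ⧸ R.subgroupOf K), Cfsg.ControlsStrongFusion p (Cfsg.centerThompsonAOf (T : Subgroup (K ⧸ R.subgroupOf K))) := by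
  constructor
  · intro h K R hR T
    rw [CfsgLib.Stable.centerThompsonAOf_eq]
    exact ⟨T, CfsgLib.Stable.Zsub_le 0 _, fun A hA => CfsgLib.Stable.controls_of_ctrl
      (CfsgLib.Stable.goal_of_localData
        (CfsgLib.QuadPair.localData_zsub_qdFree hp (e := 0) (Or.inl rfl) h) _
        ⟨K, QuotientGroup.mk' _, QuotientGroup.mk'_surjective _⟩ T _
        (CfsgLib.Stable.sclosed_self _) False.elim) A hA⟩
  · rintro h ⟨K, R, hR, ⟨e⟩⟩
    exact CfsgLib.QuadPair.not_controls_of_iso hp e (h K R)

end Cfsg.Agent.S2794
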