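import Cfsg.Statements.S2941
import Mathlib

set_option autoImplicit false
open Cfsg

namespace Cfsg.Agent.S2941

/-- Let G be a finite group of characteristic 2 type in which every 2-local subgroup is solvable and the centralizer of Ω₁(Z(S)) lies in N_G(S) for every Sylow 2-subgroup S, and let T be a nontrivial 2-subgroup and K a J(T)-component (J the Thompson subgroup generated by the elementary abelian 2-subgroups of largest order). If a subgroup Q is normalized by ⟨K, J(T)⟩ and normalizes J(T), then Q normalizes K. -/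
theorem result {G : Type*} [Group G] [Finite G] (hL : Cfsg.IsCharacteristicTwoType G) (hN : ∀ N : Subgroup G, Cfsg.IsTwoLocal N → Group.IsSolvable ↥N)
    (hZ : ∀ S : Sylow 2 G, Subgroup.centralizer (Cfsg.omegaCenterOf (S : Subgroup G) : Set G) ≤ Subgroup.normalizer ((S : Subgroup G) : Set G)) (T : Subgroup G) (hT : IsPGroup 2 ↥T) (hT1 : T ≠ ⊥) (K : Subgroup G) (hK : Cfsg.IsJComponent T K)
    (Q : Subgroup G) (hQ1 : K ⊔ Cfsg.thompsonSubgroupOf 2 T ≤ Subgroup.normalizer (Q : Set G)) (hQ2 : Q ≤ Subgroup.normalizer (Cfsg.thompsonSubgroupOf 2 T : Set G)) :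
    Q ≤ Subgroup.normalizer (K : Set G) := by
  classical
  set J := Cfsg.thompsonSubgroupOf 2 T with hJdef
  obtain ⟨hodd, hcomm, -⟩ := hK
  have hJ2 : IsPGroup 2 J := hT.to_le (Subgroup.map_subtype_le _)
  have hKQ : ∀ k ∈ K, ∀ x ∈ Q, k * x * k⁻¹ ∈ Q := fun k hk x hx =>
    (Subgroup.mem_normalizer_iff.mp (hQ1 (Subgroup.mem_sup_left hk)) x).mp hx
  have hJK : J ≤ Subgroup.normalizer (K : Set G) := by
    have h1 : ∀ j ∈ J, ∀ k ∈ K, j * k * j⁻¹ ∈ K := by
      intro j hj k hk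
      have h2 : k⁻¹ * j * k * j⁻¹ ∈ K := by
        have := hcomm.le (Subgroup.commutator_mem_commutator (inv_mem hk) hj)
        rwa [commutatorElement_def, inv_inv] at this
      simpa [mul_assoc] using mul_mem hk h2
    intro j hj
    refine Subgroup.mem_normalizer_iff.mpr fun k => ⟨h1 j hj k, fun h => ?_⟩
    simpa [mul_assoc] using h1 j⁻¹ (inv_mem hj) _ h
  have hconj : ∀ q ∈ Q, ∀ x ∈ K ⊔ J, q * x * q⁻¹ ∈ K ⊔ J := by
    intro q hq
    have hqJ : ∀ r ∈ Q, ∀ j ∈ J, r * j * r⁻¹ ∈ J := fun r hr j hj =>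
      (Subgroup.mem_normalizer_iff.mp (hQ2 hr) j).mp hj
    suffices K ⊔ J ≤ (K ⊔ J).comap (MulAut.conj q).toMonoidHom from fun x hx => this hx
    refine sup_le ?_ (fun j hj => Subgroup.mem_sup_right (hqJ q hq j hj))
    conv_lhs => rw [← hcomm]
    refine Subgroup.commutator_le.mpr fun k hk j hj => ?_
    show q * (k * j * k⁻¹ * j⁻¹) * q⁻¹ ∈ K ⊔ J
    rw [show q * (k * j * k⁻¹ * j⁻¹) * q⁻¹ =
      k * ((k⁻¹ * q * k) * j * (k⁻¹ * q * k)⁻¹) * k⁻¹ * (q * j⁻¹ * q⁻¹) by group]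
    refine mul_mem (mul_mem (mul_mem (Subgroup.mem_sup_left hk) (Subgroup.mem_sup_right (hqJ _ ?_ j hj)))
      (inv_mem (Subgroup.mem_sup_left hk))) (Subgroup.mem_sup_right (hqJ q hq _ (inv_mem hj)))
    simpa using hKQ k⁻¹ (inv_mem hk) q hq
  have hoddK : ∀ g ∈ K ⊔ J, Odd (orderOf g) → g ∈ K := by
    intro g hg ho
    obtain ⟨k, hk, j, hj, rfl⟩ : ∃ k ∈ K, ∃ j ∈ J, k * j = g := by
      have : (g : G) ∈ (↑(K ⊔ J) : Set G) := hg
      rw [Subgroup.coe_mul_of_right_le_normalizer_left K J hJK] at this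
      exact Set.mem_mul.mp this
    set N := Subgroup.normalizer (K : Set G)
    have hkN : k ∈ N := Subgroup.le_normalizer hk
    let π := QuotientGroup.mk' (K.subgroupOf N)
    have hπk : π (⟨k, hkN⟩ : N) = 1 := (QuotientGroup.eq_one_iff (N := K.subgroupOf N) (⟨k, hkN⟩ : N)).mpr hk
    obtain ⟨m, hm⟩ := hJ2 ⟨j, hj⟩
    have hjm : j ^ 2 ^ m = 1 := congrArg Subtype.val hm
    set y : N := ⟨k * j, mul_mem hkN (hJK hj)⟩
    have hy : π y = π ⟨j, hJK hj⟩ := by
      rw [show y = (⟨k, hkN⟩ : N) * ⟨j, hJK hj⟩ from rfl, map_mul, hπk, one_mul]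
    have h1 : π y ^ 2 ^ m = 1 := by
      rw [hy, ← map_pow, show (⟨j, hJK hj⟩ : N) ^ 2 ^ m = 1 from Subtype.ext hjm, map_one]
    have h2 : π y ^ orderOf (k * j) = 1 := by
      rw [← map_pow, show y ^ orderOf (k * j) = 1 from Subtype.ext (pow_orderOf_eq_one _), map_one]
    have h3 := pow_gcd_eq_one.mpr ⟨h1, h2⟩
    rw [show Nat.gcd (2 ^ m) (orderOf (k * j)) = 1 from Nat.Coprime.pow_left m ho.coprime_two_left, pow_one] at h3
    exact (QuotientGroup.eq_one_iff y).mp h3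
  have main : ∀ q ∈ Q, ∀ k ∈ K, q * k * q⁻¹ ∈ K := by
    intro q hq k hk
    suffices K ≤ K.comap (MulAut.conj q).toMonoidHom from this hk
    conv_lhs => rw [← hodd]
    refine (Subgroup.closure_le _).mpr fun g hg => ?_
    refine hoddK (q * g * q⁻¹) (hconj q hq g (Subgroup.mem_sup_left hg.1)) ?_
    have : orderOf (q * g * q⁻¹) = orderOf g := orderOf_injective (MulAut.conj q).toMonoidHom (MulAut.conj q).injective g
    rw [this]
    exact hg.2
  intro q hq
  refine Subgroup.mem_normalizer_iff.mpr fun k => ⟨main q hq k, fun h => ?_⟩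
  simpa [mul_assoc] using main q⁻¹ (inv_mem hq) _ h

end Cfsg.Agent.S2941
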