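import Cfsg.Statements.S3103
import Cfsg.Agent.Lib.CoreBasic
import Cfsg.Agent.Lib.FgsAutFrattini
import Cfsg.Agent.Lib.ClassicalLFourTwo
import Mathlib

set_option autoImplicit false
open Cfsg

namespace Cfsg.Agent.S3103

theorem embed_gl (V : Type*) [AddCommGroup V] [Module (ZMod 2) V] [Finite V] (h : Module.finrank (ZMod 2) V ≤ 4) :
    ∃ M : (V ≃ₗ[ZMod 2] V) →* Matrix.SpecialLinearGroup (Fin 4) (ZMod 2), Function.Injective M := by
  classical
  haveI : Module.Finite (ZMod 2) V := Module.Finite.of_finite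
  set r := Module.finrank (ZMod 2) V with hr
  have hfr : Module.finrank (ZMod 2) (V × (Fin (4 - r) → ZMod 2)) = Module.finrank (ZMod 2) (Fin 4 → ZMod 2) := by
    rw [Module.finrank_prod, Module.finrank_pi, Module.finrank_pi, Fintype.card_fin, Fintype.card_fin, ← hr]
    omega
  let e := LinearEquiv.ofFinrankEq _ _ hfr
  let M : (V ≃ₗ[ZMod 2] V) →* Matrix (Fin 4) (Fin 4) (ZMod 2) :=
    { toFun := fun a => LinearMap.toMatrixAlgEquiv' ((e.toLinearMap ∘ₗ (LinearMap.prodMap a.toLinearMap LinearMap.id)) ∘ₗ e.symm.toLinearMap)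
      map_one' := by
        rw [← map_one (LinearMap.toMatrixAlgEquiv' (R := ZMod 2) (n := Fin 4))]
        congr 1
        refine LinearMap.ext fun x => ?_
        simp
      map_mul' := fun a b => by
        rw [← map_mul]
        congr 1
        refine LinearMap.ext fun x => ?_
        simp }
  have hdet : ∀ a, (M a).det = 1 := by
    intro a
    have h1 : (M a).det * (M a⁻¹).det = 1 := by rw [← Matrix.det_mul, ← map_mul, mul_inv_cancel, map_one, Matrix.det_one]
    have : ∀ x y : ZMod 2, x * y = 1 → x = 1 := by decide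
    exact this _ _ h1
  refine ⟨MonoidHom.mk' (fun a => ⟨M a, hdet a⟩) (fun a b => Subtype.ext (map_mul M a b)), fun a b hab => ?_⟩
  have h1 : M a = M b := congrArg Subtype.val hab
  have h2 := LinearMap.toMatrixAlgEquiv'.injective h1
  refine LinearEquiv.ext fun v => ?_
  have h3 := LinearMap.congr_fun h2 (e (v, 0))
  simp at h3
  exact h3
theorem zmod2_pow_four : ∀ c : ZMod 2, c ^ 4 = 1 → c = 1 := by decide


/-- Let X be a finite 2-constrained group with no nontrivial normal subgroup of odd order such that O₂(X) has sectional 2-rank at most 4. Then X/O₂(X) is isomorphic to a subgroup of the alternating group of degree 8. -/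
theorem result {X : Type*} [Group X] [Finite X] (hc : Cfsg.IsPConstrained 2 X) (hO : Cfsg.oddCore X = ⊥)
    (h4 : Cfsg.SectionalPRankLE 2 4 ↥(Cfsg.pCore 2 X)) :
    ∃ f : X ⧸ Cfsg.pCore 2 X →* ↥(alternatingGroup (Fin 8)), Function.Injective f := by
  classical
  haveI : Fact (Nat.Prime 2) := ⟨Nat.prime_two⟩
  set Q := Cfsg.pCore 2 X with hQdef
  haveI hQn : Q.Normal := CfsgLib.Core.normal_pCore 2
  have hQp : IsPGroup 2 Q := CfsgLib.Core.isPGroup_pCore 2
  have hL : Cfsg.pPrimePCore 2 X = Q := by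
    haveI hOn : (Cfsg.pPrimeCore 2 X).Normal := CfsgLib.Core.normal_pPrimeCore 2
    have hker : (QuotientGroup.mk' (Cfsg.pPrimeCore 2 X)).ker = ⊥ := by rw [QuotientGroup.ker_mk']; exact hO
    refine le_antisymm ?_ ?_
    · refine le_sSup ⟨(CfsgLib.Core.normal_pCore 2).comap _, ?_⟩
      exact (CfsgLib.Core.isPGroup_pCore 2).comap_of_injective _ ((MonoidHom.ker_eq_bot_iff _).mp hker)
    · exact Subgroup.map_le_iff_le_comap.mp (le_sSup ⟨hQn.map _ (QuotientGroup.mk'_surjective _), hQp.map _⟩)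
  have hC : Subgroup.centralizer (Q : Set X) ≤ Q := by
    obtain ⟨P⟩ : Nonempty (Sylow 2 ↥(Cfsg.pPrimePCore 2 X)) := inferInstance
    have h1 := hc P
    have hPtop : (P : Subgroup ↥(Cfsg.pPrimePCore 2 X)) = ⊤ := P.is_maximal'
      ((hL ▸ hQp : IsPGroup 2 ↥(Cfsg.pPrimePCore 2 X)).to_subgroup ⊤) le_top |>.symm
    rwa [hPtop, ← MonoidHom.range_eq_map, Subgroup.range_subtype, hL] at h1
  set Φ := frattini ↥Q with hΦ
  haveI hΦc : Φ.Characteristic := frattini_characteristic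
  have hmul : ∀ a b : ↥Q ⧸ Φ, a * b = b * a := by
    intro a b
    induction a using QuotientGroup.induction_on with
    | H a =>
      induction b using QuotientGroup.induction_on with
      | H b =>
        rw [← QuotientGroup.mk_mul, ← QuotientGroup.mk_mul, QuotientGroup.eq]
        refine CfsgLib.Core.pgroup_commutator_le_frattini hQp ?_
        rw [show (a * b)⁻¹ * (b * a) = b⁻¹ * a⁻¹ * (b⁻¹)⁻¹ * (a⁻¹)⁻¹ by group, ← commutatorElement_def]
        exact Subgroup.commutator_mem_commutator (Subgroup.mem_top _) (Subgroup.mem_top _)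
  have hsq : ∀ a : ↥Q ⧸ Φ, a ^ 2 = 1 := by
    intro a
    induction a using QuotientGroup.induction_on with
    | H a => rw [← QuotientGroup.mk_pow, QuotientGroup.eq_one_iff]; exact CfsgLib.Core.pgroup_pow_mem_frattini hQp a
  letI cg : CommGroup (↥Q ⧸ Φ) := { (inferInstance : Group (↥Q ⧸ Φ)) with mul_comm := hmul }
  letI : Module (ZMod 2) (Additive (↥Q ⧸ Φ)) := AddCommGroup.zmodModule (n := 2) fun a => hsq (Additive.toMul a)
  have hrank : Module.finrank (ZMod 2) (Additive (↥Q ⧸ Φ)) ≤ 4 := by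
    have h1 := h4 ⊤ (Φ.subgroupOf ⊤)
    let e : (↥(⊤ : Subgroup ↥Q) ⧸ Φ.subgroupOf ⊤) ≃* ↥Q ⧸ Φ :=
      QuotientGroup.congr _ _ Subgroup.topEquiv (by ext x; exact ⟨fun ⟨y, hy, hyx⟩ => hyx ▸ hy, fun hx => ⟨⟨x, trivial⟩, hx, rfl⟩⟩)
    have h2 := h1 ⊤ ⟨⟨fun a b => Subtype.ext (e.injective ((map_mul e _ _).trans ((hmul _ _).trans (map_mul e _ _).symm)))⟩⟩
      (fun a _ => e.injective (by rw [map_pow, hsq, map_one]))
    rw [Subgroup.card_top, Nat.card_congr e.toEquiv] at h2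
    have h3 := Module.natCard_eq_pow_finrank (K := ZMod 2) (V := Additive (↥Q ⧸ Φ))
    rw [Nat.card_zmod] at h3
    exact (Nat.pow_le_pow_iff_right (by norm_num : 1 < 2)).mp (h3 ▸ h2)
  obtain ⟨M, hM⟩ := embed_gl (Additive (↥Q ⧸ Φ)) hrank
  have hmap : ∀ α : MulAut ↥Q, Φ.map α.toMonoidHom = Φ := fun α => Subgroup.characteristic_iff_map_eq.mp hΦc α
  let θ : MulAut ↥Q →* (Additive (↥Q ⧸ Φ) ≃ₗ[ZMod 2] Additive (↥Q ⧸ Φ)) :=
    MonoidHom.mk' (fun α => (MulEquiv.toAdditive (QuotientGroup.congr Φ Φ α (hmap α))).toLinearEquiv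
      (fun c x => ZMod.map_smul (MulEquiv.toAdditive (QuotientGroup.congr Φ Φ α (hmap α))).toAddMonoidHom c x))
      (fun α β => LinearEquiv.ext fun x => by
        obtain ⟨y, rfl⟩ := QuotientGroup.mk_surjective (Additive.toMul x)
        rfl)
  let g : X →* Matrix.SpecialLinearGroup (Fin 4) (ZMod 2) := M.comp (θ.comp MulAut.conjNormal)
  obtain ⟨n, hn⟩ := IsPGroup.iff_card.mp hQp
  obtain ⟨r, hr⟩ := IsPGroup.iff_card.mp ((hQp.to_quotient Φ))
  have hA : IsPGroup 2 θ.ker := by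
    have hd := CfsgLib.FgsAutFrattini.card_kernel_dvd (p := 2) hn (r := r) (by rw [Subgroup.index_eq_card]; exact hr) θ.ker (by
      intro α hα x
      have h1 := LinearEquiv.congr_fun (MonoidHom.mem_ker.mp hα) (Additive.ofMul (x : ↥Q ⧸ Φ))
      have h2 : ((α x : ↥Q) : ↥Q ⧸ Φ) = (x : ↥Q ⧸ Φ) := h1
      rw [← QuotientGroup.eq_one_iff, QuotientGroup.mk_mul, QuotientGroup.mk_inv, h2, mul_inv_cancel])
    obtain ⟨j, -, hj⟩ := (Nat.dvd_prime_pow Nat.prime_two).mp hd
    exact IsPGroup.of_card hj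
  have hker : g.ker ≤ Q := by
    refine le_sSup ⟨inferInstance, ?_⟩
    have h1 : g.ker = θ.ker.comap (MulAut.conjNormal : X →* MulAut ↥Q) := by
      ext x
      exact ⟨fun h => hM (h.trans (map_one M).symm), fun h => (congrArg M (MonoidHom.mem_ker.mp h)).trans (map_one M)⟩
    rw [h1]
    refine hA.comap_of_ker_isPGroup _ (hQp.to_le fun x hx => hC fun q hq => ?_)
    have h2 := congrArg Subtype.val (DFunLike.congr_fun (MonoidHom.mem_ker.mp hx) (⟨q, hq⟩ : ↥Q))
    rw [MulAut.conjNormal_apply] at h2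
    exact (mul_inv_eq_iff_eq_mul.mp h2).symm
  have hQker : Q ≤ g.ker := by
    intro x hx
    refine (congrArg M (LinearEquiv.ext fun v => ?_)).trans (map_one M)
    obtain ⟨y, rfl⟩ := QuotientGroup.mk_surjective (Additive.toMul v)
    show Additive.ofMul ((MulAut.conjNormal x y : ↥Q) : ↥Q ⧸ Φ) = Additive.ofMul ((y : ↥Q) : ↥Q ⧸ Φ)
    rw [show (MulAut.conjNormal x y : ↥Q) = ⟨x, hx⟩ * y * (⟨x, hx⟩ : ↥Q)⁻¹ from Subtype.ext (MulAut.conjNormal_apply x y),
      QuotientGroup.mk_mul, QuotientGroup.mk_mul, QuotientGroup.mk_inv, hmul (⟨x, hx⟩ : ↥Q), mul_inv_cancel_right]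
  obtain ⟨E⟩ := CfsgLib.LFourTwo.nonempty_psl_four_two_equiv (F := ZMod 2) (ZMod.card 2)
  have hpinj : Function.Injective (QuotientGroup.mk' (Subgroup.center (Matrix.SpecialLinearGroup (Fin 4) (ZMod 2)))) := by
    rw [← MonoidHom.ker_eq_bot_iff, QuotientGroup.ker_mk', eq_bot_iff]
    intro z hz
    obtain ⟨c, hc', hcz⟩ := Matrix.SpecialLinearGroup.mem_center_iff.mp hz
    have := zmod2_pow_four
    rw [Subgroup.mem_bot]
    exact Subtype.ext (by rw [← hcz, this c (by simpa using hc')]; simp)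
  let h : X ⧸ Q →* Matrix.SpecialLinearGroup (Fin 4) (ZMod 2) := QuotientGroup.lift Q g hQker
  refine ⟨E.toMonoidHom.comp ((QuotientGroup.mk' _).comp h), E.injective.comp (hpinj.comp ?_)⟩
  exact (injective_iff_map_eq_one h).mpr fun q => QuotientGroup.induction_on q fun x hx =>
    (QuotientGroup.eq_one_iff x).mpr (hker hx)

end Cfsg.Agent.S3103
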