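import Cfsg.Statements.S3116
import Cfsg.Agent.Lib.InvolQuatAut

set_option autoImplicit false
open Cfsg

namespace Cfsg.Agent.S3116

/-- The automorphism group of a dihedral 2-group of order at least 8, or of a quasi-dihedral (semidihedral) 2-group of order at least 16, is a 2-group. -/
theorem result {X : Type*} [Group X] [Finite X] (h2 : IsPGroup 2 X)
    (h : (∃ n : ℕ, 4 ≤ n ∧ Nonempty (X ≃* DihedralGroup n)) ∨ Cfsg.IsQuasiDihedral X) : IsPGroup 2 (MulAut X) := by
  haveI : Fact (Nat.Prime 2) := ⟨Nat.prime_two⟩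
  refine CfsgLib.QuatAut.isPGroup_mulAut h2 ?_
  rcases h with ⟨n, hn, ⟨e⟩⟩ | ⟨n, hn, hcard, x, y, hx, hy, hrel⟩
  · refine ⟨e.symm (DihedralGroup.r 1), fun z hz => ?_, fun u v hu hv => ?_⟩
    · have hez : ∀ i, e z ≠ DihedralGroup.r i := by
        intro i hi
        refine hz (Subgroup.mem_zpowers_iff.2 ⟨(ZMod.cast i : ℤ), ?_⟩)
        apply e.injective
        rw [map_zpow, e.apply_symm_apply, hi, DihedralGroup.r_one_zpow, ZMod.intCast_zmod_cast]
      rw [← MulEquiv.orderOf_eq e z, MulEquiv.orderOf_eq e.symm, DihedralGroup.orderOf_r_one]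
      generalize e z = w at hez
      cases w with
      | r i => exact absurd rfl (hez i)
      | sr i => rw [DihedralGroup.orderOf_sr]; omega
    · have key : ∀ w : X, w ∉ Subgroup.zpowers (e.symm (DihedralGroup.r 1)) → ∃ i, e w = DihedralGroup.sr i := by
        intro w hw
        cases he : e w with
        | r i =>
          refine absurd (Subgroup.mem_zpowers_iff.2 ⟨(ZMod.cast i : ℤ), ?_⟩) hw
          apply e.injective
          rw [map_zpow, e.apply_symm_apply, he, DihedralGroup.r_one_zpow, ZMod.intCast_zmod_cast]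
        | sr i => exact ⟨i, rfl⟩
      obtain ⟨i, hi⟩ := key u hu
      obtain ⟨j, hj⟩ := key v hv
      refine Subgroup.mem_zpowers_iff.2 ⟨(ZMod.cast (j - i) : ℤ), ?_⟩
      apply e.injective
      rw [map_zpow, e.apply_symm_apply, map_mul, map_inv, hi, hj, DihedralGroup.r_one_zpow,
        ZMod.intCast_zmod_cast, DihedralGroup.inv_sr, DihedralGroup.sr_mul_sr]
  · have hidx : (Subgroup.zpowers x).index = 2 := by
      have := Subgroup.card_mul_index (Subgroup.zpowers x)
      rw [Nat.card_zpowers, hx, hcard, pow_succ] at this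
      exact Nat.eq_of_mul_eq_mul_left (pow_pos (by norm_num) n) this
    have hyx : y ∉ Subgroup.zpowers x := by
      intro h
      obtain ⟨k, hk⟩ := Subgroup.mem_zpowers_iff.1 h
      rw [← hk] at hrel
      rw [show x ^ k * x * (x ^ k)⁻¹ = x by group] at hrel
      have h1 : x ^ (2 ^ (n - 1) - 1) = x ^ 1 := by rw [pow_one]; exact hrel.symm
      have h3 : 2 ≤ n - 1 := by omega
      have h4 : 4 ≤ 2 ^ (n - 1) := le_trans (by norm_num) (Nat.pow_le_pow_right (by norm_num) h3)
      have h5 : 2 ^ n = 2 * 2 ^ (n - 1) := by rw [← pow_succ', Nat.sub_add_cancel (by omega)]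
      have h6 := (pow_injOn_Iio_orderOf (x := x)) (show 2 ^ (n - 1) - 1 ∈ Set.Iio (orderOf x) by
        simp only [Set.mem_Iio, hx]; omega) (show 1 ∈ Set.Iio (orderOf x) by
        simp only [Set.mem_Iio, hx]; omega) h1
      omega
    refine ⟨x, fun z hz => ?_, fun u v hu hv => ?_⟩
    · have hzy : z * y ∈ Subgroup.zpowers x := (Subgroup.mul_mem_iff_of_index_two hidx).2
        (iff_of_false hz hyx)
      obtain ⟨k, hk⟩ := Subgroup.mem_zpowers_iff.1 hzy
      have hy2 : y * y = 1 := by rw [← pow_two, ← hy, pow_orderOf_eq_one]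
      have hz' : z = x ^ k * y⁻¹ := by rw [hk, mul_inv_cancel_right]
      have hyinv : y⁻¹ = y := inv_eq_of_mul_eq_one_right hy2
      have hconj : y * x ^ k * y⁻¹ = x ^ (((2 ^ (n - 1) - 1 : ℕ) : ℤ) * k) := by
        rw [← conj_zpow, hrel, zpow_mul, zpow_natCast]
      have hz2 : z ^ 2 = x ^ (((2 ^ (n - 1) : ℕ) : ℤ) * k) := by
        rw [hz', pow_two]
        calc x ^ k * y⁻¹ * (x ^ k * y⁻¹) = x ^ k * (y * x ^ k * y⁻¹) := by rw [hyinv]; group
          _ = _ := by
            rw [hconj, ← zpow_add]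
            congr 1
            push_cast [Nat.cast_sub (Nat.one_le_pow (n - 1) 2 (by norm_num))]
            ring
      have hx1 : x ^ ((2 ^ n : ℕ) : ℤ) = 1 := by rw [zpow_natCast, ← hx, pow_orderOf_eq_one]
      have h4 : z ^ 4 = 1 := by
        rw [show (4 : ℕ) = 2 * 2 from rfl, pow_mul, hz2, ← zpow_natCast, ← zpow_mul,
          show ((2 ^ (n - 1) : ℕ) : ℤ) * k * ((2 : ℕ) : ℤ) = ((2 ^ n : ℕ) : ℤ) * k by
            obtain ⟨m, rfl⟩ : ∃ m, n = m + 1 := ⟨n - 1, by omega⟩
            push_cast [Nat.add_sub_cancel, pow_succ]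
            ring, zpow_mul, hx1, one_zpow]
      rw [hx]
      calc orderOf z ≤ 4 := orderOf_le_of_pow_eq_one (by norm_num) h4
        _ < 2 ^ 3 := by norm_num
        _ ≤ 2 ^ n := Nat.pow_le_pow_right (by norm_num) hn
    · exact (Subgroup.mul_mem_iff_of_index_two hidx).2
        (iff_of_false (fun h => hu ((Subgroup.inv_mem_iff _).1 h)) hv)

end Cfsg.Agent.S3116
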