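import Cfsg.Statements.S3356


set_option autoImplicit false
open Cfsg

namespace Cfsg.Agent.S3356

lemma dvd_card_of_index {L X : Type*} [Group L] [MulAction L X] [Finite X] {d : ℕ}
    (h : ∀ x : X, (MulAction.stabilizer L x).index = d) : d ∣ Nat.card X := by
  classical
  haveI := Fintype.ofFinite X
  haveI := Fintype.ofFinite (MulAction.orbitRel.Quotient L X)
  rw [Nat.card_congr (MulAction.selfEquivSigmaOrbits L X), Nat.card_sigma]
  refine Finset.dvd_sum fun ω _ => ?_
  rw [Nat.card_coe_set_eq, ← MulAction.index_stabilizer, h]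

lemma key {N H : Type*} [Group N] [Group H] [MulDistribMulAction H N] [Finite N] [Finite H]
    (hconst : ∀ n m : N, n ≠ 1 → m ≠ 1 →
      (MulAction.stabilizer H n).index = (MulAction.stabilizer H m).index)
    (X : Set N) (L : Subgroup H) (hinv : ∀ l ∈ L, ∀ x ∈ X, l • x ∈ X)
    (hX : (1 : N) ∉ X) (hle : ∀ x ∈ X, MulAction.stabilizer H x ≤ L) :
    ∀ x ∈ X, (MulAction.stabilizer H x).relIndex L ∣ Nat.card X ∧
      (MulAction.stabilizer H x).relIndex L ∣ (MulAction.stabilizer H x).index := by
  intro x hx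
  refine ⟨?_, ⟨L.index, (Subgroup.relIndex_mul_index (hle x hx)).symm⟩⟩
  let S : SubMulAction L N := ⟨X, fun l y hy => hinv l l.2 y hy⟩
  haveI : Finite S := Subtype.finite
  refine dvd_card_of_index (L := L) (X := S) fun y => ?_
  have hs : MulAction.stabilizer L y = (MulAction.stabilizer H (y : N)).subgroupOf L := by
    ext l
    rw [Subgroup.mem_subgroupOf, MulAction.mem_stabilizer_iff, MulAction.mem_stabilizer_iff, Subtype.ext_iff]
    rfl
  rw [hs]
  show (MulAction.stabilizer H (y : N)).relIndex L = _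
  have h1 := Subgroup.relIndex_mul_index (hle x hx)
  have h2 := Subgroup.relIndex_mul_index (hle y y.2)
  rw [hconst y x (fun e => hX (e ▸ y.2)) (fun e => hX (e ▸ hx)), ← h1] at h2
  exact Nat.eq_of_mul_eq_mul_right (Nat.pos_of_ne_zero Subgroup.index_ne_zero_of_finite) h2

lemma half_transitive_auto {N H : Type*} [Group N] [Group H] [MulDistribMulAction H N] [Finite N] [Finite H]
    (hfaith : ∀ h : H, (∀ n : N, h • n = n) → h = 1)
    (hconst : ∀ n m : N, n ≠ 1 → m ≠ 1 →
      (MulAction.stabilizer H n).index = (MulAction.stabilizer H m).index)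
    (hnot : ∃ n : N, n ≠ 1 ∧ MulAction.stabilizer H n ≠ ⊥) :
    (∀ a b : N, a * b = b * a) ∧
      ∀ I : Subgroup N, (∀ (h : H), ∀ x ∈ I, h • x ∈ I) → I = ⊥ ∨ I = ⊤ := by
  classical
  obtain ⟨n0, hn0, hK0⟩ := hnot
  have hcop : ∀ x : N, x ≠ 1 → Nat.Coprime (MulAction.stabilizer H x).index (Nat.card N) := by
    intro x hx
    have hh := (key hconst ({1}ᶜ : Set N) ⊤ (fun l _ y hy e => hy (by
      have := congrArg (l⁻¹ • ·) (e : l • y = 1)
      simpa using this)) (by simp) (fun _ _ => le_top) x hx).1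
    rw [Subgroup.relIndex_top_right, Nat.card_coe_set_eq, Set.ncard_compl, Set.ncard_singleton] at hh
    have hN : 1 ≤ Nat.card N := Nat.card_pos
    refine Nat.coprime_of_dvd' fun p _ h1 h2 => ?_
    have h3 := h1.trans hh
    have := Nat.dvd_sub h2 h3
    rwa [show Nat.card N - (Nat.card N - 1) = 1 from by omega] at this
  -- stabilisers coincide under containment
  have heq : ∀ x y : N, x ≠ 1 → y ≠ 1 → MulAction.stabilizer H x ≤ MulAction.stabilizer H y →
      MulAction.stabilizer H x = MulAction.stabilizer H y := by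
    intro x y hx hy hle
    refine le_antisymm hle ?_
    have h1 := Subgroup.relIndex_mul_index hle
    rw [hconst x y hx hy] at h1
    exact Subgroup.relIndex_eq_one.1 (Nat.eq_of_mul_eq_mul_right (Nat.pos_of_ne_zero Subgroup.index_ne_zero_of_finite) (h1.trans (one_mul _).symm))
  -- the stabiliser of a fixes all conjugates of a
  have hclass : ∀ a n : N, a ≠ 1 → MulAction.stabilizer H a ≤ MulAction.stabilizer H (n * a * n⁻¹) := by
    intro a n ha
    let X : Set N := MulAction.orbit (ConjAct N) a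
    have hmem : ∀ m : N, m * a * m⁻¹ ∈ X := fun m => ⟨ConjAct.toConjAct m, by simp [ConjAct.smul_def]⟩
    have hmem' : ∀ y ∈ X, ∃ m : N, y = m * a * m⁻¹ := by
      rintro y ⟨m, rfl⟩
      exact ⟨ConjAct.ofConjAct m, by simp [ConjAct.smul_def]⟩
    let L : Subgroup H :=
      { carrier := {h | h • a ∈ X}
        one_mem' := by show (1 : H) • a ∈ X; rw [one_smul]; simpa using hmem 1
        mul_mem' := fun {g h} hg hh => by
          obtain ⟨u, hu⟩ := hmem' _ hh
          obtain ⟨v, hv⟩ := hmem' _ hg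
          show (g * h) • a ∈ X
          rw [mul_smul, hu, smul_mul', smul_mul', smul_inv', hv,
            show g • u * (v * a * v⁻¹) * (g • u)⁻¹ = (g • u * v) * a * (g • u * v)⁻¹ from by group]
          exact hmem _
        inv_mem' := fun {g} hg => by
          obtain ⟨v, hv⟩ := hmem' _ hg
          show g⁻¹ • a ∈ X
          have : a = v⁻¹ * (g • a) * v := by rw [hv]; group
          have h2 : g⁻¹ • a = g⁻¹ • (v⁻¹ * (g • a) * v) := by rw [← this]
          rw [h2, smul_mul', smul_mul', inv_smul_smul,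
            show g⁻¹ • v⁻¹ * a * g⁻¹ • v = (g⁻¹ • v⁻¹) * a * (g⁻¹ • v⁻¹)⁻¹ from by rw [smul_inv', inv_inv]]
          exact hmem _ }
    have h1 : (1 : N) ∉ X := by
      intro h
      obtain ⟨m, hm⟩ := hmem' _ h
      exact ha (conj_eq_one_iff.1 hm.symm)
    have hinv : ∀ l ∈ L, ∀ y ∈ X, l • y ∈ X := by
      intro l hl y hy
      obtain ⟨m, rfl⟩ := hmem' y hy
      obtain ⟨v, hv⟩ := hmem' _ hl
      rw [smul_mul', smul_mul', smul_inv', hv,
        show l • m * (v * a * v⁻¹) * (l • m)⁻¹ = (l • m * v) * a * (l • m * v)⁻¹ from by group]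
      exact hmem _
    have hle : ∀ y ∈ X, MulAction.stabilizer H y ≤ L := by
      intro y hy h hh
      obtain ⟨m, rfl⟩ := hmem' y hy
      rw [MulAction.mem_stabilizer_iff, smul_mul', smul_mul', smul_inv'] at hh
      show h • a ∈ X
      have : h • a = ((h • m)⁻¹ * m) * a * ((h • m)⁻¹ * m)⁻¹ := by
        rw [show ((h • m)⁻¹ * m) * a * ((h • m)⁻¹ * m)⁻¹ = (h • m)⁻¹ * (m * a * m⁻¹) * (h • m) from by group, ← hh]
        group
      rw [this]
      exact hmem _
    have hcard : Nat.card X ∣ Nat.card N := by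
      have h2 := MulAction.index_stabilizer (ConjAct N) a
      rw [Nat.card_coe_set_eq, ← h2]
      exact Subgroup.index_dvd_card _
    have hL : ∀ y ∈ X, L ≤ MulAction.stabilizer H y := by
      intro y hy
      obtain ⟨d1, d2⟩ := key hconst X L hinv h1 hle y hy
      have hy1 : y ≠ 1 := fun e => h1 (e ▸ hy)
      exact Subgroup.relIndex_eq_one.1 (Nat.eq_one_of_dvd_coprimes (hcop y hy1) d2 (d1.trans hcard))
    exact le_trans (hle a (by simpa using hmem 1)) (hL _ (hmem n))
  -- elements with distinct stabilisers commute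
  have hcomm' : ∀ a b : N, a ≠ 1 → b ≠ 1 → MulAction.stabilizer H a ≠ MulAction.stabilizer H b → a * b = b * a := by
    intro a b ha hb hne
    by_contra hc
    have hx : a * b * a⁻¹ * b⁻¹ ≠ 1 := by
      intro h
      exact hc (mul_inv_eq_iff_eq_mul.1 (eq_of_mul_inv_eq_one h))
    have h1 : MulAction.stabilizer H a ≤ MulAction.stabilizer H (a * b * a⁻¹ * b⁻¹) := by
      intro h hh
      have h2 := hclass a b ha hh
      rw [MulAction.mem_stabilizer_iff] at hh h2 ⊢
      rw [show a * b * a⁻¹ * b⁻¹ = a * (b * a * b⁻¹)⁻¹ from by group, smul_mul', smul_inv', hh, h2]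
    have h1' : MulAction.stabilizer H b ≤ MulAction.stabilizer H (a * b * a⁻¹ * b⁻¹) := by
      intro h hh
      have h2 := hclass b a hb hh
      rw [MulAction.mem_stabilizer_iff] at hh h2 ⊢
      rw [show a * b * a⁻¹ * b⁻¹ = (a * b * a⁻¹) * b⁻¹ from by group, smul_mul', smul_inv' h b, hh, h2]
    exact hne ((heq _ _ ha hx h1).trans (heq _ _ hb hx h1').symm)
  -- two distinct stabilisers exist
  have htwo : ∀ a : N, a ≠ 1 → ∃ b : N, b ≠ 1 ∧ MulAction.stabilizer H a ≠ MulAction.stabilizer H b := by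
    intro a ha
    by_contra hc
    push_neg at hc
    apply hK0
    rw [eq_bot_iff]
    intro h hh
    rw [Subgroup.mem_bot]
    refine hfaith h fun n => ?_
    by_cases hn : n = 1
    · rw [hn, smul_one]
    · have : h ∈ MulAction.stabilizer H n := by rw [← hc n hn, hc n0 hn0]; exact hh
      exact this
  have hab : ∀ a b : N, a * b = b * a := by
    intro a b
    by_cases ha : a = 1
    · simp [ha]
    by_cases hb : b = 1
    · simp [hb]
    by_cases hne : MulAction.stabilizer H a = MulAction.stabilizer H b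
    · obtain ⟨c, hc, hac⟩ := htwo a ha
      -- a commutes with c and with b * c
      have hcs : MulAction.stabilizer H a ≠ MulAction.stabilizer H (b * c) := by
        intro h
        apply hac
        refine heq _ _ ha hc fun g hg => ?_
        have hgb : g ∈ MulAction.stabilizer H b := hne ▸ hg
        have hgbc : g ∈ MulAction.stabilizer H (b * c) := h ▸ hg
        rw [MulAction.mem_stabilizer_iff] at hgb hgbc ⊢
        rw [smul_mul', hgb] at hgbc
        exact mul_left_cancel hgbc
      by_cases hbc : b * c = 1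
      · have : c = b⁻¹ := eq_inv_of_mul_eq_one_right hbc
        have h2 := hcomm' a c ha hc hac
        rw [this] at h2
        exact (Commute.inv_right_iff.1 h2 : Commute a b)
      · have h2 : Commute a (b * c) := hcomm' a (b * c) ha hbc hcs
        have h3 : Commute a c := hcomm' a c ha hc hac
        have := h2.mul_right h3.inv_right
        rwa [mul_inv_cancel_right] at this
    · exact hcomm' a b ha hb hne
  refine ⟨hab, fun I hI => ?_⟩
  by_contra hcon
  push_neg at hcon
  obtain ⟨hIb, hIt⟩ := hcon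
  obtain ⟨i0, hi0, hi01⟩ : ∃ i, i ∈ I ∧ i ≠ 1 := by
    by_contra hc
    push_neg at hc
    exact hIb (eq_bot_iff.2 fun i hi => Subgroup.mem_bot.2 (hc i hi))
  obtain ⟨m0, hm0⟩ : ∃ m, m ∉ I := by
    by_contra hc
    push_neg at hc
    exact hIt (eq_top_iff.2 fun m _ => hc m)
  have hout : ∀ n : N, n ∉ I → ∀ i ∈ I, MulAction.stabilizer H n ≤ MulAction.stabilizer H i := by
    intro n hn i hi
    let X : Set N := {y | n⁻¹ * y ∈ I}
    have hX1 : (1 : N) ∉ X := by
      intro h
      apply hn
      have : n⁻¹ * 1 ∈ I := h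
      rw [mul_one] at this
      simpa using I.inv_mem this
    let L : Subgroup H :=
      { carrier := {h | n⁻¹ * (h • n) ∈ I}
        one_mem' := by show n⁻¹ * ((1 : H) • n) ∈ I; rw [one_smul, inv_mul_cancel]; exact I.one_mem
        mul_mem' := fun {g h} hg hh => by
          show n⁻¹ * ((g * h) • n) ∈ I
          have : n⁻¹ * ((g * h) • n) = n⁻¹ * (g • n) * (g • (n⁻¹ * (h • n))) := by
            rw [mul_smul, smul_mul' g n⁻¹, smul_inv']
            group
          rw [this]
          exact I.mul_mem hg (hI g _ hh)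
        inv_mem' := fun {g} hg => by
          show n⁻¹ * (g⁻¹ • n) ∈ I
          have : n⁻¹ * (g⁻¹ • n) = (g⁻¹ • (n⁻¹ * (g • n)))⁻¹ := by
            rw [smul_mul', inv_smul_smul, smul_inv' g⁻¹ n, mul_inv_rev, inv_inv]
          rw [this]
          exact I.inv_mem (hI _ _ hg) }
    have hinv : ∀ l ∈ L, ∀ y ∈ X, l • y ∈ X := by
      intro l hl y hy
      show n⁻¹ * (l • y) ∈ I
      have : n⁻¹ * (l • y) = n⁻¹ * (l • n) * (l • (n⁻¹ * y)) := by
        rw [smul_mul' l n⁻¹, smul_inv']; group
      rw [this]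
      exact I.mul_mem hl (hI l _ hy)
    have hle : ∀ y ∈ X, MulAction.stabilizer H y ≤ L := by
      intro y hy h hh
      rw [MulAction.mem_stabilizer_iff] at hh
      show n⁻¹ * (h • n) ∈ I
      have : n⁻¹ * (h • n) = n⁻¹ * y * (h • (n⁻¹ * y))⁻¹ := by
        rw [smul_mul' h n⁻¹, smul_inv', hh]; group
      rw [this]
      exact I.mul_mem hy (I.inv_mem (hI h _ hy))
    have hcard : Nat.card X ∣ Nat.card N := by
      have e : X ≃ I :=
        { toFun := fun y => ⟨n⁻¹ * y, y.2⟩
          invFun := fun j => ⟨n * j, by show n⁻¹ * (n * j) ∈ I; rw [inv_mul_cancel_left]; exact j.2⟩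
          left_inv := fun y => Subtype.ext (mul_inv_cancel_left n y)
          right_inv := fun j => Subtype.ext (inv_mul_cancel_left n j) }
      rw [Nat.card_congr e]
      exact I.card_subgroup_dvd_card
    have hni : n * i ∈ X := by show n⁻¹ * (n * i) ∈ I; rw [inv_mul_cancel_left]; exact hi
    obtain ⟨d1, d2⟩ := key hconst X L hinv hX1 hle _ hni
    have hne : n * i ≠ 1 := fun e => hX1 (e ▸ hni)
    have hL := Subgroup.relIndex_eq_one.1 (Nat.eq_one_of_dvd_coprimes (hcop _ hne) d2 (d1.trans hcard))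
    intro h hh
    have hnX : n ∈ X := by show n⁻¹ * n ∈ I; rw [inv_mul_cancel]; exact I.one_mem
    have h2 := hL (hle n hnX hh)
    rw [MulAction.mem_stabilizer_iff] at hh h2 ⊢
    rw [smul_mul', hh] at h2
    exact mul_left_cancel h2
  have hn1 : ∀ n : N, n ∉ I → n ≠ 1 := fun n hn e => hn (e ▸ I.one_mem)
  have hall : ∀ x : N, x ≠ 1 → MulAction.stabilizer H x = MulAction.stabilizer H m0 := by
    intro x hx
    by_cases hxI : x ∈ I
    · exact (heq _ _ (hn1 _ hm0) hx (hout m0 hm0 x hxI)).symm
    · exact (heq _ _ (hn1 _ hxI) hi01 (hout x hxI i0 hi0)).trans (heq _ _ (hn1 _ hm0) hi01 (hout m0 hm0 i0 hi0)).symm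
  obtain ⟨b, hb, hne⟩ := htwo m0 (hn1 _ hm0)
  exact hne (hall b hb).symm

/-- Let G be a finite 3/2-transitive permutation group: G acts faithfully and transitively on a finite set, the point stabilizers are non-trivial, and for each point a all orbits of G_a on the remaining points have the same size. Suppose G has a regular normal subgroup N and G is not a Frobenius group (some two-point stabilizer is non-trivial). Then N is an elementary abelian p-group for some prime p, and every non-trivial normal subgroup of G contains N (so N is the unique minimal normal subgroup). -/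
theorem result {G Ω : Type*} [Group G] [Finite G]
    [MulAction G Ω] [FaithfulSMul G Ω] [Finite Ω] (htrans : MulAction.IsPretransitive G Ω)
    (hne : ∀ a : Ω, MulAction.stabilizer G a ≠ ⊥)
    (hhalf : ∀ a b c : Ω, b ≠ a → c ≠ a →
      Nat.card (MulAction.orbit (MulAction.stabilizer G a) b) = Nat.card (MulAction.orbit (MulAction.stabilizer G a) c))
    (N : Subgroup G) [hN : N.Normal] (hNt : MulAction.IsPretransitive N Ω) (hNr : ∀ a : Ω, MulAction.stabilizer N a = ⊥)
    (hnotF : ∃ a b : Ω, a ≠ b ∧ MulAction.stabilizer G a ⊓ MulAction.stabilizer G b ≠ ⊥) :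
    (∃ p : ℕ, p.Prime ∧ IsMulCommutative N ∧ ∀ x ∈ N, x ^ p = 1) ∧
    (∀ M : Subgroup G, M.Normal → M ≠ ⊥ → N ≤ M) := by
  classical
  obtain ⟨a0, b0, hab0, hstab0⟩ := hnotF
  have hsurj : ∀ b : Ω, ∃ n : N, (n : G) • a0 = b := fun b => hNt.exists_smul_eq a0 b
  have hinj : ∀ n m : N, (n : G) • a0 = (m : G) • a0 → n = m := by
    intro n m h
    have h1 : m⁻¹ * n ∈ MulAction.stabilizer N a0 := by
      rw [MulAction.mem_stabilizer_iff, mul_smul]
      show (m⁻¹ : N) • ((n : G) • a0) = a0
      rw [h]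
      exact inv_smul_smul m a0
    rw [hNr a0, Subgroup.mem_bot, inv_mul_eq_one] at h1
    exact h1.symm
  let H := MulAction.stabilizer G a0
  let φ : H →* MulAut N := (MulAut.conjNormal (H := N)).comp H.subtype
  letI act : MulDistribMulAction H N := MulDistribMulAction.compHom N φ
  have hcoe : ∀ (h : H) (n : N), ((h • n : N) : G) = (h : G) * n * (h : G)⁻¹ := fun h n => rfl
  have hbr : ∀ (h : H) (n : N), ((h • n : N) : G) • a0 = (h : G) • ((n : G) • a0) := by
    intro h n
    rw [hcoe, mul_smul, mul_smul]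
    have h2 : (h : G)⁻¹ • a0 = a0 := inv_smul_eq_iff.2 (MulAction.mem_stabilizer_iff.1 h.2).symm
    rw [h2]
  have hstabeq : ∀ n : N, MulAction.stabilizer H n = MulAction.stabilizer H ((n : G) • a0) := by
    intro n
    ext h
    rw [MulAction.mem_stabilizer_iff, MulAction.mem_stabilizer_iff]
    constructor
    · intro e
      show (h : G) • ((n : G) • a0) = _
      rw [← hbr, e]
    · intro e
      apply hinj
      rw [hbr]
      exact e
  have hne1 : ∀ n : N, n ≠ 1 → (n : G) • a0 ≠ a0 := by
    intro n hn h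
    exact hn (hinj n 1 (by rw [h, OneMemClass.coe_one, one_smul]))
  have hconst : ∀ n m : N, n ≠ 1 → m ≠ 1 →
      (MulAction.stabilizer H n).index = (MulAction.stabilizer H m).index := by
    intro n m hn hm
    rw [hstabeq n, hstabeq m, MulAction.index_stabilizer, MulAction.index_stabilizer, ← Nat.card_coe_set_eq, ← Nat.card_coe_set_eq]
    exact hhalf a0 _ _ (hne1 n hn) (hne1 m hm)
  have hfaith : ∀ h : H, (∀ n : N, h • n = n) → h = 1 := by
    intro h hh
    apply Subtype.ext
    refine eq_of_smul_eq_smul (α := Ω) fun b => ?_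
    obtain ⟨n, rfl⟩ := hsurj b
    rw [← hbr, hh, OneMemClass.coe_one, one_smul]
  have hnot : ∃ n : N, n ≠ 1 ∧ MulAction.stabilizer H n ≠ ⊥ := by
    obtain ⟨n, hn⟩ := hsurj b0
    refine ⟨n, ?_, ?_⟩
    · rintro rfl
      rw [OneMemClass.coe_one, one_smul] at hn
      exact hab0 hn
    · intro hb
      apply hstab0
      rw [eq_bot_iff]
      rintro g ⟨hg1, hg2⟩
      have hm : (⟨g, hg1⟩ : H) ∈ MulAction.stabilizer H n := by
        rw [hstabeq, MulAction.mem_stabilizer_iff, hn]
        exact hg2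
      rw [hb, Subgroup.mem_bot] at hm
      exact congrArg Subtype.val hm
  obtain ⟨hcomm, hirr⟩ := half_transitive_auto hfaith hconst hnot
  have hNne : ∃ n : N, n ≠ 1 := by obtain ⟨n, hn, -⟩ := hnot; exact ⟨n, hn⟩
  obtain ⟨n1, hn1⟩ := hNne
  refine ⟨?_, ?_⟩
  · set p := (orderOf n1).minFac
    have hord : orderOf n1 ≠ 1 := fun h => hn1 (orderOf_eq_one_iff.1 h)
    have hp : p.Prime := Nat.minFac_prime hord
    refine ⟨p, hp, ⟨⟨hcomm⟩⟩, ?_⟩
    let P : Subgroup N :=
      { carrier := {x | x ^ p = 1}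
        one_mem' := one_pow p
        mul_mem' := fun {x y} hx hy => by
          show (x * y) ^ p = 1
          rw [(show Commute x y from hcomm x y).mul_pow, hx, hy, one_mul]
        inv_mem' := fun {x} hx => by show x⁻¹ ^ p = 1; rw [inv_pow, hx, inv_one] }
    rcases hirr P (fun h x hx => by show (h • x) ^ p = 1; rw [← smul_pow', hx, smul_one]) with h | h
    · exfalso
      have hdvd : p ∣ orderOf n1 := Nat.minFac_dvd _
      have hm : n1 ^ (orderOf n1 / p) ∈ P := by
        show (n1 ^ (orderOf n1 / p)) ^ p = 1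
        rw [← pow_mul, Nat.div_mul_cancel hdvd, pow_orderOf_eq_one]
      rw [h, Subgroup.mem_bot] at hm
      have h2 := orderOf_dvd_of_pow_eq_one hm
      have h3 : 0 < orderOf n1 := orderOf_pos n1
      exact absurd (Nat.le_of_dvd (Nat.div_pos (Nat.le_of_dvd h3 hdvd) hp.pos) h2) (not_le.2 (Nat.div_lt_self h3 hp.one_lt))
    · intro x hx
      have : (⟨x, hx⟩ : N) ∈ P := h ▸ Subgroup.mem_top _
      exact congrArg Subtype.val (this : (⟨x, hx⟩ : N) ^ p = 1)
  · intro M hM hMne
    have hI : ∀ (h : H) (x : N), x ∈ M.subgroupOf N → h • x ∈ M.subgroupOf N := by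
      intro h x hx
      rw [Subgroup.mem_subgroupOf] at hx ⊢
      rw [hcoe]
      exact hM.conj_mem _ hx _
    rcases hirr (M.subgroupOf N) hI with h | h
    · exfalso
      apply hMne
      rw [eq_bot_iff]
      intro g hg
      have hcg : ∀ n : N, g * n = n * g := by
        intro n
        have h1 : g * n * g⁻¹ * (n : G)⁻¹ ∈ M := by
          rw [show g * n * g⁻¹ * (n : G)⁻¹ = g * ((n : G) * g⁻¹ * (n : G)⁻¹) from by group]
          exact M.mul_mem hg (hM.conj_mem _ (M.inv_mem hg) _)
        have h2 : g * n * g⁻¹ * (n : G)⁻¹ ∈ N := N.mul_mem (hN.conj_mem _ n.2 _) (N.inv_mem n.2)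
        have h3 : (⟨_, h2⟩ : N) ∈ M.subgroupOf N := Subgroup.mem_subgroupOf.2 h1
        rw [h, Subgroup.mem_bot] at h3
        exact mul_inv_eq_iff_eq_mul.1 (eq_of_mul_inv_eq_one (congrArg Subtype.val h3))
      obtain ⟨m, hm⟩ := hsurj (g • a0)
      have hgm : g = (m : G) := by
        refine eq_of_smul_eq_smul (α := Ω) fun b => ?_
        obtain ⟨n, rfl⟩ := hsurj b
        rw [← mul_smul, hcg, mul_smul, ← hm, ← mul_smul, ← mul_smul]
        exact congrArg (· • a0) (congrArg Subtype.val (hcomm n m))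
      subst hgm
      have h3 : m ∈ M.subgroupOf N := Subgroup.mem_subgroupOf.2 hg
      rw [h, Subgroup.mem_bot] at h3
      rw [h3]
      exact Subgroup.one_mem _
    · intro n hn
      have : (⟨n, hn⟩ : N) ∈ M.subgroupOf N := h ▸ Subgroup.mem_top _
      exact Subgroup.mem_subgroupOf.1 this

end Cfsg.Agent.S3356
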