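import Cfsg.Statements.S3357
import Cfsg.Agent.Lib.PermFpfLift
import Cfsg.Agent.Lib.CoreFrobenius

set_option autoImplicit false
open Cfsg

namespace Cfsg.Agent.S3357

/-- Let G be a finite group that occurs as a Frobenius complement. Then G has a faithful irreducible representation over an algebraic closure of the rationals in which no non-identity element of G has 1 as an eigenvalue: there are n ≥ 1 and an injective homomorphism ρ from G to GL(n) over that field, with no invariant subspace other than 0 and the whole space, such that for g ≠ 1 the only vector fixed by ρ(g) is 0. -/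
theorem result {G : Type*} [Group G] [Finite G]
    (hFC : ∃ (L : Type) (_ : Group L) (_ : Finite L) (H : Subgroup L), Cfsg.IsFrobeniusComplement H ∧ Nonempty (G ≃* H)) :
    ∃ (n : ℕ) (ρ : G →* GL (Fin n) (AlgebraicClosure ℚ)), 0 < n ∧ Function.Injective ρ ∧
      (∀ W : Submodule (AlgebraicClosure ℚ) (Fin n → AlgebraicClosure ℚ),
        (∀ g : G, ∀ w ∈ W, ((ρ g : GL (Fin n) (AlgebraicClosure ℚ)) : Matrix (Fin n) (Fin n) (AlgebraicClosure ℚ)).mulVec w ∈ W) → W = ⊥ ∨ W = ⊤) ∧
      ∀ g : G, g ≠ 1 → ∀ v : Fin n → AlgebraicClosure ℚ,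
        ((ρ g : GL (Fin n) (AlgebraicClosure ℚ)) : Matrix (Fin n) (Fin n) (AlgebraicClosure ℚ)).mulVec v = v → v = 0 := by
  classical
  haveI : Fintype G := Fintype.ofFinite G
  obtain ⟨w₀, hw₀, hfree₀⟩ : ∃ w : G → ℚ, w ≠ 0 ∧
      ∀ g : G, g ≠ 1 → ∀ x : G, ∑ k ∈ Finset.range (orderOf g), w (g ^ k * x) = 0 := by
    rcases subsingleton_or_nontrivial G with h | h
    · exact ⟨fun _ => 1, fun e => one_ne_zero (congrFun e 1), fun g hg => absurd (Subsingleton.elim g 1) hg⟩
    obtain ⟨L, _, _, H, hH, ⟨e⟩⟩ := hFC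
    obtain ⟨K, hK, -, hKH, hsup, -⟩ := CfsgLib.Core.exists_kernel hH
    haveI := hK
    haveI : Nontrivial K := (Subgroup.nontrivial_iff_ne_bot K).mpr fun h => hH.2.1 (by
      rwa [h, bot_sup_eq] at hsup)
    let σ : G →* MulAut K := (MulAut.conjNormal : L →* MulAut K).comp (H.subtype.comp e.toMonoidHom)
    obtain ⟨A, iR, iA, hA, ⟨R⟩⟩ := CfsgLib.FpfQuat.exists_fpfRep_of_aut σ fun g hg x hx => by
      have h1 : ((e g : H) : L) * x * ((e g : H) : L)⁻¹ = x := congrArg Subtype.val hx
      refine Subtype.ext ?_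
      by_cases hxH : (x : L) ∈ H
      · have h2 : (x : L) ∈ K ⊓ H := ⟨x.2, hxH⟩
        rwa [hKH, Subgroup.mem_bot] at h2
      · exfalso
        refine hg (e.injective (Subtype.ext ?_))
        rw [map_one]
        refine CfsgLib.Core.malnormal_of_isFrobeniusComplement hH (x : L) hxH _ (e g).2 ?_
        have h3 : (x : L) * (e g : H) * (x : L)⁻¹ = (e g : H) := by
          calc (x : L) * (e g : H) * (x : L)⁻¹
              = ((e g : H) : L) * x * ((e g : H) : L)⁻¹ * (e g : H) * (x : L)⁻¹ := by rw [h1]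
            _ = (e g : H) := by group
        rw [h3]
        exact (e g).2
    haveI := hA
    obtain ⟨φ, hφ⟩ : ∃ φ : Module.Dual ℚ A, φ 1 ≠ 0 := by
      by_contra hno
      push Not at hno
      exact one_ne_zero ((Module.forall_dual_apply_eq_zero_iff ℚ (1 : A)).1 hno)
    refine ⟨fun x => φ (R.ρ x), fun h => hφ (by simpa using congrFun h 1), fun g hg x => ?_⟩
    rw [← map_sum]
    simp only [map_mul, map_pow]
    rw [← Finset.sum_mul, R.sum_eq_zero g hg, zero_mul, map_zero]
  let S : Submodule (AlgebraicClosure ℚ) (G → AlgebraicClosure ℚ) :=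
    { carrier := {f | ∀ g : G, g ≠ 1 → ∀ x : G, ∑ k ∈ Finset.range (orderOf g), f (g ^ k * x) = 0}
      add_mem' := fun {a b} ha hb g hg x => by
        simp only [Pi.add_apply]; rw [Finset.sum_add_distrib, ha g hg x, hb g hg x, add_zero]
      zero_mem' := fun g _ x => Finset.sum_const_zero
      smul_mem' := fun c {a} ha g hg x => by
        simp only [Pi.smul_apply, smul_eq_mul]; rw [← Finset.mul_sum, ha g hg x, mul_zero] }
  have hmem : ∀ f, f ∈ S ↔ ∀ g : G, g ≠ 1 → ∀ x : G, ∑ k ∈ Finset.range (orderOf g), f (g ^ k * x) = 0 :=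
    fun f => Iff.rfl
  let τ : G →* Module.End (AlgebraicClosure ℚ) (G → AlgebraicClosure ℚ) :=
    { toFun := fun h => LinearMap.funLeft (AlgebraicClosure ℚ) (AlgebraicClosure ℚ) (fun x : G => x * h)
      map_one' := LinearMap.ext fun f => funext fun x => congrArg f (mul_one x)
      map_mul' := fun a b => LinearMap.ext fun f => funext fun x => congrArg f (mul_assoc x a b).symm }
  have hτ : ∀ (h : G) (f : G → AlgebraicClosure ℚ) (x : G), τ h f x = f (x * h) := fun _ _ _ => rfl
  have hSinv : ∀ h : G, ∀ f ∈ S, τ h f ∈ S := by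
    intro h f hf
    rw [hmem] at hf ⊢
    intro g hg x
    simp only [hτ, mul_assoc]
    exact hf g hg (x * h)
  have hS0 : S ≠ ⊥ := by
    intro e
    have : (fun x => (algebraMap ℚ (AlgebraicClosure ℚ)) (w₀ x)) ∈ S := (hmem _).2 fun g hg x => by
      rw [← map_sum, hfree₀ g hg x, map_zero]
    rw [e, Submodule.mem_bot] at this
    exact hw₀ (funext fun x => (algebraMap ℚ (AlgebraicClosure ℚ)).injective
      ((congrFun this x).trans (map_zero _).symm))
  obtain ⟨W, ⟨hWS, hW0, hWinv⟩, hWmin⟩ := WellFounded.has_min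
    (wellFounded_lt (α := Submodule (AlgebraicClosure ℚ) (G → AlgebraicClosure ℚ)))
    {W | W ≤ S ∧ W ≠ ⊥ ∧ ∀ h : G, ∀ f ∈ W, τ h f ∈ W} ⟨S, le_rfl, hS0, hSinv⟩
  have hfix : ∀ g : G, g ≠ 1 → ∀ f ∈ W, τ g f = f → f = 0 := by
    intro g hg f hf hgf
    funext x
    have hpow : ∀ k : ℕ, f (x * g ^ k) = f x := by
      intro k
      induction k with
      | zero => rw [pow_zero, mul_one]
      | succ k ih =>
        rw [pow_succ, ← mul_assoc]
        conv_lhs => rw [← hτ g f (x * g ^ k), hgf]
        exact ih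
    have h1 := (hmem f).1 (hWS hf) (x * g * x⁻¹) (fun e => hg (by simpa [mul_inv_eq_one] using e)) x
    have h2 : ∀ k : ℕ, f ((x * g * x⁻¹) ^ k * x) = f x := fun k => by
      rw [conj_pow, inv_mul_cancel_right, hpow]
    rw [Finset.sum_congr rfl (fun k _ => h2 k), Finset.sum_const, Finset.card_range, nsmul_eq_mul,
      mul_eq_zero] at h1
    exact h1.resolve_left (Nat.cast_ne_zero.2 (orderOf_pos _).ne')
  set n := Module.finrank (AlgebraicClosure ℚ) W
  let b := Module.finBasis (AlgebraicClosure ℚ) W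
  haveI : Nontrivial W := Submodule.nontrivial_iff_ne_bot.2 hW0
  let σW : G →* Module.End (AlgebraicClosure ℚ) W :=
    { toFun := fun h => (τ h).restrict (hWinv h)
      map_one' := LinearMap.ext fun f => Subtype.ext (by
        show τ 1 (f : G → AlgebraicClosure ℚ) = f
        rw [map_one]; rfl)
      map_mul' := fun a c => LinearMap.ext fun f => Subtype.ext (by
        show τ (a * c) (f : G → AlgebraicClosure ℚ) = τ a (τ c f)
        rw [map_mul]; rfl) }
  let ρ : G →* GL (Fin n) (AlgebraicClosure ℚ) :=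
    MonoidHom.toHomUnits ((LinearMap.toMatrixAlgEquiv b).toAlgHom.toRingHom.toMonoidHom.comp σW)
  have hρ : ∀ (g : G) (w : W),
      ((ρ g : GL (Fin n) (AlgebraicClosure ℚ)) : Matrix (Fin n) (Fin n) (AlgebraicClosure ℚ)).mulVec
        (b.equivFun w) = b.equivFun (σW g w) := fun g w => LinearMap.toMatrix_mulVec_repr b b (σW g) w
  refine ⟨n, ρ, Module.finrank_pos, ?_, ?_, ?_⟩
  · rw [injective_iff_map_eq_one]
    intro g hg
    by_contra hne
    obtain ⟨f, hf⟩ := exists_ne (0 : W)
    refine hf (Subtype.ext (hfix g hne f f.2 ?_))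
    have h := hρ g f
    rw [hg, Units.val_one, Matrix.one_mulVec] at h
    exact congrArg Subtype.val (b.equivFun.injective h).symm
  · intro U hU
    let U' : Submodule (AlgebraicClosure ℚ) (G → AlgebraicClosure ℚ) :=
      (U.comap b.equivFun.toLinearMap).map W.subtype
    by_cases h0 : U' = ⊥
    · left
      rw [Submodule.eq_bot_iff]
      intro v hv
      obtain ⟨w, rfl⟩ := b.equivFun.surjective v
      have : (w : G → AlgebraicClosure ℚ) ∈ U' := ⟨w, hv, rfl⟩
      rw [h0, Submodule.mem_bot] at this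
      rw [show w = 0 from Subtype.ext this, map_zero]
    · right
      have hU' : U' = W := by
        by_contra hne
        refine hWmin U' ⟨(Submodule.map_subtype_le _ _).trans hWS, h0, ?_⟩
          (lt_of_le_of_ne (Submodule.map_subtype_le _ _) hne)
        rintro h _ ⟨w, hw, rfl⟩
        refine ⟨σW h w, ?_, rfl⟩
        show b.equivFun (σW h w) ∈ U
        rw [← hρ]
        exact hU h _ hw
      rw [eq_top_iff]
      intro v _
      obtain ⟨w, rfl⟩ := b.equivFun.surjective v
      obtain ⟨w', hw', e⟩ : (w : G → AlgebraicClosure ℚ) ∈ U' := hU'.ge w.2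
      rwa [← show w' = w from Subtype.ext e]
  · intro g hg v hv
    obtain ⟨w, rfl⟩ := b.equivFun.surjective v
    rw [hρ] at hv
    have h := congrArg Subtype.val (b.equivFun.injective hv)
    rw [show w = 0 from Subtype.ext (hfix g hg w w.2 h), map_zero]

end Cfsg.Agent.S3357
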