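import Cfsg.Statements.S3358
import Cfsg.Agent.Lib.PermFpfComplement2
import Cfsg.Agent.Lib.CoreFrobenius
import Cfsg.Agent.Lib.PermFpfStructure

set_option autoImplicit false
open Cfsg

namespace Cfsg.Agent.S3358

/-- A fixed-point-free representation admits no Frobenius subgroup of order `p q`. -/
theorem FpfPQ.no_frobenius {X : Type*} [Group X] [Finite X] {A : Type*} [Ring A] [Algebra ℚ A] [Nontrivial A]
    (R : CfsgLib.FpfQuat.FpfRep X A) {p q : ℕ} [Fact p.Prime] [Fact q.Prime] {y b : X} (hy : orderOf y = q)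
    (hb : orderOf b = p) (hpq : p ≠ q) (hnorm : ∃ s : ℕ, b⁻¹ * y * b = y ^ s)
    (hfree : ∀ i : ℕ, i < q → i ≠ 0 → b * y ^ i ≠ y ^ i * b) : False := by
  classical
  have hp := (Fact.out : p.Prime)
  have hq := (Fact.out : q.Prime)
  haveI := Fintype.ofFinite X
  obtain ⟨s, hs⟩ := hnorm
  have hnorm' : ∀ (j : ℕ), ∀ z ∈ Subgroup.zpowers y, (b ^ j)⁻¹ * z * b ^ j ∈ Subgroup.zpowers y := by
    intro j
    induction j with
    | zero => intro z hz; simpa using hz
    | succ j ih =>
      intro z hz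
      rw [show (b ^ (j + 1))⁻¹ * z * b ^ (j + 1) = b⁻¹ * ((b ^ j)⁻¹ * z * b ^ j) * b by rw [pow_succ]; group]
      obtain ⟨k, hk⟩ := ih z hz
      have h := (conj_zpow (a := b⁻¹) (b := y) (i := k))
      rw [inv_inv, hs] at h
      rw [← show y ^ k = (b ^ j)⁻¹ * z * b ^ j from hk, ← h]
      exact zpow_mem (pow_mem (Subgroup.mem_zpowers y) s) k
  have hord : ∀ i, orderOf (y ^ i * b * (y ^ i)⁻¹) = p := fun i => by
    rw [← hb]; exact (MulAut.conj (y ^ i)).orderOf_eq b
  set S : A := ∑ j ∈ Finset.range p, ∑ i ∈ Finset.range q, R.ρ (b ^ j * y ^ i) with hS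
  have hy1 : y ≠ 1 := fun e => by rw [e, orderOf_one] at hy; exact hq.ne_one hy.symm
  have hS0 : S = 0 := by
    rw [hS]
    refine Finset.sum_eq_zero fun j _ => ?_
    simp only [map_mul, map_pow]
    rw [← Finset.mul_sum, ← hy, R.sum_eq_zero y hy1, mul_zero]
  -- disjointness
  have hdisj : ∀ j : ℕ, ¬ p ∣ j → ∀ i i', i < q → i' < q →
      (y ^ i * b * (y ^ i)⁻¹) ^ j = (y ^ i' * b * (y ^ i')⁻¹) ^ j → i = i' := by
    intro j hj i i' hi hi' he
    have hjb : ∃ t : ℕ, (b ^ j) ^ t = b := by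
      obtain ⟨t, ht⟩ := exists_pow_eq_self_of_coprime (x := b) (n := j)
        (by rw [hb]; exact (hp.coprime_iff_not_dvd.2 hj).symm)
      exact ⟨t, ht⟩
    obtain ⟨t, ht⟩ := hjb
    rw [conj_pow, conj_pow] at he
    have he2 := congrArg (fun z => z ^ t) he
    simp only [conj_pow, ht] at he2
    by_contra hne
    wlog hlt : i < i' generalizing i i'
    · exact this i' i hi' hi he.symm he2.symm (Ne.symm hne) (by omega)
    refine hfree (i' - i) (by omega) (by omega) ?_
    have e : y ^ i' = y ^ i * y ^ (i' - i) := by rw [← pow_add, Nat.add_sub_cancel' hlt.le]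
    rw [e] at he2
    have h3 : b = y ^ (i' - i) * b * (y ^ (i' - i))⁻¹ := by
      have := congrArg (fun z => (y ^ i)⁻¹ * z * y ^ i) he2
      simpa [mul_assoc] using this
    conv_lhs => rw [h3]
    group
  -- regroup the sum
  have hinjB : ∀ j j' i i', j < p → j' < p → i < q → i' < q → b ^ j * y ^ i = b ^ j' * y ^ i' → j = j' ∧ i = i' := by
    intro j j' i i' hj hj' hi hi' he
    have h1 : (b ^ j')⁻¹ * b ^ j = y ^ i' * (y ^ i)⁻¹ := by
      rw [eq_mul_inv_iff_mul_eq, mul_assoc, he, inv_mul_cancel_left]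
    have h2 : (b ^ j')⁻¹ * b ^ j = 1 := by
      rw [← orderOf_eq_one_iff]
      refine Nat.eq_one_of_dvd_coprimes ((Nat.coprime_primes hp hq).2 hpq) ?_ ?_
      · refine hb ▸ orderOf_dvd_of_mem_zpowers ?_
        exact mul_mem (inv_mem (pow_mem (Subgroup.mem_zpowers b) _)) (pow_mem (Subgroup.mem_zpowers b) _)
      · rw [h1]
        refine hy ▸ orderOf_dvd_of_mem_zpowers ?_
        exact mul_mem (pow_mem (Subgroup.mem_zpowers y) _) (inv_mem (pow_mem (Subgroup.mem_zpowers y) _))
    have hjj : j = j' := pow_injOn_Iio_orderOf (by simp [hb, hj]) (by simp [hb, hj']) (inv_mul_eq_one.1 h2).symm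
    refine ⟨hjj, pow_injOn_Iio_orderOf (x := y) (Set.mem_Iio.2 (hy.symm ▸ hi)) (Set.mem_Iio.2 (hy.symm ▸ hi')) ?_⟩
    subst hjj
    exact mul_left_cancel he
  have hrow : ∀ j ∈ (Finset.range p).erase 0,
      ∑ i ∈ Finset.range q, R.ρ (b ^ j * y ^ i) = ∑ i ∈ Finset.range q, R.ρ (y ^ i * b ^ j * (y ^ i)⁻¹) := by
    intro j hj
    obtain ⟨hj0, hjp⟩ := Finset.mem_erase.1 hj
    rw [Finset.mem_range] at hjp
    have hmem : ∀ i : ℕ, ∃ k, k < q ∧ y ^ i * b ^ j * (y ^ i)⁻¹ = b ^ j * y ^ k := by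
      intro i
      have h : (b ^ j)⁻¹ * y ^ i * b ^ j * (y ^ i)⁻¹ ∈ Subgroup.zpowers y :=
        mul_mem (hnorm' j _ (pow_mem (Subgroup.mem_zpowers y) i)) (inv_mem (pow_mem (Subgroup.mem_zpowers y) i))
      obtain ⟨k, hk⟩ := mem_powers_iff_mem_zpowers.2 h
      refine ⟨k % q, Nat.mod_lt _ hq.pos, ?_⟩
      rw [← hy, pow_mod_orderOf, show y ^ k = (b ^ j)⁻¹ * y ^ i * b ^ j * (y ^ i)⁻¹ from hk]
      group
    choose k hkq hk using hmem
    refine (Finset.sum_bij (fun i _ => k i) (fun i _ => Finset.mem_range.2 (hkq i)) ?_ ?_ (fun i _ => by rw [hk])).symm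
    · intro i hi i' hi' he
      refine hdisj j (fun h => hj0 (Nat.eq_zero_of_dvd_of_lt h hjp)) i i' (Finset.mem_range.1 hi) (Finset.mem_range.1 hi') ?_
      rw [conj_pow, conj_pow, hk, hk, he]
    · intro c hc
      obtain ⟨i, hi, he⟩ := Finset.surj_on_of_inj_on_of_card_le (s := Finset.range q) (t := Finset.range q)
        (fun i _ => k i) (fun i _ => Finset.mem_range.2 (hkq i)) (fun i i' hi hi' he =>
          hdisj j (fun h => hj0 (Nat.eq_zero_of_dvd_of_lt h hjp)) i i' (Finset.mem_range.1 hi) (Finset.mem_range.1 hi')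
            (by rw [conj_pow, conj_pow, hk, hk, show k i = k i' from he])) le_rfl c hc
      exact ⟨i, hi, he.symm⟩
  have h0 : (0 : ℕ) ∈ Finset.range p := Finset.mem_range.2 hp.pos
  rw [hS, ← Finset.add_sum_erase _ _ h0, Finset.sum_congr rfl hrow, Finset.sum_comm] at hS0
  simp only [pow_zero, one_mul, map_pow] at hS0
  rw [← hy, R.sum_eq_zero y hy1, zero_add] at hS0
  have hcol : ∀ i ∈ Finset.range (orderOf y),
      ∑ j ∈ (Finset.range p).erase 0, R.ρ (y ^ i * b ^ j * (y ^ i)⁻¹) = -1 := by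
    intro i _
    have h := R.sum_eq_zero (y ^ i * b * (y ^ i)⁻¹) (fun e => by
      have := hord i; rw [e, orderOf_one] at this; exact hp.ne_one this.symm)
    rw [hord i, ← Finset.add_sum_erase _ _ h0, pow_zero] at h
    rw [eq_neg_iff_add_eq_zero, add_comm]
    refine Eq.trans ?_ h
    congr 1
    exact Finset.sum_congr rfl fun j _ => by rw [← map_pow, conj_pow]
  rw [Finset.sum_congr rfl hcol, Finset.sum_const, Finset.card_range, hy, smul_neg, neg_eq_zero,
    nsmul_eq_mul, mul_one] at hS0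
  have : algebraMap ℚ A (q : ℚ) = 0 := by rw [map_natCast]; exact hS0
  rw [← map_zero (algebraMap ℚ A)] at this
  exact hq.ne_zero (by exact_mod_cast (algebraMap ℚ A).injective this)

set_option maxHeartbeats 1000000 in
/-- Structure of solvable Frobenius complements. Let G be a finite solvable group that occurs as a Frobenius complement. Then G has a normal subgroup G₀ such that G/G₀ is isomorphic to a subgroup of Sym(4) (G₀ is the kernel of a homomorphism to Sym(4)), all Sylow subgroups of G₀ are cyclic, and G₀ has a presentation ⟨x, y | x^n = 1, y^m = 1, x⁻¹ y x = y^r⟩ with n, m ≥ 1, gcd(r − 1, m) = gcd(n, m) = 1 and r^(n/n′) ≡ 1 (mod m), where n′ is the product of the distinct primes dividing n. -/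
theorem result {G : Type*} [Group G] [Finite G] (hsol : Group.IsSolvable G)
    (hFC : ∃ (L : Type) (_ : Group L) (_ : Finite L) (H : Subgroup L), Cfsg.IsFrobeniusComplement H ∧ Nonempty (G ≃* H)) :
    ∃ G₀ : Subgroup G, G₀.Normal ∧
      (∃ f : G →* Equiv.Perm (Fin 4), f.ker = G₀) ∧
      (∀ (p : ℕ) [Fact p.Prime] (P : Sylow p G₀), IsCyclic P) ∧
      ∃ n m r : ℕ, 0 < n ∧ 0 < m ∧ Nat.Coprime (r - 1) m ∧ Nat.Coprime n m ∧ 1 ≤ r ∧
        r ^ (n / ∏ p ∈ n.primeFactors, p) % m = 1 % m ∧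
        Nonempty (G₀ ≃* PresentedGroup
          ({FreeGroup.of (0 : Fin 2) ^ n, FreeGroup.of (1 : Fin 2) ^ m,
            (FreeGroup.of (0 : Fin 2))⁻¹ * FreeGroup.of 1 * FreeGroup.of 0 * (FreeGroup.of (1 : Fin 2) ^ r)⁻¹} :
            Set (FreeGroup (Fin 2)))) := by
  classical
  rcases subsingleton_or_nontrivial G with hss | hnt
  · refine ⟨⊤, inferInstance, ⟨1, MonoidHom.ker_one⟩, fun p _ P => inferInstance,
      1, 1, 1, one_pos, one_pos, by simp, by simp, le_rfl, by simp, ?_⟩
    haveI : Subsingleton (PresentedGroup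
          ({FreeGroup.of (0 : Fin 2) ^ 1, FreeGroup.of (1 : Fin 2) ^ 1,
            (FreeGroup.of (0 : Fin 2))⁻¹ * FreeGroup.of 1 * FreeGroup.of 0 * (FreeGroup.of (1 : Fin 2) ^ 1)⁻¹} :
            Set (FreeGroup (Fin 2)))) := by
      refine ⟨fun u v => ?_⟩
      suffices h : ∀ w : type_of% u, w = 1 by rw [h u, h v]
      intro u
      have hu : u ∈ Subgroup.closure (Set.range (PresentedGroup.of)) := by
        rw [PresentedGroup.closure_range_of]; trivial
      induction hu using Subgroup.closure_induction with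
      | mem z hz =>
        obtain ⟨i, rfl⟩ := hz
        have h := PresentedGroup.one_of_mem (rels := ({FreeGroup.of (0 : Fin 2) ^ 1, FreeGroup.of (1 : Fin 2) ^ 1,
            (FreeGroup.of (0 : Fin 2))⁻¹ * FreeGroup.of 1 * FreeGroup.of 0 * (FreeGroup.of (1 : Fin 2) ^ 1)⁻¹} :
            Set (FreeGroup (Fin 2)))) (x := FreeGroup.of i) (by fin_cases i <;> simp [pow_one])
        exact h
      | one => rfl
      | mul a b _ _ ha hb => rw [ha, hb, one_mul]
      | inv a _ ha => rw [ha, inv_one]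
    exact ⟨{ toFun := fun _ => 1, invFun := fun _ => 1, left_inv := fun _ => Subsingleton.elim _ _,
             right_inv := fun _ => Subsingleton.elim _ _, map_mul' := fun _ _ => Subsingleton.elim _ _ }⟩
  obtain ⟨L, _, _, H, hH, ⟨e⟩⟩ := hFC
  obtain ⟨K, hK, -, hKH, hsup, -⟩ := CfsgLib.Core.exists_kernel hH
  haveI := hK
  haveI : Nontrivial K := (Subgroup.nontrivial_iff_ne_bot K).mpr fun h => hH.2.1 (by
    rwa [h, bot_sup_eq] at hsup)
  let σ : G →* MulAut K := (MulAut.conjNormal : L →* MulAut K).comp (H.subtype.comp e.toMonoidHom)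
  obtain ⟨A, iR, iA, hA, ⟨R⟩⟩ := CfsgLib.FpfQuat.exists_fpfRep_of_aut σ fun g hg x hx => by
    have h1 : ((e g : H) : L) * x * ((e g : H) : L)⁻¹ = x := congrArg Subtype.val hx
    refine Subtype.ext ?_
    by_cases hxH : (x : L) ∈ H
    · have h2 : (x : L) ∈ K ⊓ H := ⟨x.2, hxH⟩
      rwa [hKH, Subgroup.mem_bot] at h2
    · exfalso
      refine hg (e.injective (Subtype.ext ?_))
      rw [map_one]
      refine CfsgLib.Core.malnormal_of_isFrobeniusComplement hH (x : L) hxH _ (e g).2 ?_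
      have h3 : (x : L) * (e g : H) * (x : L)⁻¹ = (e g : H) := by
        calc (x : L) * (e g : H) * (x : L)⁻¹
            = ((e g : H) : L) * x * ((e g : H) : L)⁻¹ * (e g : H) * (x : L)⁻¹ := by rw [h1]
          _ = (e g : H) := by group
      rw [h3]
      exact (e g).2
  obtain ⟨N, hN, hNZ, hNg⟩ := CfsgLib.FpfQuat.exists_good R
  haveI := hN
  haveI := hNZ
  haveI := hA
  refine ⟨N, hN, ?_, fun p _ P => inferInstance, ?_⟩
  · have hno5 : ¬ Group.IsSolvable (Equiv.Perm (Fin 5)) := Equiv.Perm.fin_5_not_solvable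
    rcases hNg with h | ⟨f, -, hf⟩ | ⟨f, -, hf⟩ | ⟨f, -, hf⟩ | ⟨f, hs, -⟩ | ⟨f, hs, -⟩
    · exact ⟨1, MonoidHom.ker_one.trans h.symm⟩
    · obtain ⟨eq⟩ : Nonempty (DihedralGroup 2 ≃ Fin 4) := ⟨Fintype.equivFinOfCardEq (by rw [DihedralGroup.card])⟩
      refine ⟨(eq.permCongrHom.toMonoidHom.comp (MulAction.toPermHom (DihedralGroup 2) (DihedralGroup 2))).comp f, ?_⟩
      rw [← hf]
      ext z
      simp only [MonoidHom.mem_ker, MonoidHom.comp_apply]
      constructor
      · intro hz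
        have h2 : MulAction.toPermHom (DihedralGroup 2) (DihedralGroup 2) (f z) = 1 :=
          eq.permCongrHom.injective (hz.trans (map_one _).symm)
        simpa using Equiv.congr_fun h2 1
      · intro hz; rw [hz, map_one, map_one]
    · refine ⟨(alternatingGroup (Fin 4)).subtype.comp f, ?_⟩
      rw [← hf]
      ext z
      simp [MonoidHom.mem_ker]
    · exact ⟨f, hf⟩
    · exfalso
      haveI : Group.IsSolvable (alternatingGroup (Fin 5)) := Group.isSolvable_of_surjective hs
      exact hno5 (Group.isSolvable_of_ker_le_range (alternatingGroup (Fin 5)).subtype Equiv.Perm.sign (by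
        rw [Subgroup.range_subtype]; exact fun z hz => Equiv.Perm.mem_alternatingGroup.2 hz))
    · exact absurd (Group.isSolvable_of_surjective hs) hno5
  -- the presentation
  set D := commutator N with hD
  haveI : IsCyclic D := IsZGroup.isCyclic_commutator _
  have hcop : Nat.Coprime (Nat.card D) D.index := IsZGroup.coprime_commutator_index _
  haveI : IsCyclic (N ⧸ D) := IsZGroup.isCyclic_abelianization
  obtain ⟨C, hC⟩ := Subgroup.exists_right_complement'_of_coprime hcop
  obtain ⟨y, hy⟩ := IsCyclic.exists_generator (α := D)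
  haveI : IsCyclic C := isCyclic_of_surjective (hC.symm.QuotientMulEquiv).toMonoidHom
    (hC.symm.QuotientMulEquiv).surjective
  obtain ⟨x, hx⟩ := IsCyclic.exists_generator (α := C)
  set n := orderOf x
  set m := orderOf y
  have hn : n = D.index := by
    rw [hC.symm.index_eq_card]; exact orderOf_eq_card_of_forall_mem_zpowers hx
  have hm : m = Nat.card D := orderOf_eq_card_of_forall_mem_zpowers hy
  have hnm : Nat.Coprime n m := by rw [hn, hm]; exact hcop.symm
  obtain ⟨r, hr1, hr⟩ : ∃ r : ℕ, 1 ≤ r ∧ (x : N)⁻¹ * (y : N) * x = (y : N) ^ r := by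
    obtain ⟨k, hk⟩ := (mem_powers_iff_mem_zpowers (x := y) (y := ⟨(x : N)⁻¹ * y * x, by
      simpa using (inferInstance : D.Normal).conj_mem _ y.2 (x : N)⁻¹⟩)).2 (hy _)
    refine ⟨k + m, by have := orderOf_pos y; omega, ?_⟩
    have h := congrArg Subtype.val hk
    simp only [SubgroupClass.coe_pow] at h
    rw [pow_add, show (y : N) ^ m = 1 by rw [← SubgroupClass.coe_pow, pow_orderOf_eq_one, Subgroup.coe_one],
      mul_one, h]
  have hmy : orderOf (y : N) = m := Subgroup.orderOf_coe y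
  have hnx : orderOf (x : N) = n := Subgroup.orderOf_coe x
  have hgen : ∀ z : N, ∃ i j : ℤ, z = (x : N) ^ i * (y : N) ^ j := by
    intro z
    obtain ⟨d, c, rfl⟩ : ∃ (d : D) (c : C), z = c * d := by
      obtain ⟨⟨c, d⟩, h⟩ := hC.symm.2 z
      exact ⟨d, c, h.symm⟩
    obtain ⟨i, rfl⟩ := hx c
    obtain ⟨j, rfl⟩ := hy d
    exact ⟨i, j, by simp⟩
  have hr1' : Nat.Coprime (r - 1) m := by
    set B := Subgroup.zpowers ((y : N) ^ (r - 1)) with hB
    have hBD : B ≤ D := by rw [hB, Subgroup.zpowers_le]; exact pow_mem y.2 _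
    haveI : B.Normal := by
      refine ⟨fun b hb g => ?_⟩
      obtain ⟨i, rfl⟩ := hb
      obtain ⟨t, ht⟩ := hy ⟨g * (y : N) * g⁻¹, (inferInstance : D.Normal).conj_mem _ y.2 g⟩
      have ht' : (y : N) ^ t = g * (y : N) * g⁻¹ := by simpa using congrArg Subtype.val ht
      refine ⟨i * t, ?_⟩
      show ((y : N) ^ (r - 1)) ^ (i * t) = g * ((y : N) ^ (r - 1)) ^ i * g⁻¹
      rw [← conj_zpow, ← conj_pow, ← ht', ← zpow_natCast ((y : N) ^ t), ← zpow_natCast (y : N),
        ← zpow_mul, ← zpow_mul, ← zpow_mul]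
      congr 1; ring
    have hcomm : ∀ a b : N ⧸ B, a * b = b * a := by
      have hxy : Commute (QuotientGroup.mk' B (x : N)) (QuotientGroup.mk' B (y : N)) := by
        have h : QuotientGroup.mk' B ((y : N) ^ (r - 1)) = 1 :=
          (QuotientGroup.eq_one_iff _).2 (Subgroup.mem_zpowers _)
        have h2 := congrArg (QuotientGroup.mk' B) hr
        rw [show r = (r - 1) + 1 by omega, pow_succ] at h2
        simp only [map_mul, map_inv, h, one_mul] at h2
        show _ * _ = _ * _
        rw [mul_assoc, inv_mul_eq_iff_eq_mul] at h2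
        exact h2.symm
      intro a b
      obtain ⟨a, rfl⟩ := QuotientGroup.mk'_surjective B a
      obtain ⟨b, rfl⟩ := QuotientGroup.mk'_surjective B b
      obtain ⟨i, j, rfl⟩ := hgen a
      obtain ⟨i', j', rfl⟩ := hgen b
      simp only [map_mul, map_zpow]
      have h1 : Commute ((QuotientGroup.mk' B (x : N)) ^ i) ((QuotientGroup.mk' B (x : N)) ^ i') :=
        (Commute.refl _).zpow_zpow _ _
      have h2 : Commute ((QuotientGroup.mk' B (y : N)) ^ j) ((QuotientGroup.mk' B (y : N)) ^ j') :=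
        (Commute.refl _).zpow_zpow _ _
      exact ((h1.mul_right (hxy.zpow_zpow _ _)).mul_left ((hxy.symm.zpow_zpow _ _).mul_right h2)).eq
    have hle : D ≤ B := by
      rw [hD, commutator_def, Subgroup.commutator_le]
      intro a _ b _
      rw [← QuotientGroup.eq_one_iff, ← QuotientGroup.mk'_apply, map_commutatorElement,
        commutatorElement_eq_one_iff_mul_comm]
      exact hcomm _ _
    have h1 : orderOf ((y : N) ^ (r - 1)) = m := by
      rw [← Nat.card_zpowers, ← hB, le_antisymm hBD hle, hm]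
    rw [orderOf_pow, hmy] at h1
    rw [Nat.coprime_comm, Nat.coprime_iff_gcd_eq_one]
    exact (Nat.div_eq_self.1 h1).resolve_left (orderOf_pos y).ne'
  -- elements of prime order in `C` centralise `D`
  have hprime : ∀ p : ℕ, p.Prime → p ∣ n → (r ^ (n / p)) % m = 1 % m := by
    intro p hp hpn
    haveI := Fact.mk hp
    set b : N := (x : N) ^ (n / p) with hb
    have hbo : orderOf b = p := by
      rw [hb, orderOf_pow, hnx, Nat.gcd_eq_right (Nat.div_dvd_of_dvd hpn), Nat.div_div_self hpn (orderOf_pos x).ne']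
    have hconj : ∀ k : ℕ, ((x : N) ^ k)⁻¹ * (y : N) * (x : N) ^ k = (y : N) ^ (r ^ k) := by
      intro k
      induction k with
      | zero => simp
      | succ k ih =>
        rw [pow_succ, mul_inv_rev]
        calc (x : N)⁻¹ * ((x : N) ^ k)⁻¹ * y * ((x : N) ^ k * x) = (x : N)⁻¹ * (((x : N) ^ k)⁻¹ * y * (x : N) ^ k) * x := by group
          _ = (x : N)⁻¹ * (y : N) ^ (r ^ k) * x := by rw [ih]
          _ = ((x : N)⁻¹ * (y : N) * x) ^ (r ^ k) := by
            have := (conj_pow (a := (x : N)⁻¹) (b := (y : N)) (i := r ^ k))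
            simpa using this.symm
          _ = (y : N) ^ (r ^ (k + 1)) := by rw [hr, ← pow_mul, pow_succ, mul_comm]
    set s := r ^ (n / p) with hs
    have hbs : b⁻¹ * (y : N) * b = (y : N) ^ s := hconj _
    -- prime parts
    have hq : ∀ q : ℕ, q.Prime → q ∣ m → (q : ℤ) ∣ (s : ℤ) - 1 := by
      intro q hq hqm
      haveI := Fact.mk hq
      have hpq : p ≠ q := fun e => hq.ne_one (Nat.eq_one_of_dvd_coprimes hnm (e ▸ hpn) hqm)
      set y₁ : N := (y : N) ^ (m / q) with hy₁
      have hy₁o : orderOf y₁ = q := by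
        rw [hy₁, orderOf_pow, hmy, Nat.gcd_eq_right (Nat.div_dvd_of_dvd hqm), Nat.div_div_self hqm (orderOf_pos y).ne']
      have hb₁ : b⁻¹ * y₁ * b = y₁ ^ s := by
        have := (conj_pow (a := b⁻¹) (b := (y : N)) (i := m / q))
        rw [inv_inv] at this
        rw [hy₁, ← this, hbs, ← pow_mul, ← pow_mul, mul_comm]
      by_contra hne
      have hfree : ∀ i : ℕ, i < q → i ≠ 0 → b * y₁ ^ i ≠ y₁ ^ i * b := by
        intro i hi hi0 he
        have h1 : (y₁ ^ i) ^ s = y₁ ^ i := by
          rw [← pow_mul, mul_comm, pow_mul, ← hb₁]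
          have := (conj_pow (a := b⁻¹) (b := y₁) (i := i))
          rw [inv_inv] at this
          rw [this, mul_assoc, ← he, inv_mul_cancel_left]
        have h2 : ((s : ℤ) - 1) * i % q = 0 := by
          have h3 : y₁ ^ (((s : ℤ) - 1) * i) = 1 := by
            rw [sub_mul, one_mul, zpow_sub, ← Nat.cast_mul, zpow_natCast, zpow_natCast, mul_comm, pow_mul, h1,
              mul_inv_cancel]
          rw [← orderOf_dvd_iff_zpow_eq_one, hy₁o] at h3
          exact Int.emod_eq_zero_of_dvd h3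
        rcases (Nat.prime_iff_prime_int.1 hq).dvd_or_dvd (Int.dvd_of_emod_eq_zero h2) with h | h
        · exact hne h
        · exact absurd (Nat.le_of_dvd (by omega) (Int.natCast_dvd_natCast.1 h)) (by omega)
      exact FpfPQ.no_frobenius (R.restrict N) hy₁o hbo hpq ⟨s, hb₁⟩ hfree
    have hbp : (y : N) ^ (s ^ p) = (y : N) := by
      rw [hs, ← pow_mul, Nat.div_mul_cancel hpn, ← hconj n, ← hnx, pow_orderOf_eq_one]; group
    have hsp : (m : ℤ) ∣ (s : ℤ) ^ p - 1 := by
      rw [← hmy, orderOf_dvd_iff_zpow_eq_one, zpow_sub, zpow_one, ← Nat.cast_pow, zpow_natCast, hbp, mul_inv_cancel]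
    have hgeom : ((s : ℤ) - 1) * ∑ i ∈ Finset.range p, (s : ℤ) ^ i = (s : ℤ) ^ p - 1 := mul_geom_sum _ _
    rw [← hgeom] at hsp
    have hco : IsCoprime (m : ℤ) (∑ i ∈ Finset.range p, (s : ℤ) ^ i) := by
      rw [Int.isCoprime_iff_gcd_eq_one]
      by_contra hg
      obtain ⟨q, hq', hqg⟩ := Nat.exists_prime_and_dvd hg
      have hqm : q ∣ m := by
        have := hqg.trans (Int.gcd_dvd_natAbs_left (m : ℤ) _)
        simpa using this
      haveI := Fact.mk hq'
      have h1 : ((s : ℤ) : ZMod q) = 1 := by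
        have := hq q hq' hqm
        rw [← ZMod.intCast_zmod_eq_zero_iff_dvd, Int.cast_sub, Int.cast_one, sub_eq_zero] at this
        exact this
      have h2 : ((∑ i ∈ Finset.range p, (s : ℤ) ^ i : ℤ) : ZMod q) = 0 := by
        rw [ZMod.intCast_zmod_eq_zero_iff_dvd]
        exact Int.natCast_dvd.2 (hqg.trans (Int.gcd_dvd_natAbs_right _ _))
      rw [Int.cast_sum] at h2
      simp only [Int.cast_pow, h1, one_pow, Finset.sum_const, Finset.card_range, nsmul_eq_mul, mul_one] at h2
      rw [ZMod.natCast_eq_zero_iff] at h2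
      exact hq'.ne_one (Nat.eq_one_of_dvd_coprimes hnm (h2.trans hpn) hqm)
    have := hco.dvd_of_dvd_mul_right hsp
    exact ((Nat.modEq_iff_dvd).2 (by push_cast; exact this)).symm
  refine ⟨n, m, r, orderOf_pos x, orderOf_pos y, hr1', hnm, hr1, ?_, ?_⟩
  · have hroot : (r : ZMod m) ^ (n / ∏ p ∈ n.primeFactors, p) = 1 := by
      have hd : ∀ p ∈ n.primeFactors, orderOf (r : ZMod m) ∣ n / p := fun p hp => by
        refine orderOf_dvd_of_pow_eq_one ?_
        have h := hprime p (Nat.prime_of_mem_primeFactors hp) (Nat.dvd_of_mem_primeFactors hp)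
        rw [← Nat.cast_pow, ← Nat.cast_one, ZMod.natCast_eq_natCast_iff']
        exact h
      rw [← orderOf_dvd_iff_pow_eq_one]
      by_cases hn1 : n.primeFactors = ∅
      · rw [hn1, Finset.prod_empty, Nat.div_one]
        refine orderOf_dvd_of_pow_eq_one ?_
        have : n = 1 := by
          rcases Nat.primeFactors_eq_empty.1 hn1 with h | h
          · exact absurd h (orderOf_pos x).ne'
          · exact h
        have h1 := hr
        rw [show (x : N) = 1 from orderOf_eq_one_iff.1 (hnx.trans this)] at h1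
        have h2 : (y : N) ^ r = (y : N) ^ 1 := by rw [pow_one, ← h1]; group
        rw [this, pow_one]
        rw [pow_eq_pow_iff_modEq, hmy] at h2
        rw [← Nat.cast_one, ZMod.natCast_eq_natCast_iff']
        exact h2
      obtain ⟨p₀, hp₀⟩ := Finset.nonempty_iff_ne_empty.2 hn1
      obtain ⟨c, hc⟩ : orderOf (r : ZMod m) ∣ n :=
        (hd p₀ hp₀).trans (Nat.div_dvd_of_dvd (Nat.dvd_of_mem_primeFactors hp₀))
      have hdc : (∏ p ∈ n.primeFactors, p) ∣ c := Finset.prod_primes_dvd c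
        (fun p hp => (Nat.prime_of_mem_primeFactors hp).prime) fun p hp => by
          obtain ⟨t, ht⟩ := hd p hp
          have h0 : n = p * (n / p) := (Nat.mul_div_cancel' (Nat.dvd_of_mem_primeFactors hp)).symm
          refine ⟨t, Nat.eq_of_mul_eq_mul_left (n := orderOf (r : ZMod m)) ?_ ?_⟩
          · rcases Nat.eq_zero_or_pos (orderOf (r : ZMod m)) with h | h
            · exact absurd (hc.trans (by rw [h, zero_mul])) (orderOf_pos x).ne'
            · exact h
          · rw [← hc, h0, ht]; ring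
      refine Nat.dvd_div_of_mul_dvd ?_
      exact (mul_comm _ _).dvd.trans ((mul_dvd_mul_left _ hdc).trans hc.symm.dvd)
    have := hroot
    rw [← Nat.cast_pow, ← Nat.cast_one, ZMod.natCast_eq_natCast_iff'] at this
    exact this
  -- the isomorphism
  set rels : Set (FreeGroup (Fin 2)) := {FreeGroup.of (0 : Fin 2) ^ n, FreeGroup.of (1 : Fin 2) ^ m,
    (FreeGroup.of (0 : Fin 2))⁻¹ * FreeGroup.of 1 * FreeGroup.of 0 * (FreeGroup.of (1 : Fin 2) ^ r)⁻¹} with hrels
  have hφ : ∀ w ∈ rels, FreeGroup.lift ![(x : N), (y : N)] w = 1 := by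
    intro w hw
    simp only [hrels, Set.mem_insert_iff, Set.mem_singleton_iff] at hw
    rcases hw with rfl | rfl | rfl
    · rw [map_pow, FreeGroup.lift_apply_of]; exact hnx ▸ pow_orderOf_eq_one _
    · rw [map_pow, FreeGroup.lift_apply_of]; exact hmy ▸ pow_orderOf_eq_one _
    · simp [hr]
  let φ : PresentedGroup rels →* N := PresentedGroup.toGroup hφ
  let a : PresentedGroup rels := PresentedGroup.of 0
  let b : PresentedGroup rels := PresentedGroup.of 1
  have hφa : φ a = x := by simp [φ, a]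
  have hφb : φ b = y := by simp [φ, b]
  have han : a ^ n = 1 := PresentedGroup.one_of_mem (x := FreeGroup.of (0 : Fin 2) ^ n) (by simp [hrels])
  have hbm : b ^ m = 1 := PresentedGroup.one_of_mem (x := FreeGroup.of (1 : Fin 2) ^ m) (by simp [hrels])
  have hab : a⁻¹ * b * a = b ^ r := mul_inv_eq_one.1 (PresentedGroup.one_of_mem
    (x := (FreeGroup.of (0 : Fin 2))⁻¹ * FreeGroup.of 1 * FreeGroup.of 0 * (FreeGroup.of (1 : Fin 2) ^ r)⁻¹)
    (by simp [hrels]))
  have hnorm : ∀ z ∈ Subgroup.zpowers b, a⁻¹ * z * a ∈ Subgroup.zpowers b := by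
    rintro z ⟨k, rfl⟩
    have := (conj_zpow (i := k) (a := a⁻¹) (b := b))
    rw [inv_inv, hab] at this
    rw [← this]
    exact zpow_mem (pow_mem (Subgroup.mem_zpowers b) r) k
  have hnorm' : ∀ k : ℕ, ∀ z ∈ Subgroup.zpowers b, (a ^ k)⁻¹ * z * a ^ k ∈ Subgroup.zpowers b := by
    intro k
    induction k with
    | zero => intro z hz; simpa using hz
    | succ k ih =>
      intro z hz
      rw [show (a ^ (k + 1))⁻¹ * z * a ^ (k + 1) = a⁻¹ * ((a ^ k)⁻¹ * z * a ^ k) * a by rw [pow_succ]; group]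
      exact hnorm _ (ih z hz)
  have hform : ∀ u : PresentedGroup rels, ∃ i : ℕ, (a ^ i)⁻¹ * u ∈ Subgroup.zpowers b := by
    intro u
    have hu : u ∈ Subgroup.closure (Set.range (PresentedGroup.of (rels := rels))) := by
      rw [PresentedGroup.closure_range_of]; trivial
    induction hu using Subgroup.closure_induction with
    | mem z hz =>
      obtain ⟨i, rfl⟩ := hz
      fin_cases i
      · exact ⟨1, by simp [a]⟩
      · exact ⟨0, by simp [b]⟩
    | one => exact ⟨0, by simp⟩
    | mul u v _ _ hu hv =>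
      obtain ⟨i, hi⟩ := hu
      obtain ⟨j, hj⟩ := hv
      refine ⟨i + j, ?_⟩
      rw [show (a ^ (i + j))⁻¹ * (u * v) = ((a ^ j)⁻¹ * ((a ^ i)⁻¹ * u) * a ^ j) * ((a ^ j)⁻¹ * v) by
        rw [pow_add]; group]
      exact mul_mem (hnorm' j _ hi) hj
    | inv u _ hu =>
      obtain ⟨i, hi⟩ := hu
      refine ⟨i * (n - 1), ?_⟩
      have hai : a ^ (i * (n - 1)) = (a ^ i)⁻¹ := by
        refine eq_inv_of_mul_eq_one_left ?_
        have : i * (n - 1) + i = n * i := by
          obtain ⟨k, hk⟩ : ∃ k, n = k + 1 := ⟨n - 1, by have := orderOf_pos x; omega⟩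
          rw [hk]; simp; ring
        rw [← pow_add, this, pow_mul, han, one_pow]
      have h := hnorm' (i * (n - 1)) _ (inv_mem hi)
      rw [hai] at h ⊢
      simpa [mul_assoc] using h
  have hinj : Function.Injective φ := by
    rw [injective_iff_map_eq_one]
    intro u hu
    obtain ⟨i, k, hk⟩ := hform u
    have hu' : u = a ^ i * b ^ k := by
      have hk' : b ^ k = (a ^ i)⁻¹ * u := hk
      rw [hk', mul_inv_cancel_left]
    rw [hu', map_mul, map_pow, map_zpow, hφa, hφb] at hu
    have h1 : (x : N) ^ i ∈ C ⊓ D := ⟨C.pow_mem x.2 i, by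
      rw [mul_eq_one_iff_eq_inv.1 hu]; exact D.inv_mem (D.zpow_mem y.2 k)⟩
    rw [hC.symm.disjoint.eq_bot, Subgroup.mem_bot] at h1
    rw [h1, one_mul] at hu
    obtain ⟨c, rfl⟩ : n ∣ i := hnx ▸ orderOf_dvd_of_pow_eq_one h1
    obtain ⟨c', rfl⟩ : (m : ℤ) ∣ k := hmy ▸ orderOf_dvd_iff_zpow_eq_one.2 hu
    rw [hu', pow_mul, han, one_pow, one_mul, zpow_mul, zpow_natCast, hbm, one_zpow]
  have hsurj : Function.Surjective φ := fun z => by
    obtain ⟨i, j, rfl⟩ := hgen z
    exact ⟨a ^ i * b ^ j, by rw [map_mul, map_zpow, map_zpow, hφa, hφb]⟩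
  exact ⟨(MulEquiv.ofBijective φ ⟨hinj, hsurj⟩).symm⟩

end Cfsg.Agent.S3358
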