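import Cfsg.Statements.S3359
import Cfsg.Agent.Lib.PermFpfStructure
import Cfsg.Agent.Lib.CoreFrobenius

set_option autoImplicit false
open Cfsg

namespace Cfsg.Agent.S3359

open CfsgLib.FpfQuat

/-- Structure of non-solvable Frobenius complements. Let G be a finite non-solvable group that occurs as a Frobenius complement. Then G has a normal subgroup G₀ of index 1 or 2 which is the direct product of a subgroup isomorphic to SL(2,5) and a subgroup M of order prime to 30 all of whose Sylow subgroups are cyclic. -/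
theorem result {G : Type*} [Group G] [Finite G] (hns : ¬ Group.IsSolvable G)
    (hFC : ∃ (L : Type) (_ : Group L) (_ : Finite L) (H : Subgroup L), Cfsg.IsFrobeniusComplement H ∧ Nonempty (G ≃* H)) :
    ∃ G₀ : Subgroup G, G₀.Normal ∧ (G₀.index = 1 ∨ G₀.index = 2) ∧
      ∃ S M : Subgroup G, S ⊔ M = G₀ ∧ S ⊓ M = ⊥ ∧ (∀ s ∈ S, ∀ x ∈ M, s * x = x * s) ∧
        Nonempty (S ≃* Matrix.SpecialLinearGroup (Fin 2) (ZMod 5)) ∧
        (∀ (p : ℕ) [Fact p.Prime] (P : Sylow p M), IsCyclic P) ∧ (Nat.card M).Coprime 30 := by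
  obtain ⟨L, _, _, H, hH, ⟨e⟩⟩ := hFC
  obtain ⟨K, hK, -, hKH, hsup, -⟩ := CfsgLib.Core.exists_kernel hH
  haveI := hK
  haveI : Nontrivial G := by
    by_contra h
    rw [not_nontrivial_iff_subsingleton] at h
    exact hns inferInstance
  haveI : Nontrivial K := (Subgroup.nontrivial_iff_ne_bot K).mpr fun h => hH.2.1 (by
    rwa [h, bot_sup_eq] at hsup)
  let σ : G →* MulAut K := (MulAut.conjNormal : L →* MulAut K).comp (H.subtype.comp e.toMonoidHom)
  obtain ⟨A, iR, iA, hA, ⟨R⟩⟩ := exists_fpfRep_of_aut σ fun g hg x hx => by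
    have h1 : ((e g : H) : L) * x * ((e g : H) : L)⁻¹ = x := congrArg Subtype.val hx
    refine Subtype.ext ?_
    by_cases hxH : (x : L) ∈ H
    · have h2 : (x : L) ∈ K ⊓ H := ⟨x.2, hxH⟩
      rwa [hKH, Subgroup.mem_bot] at h2
    · exfalso
      refine hg (e.injective (Subtype.ext ?_))
      rw [map_one]
      refine CfsgLib.Core.malnormal_of_isFrobeniusComplement hH (x : L) hxH _ (e g).2 ?_
      have h3 : (x : L) * (e g : H) * (x : L)⁻¹ = (e g : H) := by
        calc (x : L) * (e g : H) * (x : L)⁻¹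
            = ((e g : H) : L) * x * ((e g : H) : L)⁻¹ * (e g : H) * (x : L)⁻¹ := by rw [h1]
          _ = (e g : H) := by group
      rw [h3]
      exact (e g).2
  obtain ⟨S, M, hN, hidx, hdisj, hcomm, hS, hM, hcop⟩ := nonsolvable_structure R hns
  exact ⟨S ⊔ M, hN, hidx, S, M, rfl, hdisj, hcomm, hS,
    fun p hp P => hM.isZGroup p hp.out P, hcop⟩

end Cfsg.Agent.S3359
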