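import Cfsg.Statements.S3361
import Cfsg.Agent.Lib.PermRegularSemilinear
import Cfsg.Agent.S0688

set_option autoImplicit false
open Cfsg

namespace Cfsg.Agent.S3361

open CfsgLib.FpfQuat

/-- Let q be a prime and V a non-trivial finite vector space over the field with q elements, and let G be a finite solvable group acting faithfully and linearly on V and regularly on the non-zero vectors (transitively, with only the identity fixing a non-zero vector). Then either V can be identified with the additive group of a finite field F so that every element of G acts as x ↦ a·σ(x) (a ∈ F, σ a field automorphism), or V has 5^2, 7^2, 11^2 or 23^2 elements. Moreover, if q ≠ 2 then G has a normal subgroup of index 2, except that when V has 25 elements G may be isomorphic to SL(2,3) and when V has 121 elements G may be isomorphic to SL(2,3) × C₅. -/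
theorem result
    (q : ℕ) [Fact q.Prime] {V : Type*} [AddCommGroup V] [Module (ZMod q) V] [Finite V] [Nontrivial V]
    {G : Type*} [Group G] [Finite G] (hsol : Group.IsSolvable G)
    (ρ : G →* (V ≃ₗ[ZMod q] V)) (hρ : Function.Injective ρ)
    (htrans : ∀ v w : V, v ≠ 0 → w ≠ 0 → ∃ g : G, ρ g v = w)
    (hreg : ∀ v : V, v ≠ 0 → ∀ g : G, ρ g v = v → g = 1) :
    ((∃ (F : Type) (_ : Field F) (_ : Fintype F) (e : V ≃+ F),
        ∀ g : G, ∃ (a : F) (σ : F ≃+* F), ∀ v : V, e (ρ g v) = a * σ (e v)) ∨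
      Nat.card V ∈ ({25, 49, 121, 529} : Set ℕ)) ∧
    (q ≠ 2 → (∃ N : Subgroup G, N.Normal ∧ N.index = 2) ∨
      (Nat.card V = 25 ∧ Nonempty (G ≃* Matrix.SpecialLinearGroup (Fin 2) (ZMod 3))) ∨
      (Nat.card V = 121 ∧ Nonempty (G ≃* Matrix.SpecialLinearGroup (Fin 2) (ZMod 3) × Multiplicative (ZMod 5)))) := by
  classical
  haveI := hsol
  have hregH : ∀ v w : V, v ≠ 0 → w ≠ 0 → ∃! h : ρ.range, (h : V ≃ₗ[ZMod q] V) v = w := by
    intro v w hv hw
    obtain ⟨g, hg⟩ := htrans v w hv hw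
    refine ⟨⟨ρ g, g, rfl⟩, hg, ?_⟩
    rintro ⟨_, k, rfl⟩ hk
    refine Subtype.ext ?_
    have h1 : g⁻¹ * k = 1 := hreg v hv _ (by
      rw [map_mul]
      show ρ g⁻¹ (ρ k v) = v
      rw [show ρ k v = w from hk, ← hg]
      show (ρ g⁻¹ * ρ g) v = v
      rw [← map_mul, inv_mul_cancel, map_one]; rfl)
    exact congrArg ρ (inv_mul_eq_one.mp h1).symm
  by_cases hI : ∀ A : Subgroup ρ.range, A.Normal → IsCyclic A → ∃ W : Submodule (ZMod q) V, W ≠ ⊥ ∧ W ≠ ⊤ ∧
      ∀ a ∈ A, ∀ v ∈ W, ((a : ρ.range) : V ≃ₗ[ZMod q] V) v ∈ W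
  · haveI : Group.IsSolvable ρ.range := solvable_of_surjective (f := ρ.rangeRestrict) ρ.rangeRestrict_surjective
    have hV := Cfsg.Agent.S0688.result ρ.range hregH hI inferInstance
    refine ⟨Or.inr (by simpa using hV), fun _ => ?_⟩
    have hG : Nat.card G = Nat.card V - 1 := by
      rw [Nat.card_congr (MonoidHom.ofInjective hρ).toEquiv]
      exact CfsgLib.LinearRegular.card_eq_pred ρ.range hregH
    obtain ⟨A, iR, iA, hA, ⟨R⟩⟩ := exists_fpfRep_linear ρ fun g hg x hx => by
      by_contra hx0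
      exact hg (hreg x hx0 g hx)
    rcases exceptional_orders R (by omega) with h | ⟨hc, h⟩ | ⟨hc, h⟩
    · exact Or.inl h
    · exact Or.inr (Or.inl ⟨by omega, h⟩)
    · exact Or.inr (Or.inr ⟨by omega, h⟩)
  push Not at hI
  obtain ⟨A, hAn, hAc, hirr⟩ := hI
  haveI := hAn
  haveI := hAc
  letI : CommGroup A := IsCyclic.commGroup
  set B := A.comap ρ.rangeRestrict
  have hcomm : ∀ a ∈ B, ∀ b ∈ B, a * b = b * a := by
    intro a ha b hb
    refine hρ ?_
    have h : (⟨ρ.rangeRestrict a, ha⟩ : A) * ⟨ρ.rangeRestrict b, hb⟩ =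
        (⟨ρ.rangeRestrict b, hb⟩ : A) * ⟨ρ.rangeRestrict a, ha⟩ := mul_comm _ _
    rw [map_mul, map_mul]
    exact congrArg (fun x : A => ((x : ρ.range) : V ≃ₗ[ZMod q] V)) h
  obtain ⟨F, iF, iFt, e, hchar, hsl⟩ := CfsgLib.FieldModel.exists_semilinear ρ B hcomm fun W hW => by
    by_contra hc
    push Not at hc
    obtain ⟨a, ha, v, hv, hnot⟩ := hirr W hc.1 hc.2
    obtain ⟨g, hg⟩ := ρ.rangeRestrict_surjective a
    subst hg
    exact hnot (hW g ha v hv)
  refine ⟨Or.inl ⟨F, iF, iFt, e, hsl⟩, fun hq => Or.inl ?_⟩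
  exact CfsgLib.FieldModel.hasIndexTwo_semilinear (by rw [hchar]; exact hq) e (fun g v => ρ g v)
    (fun v => by rw [map_one]; rfl) (fun g h v => by rw [map_mul]; rfl) hsl htrans

end Cfsg.Agent.S3361
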