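import Cfsg.Statements.S3370
import Cfsg.Agent.S0016

set_option autoImplicit false
open Cfsg

namespace Cfsg.Agent.S3370

lemma pow_odd_mod {x M : ℕ} (h : x * x ≡ 1 [MOD M]) {n : ℕ} (hn : Odd n) : x ^ n ≡ x [MOD M] := by
  obtain ⟨t, rfl⟩ := hn
  have h2 := (h.pow t).mul_right x
  rw [one_pow, one_mul] at h2
  rwa [pow_succ, pow_mul, pow_two]

lemma two_pow_eq_of_mod {k n : ℕ} (h : 2 ^ n ≡ 2 ^ k [MOD 2 ^ (k + 1)]) : n ≤ k := by
  by_contra hc
  have h1 : 2 ^ (k + 1) ∣ 2 ^ n := pow_dvd_pow 2 (by omega)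
  have h2 : 2 ^ k ≡ 0 [MOD 2 ^ (k + 1)] := h.symm.trans ((Nat.modEq_zero_iff_dvd).2 h1)
  have h3 := Nat.le_of_dvd (pow_pos two_pos k) (Nat.modEq_zero_iff_dvd.1 h2)
  exact absurd h3 (not_le.2 (Nat.pow_lt_pow_right one_lt_two (Nat.lt_succ_self k)))

lemma mersenne_power {p a n : ℕ} (hp : p.Prime) (hp2 : p ≠ 2) (ha : a ≠ 0) (h : 2 ^ n = p ^ a + 1) : a = 1 := by
  have hpo : Odd p := hp.odd_of_ne_two hp2
  have h2p : 3 ≤ p := by have := hp.two_le; omega
  have hpa : p ≤ p ^ a := Nat.le_self_pow ha p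
  have haodd : Odd a := by
    by_contra he
    obtain ⟨b, rfl⟩ := Nat.not_odd_iff_even.1 he
    obtain ⟨c, rfl⟩ := hpo
    have h4 : 4 ∣ 2 ^ n := by
      rw [show (4 : ℕ) = 2 ^ 2 from rfl]
      refine pow_dvd_pow 2 ?_
      by_contra hc
      interval_cases n <;> omega
    have h5 : (2 * c + 1) ^ (b + b) % 4 = 1 := by
      have e : (2 * c + 1) * (2 * c + 1) % 4 = 1 := by
        rw [show (2 * c + 1) * (2 * c + 1) = 4 * (c * c + c) + 1 from by ring]
        omega
      rw [← two_mul, pow_mul, pow_two, Nat.pow_mod, e, one_pow, Nat.one_mod]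
    omega
  -- p + 1 is a power of two
  have hdvd : p + 1 ∣ 2 ^ n := by
    rw [h]
    have := Odd.nat_add_dvd_pow_add_pow p 1 haodd
    rwa [one_pow] at this
  obtain ⟨k, -, hk⟩ := (Nat.dvd_prime_pow Nat.prime_two).1 hdvd
  have hsq : p * p ≡ 1 [MOD 2 ^ (k + 1)] := by
    refine ((Nat.modEq_iff_dvd' (by nlinarith)).2 ?_).symm
    obtain ⟨c, hc⟩ := hpo
    refine ⟨c, ?_⟩
    rw [pow_succ, ← hk, hc]
    refine Nat.sub_eq_of_eq_add ?_
    ring
  have h1 : 2 ^ n ≡ 2 ^ k [MOD 2 ^ (k + 1)] := by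
    rw [h, ← hk]
    exact (pow_odd_mod (hsq) haodd).add_right 1
  have hnk := two_pow_eq_of_mod h1
  have : 2 ^ n ≤ 2 ^ k := Nat.pow_le_pow_right two_pos hnk
  rw [h, ← hk] at this
  have h6 : p ^ a ≤ p ^ 1 := by rw [pow_one]; omega
  have := (Nat.pow_le_pow_iff_right hp.one_lt).1 h6
  omega

lemma fermat_power {q a n : ℕ} (hq : q.Prime) (hn : 2 ≤ n) (h : q ^ n = 2 ^ a + 1) : q = 3 ∧ n = 2 := by
  rcases Nat.even_or_odd n with ⟨b, rfl⟩ | hodd
  · obtain ⟨i, -, hi⟩ := (Nat.dvd_prime_pow Nat.prime_two).1 (show q ^ b - 1 ∣ 2 ^ a from ⟨q ^ b + 1, by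
      have h1 : 1 ≤ q ^ b := Nat.one_le_pow _ _ hq.pos
      rw [mul_comm, ← Nat.sq_sub_sq, one_pow, ← pow_mul, mul_two, h, Nat.add_sub_cancel]⟩)
    obtain ⟨j, -, hj⟩ := (Nat.dvd_prime_pow Nat.prime_two).1 (show q ^ b + 1 ∣ 2 ^ a from ⟨q ^ b - 1, by
      rw [← Nat.sq_sub_sq, one_pow, ← pow_mul, mul_two, h, Nat.add_sub_cancel]⟩)
    have h1 : 2 ≤ q ^ b := by
      have := Nat.one_lt_pow (show b ≠ 0 by omega) hq.one_lt
      omega
    have hi0 : i = 1 ∨ i = 0 := by
      by_contra hc
      have d1 : 4 ∣ 2 ^ i := by rw [show (4 : ℕ) = 2 ^ 2 from rfl]; exact pow_dvd_pow 2 (by omega)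
      have hij : i ≤ j := (Nat.pow_le_pow_iff_right one_lt_two).1 (by omega)
      have d2 : 4 ∣ 2 ^ j := d1.trans (pow_dvd_pow 2 hij)
      omega
    rcases hi0 with rfl | rfl
    · have h3 : q ^ b = 3 := by omega
      have hq3 : q = 3 := (Nat.prime_dvd_prime_iff_eq hq Nat.prime_three).1 (h3 ▸ dvd_pow_self q (by omega))
      subst hq3
      have hb : b = 1 := by
        have : 3 ^ b = 3 ^ 1 := by rw [h3, pow_one]
        exact Nat.pow_right_injective (le_refl 2 |>.trans (by norm_num)) this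
      exact ⟨rfl, by omega⟩
    · exfalso
      have h3 : 2 ^ j = 3 := by rw [pow_zero] at hi; omega
      rcases j with _ | j
      · norm_num at h3
      · rw [pow_succ] at h3; omega
  · exfalso
    have hd : q - 1 ∣ 2 ^ a := by
      have := Nat.sub_dvd_pow_sub_pow q 1 n
      rwa [one_pow, h, Nat.add_sub_cancel] at this
    obtain ⟨k, -, hk⟩ := (Nat.dvd_prime_pow Nat.prime_two).1 hd
    have hq1 := hq.two_le
    have hsq : q * q ≡ 1 [MOD 2 ^ (k + 1)] := by
      refine ((Nat.modEq_iff_dvd' (by nlinarith)).2 ?_).symm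
      rcases k with _ | k
      · have : q = 2 := by rw [pow_zero] at hk; omega
        subst this
        exfalso
        have e : 2 ∣ 2 ^ n := dvd_pow_self 2 (by omega)
        rcases a with _ | a
        · rw [pow_zero] at h
          have : 2 ^ 1 < 2 ^ n := Nat.pow_lt_pow_right one_lt_two (by omega)
          omega
        · have e2 : 2 ∣ 2 ^ (a + 1) := dvd_pow_self 2 (by omega)
          omega
      · refine ⟨2 ^ k + 1, ?_⟩
        refine Nat.sub_eq_of_eq_add ?_
        rw [show q = 2 ^ (k + 1) + 1 from by omega]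
        ring
    have h1 : 2 ^ a + 1 ≡ 2 ^ k + 1 [MOD 2 ^ (k + 1)] := by
      rw [← h, ← hk, Nat.sub_add_cancel (by omega : 1 ≤ q)]
      exact pow_odd_mod hsq hodd
    have hak := two_pow_eq_of_mod (Nat.ModEq.add_right_cancel' 1 h1)
    have h7 : 2 ^ a ≤ 2 ^ k := Nat.pow_le_pow_right two_pos hak
    have h8 : q ^ 2 ≤ q ^ n := Nat.pow_le_pow_right hq.pos hn
    have hqq : q * q ≤ q := by rw [← pow_two]; omega
    nlinarith

lemma qd_sylow {P : Subgroup (GL (Fin 2) (ZMod 3))} (hP : Nat.card P = 16) : Cfsg.IsQuasiDihedral P := by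
  classical
  let X : GL (Fin 2) (ZMod 3) := ⟨!![1, 1; 1, 0], !![0, 1; 1, 2], by decide +kernel, by decide +kernel⟩
  let Y : GL (Fin 2) (ZMod 3) := ⟨!![2, 1; 0, 1], !![2, 1; 0, 1], by decide +kernel, by decide +kernel⟩
  haveI : Fact (Nat.Prime 2) := ⟨Nat.prime_two⟩
  have hX : orderOf X = 2 ^ (2 + 1) := orderOf_eq_prime_pow (by
    intro h; have := congrArg Units.val h; revert this; decide +kernel) (Units.ext (by decide +kernel))
  have hY : orderOf Y = 2 := orderOf_eq_prime (Units.ext (by decide +kernel)) (by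
    intro h; have := congrArg Units.val h; revert this; decide +kernel)
  have hconj : Y * X * Y⁻¹ = X ^ 3 := Units.ext (by decide +kernel)
  have hne : (Y : Matrix (Fin 2) (Fin 2) (ZMod 3)) * X ≠ X * Y := by decide +kernel
  haveI : Fact (Nat.Prime 3) := ⟨Nat.prime_three⟩
  have hcard : Nat.card (GL (Fin 2) (ZMod 3)) = 48 := by
    rw [Matrix.card_GL_field]; simp [Fin.prod_univ_two]
  have hYn : Subgroup.zpowers Y ≤ Subgroup.normalizer (Subgroup.zpowers X : Set (GL (Fin 2) (ZMod 3))) := by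
    have hf : ∀ z ∈ Subgroup.zpowers X, Y * z * Y⁻¹ ∈ Subgroup.zpowers X := by
      rintro _ ⟨i, rfl⟩
      show Y * X ^ i * Y⁻¹ ∈ Subgroup.zpowers X
      rw [← conj_zpow, hconj]
      exact Subgroup.zpow_mem _ (Subgroup.pow_mem _ (Subgroup.mem_zpowers X) 3) i
    have hY2 : Y ^ 2 = 1 := by have := pow_orderOf_eq_one Y; rwa [hY] at this
    have hYY : Y⁻¹ = Y := inv_eq_of_mul_eq_one_right (by rw [← pow_two]; exact hY2)
    rw [Subgroup.zpowers_le, Subgroup.mem_normalizer_iff]
    refine fun z => ⟨hf z, fun hz => ?_⟩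
    have := hf _ hz
    rwa [show Y * (Y * z * Y⁻¹) * Y⁻¹ = (Y * Y) * z * (Y * Y)⁻¹ from by group, ← pow_two, hY2, one_mul, inv_one, mul_one] at this
  set S := Subgroup.zpowers Y ⊔ Subgroup.zpowers X
  have hXp : IsPGroup 2 (Subgroup.zpowers X) := IsPGroup.iff_card.2 ⟨3, by rw [Nat.card_zpowers, hX]⟩
  have hYp : IsPGroup 2 (Subgroup.zpowers Y) := IsPGroup.iff_card.2 ⟨1, by rw [Nat.card_zpowers, hY, pow_one]⟩
  have hS : IsPGroup 2 S := hYp.to_sup_of_normal_right' hXp hYn
  have hSc : Nat.card S = 16 := by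
    obtain ⟨e, he⟩ := IsPGroup.iff_card.1 hS
    have hd : 2 ^ e ∣ 48 := by rw [← he, ← hcard]; exact Subgroup.card_subgroup_dvd_card S
    have h8 : 8 < Nat.card S := by
      have hlt : Subgroup.zpowers X < S := by
        refine lt_of_le_of_ne le_sup_right fun e => ?_
        have hYX : Y ∈ Subgroup.zpowers X := by rw [e]; exact Subgroup.mem_sup_left (Subgroup.mem_zpowers Y)
        obtain ⟨i, hi⟩ := hYX
        have hc : Y * X = X * Y := by
          rw [← hi]; exact ((Commute.refl X).zpow_left i).eq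
        exact hne (congrArg Units.val hc)
      have h1 := Set.ncard_lt_ncard hlt (Set.toFinite _)
      rw [← Nat.card_coe_set_eq, ← Nat.card_coe_set_eq] at h1
      have h2 : Nat.card (Subgroup.zpowers X) = 8 := by rw [Nat.card_zpowers, hX]; rfl
      exact h2 ▸ h1
    have he4 : e = 4 := by
      have : e < 5 := by
        by_contra hc
        have h32 : 2 ^ 5 ∣ 48 := (pow_dvd_pow 2 (by omega : 5 ≤ e)).trans hd
        norm_num at h32
      rw [he] at h8
      interval_cases e <;> first | rfl | norm_num at h8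
    rw [he, he4]
    norm_num
  have hf : ∀ Q : Subgroup (GL (Fin 2) (ZMod 3)), Nat.card Q = 16 → Nat.card Q = 2 ^ (Nat.card (GL (Fin 2) (ZMod 3))).factorization 2 := by
    intro Q hQ
    rw [hQ, hcard, show (48 : ℕ) = 2 ^ 4 * 3 from rfl, Nat.factorization_mul (by norm_num) (by norm_num), Finsupp.add_apply,
      Nat.Prime.factorization_pow Nat.prime_two, Nat.Prime.factorization Nat.prime_three]
    simp
  let sP := Sylow.ofCard P (hf P hP)
  let sS := Sylow.ofCard S (hf S hSc)
  have e : S ≃* P := Sylow.equiv sS sP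
  refine ⟨3, le_refl 3, hP, e ⟨X, Subgroup.mem_sup_right (Subgroup.mem_zpowers X)⟩, e ⟨Y, Subgroup.mem_sup_left (Subgroup.mem_zpowers Y)⟩, ?_, ?_, ?_⟩
  · rw [e.orderOf_eq, ← Subgroup.orderOf_coe]; exact hX
  · rw [e.orderOf_eq, ← Subgroup.orderOf_coe]; exact hY
  · rw [← map_inv, ← map_mul, ← map_mul, ← map_pow]
    exact congrArg e (Subtype.ext hconj)

/-- Let q be a prime, V a non-trivial finite vector space over the field with q elements, and G a non-trivial finite p-group (p prime) acting faithfully and linearly on V and transitively on the non-zero vectors. Then either q = 2 and G has prime order p = |V| − 1; or p = 2, V has q elements with q = 2^m + 1 and G is cyclic of order 2^m; or p = 2, q = 3, V has 9 elements and G is cyclic of order 8, quaternion of order 8, or semidihedral of order 16. -/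
theorem result (q : ℕ) [Fact q.Prime] {V : Type*} [AddCommGroup V] [Module (ZMod q) V] [Finite V] [Nontrivial V]
    {G : Type*} [Group G] [Finite G] [Nontrivial G] (p : ℕ) [Fact p.Prime] (hG : IsPGroup p G)
    (ρ : G →* (V ≃ₗ[ZMod q] V)) (hρ : Function.Injective ρ)
    (htrans : ∀ v w : V, v ≠ 0 → w ≠ 0 → ∃ g : G, ρ g v = w) :
    (q = 2 ∧ p = Nat.card V - 1 ∧ Nat.card G = p) ∨
    (p = 2 ∧ Nat.card V = q ∧ (∃ m : ℕ, q = 2 ^ m + 1 ∧ Nat.card G = 2 ^ m) ∧ IsCyclic G) ∨
    (p = 2 ∧ q = 3 ∧ Nat.card V = 9 ∧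
      ((IsCyclic G ∧ Nat.card G = 8) ∨ Nonempty (G ≃* QuaternionGroup 2) ∨ (Cfsg.IsQuasiDihedral G ∧ Nat.card G = 16))) := by
  classical
  have hq : q.Prime := Fact.out
  have hp : p.Prime := Fact.out
  haveI : Module.Finite (ZMod q) V := Module.Finite.of_finite
  set n := Module.finrank (ZMod q) V
  have hV : Nat.card V = q ^ n := by
    rw [Module.natCard_eq_pow_finrank (K := ZMod q), Nat.card_zmod]
  have hn : n ≠ 0 := by
    intro h
    rw [h, pow_zero] at hV
    exact absurd hV (Finite.one_lt_card (α := V)).ne'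
  obtain ⟨v0, hv0⟩ := exists_ne (0 : V)
  let W := {v : V // v ≠ 0}
  letI : MulAction G W :=
    { smul := fun g w => ⟨ρ g w, fun h => w.2 ((ρ g).map_eq_zero_iff.1 h)⟩
      one_smul := fun w => Subtype.ext (by show ρ 1 (w : V) = w; rw [map_one]; rfl)
      mul_smul := fun g h w => Subtype.ext (by show ρ (g * h) (w : V) = ρ g (ρ h w); rw [map_mul]; rfl) }
  haveI : MulAction.IsPretransitive G W := ⟨fun u w => (htrans u w u.2 w.2).imp fun g hg => Subtype.ext hg⟩
  have hW : Nat.card W = q ^ n - 1 := by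
    rw [← hV, show Nat.card W = Nat.card ({(0 : V)}ᶜ : Set V) from rfl, Nat.card_coe_set_eq, Set.ncard_compl, Set.ncard_singleton]
  obtain ⟨b, hb⟩ := IsPGroup.iff_card.1 hG
  have hidx := MulAction.index_stabilizer_of_transitive G (⟨v0, hv0⟩ : W)
  rw [hW] at hidx
  obtain ⟨a, hab, ha⟩ := (Nat.dvd_prime_pow hp).1 (hb ▸ (hidx ▸ Subgroup.index_dvd_card _) : q ^ n - 1 ∣ p ^ b)
  have hqn : 1 ≤ q ^ n := Nat.one_le_pow _ _ hq.pos
  have hfree : Nat.card G = q ^ n - 1 → ∀ (g : G) (v : V), v ≠ 0 → ρ g v = v → g = 1 := by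
    intro hc g v hv hgv
    have hidx' := MulAction.index_stabilizer_of_transitive G (⟨v, hv⟩ : W)
    rw [hW, ← hc] at hidx'
    have h1 := (MulAction.stabilizer G (⟨v, hv⟩ : W)).index_mul_card
    rw [hidx'] at h1
    have h2 : Nat.card (MulAction.stabilizer G (⟨v, hv⟩ : W)) = 1 :=
      Nat.eq_of_mul_eq_mul_left Nat.card_pos (h1.trans (mul_one _).symm)
    rw [Subgroup.card_eq_one] at h2
    have h3 : g ∈ MulAction.stabilizer G (⟨v, hv⟩ : W) := Subtype.ext hgv
    rwa [h2, Subgroup.mem_bot] at h3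
  by_cases hq2 : q = 2
  · left
    have hp2 : p ≠ 2 := by
      intro h2
      subst h2
      subst hq2
      rcases a with _ | a
      · have h2n : 2 ^ n = 2 := by rw [pow_zero] at ha; omega
        have hVc : Nat.card V = 2 := hV.trans h2n
        obtain ⟨g, hg⟩ := exists_ne (1 : G)
        apply hg
        apply hρ
        rw [map_one]
        ext v
        show ρ g v = v
        by_cases hv : v = 0
        · rw [hv, map_zero]
        · have hall : ∀ x : V, x ≠ 0 → x = v := by
            intro x hx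
            by_contra hne
            have h3 : ({0, v, x} : Set V).ncard = 3 := Set.ncard_eq_three.2 ⟨0, v, x, Ne.symm hv, Ne.symm hx, Ne.symm hne, rfl⟩
            have h4 := Set.ncard_le_ncard (Set.subset_univ ({0, v, x} : Set V)) (Set.toFinite _)
            rw [Set.ncard_univ, h3, hVc] at h4
            omega
          exact hall _ (fun h => hv ((ρ g).map_eq_zero_iff.1 h))
      · have e1 : 2 ∣ 2 ^ n := dvd_pow_self 2 hn
        have e2 : 2 ∣ 2 ^ (a + 1) := dvd_pow_self 2 (by omega)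
        omega
    subst hq2
    have ha0 : a ≠ 0 := by
      intro h
      rw [h, pow_zero] at ha
      have h2n : 2 ^ n = 2 := by omega
      have hVc : Nat.card V = 2 := hV.trans h2n
      obtain ⟨g, hg⟩ := exists_ne (1 : G)
      apply hg
      apply hρ
      rw [map_one]
      ext v
      show ρ g v = v
      by_cases hv : v = 0
      · rw [hv, map_zero]
      · by_contra hne
        have hx : ρ g v ≠ 0 := fun h => hv ((ρ g).map_eq_zero_iff.1 h)
        have h3 : ({0, v, ρ g v} : Set V).ncard = 3 := Set.ncard_eq_three.2 ⟨0, v, _, Ne.symm hv, Ne.symm hx, Ne.symm hne, rfl⟩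
        have h4 := Set.ncard_le_ncard (Set.subset_univ ({0, v, ρ g v} : Set V)) (Set.toFinite _)
        rw [Set.ncard_univ, h3, hVc] at h4
        omega
    have ha1 : a = 1 := mersenne_power hp hp2 ha0 (n := n) (by omega)
    rw [ha1, pow_one] at ha
    refine ⟨rfl, by rw [hV, ha], ?_⟩
    -- faithful on p points
    have hf : Function.Injective (MulAction.toPermHom G W) := by
      intro g h e
      apply hρ
      ext v
      by_cases hv : v = 0
      · rw [hv, map_zero, map_zero]
      · exact congrArg Subtype.val (congrArg (fun σ : Equiv.Perm W => σ ⟨v, hv⟩) e)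
    have hd := Subgroup.card_dvd_of_injective _ hf
    rw [Nat.card_perm, hW, ha, hb] at hd
    have hb1 : b ≤ 1 := by
      by_contra hc
      have h2 : p * p ∣ p.factorial := (dvd_trans (by rw [← pow_two]; exact pow_dvd_pow p (by omega)) hd)
      rw [show p.factorial = p * (p - 1).factorial from (Nat.mul_factorial_pred hp.ne_zero).symm] at h2
      have h3 := Nat.dvd_of_mul_dvd_mul_left hp.pos h2
      rw [hp.dvd_factorial] at h3
      have := hp.two_le
      omega
    have hb0 : b = 1 := by omega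
    rw [hb, hb0, pow_one]
  right
  have hqo : Odd q := hq.odd_of_ne_two hq2
  have hp2 : p = 2 := by
    have h2 : 2 ∣ q ^ n - 1 := by
      have := (hqo.pow (n := n))
      obtain ⟨c, hc⟩ := this
      exact ⟨c, by omega⟩
    rw [ha] at h2
    exact ((Nat.prime_dvd_prime_iff_eq Nat.prime_two hp).1 (Nat.prime_two.dvd_of_dvd_pow h2)).symm
  subst hp2
  by_cases hn1 : n = 1
  · left
    rw [hn1, pow_one] at hV ha hW
    have hspan : ∀ v : V, ∃ c : ZMod q, c • v0 = v := (finrank_eq_one_iff_of_nonzero' v0 hv0).1 hn1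
    choose χ hχ using fun g => hspan (ρ g v0)
    have huniq : ∀ c d : ZMod q, c • v0 = d • v0 → c = d := fun c d h => smul_left_injective (ZMod q) hv0 h
    let f : G →* ZMod q :=
      { toFun := χ
        map_one' := huniq _ _ (by rw [hχ, map_one, one_smul]; rfl)
        map_mul' := fun g h => huniq _ _ (by
          rw [hχ, map_mul]
          show ρ g (ρ h v0) = _
          rw [← hχ h, map_smul, ← hχ g, smul_smul, mul_comm (χ g)]) }
    have hext : ∀ g, ρ g v0 = v0 → g = 1 := by
      intro g hg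
      apply hρ
      rw [map_one]
      ext v
      obtain ⟨c, rfl⟩ := hspan v
      rw [map_smul, hg]; rfl
    have hf : Function.Injective f := by
      rw [injective_iff_map_eq_one]
      intro g hg
      apply hext
      rw [← hχ g, show χ g = 1 from hg, one_smul]
    have hbij : Nat.card G = Nat.card W := by
      refine Nat.card_congr (Equiv.ofBijective (fun g => g • (⟨v0, hv0⟩ : W)) ⟨fun g h e => ?_, fun w => MulAction.exists_smul_eq G _ w⟩)
      have h1 : h⁻¹ * g = 1 := by
        apply hext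
        have e1 : ρ g v0 = ρ h v0 := congrArg Subtype.val e
        rw [map_mul]
        show ρ h⁻¹ (ρ g v0) = v0
        rw [e1, map_inv]
        exact (ρ h).symm_apply_apply v0
      exact (inv_mul_eq_one.1 h1).symm
    refine ⟨rfl, hV, ⟨a, by have := hq.two_le; omega, hbij.trans (hW.trans ha)⟩, isCyclic_of_subgroup_isDomain f hf⟩
  right
  obtain ⟨hq3, hn2⟩ := fermat_power hq (show 2 ≤ n by omega) (a := a) (by omega)
  subst hq3
  rw [hn2] at hV hW ha
  refine ⟨rfl, rfl, by rw [hV]; norm_num, ?_⟩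
  -- embed in GL(2,3)
  let B := Module.finBasisOfFinrankEq (ZMod 3) V hn2
  let Φ : G →* GL (Fin 2) (ZMod 3) := MonoidHom.toHomUnits
    { toFun := fun g => LinearMap.toMatrix B B (ρ g).toLinearMap
      map_one' := by rw [map_one]; exact LinearMap.toMatrix_id B
      map_mul' := fun g h => by rw [map_mul, ← LinearMap.toMatrix_comp B B B]; rfl }
  have hΦ : Function.Injective Φ := by
    intro g h e
    apply hρ
    have e2 : LinearMap.toMatrix B B (ρ g).toLinearMap = LinearMap.toMatrix B B (ρ h).toLinearMap := congrArg Units.val e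
    exact LinearEquiv.toLinearMap_injective ((LinearMap.toMatrix B B).injective e2)
  have hcard : Nat.card (GL (Fin 2) (ZMod 3)) = 48 := by
    rw [Matrix.card_GL_field]; simp [Fin.prod_univ_two]
  have hdvd := Subgroup.card_dvd_of_injective Φ hΦ
  rw [hcard, hb] at hdvd
  have hb4 : b = 3 ∨ b = 4 := by
    have h8 : (2 : ℕ) ^ a = 8 := by rw [← ha]; norm_num
    have ha3 : a = 3 := Nat.pow_right_injective (le_refl 2) (h8.trans (by norm_num : (8 : ℕ) = 2 ^ 3))
    have : b < 5 := by
      by_contra hc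
      have h32 : 2 ^ 5 ∣ 48 := (pow_dvd_pow 2 (by omega : 5 ≤ b)).trans hdvd
      norm_num at h32
    omega
  rcases hb4 with rfl | rfl
  · have hc8 : Nat.card G = 3 ^ 2 - 1 := by rw [hb]; norm_num
    have hinv : ∀ g : G, orderOf g = 2 → ∀ v, ρ g v = -v := by
      intro g hg v
      by_contra hne
      have h0 : v + ρ g v ≠ 0 := fun h => hne (eq_neg_of_add_eq_zero_right h)
      have hfix : ρ g (v + ρ g v) = v + ρ g v := by
        rw [map_add]
        have : ρ g (ρ g v) = v := by
          show (ρ g * ρ g) v = v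
          rw [← map_mul, ← pow_two, show g ^ 2 = 1 from by rw [← hg, pow_orderOf_eq_one], map_one]; rfl
        rw [this, add_comm]
      have := hfree (by rw [hn2]; exact hc8) g _ h0 hfix
      rw [this, orderOf_one] at hg
      norm_num at hg
    have hu : ∀ H K : Subgroup G, Nat.card H = 2 → Nat.card K = 2 → H = K := by
      intro H K hH hK
      obtain ⟨g, hg⟩ := exists_prime_orderOf_dvd_card' (G := H) 2 (by rw [hH])
      obtain ⟨h, hh⟩ := exists_prime_orderOf_dvd_card' (G := K) 2 (by rw [hK])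
      rw [← Subgroup.orderOf_coe] at hg hh
      have e : (g : G) = h := hρ (LinearEquiv.ext fun v => by rw [hinv _ hg, hinv _ hh])
      have h1 : Subgroup.zpowers (g : G) = H :=
        Subgroup.eq_of_le_of_card_ge (Subgroup.zpowers_le.2 g.2) (by rw [Nat.card_zpowers, hH, hg])
      have h2 : Subgroup.zpowers (h : G) = K :=
        Subgroup.eq_of_le_of_card_ge (Subgroup.zpowers_le.2 h.2) (by rw [Nat.card_zpowers, hK, hh])
      rw [← h1, ← h2, e]
    rcases Cfsg.Agent.S0016.result 2 hG hu with h | ⟨-, i, ⟨e⟩⟩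
    · exact Or.inl ⟨h, by rw [hb]; norm_num⟩
    · right; left
      have h8 := Nat.card_congr e.toEquiv
      haveI : NeZero (2 ^ i) := ⟨pow_ne_zero _ two_ne_zero⟩
      rw [hb, Nat.card_eq_fintype_card, QuaternionGroup.card] at h8
      have hi : 2 ^ i = 2 := by omega
      rw [hi] at e
      exact ⟨e⟩
  · right; right
    have hc16 : Nat.card Φ.range = 16 := by
      rw [← Nat.card_congr (MonoidHom.ofInjective hΦ).toEquiv, hb]; norm_num
    obtain ⟨m, hm, hmc, x, y, hx, hy, hxy⟩ := qd_sylow hc16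
    refine ⟨⟨m, hm, ?_, (MonoidHom.ofInjective hΦ).symm x, (MonoidHom.ofInjective hΦ).symm y, ?_, ?_, ?_⟩, by rw [hb]; norm_num⟩
    · rw [← hmc]; exact Nat.card_congr (MonoidHom.ofInjective hΦ).toEquiv
    · rw [MulEquiv.orderOf_eq, hx]
    · rw [MulEquiv.orderOf_eq, hy]
    · rw [← map_inv, ← map_mul, ← map_mul, ← map_pow, hxy]

end Cfsg.Agent.S3370
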