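import Cfsg.Statements.S3374
import Cfsg.Agent.Lib.FgsSLFiveEleven

set_option autoImplicit false
open Cfsg

namespace Cfsg.Agent.S3374

/-- SL(2,5) occurs as a Frobenius complement: there is a finite group L with a subgroup H isomorphic to SL(2,5) which is a non-trivial proper subgroup meeting each conjugate gHg⁻¹ with g outside H trivially. -/
theorem result :
    ∃ (L : Type) (_ : Group L) (_ : Finite L) (H : Subgroup L),
      Cfsg.IsFrobeniusComplement H ∧ Nonempty (H ≃* Matrix.SpecialLinearGroup (Fin 2) (ZMod 5)) := by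
  classical
  haveI : Fact (Nat.Prime 11) := ⟨by norm_num⟩
  haveI : Nontrivial (Matrix.SpecialLinearGroup (Fin 2) (ZMod 5)) :=
    ⟨⟨1, CfsgLib.Fgs.SlFiveEleven.genS, fun e => by
      have := congrFun (congrFun (congrArg Subtype.val e) 0) 0
      simp [CfsgLib.Fgs.SlFiveEleven.genS_val] at this
      revert this; decide +kernel⟩⟩
  have h120 : Fintype.card (Matrix.SpecialLinearGroup (Fin 2) (ZMod 5)) = 120 := by decide +kernel
  obtain ⟨L, i1, i2, C, hC, ⟨e⟩⟩ := CfsgLib.Fgs.FrobConstruct.exists_of_sl2 (q := 11) CfsgLib.Fgs.SlFiveEleven.hom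
    CfsgLib.Fgs.SlFiveEleven.hom_injective (by rw [Nat.card_eq_fintype_card, h120]; norm_num)
  exact ⟨L, i1, i2, C, hC, ⟨e.symm⟩⟩

end Cfsg.Agent.S3374
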