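import Cfsg.Statements.S3375
import Cfsg.Agent.Lib.PermSmallFacts

set_option autoImplicit false
open Cfsg

namespace Cfsg.Agent.S3375

/-- Let γ be an automorphism of order 2 of a finite group H. (i) If γ fixes only the identity, then H is abelian and γ inverts every element. (ii) If γ has exactly two fixed points and H has a subgroup of index 2, then H has a γ-invariant abelian subgroup of index 2 on which γ acts by inversion. -/
theorem result {H : Type*} [Group H] [Finite H] (γ : MulAut H) (hγ : orderOf γ = 2) :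
    ((∀ h : H, γ h = h → h = 1) → (∀ a b : H, a * b = b * a) ∧ ∀ h : H, γ h = h⁻¹) ∧
    ((Nat.card {h : H // γ h = h} = 2 ∧ ∃ M : Subgroup H, M.index = 2) →
      ∃ A : Subgroup H, A.index = 2 ∧ IsMulCommutative A ∧ (∀ a ∈ A, γ a ∈ A) ∧ ∀ a ∈ A, γ a = a⁻¹) := by
  classical
  have hγ2 : ∀ h, γ (γ h) = h := by
    intro h
    have : γ ^ 2 = 1 := hγ ▸ pow_orderOf_eq_one γ
    have h1 := DFunLike.congr_fun this h
    rwa [pow_two, MulAut.mul_apply, MulAut.one_apply] at h1
  have hinvI : ∀ h : H, γ (h⁻¹ * γ h) = (h⁻¹ * γ h)⁻¹ := by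
    intro h
    rw [map_mul, map_inv, hγ2, mul_inv_rev, inv_inv]
  have hcomm : ∀ (A : Subgroup H), (∀ a ∈ A, γ a = a⁻¹) → ∀ a ∈ A, ∀ b ∈ A, a * b = b * a := by
    intro A hA a ha b hb
    have h1 := hA _ (A.mul_mem ha hb)
    rw [map_mul, hA a ha, hA b hb] at h1
    have h2 := congrArg (fun x => x⁻¹) h1
    simpa using h2.symm
  refine ⟨fun hfix => ?_, ?_⟩
  · have hinj : Function.Injective fun h : H => h⁻¹ * γ h := by
      intro a b hab
      have h1 : γ (b * a⁻¹) = b * a⁻¹ := by
        simp only at hab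
        rw [map_mul, map_inv, show γ b = b * (a⁻¹ * γ a) by rw [hab]; group]
        group
      exact (mul_inv_eq_one.1 (hfix _ h1)).symm
    have hall : ∀ h, γ h = h⁻¹ := by
      intro h
      obtain ⟨y, rfl⟩ := Finite.surjective_of_injective hinj h
      exact hinvI y
    exact ⟨fun a b => hcomm ⊤ (fun x _ => hall x) a (Subgroup.mem_top a) b (Subgroup.mem_top b), hall⟩
  · rintro ⟨hcard, M, hM⟩
    -- an invariant subgroup of index two
    obtain ⟨A, hA, hAinv⟩ : ∃ A : Subgroup H, A.index = 2 ∧ ∀ a ∈ A, γ a ∈ A := by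
      by_cases hMi : ∀ a ∈ M, γ a ∈ M
      · exact ⟨M, hM, hMi⟩
      have hmul : ∀ a b : H, (a * b ∈ M ↔ (a ∈ M ↔ b ∈ M)) := fun a b => Subgroup.mul_mem_iff_of_index_two hM
      let A : Subgroup H :=
        { carrier := {h | (h ∈ M ↔ γ h ∈ M)}
          one_mem' := by simp
          mul_mem' := by
            intro a b (ha : _ ↔ _) (hb : _ ↔ _)
            show (a * b ∈ M ↔ γ (a * b) ∈ M)
            rw [map_mul, hmul, hmul, ha, hb]
          inv_mem' := by
            intro a (ha : _ ↔ _)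
            show (a⁻¹ ∈ M ↔ γ a⁻¹ ∈ M)
            rw [map_inv, Subgroup.inv_mem_iff, Subgroup.inv_mem_iff, ha] }
      have hmemA : ∀ h, h ∈ A ↔ (h ∈ M ↔ γ h ∈ M) := fun h => Iff.rfl
      refine ⟨A, ?_, fun a ha => ?_⟩
      · push Not at hMi
        obtain ⟨t, ht, htn⟩ := hMi
        rw [Subgroup.index_eq_two_iff]
        refine ⟨t, fun b => ?_⟩
        rw [hmemA, hmemA, map_mul, hmul, hmul]
        unfold Xor
        by_cases h1 : b ∈ M <;> by_cases h2 : γ b ∈ M <;> simp [h1, h2, ht, htn]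
      · rw [hmemA] at ha ⊢
        rw [hγ2]
        exact ha.symm
    have hmem : ∀ h : H, h⁻¹ * γ h ∈ A := by
      intro h
      rw [Subgroup.mul_mem_iff_of_index_two hA, Subgroup.inv_mem_iff]
      exact ⟨hAinv h, fun hh => by simpa [hγ2] using hAinv _ hh⟩
    -- the fibres are cosets of the fixed points
    have hfib : Nat.card H ≤ 2 * Nat.card (Set.range fun h : H => h⁻¹ * γ h) := by
      have : Function.Injective fun h : H =>
          ((⟨h⁻¹ * γ h, h, rfl⟩, ⟨h * (Function.invFun (fun h : H => h⁻¹ * γ h) (h⁻¹ * γ h))⁻¹, by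
            obtain ⟨y, hy⟩ : ∃ y, y = Function.invFun (fun h : H => h⁻¹ * γ h) (h⁻¹ * γ h) := ⟨_, rfl⟩
            rw [← hy]
            have h1 : y⁻¹ * γ y = h⁻¹ * γ h := hy ▸ Function.invFun_eq (f := fun h : H => h⁻¹ * γ h) ⟨h, rfl⟩
            rw [map_mul, map_inv, show γ y = y * (h⁻¹ * γ h) by rw [← h1]; group]
            group⟩) : (Set.range fun h : H => h⁻¹ * γ h) × {h : H // γ h = h}) := by
        intro a b hab
        have h1 : a⁻¹ * γ a = b⁻¹ * γ b := congrArg (fun z => (z.1 : H)) hab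
        have h2 := congrArg (fun z => (z.2 : H)) hab
        simp only [h1] at h2
        exact mul_right_cancel h2
      have h := Nat.card_le_card_of_injective _ this
      rw [Nat.card_prod, hcard] at h
      omega
    have hAcard : Nat.card A * 2 = Nat.card H := by rw [← hA, Subgroup.card_mul_index]
    have hall : ∀ a ∈ A, γ a = a⁻¹ := by
      have heq : (Set.range fun h : H => h⁻¹ * γ h) = (A : Set H) := by
        refine Set.eq_of_subset_of_ncard_le (by rintro _ ⟨h, rfl⟩; exact hmem h) ?_ (Set.toFinite _)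
        rw [← Nat.card_coe_set_eq, ← Nat.card_coe_set_eq]
        show Nat.card A ≤ _
        omega
      intro a ha
      rw [← SetLike.mem_coe, ← heq] at ha
      obtain ⟨y, rfl⟩ := ha
      exact hinvI y
    exact ⟨A, hA, ⟨⟨fun a b => Subtype.ext (hcomm A hall a a.2 b b.2)⟩⟩, hAinv, hall⟩

end Cfsg.Agent.S3375
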