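import Cfsg.Statements.S3378
import Cfsg.Agent.Lib.CharAltFivePres
import Cfsg.Agent.Lib.CharBurnside
import Cfsg.Agent.Lib.PermFpfStructure
import Cfsg.Agent.Lib.ZStarCorollaries
import Cfsg.Agent.S0494

set_option autoImplicit false
open Cfsg

namespace Cfsg.Agent.S3378

abbrev SL₅ := Matrix.SpecialLinearGroup (Fin 2) (ZMod 5)

def sA : SL₅ := ⟨!![0, 4; 1, 4], by decide +kernel⟩
def sB : SL₅ := ⟨!![1, 1; 0, 1], by decide +kernel⟩
def sZ : SL₅ := ⟨!![4, 0; 0, 4], by decide +kernel⟩

theorem rA : sA ^ 3 = 1 := by decide +kernel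
theorem rB : sB ^ 5 = 1 := by decide +kernel
theorem rC : sZ ^ 2 = 1 := by decide +kernel
theorem rAZ : sZ⁻¹ * sA * sZ = sA := by decide +kernel
theorem rBZ : sZ⁻¹ * sB * sZ = sB := by decide +kernel
theorem rAB : (sA * sB) ^ 2 = sZ := by decide +kernel
theorem word_G : sA * sA * sB * sA * sB * sB * sB = CfsgLib.FpfQuat.Icosa.genG := by decide +kernel
theorem word_Y : sA = CfsgLib.FpfQuat.Icosa.genY := by decide +kernel

def aA : alternatingGroup (Fin 5) :=
  ⟨CfsgLib.AltFivePres.permA, Equiv.Perm.mem_alternatingGroup.mpr (by decide)⟩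
def aB : alternatingGroup (Fin 5) := ⟨finRotate 5, Equiv.Perm.mem_alternatingGroup.mpr (by decide)⟩

theorem aA4 : aA ^ 4 = aA := by decide +kernel
theorem aB6 : aB ^ 6 = aB := by decide +kernel
theorem aA6 : aA ^ 6 = 1 := by decide +kernel
theorem aB15 : aB ^ 15 = 1 := by decide +kernel
theorem aAB1 : aA * aB ≠ 1 := by decide +kernel
theorem aAB2 : (aA * aB) ^ 2 = 1 := by decide +kernel

theorem aGen : Subgroup.closure ({aA, aB} : Set (alternatingGroup (Fin 5))) = ⊤ := by
  set H := Subgroup.closure ({aA, aB} : Set (alternatingGroup (Fin 5)))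
  have hA : aA ∈ H := Subgroup.subset_closure (Or.inl rfl)
  have hB : aB ∈ H := Subgroup.subset_closure (Or.inr rfl)
  have h60 : Nat.card (alternatingGroup (Fin 5)) = 60 := by rw [nat_card_alternatingGroup, Nat.card_fin]; rfl
  have hdvd : ∀ (g : alternatingGroup (Fin 5)) (k : ℕ), k.Prime → g ∈ H → g ^ k = 1 → g ≠ 1 → k ∣ Nat.card H := by
    intro g k hk hg hgk hg1
    haveI := Fact.mk hk
    rw [← orderOf_eq_prime hgk hg1, ← Subgroup.orderOf_mk g hg]
    exact orderOf_dvd_natCard _
  have h3 := hdvd aA 3 (by norm_num) hA (by decide +kernel) (by decide +kernel)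
  have h5 := hdvd aB 5 (by norm_num) hB (by decide +kernel) (by decide +kernel)
  have h2 := hdvd (aA * aB) 2 (by norm_num) (mul_mem hA hB) aAB2 aAB1
  obtain ⟨k, hk⟩ : 30 ∣ Nat.card H :=
    Nat.Coprime.mul_dvd_of_dvd_of_dvd (by norm_num : Nat.Coprime 6 5)
      (Nat.Coprime.mul_dvd_of_dvd_of_dvd (by norm_num : Nat.Coprime 2 3) h2 h3) h5
  have hmul := H.card_mul_index
  rw [hk, h60] at hmul
  have hkk : k * H.index = 2 := by rw [mul_assoc] at hmul; omega
  rcases (Nat.dvd_prime Nat.prime_two).mp (⟨k, by rw [mul_comm, hkk]⟩ : H.index ∣ 2) with h | h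
  · exact Subgroup.index_eq_one.mp h
  · exfalso
    haveI := Subgroup.normal_of_index_eq_two h
    rcases IsSimpleGroup.eq_bot_or_eq_top_of_normal H inferInstance with e | e
    · rw [e, Subgroup.card_bot] at hk; omega
    · rw [e, Subgroup.index_top] at h; omega

set_option maxHeartbeats 1000000 in
/-- Every non-solvable group of order 120 whose Sylow 2-subgroups are quaternion of order 8 is isomorphic to SL(2,5), and SL(2,5) has the presentation ⟨x, y, z | x³ = y⁵ = z² = 1, z⁻¹xz = x, z⁻¹yz = y, (xy)² = z⟩. -/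
theorem result :
    (∀ (G : Type*) [Group G] [Finite G], Nat.card G = 120 → ¬ Group.IsSolvable G →
      (∀ P : Sylow 2 G, Nonempty ((P : Subgroup G) ≃* QuaternionGroup 2)) →
      Nonempty (G ≃* Matrix.SpecialLinearGroup (Fin 2) (ZMod 5))) ∧
    Nonempty (PresentedGroup ({FreeGroup.of (0 : Fin 3) ^ 3, FreeGroup.of (1 : Fin 3) ^ 5, FreeGroup.of (2 : Fin 3) ^ 2,
        (FreeGroup.of (2 : Fin 3))⁻¹ * FreeGroup.of 0 * FreeGroup.of 2 * (FreeGroup.of (0 : Fin 3))⁻¹,
        (FreeGroup.of (2 : Fin 3))⁻¹ * FreeGroup.of 1 * FreeGroup.of 2 * (FreeGroup.of (1 : Fin 3))⁻¹,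
        (FreeGroup.of (0 : Fin 3) * FreeGroup.of 1) ^ 2 * (FreeGroup.of (2 : Fin 3))⁻¹} : Set (FreeGroup (Fin 3)))
      ≃* Matrix.SpecialLinearGroup (Fin 2) (ZMod 5)) := by
  classical
  set rels : Set (FreeGroup (Fin 3)) := {FreeGroup.of (0 : Fin 3) ^ 3, FreeGroup.of (1 : Fin 3) ^ 5, FreeGroup.of (2 : Fin 3) ^ 2,
        (FreeGroup.of (2 : Fin 3))⁻¹ * FreeGroup.of 0 * FreeGroup.of 2 * (FreeGroup.of (0 : Fin 3))⁻¹,
        (FreeGroup.of (2 : Fin 3))⁻¹ * FreeGroup.of 1 * FreeGroup.of 2 * (FreeGroup.of (1 : Fin 3))⁻¹,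
        (FreeGroup.of (0 : Fin 3) * FreeGroup.of 1) ^ 2 * (FreeGroup.of (2 : Fin 3))⁻¹} with hrels
  let a : PresentedGroup rels := PresentedGroup.of 0
  let b : PresentedGroup rels := PresentedGroup.of 1
  let c : PresentedGroup rels := PresentedGroup.of 2
  have ha : a ^ 3 = 1 := PresentedGroup.one_of_mem (x := FreeGroup.of (0 : Fin 3) ^ 3) (by simp [hrels])
  have hb : b ^ 5 = 1 := PresentedGroup.one_of_mem (x := FreeGroup.of (1 : Fin 3) ^ 5) (by simp [hrels])
  have hc : c ^ 2 = 1 := PresentedGroup.one_of_mem (x := FreeGroup.of (2 : Fin 3) ^ 2) (by simp [hrels])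
  have hca : c⁻¹ * a * c = a := mul_inv_eq_one.1 (PresentedGroup.one_of_mem
    (x := (FreeGroup.of (2 : Fin 3))⁻¹ * FreeGroup.of 0 * FreeGroup.of 2 * (FreeGroup.of (0 : Fin 3))⁻¹) (by simp [hrels]))
  have hcb : c⁻¹ * b * c = b := mul_inv_eq_one.1 (PresentedGroup.one_of_mem
    (x := (FreeGroup.of (2 : Fin 3))⁻¹ * FreeGroup.of 1 * FreeGroup.of 2 * (FreeGroup.of (1 : Fin 3))⁻¹) (by simp [hrels]))
  have hab : (a * b) ^ 2 = c := mul_inv_eq_one.1 (PresentedGroup.one_of_mem
    (x := (FreeGroup.of (0 : Fin 3) * FreeGroup.of 1) ^ 2 * (FreeGroup.of (2 : Fin 3))⁻¹) (by simp [hrels]))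
  set C := Subgroup.zpowers c with hC
  have hcen : ∀ u : PresentedGroup rels, Commute c u := by
    intro u
    have hu : u ∈ Subgroup.closure (Set.range (PresentedGroup.of (rels := rels))) := by
      rw [PresentedGroup.closure_range_of]; trivial
    induction hu using Subgroup.closure_induction with
    | mem z hz =>
      obtain ⟨i, rfl⟩ := hz
      fin_cases i
      · show c * a = a * c; conv_lhs => rw [← hca]
        group
      · show c * b = b * c; conv_lhs => rw [← hcb]
        group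
      · exact Commute.refl c
    | one => exact Commute.one_right c
    | mul u v _ _ hu hv => exact hu.mul_right hv
    | inv u _ hu => exact hu.inv_right
  haveI : C.Normal := ⟨fun z hz g => by
    obtain ⟨k, rfl⟩ := hz
    exact ⟨k, by rw [← ((hcen g).zpow_left k).eq, mul_inv_cancel_right]⟩⟩
  obtain ⟨hfin, h60⟩ := CfsgLib.AltFivePres.card_le_sixty (QuotientGroup.mk' C a) (QuotientGroup.mk' C b)
    (by rw [← map_pow, ha, map_one]) (by rw [← map_pow, hb, map_one])
    (by rw [← map_mul, ← map_pow, hab]; exact (QuotientGroup.eq_one_iff _).2 (Subgroup.mem_zpowers c)) (by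
      rw [eq_top_iff]
      rintro q -
      obtain ⟨u, rfl⟩ := QuotientGroup.mk'_surjective C q
      have hu : u ∈ Subgroup.closure (Set.range (PresentedGroup.of (rels := rels))) := by
        rw [PresentedGroup.closure_range_of]; trivial
      induction hu using Subgroup.closure_induction with
      | mem z hz =>
        obtain ⟨i, rfl⟩ := hz
        fin_cases i
        · exact Subgroup.subset_closure (Or.inl rfl)
        · exact Subgroup.subset_closure (Or.inr rfl)
        · show QuotientGroup.mk' C c ∈ _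
          rw [show QuotientGroup.mk' C c = 1 from (QuotientGroup.eq_one_iff _).2 (Subgroup.mem_zpowers c)]
          exact one_mem _
      | one => rw [map_one]; exact one_mem _
      | mul u v _ _ hu hv => rw [map_mul]; exact mul_mem hu hv
      | inv u _ hu => rw [map_inv]; exact inv_mem hu)
  haveI : Finite C := by
    rw [hC]; exact (finite_zpowers.2 (isOfFinOrder_iff_pow_eq_one.2 ⟨2, two_pos, hc⟩)).to_subtype
  haveI : Finite (PresentedGroup rels) := Finite.of_equiv _ (Subgroup.groupEquivQuotientProdSubgroup (s := C)).symm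
  have hle : Nat.card (PresentedGroup rels) ≤ 120 := by
    rw [Subgroup.card_eq_card_quotient_mul_card_subgroup C]
    have h2 : Nat.card C ≤ 2 := by
      rw [hC, Nat.card_zpowers]; exact Nat.le_of_dvd two_pos (orderOf_dvd_of_pow_eq_one hc)
    exact (Nat.mul_le_mul h60 h2).trans le_rfl
  have hgen : ∀ {X : Type _} [Group X] (A B Z : X), A ^ 3 = 1 → B ^ 5 = 1 → Z ^ 2 = 1 →
      Z⁻¹ * A * Z = A → Z⁻¹ * B * Z = B → (A * B) ^ 2 = Z →
      ∃ φ : PresentedGroup rels →* X, φ a = A ∧ φ b = B ∧ φ c = Z := by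
    intro X _ A B Z h1 h2 h3 h4 h5 h6
    have hf : ∀ r ∈ rels, FreeGroup.lift ![A, B, Z] r = 1 := by
      intro r hr
      simp only [hrels, Set.mem_insert_iff, Set.mem_singleton_iff] at hr
      rcases hr with rfl | rfl | rfl | rfl | rfl | rfl <;> simp [h1, h2, h3, h4, h5, h6]
    exact ⟨PresentedGroup.toGroup hf, PresentedGroup.toGroup.of hf, PresentedGroup.toGroup.of hf,
      PresentedGroup.toGroup.of hf⟩
  have hSL : Nonempty (PresentedGroup rels ≃* Matrix.SpecialLinearGroup (Fin 2) (ZMod 5)) := by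
    obtain ⟨φ, hφa, hφb, hφc⟩ := hgen sA sB sZ rA rB rC rAZ rBZ rAB
    have hsurj : Function.Surjective φ := by
      rw [← MonoidHom.range_eq_top, eq_top_iff, ← CfsgLib.FpfQuat.Icosa.closure_gens, Subgroup.closure_le]
      rintro _ (rfl | rfl)
      · exact ⟨a * a * b * a * b * b * b, by simp only [map_mul, hφa, hφb]; exact word_G⟩
      · exact ⟨a, by rw [hφa]; exact word_Y⟩
    exact ⟨MulEquiv.ofBijective φ (hsurj.bijective_of_nat_card_le (by
      rw [CfsgLib.FpfQuat.card_S5]; exact hle))⟩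
  refine ⟨fun G _ _ hG hns hQ => ?_, hSL⟩
  haveI : Fact (Nat.Prime 2) := ⟨Nat.prime_two⟩
  have hpq : ∀ (X : Type _) [Group X] [Finite X], Nat.card X ∣ 120 → Nat.card X < 120 → Nat.card X ≠ 60 →
      Group.IsSolvable X := by
    intro X _ _ hdvd hlt h60
    have hmem : Nat.card X ∈ Nat.divisors 120 := Nat.mem_divisors.2 ⟨hdvd, by norm_num⟩
    rw [show Nat.divisors 120 = {1, 2, 3, 4, 5, 6, 8, 10, 12, 15, 20, 24, 30, 40, 60, 120} by decide +kernel] at hmem
    simp only [Finset.mem_insert, Finset.mem_singleton] at hmem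
    have B := fun (p q : ℕ) (hp : p.Prime) (hq : q.Prime) (i j : ℕ) (h : Nat.card X = p ^ i * q ^ j) =>
      CfsgLib.Char.burnside_pq hp hq _ X i j rfl h
    rcases hmem with h | h | h | h | h | h | h | h | h | h | h | h | h | h | h | h
    · exact B 2 3 (by norm_num) (by norm_num) 0 0 (by rw [h]; norm_num)
    · exact B 2 3 (by norm_num) (by norm_num) 1 0 (by rw [h]; norm_num)
    · exact B 2 3 (by norm_num) (by norm_num) 0 1 (by rw [h]; norm_num)
    · exact B 2 3 (by norm_num) (by norm_num) 2 0 (by rw [h]; norm_num)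
    · exact B 2 5 (by norm_num) (by norm_num) 0 1 (by rw [h]; norm_num)
    · exact B 2 3 (by norm_num) (by norm_num) 1 1 (by rw [h]; norm_num)
    · exact B 2 3 (by norm_num) (by norm_num) 3 0 (by rw [h]; norm_num)
    · exact B 2 5 (by norm_num) (by norm_num) 1 1 (by rw [h]; norm_num)
    · exact B 2 3 (by norm_num) (by norm_num) 2 1 (by rw [h]; norm_num)
    · exact B 3 5 (by norm_num) (by norm_num) 1 1 (by rw [h]; norm_num)
    · exact B 2 5 (by norm_num) (by norm_num) 2 1 (by rw [h]; norm_num)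
    · exact B 2 3 (by norm_num) (by norm_num) 3 1 (by rw [h]; norm_num)
    · haveI : IsZGroup X := IsZGroup.of_squarefree (by rw [h]; decide +kernel)
      infer_instance
    · exact B 2 5 (by norm_num) (by norm_num) 3 1 (by rw [h]; norm_num)
    · exact absurd h h60
    · omega
  have hext : ∀ N : Subgroup G, N.Normal → N ≠ ⊥ → N ≠ ⊤ → Nat.card N = 2 ∨ Nat.card N = 60 := by
    intro N hN h1 h2
    by_contra hne
    push Not at hne
    haveI := hN
    have hmul := Subgroup.card_mul_index N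
    rw [hG] at hmul
    have hN1 : 1 < Nat.card N := (Subgroup.one_lt_card_iff_ne_bot N).2 h1
    have hi1 : 1 < N.index := Subgroup.one_lt_index_of_ne_top h2
    have hlt : Nat.card N < 120 := by nlinarith
    have hlt' : N.index < 120 := by nlinarith
    haveI : Group.IsSolvable N := hpq N ⟨_, hmul.symm⟩ hlt hne.2
    haveI : Group.IsSolvable (G ⧸ N) := hpq (G ⧸ N) ⟨Nat.card N, by rw [← Subgroup.index_eq_card, mul_comm, hmul]⟩
      (by rwa [← Subgroup.index_eq_card]) (by
        rw [← Subgroup.index_eq_card]; intro h; rw [h] at hmul; exact hne.1 (by omega))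
    exact hns (Group.isSolvable_of_ker_le_range N.subtype (QuotientGroup.mk' N) (by rw [QuotientGroup.ker_mk', Subgroup.range_subtype]))
  obtain ⟨S⟩ := (inferInstance : Nonempty (Sylow 2 G))
  obtain ⟨eQ⟩ := hQ S
  set z : G := ((eQ.symm (QuaternionGroup.a 2) : (S : Subgroup G)) : G) with hz
  have hzo : orderOf z = 2 := by
    rw [hz, Subgroup.orderOf_coe, MulEquiv.orderOf_eq]; exact orderOf_eq_prime (by decide) (by decide)
  have huniq : ∀ w ∈ (S : Subgroup G), orderOf w = 2 → w = z := by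
    intro w hw hwo
    have h1 : eQ ⟨w, hw⟩ = QuaternionGroup.a 2 := by
      have h2 : orderOf (eQ ⟨w, hw⟩) = 2 := by rw [MulEquiv.orderOf_eq, Subgroup.orderOf_mk]; exact hwo
      have hall : ∀ q : QuaternionGroup 2, q ^ 2 = 1 → q ≠ 1 → q = QuaternionGroup.a 2 := by decide
      rw [orderOf_eq_prime_iff] at h2
      exact hall _ h2.1 h2.2
    rw [hz, ← h1, MulEquiv.symm_apply_apply]
  have hzS : z ∈ (S : Subgroup G) := (eQ.symm _).2
  have hiso := CfsgLib.ZStar.iso_of_unique S hzS hzo huniq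
  have hO : Cfsg.pPrimeCore 2 G = ⊥ := by
    by_contra h
    have hodd : Odd (Nat.card (Cfsg.pPrimeCore 2 G)) := CfsgLib.Core.odd_card_pPrimeCore_two
    have hne : Cfsg.pPrimeCore 2 G ≠ ⊤ := fun e => by
      rw [e, Subgroup.card_top, hG] at hodd; exact absurd hodd (by decide)
    rcases hext _ (CfsgLib.Core.normal_pPrimeCore 2) h hne with e | e <;> rw [e] at hodd <;>
      exact absurd hodd (by decide)
  have hzc : ∀ g : G, Commute z g := fun g => by
    have h := CfsgLib.ZStar.inZStar_of_iso hiso g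
    rw [hO, Subgroup.mem_bot, mul_inv_eq_one, mul_inv_eq_iff_eq_mul] at h
    exact h.symm
  set Z := Subgroup.zpowers z with hZ
  haveI : Z.Normal := ⟨fun x hx g => by
    obtain ⟨k, rfl⟩ := hx
    exact ⟨k, by rw [← ((hzc g).zpow_left k).eq, mul_inv_cancel_right]⟩⟩
  have hZ2 : Nat.card Z = 2 := by rw [hZ, Nat.card_zpowers, hzo]
  have hQcard : Nat.card (G ⧸ Z) = 60 := by
    have := Subgroup.card_eq_card_quotient_mul_card_subgroup Z
    rw [hG, hZ2] at this; omega
  haveI : Nontrivial (G ⧸ Z) := Finite.one_lt_card_iff_nontrivial.1 (by rw [hQcard]; norm_num)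
  haveI : IsSimpleGroup (G ⧸ Z) := by
    refine ⟨fun M hM => ?_⟩
    by_contra hne
    push Not at hne
    haveI := hM
    have hcM : Nat.card (M.comap (QuotientGroup.mk' Z)) = Nat.card M * 2 := by
      have h1 := Subgroup.index_comap_of_surjective M (QuotientGroup.mk'_surjective Z)
      have h2 := Subgroup.card_mul_index (M.comap (QuotientGroup.mk' Z))
      have h3 := Subgroup.card_mul_index M
      rw [h1, hG] at h2; rw [hQcard] at h3
      refine Nat.eq_of_mul_eq_mul_right (Nat.pos_of_ne_zero (Subgroup.index_ne_zero_of_finite (H := M))) ?_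
      rw [h2, mul_right_comm, h3]
      all_goals norm_num
    have hM1 : 1 < Nat.card M := (Subgroup.one_lt_card_iff_ne_bot M).2 hne.1
    have hMle : Nat.card M < 60 := by
      have h3 := Subgroup.card_mul_index M
      rw [hQcard] at h3
      have := Subgroup.one_lt_index_of_ne_top hne.2
      nlinarith
    rcases hext _ (Subgroup.Normal.comap hM _) (fun e => by rw [e, Subgroup.card_bot] at hcM; omega)
      (fun e => by rw [e, Subgroup.card_top, hG] at hcM; omega) with e | e <;> rw [e] at hcM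
    · omega
    · have h30 : Nat.card M = 30 := by omega
      haveI : IsZGroup M := IsZGroup.of_squarefree (by rw [h30]; decide +kernel)
      haveI : Group.IsSolvable (M.comap (QuotientGroup.mk' Z)) := by
        let π : (M.comap (QuotientGroup.mk' Z)) →* M :=
          ((QuotientGroup.mk' Z).comp (Subgroup.subtype _)).codRestrict M fun x => x.2
        exact Group.isSolvable_of_ker_le_range (Subgroup.inclusion (show Z ≤ M.comap (QuotientGroup.mk' Z) from
          fun x hx => by
            show QuotientGroup.mk' Z x ∈ M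
            rw [show QuotientGroup.mk' Z x = 1 from (QuotientGroup.eq_one_iff x).2 hx]; exact one_mem M))
          π (fun x hx => ⟨⟨x.1, (QuotientGroup.eq_one_iff _).1 (congrArg Subtype.val hx)⟩, Subtype.ext rfl⟩)
      haveI : Group.IsSolvable (G ⧸ M.comap (QuotientGroup.mk' Z)) := hpq _ (by
          rw [← Subgroup.index_eq_card, ← hG]; exact Subgroup.index_dvd_card _) (by
          rw [← Subgroup.index_eq_card]
          have := Subgroup.card_mul_index (M.comap (QuotientGroup.mk' Z)); rw [e, hG] at this; omega) (by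
          rw [← Subgroup.index_eq_card]
          have := Subgroup.card_mul_index (M.comap (QuotientGroup.mk' Z)); rw [e, hG] at this; omega)
      exact hns (Group.isSolvable_of_ker_le_range (M.comap (QuotientGroup.mk' Z)).subtype (QuotientGroup.mk' (M.comap (QuotientGroup.mk' Z)))
        (by rw [QuotientGroup.ker_mk', Subgroup.range_subtype]))
  obtain ⟨f⟩ := Cfsg.Agent.S0494.result hQcard
  obtain ⟨A, hA⟩ := QuotientGroup.mk'_surjective Z (f.symm aA)
  obtain ⟨B, hB⟩ := QuotientGroup.mk'_surjective Z (f.symm aB)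
  have hz2 : z ^ 2 = 1 := hzo ▸ pow_orderOf_eq_one z
  have hker : ∀ x : G, QuotientGroup.mk' Z x = 1 → x ^ 2 = 1 ∧ (x = 1 ∨ x = z) := by
    intro x hx
    obtain ⟨k, rfl⟩ := (QuotientGroup.eq_one_iff x).1 hx
    rcases Int.even_or_odd k with ⟨j, rfl⟩ | ⟨j, rfl⟩
    · have : z ^ (j + j) = 1 := by rw [← two_mul, zpow_mul, zpow_two, ← pow_two, hz2, one_zpow]
      exact ⟨by show (z ^ (j + j)) ^ 2 = 1; rw [this, one_pow], Or.inl this⟩
    · have : z ^ (2 * j + 1) = z := by rw [zpow_add_one, zpow_mul, zpow_two, ← pow_two, hz2, one_zpow, one_mul]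
      exact ⟨by show (z ^ (2 * j + 1)) ^ 2 = 1; rw [this, hz2], Or.inr this⟩
  set A' := A ^ 4
  set B' := B ^ 6
  have hA' : QuotientGroup.mk' Z A' = f.symm aA := by
    rw [map_pow, hA, ← map_pow, aA4]
  have hB' : QuotientGroup.mk' Z B' = f.symm aB := by
    rw [map_pow, hB, ← map_pow, aB6]
  have hA3 : A' ^ 3 = 1 := by
    have := (hker (A ^ 6) (by rw [map_pow, hA, ← map_pow, aA6, map_one])).1
    rw [← pow_mul] at this; rw [← pow_mul]; exact this
  have hB5 : B' ^ 5 = 1 := by
    have := (hker (B ^ 15) (by rw [map_pow, hB, ← map_pow, aB15, map_one])).1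
    rw [← pow_mul] at this; rw [← pow_mul]; exact this
  have hAB1 : QuotientGroup.mk' Z (A' * B') ≠ 1 := by
    rw [map_mul, hA', hB', ← map_mul]
    intro e
    exact aAB1 (f.symm.injective (e.trans (map_one _).symm))
  have hAB : (A' * B') ^ 2 = z := by
    have hk := hker ((A' * B') ^ 2) (by rw [map_pow, map_mul, hA', hB', ← map_mul, ← map_pow, aAB2, map_one])
    rcases hk.2 with h | h
    · exfalso
      obtain ⟨g, hg⟩ := CfsgLib.ZStar.isConj_of_unique S huniq
        (orderOf_eq_prime (p := 2) h fun e => hAB1 (by rw [e, map_one]))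
      rw [← (hzc g).eq, mul_inv_cancel_right] at hg
      exact hAB1 (hg ▸ (QuotientGroup.eq_one_iff z).2 (Subgroup.mem_zpowers z))
    · exact h
  have hgen' : ∀ (A B Z : G), A ^ 3 = 1 → B ^ 5 = 1 → Z ^ 2 = 1 →
      Z⁻¹ * A * Z = A → Z⁻¹ * B * Z = B → (A * B) ^ 2 = Z →
      ∃ φ : PresentedGroup rels →* G, φ a = A ∧ φ b = B ∧ φ c = Z := by
    intro A B Z h1 h2 h3 h4 h5 h6
    have hf : ∀ r ∈ rels, FreeGroup.lift ![A, B, Z] r = 1 := by
      intro r hr
      simp only [hrels, Set.mem_insert_iff, Set.mem_singleton_iff] at hr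
      rcases hr with rfl | rfl | rfl | rfl | rfl | rfl <;> simp [h1, h2, h3, h4, h5, h6]
    exact ⟨PresentedGroup.toGroup hf, PresentedGroup.toGroup.of hf, PresentedGroup.toGroup.of hf,
      PresentedGroup.toGroup.of hf⟩
  have hzx : ∀ u : G, z⁻¹ * u * z = u := fun u => by rw [mul_assoc, ← (hzc u).eq, inv_mul_cancel_left]
  obtain ⟨φ, hφa, hφb, hφc⟩ := hgen' A' B' z hA3 hB5 hz2 (hzx A') (hzx B') hAB
  have hsurj : Function.Surjective φ := by
    intro g
    have hq : f (QuotientGroup.mk' Z g) ∈ Subgroup.closure ({aA, aB} : Set (alternatingGroup (Fin 5))) := by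
      rw [aGen]; trivial
    have hmem : QuotientGroup.mk' Z g ∈ φ.range.map (QuotientGroup.mk' Z) := by
      have h2 : Subgroup.closure ({aA, aB} : Set (alternatingGroup (Fin 5))) ≤
          ((φ.range.map (QuotientGroup.mk' Z)).comap f.symm.toMonoidHom) := by
        rw [Subgroup.closure_le]
        rintro _ (rfl | rfl)
        · exact ⟨A', ⟨a, hφa⟩, hA'⟩
        · exact ⟨B', ⟨b, hφb⟩, hB'⟩
      simpa using h2 hq
    obtain ⟨_, ⟨u, rfl⟩, hu⟩ := hmem
    have : (φ u)⁻¹ * g ∈ Z := QuotientGroup.eq.1 hu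
    have hle : Z ≤ φ.range := by rw [hZ, Subgroup.zpowers_le]; exact ⟨c, hφc⟩
    obtain ⟨v, hv⟩ := hle this
    exact ⟨u * v, by rw [map_mul, hv, mul_inv_cancel_left]⟩
  obtain ⟨eSL⟩ := hSL
  exact ⟨(MulEquiv.ofBijective φ (hsurj.bijective_of_nat_card_le (hle.trans hG.ge))).symm.trans eSL⟩

end Cfsg.Agent.S3378
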