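import Cfsg.Statements.S3379


set_option autoImplicit false
open Cfsg

namespace Cfsg.Agent.S3379

/-- Let G be a finite group all of whose Sylow subgroups are cyclic. Then G is generated by two elements x and y of coprime orders n and m with x⁻¹yx = y^r, where gcd(r − 1, m) = 1 and r^n ≡ 1 (mod m). -/
theorem result {G : Type*} [Group G] [Finite G]
    (hZ : ∀ (p : ℕ) [Fact p.Prime] (P : Sylow p G), IsCyclic (P : Subgroup G)) :
    ∃ (x y : G) (n m r : ℕ), Subgroup.closure {x, y} = ⊤ ∧ orderOf x = n ∧ orderOf y = m ∧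
      x⁻¹ * y * x = y ^ r ∧ Nat.Coprime (r - 1) m ∧ Nat.Coprime n m ∧ 1 ≤ r ∧ r ^ n % m = 1 % m := by
  haveI : IsZGroup G := ⟨fun p hp P => @hZ p ⟨hp⟩ P⟩
  haveI : IsCyclic ↥(commutator G) := IsZGroup.isCyclic_commutator G
  haveI : IsCyclic (G ⧸ commutator G) := inferInstanceAs (IsCyclic (Abelianization G))
  classical
  obtain ⟨y₀, hy₀⟩ := IsCyclic.exists_generator (α := ↥(commutator G))
  set y : G := (y₀ : G) with hy
  have hgen : commutator G = Subgroup.zpowers y := by
    refine le_antisymm (fun c hc => ?_) (by rw [Subgroup.zpowers_le]; exact y₀.2)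
    obtain ⟨k, hk⟩ := Subgroup.mem_zpowers_iff.1 (hy₀ ⟨c, hc⟩)
    exact Subgroup.mem_zpowers_iff.2 ⟨k, by rw [hy, ← Subgroup.coe_zpow, hk]⟩
  have hcop : (Nat.card ↥(commutator G)).Coprime (commutator G).index :=
    IsZGroup.coprime_commutator_index G
  obtain ⟨K, hK⟩ := Subgroup.exists_right_complement'_of_coprime hcop
  have hKc : IsCyclic ↥K := by
    refine isCyclic_of_injective ((QuotientGroup.mk' (commutator G)).comp K.subtype) ?_
    rw [injective_iff_map_eq_one]
    intro k hk
    have h1 : (k : G) ∈ commutator G := (QuotientGroup.eq_one_iff _).1 hk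
    have h2 : (k : G) ∈ commutator G ⊓ K := ⟨h1, k.2⟩
    rw [hK.disjoint.eq_bot, Subgroup.mem_bot] at h2
    exact Subtype.ext h2
  obtain ⟨x₀, hx₀⟩ := IsCyclic.exists_generator (α := ↥K)
  set x : G := (x₀ : G) with hx
  have hKgen : K = Subgroup.zpowers x := by
    refine le_antisymm (fun c hc => ?_) (by rw [Subgroup.zpowers_le]; exact x₀.2)
    obtain ⟨k, hk⟩ := Subgroup.mem_zpowers_iff.1 (hx₀ ⟨c, hc⟩)
    exact Subgroup.mem_zpowers_iff.2 ⟨k, by rw [hx, ← Subgroup.coe_zpow, hk]⟩
  have hcl : Subgroup.closure {x, y} = ⊤ := by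
    rw [eq_top_iff, ← hK.sup_eq_top, hgen, hKgen]
    refine sup_le ?_ ?_
    · rw [Subgroup.zpowers_le]; exact Subgroup.subset_closure (by simp)
    · rw [Subgroup.zpowers_le]; exact Subgroup.subset_closure (by simp)
  set m := orderOf y with hm
  have hm0 : 0 < m := orderOf_pos y
  have hconj : x⁻¹ * y * x ∈ Subgroup.zpowers y := by
    rw [← hgen]
    simpa using Subgroup.Normal.conj_mem (inferInstance : (commutator G).Normal) y y₀.2 x⁻¹
  obtain ⟨k, hk⟩ := mem_zpowers_iff_mem_range_orderOf.1 hconj |> Finset.mem_image.1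
  refine ⟨x, y, orderOf x, m, k + m, hcl, rfl, rfl, ?_, ?_, ?_, by omega, ?_⟩
  · rw [pow_add, hm, pow_orderOf_eq_one, mul_one]; exact hk.2.symm
  · set d := k + m - 1 with hd
    have hyd : x⁻¹ * y * x = y * y ^ d := by
      rw [← pow_succ', show d + 1 = k + m by omega, pow_add, hm, pow_orderOf_eq_one, mul_one]
      exact hk.2.symm
    -- the powers of y are normal
    have hN : (Subgroup.zpowers (y ^ d)).Normal := by
      constructor
      intro a ha g
      obtain ⟨j, rfl⟩ := Subgroup.mem_zpowers_iff.1 ha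
      have h1 : g * y * g⁻¹ ∈ Subgroup.zpowers y := by
        rw [← hgen]
        exact Subgroup.Normal.conj_mem (inferInstance : (commutator G).Normal) y y₀.2 g
      obtain ⟨i, hi⟩ := Subgroup.mem_zpowers_iff.1 h1
      refine Subgroup.mem_zpowers_iff.2 ⟨i * j, ?_⟩
      rw [← conj_zpow, ← conj_pow, ← hi]
      simp only [← zpow_natCast, ← zpow_mul]
      congr 1; ring
    haveI := hN
    set π := QuotientGroup.mk' (Subgroup.zpowers (y ^ d))
    have hπd : π (y ^ d) = 1 := (QuotientGroup.eq_one_iff _).2 (Subgroup.mem_zpowers _)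
    have hcomm : π x * π y = π y * π x := by
      have h1 := congrArg π hyd
      rw [map_mul, map_mul, map_mul, hπd, mul_one, map_inv] at h1
      calc π x * π y = π x * ((π x)⁻¹ * π y * π x) := by rw [h1]
        _ = π y * π x := by group
    have hab : ∀ a b : G, π a * π b = π b * π a := by
      have hle : (⊤ : Subgroup G) ≤ (Subgroup.centralizer ({π x, π y} : Set _)).comap π := by
        rw [← hcl, Subgroup.closure_le]
        intro z hz
        rw [SetLike.mem_coe, Subgroup.mem_comap, Subgroup.mem_centralizer_iff]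
        simp only [Set.mem_insert_iff, Set.mem_singleton_iff] at hz ⊢
        rintro w (rfl | rfl) <;> rcases hz with rfl | rfl <;>
          first
          | rfl
          | exact hcomm
          | exact hcomm.symm
      intro a
      have hle2 : (⊤ : Subgroup G) ≤ (Subgroup.centralizer ({π a} : Set _)).comap π := by
        rw [← hcl, Subgroup.closure_le]
        intro z hz
        rw [SetLike.mem_coe, Subgroup.mem_comap, Subgroup.mem_centralizer_singleton_iff]
        have h2 := Subgroup.mem_centralizer_iff.1 (hle (Subgroup.mem_top a))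
        simp only [Set.mem_insert_iff, Set.mem_singleton_iff] at hz
        rcases hz with rfl | rfl
        · exact h2 _ (by simp)
        · exact h2 _ (by simp)
      intro b
      exact (Subgroup.mem_centralizer_singleton_iff.1 (hle2 (Subgroup.mem_top b))).symm
    have hle : commutator G ≤ Subgroup.zpowers (y ^ d) := by
      rw [commutator_eq_closure, Subgroup.closure_le]
      rintro c ⟨a, b, rfl⟩
      rw [SetLike.mem_coe, ← QuotientGroup.eq_one_iff]
      show π (a * b * a⁻¹ * b⁻¹) = 1
      rw [map_mul, map_mul, map_mul, map_inv, map_inv, hab a b, mul_inv_cancel_right, mul_inv_cancel]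
    have hy' : y ∈ Subgroup.zpowers (y ^ d) := hle y₀.2
    obtain ⟨j, hj⟩ := Subgroup.mem_zpowers_iff.1 hy'
    rw [Nat.Coprime]
    have hdiv : ((Nat.gcd d m : ℕ) : ℤ) ∣ 1 := by
      have h1 : y ^ ((d : ℤ) * j - 1) = 1 := by
        rw [zpow_sub, zpow_mul, zpow_natCast, hj, zpow_one, mul_inv_cancel]
      have h2 : (m : ℤ) ∣ (d : ℤ) * j - 1 := orderOf_dvd_iff_zpow_eq_one.2 h1
      have h3 : ((Nat.gcd d m : ℕ) : ℤ) ∣ (d : ℤ) * j :=
        Dvd.dvd.mul_right (Int.natCast_dvd_natCast.2 (Nat.gcd_dvd_left d m)) j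
      have h4 : ((Nat.gcd d m : ℕ) : ℤ) ∣ (d : ℤ) * j - 1 :=
        (Int.natCast_dvd_natCast.2 (Nat.gcd_dvd_right d m)).trans h2
      simpa using dvd_sub h3 h4
    exact Nat.dvd_one.1 (by exact_mod_cast hdiv)
  · have h1 : orderOf x = (commutator G).index := by
      have h2 := Subgroup.IsComplement'.index_eq_card hK.symm
      rw [hKgen, Nat.card_zpowers] at h2
      exact h2.symm
    rw [h1, hm, ← Nat.card_zpowers, ← hgen]
    exact hcop.symm
  · have hxy : x⁻¹ * y * x = y ^ (k + m) := by
      rw [pow_add, hm, pow_orderOf_eq_one, mul_one]; exact hk.2.symm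
    have hit : ∀ i : ℕ, (x ^ i)⁻¹ * y * x ^ i = y ^ (k + m) ^ i := by
      intro i
      induction i with
      | zero => simp
      | succ i ih =>
        calc (x ^ (i + 1))⁻¹ * y * x ^ (i + 1)
            = x⁻¹ * ((x ^ i)⁻¹ * y * x ^ i) * x := by rw [pow_succ]; group
          _ = x⁻¹ * y ^ (k + m) ^ i * x⁻¹⁻¹ := by rw [ih, inv_inv]
          _ = (x⁻¹ * y * x⁻¹⁻¹) ^ (k + m) ^ i := conj_pow.symm
          _ = y ^ (k + m) ^ (i + 1) := by rw [inv_inv, hxy, ← pow_mul, pow_succ']
    have h1 := hit (orderOf x)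
    rw [pow_orderOf_eq_one, inv_one, one_mul, mul_one] at h1
    have h2 : y ^ (k + m) ^ orderOf x = y ^ 1 := by rw [pow_one, ← h1]
    exact pow_eq_pow_iff_modEq.1 h2

end Cfsg.Agent.S3379
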