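import Cfsg.Statements.S3380
import Cfsg.Agent.Lib.CoreNormalCyclic

set_option autoImplicit false
open Cfsg

namespace Cfsg.Agent.S3380

/-- Let a finite p-group G act faithfully and irreducibly on a non-trivial finite vector space V over the field with q elements (q prime), and suppose G is not cyclic, generalized quaternion, dihedral or semidihedral. Then G has a subgroup H of index p and V is the direct sum of p subspaces, each invariant under H, on none of which H acts faithfully, and which every element of G outside H permutes in a single p-cycle. -/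
theorem result
    (q : ℕ) [Fact q.Prime] {V : Type*} [AddCommGroup V] [Module (ZMod q) V] [Finite V] [Nontrivial V]
    {G : Type*} [Group G] [Finite G] (p : ℕ) [Fact p.Prime] (hG : IsPGroup p G)
    (ρ : G →* (V ≃ₗ[ZMod q] V)) (hρ : Function.Injective ρ)
    (hirr : ∀ W : Submodule (ZMod q) V, (∀ g : G, ∀ w ∈ W, ρ g w ∈ W) → W = ⊥ ∨ W = ⊤)
    (hnc : ¬ IsCyclic G) (hnq : ∀ n : ℕ, ¬ Nonempty (G ≃* QuaternionGroup n))
    (hnd : ∀ n : ℕ, ¬ Nonempty (G ≃* DihedralGroup n)) (hnsd : ¬ Cfsg.IsQuasiDihedral G) :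
    ∃ (H : Subgroup G) (W : Fin p → Submodule (ZMod q) V), H.index = p ∧
      iSup W = ⊤ ∧ iSupIndep W ∧
      (∀ h ∈ H, ∀ i, ∀ w ∈ W i, ρ h w ∈ W i) ∧
      (∀ i, ∃ h ∈ H, h ≠ 1 ∧ ∀ w ∈ W i, ρ h w = w) ∧
      ∀ g : G, g ∉ H → ∃ σ : Equiv.Perm (Fin p), orderOf σ = p ∧ ∀ i, (W i).map (ρ g : V →ₗ[ZMod q] V) = W (σ i) := by
  classical
  have hp : p.Prime := Fact.out
  have hq : q.Prime := Fact.out
  have hpair : CfsgLib.NormalCyclic.HasPair G p := by
    by_contra h
    rcases CfsgLib.NormalCyclic.structure_of_no_pair hG h with h1 | ⟨-, ⟨n, h1⟩ | ⟨n, -, h1⟩ | h1⟩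
    · exact hnc h1
    · exact hnq n h1
    · exact hnd n h1
    · exact hnsd h1
  obtain ⟨z, e, hz, hz1, hzc, he, hne, hconj⟩ := hpair
  have hmul : ∀ g h v, ρ (g * h) v = ρ g (ρ h v) := fun g h v => by rw [map_mul]; rfl
  have hone : ∀ v, ρ (1 : G) v = v := fun v => by rw [map_one]; rfl
  have hcz : ∀ g : G, g * z = z * g := fun g => Subgroup.mem_center_iff.1 hzc g
  -- z is fixed point free
  have hzfree : ∀ v, ρ z v = v → v = 0 := by
    let W : Submodule (ZMod q) V := LinearMap.ker ((ρ z).toLinearMap - LinearMap.id)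
    have hWm : ∀ v, v ∈ W ↔ ρ z v = v := fun v => by
      rw [LinearMap.mem_ker, LinearMap.sub_apply, sub_eq_zero]; rfl
    rcases hirr W (fun g w hw => (hWm _).2 (by rw [← hmul, ← hcz, hmul, (hWm w).1 hw])) with h | h
    · intro v hv
      have := (hWm v).2 hv
      rwa [h, Submodule.mem_bot] at this
    · exfalso
      apply hz1
      exact hρ (LinearEquiv.ext fun v => by rw [hone]; exact (hWm v).1 (h ▸ Submodule.mem_top))
  -- p is not q
  have hpz : ∀ m : ℕ, ρ (z ^ m) = (ρ z) ^ m := fun m => map_pow ρ z m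
  have hzpow : ∀ (m : ℕ), ¬ p ∣ m → ∀ v, ρ (z ^ m) v = v → v = 0 := by
    intro m hm v hv
    obtain ⟨t, ht⟩ := exists_pow_eq_self_of_coprime (x := z) (n := m)
      (by rw [orderOf_eq_prime hz hz1]; exact ((hp.coprime_iff_not_dvd).2 hm).symm)
    apply hzfree
    rw [← ht]
    clear ht
    induction t with
    | zero => rw [pow_zero, hone]
    | succ t ih => rw [pow_succ, hmul, hv, ih]
  have hpq : (p : ZMod q) ≠ 0 := by
    intro h
    rw [ZMod.natCast_eq_zero_iff] at h
    obtain rfl : q = p := (Nat.prime_dvd_prime_iff_eq hq hp).1 h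
    obtain ⟨v, hv⟩ := exists_ne (0 : V)
    letI : MulAction (Subgroup.zpowers z) V :=
      { smul := fun g w => ρ (g : G) w
        one_smul := fun w => hone w
        mul_smul := fun g g' w => hmul _ _ w }
    have hZ : IsPGroup q (Subgroup.zpowers z) := hG.to_subgroup _
    have hdvd : q ∣ Nat.card V := by
      rw [Module.natCard_eq_pow_finrank (K := ZMod q), Nat.card_zmod]
      exact dvd_pow_self q (Module.finrank_pos.ne')
    have h0 : (0 : V) ∈ MulAction.fixedPoints (Subgroup.zpowers z) V := fun g => map_zero (ρ (g : G))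
    obtain ⟨b, hb, hb0⟩ := hZ.exists_fixed_point_of_prime_dvd_card_of_fixed_point V hdvd h0
    exact hb0 (hzfree b (hb ⟨z, Subgroup.mem_zpowers z⟩)).symm
  set H := Subgroup.centralizer ({e} : Set G)
  have hH : ∀ g, g ∈ H ↔ g * e = e * g := fun g => Subgroup.mem_centralizer_singleton_iff
  -- conjugation shifts
  have hshift : ∀ g : G, ∃ i : ℕ, i < p ∧ g * e * g⁻¹ = e * z ^ i := by
    intro g
    obtain ⟨k, hk⟩ := hconj g
    have hk' : z ^ k = e⁻¹ * (g * e * g⁻¹) := hk
    refine ⟨(k % (p : ℤ)).toNat, ?_, ?_⟩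
    · have h1 := Int.emod_lt_of_pos k (b := (p : ℤ)) (by exact_mod_cast hp.pos)
      have h2 := Int.emod_nonneg k (b := (p : ℤ)) (by exact_mod_cast hp.ne_zero)
      omega
    · rw [← zpow_natCast, Int.toNat_of_nonneg (Int.emod_nonneg k (by exact_mod_cast hp.ne_zero)),
        ← orderOf_eq_prime hz hz1, zpow_mod_orderOf, hk', mul_inv_cancel_left]
  choose sh hsh hsh' using hshift
  have hze : Commute z e := (hcz e).symm
  let W : Fin p → Submodule (ZMod q) V := fun i => LinearMap.ker ((ρ (e * z ^ (i : ℕ))).toLinearMap - LinearMap.id)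
  have hWm : ∀ i v, v ∈ W i ↔ ρ (e * z ^ (i : ℕ)) v = v := fun i v => by
    rw [LinearMap.mem_ker, LinearMap.sub_apply, sub_eq_zero]; rfl
  have hkpow : ∀ (i : ℕ) (k : ℕ), (e * z ^ i) ^ k = e ^ k * z ^ (i * k) := by
    intro i k
    rw [(hze.symm.pow_right i).mul_pow, pow_mul]
  have hpow1 : ∀ i : ℕ, (e * z ^ i) ^ p = 1 := fun i => by
    rw [hkpow, he, mul_comm i p, pow_mul, hz, one_pow, one_mul]
  let P : ℕ → V →ₗ[ZMod q] V := fun i =>
    (p : ZMod q)⁻¹ • ∑ k ∈ Finset.range p, (ρ ((e * z ^ i) ^ k)).toLinearMap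
  have hPapp : ∀ i v, P i v = (p : ZMod q)⁻¹ • ∑ k ∈ Finset.range p, ρ ((e * z ^ i) ^ k) v := by
    intro i v; simp [P]
  have hPmem : ∀ (i : Fin p) v, P i v ∈ W i := by
    intro i v
    rw [hWm, hPapp, map_smul, map_sum]
    congr 1
    have h1 := Finset.sum_range_succ (fun k => ρ ((e * z ^ (i : ℕ)) ^ k) v) p
    have h2 := Finset.sum_range_succ' (fun k => ρ ((e * z ^ (i : ℕ)) ^ k) v) p
    rw [h1, hpow1, pow_zero] at h2
    calc ∑ k ∈ Finset.range p, ρ (e * z ^ (i : ℕ)) (ρ ((e * z ^ (i : ℕ)) ^ k) v)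
        = ∑ k ∈ Finset.range p, ρ ((e * z ^ (i : ℕ)) ^ (k + 1)) v :=
          Finset.sum_congr rfl fun k _ => by rw [← hmul, ← pow_succ']
      _ = _ := (add_right_cancel h2).symm
  -- character orthogonality
  have horth : ∀ (m : ℕ), ¬ p ∣ m → ∀ v, ∑ k ∈ Finset.range p, ρ ((z ^ m) ^ k) v = 0 := by
    intro m hm v
    apply hzpow m hm
    rw [map_sum]
    have h1 := Finset.sum_range_succ (fun k => ρ ((z ^ m) ^ k) v) p
    have h2 := Finset.sum_range_succ' (fun k => ρ ((z ^ m) ^ k) v) p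
    rw [h1, show (z ^ m) ^ p = 1 from by rw [← pow_mul, mul_comm, pow_mul, hz, one_pow], pow_zero] at h2
    calc ∑ k ∈ Finset.range p, ρ (z ^ m) (ρ ((z ^ m) ^ k) v)
        = ∑ k ∈ Finset.range p, ρ ((z ^ m) ^ (k + 1)) v := Finset.sum_congr rfl fun k _ => by rw [← hmul, ← pow_succ']
      _ = _ := (add_right_cancel h2).symm
  have hsumP : ∀ v, ∑ i : Fin p, P i v = v := by
    intro v
    simp only [hPapp]
    rw [← Finset.smul_sum, Finset.sum_comm, Finset.sum_eq_single 0]
    · simp only [pow_zero, hone, Finset.sum_const, Finset.card_univ, Fintype.card_fin]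
      rw [← Nat.cast_smul_eq_nsmul (ZMod q), smul_smul, inv_mul_cancel₀ hpq, one_smul]
    · intro k hk hk0
      have hkp : ¬ p ∣ k := fun h => by
        have := Nat.le_of_dvd (Nat.pos_of_ne_zero hk0) h
        have := Finset.mem_range.1 hk
        omega
      calc ∑ i : Fin p, ρ ((e * z ^ (i : ℕ)) ^ k) v = ρ (e ^ k) (∑ i : Fin p, ρ ((z ^ k) ^ (i : ℕ)) v) := by
            rw [map_sum]
            refine Finset.sum_congr rfl fun i _ => ?_
            rw [hkpow, hmul, ← pow_mul, mul_comm (i : ℕ) k]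
        _ = 0 := by
          rw [Fin.sum_univ_eq_sum_range (fun i => ρ ((z ^ k) ^ i) v), horth k hkp, map_zero]
    · intro h; exact absurd (Finset.mem_range.2 hp.pos) h
  have hPother : ∀ (i j : Fin p), i ≠ j → ∀ v ∈ W i, P j v = 0 := by
    intro i j hij v hv
    have hfix : ∀ k : ℕ, ρ ((e * z ^ (i : ℕ)) ^ k) v = v := by
      intro k
      induction k with
      | zero => rw [pow_zero, hone]
      | succ k ih => rw [pow_succ, hmul, (hWm i v).1 hv, ih]
    set m := (j : ℕ) + (p - i) with hm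
    have hij2 : ¬ p ∣ m := by
      intro h
      apply hij
      have hi := i.2
      have hj := j.2
      obtain ⟨c, hc⟩ := h
      apply Fin.ext
      rcases c with _ | _ | c
      · omega
      · omega
      · have h5 : p * (c + 1 + 1) = p * c + p + p := by ring
        omega
    rw [hPapp]
    have hterm : ∀ k : ℕ, ρ ((e * z ^ (j : ℕ)) ^ k) v = ρ ((z ^ m) ^ k) v := by
      intro k
      have he2 : e * z ^ (j : ℕ) = z ^ m * (e * z ^ (i : ℕ)) := by
        rw [← mul_assoc, (hze.pow_left m).eq, mul_assoc, ← pow_add, hm,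
          show (j : ℕ) + (p - i) + i = j + p from by have := i.2; omega, pow_add, hz, mul_one]
      have hc : Commute (z ^ m) (e * z ^ (i : ℕ)) := (hze.pow_left m).mul_right (Commute.pow_pow_self z m i)
      rw [he2, hc.mul_pow, hmul, hfix]
    rw [Finset.sum_congr rfl (fun k _ => hterm k), horth m hij2, smul_zero]
  have hindep : iSupIndep W := by
    intro i
    rw [disjoint_iff, eq_bot_iff]
    intro v hv
    obtain ⟨h1, h2⟩ := Submodule.mem_inf.1 hv
    rw [Submodule.mem_bot, ← hsumP v, Finset.sum_eq_single i]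
    · have hker : (⨆ j, ⨆ (_ : j ≠ i), W j) ≤ LinearMap.ker (P i) :=
        iSup₂_le fun j hj w hw => LinearMap.mem_ker.2 (hPother j i hj w hw)
      exact LinearMap.mem_ker.1 (hker h2)
    · exact fun j _ hj => hPother i j (Ne.symm hj) v h1
    · exact fun h => absurd (Finset.mem_univ i) h
  have htop : iSup W = ⊤ := by
    rw [eq_top_iff]
    intro v _
    rw [← hsumP v]
    exact Submodule.sum_mem _ fun i _ => Submodule.mem_iSup_of_mem i (hPmem i v)
  -- conjugation action on the summands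
  haveI : NeZero p := ⟨hp.ne_zero⟩
  let σ : G → Equiv.Perm (Fin p) := fun g => Equiv.addRight (⟨sh g, hsh g⟩ : Fin p)
  have hσ : ∀ g i, σ g i = i + (⟨sh g, hsh g⟩ : Fin p) := fun g i => rfl
  have hσ0 : ∀ g i, sh g = 0 → σ g i = i := fun g i h => by
    rw [hσ]
    have : (⟨sh g, hsh g⟩ : Fin p) = 0 := Fin.ext (by rw [Fin.val_zero]; exact h)
    rw [this, add_zero]
  have hzconj : ∀ (g : G) (i : ℕ), g * (e * z ^ i) * g⁻¹ = e * z ^ (sh g + i) := by
    intro g i
    have hc : Commute g (z ^ i) := (show Commute g z from hcz g).pow_right i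
    calc g * (e * z ^ i) * g⁻¹ = g * e * (z ^ i * g⁻¹) := by group
      _ = g * e * g⁻¹ * z ^ i := by rw [← hc.inv_left.eq]; group
      _ = e * z ^ (sh g + i) := by rw [hsh', pow_add, mul_assoc]
  have hzmod : ∀ m : ℕ, z ^ m = z ^ (m % p) := fun m => by
    conv_lhs => rw [← pow_mod_orderOf, orderOf_eq_prime hz hz1]
  have hmap : ∀ (g : G) i, (W i).map (ρ g : V →ₗ[ZMod q] V) ≤ W (σ g i) := by
    intro g i
    rintro _ ⟨v, hv, rfl⟩
    rw [hWm]
    have h1 : e * z ^ ((σ g i : Fin p) : ℕ) = g * (e * z ^ (i : ℕ)) * g⁻¹ := by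
      rw [hzconj, hσ, Fin.val_add]
      congr 1
      rw [hzmod (sh g + i)]
      congr 1
      rw [add_comm]
    show ρ (e * z ^ ((σ g i : Fin p) : ℕ)) (ρ g v) = ρ g v
    rw [h1, ← hmul, inv_mul_cancel_right, hmul, (hWm i v).1 hv]
  have hinvmap : ∀ (g : G) i, (W i).map (ρ g : V →ₗ[ZMod q] V) = W (σ g i) := by
    intro g i
    refine le_antisymm (hmap g i) fun w hw => ⟨ρ g⁻¹ w, ?_, ?_⟩
    · show ρ g⁻¹ w ∈ W i
      rw [hWm, ← hmul]
      have h1 : e * z ^ (i : ℕ) = g⁻¹ * (e * z ^ ((σ g i : Fin p) : ℕ)) * g := by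
        have h2 : e * z ^ ((σ g i : Fin p) : ℕ) = g * (e * z ^ (i : ℕ)) * g⁻¹ := by
          rw [hzconj, hσ, Fin.val_add]
          congr 1
          rw [hzmod (sh g + i)]
          congr 1
          rw [add_comm]
        rw [h2]; group
      rw [h1, mul_inv_cancel_right, hmul, (hWm _ w).1 hw]
    · show ρ g (ρ g⁻¹ w) = w
      rw [← hmul, mul_inv_cancel, hone]
  have hH0 : ∀ g, g ∈ H → sh g = 0 := by
    intro g hg
    have h1 := hsh' g
    rw [(hH g).1 hg, mul_inv_cancel_right, left_eq_mul] at h1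
    have h2 := orderOf_dvd_of_pow_eq_one h1
    rw [orderOf_eq_prime hz hz1] at h2
    exact Nat.eq_zero_of_dvd_of_lt h2 (hsh g)
  have hH1 : ∀ g, g ∉ H → sh g ≠ 0 := by
    intro g hg h
    apply hg
    have h1 := hsh' g
    rw [h, pow_zero, mul_one, mul_inv_eq_iff_eq_mul] at h1
    exact (hH g).2 h1
  -- the index
  obtain ⟨g0, hg0⟩ : ∃ g, g ∉ H := by
    by_contra hc
    push Not at hc
    -- e would be central, so fixed point free, contradicting the decomposition
    have hdec : ∃ i, W i ≠ ⊥ := by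
      by_contra hb
      push Not at hb
      obtain ⟨v, hv⟩ := exists_ne (0 : V)
      have : v ∈ iSup W := htop ▸ Submodule.mem_top
      rw [iSup_eq_bot.2 hb, Submodule.mem_bot] at this
      exact hv this
    obtain ⟨i, hi⟩ := hdec
    rcases hirr (W i) (fun g w hw => by
      have := hmap g i (Submodule.mem_map_of_mem hw)
      rwa [hσ0 g i (hH0 g (hc g))] at this) with h | h
    · exact hi h
    · apply hne
      have h1 : e * z ^ (i : ℕ) = 1 := hρ (LinearEquiv.ext fun v => by rw [hone]; exact (hWm i v).1 (h ▸ Submodule.mem_top))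
      rw [eq_inv_of_mul_eq_one_left h1]
      exact Subgroup.inv_mem _ (Subgroup.pow_mem _ (Subgroup.mem_zpowers z) _)
  have hshhom : ∀ g g' : G, ((sh (g * g') : ℕ) : ZMod p) = (sh g : ZMod p) + (sh g' : ZMod p) := by
    intro g g'
    have h1 := hsh' (g * g')
    rw [show g * g' * e * (g * g')⁻¹ = g * (g' * e * g'⁻¹) * g⁻¹ from by group, hsh' g', hzconj, mul_right_inj,
      pow_eq_pow_iff_modEq, orderOf_eq_prime hz hz1, ← ZMod.natCast_eq_natCast_iff] at h1
    rw [← h1]; push_cast; rfl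
  let f : G →* Multiplicative (ZMod p) := MonoidHom.mk' (fun g => Multiplicative.ofAdd ((sh g : ℕ) : ZMod p))
    (fun g g' => by rw [hshhom, ofAdd_add])
  have hker : f.ker = H := by
    ext g
    rw [MonoidHom.mem_ker]
    show Multiplicative.ofAdd ((sh g : ℕ) : ZMod p) = 1 ↔ _
    rw [ofAdd_eq_one, ZMod.natCast_eq_zero_iff]
    constructor
    · intro h; by_contra hg; exact hH1 g hg (Nat.eq_zero_of_dvd_of_lt h (hsh g))
    · intro hg; rw [hH0 g hg]; exact dvd_zero p
  have hidx : H.index = p := by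
    rw [← hker, Subgroup.index_ker]
    have hd : Nat.card f.range ∣ p := by
      have := f.range.card_subgroup_dvd_card
      rwa [show Nat.card (Multiplicative (ZMod p)) = p from (Nat.card_congr Multiplicative.toAdd).trans (Nat.card_zmod p)] at this
    refine (hp.eq_one_or_self_of_dvd _ hd).resolve_left fun h => ?_
    rw [Subgroup.card_eq_one, MonoidHom.range_eq_bot_iff] at h
    apply hg0
    rw [← hker, h]
    exact MonoidHom.mem_ker.2 rfl
  refine ⟨H, W, hidx, htop, hindep, ?_, ?_, ?_⟩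
  · intro h hh i w hw
    have := hmap h i (Submodule.mem_map_of_mem hw)
    rwa [hσ0 h i (hH0 h hh)] at this
  · intro i
    refine ⟨e * z ^ (i : ℕ), (hH _).2 ?_, fun h1 => ?_, fun w hw => (hWm i w).1 hw⟩
    · exact ((Commute.refl e).mul_left ((hze.pow_left _))).eq
    · apply hne
      rw [eq_inv_of_mul_eq_one_left h1]
      exact Subgroup.inv_mem _ (Subgroup.pow_mem _ (Subgroup.mem_zpowers z) _)
  · intro g hg
    refine ⟨σ g, ?_, hinvmap g⟩
    have hc : (⟨sh g, hsh g⟩ : Fin p) ≠ 0 := by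
      intro h
      have h1 := congrArg Fin.val h
      rw [Fin.val_zero] at h1
      exact hH1 g hg h1
    haveI := Fact.mk hp
    refine orderOf_eq_prime ?_ ?_
    · have hpw : ∀ (m : ℕ) (x : Fin p), ((σ g) ^ m) x = x + m • (⟨sh g, hsh g⟩ : Fin p) := by
        intro m
        induction m with
        | zero => intro x; simp
        | succ m ih => intro x; rw [pow_succ, Equiv.Perm.mul_apply, ih, hσ, succ_nsmul]; abel
      refine Equiv.ext fun x => ?_
      rw [hpw]
      have : p • (⟨sh g, hsh g⟩ : Fin p) = 0 := by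
        have := card_nsmul_eq_zero (G := Fin p) (x := (⟨sh g, hsh g⟩ : Fin p))
        rwa [Fintype.card_fin] at this
      rw [this, add_zero]; rfl
    · intro h
      apply hc
      have := congrArg (fun s : Equiv.Perm (Fin p) => s 0) h
      simpa [hσ] using this

end Cfsg.Agent.S3380
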