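import Cfsg.Statements.S3381


set_option autoImplicit false
open Cfsg

namespace Cfsg.Agent.S3381

/-- Let G be a finite group acting faithfully and linearly on a non-trivial finite vector space V over the field with q elements (q prime) so that every non-zero vector has a stabilizer of order 2, and suppose G has a central involution. Then V has q^(2r) elements for some r and G contains exactly q^r + 1 non-central involutions. -/
theorem result
    (q : ℕ) [Fact q.Prime] {V : Type*} [AddCommGroup V] [Module (ZMod q) V] [Finite V] [Nontrivial V]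
    {G : Type*} [Group G] [Finite G] (ρ : G →* (V ≃ₗ[ZMod q] V)) (hρ : Function.Injective ρ)
    (hstab : ∀ v : V, v ≠ 0 → Nat.card {g : G // ρ g v = v} = 2)
    (z : G) (hz : orderOf z = 2) (hzc : z ∈ Subgroup.center G) :
    ∃ r : ℕ, Nat.card V = q ^ (2 * r) ∧
      Nat.card {g : G // orderOf g = 2 ∧ g ∉ Subgroup.center G} = q ^ r + 1 := by
  classical
  have hq : q.Prime := Fact.out
  haveI : Module.Finite (ZMod q) V := Module.Finite.of_finite
  have hz1 : z ≠ 1 := fun e => by rw [e, orderOf_one] at hz; norm_num at hz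
  have hzz : z * z = 1 := by rw [← pow_two, ← hz]; exact pow_orderOf_eq_one z
  have hcomm : ∀ g v, ρ g (ρ z v) = ρ z (ρ g v) := by
    intro g v
    show (ρ g * ρ z) v = (ρ z * ρ g) v
    rw [← map_mul, ← map_mul, Subgroup.mem_center_iff.1 hzc g]
  have hmul : ∀ g h v, ρ (g * h) v = ρ g (ρ h v) := fun g h v => by rw [map_mul]; rfl
  have hone : ∀ v, ρ (1 : G) v = v := fun v => by rw [map_one]; rfl
  have hinv2 : ∀ g : G, g * g = 1 → ∀ v, ρ g (ρ g v) = v := fun g hg v => by rw [← hmul, hg, hone]
  -- stabilisers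
  have hst : ∀ v : V, v ≠ 0 → ∃ t : G, orderOf t = 2 ∧ ρ t v = v ∧ ∀ g, ρ g v = v → g = 1 ∨ g = t := by
    intro v hv
    haveI : Fact (Nat.Prime 2) := ⟨Nat.prime_two⟩
    let S : Subgroup G :=
      { carrier := {g | ρ g v = v}
        one_mem' := hone v
        mul_mem' := fun {a b} ha hb => by show ρ (a * b) v = v; rw [hmul, hb, ha]
        inv_mem' := fun {a} ha => by
          show ρ a⁻¹ v = v
          have h := congrArg (ρ a⁻¹) (ha : ρ a v = v)
          rw [← hmul, inv_mul_cancel, hone] at h
          exact h.symm }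
    have hS : Nat.card S = 2 := hstab v hv
    obtain ⟨t, ht⟩ := exists_prime_orderOf_dvd_card' (G := S) 2 (by rw [hS])
    rw [← Subgroup.orderOf_coe] at ht
    refine ⟨t, ht, t.2, fun g hg => ?_⟩
    have h1 : Subgroup.zpowers (t : G) = S :=
      Subgroup.eq_of_le_of_card_ge (Subgroup.zpowers_le.2 t.2) (by rw [Nat.card_zpowers, hS, ht])
    have h2 : g ∈ Subgroup.zpowers (t : G) := by rw [h1]; exact hg
    obtain ⟨i, rfl⟩ := h2
    rcases Int.even_or_odd i with ⟨k, rfl⟩ | ⟨k, rfl⟩
    · left
      show (t : G) ^ (k + k) = 1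
      rw [← two_mul, zpow_mul, zpow_ofNat, ← ht, pow_orderOf_eq_one, one_zpow]
    · right
      show (t : G) ^ (2 * k + 1) = t
      rw [zpow_add, zpow_mul, zpow_ofNat, ← ht, pow_orderOf_eq_one, one_zpow, one_mul, zpow_one]
  -- z has no fixed points
  have hzneg : ∀ v, ρ z v = -v := by
    have hfix0 : ∀ w, w ≠ 0 → ρ z w ≠ w := by
      intro w hw hzw
      obtain ⟨u, hu⟩ : ∃ u, ρ z u ≠ u := by
        by_contra h
        push_neg at h
        exact hz1 (hρ (LinearEquiv.ext fun v => by rw [h, hone]))
      have hu0 : u ≠ 0 := fun e => hu (by rw [e, map_zero])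
      obtain ⟨t, ht, htu, -⟩ := hst u hu0
      have ht1 : t ≠ 1 := fun e => by rw [e, orderOf_one] at ht; norm_num at ht
      by_cases hsum : ρ z u + u = 0
      · -- u is negated: look at w + u
        have hzu : ρ z u = -u := eq_neg_of_add_eq_zero_left hsum
        have hwu : w + u ≠ 0 := by
          intro e
          apply hu
          have : u = -w := eq_neg_of_add_eq_zero_right e
          rw [this, map_neg, hzw]
        obtain ⟨g, hg, hgf, -⟩ := hst _ hwu
        have h2 := congrArg (ρ z) hgf
        rw [← hcomm, map_add, hzw, hzu] at h2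
        have h3 : ρ g ((2 : ZMod q) • w) = (2 : ZMod q) • w := by
          have e : (2 : ZMod q) • w = (w + u) + (w + -u) := by rw [two_smul]; abel
          rw [e, map_add, hgf, h2]
        have h20 : (2 : ZMod q) ≠ 0 := by
          intro h
          apply hu
          rw [hzu]
          refine neg_eq_of_add_eq_zero_left ?_
          rw [← two_smul (ZMod q) u, h, zero_smul]
        have hgw : ρ g w = w := by
          rw [map_smul] at h3
          exact smul_right_injective V h20 h3
        obtain ⟨t', -, -, huniq⟩ := hst w hw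
        have hg1 : g ≠ 1 := fun e => by rw [e, orderOf_one] at hg; norm_num at hg
        have e1 := (huniq g hgw).resolve_left hg1
        have e2 := (huniq z hzw).resolve_left hz1
        rw [e1, ← e2, map_add, hzw, hzu, add_right_inj] at hgf
        exact hu (hzu.trans hgf)
      · have hfix : ρ t (ρ z u + u) = ρ z u + u := by rw [map_add, hcomm, htu]
        have hzfix : ρ z (ρ z u + u) = ρ z u + u := by rw [map_add, hinv2 z hzz, add_comm]
        obtain ⟨s, -, -, huniq⟩ := hst _ hsum
        have e1 := (huniq t hfix).resolve_left ht1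
        have e2 := (huniq z hzfix).resolve_left hz1
        rw [e1, ← e2] at htu
        exact hu htu
    intro v
    by_contra h
    have h0 : ρ z v + v ≠ 0 := fun e => h (eq_neg_of_add_eq_zero_left e)
    exact hfix0 _ h0 (by rw [map_add, hinv2 z hzz, add_comm])
  have hne2 : ∀ v : V, v ≠ 0 → -v ≠ v := by
    intro v hv e
    obtain ⟨u, hu⟩ : ∃ u, ρ z u ≠ u := by
      by_contra h
      push_neg at h
      exact hz1 (hρ (LinearEquiv.ext fun v => by rw [h, hone]))
    have h20 : (2 : ZMod q) = 0 := by
      by_contra h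
      have : (2 : ZMod q) • v = (2 : ZMod q) • (0 : V) := by
        rw [smul_zero, two_smul]
        calc v + v = -v + v := by rw [e]
          _ = 0 := neg_add_cancel v
      exact hv (smul_right_injective V h this)
    apply hu
    rw [hzneg]
    refine neg_eq_of_add_eq_zero_left ?_
    rw [← two_smul (ZMod q) u, h20, zero_smul]
  -- the non-central involutions
  let N := {g : G // orderOf g = 2 ∧ g ∉ Subgroup.center G}
  have hcent : ∀ g : G, orderOf g = 2 → g ∈ Subgroup.center G → g = z := by
    intro g hg hgc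
    have hg1 : g ≠ 1 := fun e => by rw [e, orderOf_one] at hg; norm_num at hg
    have hgg : g * g = 1 := by rw [← pow_two, ← hg]; exact pow_orderOf_eq_one g
    by_contra hgz
    have hnf : ∀ w, w ≠ 0 → ρ g w = w → False := by
      intro w hw hgw
      obtain ⟨u, hu⟩ : ∃ u, ρ g u ≠ u := by
        by_contra h
        push_neg at h
        exact hg1 (hρ (LinearEquiv.ext fun v => by rw [h, hone]))
      set u' := ρ g u - u with hu'
      have hu0 : u' ≠ 0 := sub_ne_zero.2 hu
      have hgu : ρ g u' = -u' := by rw [hu', map_sub, hinv2 g hgg, neg_sub]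
      have hwu : w + u' ≠ 0 := by
        intro e
        have e2 : u' = -w := eq_neg_of_add_eq_zero_right e
        rw [e2, map_neg, hgw, neg_neg] at hgu
        exact hne2 w hw hgu
      obtain ⟨h, hh, hhf, -⟩ := hst _ hwu
      have h2 := congrArg (ρ g) hhf
      rw [← hmul, ← Subgroup.mem_center_iff.1 hgc h, hmul, map_add, hgw, hgu] at h2
      have h20 : (2 : ZMod q) ≠ 0 := by
        intro e
        apply hne2 w hw
        refine neg_eq_of_add_eq_zero_left ?_
        rw [← two_smul (ZMod q) w, e, zero_smul]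
      have h3 : ρ h ((2 : ZMod q) • w) = (2 : ZMod q) • w := by
        have e : (2 : ZMod q) • w = (w + u') + (w + -u') := by rw [two_smul]; abel
        rw [e, map_add, hhf, h2]
      rw [map_smul] at h3
      have hhw := smul_right_injective V h20 h3
      obtain ⟨t', -, -, huniq⟩ := hst w hw
      have hh1 : h ≠ 1 := fun e => by rw [e, orderOf_one] at hh; norm_num at hh
      have e1 := (huniq h hhw).resolve_left hh1
      have e2 := (huniq g hgw).resolve_left hg1
      rw [e1, ← e2, map_add, hgw, hgu, add_right_inj] at hhf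
      exact hne2 u' hu0 hhf
    apply hgz
    refine hρ (LinearEquiv.ext fun v => ?_)
    rw [hzneg]
    by_contra h
    exact hnf _ (fun e => h (eq_neg_of_add_eq_zero_left e)) (by rw [map_add, hinv2 g hgg, add_comm])
  let W : N → Submodule (ZMod q) V := fun t => LinearMap.ker ((ρ t.1).toLinearMap - LinearMap.id)
  have hW : ∀ t v, v ∈ W t ↔ ρ t.1 v = v := by
    intro t v
    rw [LinearMap.mem_ker, LinearMap.sub_apply, sub_eq_zero]
    rfl
  have hcover : ∀ v : V, v ≠ 0 → ∃ t : N, v ∈ W t ∧ ∀ t' : N, v ∈ W t' → t' = t := by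
    intro v hv
    obtain ⟨t, ht, htv, hu⟩ := hst v hv
    have htc : t ∉ Subgroup.center G := by
      intro hc
      rw [hcent t ht hc, hzneg] at htv
      exact hne2 v hv htv
    refine ⟨⟨t, ht, htc⟩, (hW _ _).2 htv, fun t' ht' => Subtype.ext ?_⟩
    refine (hu _ ((hW _ _).1 ht')).resolve_left fun e => ?_
    have := t'.2.1
    rw [e, orderOf_one] at this
    norm_num at this
  have hN1 : ∀ t : N, t.1 ≠ 1 := by
    intro t e
    have := t.2.1
    rw [e, orderOf_one] at this
    norm_num at this
  have htt : ∀ t : N, t.1 * t.1 = 1 := by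
    intro t
    have := pow_orderOf_eq_one t.1
    rwa [t.2.1, pow_two] at this
  have hσ : ∀ t : N, ∃ t' : N, t'.1 = z * t.1 := by
    intro t
    refine ⟨⟨z * t.1, ?_, ?_⟩, rfl⟩
    · haveI : Fact (Nat.Prime 2) := ⟨Nat.prime_two⟩
      refine orderOf_eq_prime ?_ ?_
      · have hc : Commute z t.1 := (Subgroup.mem_center_iff.1 hzc t.1).symm
        rw [hc.mul_pow, pow_two, pow_two, hzz, htt, one_mul]
      · intro e
        apply t.2.2
        have : t.1 = z := by
          calc t.1 = (z * z) * t.1 := by rw [hzz, one_mul]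
            _ = z := by rw [mul_assoc, e, mul_one]
        rw [this]; exact hzc
    · intro hc
      apply t.2.2
      have := Subgroup.mul_mem _ hzc hc
      rwa [← mul_assoc, hzz, one_mul] at this
  choose σ hσ using hσ
  have hdisj : ∀ t t' : N, t ≠ t' → W t ⊓ W t' = ⊥ := by
    intro t t' hne
    rw [eq_bot_iff]
    intro v hv
    rw [Submodule.mem_bot]
    by_contra hv0
    obtain ⟨s, -, hs⟩ := hcover v hv0
    exact hne ((hs t hv.1).trans (hs t' hv.2).symm)
  have hsum : ∀ t : N, Module.finrank (ZMod q) (W t) + Module.finrank (ZMod q) (W (σ t)) = Module.finrank (ZMod q) V := by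
    intro t
    have hne : t ≠ σ t := by
      intro e
      have := hσ t
      rw [← e] at this
      exact hz1 (mul_eq_right.1 this.symm)
    have hsup : W t ⊔ W (σ t) = ⊤ := by
      rw [eq_top_iff]
      intro v _
      have h20 : (2 : ZMod q) ≠ 0 := by
        intro h
        obtain ⟨w, hw⟩ := exists_ne (0 : V)
        apply hne2 w hw
        refine neg_eq_of_add_eq_zero_left ?_
        rw [← two_smul (ZMod q) w, h, zero_smul]
      have e : v = (2 : ZMod q)⁻¹ • (v + ρ t.1 v) + (2 : ZMod q)⁻¹ • (v - ρ t.1 v) := by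
        rw [← smul_add, show v + ρ t.1 v + (v - ρ t.1 v) = (2 : ZMod q) • v from by rw [two_smul]; abel, smul_smul,
          inv_mul_cancel₀ h20, one_smul]
      rw [e]
      refine Submodule.add_mem_sup (Submodule.smul_mem _ _ ((hW _ _).2 ?_)) (Submodule.smul_mem _ _ ((hW _ _).2 ?_))
      · rw [map_add, hinv2 _ (htt t), add_comm]
      · rw [hσ, hmul, map_sub, hinv2 _ (htt t), hzneg, neg_sub]
    have := Submodule.finrank_sup_add_finrank_inf_eq (W t) (W (σ t))
    rw [hsup, hdisj _ _ hne, finrank_top, finrank_bot] at this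
    omega
  have hle : ∀ t t' : N, t ≠ t' → Module.finrank (ZMod q) (W t) + Module.finrank (ZMod q) (W t') ≤ Module.finrank (ZMod q) V := by
    intro t t' hne
    have := Submodule.finrank_sup_add_finrank_inf_eq (W t) (W t')
    rw [hdisj _ _ hne, finrank_bot, add_zero] at this
    rw [← this]
    exact Submodule.finrank_le _
  have hproper : ∀ t : N, W t ≠ ⊤ := by
    intro t h
    apply hN1 t
    refine hρ (LinearEquiv.ext fun v => ?_)
    rw [hone, (hW t v).1 (h ▸ Submodule.mem_top)]
  have hhalf : ∀ t : N, 2 * Module.finrank (ZMod q) (W t) = Module.finrank (ZMod q) V := by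
    intro t
    obtain ⟨t', h1, h2⟩ : ∃ t' : N, t' ≠ t ∧ t' ≠ σ t := by
      by_contra h
      push_neg at h
      obtain ⟨a, ha⟩ : ∃ a, a ∉ W t := by
        by_contra hc; push_neg at hc; exact hproper t (eq_top_iff.2 fun v _ => hc v)
      obtain ⟨b, hb⟩ : ∃ b, b ∉ W (σ t) := by
        by_contra hc; push_neg at hc; exact hproper _ (eq_top_iff.2 fun v _ => hc v)
      have hmem : ∀ v, v ∈ W t ∨ v ∈ W (σ t) := by
        intro v
        by_cases hv : v = 0
        · exact Or.inl (hv ▸ Submodule.zero_mem _)
        · obtain ⟨s, hs, -⟩ := hcover v hv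
          by_cases hst' : s = t
          · exact Or.inl (hst' ▸ hs)
          · exact Or.inr (h s hst' ▸ hs)
      have ha' := (hmem a).resolve_left ha
      have hb' := (hmem b).resolve_right hb
      rcases hmem (a + b) with hab | hab
      · exact ha (by simpa using Submodule.sub_mem _ hab hb')
      · exact hb (by simpa using Submodule.sub_mem _ hab ha')
    have h2' : σ t' ≠ t := by
      intro e
      apply h2
      apply Subtype.ext
      rw [hσ t, ← e, hσ t', ← mul_assoc, hzz, one_mul]
    have h1' : σ t' ≠ σ t := by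
      intro e
      apply h1
      apply Subtype.ext
      have := congrArg Subtype.val e
      rw [hσ, hσ] at this
      exact mul_left_cancel this
    have := hsum t
    have := hsum t'
    have := hle t t' (Ne.symm h1)
    have := hle t (σ t') (Ne.symm h2')
    have := hle (σ t) t' (Ne.symm h2)
    have := hle (σ t) (σ t') (Ne.symm h1')
    omega
  obtain ⟨v0, hv0⟩ := exists_ne (0 : V)
  obtain ⟨t0, -, -⟩ := hcover v0 hv0
  set r := Module.finrank (ZMod q) (W t0)
  have hV : Nat.card V = q ^ (2 * r) := by
    rw [hhalf, Module.natCard_eq_pow_finrank (K := ZMod q), Nat.card_zmod]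
  refine ⟨r, hV, ?_⟩
  have hWc : ∀ t : N, Nat.card {v : W t // v ≠ 0} = q ^ r - 1 := by
    intro t
    rw [show Nat.card {v : W t // v ≠ 0} = Nat.card ({(0 : W t)}ᶜ : Set (W t)) from rfl, Nat.card_coe_set_eq,
      Set.ncard_compl, Set.ncard_singleton, Module.natCard_eq_pow_finrank (K := ZMod q), Nat.card_zmod]
    congr 2
    have := hhalf t
    have := hhalf t0
    omega
  haveI := Fintype.ofFinite N
  have heq : Nat.card {v : V // v ≠ 0} = Nat.card N * (q ^ r - 1) := by
    have e : ((t : N) × {v : W t // v ≠ 0}) ≃ {v : V // v ≠ 0} := by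
      refine Equiv.ofBijective (fun x => ⟨x.2.1.1, fun e => x.2.2 (Subtype.ext e)⟩) ⟨?_, ?_⟩
      · rintro ⟨t, v⟩ ⟨t', v'⟩ h
        have hv : (v.1 : V) = v'.1 := congrArg Subtype.val h
        obtain ⟨s, -, hs⟩ := hcover _ (fun e => v.2 (Subtype.ext e) : (v.1 : V) ≠ 0)
        obtain rfl : t = t' := (hs t v.1.2).trans (hs t' (hv ▸ v'.1.2)).symm
        rw [Sigma.mk.injEq]
        exact ⟨rfl, heq_of_eq (Subtype.ext (Subtype.ext hv))⟩
      · rintro ⟨v, hv⟩
        obtain ⟨s, hs, -⟩ := hcover v hv
        exact ⟨⟨s, ⟨v, hs⟩, fun e => hv (congrArg Subtype.val e)⟩, rfl⟩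
    rw [← Nat.card_congr e, Nat.card_sigma]
    simp [hWc, Finset.sum_const, Nat.card_eq_fintype_card]
  have hV0 : Nat.card {v : V // v ≠ 0} = q ^ (2 * r) - 1 := by
    rw [show Nat.card {v : V // v ≠ 0} = Nat.card ({(0 : V)}ᶜ : Set V) from rfl, Nat.card_coe_set_eq,
      Set.ncard_compl, Set.ncard_singleton, hV]
  rw [hV0] at heq
  have hr0 : r ≠ 0 := by
    intro e
    rw [e, mul_zero, pow_zero] at hV
    exact absurd hV (Finite.one_lt_card (α := V)).ne'
  have hqr : 1 < q ^ r := Nat.one_lt_pow hr0 hq.one_lt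
  apply Nat.eq_of_mul_eq_mul_right (show 0 < q ^ r - 1 by omega)
  rw [← heq, ← Nat.sq_sub_sq, one_pow, ← pow_mul, mul_comm]

end Cfsg.Agent.S3381
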