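import Cfsg.Statements.S3382


set_option autoImplicit false
open Cfsg

namespace Cfsg.Agent.S3382

lemma za2 : ∀ a : ZMod 2, a ≠ 0 → a = 1 := by decide

lemma zs2 : ∀ s : ZMod 2, s = 1 ∨ s = -1 → s = 1 := by decide

lemma za3 : ∀ a : ZMod 3, a ≠ 0 → a = 1 ∨ a = -1 := by decide

/-- Let q = 2^m + 1 be a prime other than 5. Then the automorphism group of the group of linear maps of F_q² of the forms (x, y) ↦ (a x, ± a⁻¹ y) and (x, y) ↦ (± a⁻¹ y, a x) with a ≠ 0 is itself a 2-group. -/
theorem result (q m : ℕ) [Fact q.Prime] (hq : q = 2 ^ m + 1) (hq5 : q ≠ 5)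
    (T : Subgroup ((Fin 2 → ZMod q) ≃ₗ[ZMod q] (Fin 2 → ZMod q)))
    (hT : ∀ f, f ∈ T ↔ ∃ a s : ZMod q, a ≠ 0 ∧ (s = 1 ∨ s = -1) ∧
      ((∀ v, f v = ![a * v 0, s * a⁻¹ * v 1]) ∨ (∀ v, f v = ![s * a⁻¹ * v 1, a * v 0]))) :
    IsPGroup 2 (MulAut T) := by
  have hqp : q.Prime := Fact.out
  haveI : Finite ((Fin 2 → ZMod q) ≃ₗ[ZMod q] (Fin 2 → ZMod q)) :=
    Finite.of_injective (fun f => (f : (Fin 2 → ZMod q) → (Fin 2 → ZMod q))) DFunLike.coe_injective
  intro φ
  obtain ⟨k, n, hn, hkn⟩ := Nat.exists_eq_two_pow_mul_odd (orderOf_pos φ).ne'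
  refine ⟨k, ?_⟩
  have hψn : (φ ^ 2 ^ k) ^ n = 1 := by rw [← pow_mul, ← hkn, pow_orderOf_eq_one]
  generalize φ ^ 2 ^ k = ψ at hψn ⊢
  clear hkn k φ
  -- iterates
  have hiter : ∀ (x d : T), ψ d = d → ψ x = x * d → ∀ j : ℕ, (ψ ^ j) x = x * d ^ j := by
    intro x d hd hx j
    induction j with
    | zero => simp
    | succ j ih =>
      rw [pow_succ', MulAut.mul_apply, ih, map_mul, hx, map_pow, hd, mul_assoc, ← pow_succ']
  have hkill : ∀ (x d : T) (e : ℕ), ψ d = d → ψ x = x * d → d ^ 2 ^ e = 1 → d = 1 := by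
    intro x d e hd hx he
    have h1 := hiter x d hd hx n
    rw [hψn] at h1
    have h2 : d ^ n = 1 := by simpa using h1.symm
    have hco : Nat.Coprime n (2 ^ e) := (Nat.coprime_two_right.2 hn).pow_right e
    exact orderOf_eq_one_iff.1 (Nat.eq_one_of_dvd_coprimes hco (orderOf_dvd_of_pow_eq_one h2) (orderOf_dvd_of_pow_eq_one he))
  have hswap2 : ∀ x y : T, (ψ x = x ∨ ψ x = y) → (ψ x = y → ψ y = x) → ψ x = x := by
    intro x y h h'
    rcases h with h | h
    · exact h
    · have h2 := h' h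
      have hj : ∀ j : ℕ, (Odd j → (ψ ^ j) x = y) ∧ (Even j → (ψ ^ j) x = x) := by
        intro j
        induction j with
        | zero => simp
        | succ j ih =>
          constructor
          · intro ho
            have he : Even j := by simpa [Nat.odd_add_one] using ho
            rw [pow_succ', MulAut.mul_apply, ih.2 he, h]
          · intro he
            have ho : Odd j := by simpa [Nat.even_add_one] using he
            rw [pow_succ', MulAut.mul_apply, ih.1 ho, h2]
      have := (hj n).1 hn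
      rw [hψn] at this
      simp at this
      rw [h, ← this]
  have hext : ∀ f g : T, (∀ v, f.1 v = g.1 v) → f = g := fun f g h => Subtype.ext (LinearEquiv.ext h)
  have hone : ∀ v, (1 : T).1 v = v := fun v => rfl
  have hmul : ∀ (f g : T) v, (f * g).1 v = f.1 (g.1 v) := fun f g v => rfl
  have he0 : ∀ (f : T) (a b : ZMod q), (∀ v, f.1 v = ![a * v 0, b * v 1]) → f.1 ![1, 0] = ![a, 0] := by
    intro f a b h
    rw [h]; simp
  -- case q = 2
  by_cases hq2 : q = 2
  · subst hq2
    have za : ∀ a : ZMod 2, a ≠ 0 → a = 1 := za2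
    have zs : ∀ s : ZMod 2, s = 1 ∨ s = -1 → s = 1 := zs2
    have hall : ∀ f : T, f = 1 ∨ ∀ v, f.1 v = ![v 1, v 0] := by
      intro f
      obtain ⟨a, s, ha, hs, h⟩ := (hT f.1).1 f.2
      have ha1 : a = 1 := za a ha
      have hs1 : s = 1 := zs s hs
      subst ha1; subst hs1
      rcases h with h | h
      · left
        refine hext _ _ fun v => ?_
        rw [h, hone]
        funext i; fin_cases i <;> simp
      · right
        intro v
        rw [h]; simp
    refine MulEquiv.ext fun x => ?_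
    show ψ x = x
    rcases hall x with h | h
    · rw [h, map_one]
    · rcases hall (ψ x) with h' | h'
      · have : x = 1 := ψ.injective (by rw [h', map_one])
        rw [this, map_one]
      · exact hext _ _ fun v => by rw [h, h']
  have hneg : (-1 : ZMod q) ≠ 1 := by
    haveI : Fact (2 < q) := ⟨lt_of_le_of_ne hqp.two_le (Ne.symm hq2)⟩
    exact ZMod.neg_one_ne_one
  -- the elements needed
  have mkdiag : ∀ a s : ZMod q, a ≠ 0 → (s = 1 ∨ s = -1) → ∃ f : T, ∀ v, f.1 v = ![a * v 0, s * a⁻¹ * v 1] := by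
    intro a s ha hs
    have hs2 : s * s = 1 := by rcases hs with h | h <;> simp [h]
    let F : (Fin 2 → ZMod q) ≃ₗ[ZMod q] (Fin 2 → ZMod q) :=
      { toFun := fun v => ![a * v 0, s * a⁻¹ * v 1]
        invFun := fun v => ![a⁻¹ * v 0, s * a * v 1]
        map_add' := fun v w => by funext i; fin_cases i <;> simp [mul_add]
        map_smul' := fun c v => by funext i; fin_cases i <;> simp <;> ring
        left_inv := fun v => by
          funext i; fin_cases i
          · simp [← mul_assoc, ha]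
          · show s * a * (s * a⁻¹ * v 1) = v 1
            rw [show s * a * (s * a⁻¹ * v 1) = (s * s) * (a * a⁻¹) * v 1 from by ring, hs2, mul_inv_cancel₀ ha]
            ring
        right_inv := fun v => by
          funext i; fin_cases i
          · simp [← mul_assoc, ha]
          · show s * a⁻¹ * (s * a * v 1) = v 1
            rw [show s * a⁻¹ * (s * a * v 1) = (s * s) * (a * a⁻¹) * v 1 from by ring, hs2, mul_inv_cancel₀ ha]
            ring }
    exact ⟨⟨F, (hT F).2 ⟨a, s, ha, hs, Or.inl fun v => rfl⟩⟩, fun v => rfl⟩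
  have mkanti : ∀ s : ZMod q, (s = 1 ∨ s = -1) → ∃ f : T, ∀ v, f.1 v = ![s * v 1, v 0] := by
    intro s hs
    have hs2 : s * s = 1 := by rcases hs with h | h <;> simp [h]
    let F : (Fin 2 → ZMod q) ≃ₗ[ZMod q] (Fin 2 → ZMod q) :=
      { toFun := fun v => ![s * v 1, v 0]
        invFun := fun v => ![v 1, s * v 0]
        map_add' := fun v w => by funext i; fin_cases i <;> simp [mul_add]
        map_smul' := fun c v => by funext i; fin_cases i <;> simp <;> ring
        left_inv := fun v => by funext i; fin_cases i <;> simp [← mul_assoc, hs2]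
        right_inv := fun v => by funext i; fin_cases i <;> simp [← mul_assoc, hs2] }
    exact ⟨⟨F, (hT F).2 ⟨1, s, one_ne_zero, hs, Or.inr fun v => by show ![s * v 1, v 0] = _; simp⟩⟩, fun v => rfl⟩
  obtain ⟨w1, hw1⟩ := mkanti 1 (Or.inl rfl)
  obtain ⟨w2, hw2⟩ := mkanti (-1) (Or.inr rfl)
  obtain ⟨vv, hvv⟩ := mkdiag 1 (-1) one_ne_zero (Or.inr rfl)
  obtain ⟨z, hz⟩ := mkdiag (-1) 1 (neg_ne_zero.2 one_ne_zero) (Or.inl rfl)
  have hinvneg : (-1 : ZMod q)⁻¹ = -1 := by rw [inv_neg, inv_one]
  by_cases hq3 : q = 3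
  · subst hq3
    have za : ∀ a : ZMod 3, a ≠ 0 → a = 1 ∨ a = -1 := za3
    -- T = <c> ∪ v<c> with c = w2
    have hc : ψ w2 = w2 := by
      refine hswap2 w2 (w2 * z) ?_ ?_
      · obtain ⟨a, s, ha, hs, h⟩ := (hT (ψ w2).1).1 (ψ w2).2
        have hne : ψ w2 * ψ w2 ≠ 1 := by
          rw [← map_mul]
          intro h1
          have h2 : w2 * w2 = 1 := ψ.injective (by rw [h1, map_one])
          have h3 := congrArg (fun f : T => f.1 ![1, 0] 0) h2
          simp [hmul, hw2, hone] at h3
          exact hneg h3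
        have ha2 : a = 1 ∨ a = -1 := za a ha
        rcases h with h | h
        · exfalso
          apply hne
          refine hext _ _ fun v => ?_
          rw [hmul, h, h, hone]
          funext i
          rcases ha2 with rfl | rfl <;> rcases hs with rfl | rfl <;> fin_cases i <;> simp [hinvneg]
        · rcases hs with rfl | rfl
          · exfalso
            apply hne
            refine hext _ _ fun v => ?_
            rw [hmul, h, h, hone]
            funext i
            rcases ha2 with rfl | rfl <;> fin_cases i <;> simp [hinvneg]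
          · rcases ha2 with rfl | rfl
            · left
              refine hext _ _ fun v => ?_
              rw [h, hw2]; simp
            · right
              refine hext _ _ fun v => ?_
              rw [h, hmul, hw2, hz]
              funext i; fin_cases i <;> simp [hinvneg]
      · intro h
        have hzz : z = w2 * w2 := hext _ _ fun v => by
          rw [hmul, hz, hw2, hw2]
          funext i; fin_cases i <;> simp [hinvneg]
        have h4 : w2 * w2 * (w2 * w2) = 1 := hext _ _ fun v => by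
          rw [hmul, hmul, hmul, hw2, hw2, hw2, hw2, hone]
          funext i; fin_cases i <;> simp
        rw [hzz] at h ⊢
        rw [map_mul, map_mul, h]
        calc w2 * (w2 * w2) * (w2 * (w2 * w2) * (w2 * (w2 * w2)))
            = (w2 * w2 * (w2 * w2)) * (w2 * w2 * (w2 * w2)) * w2 := by simp only [mul_assoc]
          _ = w2 := by rw [h4]; simp
    have hdec : ∀ f : T, ∃ j : ℕ, f = w2 ^ j ∨ f = vv * w2 ^ j := by
      intro f
      obtain ⟨a, s, ha, hs, h⟩ := (hT f.1).1 f.2
      have ha2 : a = 1 ∨ a = -1 := za a ha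
      rcases h with h | h <;> rcases ha2 with rfl | rfl <;> rcases hs with rfl | rfl
      · exact ⟨0, Or.inl (hext _ _ fun v => by rw [h, pow_zero, hone]; funext i; fin_cases i <;> simp)⟩
      · exact ⟨0, Or.inr (hext _ _ fun v => by rw [h, pow_zero, mul_one, hvv])⟩
      · exact ⟨2, Or.inl (hext _ _ fun v => by rw [h, pow_two, hmul, hw2, hw2]; funext i; fin_cases i <;> simp [hinvneg])⟩
      · exact ⟨2, Or.inr (hext _ _ fun v => by rw [h, pow_two, hmul, hmul, hvv, hw2, hw2]; funext i; fin_cases i <;> simp [hinvneg])⟩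
      · exact ⟨3, Or.inr (hext _ _ fun v => by rw [h, pow_succ, pow_two, hmul, hmul, hmul, hvv, hw2, hw2, hw2]; funext i; fin_cases i <;> simp [hinvneg])⟩
      · exact ⟨1, Or.inl (hext _ _ fun v => by rw [h, pow_one, hw2]; funext i; fin_cases i <;> simp)⟩
      · exact ⟨1, Or.inr (hext _ _ fun v => by rw [h, pow_one, hmul, hvv, hw2]; funext i; fin_cases i <;> simp [hinvneg])⟩
      · exact ⟨3, Or.inl (hext _ _ fun v => by rw [h, pow_succ, pow_two, hmul, hmul, hw2, hw2, hw2]; funext i; fin_cases i <;> simp [hinvneg])⟩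
    have hfixc : ∀ j : ℕ, ψ (w2 ^ j) = w2 ^ j := fun j => by rw [map_pow, hc]
    have hv : ψ vv = vv := by
      obtain ⟨j, h | h⟩ := hdec (ψ vv)
      · have : vv = w2 ^ j := ψ.injective (by rw [h, hfixc])
        rw [this, hfixc]
      · have h1 : (w2 ^ j) ^ 2 ^ 2 = 1 := by
          rw [← pow_mul, mul_comm, pow_mul]
          have : w2 ^ 2 ^ 2 = 1 := hext _ _ fun v => by
            rw [show (2 : ℕ) ^ 2 = 1 + 1 + 1 + 1 from rfl]
            simp only [pow_succ, pow_zero, one_mul, hmul, hw2, hone]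
            funext i; fin_cases i <;> simp
          rw [this, one_pow]
        rw [h, hkill vv _ 2 (hfixc j) h h1, mul_one]
    refine MulEquiv.ext fun x => ?_
    show ψ x = x
    obtain ⟨j, h | h⟩ := hdec x
    · rw [h, hfixc]
    · rw [h, map_mul, hv, hfixc]
  -- main case
  have h2ne : (2 : ZMod q) ≠ 0 := by
    intro h
    apply hq2
    have h' : ((2 : ℕ) : ZMod q) = 0 := by exact_mod_cast h
    exact (Nat.prime_dvd_prime_iff_eq hqp Nat.prime_two).1 ((ZMod.natCast_eq_zero_iff _ _).1 h')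
  have h16 : (2 : ZMod q) ^ 4 ≠ 1 := by
    intro h
    have h' : ((15 : ℕ) : ZMod q) = 0 := by
      push_cast
      linear_combination h
    have hd : q ∣ 3 * 5 := (ZMod.natCast_eq_zero_iff _ _).1 h'
    rcases hqp.dvd_mul.1 hd with h3 | h5
    · exact hq3 ((Nat.prime_dvd_prime_iff_eq hqp Nat.prime_three).1 h3)
    · exact hq5 ((Nat.prime_dvd_prime_iff_eq hqp Nat.prime_five).1 h5)
  have hm : 2 ≤ m := by
    rcases m with _ | _ | m
    · simp at hq; omega
    · simp at hq; omega
    · omega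
  obtain ⟨c, hc⟩ : IsSquare (-1 : ZMod q) := by
    rw [ZMod.exists_sq_eq_neg_one_iff]
    have : 4 ∣ 2 ^ m := by
      obtain ⟨m', rfl⟩ : ∃ m', m = m' + 2 := ⟨m - 2, by omega⟩
      exact ⟨2 ^ m', by ring⟩
    omega
  have hc0 : c ≠ 0 := by
    intro h
    rw [h, mul_zero] at hc
    exact one_ne_zero (neg_eq_zero.1 hc)
  let Dg : T → Prop := fun f => ∃ a b : ZMod q, ∀ v, f.1 v = ![a * v 0, b * v 1]
  have hDg : ∀ f : T, Dg f → ∃ a s : ZMod q, a ≠ 0 ∧ (s = 1 ∨ s = -1) ∧ ∀ v, f.1 v = ![a * v 0, s * a⁻¹ * v 1] := by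
    rintro f ⟨a', b', h'⟩
    obtain ⟨a, s, ha, hs, h | h⟩ := (hT f.1).1 f.2
    · exact ⟨a, s, ha, hs, h⟩
    · exfalso
      have h1 := h' ![1, 0]
      rw [h] at h1
      have := congrFun h1 1
      simp at this
      exact ha this
  have hanti : ∀ f : T, ¬ Dg f → ∃ a s : ZMod q, a ≠ 0 ∧ (s = 1 ∨ s = -1) ∧ ∀ v, f.1 v = ![s * a⁻¹ * v 1, a * v 0] := by
    intro f hf
    obtain ⟨a, s, ha, hs, h | h⟩ := (hT f.1).1 f.2
    · exact absurd ⟨a, _, h⟩ hf
    · exact ⟨a, s, ha, hs, h⟩
  have hDmul : ∀ f g : T, Dg f → Dg g → Dg (f * g) := by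
    rintro f g ⟨a, b, h⟩ ⟨a', b', h'⟩
    exact ⟨a * a', b * b', fun v => by rw [hmul, h, h']; funext i; fin_cases i <;> simp [mul_assoc]⟩
  have hDpow : ∀ (f : T) (j : ℕ), Dg f → Dg (f ^ j) := by
    intro f j hf
    induction j with
    | zero => exact ⟨1, 1, fun v => by rw [pow_zero, hone]; funext i; fin_cases i <;> simp⟩
    | succ j ih => rw [pow_succ]; exact hDmul _ _ ih hf
  have hDinv : ∀ f : T, Dg f → Dg f⁻¹ := by
    intro f hf
    have : f⁻¹ = f ^ (orderOf f - 1) := inv_eq_of_mul_eq_one_right (by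
      rw [← pow_succ', Nat.sub_add_cancel (orderOf_pos f), pow_orderOf_eq_one])
    rw [this]
    exact hDpow _ _ hf
  have hpowd : ∀ (f : T) (a b : ZMod q), (∀ v, f.1 v = ![a * v 0, b * v 1]) → ∀ (j : ℕ) v, (f ^ j).1 v = ![a ^ j * v 0, b ^ j * v 1] := by
    intro f a b h j
    induction j with
    | zero => intro v; rw [pow_zero, hone]; funext i; fin_cases i <;> simp
    | succ j ih =>
      intro v
      rw [pow_succ, hmul, ih, h]
      funext i; fin_cases i <;> simp [pow_succ, mul_assoc]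
  have hDcomm : ∀ f g : T, Dg f → Dg g → f * g = g * f := by
    rintro f g ⟨a, b, h⟩ ⟨a', b', h'⟩
    refine hext _ _ fun v => ?_
    rw [hmul, hmul, h, h', h, h']
    funext i; fin_cases i <;> simp <;> ring
  -- non diagonal elements have fourth power one
  have h4 : ∀ f : T, ¬ Dg f → f ^ 4 = 1 := by
    intro f hf
    obtain ⟨a, s, ha, hs, h⟩ := hanti f hf
    have hs2 : s * s = 1 := by rcases hs with h | h <;> simp [h]
    have h2 : ∀ v, (f ^ 2).1 v = ![s * v 0, s * v 1] := by
      intro v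
      rw [pow_two, hmul, h, h]
      funext i; fin_cases i
      · show s * a⁻¹ * (a * v 0) = s * v 0
        rw [show s * a⁻¹ * (a * v 0) = s * (a * a⁻¹) * v 0 from by ring, mul_inv_cancel₀ ha, mul_one]
      · show a * (s * a⁻¹ * v 1) = s * v 1
        rw [show a * (s * a⁻¹ * v 1) = s * (a * a⁻¹) * v 1 from by ring, mul_inv_cancel₀ ha, mul_one]
    refine hext _ _ fun v => ?_
    rw [show f ^ 4 = f ^ 2 * f ^ 2 from by rw [← pow_add], hmul, h2, h2, hone]
    funext i; fin_cases i <;> simp [← mul_assoc, hs2]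
  obtain ⟨u, hu⟩ := mkdiag 2 1 h2ne (Or.inl rfl)
  have hu4 : u ^ 4 ≠ 1 := by
    intro h
    have := congrArg (fun f : T => f.1 ![1, 0] 0) h
    simp only [hpowd u _ _ hu, hone] at this
    simp at this
    exact h16 this
  have hDu : Dg u := ⟨_, _, hu⟩
  have hinvar : ∀ f : T, Dg f → Dg (ψ f) := by
    have hbig : ∀ f : T, f ^ 4 ≠ 1 → Dg (ψ f) := by
      intro f hf
      by_contra hc
      have := h4 _ hc
      rw [← map_pow] at this
      exact hf (ψ.injective (by rw [this, map_one]))
    intro f hf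
    by_cases hf4 : f ^ 4 = 1
    · have hfu : (f * u) ^ 4 ≠ 1 := by
        rw [show (f * u) ^ 4 = f ^ 4 * u ^ 4 from (show Commute f u from hDcomm f u hf hDu).mul_pow 4, hf4, one_mul]
        exact hu4
      have := hDmul _ _ (hbig _ hfu) (hDinv _ (hbig u hu4))
      rwa [← map_inv, ← map_mul, mul_inv_cancel_right] at this
    · exact hbig f hf4
  -- involutions in the diagonal are fixed
  obtain ⟨x0, hx0⟩ := mkdiag c 1 hc0 (Or.inl rfl)
  have hcinv : c⁻¹ = -c := inv_eq_of_mul_eq_one_right (by rw [mul_neg, ← hc, neg_neg])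
  have hzx : x0 ^ 2 = z := hext _ _ fun v => by
    rw [hpowd x0 _ _ hx0, hz]
    funext i; fin_cases i <;> simp [pow_two, hcinv, ← hc, hinvneg]
  have hinvol : ∀ f : T, Dg f → f ^ 2 = 1 → f = 1 ∨ f = z ∨ f = vv ∨ f = vv * z := by
    intro f hf h2
    obtain ⟨a, s, ha, hs, h⟩ := hDg f hf
    have := congrArg (fun f : T => f.1 ![1, 0] 0) h2
    simp only [hpowd f _ _ h, hone] at this
    simp at this
    rcases this with rfl | rfl <;> rcases hs with rfl | rfl
    · exact Or.inl (hext _ _ fun v => by rw [h, hone]; funext i; fin_cases i <;> simp)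
    · exact Or.inr (Or.inr (Or.inl (hext _ _ fun v => by rw [h, hvv])))
    · exact Or.inr (Or.inl (hext _ _ fun v => by rw [h, hz]))
    · exact Or.inr (Or.inr (Or.inr (hext _ _ fun v => by
        rw [h, hmul, hvv, hz]; funext i; fin_cases i <;> simp [hinvneg])))
  have hz2 : z ^ 2 = 1 := hext _ _ fun v => by
    rw [hpowd z _ _ hz, hone]; funext i; fin_cases i <;> simp [hinvneg]
  have hv2 : vv ^ 2 = 1 := hext _ _ fun v => by
    rw [hpowd vv _ _ hvv, hone]; funext i; fin_cases i <;> simp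
  have hzfix : ψ z = z := by
    obtain ⟨a, s, ha, hs, h⟩ := hDg _ (hinvar x0 ⟨_, _, hx0⟩)
    have hs2 : s ^ 2 = 1 := by rcases hs with h | h <;> simp [h]
    rw [← hzx, map_pow]
    have hsq := hpowd _ _ _ h 2
    have hne1 : (ψ x0) ^ 2 ≠ 1 := by
      intro hh
      rw [← map_pow, hzx] at hh
      have : z = 1 := ψ.injective (by rw [hh, map_one])
      have := congrArg (fun f : T => f.1 ![1, 0] 0) this
      simp [hz, hone] at this
      exact hneg this
    have h22 : ((ψ x0) ^ 2) ^ 2 = 1 := by rw [← map_pow, ← map_pow, hzx, hz2, map_one]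
    have ha4 := congrArg (fun f : T => f.1 ![1, 0] 0) h22
    simp only [hpowd _ _ _ hsq 2, hone] at ha4
    simp at ha4
    rcases (ha4.imp_left fun h => (by rcases h with rfl | rfl <;> simp : a ^ 2 = 1)) with h1 | h1
    · exfalso
      apply hne1
      refine hext _ _ fun v => ?_
      rw [hsq, hone, h1, mul_pow, inv_pow, h1, hs2]
      funext i; fin_cases i <;> simp
    · rw [hzx]
      refine hext _ _ fun v => ?_
      rw [hsq, hz, h1, mul_pow, inv_pow, h1, hs2]
  have hvfix : ψ vv = vv := by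
    refine hswap2 vv (vv * z) ?_ ?_
    · rcases hinvol _ (hinvar vv ⟨_, _, hvv⟩) (by rw [← map_pow, hv2, map_one]) with h | h | h | h
      · exfalso
        have : vv = 1 := ψ.injective (by rw [h, map_one])
        have := congrArg (fun f : T => f.1 ![0, 1] 1) this
        simp [hvv, hone] at this
        exact hneg this
      · exfalso
        have : vv = z := ψ.injective (by rw [h, hzfix])
        have := congrArg (fun f : T => f.1 ![1, 0] 0) this
        simp [hvv, hz] at this
        exact hneg this.symm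
      · exact Or.inl h
      · exact Or.inr h
    · intro h
      rw [map_mul, h, hzfix, mul_assoc, ← pow_two, hz2, mul_one]
  have hfix2 : ∀ f : T, Dg f → f ^ 2 = 1 → ψ f = f := by
    intro f hf h2
    rcases hinvol f hf h2 with rfl | rfl | rfl | rfl
    · exact map_one ψ
    · exact hzfix
    · exact hvfix
    · rw [map_mul, hvfix, hzfix]
  have hfix : ∀ (j : ℕ) (f : T), Dg f → f ^ 2 ^ j = 1 → ψ f = f := by
    intro j
    induction j with
    | zero => intro f _ h; rw [pow_zero, pow_one] at h; rw [h, map_one]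
    | succ j ih =>
      intro f hf h
      have hsq := ih (f ^ 2) (hDpow _ _ hf) (by rw [← pow_mul, ← pow_succ']; exact h)
      have hd : Dg (f⁻¹ * ψ f) := hDmul _ _ (hDinv _ hf) (hinvar _ hf)
      have hd2 : (f⁻¹ * ψ f) ^ 2 = 1 := by
        rw [(show Commute f⁻¹ (ψ f) from hDcomm _ _ (hDinv _ hf) (hinvar _ hf)).mul_pow, ← map_pow, hsq, inv_pow, inv_mul_cancel]
      have := hkill f (f⁻¹ * ψ f) 1 (hfix2 _ hd hd2) (by rw [mul_inv_cancel_left]) (by rw [pow_one]; exact hd2)
      exact (inv_mul_eq_one.1 this).symm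
  have hexp : ∀ f : T, Dg f → f ^ 2 ^ m = 1 := by
    intro f hf
    obtain ⟨a, s, ha, hs, h⟩ := hDg f hf
    have hq1 : (2 : ℕ) ^ m = q - 1 := by rw [hq]; rfl
    have hb : s * a⁻¹ ≠ 0 := mul_ne_zero (by rcases hs with h | h <;> simp [h]) (inv_ne_zero ha)
    refine hext _ _ fun v => ?_
    rw [hpowd f _ _ h, hone, hq1, ZMod.pow_card_sub_one_eq_one ha, ZMod.pow_card_sub_one_eq_one hb]
    funext i; fin_cases i <;> simp
  have hfixD : ∀ f : T, Dg f → ψ f = f := fun f hf => hfix m f hf (hexp f hf)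
  have hw1D : ¬ Dg w1 := by
    rintro ⟨a, b, h⟩
    have := congrFun (h ![1, 0]) 1
    rw [hw1] at this
    simp at this
  have hw1i : w1 * w1 = 1 := hext _ _ fun v => by
    rw [hmul, hw1, hw1, hone]; funext i; fin_cases i <;> simp
  have hcos : ∀ f : T, ¬ Dg f → Dg (w1 * f) := by
    intro f hf
    obtain ⟨a, s, ha, hs, h⟩ := hanti f hf
    exact ⟨a, s * a⁻¹, fun v => by rw [hmul, hw1, h]; funext i; fin_cases i <;> simp⟩
  have hw : ψ w1 = w1 := by
    have hn : ¬ Dg (ψ w1) := by
      intro h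
      have h1 := hfixD _ h
      have : ψ w1 = w1 := ψ.injective h1
      rw [this] at h
      exact hw1D h
    have hd := hcos _ hn
    have := hkill w1 (w1 * ψ w1) m (hfixD _ hd) (by rw [← mul_assoc, hw1i, one_mul]) (hexp _ hd)
    calc ψ w1 = w1 * (w1 * ψ w1) := by rw [← mul_assoc, hw1i, one_mul]
      _ = w1 := by rw [this, mul_one]
  refine MulEquiv.ext fun x => ?_
  show ψ x = x
  by_cases hx : Dg x
  · exact hfixD x hx
  · have h := hfixD _ (hcos x hx)
    rw [map_mul, hw] at h
    exact mul_left_cancel h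

end Cfsg.Agent.S3382
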