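import Cfsg.Statements.S3383
import Cfsg.Agent.Lib.CoreFrobenius

set_option autoImplicit false
open Cfsg
open scoped Pointwise

namespace Cfsg.Agent.S3383

/-- Let H be a Frobenius complement in a finite group L and K the Frobenius kernel (as a subgroup). Then K is characteristic in L, and every normal subgroup of L either contains K or is contained in K. -/
theorem result {L : Type*} [Group L] [Finite L]
    (H : Subgroup L) (hH : Cfsg.IsFrobeniusComplement H)
    (K : Subgroup L) (hK : (K : Set L) = Cfsg.frobeniusKernel H) :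
    K.Characteristic ∧ ∀ N : Subgroup L, N.Normal → K ≤ N ∨ N ≤ K := by
  classical
  obtain ⟨K', hK'n, hK', hK'H, hsup, hcard⟩ := CfsgLib.Core.exists_kernel hH
  obtain rfl : K = K' := SetLike.coe_injective (hK.trans hK'.symm)
  haveI := hK'n
  have hmemK : ∀ x : L, x ∈ K ↔ x = 1 ∨ ∀ g : L, x ∉ MulAut.conj g • H := fun x => by
    rw [← SetLike.mem_coe, hK]; rfl
  have hidx : K.index = Nat.card H := by
    have h1 := K.card_mul_index
    rw [hcard] at h1
    have h2 := H.card_mul_index
    have hpos : 0 < H.index := Nat.pos_of_ne_zero Subgroup.index_ne_zero_of_finite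
    exact Nat.eq_of_mul_eq_mul_left hpos (h1.trans (by rw [← h2, mul_comm]))
  have hcop : (Nat.card K).Coprime K.index := by
    rw [hidx, hcard]
    exact (CfsgLib.Core.coprime_card_index hH).symm
  constructor
  · refine Subgroup.characteristic_iff_map_le.2 fun φ => ?_
    rintro _ ⟨x, hx, rfl⟩
    rw [← QuotientGroup.eq_one_iff (N := K)]
    have h1 : orderOf (φ.toMonoidHom x) ∣ Nat.card K := by
      rw [show orderOf (φ.toMonoidHom x) = orderOf x from φ.orderOf_eq x]
      exact (dvd_of_eq (Subgroup.orderOf_coe (⟨x, hx⟩ : K))).trans (orderOf_dvd_natCard _)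
    have h2 : orderOf ((φ.toMonoidHom x : L) : L ⧸ K) ∣ Nat.gcd (Nat.card K) K.index :=
      Nat.dvd_gcd ((orderOf_map_dvd (QuotientGroup.mk' K) _).trans h1) (orderOf_dvd_natCard _)
    rw [hcop] at h2
    exact orderOf_eq_one_iff.1 (Nat.dvd_one.1 h2)
  · intro N hN
    by_cases hle : N ≤ K
    · exact Or.inr hle
    left
    obtain ⟨n, hn, hnK⟩ := SetLike.not_le_iff_exists.1 hle
    rw [hmemK] at hnK
    push Not at hnK
    obtain ⟨hn1, g, hg⟩ := hnK
    obtain ⟨h, hh, hhn⟩ := hg
    simp only [MulDistribMulAction.toMonoidEnd_apply, MulAut.smul_def, MulDistribMulAction.toMonoidHom_apply, MulAut.conj_apply] at hhn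
    have hh1 : h ≠ 1 := fun e => hn1 (by rw [← hhn, e, mul_one, mul_inv_cancel])
    have hhN : h ∈ N := by
      have := hN.conj_mem n hn g⁻¹
      rw [← hhn] at this
      simpa [mul_assoc] using this
    let f : K → K := fun k => ⟨(k : L) * h * (k : L)⁻¹ * h⁻¹, by
      have := K.mul_mem k.2 (hK'n.conj_mem _ (K.inv_mem k.2) h)
      simpa [mul_assoc] using this⟩
    have hf : Function.Injective f := by
      intro a b hab
      have e : (a : L) * h * (a : L)⁻¹ * h⁻¹ = (b : L) * h * (b : L)⁻¹ * h⁻¹ := congrArg Subtype.val hab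
      have e' : h * ((a : L)⁻¹ * b) = (a : L)⁻¹ * b * h := by
        calc h * ((a : L)⁻¹ * b) = (a : L)⁻¹ * ((a : L) * h * (a : L)⁻¹ * h⁻¹) * h * b := by group
          _ = _ := by rw [e]; group
      exact Subtype.ext (inv_mul_eq_one.1 (CfsgLib.Core.eq_one_of_commute_kernel hH hK'H hh hh1 (K.mul_mem (K.inv_mem a.2) b.2) e'))
    intro x hx
    obtain ⟨k, hk⟩ := (Finite.injective_iff_surjective.1 hf) ⟨x, hx⟩
    rw [show x = (k : L) * h * (k : L)⁻¹ * h⁻¹ from (congrArg Subtype.val hk).symm]
    exact N.mul_mem (hN.conj_mem h hhN k) (N.inv_mem hhN)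

end Cfsg.Agent.S3383
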