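import Cfsg.Statements.S3704


set_option autoImplicit false
open Cfsg

namespace Cfsg.Agent.S3704

/-- Let G be a finite group acting faithfully and 2-transitively on a finite set Ω of size n, and let H be a subgroup of index n in G which is not transitive on Ω and fixes no point of Ω. Then H has exactly two orbits on Ω. -/
theorem result {G Ω : Type*} [Group G] [Finite G] [MulAction G Ω] [FaithfulSMul G Ω] [Finite Ω] (h2 : MulAction.IsMultiplyPretransitive G Ω 2) (H : Subgroup G) (hidx : H.index = Nat.card Ω) (hnt : ¬ MulAction.IsPretransitive H Ω) (hfix : ∀ a : Ω, ∃ h : H, h • a ≠ a) : Nat.card (MulAction.orbitRel.Quotient H Ω) = 2 := by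
  classical
  haveI : Fintype Ω := Fintype.ofFinite Ω
  haveI : Fintype (G ⧸ H) := Fintype.ofFinite _
  set Q := MulAction.orbitRel.Quotient H Ω
  haveI : Fintype Q := Fintype.ofFinite _
  let π : Ω → Q := Quotient.mk''
  have hπ : ∀ (h : H) (a : Ω), π (h • a) = π a := fun h a =>
    Quotient.sound' (MulAction.mem_orbit a h)
  have hcardH : Fintype.card (G ⧸ H) = Fintype.card Ω := by
    rw [← Nat.card_eq_fintype_card, ← Nat.card_eq_fintype_card, ← hidx]
    exact (Subgroup.index_eq_card H).symm
  have hne : Nonempty Ω := by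
    by_contra h
    rw [not_nonempty_iff] at h
    exact Subgroup.index_ne_zero_of_finite (H := H) (by rw [hidx]; simp)
  -- the incidence function of an invariant function
  obtain ⟨F, hFdef⟩ : ∃ F : (Q → ℚ) → Ω → G ⧸ H → ℚ, F = fun f ω q => f (π (q.out⁻¹ • ω)) :=
    ⟨_, rfl⟩
  have hF : ∀ f ω (g : G), F f ω (QuotientGroup.mk g) = f (π (g⁻¹ • ω)) := by
    intro f ω g
    obtain ⟨h, hh⟩ := QuotientGroup.mk_out_eq_mul H g
    subst hFdef
    show f (π _) = _
    rw [hh, mul_inv_rev, mul_smul]
    exact congrArg f (hπ h⁻¹ _)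
  have hinv : ∀ f c (t : G) ω ω', ∑ q, F f (t • ω) q * F c (t • ω') q = ∑ q, F f ω q * F c ω' q := by
    intro f c t ω ω'
    rw [← Equiv.sum_comp (MulAction.toPerm t)]
    refine Finset.sum_congr rfl fun q _ => ?_
    obtain ⟨g, rfl⟩ := QuotientGroup.mk_surjective q
    rw [MulAction.toPerm_apply, MulAction.Quotient.smul_mk, hF, hF, hF, hF, smul_eq_mul,
      mul_inv_rev, mul_smul, mul_smul, inv_smul_smul, inv_smul_smul]
  obtain ⟨a⟩ := hne
  -- two orbits at least
  obtain ⟨b, hab⟩ : ∃ b, π b ≠ π a := by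
    by_contra hall
    push Not at hall
    refine hnt ⟨fun x y => ?_⟩
    obtain ⟨h, hh⟩ := (Quotient.exact' ((hall y).trans (hall x).symm) : y ∈ MulAction.orbit H x)
    exact ⟨h, hh⟩
  have hba : a ≠ b := fun h => hab (by rw [h])
  rw [MulAction.is_two_pretransitive_iff] at h2
  let c : Q → ℚ := fun o => if o = π a then 1 else 0
  set r : ℚ := ∑ q, F c a q * F c a q with hr
  set l : ℚ := ∑ q, F c a q * F c b q with hl
  have hr' : ∀ ω, ∑ q, F c ω q * F c ω q = r := by
    intro ω
    obtain ⟨t, ht⟩ : ∃ t : G, t • a = ω := by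
      rcases eq_or_ne a ω with rfl | hne
      · exact ⟨1, one_smul _ _⟩
      · obtain ⟨t, ht, -⟩ := h2 (a := a) (b := ω) (c := ω) (d := a) hne hne.symm
        exact ⟨t, ht⟩
    rw [← ht, hinv]
  have hl' : ∀ ω ω', ω ≠ ω' → ∑ q, F c ω q * F c ω' q = l := by
    intro ω ω' hne
    obtain ⟨t, ht, ht'⟩ := h2 (a := a) (b := b) (c := ω) (d := ω') hba hne
    rw [← ht, ← ht', hinv]
  have hl0 : 0 ≤ l := Finset.sum_nonneg fun q _ => by
    simp only [hFdef, c]; split_ifs <;> norm_num
  have hlr : l < r := by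
    refine Finset.sum_lt_sum (fun q _ => ?_) ⟨QuotientGroup.mk 1, Finset.mem_univ _, ?_⟩
    · simp only [hFdef, c]; split_ifs <;> norm_num
    · rw [hF, hF]
      simp [c, hab]
  -- the incidence map is bijective
  let L : (Ω → ℚ) →ₗ[ℚ] (G ⧸ H → ℚ) :=
    { toFun := fun v q => ∑ ω, v ω * F c ω q
      map_add' := fun v w => by
        funext q; simp [add_mul, Finset.sum_add_distrib]
      map_smul' := fun x v => by
        funext q; simp [Finset.mul_sum, mul_assoc] }
  have hLinj : Function.Injective L := by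
    rw [injective_iff_map_eq_zero]
    intro v hv
    have h0 : ∑ q, (∑ ω, v ω * F c ω q) * (∑ ω, v ω * F c ω q) = 0 :=
      Finset.sum_eq_zero fun q _ => by rw [show ∑ ω, v ω * F c ω q = 0 from congrFun hv q]; simp
    have hexp : ∑ q, (∑ ω, v ω * F c ω q) * (∑ ω, v ω * F c ω q) =
        (r - l) * (∑ ω, v ω * v ω) + l * ((∑ ω, v ω) * (∑ ω, v ω)) := by
      simp only [Finset.sum_mul_sum]
      rw [Finset.sum_comm, Finset.mul_sum, Finset.mul_sum, ← Finset.sum_add_distrib]
      refine Finset.sum_congr rfl fun ω _ => ?_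
      rw [Finset.sum_comm, Finset.mul_sum,
        ← Finset.add_sum_erase _ _ (Finset.mem_univ ω),
        ← Finset.add_sum_erase _ _ (Finset.mem_univ ω)]
      have hdiag : ∑ q, v ω * F c ω q * (v ω * F c ω q) = r * (v ω * v ω) := by
        rw [← hr' ω, Finset.sum_mul]
        exact Finset.sum_congr rfl fun q _ => by ring
      have hoff : ∀ ω' ∈ Finset.univ.erase ω,
          ∑ q, v ω * F c ω q * (v ω' * F c ω' q) = l * (v ω * v ω') := by
        intro ω' hω'
        rw [← hl' ω ω' (Finset.mem_erase.1 hω').1.symm, Finset.sum_mul]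
        exact Finset.sum_congr rfl fun q _ => by ring
      rw [hdiag, Finset.sum_congr rfl hoff]
      ring
    rw [hexp] at h0
    have hsq : ∑ ω, v ω * v ω = 0 := by
      have h1 : 0 ≤ l * ((∑ ω, v ω) * (∑ ω, v ω)) := mul_nonneg hl0 (mul_self_nonneg _)
      have h2' : 0 ≤ ∑ ω, v ω * v ω := Finset.sum_nonneg fun ω _ => mul_self_nonneg _
      nlinarith
    funext ω
    exact mul_self_eq_zero.1 ((Finset.sum_eq_zero_iff_of_nonneg fun ω _ => mul_self_nonneg _).1
      hsq ω (Finset.mem_univ ω))
  have hLsurj : Function.Surjective L :=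
    (LinearMap.injective_iff_surjective_of_finrank_eq_finrank
      (by rw [Module.finrank_fintype_fun_eq_card, Module.finrank_fintype_fun_eq_card, hcardH])).1
      hLinj
  -- evaluation at two pairs
  let Φ : (Q → ℚ) →ₗ[ℚ] ℚ × ℚ :=
    { toFun := fun f => (∑ q, F f a q * F c a q, ∑ q, F f a q * F c b q)
      map_add' := fun f g => by simp [hFdef, add_mul, Finset.sum_add_distrib]
      map_smul' := fun x f => by simp [hFdef, Finset.mul_sum, mul_assoc] }
  have hΦ : Function.Injective Φ := by
    rw [injective_iff_map_eq_zero]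
    intro f hf
    have hz1 : ∑ q, F f a q * F c a q = 0 := congrArg Prod.fst hf
    have hz2 : ∑ q, F f a q * F c b q = 0 := congrArg Prod.snd hf
    have hz : ∀ ω ω', ∑ q, F f ω q * F c ω' q = 0 := by
      intro ω ω'
      rcases eq_or_ne ω ω' with rfl | hne
      · rcases eq_or_ne a ω with rfl | hne'
        · exact hz1
        · obtain ⟨t, ht, -⟩ := h2 (a := a) (b := b) (c := ω) (d := a) hba hne'.symm
          rw [← ht, hinv, hz1]
      · obtain ⟨t, ht, ht'⟩ := h2 (a := a) (b := b) (c := ω) (d := ω') hba hne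
        rw [← ht, ← ht', hinv, hz2]
    funext o
    obtain ⟨ω, rfl⟩ := Quotient.exists_rep o
    obtain ⟨v, hv⟩ := hLsurj (F f ω)
    have hsum : ∑ q, F f ω q * F f ω q = 0 := by
      have e : ∀ q, F f ω q * F f ω q = F f ω q * L v q := fun q => by rw [hv]
      rw [Finset.sum_congr rfl (fun q _ => e q)]
      show ∑ q, F f ω q * (∑ ω', v ω' * F c ω' q) = 0
      simp only [Finset.mul_sum]
      rw [Finset.sum_comm]
      refine Finset.sum_eq_zero fun ω' _ => ?_
      rw [Finset.sum_congr rfl (g := fun q => v ω' * (F f ω q * F c ω' q)) (fun q _ => by ring),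
        ← Finset.mul_sum, hz, mul_zero]
    have h1 := mul_self_eq_zero.1 ((Finset.sum_eq_zero_iff_of_nonneg fun q _ => mul_self_nonneg _).1
      hsum (QuotientGroup.mk 1) (Finset.mem_univ _))
    rw [hF, inv_one, one_smul] at h1
    exact h1
  have hle : Fintype.card Q ≤ 2 := by
    have := LinearMap.finrank_le_finrank_of_injective hΦ
    rwa [Module.finrank_fintype_fun_eq_card, Module.finrank_prod, Module.finrank_self] at this
  have hge : 1 < Fintype.card Q := Fintype.one_lt_card_iff.2 ⟨π b, π a, hab⟩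
  rw [Nat.card_eq_fintype_card]
  omega

end Cfsg.Agent.S3704
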