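import Cfsg.Statements.S3733

set_option autoImplicit false
open Cfsg

namespace Cfsg.Agent.S3733

/-- Let A and V be subgroups of a finite group with V abelian and nontrivial and A normalizing V. Suppose a nonempty finite family of proper subgroups of A partitions A: every non-identity element of A lies in exactly one member. If the number of members minus one is coprime to the order of V, then some member B of the family has a non-identity fixed point on V, that is V ∩ C(B) ≠ 1. -/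
theorem result {G : Type*} [Group G] [Finite G] (A V : Subgroup G) (hVab : IsMulCommutative V) (hV : V ≠ ⊥) (hAV : A ≤ Subgroup.normalizer (V : Set G)) (𝒜 : Finset (Subgroup G)) (hne : 𝒜.Nonempty) (hprop : ∀ B ∈ 𝒜, B < A) (hpart : ∀ a ∈ A, a ≠ 1 → ∃! B, B ∈ 𝒜 ∧ a ∈ B) (hk : (𝒜.card - 1).Coprime (Nat.card V)) : ∃ B ∈ 𝒜, V ⊓ Subgroup.centralizer (B : Set G) ≠ ⊥ := by
  classical
  by_contra hcon
  push Not at hcon
  obtain ⟨B₀, hB₀⟩ := hne
  letI : CommGroup ↥V :=
    { (inferInstance : Group ↥V) with mul_comm := fun a b => hVab.is_comm.comm a b }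
  obtain ⟨w, hwV, hw1⟩ : ∃ w ∈ V, w ≠ 1 := by
    by_contra h
    push Not at h
    exact hV ((Subgroup.eq_bot_iff_forall _).mpr h)
  set v : ↥V := ⟨w, hwV⟩
  have hconj : ∀ a ∈ A, ∀ x ∈ V, a * x * a⁻¹ ∈ V := fun a ha x hx =>
    (Subgroup.mem_normalizer_iff.mp (hAV ha) x).mp hx
  set g : G → ↥V := fun a =>
    if h : a ∈ A then ⟨a * w * a⁻¹, hconj a h w hwV⟩ else 1 with hg
  let fs : Subgroup G → Finset G := fun B => Set.toFinite (B : Set G) |>.toFinset
  have mem_fs : ∀ (B : Subgroup G) x, x ∈ fs B ↔ x ∈ B := fun B x => by simp [fs]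
  -- the product over a subgroup is centralised by it
  have hfix : ∀ B : Subgroup G, B ≤ A → ∀ b ∈ B,
      b * ((∏ a ∈ fs B, g a : ↥V) : G) = ((∏ a ∈ fs B, g a : ↥V) : G) * b := by
    intro B hB b hb
    let φ : ↥V →* ↥V :=
      { toFun := fun x => ⟨b * x.1 * b⁻¹, hconj b (hB hb) x.1 x.2⟩
        map_one' := Subtype.ext (by simp)
        map_mul' := fun x y => Subtype.ext (by simp [mul_assoc]) }
    have h1 : φ (∏ a ∈ fs B, g a) = ∏ a ∈ fs B, g a := by
      rw [map_prod]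
      refine Finset.prod_bij (fun a _ => b * a) (fun a ha => ?_) (fun a _ c _ h => mul_left_cancel h)
        (fun a ha => ⟨b⁻¹ * a, (mem_fs B _).mpr (mul_mem (inv_mem hb) ((mem_fs B a).mp ha)), by simp⟩)
        (fun a ha => ?_)
      · exact (mem_fs B _).mpr (mul_mem hb ((mem_fs B a).mp ha))
      · have haA : a ∈ A := hB ((mem_fs B a).mp ha)
        have hbaA : b * a ∈ A := mul_mem (hB hb) haA
        refine Subtype.ext ?_
        simp [φ, hg, haA, hbaA, mul_assoc]
    have h2 := congrArg Subtype.val h1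
    calc b * ((∏ a ∈ fs B, g a : ↥V) : G)
        = (φ (∏ a ∈ fs B, g a) : G) * b := by
          show _ = b * ((∏ a ∈ fs B, g a : ↥V) : G) * b⁻¹ * b
          rw [inv_mul_cancel_right]
      _ = _ := by rw [h2]
  have hone : ∀ B ∈ 𝒜, ∀ C : Subgroup G, B ≤ C → C ≤ A → ∏ a ∈ fs C, g a = 1 := by
    intro B hB C hBC hCA
    refine Subtype.ext ?_
    have hmem : ((∏ a ∈ fs C, g a : ↥V) : G) ∈ V ⊓ Subgroup.centralizer (B : Set G) :=
      Subgroup.mem_inf.mpr ⟨SetLike.coe_mem _, Subgroup.mem_centralizer_iff.mpr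
        fun b hb => hfix C hCA b (hBC hb)⟩
    rw [hcon B hB, Subgroup.mem_bot] at hmem
    exact hmem
  have hv : ∀ C : Subgroup G, C ≤ A →
      ∏ a ∈ fs C, g a = v * ∏ a ∈ (fs C).erase 1, g a := by
    intro C hC
    rw [← Finset.mul_prod_erase _ _ ((mem_fs C 1).mpr (one_mem _))]
    congr 1
    refine Subtype.ext ?_
    simp [hg, A.one_mem, v]
  have hA1 := hone B₀ hB₀ A (hprop B₀ hB₀).le le_rfl
  rw [hv A le_rfl] at hA1
  have hsum : ∏ B ∈ 𝒜, ∏ a ∈ (fs B).erase 1, g a = ∏ a ∈ (fs A).erase 1, g a := by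
    rw [← Finset.prod_biUnion]
    · refine Finset.prod_congr ?_ fun _ _ => rfl
      ext x
      simp only [Finset.mem_biUnion, Finset.mem_erase, mem_fs]
      constructor
      · rintro ⟨B, hB, hx1, hxB⟩
        exact ⟨hx1, (hprop B hB).le hxB⟩
      · rintro ⟨hx1, hxA⟩
        obtain ⟨B, ⟨hB, hxB⟩, -⟩ := hpart x hxA hx1
        exact ⟨B, hB, hx1, hxB⟩
    · intro B hB C hC hne'
      simp only [Function.onFun, Finset.disjoint_left, Finset.mem_erase, mem_fs]
      rintro x ⟨hx1, hxB⟩ ⟨-, hxC⟩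
      exact hne' ((hpart x ((hprop B hB).le hxB) hx1).unique ⟨hB, hxB⟩ ⟨hC, hxC⟩)
  have hall : ∏ B ∈ 𝒜, ∏ a ∈ fs B, g a = (1 : ↥V) :=
    Finset.prod_eq_one fun B hB => hone B hB B le_rfl (hprop B hB).le
  rw [Finset.prod_congr rfl fun B hB => hv B (hprop B hB).le, Finset.prod_mul_distrib, hsum,
    Finset.prod_const] at hall
  have hcard : 1 ≤ 𝒜.card := Finset.card_pos.mpr ⟨B₀, hB₀⟩
  have hpow : v ^ (𝒜.card - 1) = 1 := by
    have h2 : v ^ (𝒜.card - 1) * (v * ∏ a ∈ (fs A).erase 1, g a) = 1 := by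
      rw [← mul_assoc, ← pow_succ, Nat.sub_add_cancel hcard]
      exact hall
    rwa [hA1, mul_one] at h2
  have hord : orderOf v = 1 := Nat.eq_one_of_dvd_coprimes hk
    (orderOf_dvd_of_pow_eq_one hpow) (orderOf_dvd_natCard v)
  exact hw1 (congrArg Subtype.val (orderOf_eq_one_iff.mp hord))

end Cfsg.Agent.S3733
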