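import Cfsg.Statements.S3735
import Cfsg.Agent.Lib.CoreCoprime

set_option autoImplicit false
open Cfsg

namespace Cfsg.Agent.S3735

/-- Clifford's Theorem for actions on finite abelian groups, first part. Let H and V be subgroups of a finite group with V abelian and H normalizing V, and let A be a normal subgroup of H. If every H-invariant subgroup of V has an H-invariant complement in V, then every A-invariant subgroup of V has an A-invariant complement in V. -/
theorem result {G : Type*} [Group G] [Finite G] (H A V : Subgroup G) (hVab : IsMulCommutative V) (hHV : H ≤ Subgroup.normalizer (V : Set G)) (hAH : A ≤ H) (hAn : H ≤ Subgroup.normalizer (A : Set G)) (hss : ∀ U : Subgroup G, U ≤ V → H ≤ Subgroup.normalizer (U : Set G) → ∃ W : Subgroup G, W ≤ V ∧ H ≤ Subgroup.normalizer (W : Set G) ∧ U ⊓ W = ⊥ ∧ U ⊔ W = V) (U : Subgroup G) (hUV : U ≤ V) (hAU : A ≤ Subgroup.normalizer (U : Set G)) : ∃ W : Subgroup G, W ≤ V ∧ A ≤ Subgroup.normalizer (W : Set G) ∧ U ⊓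 W = ⊥ ∧ U ⊔ W = V := by
  classical
  have hVc : ∀ a ∈ V, ∀ b ∈ V, a * b = b * a := fun a ha b hb =>
    congrArg Subtype.val (hVab.is_comm.comm ⟨a, ha⟩ ⟨b, hb⟩)
  have hAV : A ≤ Subgroup.normalizer (V : Set G) := hAH.trans hHV
  have hinfn : ∀ {K L C : Subgroup G}, C ≤ Subgroup.normalizer (K : Set G) →
      C ≤ Subgroup.normalizer (L : Set G) → C ≤ Subgroup.normalizer ((K ⊓ L : Subgroup G) : Set G) :=
    fun h1 h2 => CfsgLib.Core.le_normalizer_inf h1 h2
  set simples : Set (Subgroup G) := {s | s ≠ ⊥ ∧ s ≤ V ∧ A ≤ Subgroup.normalizer (s : Set G) ∧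
    ∀ t : Subgroup G, t ≤ s → A ≤ Subgroup.normalizer (t : Set G) → t = ⊥ ∨ t = s}
  set S := sSup simples with hS
  have hSV : S ≤ V := sSup_le fun s hs => hs.2.1
  -- the socle is invariant under `H`
  have hHS : H ≤ Subgroup.normalizer (S : Set G) := by
    intro x hx
    have hle : S.map (MulAut.conj x).toMonoidHom ≤ S := by
      rw [hS, Subgroup.map_le_iff_le_comap]
      refine sSup_le fun s hs => ?_
      rw [← Subgroup.map_le_iff_le_comap]
      refine le_sSup ⟨?_, ?_, ?_, ?_⟩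
      · exact fun e => hs.1 ((Subgroup.map_eq_bot_iff_of_injective _ (MulAut.conj x).injective).1 e)
      · rintro _ ⟨y, hy, rfl⟩
        exact (Subgroup.mem_normalizer_iff.1 (hHV hx) y).1 (hs.2.1 hy)
      · intro a ha
        refine Subgroup.mem_normalizer_fintype ?_
        rintro _ ⟨y, hy, rfl⟩
        have ha' : x⁻¹ * a * x ∈ A := by
          have h := (Subgroup.mem_normalizer_iff''.1 (hAn hx) a).1 ha
          simpa using h
        refine ⟨x⁻¹ * a * x * y * (x⁻¹ * a * x)⁻¹,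
          (Subgroup.mem_normalizer_iff.1 (hs.2.2.1 ha') y).1 hy, ?_⟩
        show x * (x⁻¹ * a * x * y * (x⁻¹ * a * x)⁻¹) * x⁻¹ = a * (x * y * x⁻¹) * a⁻¹
        group
      · intro t ht htA
        have ht' : t.comap (MulAut.conj x).toMonoidHom ≤ s := by
          intro y hy
          obtain ⟨z, hz, he⟩ := ht hy
          exact (MulAut.conj x).injective he ▸ hz
        have htn : A ≤ Subgroup.normalizer ((t.comap (MulAut.conj x).toMonoidHom : Subgroup G) : Set G) := by
          intro a ha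
          refine Subgroup.mem_normalizer_fintype ?_
          intro y hy
          show x * (a * y * a⁻¹) * x⁻¹ ∈ t
          have ha' : x * a * x⁻¹ ∈ A := (Subgroup.mem_normalizer_iff.1 (hAn hx) a).1 ha
          have hy' : x * y * x⁻¹ ∈ t := hy
          have h := (Subgroup.mem_normalizer_iff.1 (htA ha') (x * y * x⁻¹)).1 hy'
          rw [show x * a * x⁻¹ * (x * y * x⁻¹) * (x * a * x⁻¹)⁻¹ = x * (a * y * a⁻¹) * x⁻¹ by group] at h
          exact h
        have hmc := Subgroup.map_comap_eq_self_of_surjective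
          (f := (MulAut.conj x).toMonoidHom) (MulAut.conj x).surjective t
        rcases hs.2.2.2 _ ht' htn with e | e
        · exact Or.inl (by rw [← hmc, e, Subgroup.map_bot])
        · exact Or.inr (by rw [← hmc, e])
    exact Subgroup.mem_normalizer_fintype fun y hy => hle ⟨y, hy, rfl⟩
  -- the socle is everything
  obtain ⟨W₀, hW₀V, hW₀H, hSW, hSWV⟩ := hss S hSV hHS
  have hVS : V = S := by
    have hW₀ : W₀ = ⊥ := by
      by_contra h
      obtain ⟨s, ⟨hs1, hs2, hs3⟩, hmin⟩ := (Set.toFinite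
        {s : Subgroup G | s ≠ ⊥ ∧ s ≤ W₀ ∧ A ≤ Subgroup.normalizer (s : Set G)}).exists_minimal
        ⟨W₀, h, le_rfl, hAH.trans hW₀H⟩
      have hsimple : s ∈ simples := ⟨hs1, hs2.trans hW₀V, hs3, fun t ht htA => by
        by_cases ht0 : t = ⊥
        · exact Or.inl ht0
        · exact Or.inr (le_antisymm ht (hmin ⟨ht0, ht.trans hs2, htA⟩ ht))⟩
      exact hs1 (le_bot_iff.1 (hSW ▸ le_inf (le_sSup hsimple) hs2))
    rw [← hSWV, hW₀, sup_bot_eq]
  -- a complement
  obtain ⟨W, ⟨hWV, hWA, hUW⟩, hmax⟩ := (Set.toFinite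
    {W : Subgroup G | W ≤ V ∧ A ≤ Subgroup.normalizer (W : Set G) ∧ U ⊓ W = ⊥}).exists_maximal
    ⟨⊥, bot_le, fun a _ => Subgroup.mem_normalizer_fintype fun y hy => by
      have hy' : y = 1 := Subgroup.mem_bot.1 hy
      subst hy'; simp, inf_bot_eq U⟩
  refine ⟨W, hWV, hWA, hUW, le_antisymm (sup_le hUV hWV) ?_⟩
  conv_lhs => rw [hVS]
  refine sSup_le fun s hs => ?_
  by_contra hne
  have hUW' : A ≤ Subgroup.normalizer ((U ⊔ W : Subgroup G) : Set G) :=
    CfsgLib.Core.le_normalizer_sup hAU hWA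
  have hdis : s ⊓ (U ⊔ W) = ⊥ := by
    rcases hs.2.2.2 _ inf_le_left (hinfn hs.2.2.1 hUW') with e | e
    · exact e
    · exact absurd (e ▸ inf_le_right) hne
  have hnormV : ∀ X : Subgroup G, X ≤ V → ∀ Y : Subgroup G, Y ≤ V →
      X ≤ Subgroup.normalizer (Y : Set G) := fun X hX Y hY x hx => by
    refine Subgroup.mem_normalizer_fintype fun y hy => ?_
    show x * y * x⁻¹ ∈ (Y : Set G)
    rw [hVc x (hX hx) y (hY hy), mul_inv_cancel_right]
    exact hy
  have hUWs : U ⊓ (W ⊔ s) = ⊥ := by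
    rw [eq_bot_iff]
    rintro z ⟨hzU, hzWs⟩
    obtain ⟨w, hw, t, ht, rfl⟩ :=
      (CfsgLib.Core.mem_sup_iff_of_le_normalizer (hnormV W hWV s hs.2.1)).1 hzWs
    have htUW : t ∈ s ⊓ (U ⊔ W) := ⟨ht, by
      have h := Subgroup.mul_mem (U ⊔ W) (Subgroup.mem_sup_right (W.inv_mem hw))
        (Subgroup.mem_sup_left hzU)
      rwa [inv_mul_cancel_left] at h⟩
    rw [hdis, Subgroup.mem_bot] at htUW
    subst htUW
    have hw' : w * 1 ∈ U ⊓ W := ⟨hzU, by rw [mul_one]; exact hw⟩
    rw [hUW] at hw'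
    exact hw'
  exact hne ((le_sup_right.trans (hmax ⟨sup_le hWV hs.2.1,
    CfsgLib.Core.le_normalizer_sup hWA hs.2.2.1, hUWs⟩ le_sup_left)).trans le_sup_right)

end Cfsg.Agent.S3735
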