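import Cfsg.Statements.S3736
import Cfsg.Agent.Lib.CoreOmega
import Cfsg.Agent.Lib.CoreCoprime
import Cfsg.Agent.Lib.CorePGroup

set_option autoImplicit false
open Cfsg

namespace Cfsg.Agent.S3736

open scoped commutatorElement Pointwise

/-- The Hall–Higman reduction for a minimal non-trivial action. Let B, A and P be subgroups of a finite group with P a p-group, B normalizing P, and A a normal subgroup of B of order prime to p. Suppose A does not centralize P but centralizes every proper B-invariant subgroup of P. Then [P, A] = P; P is elementary abelian or special; B acts irreducibly on P/Φ(P), that is, the only B-invariant subgroups of P containing Φ(P) are Φ(P) and P; and if p is odd then every element of P has order dividing p. -/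
theorem result {X : Type*} [Group X] [Finite X] {p : ℕ} [Fact p.Prime] (B A P : Subgroup X) (hP : IsPGroup p P) (hBP : B ≤ Subgroup.normalizer (P : Set X)) (hAB : A ≤ B) (hAn : B ≤ Subgroup.normalizer (A : Set X)) (hAp : (Nat.card A).Coprime p) (hnt : ⁅P, A⁆ ≠ ⊥) (hmin : ∀ U : Subgroup X, U < P → B ≤ Subgroup.normalizer (U : Set X) → ⁅U, A⁆ = ⊥) : ⁅P, A⁆ = P ∧ (Cfsg.IsElementaryAbelian p P ∨ Cfsg.IsSpecial p ↥P) ∧ (∀ U : Subgroup X, (frattini ↥P).map P.subtype ≤ U → U ≤ P → B ≤ Subgroup.normalizer (U : Set X) → U = (frattini ↥P).map P.subtype ∨ U = P) ∧ (p ≠ 2 → ∀ x ∈ P, x ^ p = 1) := by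
  classical
  have hpp : p.Prime := Fact.out
  have hAP : A ≤ Subgroup.normalizer (P : Set X) := hAB.trans hBP
  obtain ⟨k, hk⟩ := IsPGroup.iff_card.1 hP
  have hcop : (Nat.card A).Coprime (Nat.card P) := by rw [hk]; exact hAp.pow_right k
  haveI hPnil : Group.IsNilpotent P := hP.isNilpotent
  have hnorm : ∀ {Y Z C : Subgroup X}, C ≤ Subgroup.normalizer (Y : Set X) →
      C ≤ Subgroup.normalizer (Z : Set X) →
      C ≤ Subgroup.normalizer ((⁅Y, Z⁆ : Subgroup X) : Set X) := by
    intro Y Z C h1 h2 a ha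
    rw [← CfsgLib.Core.conj_smul_eq_self_iff, CfsgLib.Core.conj_smul_eq_map, Subgroup.map_commutator,
      ← CfsgLib.Core.conj_smul_eq_map, ← CfsgLib.Core.conj_smul_eq_map,
      CfsgLib.Core.conj_smul_of_mem_normalizer (h1 ha), CfsgLib.Core.conj_smul_of_mem_normalizer (h2 ha)]
  -- `[P, A] = P`
  have hPA : ⁅P, A⁆ = P := by
    by_contra hne
    have h1 := hmin ⁅P, A⁆ (lt_of_le_of_ne (CfsgLib.Core.commutator_le_of_le_normalizer hAP) hne)
      (hnorm hBP hAn)
    rw [CfsgLib.Core.commutator_commutator_eq hAP hcop (Or.inr inferInstance)] at h1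
    exact hnt h1
  have hP1 : P ≠ ⊥ := fun h => hnt (by rw [h, Subgroup.commutator_bot_left])
  haveI : Nontrivial P := (Subgroup.nontrivial_iff_ne_bot P).2 hP1
  -- fixed points lie in the commutator subgroup
  let ρ : ↥A →* MulAut ↥P := (Subgroup.normalizerMonoidHom P).comp (Subgroup.inclusion hAP)
  haveI : Fintype ↥A := Fintype.ofFinite _
  have hfix : ∀ x : ↥P, (x : X) ∈ Subgroup.centralizer (A : Set X) → x ∈ commutator ↥P := by
    set π : ↥P →* Abelianization ↥P := Abelianization.of with hπ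
    let f : ↥P →* Abelianization ↥P :=
      { toFun := fun g => ∏ a : ↥A, π (ρ a g)
        map_one' := by simp
        map_mul' := fun a b => by simp [Finset.prod_mul_distrib] }
    have hinv : ∀ (a₀ : ↥A) (x : ↥P), f (ρ a₀ x) = f x := by
      intro a₀ x
      show ∏ a : ↥A, π (ρ a (ρ a₀ x)) = ∏ a : ↥A, π (ρ a x)
      exact Fintype.prod_equiv (Equiv.mulRight a₀) _ _ fun a => by
        simp
    have hker : ∀ g : ↥P, f g = 1 := by
      have hle : P ≤ f.ker.map P.subtype := by
        conv_lhs => rw [← hPA]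
        rw [Subgroup.commutator_le]
        intro g hg a ha
        have hm : ⁅g, a⁆ ∈ P :=
          CfsgLib.Core.commutator_le_of_le_normalizer hAP (Subgroup.commutator_mem_commutator hg ha)
        refine ⟨⟨⁅g, a⁆, hm⟩, ?_, rfl⟩
        have e : (⟨⁅g, a⁆, hm⟩ : ↥P) = ⟨g, hg⟩ * ρ ⟨a, ha⟩ ⟨g, hg⟩⁻¹ := Subtype.ext (by
          show ⁅g, a⁆ = g * (a * g⁻¹ * a⁻¹)
          rw [commutatorElement_def]; group)
        rw [SetLike.mem_coe, MonoidHom.mem_ker, e, map_mul, hinv, ← map_mul, mul_inv_cancel, map_one]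
      intro g
      obtain ⟨y, hy, hyg⟩ := hle g.2
      exact (Subtype.ext hyg : y = g) ▸ hy
    intro x hx
    have h1 : π x ^ Nat.card ↥A = 1 := by
      have h2 : f x = π x ^ Nat.card ↥A := by
        show ∏ a : ↥A, π (ρ a x) = _
        rw [Nat.card_eq_fintype_card, ← Finset.card_univ]
        refine Finset.prod_eq_pow_card fun a _ => congrArg π (Subtype.ext ?_)
        show (a : X) * x * (a : X)⁻¹ = x
        rw [Subgroup.mem_centralizer_iff.1 hx a a.2, mul_inv_cancel_right]
      rw [← h2, hker]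
    obtain ⟨j, hj⟩ := IsPGroup.iff_orderOf.1 (hP.to_quotient (commutator ↥P)) (π x)
    have h3 : orderOf (π x) = 1 := Nat.eq_one_of_dvd_coprimes
      (hj.symm ▸ (hAp.symm.pow_left j)) dvd_rfl (orderOf_dvd_of_pow_eq_one h1)
    exact (QuotientGroup.eq_one_iff _).1 (orderOf_eq_one_iff.1 h3)
  set Φ := (frattini ↥P).map P.subtype with hΦ
  have hΦP : Φ ≤ P := Subgroup.map_subtype_le _
  have hcent : ∀ U : Subgroup X, U < P → B ≤ Subgroup.normalizer (U : Set X) →
      U ≤ Subgroup.centralizer (A : Set X) := fun U h1 h2 =>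
    Subgroup.commutator_eq_bot_iff_le_centralizer.1 (hmin U h1 h2)
  have hD : ⁅P, P⁆ = (commutator ↥P).map P.subtype := (Subgroup.map_subtype_commutator P).symm
  have hsubP : ∀ U : Subgroup X, U < P → B ≤ Subgroup.normalizer (U : Set X) → U ≤ ⁅P, P⁆ :=
    fun U h1 h2 x hx => hD ▸ ⟨⟨x, h1.le hx⟩, hfix ⟨x, h1.le hx⟩ (hcent U h1 h2 hx), rfl⟩
  have hΦlt : Φ < P := by
    refine lt_of_le_of_ne hΦP fun e => ?_
    have htop : frattini ↥P = ⊤ := Subgroup.map_injective P.subtype_injective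
      (e.trans (by rw [← MonoidHom.range_eq_map, Subgroup.range_subtype]))
    exact top_ne_bot (α := Subgroup ↥P)
      (CfsgLib.Core.eq_top_of_sup_frattini (by rw [htop, sup_top_eq])).symm
  have hΦB : B ≤ Subgroup.normalizer (Φ : Set X) :=
    CfsgLib.Core.le_normalizer_map_of_characteristic hBP _
  have hΦD : Φ = ⁅P, P⁆ := le_antisymm (hsubP Φ hΦlt hΦB)
    (hD ▸ Subgroup.map_mono (CfsgLib.Core.pgroup_commutator_le_frattini hP))
  have hΦA : ⁅Φ, A⁆ = ⊥ := hmin Φ hΦlt hΦB
  -- `Φ` is central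
  have hΦZ : ⁅Φ, P⁆ = ⊥ := by
    have h1 : ⁅⁅A, Φ⁆, P⁆ = ⊥ := by
      rw [Subgroup.commutator_comm A, hΦA, Subgroup.commutator_bot_left]
    have h2 : ⁅⁅Φ, P⁆, A⁆ = ⊥ := by
      refine le_bot_iff.1 (le_trans (Subgroup.commutator_mono ?_ le_rfl) hΦA.le)
      rw [hΦD]
      exact Subgroup.commutator_mono (Subgroup.commutator_le_self P) le_rfl
    have h3 : ⁅⁅P, A⁆, Φ⁆ = ⊥ := Subgroup.commutator_commutator_eq_bot_of_rotate h1 h2
    rwa [hPA, Subgroup.commutator_comm] at h3
  have hΦc : ∀ a ∈ Φ, ∀ x ∈ P, a * x = x * a := fun a ha x hx =>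
    (Subgroup.mem_centralizer_iff.1 (Subgroup.commutator_eq_bot_iff_le_centralizer.1 hΦZ ha) x hx).symm
  have hcD : commutator ↥P = frattini ↥P :=
    (Subgroup.map_injective P.subtype_injective (hD.symm.trans hΦD.symm) : commutator ↥P = frattini ↥P)
  have hpmem : ∀ x : ↥P, (x : X) ^ p ∈ Φ := fun x =>
    ⟨x ^ p, CfsgLib.Core.pgroup_pow_mem_frattini hP x, rfl⟩
  have hdich : IsMulCommutative ↥P ∨ commutator ↥P = Subgroup.center ↥P := by
    by_cases hab : IsMulCommutative ↥P
    · exact Or.inl hab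
    · have hle : commutator ↥P ≤ Subgroup.center ↥P := by
        intro x hx
        have hmem : (x : X) ∈ Φ := by
          rw [hΦD, hD]
          exact Subgroup.mem_map_of_mem _ hx
        exact Subgroup.mem_center_iff.2 fun y => Subtype.ext (hΦc x hmem y y.2).symm
      refine Or.inr (le_antisymm hle ?_)
      have hlt : (Subgroup.center ↥P).map P.subtype < P := by
        refine lt_of_le_of_ne (Subgroup.map_subtype_le _) fun e => hab ?_
        have htop : Subgroup.center ↥P = ⊤ := Subgroup.map_injective P.subtype_injective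
          (e.trans (by rw [← MonoidHom.range_eq_map, Subgroup.range_subtype]))
        exact ⟨⟨fun a b => (Subgroup.mem_center_iff.1 (htop ▸ Subgroup.mem_top b) a)⟩⟩
      have h1 := hsubP _ hlt (CfsgLib.Core.le_normalizer_map_of_characteristic hBP _)
      rw [hD] at h1
      exact (Subgroup.map_le_map_iff_of_injective P.subtype_injective).1 h1
  refine ⟨hPA, ?_, ?_, ?_⟩
  · rcases hdich with hab | hz
    · refine Or.inl ⟨hab, fun x hx => ?_⟩
      have h1 := hpmem ⟨x, hx⟩
      have hbot : commutator ↥P = ⊥ := by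
        rw [commutator_eq_closure, Subgroup.closure_eq_bot_iff]
        rintro _ ⟨a, b, rfl⟩
        exact commutatorElement_eq_one_iff_mul_comm.2 (hab.is_comm.comm a b)
      rw [hΦD, hD, hbot, Subgroup.map_bot, Subgroup.mem_bot] at h1
      exact h1
    · exact Or.inr ⟨hP, hcD.symm.trans hz, hz⟩
  · intro U hU1 hU2 hU3
    by_cases he : U = P
    · exact Or.inr he
    · exact Or.inl (le_antisymm (hΦD ▸ hsubP U (lt_of_le_of_ne hU2 he) hU3) hU1)
  · intro hp2 x hx
    have hcc : ∀ a b : ↥P, ∀ y : ↥P, ⁅a, b⁆ * y = y * ⁅a, b⁆ := by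
      intro a b y
      refine Subtype.ext (hΦc _ ?_ y y.2)
      rw [hΦD]
      exact Subgroup.commutator_mem_commutator a.2 b.2
    have hcp : ∀ a b : ↥P, ⁅a, b⁆ ^ p = 1 := by
      intro a b
      have key : ∀ i : ℕ, a ^ i * b * (a ^ i)⁻¹ = ⁅a, b⁆ ^ i * b := by
        intro i
        induction i with
        | zero => simp
        | succ i ih =>
          calc a ^ (i + 1) * b * (a ^ (i + 1))⁻¹ = a * (a ^ i * b * (a ^ i)⁻¹) * a⁻¹ := by
                rw [pow_succ']; group
            _ = ⁅a, b⁆ ^ i * (a * b * a⁻¹) := by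
                rw [ih, ← mul_assoc a, ← ((show Commute ⁅a, b⁆ a from hcc a b a).pow_left i).eq]
                group
            _ = ⁅a, b⁆ ^ (i + 1) * b := by
                rw [pow_succ, mul_assoc (⁅a, b⁆ ^ i), commutatorElement_def, inv_mul_cancel_right]
      have h1 := key p
      rw [show a ^ p * b = b * a ^ p from Subtype.ext (hΦc _ (hpmem a) b b.2),
        mul_inv_cancel_right] at h1
      exact mul_eq_right.1 h1.symm
    let g : ↥P →* ↥P :=
      { toFun := fun y => y ^ p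
        map_one' := one_pow p
        map_mul' := fun a b => by
          rw [CfsgLib.Core.mul_pow_of_central (hcc b a a) (hcc b a b)]
          obtain ⟨m, hm⟩ : p ∣ p.choose 2 :=
            hpp.dvd_choose_self two_ne_zero (lt_of_le_of_ne hpp.two_le (Ne.symm hp2))
          rw [hm, pow_mul, hcp, one_pow, mul_one] }
    have hle : P ≤ g.ker.map P.subtype := by
      conv_lhs => rw [← hPA]
      rw [Subgroup.commutator_le]
      intro y hy a ha
      have hm : ⁅y, a⁆ ∈ P :=
        CfsgLib.Core.commutator_le_of_le_normalizer hAP (Subgroup.commutator_mem_commutator hy ha)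
      refine ⟨⟨⁅y, a⁆, hm⟩, ?_, rfl⟩
      have e : (⟨⁅y, a⁆, hm⟩ : ↥P) = ⟨y, hy⟩ * (ρ ⟨a, ha⟩ ⟨y, hy⟩)⁻¹ := Subtype.ext (by
        show ⁅y, a⁆ = y * (a * y * a⁻¹)⁻¹
        rw [commutatorElement_def]; group)
      have hfp : ρ ⟨a, ha⟩ (g ⟨y, hy⟩) = g ⟨y, hy⟩ := by
        refine Subtype.ext ?_
        show a * ((⟨y, hy⟩ : ↥P) : X) ^ p * a⁻¹ = ((⟨y, hy⟩ : ↥P) : X) ^ p
        rw [Subgroup.mem_centralizer_iff.1 (Subgroup.commutator_eq_bot_iff_le_centralizer.1 hΦA
          (hpmem ⟨y, hy⟩)) a ha, mul_inv_cancel_right]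
      rw [SetLike.mem_coe, MonoidHom.mem_ker, e, map_mul, map_inv]
      have hg : g (ρ ⟨a, ha⟩ ⟨y, hy⟩) = ρ ⟨a, ha⟩ (g ⟨y, hy⟩) :=
        (map_pow (ρ ⟨a, ha⟩) (⟨y, hy⟩ : ↥P) p).symm
      rw [hg, hfp, mul_inv_cancel]
    obtain ⟨y, hy, rfl⟩ := hle hx
    exact congrArg Subtype.val hy

end Cfsg.Agent.S3736
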