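import Cfsg.Statements.S3737
import Cfsg.Agent.Lib.CoreBaerTrick
import Cfsg.Agent.Lib.CoreWard
import Cfsg.Agent.Lib.CoreCoprime
import Cfsg.Agent.Lib.CoreCoprime2

set_option autoImplicit false
open Cfsg

namespace Cfsg.Agent.S3737

open scoped commutatorElement Pointwise

universe w

set_option maxHeartbeats 400000 in
private theorem main : ∀ (n : ℕ) {X : Type w} [Group X] [Finite X] {p : ℕ} [Fact p.Prime],
    p ≠ 2 → ∀ P Q G : Subgroup X, Nat.card G = n → IsPGroup p P → (Nat.card Q).Coprime p →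
      P ≤ Subgroup.normalizer (Q : Set X) → IsPGroup p G → P ≤ Subgroup.normalizer (G : Set X) →
      Q ≤ Subgroup.normalizer (G : Set X) →
      G ⊓ Subgroup.centralizer (P : Set X) ≤ Subgroup.centralizer (Q : Set X) →
      Q ≤ Subgroup.centralizer (G : Set X) := by
  intro n
  induction n using Nat.strong_induction_on with
  | _ n ih =>
  intro X _ _ p hp' hp P Q G hn hP hQ hPQ hG hPG hQG hC
  classical
  have hpp : p.Prime := Fact.out
  by_cases hG1 : G = ⊥
  · subst hG1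
    exact Subgroup.le_centralizer_iff.1 bot_le
  obtain ⟨k, hk⟩ := IsPGroup.iff_card.1 hG
  have hcop : (Nat.card Q).Coprime (Nat.card G) := by rw [hk]; exact hQ.pow_right k
  haveI hGnil : Group.IsNilpotent G := hG.isNilpotent
  have hnorm : ∀ {Y Z A : Subgroup X}, A ≤ Subgroup.normalizer (Y : Set X) →
      A ≤ Subgroup.normalizer (Z : Set X) →
      A ≤ Subgroup.normalizer ((⁅Y, Z⁆ : Subgroup X) : Set X) := by
    intro Y Z A h1 h2 a ha
    rw [← CfsgLib.Core.conj_smul_eq_self_iff, CfsgLib.Core.conj_smul_eq_map, Subgroup.map_commutator,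
      ← CfsgLib.Core.conj_smul_eq_map, ← CfsgLib.Core.conj_smul_eq_map,
      CfsgLib.Core.conj_smul_of_mem_normalizer (h1 ha), CfsgLib.Core.conj_smul_of_mem_normalizer (h2 ha)]
  have hsub : ∀ W : Subgroup X, W ≤ G → W ≠ G → P ≤ Subgroup.normalizer (W : Set X) →
      Q ≤ Subgroup.normalizer (W : Set X) → Q ≤ Subgroup.centralizer (W : Set X) := by
    intro W h1 h2 h3 h4
    refine ih _ ?_ hp P Q W rfl hP hQ hPQ (hG.to_le h1) h3 h4 ((inf_le_inf_right _ h1).trans hC)
    exact hn ▸ lt_of_le_of_ne (Subgroup.card_le_of_le h1)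
      fun e => h2 (Subgroup.eq_of_le_of_card_ge h1 e.ge)
  by_cases hW : ⁅G, Q⁆ = G
  swap
  · refine CfsgLib.Core.le_centralizer_of_stabilizes hQG hcop (Or.inr inferInstance) ?_
    rw [Subgroup.commutator_eq_bot_iff_le_centralizer, Subgroup.le_centralizer_iff]
    exact hsub _ (CfsgLib.Core.commutator_le_of_le_normalizer hQG) hW (hnorm hPG hPQ)
      (CfsgLib.Core.le_normalizer_commutator_right G Q)
  -- the commutator subgroup is centralised
  have hG' : ⁅G, G⁆ ≠ G := by
    intro e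
    haveI : Nontrivial G := (Subgroup.nontrivial_iff_ne_bot G).2 hG1
    have h1 := Group.IsSolvable.commutator_lt_top_of_nontrivial ↥G
    refine h1.ne (Subgroup.map_injective G.subtype_injective ?_)
    rw [Subgroup.map_subtype_commutator, e, ← MonoidHom.range_eq_map, Subgroup.range_subtype]
  have hQG' : Q ≤ Subgroup.centralizer ((⁅G, G⁆ : Subgroup X) : Set X) :=
    hsub _ (Subgroup.commutator_le_self G) hG' (hnorm hPG hPG) (hnorm hQG hQG)
  have hc1 : ⁅⁅G, G⁆, Q⁆ = ⊥ := by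
    rw [Subgroup.commutator_eq_bot_iff_le_centralizer, Subgroup.le_centralizer_iff]
    exact hQG'
  have hclass : ⁅⁅G, G⁆, G⁆ = ⊥ := by
    have h1 : ⁅⁅Q, ⁅G, G⁆⁆, G⁆ = ⊥ := by
      rw [Subgroup.commutator_comm Q, hc1, Subgroup.commutator_bot_left]
    have h2 : ⁅⁅⁅G, G⁆, G⁆, Q⁆ = ⊥ := by
      rw [Subgroup.commutator_eq_bot_iff_le_centralizer, Subgroup.le_centralizer_iff]
      refine hQG'.trans (Subgroup.centralizer_le ?_)
      exact Subgroup.commutator_mono (Subgroup.commutator_le_self G) le_rfl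
    have h3 : ⁅⁅G, Q⁆, ⁅G, G⁆⁆ = ⊥ := Subgroup.commutator_commutator_eq_bot_of_rotate h1 h2
    rwa [hW, Subgroup.commutator_comm] at h3
  have hz : ∀ a b x : ↥G, Commute ⁅a, b⁆ x := by
    intro a b x
    have h1 := Subgroup.commutator_mem_commutator
      (Subgroup.commutator_mem_commutator a.2 b.2) x.2
    rw [hclass, Subgroup.mem_bot, commutatorElement_eq_one_iff_mul_comm] at h1
    exact Subtype.ext (by simpa [commutatorElement_def] using h1)
  obtain ⟨h, hh⟩ : ∃ h : ℕ, ∀ a b : ↥G, ⁅a, b⁆ ^ (h + h) = ⁅a, b⁆ := by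
    refine ⟨(Nat.card G + 1) / 2, fun a b => ?_⟩
    have hodd : Odd (Nat.card G) := by rw [hk]; exact (hpp.odd_of_ne_two hp).pow
    obtain ⟨m, hm⟩ := hodd
    rw [show (Nat.card G + 1) / 2 + (Nat.card G + 1) / 2 = Nat.card G + 1 by omega, pow_succ,
      pow_card_eq_one', one_mul]
  set N := Subgroup.normalizer (G : Set X) with hN
  set ρ := Subgroup.normalizerMonoidHom G with hρ
  set A : Subgroup (MulAut ↥G) := (Q.subgroupOf N).map ρ with hA
  set S : Finset (MulAut ↥G) := (Set.toFinite (A : Set (MulAut ↥G))).toFinset with hS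
  have hmemS : ∀ σ, σ ∈ S ↔ σ ∈ A := fun σ => by simp [hS]
  obtain ⟨L, hL1, hL2, hL3⟩ := CfsgLib.Core.BaerTrick.exists_average hz hh S
  set π : ↥G →* Abelianization ↥G := Abelianization.of with hπ
  -- the averaging map kills `G = [G, Q]`
  set Φ : ↥G → Abelianization ↥G := fun g => ∏ σ ∈ S, π (σ g) with hΦ
  have hΦ1 : ∀ g, Φ g = 1 := by
    let f : ↥G →* Abelianization ↥G :=
      { toFun := Φ
        map_one' := by simp [hΦ]
        map_mul' := fun a b => by simp [hΦ, Finset.prod_mul_distrib] }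
    have hker : ∀ g : ↥G, ∀ q ∈ Q, ∀ hm : ⁅(g : X), q⁆ ∈ G, (⟨⁅(g : X), q⁆, hm⟩ : ↥G) ∈ f.ker := by
      intro g q hq hm
      set σ₀ := ρ ⟨q, hQG hq⟩
      have hσ₀ : σ₀ ∈ A := ⟨⟨q, hQG hq⟩, hq, rfl⟩
      have e : (⟨⁅(g : X), q⁆, hm⟩ : ↥G) = g * σ₀ g⁻¹ := Subtype.ext (by
        show ⁅(g : X), q⁆ = (g : X) * (q * (g : X)⁻¹ * q⁻¹)
        rw [commutatorElement_def]; group)
      rw [MonoidHom.mem_ker, e, map_mul]
      have hinv : ∀ x, f (σ₀ x) = f x := by
        intro x
        show ∏ σ ∈ S, π (σ (σ₀ x)) = ∏ σ ∈ S, π (σ x)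
        refine Finset.prod_bij' (fun σ _ => σ * σ₀) (fun σ _ => σ * σ₀⁻¹)
          (fun σ hσ => (hmemS _).2 (mul_mem ((hmemS σ).1 hσ) hσ₀))
          (fun σ hσ => (hmemS _).2 (mul_mem ((hmemS σ).1 hσ) (inv_mem hσ₀)))
          (fun σ _ => mul_inv_cancel_right σ σ₀) (fun σ _ => inv_mul_cancel_right σ σ₀)
          (fun σ _ => rfl)
      rw [hinv, ← map_mul, mul_inv_cancel, map_one]
    have hle : G ≤ f.ker.map G.subtype := by
      conv_lhs => rw [← hW]
      rw [Subgroup.commutator_le]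
      intro g hg q hq
      have hm : ⁅g, q⁆ ∈ G :=
        CfsgLib.Core.commutator_le_of_le_normalizer hQG (Subgroup.commutator_mem_commutator hg hq)
      exact ⟨⟨⁅g, q⁆, hm⟩, hker ⟨g, hg⟩ q hq hm, rfl⟩
    intro g
    obtain ⟨y, hy, hyg⟩ := hle g.2
    exact (Subtype.ext hyg : y = g) ▸ hy
  -- a fixed point of `P` modulo the commutator subgroup
  haveI hGnt : Nontrivial G := (Subgroup.nontrivial_iff_ne_bot G).2 hG1
  let act : ↥P →* MulAut (Abelianization ↥G) :=
    { toFun := fun y => (ρ ⟨y.1, hPG y.2⟩).abelianizationCongr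
      map_one' := MulEquiv.ext fun v => by
        obtain ⟨g, rfl⟩ := QuotientGroup.mk_surjective v
        show Abelianization.of ((ρ ⟨(1 : ↥P).1, _⟩) g) = _
        rw [show (⟨(1 : ↥P).1, hPG (1 : ↥P).2⟩ : ↥N) = 1 from rfl, map_one]
        rfl
      map_mul' := fun y y' => MulEquiv.ext fun v => by
        obtain ⟨g, rfl⟩ := QuotientGroup.mk_surjective v
        show Abelianization.of ((ρ ⟨(y * y').1, _⟩) g) = _
        rw [show (⟨(y * y').1, hPG (y * y').2⟩ : ↥N) = ⟨y.1, hPG y.2⟩ * ⟨y'.1, hPG y'.2⟩ from rfl,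
          map_mul]
        rfl }
  have hVp : IsPGroup p (Abelianization ↥G) := hG.to_quotient _
  haveI : Nontrivial (Abelianization ↥G) :=
    QuotientGroup.nontrivial_iff.2 (Group.IsSolvable.commutator_lt_top_of_nontrivial ↥G).ne
  obtain ⟨v, hv1, hvfix⟩ := CfsgLib.Core.Ward.exists_fixed hP act {v | v ≠ 1}
    (fun y v hv e => hv ((map_eq_one_iff _ (act y).injective).1 e)) (by
      intro hd
      obtain ⟨j, hj0, hj⟩ := (IsPGroup.nontrivial_iff_card hVp).1 inferInstance
      have h1 : Nat.card {v : Abelianization ↥G | v ≠ 1} + 1 = p ^ j := by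
        rw [← hj, Nat.card_coe_set_eq, show {v : Abelianization ↥G | v ≠ 1} = ({1} : Set _)ᶜ from rfl,
          Set.ncard_compl, Set.ncard_singleton]
        have := Nat.card_pos (α := Abelianization ↥G)
        omega
      have h2 : p ∣ 1 := (Nat.dvd_add_right hd).1 (h1 ▸ dvd_pow_self p hj0.ne')
      exact hpp.ne_one (Nat.dvd_one.1 h2))
  obtain ⟨g, rfl⟩ := QuotientGroup.mk_surjective v
  exfalso
  -- `L g` is fixed by `P`
  have hfix : ∀ y (hy : y ∈ P), ρ ⟨y, hPG hy⟩ (L g) = L g := by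
    intro y hy
    set β := ρ ⟨y, hPG hy⟩
    rw [hL2 β ?_ g]
    · have h1 : π (g⁻¹ * β g) = 1 := by
        rw [map_mul, map_inv, inv_mul_eq_one]
        exact (hvfix ⟨y, hy⟩).symm
      have hmem : ((g⁻¹ * β g : ↥G) : X) ∈ ⁅G, G⁆ := by
        rw [← Subgroup.map_subtype_commutator]
        exact ⟨_, (QuotientGroup.eq_one_iff _).1 h1, rfl⟩
      rw [show β g = g * (g⁻¹ * β g) by group]
      refine hL1 g _ (fun x => Subtype.ext ?_) fun σ hσ => ?_
      · have h2 := Subgroup.commutator_mem_commutator hmem x.2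
        rw [hclass, Subgroup.mem_bot, commutatorElement_eq_one_iff_mul_comm] at h2
        exact h2
      · obtain ⟨⟨q, hqN⟩, hqQ, rfl⟩ := (hmemS σ).1 hσ
        refine Subtype.ext ?_
        show q * ((g⁻¹ * β g : ↥G) : X) * q⁻¹ = _
        rw [← Subgroup.mem_centralizer_iff.1 (hQG' (show q ∈ Q from hqQ)) _ hmem, mul_inv_cancel_right]
    · intro σ hσ
      obtain ⟨⟨q, hqN⟩, hqQ, rfl⟩ := (hmemS σ).1 hσ
      refine (hmemS _).2 ⟨⟨y, hPG hy⟩ * ⟨q, hqN⟩ * ⟨y, hPG hy⟩⁻¹, ?_, by simp only [β, map_mul, map_inv]⟩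
      exact (Subgroup.mem_normalizer_iff.1 (hPQ hy) q).1 hqQ
  have hLC : ((L g : ↥G) : X) ∈ Subgroup.centralizer (Q : Set X) := by
    refine hC (Subgroup.mem_inf.2 ⟨(L g).2, Subgroup.mem_centralizer_iff.2 fun y hy => ?_⟩)
    have h1 : y * ((L g : ↥G) : X) * y⁻¹ = ((L g : ↥G) : X) := congrArg Subtype.val (hfix y hy)
    exact mul_inv_eq_iff_eq_mul.1 h1
  have hpL : ∀ x : ↥G, π (L x) = π x ^ S.card := by
    intro x
    rw [hL3 _ π x, show ∏ σ ∈ S, π (σ x) = 1 from hΦ1 x, inv_one, mul_one]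
  have hone : π (L g) ^ S.card = 1 := by
    have h1 := hΦ1 (L g)
    simp only [hΦ] at h1
    rw [Finset.prod_eq_pow_card] at h1
    · exact h1
    · intro σ hσ
      obtain ⟨⟨q, hqN⟩, hqQ, rfl⟩ := (hmemS σ).1 hσ
      refine congrArg π (Subtype.ext ?_)
      show q * ((L g : ↥G) : X) * q⁻¹ = _
      rw [Subgroup.mem_centralizer_iff.1 hLC q hqQ, mul_inv_cancel_right]
  rw [hpL, ← pow_mul] at hone
  have hScard : (S.card).Coprime p := by
    have h1 : S.card = Nat.card A := by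
      rw [hS, ← Set.ncard_eq_toFinset_card _, ← Nat.card_coe_set_eq]
      rfl
    rw [h1]
    refine Nat.Coprime.coprime_dvd_left (dvd_trans ?_ (dvd_of_eq
      (Nat.card_congr (Subgroup.subgroupOfEquivOfLe hQG).toEquiv))) hQ
    exact Subgroup.card_dvd_of_surjective _ (ρ.subgroupMap_surjective (Q.subgroupOf N))
  obtain ⟨j, hj⟩ := IsPGroup.iff_orderOf.1 hVp (π g)
  have h2 : orderOf (π g) = 1 := Nat.eq_one_of_dvd_coprimes
    (hj.symm ▸ (hScard.symm.mul_right hScard.symm).pow_left j) dvd_rfl (orderOf_dvd_of_pow_eq_one hone)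
  exact hv1 (orderOf_eq_one_iff.1 h2)

/-- Thompson's strengthening of the P × Q lemma for odd primes. Let p be an odd prime and let P, Q and G be subgroups of a finite group with P a p-group, Q of order prime to p and normalized by P, and G a p-group normalized by both P and Q. If every element of G centralized by P is centralized by Q, then Q centralizes G. -/
theorem result {X : Type*} [Group X] [Finite X] {p : ℕ} [Fact p.Prime] (hp : p ≠ 2) (P Q G : Subgroup X) (hP : IsPGroup p P) (hQ : (Nat.card Q).Coprime p) (hPQ : P ≤ Subgroup.normalizer (Q : Set X)) (hG : IsPGroup p G) (hPG : P ≤ Subgroup.normalizer (G : Set X)) (hQG : Q ≤ Subgroup.normalizer (G : Set X)) (hC : G ⊓ Subgroup.centralizer (P : Set X) ≤ Subgroup.centralizer (Q : Set X)) : Q ≤ Subgroup.centralizer (G : Set X) := by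
  exact main (Nat.card G) hp P Q G rfl hP hQ hPQ hG hPG hQG hC

end Cfsg.Agent.S3737
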