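import Cfsg.Statements.S3738
import Cfsg.Agent.Lib.CoreAnisotropic
import Cfsg.Agent.Lib.TransferPGroups
import Cfsg.Agent.Lib.CoreCoprime2
import Cfsg.Agent.Lib.CoreOmega

set_option autoImplicit false
open Cfsg

namespace Cfsg.Agent.S3738

universe w

open CfsgLib.Core in
open scoped commutatorElement Pointwise in
private theorem main {X : Type w} [Group X] [Finite X] (d : X) (n : ℕ) (hn : 1 ≤ n) (hd : orderOf d = 3 ^ n)
    (P : Subgroup X) (hP : IsPGroup 2 P) (hdP : d ∈ Subgroup.normalizer (P : Set X))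
    (hfaith : Subgroup.zpowers d ⊓ Subgroup.centralizer (P : Set X) = ⊥)
    (hfpf : P ⊓ Subgroup.centralizer {d} = ⊥)
    (hrank : ∀ V : Subgroup X, V ≤ P → IsMulCommutative V → Cfsg.PRankLE 2 2 V) : orderOf d = 3 := by
  classical
  haveI : Fact (Nat.Prime 2) := ⟨Nat.prime_two⟩
  haveI : Fact (Nat.Prime 3) := ⟨Nat.prime_three⟩
  by_contra hne
  obtain ⟨m, rfl⟩ : ∃ m, n = m + 2 := by
    refine ⟨n - 2, ?_⟩
    rcases eq_or_ne n 1 with rfl | h
    · rw [pow_one] at hd; exact absurd hd hne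
    · omega
  set e := d ^ 3 ^ (m + 1) with he
  have heo : orderOf e = 3 := by
    rw [he, orderOf_pow' _ (pow_ne_zero _ three_ne_zero), hd,
      Nat.gcd_eq_right (pow_dvd_pow 3 (Nat.le_succ _)), pow_succ,
      Nat.mul_div_cancel_left _ (pow_pos three_pos _)]
  have hed : e ∈ Subgroup.zpowers d := (Subgroup.zpowers d).pow_mem (Subgroup.mem_zpowers d) _
  -- invariant subgroups
  have hinvar : ∀ {A : Subgroup X}, d ∈ Subgroup.normalizer (A : Set X) →
      Subgroup.zpowers e ≤ Subgroup.normalizer (A : Set X) := fun {A} h =>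
    Subgroup.zpowers_le.2 ((Subgroup.normalizer (A : Set X)).pow_mem h _)
  have hcopP : ∀ {A : Subgroup X}, A ≤ P → (Nat.card (Subgroup.zpowers e)).Coprime (Nat.card A) := by
    intro A hA
    obtain ⟨k, hk⟩ := IsPGroup.iff_card.1 (hP.to_le hA)
    rw [Nat.card_zpowers, heo, hk]
    exact ((Nat.coprime_primes Nat.prime_three Nat.prime_two).2 (by norm_num)).pow_right k
  -- orbits of non-fixed elements
  have hper : ∀ y : X, (∃ k : ℕ, d ^ k * y * (d ^ k)⁻¹ = y ∧ k ≠ 0 ∧ k < 3 ^ (m + 2)) → e * y = y * e := by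
    rintro y ⟨k, hk, hk0, hk1⟩
    have hc : Commute (d ^ k) y := mul_inv_eq_iff_eq_mul.1 hk
    have hg : Nat.gcd k (3 ^ (m + 2)) ∣ 3 ^ (m + 1) := by
      obtain ⟨i, hi, hi'⟩ := (Nat.dvd_prime_pow Nat.prime_three).1 (Nat.gcd_dvd_right k (3 ^ (m + 2)))
      rw [hi']
      refine pow_dvd_pow 3 (Nat.le_of_lt_succ (lt_of_le_of_ne hi fun e' => ?_))
      have h' := Nat.gcd_dvd_left k (3 ^ (m + 2))
      rw [hi', e'] at h'
      exact absurd (Nat.le_of_dvd (Nat.pos_of_ne_zero hk0) h') (Nat.not_le.2 hk1)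
    obtain ⟨c, hc'⟩ := hg
    obtain ⟨l, hl⟩ : ∃ l : ℤ, (d ^ k) ^ l = d ^ Nat.gcd k (3 ^ (m + 2)) := by
      refine ⟨Nat.gcdA k (3 ^ (m + 2)), ?_⟩
      rw [← zpow_natCast d (Nat.gcd _ _), Nat.gcd_eq_gcd_ab, zpow_add, zpow_mul, zpow_natCast,
        zpow_mul d ((3 ^ (m + 2) : ℕ) : ℤ), zpow_natCast, ← hd, pow_orderOf_eq_one, one_zpow, mul_one]
    have h1 := (hc.zpow_left l).pow_left c
    rw [hl, ← pow_mul, ← hc'] at h1
    exact h1.eq
  have hab : ∀ A : Subgroup X, A ≤ P → IsMulCommutative A → d ∈ Subgroup.normalizer (A : Set X) →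
      ∀ a ∈ A, e * a = a * e := by
    intro A hA hAc hdA
    haveI := hAc
    suffices h : Subgroup.zpowers e ≤ Subgroup.centralizer (A : Set X) from fun a ha =>
      (Subgroup.mem_centralizer_iff.1 (h (Subgroup.mem_zpowers e)) a ha).symm
    refine abelian_trivial_on_prime_order (hinvar hdA) (hcopP hA) fun v hv hvp a ha => ?_
    have hv2 : v ^ 2 = 1 := by
      obtain ⟨k, hk⟩ := IsPGroup.iff_orderOf.1 hP ⟨v, hA hv⟩
      rw [Subgroup.orderOf_mk] at hk
      rw [hk] at hvp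
      have h1 := Nat.Prime.eq_one_of_pow hvp
      rw [h1, pow_one] at hk
      rw [← hk, pow_orderOf_eq_one]
    have hev : e * v = v * e := by
      let U : Subgroup A :=
        { carrier := {u | u ^ 2 = 1}
          one_mem' := one_pow 2
          mul_mem' := fun {x y} hx hy => by
            show (x * y) ^ 2 = 1
            rw [(show Commute x y from hAc.is_comm.comm x y).mul_pow, hx, hy, one_mul]
          inv_mem' := fun {x} hx => by
            show x⁻¹ ^ 2 = 1
            rw [inv_pow, hx, inv_one] }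
      have hU : Nat.card U ≤ 2 ^ 2 := hrank A hA hAc U ⟨⟨fun x y => Subtype.ext (hAc.is_comm.comm _ _)⟩⟩
        fun u hu => hu
      have hmem : ∀ k : ℕ, d ^ k * v * (d ^ k)⁻¹ ∈ A := fun k =>
        (Subgroup.mem_normalizer_iff.1 ((Subgroup.normalizer (A : Set X)).pow_mem hdA k) v).1 hv
      let f : Fin 5 → U := fun k => ⟨⟨_, hmem k.1⟩, Subtype.ext (by
        show (d ^ (k : ℕ) * v * (d ^ (k : ℕ))⁻¹) ^ 2 = 1
        rw [conj_pow, hv2, mul_one, mul_inv_cancel])⟩
      obtain ⟨i, j, hij, hf⟩ : ∃ i j : Fin 5, i.1 < j.1 ∧ f i = f j := by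
        by_contra hcon
        push Not at hcon
        have hinj : Function.Injective f := fun i j h => by
          rcases Nat.lt_trichotomy i.1 j.1 with h1 | h1 | h1
          · exact absurd h (hcon i j h1)
          · exact Fin.ext h1
          · exact absurd h.symm (hcon j i h1)
        have h1 := Nat.card_le_card_of_injective f hinj
        rw [Nat.card_fin] at h1
        omega
      have hf' : d ^ i.1 * v * (d ^ i.1)⁻¹ = d ^ j.1 * v * (d ^ j.1)⁻¹ :=
        congrArg Subtype.val (congrArg Subtype.val hf)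
      refine hper v ⟨j.1 - i.1, ?_, by omega, ?_⟩
      · have h3 : d ^ j.1 = d ^ i.1 * d ^ (j.1 - i.1) := by rw [← pow_add]; congr 1; omega
        rw [h3] at hf'
        calc d ^ (j.1 - i.1) * v * (d ^ (j.1 - i.1))⁻¹
            = (d ^ i.1)⁻¹ * (d ^ i.1 * d ^ (j.1 - i.1) * v * (d ^ i.1 * d ^ (j.1 - i.1))⁻¹) * d ^ i.1 := by
              group
          _ = v := by rw [← hf']; group
      · have h4 : 3 ^ 2 ≤ 3 ^ (m + 2) := Nat.pow_le_pow_right three_pos (by omega)
        have := j.2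
        omega
    obtain ⟨l, rfl⟩ := Subgroup.mem_zpowers_iff.1 ha
    exact ((show Commute e v from hev).zpow_left l).eq
  -- the critical subgroup
  obtain ⟨C₀, hC₀, hΦ, hcomm, hcen⟩ := CfsgLib.Transfer.exists_critical (p := 2) (G := P) hP
  haveI := hC₀
  set C := C₀.map P.subtype with hC
  have hCP : C ≤ P := Subgroup.map_subtype_le _
  have hdC : d ∈ Subgroup.normalizer (C : Set X) :=
    le_normalizer_map_of_characteristic (A := Subgroup.zpowers d) (Subgroup.zpowers_le.2 hdP) C₀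
      (Subgroup.mem_zpowers d)
  have heP := hinvar hdP
  have hcC : Subgroup.centralizer (C : Set X) ⊓ P ≤ C := by
    rintro x ⟨hx, hxP⟩
    exact ⟨⟨x, hxP⟩, hcen (Subgroup.mem_centralizer_iff.2 fun c hc => Subtype.ext
      (Subgroup.mem_centralizer_iff.1 hx c ⟨c, hc, rfl⟩)), rfl⟩
  have hCn : P ≤ Subgroup.normalizer (C : Set X) :=
    le_normalizer_map_of_characteristic Subgroup.le_normalizer C₀
  obtain ⟨x₀, hx₀, hx₀e⟩ : ∃ x ∈ C, e * x ≠ x * e := by
    by_contra hcon
    push Not at hcon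
    have h1 : ⁅Subgroup.zpowers e, C⁆ = ⊥ := by
      rw [Subgroup.commutator_eq_bot_iff_le_centralizer, Subgroup.zpowers_le]
      exact Subgroup.mem_centralizer_iff.2 fun c hc => (hcon c hc).symm
    have h2 : ⁅⁅P, Subgroup.zpowers e⁆, C⁆ = ⊥ :=
      Subgroup.commutator_commutator_eq_bot_of_rotate (by rw [h1, Subgroup.commutator_bot_left])
        (le_bot_iff.1 ((Subgroup.commutator_mono (commutator_le_of_le_normalizer hCn) le_rfl).trans
          (by rw [Subgroup.commutator_comm, h1])))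
    have h3 : ⁅P, Subgroup.zpowers e⁆ ≤ C := fun x hx => hcC
      ⟨Subgroup.commutator_eq_bot_iff_le_centralizer.1 h2 hx,
        commutator_le_of_le_normalizer heP hx⟩
    have h4 : ⁅P, Subgroup.zpowers e⁆ = ⊥ := by
      rw [← commutator_commutator_eq heP (hcopP le_rfl) (Or.inl inferInstance)]
      exact le_bot_iff.1 ((Subgroup.commutator_mono h3 le_rfl).trans (by rw [Subgroup.commutator_comm, h1]))
    have h5 : e ∈ Subgroup.zpowers d ⊓ Subgroup.centralizer (P : Set X) :=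
      ⟨hed, centralizes_of_commutator_eq_bot h4 (Subgroup.mem_zpowers e)⟩
    rw [hfaith, Subgroup.mem_bot] at h5
    rw [h5, orderOf_one] at heo
    omega
  set Z := C ⊓ Subgroup.centralizer (C : Set X) with hZ
  have hZc : IsMulCommutative Z :=
    ⟨⟨fun a b => Subtype.ext (Subgroup.mem_centralizer_iff.1 b.2.2 a a.2.1)⟩⟩
  have hdZ : d ∈ Subgroup.normalizer (Z : Set X) :=
    le_normalizer_inf (Subgroup.zpowers_le.2 hdC) (le_normalizer_centralizer (Subgroup.zpowers_le.2 hdC))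
      (Subgroup.mem_zpowers d)
  have heZ := hab Z (inf_le_left.trans hCP) hZc hdZ
  have hsqZ : ∀ x ∈ C, x ^ 2 ∈ Z := by
    intro x hx
    refine ⟨C.pow_mem hx 2, ?_⟩
    obtain ⟨y, hy, rfl⟩ := hx
    show _ ∈ Subgroup.centralizer (C : Set X)
    rw [Subgroup.mem_centralizer_iff]
    rintro _ ⟨c, hc, rfl⟩
    exact congrArg Subtype.val (Subgroup.mem_centralizer_iff.1
      (hΦ ⟨_, pgroup_pow_mem_frattini (hP.to_subgroup C₀) (⟨y, hy⟩ : C₀), rfl⟩) c hc)
  have hcZ : ∀ x ∈ C, ∀ y ∈ C, ⁅x, y⁆ ∈ Z := by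
    intro x hx y hy
    obtain ⟨a, ha, rfl⟩ := hx
    obtain ⟨b, hb, rfl⟩ := hy
    obtain ⟨h1, h2⟩ := hcomm (Subgroup.commutator_mem_commutator ha (Subgroup.mem_top b))
    refine ⟨⟨_, h1, map_commutatorElement _ _ _⟩, Subgroup.mem_centralizer_iff.2 ?_⟩
    rintro _ ⟨c, hc, rfl⟩
    exact congrArg Subtype.val (Subgroup.mem_centralizer_iff.1 h2 c hc)
  have hZcen : ∀ z ∈ Z, ∀ x ∈ C, Commute z x := fun z hz x hx =>
    (Subgroup.mem_centralizer_iff.1 hz.2 x hx).symm
  have hcW : ∀ x ∈ C, ∀ y ∈ C, ⁅x, y⁆ ^ 2 = 1 := by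
    intro x hx y hy
    have hc := hcZ x hx y hy
    have e1 : ⁅x ^ 2, y⁆ = ⁅x, y⁆ ^ 2 := by
      rw [pow_two, pow_two, show ⁅x * x, y⁆ = x * ⁅x, y⁆ * x⁻¹ * ⁅x, y⁆ by
        simp only [commutatorElement_def]; group, ← (hZcen _ hc x hx).eq, mul_inv_cancel_right]
    rw [← e1, commutatorElement_eq_one_iff_mul_comm]
    exact (hZcen _ (hsqZ x hx) y hy).eq
  let W : Subgroup X :=
    { carrier := {z | z ∈ Z ∧ z ^ 2 = 1}
      one_mem' := ⟨Z.one_mem, one_pow 2⟩
      mul_mem' := fun {x y} hx hy => ⟨Z.mul_mem hx.1 hy.1, by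
        rw [(hZcen x hx.1 y hy.1.1).mul_pow, hx.2, hy.2, one_mul]⟩
      inv_mem' := fun {x} hx => ⟨Z.inv_mem hx.1, by rw [inv_pow, hx.2, inv_one]⟩ }
  let Q : Subgroup X :=
    { carrier := {x | x ∈ C ∧ x ^ 2 ∈ W}
      one_mem' := ⟨C.one_mem, by rw [one_pow]; exact W.one_mem⟩
      mul_mem' := fun {x y} hx hy => ⟨C.mul_mem hx.1 hy.1, by
        have hcy := hcZ y hy.1 x hx.1
        have e1 : (x * y) ^ 2 = x ^ 2 * y ^ 2 * ⁅y, x⁆ := by
          have h1 : x * y * (x * y) = x * (⁅y, x⁆ * x) * y * y := by rw [commutatorElement_def]; group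
          rw [pow_two, h1, (hZcen _ hcy x hx.1).eq, pow_two, pow_two]
          have h2 := (hZcen _ hcy (y * y) (C.mul_mem hy.1 hy.1)).eq
          calc x * (x * ⁅y, x⁆) * y * y = x * x * (⁅y, x⁆ * (y * y)) := by group
            _ = _ := by rw [h2]; group
        rw [e1]
        exact W.mul_mem (W.mul_mem hx.2 hy.2) ⟨hcy, hcW y hy.1 x hx.1⟩⟩
      inv_mem' := fun {x} hx => ⟨C.inv_mem hx.1, by rw [inv_pow]; exact W.inv_mem hx.2⟩ }
  have hdW : ∀ z ∈ W, d * z * d⁻¹ ∈ W := fun z hz =>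
    ⟨(Subgroup.mem_normalizer_iff.1 hdZ z).1 hz.1, by rw [conj_pow, hz.2, mul_one, mul_inv_cancel]⟩
  have hQC : Q ≤ C := fun x hx => hx.1
  have hWQ : W ≤ Q := fun z hz => ⟨hz.1.1, by rw [hz.2]; exact W.one_mem⟩
  have hWcard : Nat.card W = 4 := by
    have hle : Nat.card W ≤ 2 ^ 2 := by
      have h1 := hrank Z (inf_le_left.trans hCP) hZc (W.subgroupOf Z)
        ⟨⟨fun a b => Subtype.ext (hZc.is_comm.comm _ _)⟩⟩
        (fun a ha => Subtype.ext (Subgroup.mem_subgroupOf.1 ha).2)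
      rwa [card_subgroupOf_of_le ((fun z (hz : z ∈ W) => hz.1) : W ≤ Z)] at h1
    obtain ⟨k, hk⟩ := IsPGroup.iff_card.1 (hP.to_le ((fun z (hz : z ∈ W) => hCP hz.1.1) : W ≤ P))
    have hk2 : k ≤ 2 := (Nat.pow_le_pow_iff_right one_lt_two).1 (hk ▸ hle)
    interval_cases k
    · exfalso
      haveI : Nontrivial C := (Subgroup.nontrivial_iff_ne_bot C).2 fun h => hx₀e (by
        rw [h, Subgroup.mem_bot] at hx₀; rw [hx₀, mul_one, one_mul])
      haveI := (hP.to_le hCP).center_nontrivial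
      obtain ⟨⟨z, hz⟩, hzo⟩ := exists_prime_orderOf_dvd_card' (G := Subgroup.center C) 2 (by
        obtain ⟨j, hj, hc⟩ := ((hP.to_le hCP).to_subgroup (Subgroup.center C)).nontrivial_iff_card.1 inferInstance
        exact hc ▸ dvd_pow_self 2 hj.ne')
      rw [← Subgroup.orderOf_coe, ← Subgroup.orderOf_coe] at hzo
      have hzW : (z : X) ∈ W := ⟨⟨z.2, Subgroup.mem_centralizer_iff.2 fun c hc =>
        congrArg Subtype.val (Subgroup.mem_center_iff.1 hz ⟨c, hc⟩)⟩, by
          rw [show (2 : ℕ) = orderOf (z : X) from hzo.symm, pow_orderOf_eq_one]⟩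
      rw [Subgroup.eq_bot_of_card_eq W (by rw [hk, pow_zero]), Subgroup.mem_bot] at hzW
      rw [show orderOf (z : X) = 1 by rw [hzW, orderOf_one]] at hzo
      omega
    · exfalso
      rw [pow_one] at hk
      obtain ⟨⟨w, hw⟩, hwo⟩ := exists_prime_orderOf_dvd_card' (G := W) 2 (hk ▸ dvd_rfl)
      have huniq : ∀ u ∈ W, u = 1 ∨ u = w := by
        intro u hu
        obtain ⟨g, hg⟩ := (isCyclic_of_prime_card (α := W) hk).exists_generator
        by_contra hcon
        push Not at hcon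
        have h3 : ({1, ⟨w, hw⟩, ⟨u, hu⟩} : Finset W).card ≤ 2 := by
          letI := Fintype.ofFinite W
          rw [← hk, Nat.card_eq_fintype_card]
          exact Finset.card_le_univ _
        rw [Finset.card_insert_of_notMem, Finset.card_insert_of_notMem, Finset.card_singleton] at h3
        · omega
        · rw [Finset.mem_singleton]; exact fun h => hcon.2 (congrArg Subtype.val h).symm
        · rw [Finset.mem_insert, Finset.mem_singleton]
          rintro (h | h)
          · rw [← h, orderOf_one] at hwo; omega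
          · exact hcon.1 (congrArg Subtype.val h).symm
      have hw1 : w ≠ 1 := by
        intro h
        subst h
        rw [← Subgroup.orderOf_coe] at hwo
        simp at hwo
      rcases huniq _ (hdW w hw) with h | h
      · rw [mul_inv_eq_one, mul_eq_left] at h
        exact hw1 h
      · have h5 : w ∈ P ⊓ Subgroup.centralizer {d} :=
          ⟨hCP hw.1.1, Subgroup.mem_centralizer_singleton_iff.2 (mul_inv_eq_iff_eq_mul.1 h).symm⟩
        rw [hfpf, Subgroup.mem_bot] at h5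
        exact hw1 h5
    · exact hk
  have hWmax : ∀ t ∈ Q, t ^ 2 = 1 → t ∈ W := by
    intro t ht ht2
    have hWt : W ≤ Subgroup.normalizer ((Subgroup.zpowers t : Subgroup X) : Set X) := fun z hz => by
      refine centralizer_le_normalizer _ (Subgroup.mem_centralizer_iff.2 fun c hc => ?_)
      obtain ⟨i, rfl⟩ := Subgroup.mem_zpowers_iff.1 hc
      exact ((hZcen z hz.1 t ht.1).symm.zpow_left i).eq
    set E := W ⊔ Subgroup.zpowers t with hE
    have hEP : E ≤ P := sup_le (fun z hz => hCP hz.1.1) (Subgroup.zpowers_le.2 (hCP ht.1))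
    have hdec : ∀ x : E, ∃ z ∈ W, ∃ i : ℤ, z * t ^ i = x := by
      intro x
      have h1 : (x : X) ∈ (W : Set X) * (Subgroup.zpowers t : Set X) := by
        rw [← Subgroup.coe_mul_of_left_le_normalizer_right _ _ hWt]; exact x.2
      obtain ⟨z, hz, s, hs, h⟩ := h1
      obtain ⟨i, rfl⟩ := Subgroup.mem_zpowers_iff.1 hs
      exact ⟨z, hz, i, h⟩
    have hEc : IsMulCommutative E := ⟨⟨fun a b => Subtype.ext (by
      obtain ⟨z, hz, i, ha⟩ := hdec a
      obtain ⟨z', hz', j, hb⟩ := hdec b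
      show (a : X) * b = b * a
      rw [← ha, ← hb]
      exact (((hZcen z hz.1 z' hz'.1.1).mul_right ((hZcen z hz.1 t ht.1).zpow_right j)).mul_left
        (((hZcen z' hz'.1 t ht.1).zpow_right i).symm.mul_right ((Commute.refl t).zpow_zpow i j))).eq)⟩⟩
    have h1 := hrank E hEP hEc ⊤ ⟨⟨fun a b => Subtype.ext (hEc.is_comm.comm _ _)⟩⟩ fun a _ => by
      obtain ⟨z, hz, i, ha⟩ := hdec a
      refine Subtype.ext ?_
      show (a : X) ^ 2 = 1
      rw [← ha, ((hZcen z hz.1 t ht.1).zpow_right i).mul_pow, hz.2, one_mul, ← zpow_natCast, ← zpow_mul,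
        mul_comm, zpow_mul, zpow_natCast, ht2, one_zpow]
    rw [Subgroup.card_top] at h1
    have h2 : W = E := eq_of_le_of_card_le le_sup_left (by rw [hWcard]; simpa using h1)
    rw [h2]
    exact Subgroup.mem_sup_right (Subgroup.mem_zpowers t)
  have hQcard : Nat.card Q ≤ 64 := by
    have h := (CfsgLib.Core.Anisotropic.card_le (C := Q) (A := W.subgroupOf Q) (Z := W.subgroupOf Q)
      (fun z hz => Subgroup.mem_center_iff.2 fun g => Subtype.ext
        ((hZcen _ (Subgroup.mem_subgroupOf.1 hz).1 g g.2.1).symm.eq)) le_rfl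
      (fun a ha => Subtype.ext ((pow_two _).symm.trans (Subgroup.mem_subgroupOf.1 ha).2))
      (fun x hx => Subgroup.mem_subgroupOf.2 (hWmax x x.2 ((pow_two _).trans (congrArg Subtype.val hx))))
      (fun x => Subgroup.mem_subgroupOf.2 (by
        show (x : X) * x ∈ W
        rw [← pow_two]; exact x.2.2))
      (fun x y => Subgroup.mem_subgroupOf.2 ⟨hcZ x x.2.1 y y.2.1, hcW x x.2.1 y y.2.1⟩)).1
    rw [card_subgroupOf_of_le hWQ, hWcard] at h
    omega
  -- `d` acts semiregularly on the elements of `Q` moved by `e`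
  have hdQ : d ∈ Subgroup.normalizer (Q : Set X) := Subgroup.mem_normalizer_fintype fun x hx =>
    ⟨(Subgroup.mem_normalizer_iff.1 hdC x).1 hx.1, by rw [conj_pow]; exact hdW _ hx.2⟩
  set F := Q ⊓ Subgroup.centralizer ({e} : Set X) with hF
  have hWF : W ≤ F := fun z hz => ⟨hWQ hz, Subgroup.mem_centralizer_singleton_iff.2 (heZ z hz.1).symm⟩
  obtain ⟨y₀, hy₀Q, hy₀F⟩ : ∃ y ∈ Q, y ∉ F := by
    have heC : e * x₀ * e⁻¹ ∈ C :=
      (Subgroup.mem_normalizer_iff.1 (hinvar hdC (Subgroup.mem_zpowers e)) x₀).1 hx₀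
    set y := x₀⁻¹ * (e * x₀ * e⁻¹) with hy
    have hyC : y ∈ C := C.mul_mem (C.inv_mem hx₀) heC
    refine ⟨y, ⟨hyC, ?_⟩, fun hyF => hx₀e ?_⟩
    · have hs : e * x₀ ^ 2 * e⁻¹ = x₀ ^ 2 := mul_inv_eq_iff_eq_mul.2 (heZ _ (hsqZ _ hx₀))
      have hcy := hcZ _ heC _ (C.inv_mem hx₀)
      have e1 : y ^ 2 = x₀⁻¹ ^ 2 * (e * x₀ * e⁻¹) ^ 2 * ⁅e * x₀ * e⁻¹, x₀⁻¹⁆ := by
        set a := x₀⁻¹
        set b := e * x₀ * e⁻¹
        rw [hy, pow_two, pow_two, pow_two]
        have h1 : a * b * (a * b) = a * (⁅b, a⁆ * a) * b * b := by rw [commutatorElement_def]; group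
        rw [h1, (hZcen _ hcy a (C.inv_mem hx₀)).eq]
        have h2 := (hZcen _ hcy (b * b) (C.mul_mem heC heC)).eq
        calc a * (a * ⁅b, a⁆) * b * b = a * a * (⁅b, a⁆ * (b * b)) := by group
          _ = _ := by rw [h2]; group
      rw [e1, conj_pow, hs, inv_pow, inv_mul_cancel, one_mul]
      exact ⟨hcy, hcW _ heC _ (C.inv_mem hx₀)⟩
    · have hey : Commute e y := (Subgroup.mem_centralizer_singleton_iff.1 hyF.2).symm
      have hj : ∀ j : ℕ, e ^ j * x₀ * (e ^ j)⁻¹ = x₀ * y ^ j := by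
        intro j
        induction j with
        | zero => simp
        | succ j ihj =>
          rw [pow_succ', show e * e ^ j * x₀ * (e * e ^ j)⁻¹ = e * (e ^ j * x₀ * (e ^ j)⁻¹) * e⁻¹ by group,
            ihj, show e * (x₀ * y ^ j) * e⁻¹ = (e * x₀ * e⁻¹) * (e * y ^ j * e⁻¹) by group,
            (hey.pow_right j).eq, mul_inv_cancel_right, show e * x₀ * e⁻¹ = x₀ * y by rw [hy]; group,
            mul_assoc, ← pow_succ']
      have h3 := hj 3
      rw [← heo, pow_orderOf_eq_one, one_mul, inv_one, mul_one] at h3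
      have hy3 : y ^ orderOf e = 1 := by
        calc y ^ orderOf e = x₀⁻¹ * (x₀ * y ^ orderOf e) := (inv_mul_cancel_left _ _).symm
          _ = 1 := by rw [← h3, inv_mul_cancel]
      have hy1 : y = 1 := by
        obtain ⟨k, hk⟩ := IsPGroup.iff_orderOf.1 hP ⟨y, hCP hyC⟩
        rw [Subgroup.orderOf_mk] at hk
        refine orderOf_eq_one_iff.1 (Nat.eq_one_of_dvd_coprimes
          (((Nat.coprime_primes Nat.prime_two Nat.prime_three).2 (by norm_num)).pow_left k) (dvd_of_eq hk) ?_)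
        exact heo ▸ orderOf_dvd_of_pow_eq_one hy3
      have h5 : e * x₀ * e⁻¹ = x₀ := by
        rw [show e * x₀ * e⁻¹ = x₀ * y by rw [hy]; group, hy1, mul_one]
      exact mul_inv_eq_iff_eq_mul.1 h5
  let S := {y : Q // (y : X) ∉ F}
  have hdF : ∀ (k : Subgroup.zpowers d) (y : X), y ∈ Q → y ∉ F →
      (k : X) * y * (k : X)⁻¹ ∈ Q ∧ (k : X) * y * (k : X)⁻¹ ∉ F := by
    intro k y hy hyF
    have hk := Subgroup.zpowers_le.2 hdQ k.2
    refine ⟨(Subgroup.mem_normalizer_iff.1 hk y).1 hy, fun h => hyF ⟨hy, ?_⟩⟩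
    have hke : Commute (k : X) e := by
      obtain ⟨i, hi⟩ := Subgroup.mem_zpowers_iff.1 k.2
      rw [← hi]
      exact ((Commute.refl d).zpow_left i).pow_right _
    have h1 : Commute ((k : X) * y * (k : X)⁻¹) e := Subgroup.mem_centralizer_singleton_iff.1 h.2
    have h2 := (hke.inv_left.mul_left h1).mul_left hke
    rw [show (k : X)⁻¹ * ((k : X) * y * (k : X)⁻¹) * k = y by group] at h2
    exact Subgroup.mem_centralizer_singleton_iff.2 h2.eq
  letI : MulAction (Subgroup.zpowers d) S :=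
    { smul := fun k y => ⟨⟨_, (hdF k y.1 y.1.2 y.2).1⟩, (hdF k y.1 y.1.2 y.2).2⟩
      one_smul := fun y => Subtype.ext (Subtype.ext (by
        show ((1 : Subgroup.zpowers d) : X) * y.1 * ((1 : Subgroup.zpowers d) : X)⁻¹ = y.1
        simp))
      mul_smul := fun k l y => Subtype.ext (Subtype.ext (by
        show ((k * l : Subgroup.zpowers d) : X) * y.1 * ((k * l : Subgroup.zpowers d) : X)⁻¹ =
          (k : X) * ((l : X) * y.1 * (l : X)⁻¹) * (k : X)⁻¹
        rw [Subgroup.coe_mul]; group)) }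
  have hfree : ∀ y : S, MulAction.stabilizer (Subgroup.zpowers d) y = ⊥ := by
    intro y
    rw [Subgroup.eq_bot_iff_forall]
    rintro ⟨k, hk⟩ hky
    rw [MulAction.mem_stabilizer_iff] at hky
    have hky' : k * (y.1 : X) * k⁻¹ = y.1 := congrArg (fun s : S => (s.1 : X)) hky
    obtain ⟨i, hi, rfl⟩ := (mem_zpowers_iff_mem_range_orderOf (x := d)).1 hk |> Finset.mem_image.1
    rcases Nat.eq_zero_or_pos i with rfl | hi0
    · exact Subtype.ext (pow_zero d)
    · refine absurd ?_ y.2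
      rw [hd] at hi
      exact ⟨y.1.2, Subgroup.mem_centralizer_singleton_iff.2
        (hper _ ⟨i, hky', hi0.ne', Finset.mem_range.1 hi⟩).symm⟩
  have h9 : 9 ∣ Nat.card S := by
    rw [Nat.card_congr (MulAction.selfEquivOrbitsQuotientProd hfree), Nat.card_prod, Nat.card_zpowers, hd,
      pow_succ, pow_succ, mul_assoc]
    exact Dvd.dvd.mul_left (Dvd.dvd.mul_left (by norm_num) _) _
  have hScard : Nat.card S = Nat.card Q - Nat.card F := by
    have h1 : Nat.card {y : Q // (y : X) ∈ F} + Nat.card S = Nat.card Q := by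
      rw [← Nat.card_sum]
      exact Nat.card_congr (Equiv.sumCompl _)
    have h2 : Nat.card {y : Q // (y : X) ∈ F} = Nat.card F :=
      Nat.card_congr ((Equiv.subtypeSubtypeEquivSubtype (p := (· ∈ Q)) (q := (· ∈ F)) fun h => h.1))
    omega
  obtain ⟨a, ha⟩ := IsPGroup.iff_card.1 (hP.to_le (hQC.trans hCP))
  obtain ⟨b, hb⟩ := IsPGroup.iff_card.1 (hP.to_le ((inf_le_left : F ≤ Q).trans (hQC.trans hCP)))
  have hb2 : 2 ≤ b := (Nat.pow_le_pow_iff_right one_lt_two).1 (by
    rw [← hb]; exact ((show 2 ^ 2 = Nat.card W by rw [hWcard]; rfl).le).trans (Subgroup.card_le_of_le hWF))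
  have hab' : b < a := by
    refine (Nat.pow_lt_pow_iff_right one_lt_two).1 (ha ▸ hb ▸ ?_)
    refine lt_of_le_of_ne (Subgroup.card_le_of_le inf_le_left) fun h => hy₀F ?_
    rw [show F = Q from eq_of_le_of_card_le inf_le_left h.ge]
    exact hy₀Q
  have ha6 : a ≤ 6 := (Nat.pow_le_pow_iff_right one_lt_two).1 (ha ▸ hQcard)
  rw [hScard, ha, hb] at h9
  interval_cases a <;> interval_cases b <;> norm_num at h9


/-- Let d be a non-identity 3-element of a finite group and P a 2-subgroup normalized by d on which ⟨d⟩ acts faithfully (no non-identity power of d centralizes P) and without non-identity fixed points (C_P(d) = 1). If every abelian subgroup of P has 2-rank at most 2, then d has order 3. -/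
theorem result {X : Type*} [Group X] [Finite X] (d : X) (n : ℕ) (hn : 1 ≤ n) (hd : orderOf d = 3 ^ n) (P : Subgroup X) (hP : IsPGroup 2 P) (hdP : d ∈ Subgroup.normalizer (P : Set X)) (hfaith : Subgroup.zpowers d ⊓ Subgroup.centralizer (P : Set X) = ⊥) (hfpf : P ⊓ Subgroup.centralizer {d} = ⊥) (hrank : ∀ V : Subgroup X, V ≤ P → IsMulCommutative V → Cfsg.PRankLE 2 2 V) : orderOf d = 3 := by
  exact main d n hn hd P hP hdP hfaith hfpf hrank

end Cfsg.Agent.S3738
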