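import Cfsg.Statements.S3739
import Cfsg.Agent.Lib.CoreAnisotropic
import Cfsg.Agent.Lib.TransferPGroups
import Cfsg.Agent.Lib.CoreCoprime2
import Cfsg.Agent.Lib.CoreOmega

set_option autoImplicit false
open Cfsg

namespace Cfsg.Agent.S3739

universe w

open CfsgLib.Core in
private theorem fixed_mod_three {G : Type w} [Group G] [Finite G] {A U : Subgroup G} (hA : IsPGroup 3 A)
    (hAU : A ≤ Subgroup.normalizer (U : Set G)) :
    Nat.card U ≡ Nat.card ↥(U ⊓ Subgroup.centralizer (A : Set G)) [MOD 3] := by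
  haveI : Fact (Nat.Prime 3) := ⟨Nat.prime_three⟩
  letI : MulAction A U :=
    { smul := fun a u => ⟨(a : G) * u * (a : G)⁻¹, (Subgroup.mem_normalizer_iff.1 (hAU a.2) u).1 u.2⟩
      one_smul := fun u => Subtype.ext (by show ((1 : A) : G) * u * ((1 : A) : G)⁻¹ = u; simp)
      mul_smul := fun a b u => Subtype.ext (by
        show ((a * b : A) : G) * u * ((a * b : A) : G)⁻¹ = (a : G) * ((b : G) * u * (b : G)⁻¹) * (a : G)⁻¹
        rw [Subgroup.coe_mul]; group) }
  refine Eq.trans (hA.card_modEq_card_fixedPoints U) (congrArg (· % 3) ?_)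
  refine Nat.card_congr
    { toFun := fun u => ⟨u.1.1, u.1.2, Subgroup.mem_centralizer_iff.2 fun a ha =>
        mul_inv_eq_iff_eq_mul.1 (congrArg Subtype.val (u.2 ⟨a, ha⟩))⟩
      invFun := fun u => ⟨⟨u.1, u.2.1⟩, fun a => Subtype.ext
        (mul_inv_eq_iff_eq_mul.2 (Subgroup.mem_centralizer_iff.1 u.2.2 a a.2))⟩
      left_inv := fun u => rfl
      right_inv := fun u => rfl }

open CfsgLib.Core in
open scoped commutatorElement Pointwise in
private theorem main {G : Type w} [Group G] [Finite G]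
    (hchar : Subgroup.centralizer (Cfsg.pCore 2 G : Set G) ≤ Cfsg.pCore 2 G)
    (hsix : ∃ g : G, orderOf g = 6) (d : G) (hd : IsPGroup 3 ↥(Subgroup.zpowers d))
    (W : Subgroup G) (hW : Cfsg.IsElementaryAbelian 2 W) (hW1 : W ≠ ⊥)
    (hdW : d ∈ Subgroup.normalizer (W : Set G)) (hfpf : W ⊓ Subgroup.centralizer {d} = ⊥) :
    ∃ E : Subgroup G, Cfsg.IsElementaryAbelian 2 E ∧ Nat.card E = 8 := by
  classical
  haveI : Fact (Nat.Prime 2) := ⟨Nat.prime_two⟩
  haveI : Fact (Nat.Prime 3) := ⟨Nat.prime_three⟩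
  by_contra hno
  obtain ⟨hWc, hW2⟩ := hW
  -- no elementary abelian subgroup has more than four elements
  have hE : ∀ V : Subgroup G, (∀ a ∈ V, ∀ b ∈ V, a * b = b * a) → (∀ a ∈ V, a ^ 2 = 1) → Nat.card V ≤ 4 := by
    intro V hVc hV2
    have hV : IsPGroup 2 V := fun a => ⟨1, Subtype.ext (by rw [pow_one]; exact hV2 a a.2)⟩
    obtain ⟨k, hk⟩ := IsPGroup.iff_card.1 hV
    by_contra hlt
    have hk3 : 3 ≤ k := by
      by_contra h
      have : 2 ^ k ≤ 2 ^ 2 := Nat.pow_le_pow_right two_pos (by omega)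
      omega
    obtain ⟨E, hEc⟩ := Sylow.exists_subgroup_card_pow_prime (G := V) 2 (n := 3) (hk ▸ pow_dvd_pow 2 hk3)
    refine hno ⟨E.map V.subtype, ⟨⟨⟨fun a b => Subtype.ext ?_⟩⟩, fun a ha => hV2 a (Subgroup.map_subtype_le E ha)⟩, ?_⟩
    · exact hVc a (Subgroup.map_subtype_le E a.2) b (Subgroup.map_subtype_le E b.2)
    · rw [Subgroup.card_map_of_injective V.subtype_injective, hEc]; norm_num
  set Q := Cfsg.pCore 2 G with hQ
  haveI hQn : Q.Normal := Subgroup.sSup_normal _ fun _ h => h.1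
  have hQp : IsPGroup 2 Q := isPGroup_pCore 2
  let U : Subgroup G :=
    { carrier := {z | z ∈ Q ∧ z ^ 2 = 1 ∧ ∀ q ∈ Q, Commute z q}
      one_mem' := ⟨Q.one_mem, one_pow 2, fun q _ => Commute.one_left q⟩
      mul_mem' := fun {x y} hx hy => ⟨Q.mul_mem hx.1 hy.1,
        by rw [(hx.2.2 y hy.1).mul_pow, hx.2.1, hy.2.1, one_mul],
        fun q hq => (hx.2.2 q hq).mul_left (hy.2.2 q hq)⟩
      inv_mem' := fun {x} hx => ⟨Q.inv_mem hx.1, by rw [inv_pow, hx.2.1, inv_one],
        fun q hq => (hx.2.2 q hq).inv_left⟩ }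
  haveI hUn : U.Normal := ⟨fun z hz g => ⟨hQn.conj_mem z hz.1 g,
    by rw [conj_pow, hz.2.1, mul_one, mul_inv_cancel],
    fun q hq => by
      have h := hz.2.2 _ (hQn.conj_mem q hq g⁻¹)
      rw [inv_inv] at h
      have h2 : Commute (g * z * g⁻¹) (g * (g⁻¹ * q * g) * g⁻¹) := h.map (MulAut.conj g).toMonoidHom
      rwa [show g * (g⁻¹ * q * g) * g⁻¹ = q by group] at h2⟩⟩
  have hUc : ∀ a ∈ U, ∀ b ∈ U, a * b = b * a := fun a ha b hb => (ha.2.2 b hb.1).eq
  obtain ⟨j, hj⟩ := IsPGroup.iff_card.1 (hQp.to_le (fun z (hz : z ∈ U) => hz.1) : IsPGroup 2 U)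
  have hj2 : j ≤ 2 := (Nat.pow_le_pow_iff_right one_lt_two).1
    (hj ▸ (hE U hUc fun a ha => ha.2.1 : Nat.card U ≤ 2 ^ 2))
  have hQ1 : Q ≠ ⊥ := by
    intro h
    obtain ⟨g, hg⟩ := hsix
    have h1 : g ∈ Subgroup.centralizer (Q : Set G) := Subgroup.mem_centralizer_iff.2 fun q hq => by
      rw [h] at hq
      rw [Subgroup.mem_bot.1 hq, one_mul, mul_one]
    have h2 := hchar h1
    rw [h, Subgroup.mem_bot] at h2
    rw [h2, orderOf_one] at hg
    omega
  -- involutions centralising `U` lie in `U` once `U` has order four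
  have hinU : Nat.card U = 4 → ∀ t : G, t ^ 2 = 1 → (∀ u ∈ U, Commute t u) → t ∈ U := by
    intro hU4 t ht htU
    have hUt : U ≤ Subgroup.normalizer ((Subgroup.zpowers t : Subgroup G) : Set G) := fun z hz => by
      refine centralizer_le_normalizer _ (Subgroup.mem_centralizer_iff.2 fun c hc => ?_)
      obtain ⟨i, rfl⟩ := Subgroup.mem_zpowers_iff.1 hc
      exact ((htU z hz).zpow_left i).eq
    set E := U ⊔ Subgroup.zpowers t with hE'
    have hdec : ∀ x ∈ E, ∃ z ∈ U, ∃ i : ℤ, z * t ^ i = x := by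
      intro x hx
      have h1 : x ∈ (U : Set G) * (Subgroup.zpowers t : Set G) := by
        rw [← Subgroup.coe_mul_of_left_le_normalizer_right _ _ hUt]; exact hx
      obtain ⟨z, hz, s, hs, h⟩ := h1
      obtain ⟨i, rfl⟩ := Subgroup.mem_zpowers_iff.1 hs
      exact ⟨z, hz, i, h⟩
    have h1 := hE E (fun a ha b hb => by
      obtain ⟨z, hz, i, rfl⟩ := hdec a ha
      obtain ⟨z', hz', k, rfl⟩ := hdec b hb
      exact (((show Commute z z' from hUc z hz z' hz').mul_right ((htU z hz).symm.zpow_right k)).mul_left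
        (((htU z' hz').zpow_left i).mul_right ((Commute.refl t).zpow_zpow i k))).eq) fun a ha => by
      obtain ⟨z, hz, i, rfl⟩ := hdec a ha
      rw [((htU z hz).symm.zpow_right i).mul_pow, hz.2.1, one_mul, ← zpow_natCast, ← zpow_mul, mul_comm,
        zpow_mul, zpow_natCast, ht, one_zpow]
    rw [eq_of_le_of_card_le (le_sup_left : U ≤ E) (hU4 ▸ h1)]
    exact Subgroup.mem_sup_right (Subgroup.mem_zpowers t)
  have hWp : IsPGroup 2 W := fun a => ⟨1, Subtype.ext (by rw [pow_one]; exact hW2 a a.2)⟩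
  have hWcomm : ∀ a ∈ W, ∀ b ∈ W, a * b = b * a := fun a ha b hb =>
    congrArg Subtype.val (hWc.is_comm.comm (⟨a, ha⟩ : W) ⟨b, hb⟩)
  have hdfix : ∀ w ∈ W, d * w = w * d → w = 1 := fun w hw h => by
    have : w ∈ W ⊓ Subgroup.centralizer {d} := ⟨hw, Subgroup.mem_centralizer_singleton_iff.2 h.symm⟩
    rwa [hfpf, Subgroup.mem_bot] at this
  have hdInv : ∀ V : Subgroup G, V ≤ W → Subgroup.zpowers d ≤ Subgroup.normalizer (V : Set G) →
      Nat.card V ≡ 1 [MOD 3] := by
    intro V hV hdV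
    have h1 := fixed_mod_three hd hdV
    have h2 : V ⊓ Subgroup.centralizer ((Subgroup.zpowers d : Subgroup G) : Set G) = ⊥ :=
      (Subgroup.eq_bot_iff_forall _).2 fun w hw => hdfix w (hV hw.1)
        (Subgroup.mem_centralizer_iff.1 hw.2 d (Subgroup.mem_zpowers d))
    rwa [h2, Subgroup.card_bot] at h1
  obtain ⟨i, hi⟩ := IsPGroup.iff_card.1 hWp
  have hW4 : Nat.card W = 4 := by
    have h1 : i ≤ 2 := (Nat.pow_le_pow_iff_right one_lt_two).1 (hi ▸ (hE W hWcomm hW2 : Nat.card W ≤ 2 ^ 2))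
    have h2 := hdInv W le_rfl (Subgroup.zpowers_le.2 hdW)
    have h3 : 1 < Nat.card W := (Subgroup.one_lt_card_iff_ne_bot W).2 hW1
    rw [hi] at h2 h3 ⊢
    interval_cases i <;> simp_all [Nat.ModEq]
  have hU4 : Nat.card U = 4 := by
    interval_cases j
    · exfalso
      haveI : Nontrivial Q := (Subgroup.nontrivial_iff_ne_bot Q).2 hQ1
      haveI := hQp.center_nontrivial
      obtain ⟨⟨z, hz⟩, hzo⟩ := exists_prime_orderOf_dvd_card' (G := Subgroup.center Q) 2 (by
        obtain ⟨k, hk, hc⟩ := (hQp.to_subgroup (Subgroup.center Q)).nontrivial_iff_card.1 inferInstance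
        exact hc ▸ dvd_pow_self 2 hk.ne')
      rw [← Subgroup.orderOf_coe, ← Subgroup.orderOf_coe] at hzo
      have hzo' : orderOf (z : G) = 2 := hzo
      have hzU : (z : G) ∈ U := ⟨z.2, by rw [← hzo', pow_orderOf_eq_one],
        fun q hq => (congrArg Subtype.val (Subgroup.mem_center_iff.1 hz ⟨q, hq⟩)).symm⟩
      rw [Subgroup.eq_bot_of_card_eq U (by rw [hj, pow_zero]), Subgroup.mem_bot] at hzU
      rw [hzU, orderOf_one] at hzo'
      omega
    · exfalso
      rw [pow_one] at hj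
      obtain ⟨⟨u, hu⟩, huo⟩ := exists_prime_orderOf_dvd_card' (G := U) 2 (hj ▸ dvd_rfl)
      rw [← Subgroup.orderOf_coe] at huo
      have huo' : orderOf u = 2 := huo
      have huall : ∀ g : G, g * u = u * g := by
        intro g
        have hfix := fixed_mod_three (A := (⊥ : Subgroup G)) (U := U) (IsPGroup.of_bot) bot_le
        have h1 : g * u * g⁻¹ ∈ U := hUn.conj_mem u hu g
        have h2 : ∀ x ∈ U, x = 1 ∨ x = u := by
          intro x hx
          have h3 : Subgroup.zpowers u = U := eq_of_le_of_card_le (Subgroup.zpowers_le.2 hu)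
            (by rw [Nat.card_zpowers, huo', hj])
          rw [← h3] at hx
          obtain ⟨k, rfl⟩ := Subgroup.mem_zpowers_iff.1 hx
          have huu : u * u = 1 := by rw [← pow_two, ← huo', pow_orderOf_eq_one]
          rcases Int.even_or_odd' k with ⟨l, rfl | rfl⟩
          · exact Or.inl (by rw [zpow_mul, zpow_two, huu, one_zpow])
          · exact Or.inr (by rw [zpow_add, zpow_mul, zpow_two, huu, one_zpow, one_mul, zpow_one])
        rcases h2 _ h1 with h | h
        · rw [mul_inv_eq_one, mul_eq_left] at h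
          rw [h, orderOf_one] at huo'
          omega
        · exact mul_inv_eq_iff_eq_mul.1 h
      have huW : u ∉ W := fun h => by
        have := hdfix u h (huall d)
        rw [this, orderOf_one] at huo'
        omega
      have hWu : W ≤ Subgroup.normalizer ((Subgroup.zpowers u : Subgroup G) : Set G) := fun z _ => by
        refine centralizer_le_normalizer _ (Subgroup.mem_centralizer_iff.2 fun c hc => ?_)
        obtain ⟨k, rfl⟩ := Subgroup.mem_zpowers_iff.1 hc
        exact ((show Commute u z from (huall z).symm).zpow_left k).eq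
      have h3 : W ⊓ Subgroup.zpowers u = ⊥ := by
        rw [Subgroup.eq_bot_iff_forall]
        rintro x ⟨hx1, hx2⟩
        obtain ⟨k, rfl⟩ := Subgroup.mem_zpowers_iff.1 hx2
        have huu : u * u = 1 := by rw [← pow_two, ← huo', pow_orderOf_eq_one]
        rcases Int.even_or_odd' k with ⟨l, rfl | rfl⟩
        · rw [zpow_mul, zpow_two, huu, one_zpow]
        · rw [zpow_add, zpow_mul, zpow_two, huu, one_zpow, one_mul, zpow_one] at hx1
          exact absurd hx1 huW
      have hdec : ∀ x ∈ W ⊔ Subgroup.zpowers u, ∃ z ∈ W, ∃ k : ℤ, z * u ^ k = x := by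
        intro x hx
        have h4 : x ∈ (W : Set G) * (Subgroup.zpowers u : Set G) := by
          rw [← Subgroup.coe_mul_of_left_le_normalizer_right _ _ hWu]; exact hx
        obtain ⟨z, hz, s, hs, h⟩ := h4
        obtain ⟨k, rfl⟩ := Subgroup.mem_zpowers_iff.1 hs
        exact ⟨z, hz, k, h⟩
      have hcu : ∀ g : G, Commute u g := fun g => (huall g).symm
      have h5 := hE (W ⊔ Subgroup.zpowers u) (fun a ha b hb => by
        obtain ⟨z, hz, k, rfl⟩ := hdec a ha
        obtain ⟨z', hz', l, rfl⟩ := hdec b hb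
        exact (((show Commute z z' from hWcomm z hz z' hz').mul_right ((hcu z).symm.zpow_right l)).mul_left
          (((hcu _).zpow_left k).mul_right ((Commute.refl u).zpow_zpow k l))).eq) fun a ha => by
        obtain ⟨z, hz, k, rfl⟩ := hdec a ha
        rw [((hcu z).symm.zpow_right k).mul_pow, hW2 z hz, one_mul, ← zpow_natCast, ← zpow_mul, mul_comm,
          zpow_mul, zpow_natCast, ← huo', pow_orderOf_eq_one, one_zpow]
      rw [card_sup_of_disjoint hWu h3, hW4, Nat.card_zpowers, huo'] at h5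
      omega
    · rw [hj]; norm_num
  set CU := Subgroup.centralizer (U : Set G) with hCU
  -- a three-element fixing a non-identity element of `U` centralises `U`
  have h3fix : ∀ x : G, IsPGroup 3 (Subgroup.zpowers x) → ∀ u ∈ U, u ≠ 1 → x * u = u * x → x ∈ CU := by
    intro x hx u hu hu1 hxu
    set F := U ⊓ Subgroup.centralizer ((Subgroup.zpowers x : Subgroup G) : Set G) with hF
    have h1 := fixed_mod_three hx (le_normalizer_normal _ : Subgroup.zpowers x ≤ Subgroup.normalizer (U : Set G))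
    obtain ⟨k, hk⟩ := IsPGroup.iff_card.1 (hQp.to_le (fun z (hz : z ∈ F) => hz.1.1) : IsPGroup 2 F)
    rw [hU4, hk] at h1
    have h2 : k ≤ 2 := (Nat.pow_le_pow_iff_right one_lt_two).1
      (hk ▸ (Subgroup.card_le_of_le inf_le_left).trans hU4.le)
    have h3 : 1 < Nat.card F := (Subgroup.one_lt_card_iff_ne_bot F).2 fun h => hu1 (by
      have : u ∈ F := ⟨hu, Subgroup.mem_centralizer_iff.2 fun c hc => by
        obtain ⟨l, rfl⟩ := Subgroup.mem_zpowers_iff.1 hc
        exact ((show Commute x u from hxu).zpow_left l).eq⟩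
      rwa [h, Subgroup.mem_bot] at this)
    have hk4 : Nat.card F = 4 := by
      rw [hk] at h3 ⊢
      interval_cases k <;> simp [Nat.ModEq] at h1 h3 ⊢
    rw [hCU, Subgroup.mem_centralizer_iff]
    intro v hv
    have h4 : v ∈ F := by rw [show F = U from eq_of_le_of_card_le inf_le_left (by rw [hk4, hU4])]; exact hv
    exact (Subgroup.mem_centralizer_iff.1 h4.2 x (Subgroup.mem_zpowers x)).symm
  have hWU : W = U := by
    have hWV : W ⊓ CU ≤ U := fun w hw => hinU hU4 w (hW2 w hw.1) fun u hu =>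
      (Subgroup.mem_centralizer_iff.1 hw.2 u hu).symm
    haveI : CU.Normal := inferInstanceAs (Subgroup.centralizer (U : Set G)).Normal
    have hn := hdInv (W ⊓ CU) inf_le_left (le_normalizer_inf (Subgroup.zpowers_le.2 hdW) (le_normalizer_normal _))
    obtain ⟨k, hk⟩ := IsPGroup.iff_card.1 (hWp.to_le (inf_le_left : W ⊓ CU ≤ W))
    have hk2 : k ≤ 2 := (Nat.pow_le_pow_iff_right one_lt_two).1
      (hk ▸ (Subgroup.card_le_of_le inf_le_left).trans hW4.le)
    interval_cases k
    · exfalso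
      have hbot := Subgroup.eq_bot_of_card_eq _ (hk.trans (pow_zero 2))
      -- any two non-identity elements of `W` fix the same element of `U`
      obtain ⟨a, b, c, ha, hb, hc, hab, hbc, hac, hall⟩ : ∃ a b c : G, a ∈ U ∧ b ∈ U ∧ c ∈ U ∧
          a ≠ b ∧ b ≠ c ∧ a ≠ c ∧ ∀ x ∈ U, x = 1 ∨ x = a ∨ x = b ∨ x = c := by
        letI := Fintype.ofFinite U
        have h1 : ((Finset.univ : Finset U).erase 1).card = 3 := by
          rw [Finset.card_erase_of_mem (Finset.mem_univ _), Finset.card_univ, ← Nat.card_eq_fintype_card, hU4]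
        obtain ⟨⟨a, ha⟩, ⟨b, hb⟩, ⟨c, hc⟩, hab, hac, hbc, h2⟩ := Finset.card_eq_three.1 h1
        refine ⟨a, b, c, ha, hb, hc, fun h => hab (Subtype.ext h), fun h => hbc (Subtype.ext h),
          fun h => hac (Subtype.ext h), fun x hx => ?_⟩
        rcases em ((⟨x, hx⟩ : U) = 1) with h | h
        · exact Or.inl (congrArg Subtype.val h)
        · have h3 : (⟨x, hx⟩ : U) ∈ (Finset.univ : Finset U).erase 1 :=
            Finset.mem_erase.2 ⟨h, Finset.mem_univ _⟩
          rw [h2] at h3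
          simp only [Finset.mem_insert, Finset.mem_singleton, Subtype.mk.injEq] at h3
          exact Or.inr h3
      -- injectivity of the action on `U`
      have hinj : Function.Injective fun w : W => (fun u : U => (⟨(w : G) * u * (w : G)⁻¹, hUn.conj_mem _ u.2 _⟩ : U)) := by
        intro w w' e
        have h2 : (w' : G)⁻¹ * w ∈ W ⊓ CU := ⟨W.mul_mem (W.inv_mem w'.2) w.2, Subgroup.mem_centralizer_iff.2
          fun u hu => by
            have e' : (w : G) * u * (w : G)⁻¹ = (w' : G) * u * (w' : G)⁻¹ :=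
              congrArg Subtype.val (congrFun e ⟨u, hu⟩)
            calc u * ((w' : G)⁻¹ * w) = (w' : G)⁻¹ * ((w' : G) * u * (w' : G)⁻¹) * w := by group
              _ = (w' : G)⁻¹ * w * u := by rw [← e']; group⟩
        rw [hbot, Subgroup.mem_bot, inv_mul_eq_one] at h2
        exact Subtype.ext h2.symm
      -- each element fixes `1`, squares to the identity and the four permutations commute
      let π : W → Equiv.Perm U := fun w =>
        { toFun := fun u => ⟨(w : G) * u * (w : G)⁻¹, hUn.conj_mem _ u.2 _⟩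
          invFun := fun u => ⟨(w : G)⁻¹ * u * (w : G), by simpa using hUn.conj_mem _ u.2 (w : G)⁻¹⟩
          left_inv := fun u => Subtype.ext (by simp [mul_assoc])
          right_inv := fun u => Subtype.ext (by simp [mul_assoc]) }
      obtain ⟨e⟩ := Finite.card_eq.1 (show Nat.card U = Nat.card (Fin 4) by rw [hU4, Nat.card_fin])
      let τ : W → Equiv.Perm (Fin 4) := fun w => e.permCongr (π w)
      have hτinj : Function.Injective τ := fun w w' h => hinj (funext fun u =>
        congrArg (fun σ : Equiv.Perm U => σ u) (e.permCongr.injective h))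
      have hτone : ∀ w, τ w (e 1) = e 1 := fun w => by
        simp only [τ, Equiv.permCongr_apply, Equiv.symm_apply_apply]
        exact congrArg e (Subtype.ext (by show (w : G) * 1 * (w : G)⁻¹ = 1; simp))
      have hτmul : ∀ w w', τ (w * w') = τ w * τ w' := fun w w' => Equiv.ext fun x => by
        simp only [τ, Equiv.permCongr_apply, Equiv.Perm.mul_apply, Equiv.symm_apply_apply]
        exact congrArg e (Subtype.ext (by
          show ((w * w' : W) : G) * _ * ((w * w' : W) : G)⁻¹ = (w : G) * ((w' : G) * _ * (w' : G)⁻¹) * (w : G)⁻¹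
          rw [Subgroup.coe_mul]; group))
      have hsmall : ∀ (x : Fin 4) (σ ρ : Equiv.Perm (Fin 4)), σ x = x → ρ x = x → σ * σ = 1 → ρ * ρ = 1 →
          σ * ρ = ρ * σ → σ = 1 ∨ ρ = 1 ∨ σ = ρ := by decide
      letI := Fintype.ofFinite W
      obtain ⟨w, w', hw1, hw'1, hww⟩ : ∃ w w' : W, w ≠ 1 ∧ w' ≠ 1 ∧ w ≠ w' := by
        have h1 : 1 < ((Finset.univ : Finset W).erase 1).card := by
          rw [Finset.card_erase_of_mem (Finset.mem_univ _), Finset.card_univ, ← Nat.card_eq_fintype_card, hW4]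
          norm_num
        obtain ⟨w, hw, w', hw', h⟩ := Finset.one_lt_card.1 h1
        exact ⟨w, w', (Finset.mem_erase.1 hw).1, (Finset.mem_erase.1 hw').1, h⟩
      have hτ1 : τ 1 = 1 := by
        have h1 := hτmul 1 1
        rw [one_mul] at h1
        exact left_eq_mul.1 h1
      have hsq : ∀ v : W, τ v * τ v = 1 := fun v => by
        rw [← hτmul, show v * v = 1 from Subtype.ext ((pow_two _).symm.trans (hW2 v v.2)), hτ1]
      rcases hsmall (e 1) (τ w) (τ w') (hτone w) (hτone w') (hsq w) (hsq w')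
          (by rw [← hτmul, ← hτmul, show w * w' = w' * w from Subtype.ext (hWcomm w w.2 w' w'.2)]) with h | h | h
      · exact hw1 (hτinj (h.trans hτ1.symm))
      · exact hw'1 (hτinj (h.trans hτ1.symm))
      · exact hww (hτinj h)
    · rw [hk] at hn; exact absurd hn (by decide)
    · have h1 : W ⊓ CU = W := eq_of_le_of_card_le inf_le_left (by rw [hk, hW4]; norm_num)
      rw [h1] at hWV
      exact eq_of_le_of_card_le hWV (by rw [hU4, hW4])
  have hdU : d ∉ CU := by
    intro h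
    obtain ⟨u, hu⟩ := Subgroup.ne_bot_iff_exists_ne_one.1 hW1
    refine hu (Subtype.ext (hdfix u u.2 ?_))
    exact (Subgroup.mem_centralizer_iff.1 h u (hWU ▸ u.2)).symm
  -- a three-element centralising `U`
  obtain ⟨g, hg⟩ := hsix
  set t := g ^ 3 with ht
  set s := g ^ 2 with hs
  have hso : orderOf s = 3 := by rw [hs, orderOf_pow' g two_ne_zero, hg]; rfl
  have hto : orderOf t = 2 := by rw [ht, orderOf_pow' g three_ne_zero, hg]; rfl
  have hts : Commute t s := (Commute.refl g).pow_pow 3 2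
  have hs3 : IsPGroup 3 (Subgroup.zpowers s) := IsPGroup.of_card (n := 1) (by rw [Nat.card_zpowers, hso, pow_one])
  have hsU : s ∈ CU := by
    by_contra hsn
    have ht2 : t ^ 2 = 1 := by rw [← hto, pow_orderOf_eq_one]
    by_cases htU : t ∈ CU
    · have h1 := hinU hU4 t ht2 fun u hu => (Subgroup.mem_centralizer_iff.1 htU u hu).symm
      exact hsn (h3fix s hs3 t h1 (fun h => by rw [h, orderOf_one] at hto; omega) hts.eq.symm)
    -- `t` fixes exactly one involution of `U`
    have h2 : IsPGroup 2 (Subgroup.zpowers t) := IsPGroup.of_card (n := 1) (by rw [Nat.card_zpowers, hto, pow_one])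
    set F := U ⊓ Subgroup.centralizer ((Subgroup.zpowers t : Subgroup G) : Set G) with hF
    have hFs : Subgroup.zpowers s ≤ Subgroup.normalizer (F : Set G) := by
      refine le_normalizer_inf (le_normalizer_normal _) (le_normalizer_centralizer ?_)
      rw [Subgroup.zpowers_le]
      refine centralizer_le_normalizer _ (Subgroup.mem_centralizer_iff.2 fun c hc => ?_)
      obtain ⟨l, rfl⟩ := Subgroup.mem_zpowers_iff.1 hc
      exact (hts.zpow_left l).eq
    have hFcard : Nat.card F = 2 := by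
      have hlt : Nat.card F < 4 := by
        refine lt_of_le_of_ne ((Subgroup.card_le_of_le inf_le_left).trans hU4.le) fun h => htU ?_
        rw [hCU, Subgroup.mem_centralizer_iff]
        intro u hu
        have h4 : u ∈ F := by rw [show F = U from eq_of_le_of_card_le inf_le_left (by rw [h, hU4])]; exact hu
        exact (Subgroup.mem_centralizer_iff.1 h4.2 t (Subgroup.mem_zpowers t)).symm
      have hne : F ≠ ⊥ := by
        obtain ⟨u, hu1, hu⟩ : ∃ u : U, u ≠ 1 ∧ t * u = u * t := by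
          by_contra hcon
          push Not at hcon
          obtain ⟨v, hv⟩ := exists_prime_orderOf_dvd_card' (G := U) 2 (hU4 ▸ by norm_num)
          have hv1 : v ≠ 1 := fun h => by rw [h, orderOf_one] at hv; omega
          have htv : t * v * t⁻¹ ∈ U := hUn.conj_mem _ v.2 t
          set v' : G := t * v * t⁻¹ with hv'
          have htinv : t⁻¹ = t := inv_eq_of_mul_eq_one_right (by rw [← pow_two, ht2])
          refine hcon (v * ⟨v', htv⟩) (fun h => hcon v hv1 ?_) ?_
          · have h5 : (v : G) * v' = 1 := congrArg Subtype.val h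
            have h6 : v' = v := by
              rw [← inv_eq_of_mul_eq_one_right h5]
              exact inv_eq_of_mul_eq_one_right (by rw [← pow_two]; exact v.2.2.1)
            exact mul_inv_eq_iff_eq_mul.1 h6
          · show t * ((v : G) * v') = (v : G) * v' * t
            rw [hUc v v.2 v' htv]
            calc t * (v' * v) = (t * v' * t⁻¹) * (t * v * t⁻¹) * t := by group
              _ = (v : G) * v' * t := by
                rw [hv', show t * (t * (v : G) * t⁻¹) * t⁻¹ = (t * t) * v * (t * t)⁻¹ by group, ← pow_two, ht2,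
                  one_mul, inv_one, mul_one]
              _ = _ := by rw [hUc v v.2 v' htv]
        exact fun h => hu1 (Subtype.ext (by
          have : (u : G) ∈ F := ⟨u.2, Subgroup.mem_centralizer_iff.2 fun c hc => by
            obtain ⟨l, rfl⟩ := Subgroup.mem_zpowers_iff.1 hc
            exact ((show Commute t u from hu).zpow_left l).eq⟩
          rwa [h, Subgroup.mem_bot] at this))
      obtain ⟨k, hk⟩ := IsPGroup.iff_card.1 (hQp.to_le (fun z (hz : z ∈ F) => hz.1.1) : IsPGroup 2 F)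
      have h5 : 1 < Nat.card F := (Subgroup.one_lt_card_iff_ne_bot F).2 hne
      have h6 : k ≤ 1 := by
        by_contra h
        have := Nat.pow_le_pow_right two_pos (show 2 ≤ k by omega)
        omega
      rw [hk] at h5 ⊢
      interval_cases k <;> simp_all
    obtain ⟨u, hu⟩ := exists_prime_orderOf_dvd_card' (G := F) 2 (by rw [hFcard])
    have h7 := fixed_mod_three hs3 hFs
    have h8 : F ⊓ Subgroup.centralizer ((Subgroup.zpowers s : Subgroup G) : Set G) = F := by
      refine eq_of_le_of_card_le inf_le_left ?_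
      have h9 := Subgroup.card_dvd_of_le (inf_le_left : F ⊓ Subgroup.centralizer ((Subgroup.zpowers s : Subgroup G) : Set G) ≤ F)
      rw [hFcard] at h7 h9 ⊢
      rcases (Nat.dvd_prime Nat.prime_two).1 h9 with h10 | h10
      · rw [h10] at h7; exact absurd h7 (by decide)
      · omega
    have hu' : (u : G) ∈ F ⊓ Subgroup.centralizer ((Subgroup.zpowers s : Subgroup G) : Set G) := h8.ge u.2
    exact hsn (h3fix s hs3 u u.2.1 (fun h => by
      rw [← Subgroup.orderOf_coe, h, orderOf_one] at hu; omega)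
      (Subgroup.mem_centralizer_iff.1 hu'.2 s (Subgroup.mem_zpowers s)))
  haveI hCUn : CU.Normal := inferInstanceAs (Subgroup.centralizer (U : Set G)).Normal
  obtain ⟨A, hdA⟩ := hd.exists_le_sylow
  obtain ⟨k₀, hk₀A, hk₀U, hk₀1⟩ : ∃ k ∈ A, k ∈ CU ∧ k ≠ 1 := by
    obtain ⟨B, hsB⟩ := hs3.exists_le_sylow
    obtain ⟨c, hc⟩ := MulAction.exists_smul_eq G B A
    refine ⟨c * s * c⁻¹, ?_, hCUn.conj_mem s hsU c, fun h => ?_⟩
    · rw [← hc, ← SetLike.mem_coe]
      exact ⟨s, hsB (Subgroup.mem_zpowers s), rfl⟩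
    · rw [mul_inv_eq_one, mul_eq_left] at h
      rw [h, orderOf_one] at hso
      omega
  set k := k₀
  -- the critical subgroup of `O₂(G)`
  obtain ⟨C₀, hC₀, hΦ, hcomm, hcen⟩ := CfsgLib.Transfer.exists_critical (p := 2) (G := Q) hQp
  haveI := hC₀
  set C := C₀.map Q.subtype with hC
  have hCQ : C ≤ Q := Subgroup.map_subtype_le _
  haveI hCn : C.Normal := Subgroup.normalizer_eq_top_iff.1
    (top_le_iff.1 (le_normalizer_map_of_characteristic (le_normalizer_normal ⊤) C₀))
  have hkQ : ∀ X : Subgroup G, X ≤ Q → (Nat.card (Subgroup.zpowers k)).Coprime (Nat.card X) := by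
    intro X hX
    obtain ⟨m, hm⟩ := IsPGroup.iff_card.1 (hQp.to_le hX)
    obtain ⟨m', hm'⟩ := IsPGroup.iff_card.1 (A.2.to_le (Subgroup.zpowers_le.2 hk₀A))
    rw [hm, hm']
    exact ((Nat.coprime_primes Nat.prime_three Nat.prime_two).2 (by norm_num)).pow _ _
  obtain ⟨x₀, hx₀, hx₀k⟩ : ∃ x ∈ C, k * x ≠ x * k := by
    by_contra hcon
    push Not at hcon
    have h1 : ⁅Subgroup.zpowers k, C⁆ = ⊥ := by
      rw [Subgroup.commutator_eq_bot_iff_le_centralizer, Subgroup.zpowers_le]
      exact Subgroup.mem_centralizer_iff.2 fun c hc => (hcon c hc).symm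
    have h2 : ⁅⁅Q, Subgroup.zpowers k⁆, C⁆ = ⊥ :=
      Subgroup.commutator_commutator_eq_bot_of_rotate (by rw [h1, Subgroup.commutator_bot_left])
        (le_bot_iff.1 ((Subgroup.commutator_mono (commutator_le_of_le_normalizer (le_normalizer_normal Q)) le_rfl).trans
          (by rw [Subgroup.commutator_comm, h1])))
    have hkQn : Subgroup.zpowers k ≤ Subgroup.normalizer (Q : Set G) := le_normalizer_normal _
    have h3 : ⁅Q, Subgroup.zpowers k⁆ ≤ C := by
      intro x hx
      have hxQ := commutator_le_of_le_normalizer hkQn hx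
      exact ⟨⟨x, hxQ⟩, hcen (Subgroup.mem_centralizer_iff.2 fun c hc => Subtype.ext
        (Subgroup.mem_centralizer_iff.1 (Subgroup.commutator_eq_bot_iff_le_centralizer.1 h2 hx) c ⟨c, hc, rfl⟩)), rfl⟩
    have h4 : ⁅Q, Subgroup.zpowers k⁆ = ⊥ := by
      rw [← commutator_commutator_eq hkQn (hkQ Q le_rfl) (Or.inl inferInstance)]
      exact le_bot_iff.1 ((Subgroup.commutator_mono h3 le_rfl).trans (by rw [Subgroup.commutator_comm, h1]))
    have hkQ' := hchar (centralizes_of_commutator_eq_bot h4 (Subgroup.mem_zpowers k))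
    obtain ⟨a, ha⟩ := IsPGroup.iff_orderOf.1 hQp ⟨k, hkQ'⟩
    obtain ⟨b, hb⟩ := IsPGroup.iff_orderOf.1 A.2 ⟨k, hk₀A⟩
    rw [Subgroup.orderOf_mk] at ha hb
    exact hk₀1 (orderOf_eq_one_iff.1 (Nat.eq_one_of_dvd_coprimes
      (((Nat.coprime_primes Nat.prime_two Nat.prime_three).2 (by norm_num)).pow a b) (dvd_of_eq ha) (dvd_of_eq hb)))
  set Z := C ⊓ Subgroup.centralizer (C : Set G) with hZ
  have hZc : IsMulCommutative Z :=
    ⟨⟨fun a b => Subtype.ext (Subgroup.mem_centralizer_iff.1 b.2.2 a a.2.1)⟩⟩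
  have hZcen : ∀ z ∈ Z, ∀ x ∈ C, Commute z x := fun z hz x hx =>
    (Subgroup.mem_centralizer_iff.1 hz.2 x hx).symm
  -- involutions of `O₂(G)` lie in `U`
  have hQinv : ∀ x ∈ Q, x ^ 2 = 1 → x ∈ U := fun x hx hx2 => hinU hU4 x hx2 fun u hu => (hu.2.2 x hx).symm
  have hkZ : ∀ z ∈ Z, k * z = z * k := by
    haveI := hZc
    intro z hz
    have h := abelian_trivial_on_prime_order (A := Subgroup.zpowers k) (V := Z) (le_normalizer_normal _)
      (hkQ Z (inf_le_left.trans hCQ)) fun v hv hvp a ha => by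
        have hvQ := hCQ hv.1
        obtain ⟨l, hl⟩ := IsPGroup.iff_orderOf.1 hQp ⟨v, hvQ⟩
        rw [Subgroup.orderOf_mk] at hl
        rw [hl] at hvp
        rw [Nat.Prime.eq_one_of_pow hvp, pow_one] at hl
        have hvU := hQinv v hvQ (by rw [← hl, pow_orderOf_eq_one])
        obtain ⟨l', rfl⟩ := Subgroup.mem_zpowers_iff.1 ha
        exact ((show Commute k v from (Subgroup.mem_centralizer_iff.1 hk₀U v hvU).symm).zpow_left l').eq
    exact (Subgroup.mem_centralizer_iff.1 (h (Subgroup.mem_zpowers k)) z hz).symm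
  have hsqZ : ∀ x ∈ C, x ^ 2 ∈ Z := by
    intro x hx
    refine ⟨C.pow_mem hx 2, ?_⟩
    obtain ⟨y, hy, rfl⟩ := hx
    show _ ∈ Subgroup.centralizer (C : Set G)
    rw [Subgroup.mem_centralizer_iff]
    rintro _ ⟨c, hc, rfl⟩
    exact congrArg Subtype.val (Subgroup.mem_centralizer_iff.1
      (hΦ ⟨_, pgroup_pow_mem_frattini (hQp.to_subgroup C₀) (⟨y, hy⟩ : C₀), rfl⟩) c hc)
  have hcU : ∀ x ∈ C, ∀ y ∈ C, ⁅x, y⁆ ∈ U ∧ ⁅x, y⁆ ∈ Z := by
    intro x hx y hy
    have hc : ⁅x, y⁆ ∈ Z := by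
      obtain ⟨a, ha, rfl⟩ := hx
      obtain ⟨b, hb, rfl⟩ := hy
      obtain ⟨h1, h2⟩ := hcomm (Subgroup.commutator_mem_commutator ha (Subgroup.mem_top b))
      refine ⟨⟨_, h1, map_commutatorElement _ _ _⟩, Subgroup.mem_centralizer_iff.2 ?_⟩
      rintro _ ⟨c, hc, rfl⟩
      exact congrArg Subtype.val (Subgroup.mem_centralizer_iff.1 h2 c hc)
    refine ⟨hQinv _ (hCQ hc.1) ?_, hc⟩
    have e1 : ⁅x ^ 2, y⁆ = ⁅x, y⁆ ^ 2 := by
      rw [pow_two, pow_two, show ⁅x * x, y⁆ = x * ⁅x, y⁆ * x⁻¹ * ⁅x, y⁆ by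
        simp only [commutatorElement_def]; group, ← (hZcen _ hc x hx).eq, mul_inv_cancel_right]
    rw [← e1, commutatorElement_eq_one_iff_mul_comm]
    exact (hZcen _ (hsqZ x hx) y hy).eq
  have hsqmul : ∀ x ∈ C, ∀ y ∈ C, (x * y) ^ 2 = x ^ 2 * y ^ 2 * ⁅y, x⁆ := by
    intro x hx y hy
    have hcy := (hcU y hy x hx).2
    have h1 : x * y * (x * y) = x * (⁅y, x⁆ * x) * y * y := by rw [commutatorElement_def]; group
    rw [pow_two, h1, (hZcen _ hcy x hx).eq, pow_two, pow_two]
    have h2 := (hZcen _ hcy (y * y) (C.mul_mem hy hy)).eq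
    calc x * (x * ⁅y, x⁆) * y * y = x * x * (⁅y, x⁆ * (y * y)) := by group
      _ = _ := by rw [h2]; group
  let R : Subgroup G :=
    { carrier := {x | x ∈ C ∧ x ^ 2 ∈ U}
      one_mem' := ⟨C.one_mem, by rw [one_pow]; exact U.one_mem⟩
      mul_mem' := fun {x y} hx hy => ⟨C.mul_mem hx.1 hy.1, by
        rw [hsqmul x hx.1 y hy.1]
        exact U.mul_mem (U.mul_mem hx.2 hy.2) (hcU y hy.1 x hx.1).1⟩
      inv_mem' := fun {x} hx => ⟨C.inv_mem hx.1, by rw [inv_pow]; exact U.inv_mem hx.2⟩ }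
  haveI hRn : R.Normal := ⟨fun x hx g => ⟨hCn.conj_mem x hx.1 g, by rw [conj_pow]; exact hUn.conj_mem _ hx.2 g⟩⟩
  set V := R ⊓ U with hV
  have hRcard : Nat.card R ≤ 64 := by
    have h := (CfsgLib.Core.Anisotropic.card_le (C := R) (A := V.subgroupOf R) (Z := V.subgroupOf R)
      (fun z hz => Subgroup.mem_center_iff.2 fun g => Subtype.ext
        ((Subgroup.mem_subgroupOf.1 hz).2.2.2 g (hCQ g.2.1)).symm.eq) le_rfl
      (fun a ha => Subtype.ext ((pow_two _).symm.trans (Subgroup.mem_subgroupOf.1 ha).2.2.1))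
      (fun x hx => Subgroup.mem_subgroupOf.2
        ⟨x.2, hQinv x (hCQ x.2.1) ((pow_two _).trans (congrArg Subtype.val hx))⟩)
      (fun x => Subgroup.mem_subgroupOf.2 (by
        show (x : G) * x ∈ V
        exact ⟨R.mul_mem x.2 x.2, by rw [← pow_two]; exact x.2.2⟩))
      (fun x y => Subgroup.mem_subgroupOf.2
        ⟨(⁅x, y⁆ : R).2, (hcU x x.2.1 y y.2.1).1⟩)).1
    rw [card_subgroupOf_of_le inf_le_left] at h
    have h2 : Nat.card V ≤ 4 := (Subgroup.card_le_of_le inf_le_right).trans hU4.le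
    calc Nat.card R ≤ _ := h
      _ ≤ 4 * 4 ^ 2 := Nat.mul_le_mul h2 (Nat.pow_le_pow_left h2 2)
  set K := (A : Subgroup G) ⊓ CU with hK
  set F := R ⊓ Subgroup.centralizer (K : Set G) with hF
  obtain ⟨y₀, hy₀R, hy₀F⟩ : ∃ y ∈ R, y ∉ F := by
    have hkC : k * x₀ * k⁻¹ ∈ C := hCn.conj_mem x₀ hx₀ k
    set y := x₀⁻¹ * (k * x₀ * k⁻¹) with hy
    have hyC : y ∈ C := C.mul_mem (C.inv_mem hx₀) hkC
    refine ⟨y, ⟨hyC, ?_⟩, fun hyF => hx₀k ?_⟩
    · have hs' : k * x₀ ^ 2 * k⁻¹ = x₀ ^ 2 := mul_inv_eq_iff_eq_mul.2 (hkZ _ (hsqZ _ hx₀))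
      rw [hsqmul _ (C.inv_mem hx₀) _ hkC, conj_pow, hs', inv_pow, inv_mul_cancel, one_mul]
      exact (hcU _ hkC _ (C.inv_mem hx₀)).1
    · have hky : Commute k y := Subgroup.mem_centralizer_iff.1 hyF.2 k ⟨hk₀A, hk₀U⟩
      have hj' : ∀ l : ℕ, k ^ l * x₀ * (k ^ l)⁻¹ = x₀ * y ^ l := by
        intro l
        induction l with
        | zero => simp
        | succ l ihl =>
          rw [pow_succ', show k * k ^ l * x₀ * (k * k ^ l)⁻¹ = k * (k ^ l * x₀ * (k ^ l)⁻¹) * k⁻¹ by group,
            ihl, show k * (x₀ * y ^ l) * k⁻¹ = (k * x₀ * k⁻¹) * (k * y ^ l * k⁻¹) by group,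
            (hky.pow_right l).eq, mul_inv_cancel_right, show k * x₀ * k⁻¹ = x₀ * y by rw [hy]; group,
            mul_assoc, ← pow_succ']
      have h3 := hj' (orderOf k)
      rw [pow_orderOf_eq_one, one_mul, inv_one, mul_one] at h3
      have hy3 : y ^ orderOf k = 1 := by
        calc y ^ orderOf k = x₀⁻¹ * (x₀ * y ^ orderOf k) := (inv_mul_cancel_left _ _).symm
          _ = 1 := by rw [← h3, inv_mul_cancel]
      obtain ⟨a, ha⟩ := IsPGroup.iff_orderOf.1 hQp ⟨y, hCQ hyC⟩
      obtain ⟨b, hb⟩ := IsPGroup.iff_orderOf.1 A.2 ⟨k, hk₀A⟩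
      rw [Subgroup.orderOf_mk] at ha hb
      have hy1 : y = 1 := orderOf_eq_one_iff.1 (Nat.eq_one_of_dvd_coprimes
        (((Nat.coprime_primes Nat.prime_two Nat.prime_three).2 (by norm_num)).pow a b) (dvd_of_eq ha)
        (hb ▸ orderOf_dvd_of_pow_eq_one hy3))
      have h5 : k * x₀ * k⁻¹ = x₀ := by
        rw [show k * x₀ * k⁻¹ = x₀ * y by rw [hy]; group, hy1, mul_one]
      exact mul_inv_eq_iff_eq_mul.1 h5
  have hUF : V ≤ F := fun v hv => ⟨hv.1, Subgroup.mem_centralizer_iff.2 fun a ha =>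
    (Subgroup.mem_centralizer_iff.1 ha.2 v hv.2).symm⟩
  -- orbits on `R \ F`
  let S := {y : R // (y : G) ∉ F}
  have hAF : ∀ (a : A) (y : G), y ∈ R → y ∉ F → (a : G) * y * (a : G)⁻¹ ∈ R ∧ (a : G) * y * (a : G)⁻¹ ∉ F := by
    intro a y hy hyF
    refine ⟨hRn.conj_mem y hy a, fun h => hyF ⟨hy, Subgroup.mem_centralizer_iff.2 fun b hb => ?_⟩⟩
    have hb' : (a : G) * b * (a : G)⁻¹ ∈ K := ⟨A.mul_mem (A.mul_mem a.2 hb.1) (A.inv_mem a.2), hCUn.conj_mem b hb.2 a⟩
    have h1 : (a : G) * b * (a : G)⁻¹ * ((a : G) * y * (a : G)⁻¹) = (a : G) * y * (a : G)⁻¹ * ((a : G) * b * (a : G)⁻¹) :=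
      Subgroup.mem_centralizer_iff.1 h.2 _ hb'
    calc b * y = (a : G)⁻¹ * ((a : G) * b * (a : G)⁻¹ * ((a : G) * y * (a : G)⁻¹)) * a := by group
      _ = y * b := by rw [h1]; group
  letI : MulAction A S :=
    { smul := fun a y => ⟨⟨_, (hAF a y.1 y.1.2 y.2).1⟩, (hAF a y.1 y.1.2 y.2).2⟩
      one_smul := fun y => Subtype.ext (Subtype.ext (by
        show ((1 : A) : G) * y.1 * ((1 : A) : G)⁻¹ = y.1
        simp))
      mul_smul := fun a b y => Subtype.ext (Subtype.ext (by
        show ((a * b : A) : G) * y.1 * ((a * b : A) : G)⁻¹ = (a : G) * ((b : G) * y.1 * (b : G)⁻¹) * (a : G)⁻¹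
        rw [show ((a * b : A) : G) = (a : G) * b from rfl]; group)) }
  have horb : ∀ y : S, 9 ∣ Nat.card (MulAction.orbit A y) := by
    intro y
    rw [Nat.card_coe_set_eq, ← MulAction.index_stabilizer]
    set St := MulAction.stabilizer A y with hSt
    have h1 : St ≤ K.subgroupOf (A : Subgroup G) := by
      intro a ha
      have ha' : (a : G) * y.1 * (a : G)⁻¹ = y.1 := congrArg (fun s : S => (s.1 : G)) (MulAction.mem_stabilizer_iff.1 ha)
      refine Subgroup.mem_subgroupOf.2 ⟨a.2, h3fix _ (A.2.to_le (Subgroup.zpowers_le.2 a.2)) _ y.1.2.2 ?_ ?_⟩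
      · intro h
        exact y.2 (hUF ⟨y.1.2, hQinv _ (hCQ y.1.2.1) h⟩)
      · exact ((show Commute (a : G) y.1 from mul_inv_eq_iff_eq_mul.1 ha').pow_right 2).eq
    have h2 : St ≠ K.subgroupOf (A : Subgroup G) := by
      intro h
      refine y.2 ⟨y.1.2, Subgroup.mem_centralizer_iff.2 fun b hb => ?_⟩
      have hb' : (⟨b, hb.1⟩ : A) ∈ St := h ▸ Subgroup.mem_subgroupOf.2 hb
      exact mul_inv_eq_iff_eq_mul.1 (congrArg (fun s : S => (s.1 : G)) (MulAction.mem_stabilizer_iff.1 hb'))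
    have h3 : K.subgroupOf (A : Subgroup G) ≠ ⊤ := fun h => by
      have hd' : (⟨d, hdA (Subgroup.mem_zpowers d)⟩ : A) ∈ K.subgroupOf (A : Subgroup G) := by
        rw [h]; exact Subgroup.mem_top _
      exact hdU (Subgroup.mem_subgroupOf.1 hd').2
    rw [← Subgroup.relIndex_mul_index h1]
    obtain ⟨a1, ha1⟩ := (A.2.to_subgroup (K.subgroupOf (A : Subgroup G))).index (St.subgroupOf (K.subgroupOf (A : Subgroup G)))
    obtain ⟨a2, ha2⟩ := A.2.index (K.subgroupOf (A : Subgroup G))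
    rw [ha2, show St.relIndex (K.subgroupOf (A : Subgroup G)) = 3 ^ a1 from ha1]
    refine Nat.mul_dvd_mul (a := 3) (c := 3) (dvd_pow_self 3 fun e => h2 ?_) (dvd_pow_self 3 fun e => h3 ?_)
    · rw [e, pow_zero] at ha1
      exact le_antisymm h1 (Subgroup.relIndex_eq_one.1 ha1)
    · rw [e, pow_zero] at ha2
      exact Subgroup.index_eq_one.1 ha2
  have h9 : 9 ∣ Nat.card S := by
    haveI : Fintype (MulAction.orbitRel.Quotient A S) := Fintype.ofFinite _
    rw [Nat.card_congr (MulAction.selfEquivSigmaOrbits' A S), Nat.card_sigma]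
    refine Finset.dvd_sum fun q _ => ?_
    induction q using Quotient.inductionOn' with
    | _ y => rw [MulAction.orbitRel.Quotient.orbit_mk]; exact horb y
  have hScard : Nat.card S = Nat.card R - Nat.card F := by
    have h1 : Nat.card {y : R // (y : G) ∈ F} + Nat.card S = Nat.card R := by
      rw [← Nat.card_sum]
      exact Nat.card_congr (Equiv.sumCompl _)
    have h2 : Nat.card {y : R // (y : G) ∈ F} = Nat.card F :=
      Nat.card_congr ((Equiv.subtypeSubtypeEquivSubtype (p := (· ∈ R)) (q := (· ∈ F)) fun h => h.1))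
    omega
  obtain ⟨a, ha⟩ := IsPGroup.iff_card.1 (hQp.to_le (fun x (hx : x ∈ R) => hCQ hx.1) : IsPGroup 2 R)
  obtain ⟨b, hb⟩ := IsPGroup.iff_card.1 (hQp.to_le (fun x (hx : x ∈ F) => hCQ hx.1.1) : IsPGroup 2 F)
  have hab : b < a := by
    refine (Nat.pow_lt_pow_iff_right one_lt_two).1 ?_
    rw [← ha, ← hb]
    refine lt_of_le_of_ne (Subgroup.card_le_of_le inf_le_left) fun h => hy₀F ?_
    rw [show F = R from eq_of_le_of_card_le inf_le_left h.ge]
    exact hy₀R
  have hb2 : 2 ≤ b := by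
    refine (Nat.pow_le_pow_iff_right one_lt_two).1 ?_
    rw [← hb, show 2 ^ 2 = Nat.card U by rw [hU4]; rfl]
    refine Subgroup.card_le_of_le (le_trans (fun u hu => ?_) hUF)
    have huC : u ∈ C := ⟨⟨u, hu.1⟩, hcen (Subgroup.mem_centralizer_iff.2 fun c _ =>
      Subtype.ext (hu.2.2 c c.2).symm.eq), rfl⟩
    exact ⟨⟨huC, by rw [hu.2.1]; exact U.one_mem⟩, hu⟩
  have ha6 : a ≤ 6 := (Nat.pow_le_pow_iff_right one_lt_two).1 (ha ▸ hRcard)
  rw [hScard, ha, hb] at h9
  interval_cases a <;> interval_cases b <;> norm_num at h9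


/-- Let G be a finite group with C_G(O₂(G)) ≤ O₂(G) containing an element of order 6, and let d be a non-identity 3-element of G normalizing a nontrivial elementary abelian 2-subgroup W with C_W(d) = 1. Then G has an elementary abelian subgroup of order 8. -/
theorem result {G : Type*} [Group G] [Finite G] (hchar : Subgroup.centralizer (Cfsg.pCore 2 G : Set G) ≤ Cfsg.pCore 2 G) (hsix : ∃ g : G, orderOf g = 6) (d : G) (hd1 : d ≠ 1) (hd : IsPGroup 3 ↥(Subgroup.zpowers d)) (W : Subgroup G) (hW : Cfsg.IsElementaryAbelian 2 W) (hW1 : W ≠ ⊥) (hdW : d ∈ Subgroup.normalizer (W : Set G)) (hfpf : W ⊓ Subgroup.centralizer {d} = ⊥) : ∃ E : Subgroup G, Cfsg.IsElementaryAbelian 2 E ∧ Nat.card E = 8 := by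
  exact main hchar hsix d hd W hW hW1 hdW hfpf

end Cfsg.Agent.S3739
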