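import Cfsg.Statements.S3742
import Cfsg.Agent.Lib.PermTypeTwoDegrees

set_option autoImplicit false
open Cfsg

namespace Cfsg.Agent.S3742
open QuaternionGroup

abbrev Q := QuaternionGroup 2

def face : Fin 4 → Finset Q
  | 0 => {a 1, xa 0, a 1 * xa 0}
  | 1 => {a 1, (xa 0)⁻¹, (a 1 * xa 0)⁻¹}
  | 2 => {(a 1)⁻¹, xa 0, (a 1 * xa 0)⁻¹}
  | 3 => {(a 1)⁻¹, (xa 0)⁻¹, a 1 * xa 0}

def diag (k : Fin 4) : Finset (Finset Q) := {face k, (face k).image (·⁻¹)}

def move (f : Q → Q) (d : Finset (Finset Q)) : Finset (Finset Q) := d.image (Finset.image f)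

theorem diag_inj : ∀ k m : Fin 4, diag k = diag m → k = m := by decide +kernel

theorem move_diag : ∀ u v : Q, u * u ≠ 1 → v * v ≠ 1 → v ≠ u → v ≠ u⁻¹ →
    (∀ k, ∃ m, move (CfsgLib.ZStar.qMap u v) (diag k) = diag m) ∧
    ((∀ k, move (CfsgLib.ZStar.qMap u v) (diag k) = diag k) → u = a 1 ∧ v = xa 0) := by
  decide +kernel

theorem move_comp (f g : Q → Q) (d : Finset (Finset Q)) : move (f ∘ g) d = move f (move g d) := by
  simp only [move, Finset.image_image]
  congr 1
  funext s
  simp [Finset.image_image]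

private theorem main : Nonempty (MulAut (QuaternionGroup 2) ≃* Equiv.Perm (Fin 4)) := by
  classical
  have key : ∀ x : Q, x = CfsgLib.ZStar.qMap (a 1) (xa 0) x := by decide +kernel
  have hφ : ∀ φ : MulAut Q, (φ : Q → Q) = CfsgLib.ZStar.qMap (φ (a 1)) (φ (xa 0)) := fun φ => by
    funext x
    conv_lhs => rw [key x]
    cases x with
    | a i => exact map_pow φ _ _
    | xa i =>
      show φ (_ * _ ^ _) = _ * _ ^ _
      exact (map_mul φ (xa 0) (a 1 ^ i.val)).trans (congrArg (φ (xa 0) * ·) (map_pow φ _ _))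
  have hd : ∀ φ : MulAut Q, (∀ k, ∃ m, move φ (diag k) = diag m) ∧
      ((∀ k, move φ (diag k) = diag k) → φ = 1) := fun φ => by
    have := move_diag (φ (a 1)) (φ (xa 0))
      (by rw [← map_mul, ← map_one φ]; exact φ.injective.ne (by decide +kernel))
      (by rw [← map_mul, ← map_one φ]; exact φ.injective.ne (by decide +kernel))
      (φ.injective.ne (by decide +kernel))
      (by rw [← map_inv]; exact φ.injective.ne (by decide +kernel))
    rw [← hφ] at this
    refine ⟨this.1, fun h => MulEquiv.ext fun x => ?_⟩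
    obtain ⟨h1, h2⟩ := this.2 h
    rw [hφ φ, h1, h2, ← key x]; rfl
  choose σ hσ using fun φ => (hd φ).1
  have hmul : ∀ φ ψ : MulAut Q, ∀ k, σ (φ * ψ) k = σ φ (σ ψ k) := fun φ ψ k => by
    apply diag_inj
    rw [← hσ, ← hσ, ← hσ, ← move_comp]; rfl
  have hone : ∀ k, σ 1 k = k := fun k => by
    apply diag_inj
    rw [← hσ]
    simp [move, MulAut.coe_one, show (Finset.image id : Finset Q → _) = id from
      funext fun s => Finset.image_id]
  let act : MulAut Q →* Equiv.Perm (Fin 4) :=
    { toFun := fun φ => ⟨σ φ, σ φ⁻¹, fun k => by rw [← hmul, inv_mul_cancel, hone],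
        fun k => by rw [← hmul, mul_inv_cancel, hone]⟩
      map_one' := Equiv.ext hone
      map_mul' := fun φ ψ => Equiv.ext (hmul φ ψ) }
  have hinj : Function.Injective act := (injective_iff_map_eq_one act).2 fun φ h =>
    (hd φ).2 fun k => by
      rw [hσ φ k, show σ φ k = k from DFunLike.congr_fun h k]
  have hbij : Function.Bijective act :=
    (Nat.bijective_iff_injective_and_card act).2 ⟨hinj, by
      rw [CfsgLib.TypeTwo.card_mulAut_q8, Nat.card_eq_fintype_card, Fintype.card_perm,
        Fintype.card_fin]; rfl⟩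
  exact ⟨MulEquiv.ofBijective act hbij⟩


/-- The automorphism group of the quaternion group of order 8 is isomorphic to the symmetric group of degree 4. -/
theorem result : Nonempty (MulAut (QuaternionGroup 2) ≃* Equiv.Perm (Fin 4)) := by
  exact main

end Cfsg.Agent.S3742
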