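import Cfsg.Statements.S3744
import Cfsg.Agent.Lib.CorePSolvableHall

set_option autoImplicit false
open Cfsg

namespace Cfsg.Agent.S3744

/-- A finite p-soluble group has a p-complement, all its p-complements are conjugate, and every subgroup of order prime to p lies in one of them. Here a p-complement is a subgroup of order prime to p whose index is a power of p. -/
theorem result {G : Type*} [Group G] [Finite G] {p : ℕ} [Fact p.Prime] (hG : Cfsg.IsPSolvable p G) : (∃ H : Subgroup G, (Nat.card H).Coprime p ∧ ∃ n : ℕ, H.index = p ^ n) ∧ (∀ H₁ H₂ : Subgroup G, (Nat.card H₁).Coprime p → (∃ n : ℕ, H₁.index = p ^ n) → (Nat.card H₂).Coprime p → (∃ n : ℕ, H₂.index = p ^ n) → ∃ g : G, H₂ = H₁.map (MulAut.conj g).toMonoidHom) ∧ (∀ U : Subgroup G, (Nat.card U).Coprime p → ∃ H : Subgroup G, (Nat.card H).Coprime p ∧ (∃ n : ℕ, H.index = p ^ n) ∧ ∃ g : G, U.map (MulAut.conj g).toMonoidHom ≤ H) := by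
  obtain ⟨H₀, h1, h2, h3⟩ := CfsgLib.Core.exists_pprime_hall hG
  have key : ∀ H : Subgroup G, (Nat.card H).Coprime p → (∃ n : ℕ, H.index = p ^ n) →
      ∃ g : G, H.map (MulAut.conj g).toMonoidHom = H₀ := by
    intro H hc hi
    obtain ⟨g, hg⟩ := h3 H hc
    rw [CfsgLib.Core.conj_smul_eq_map] at hg
    refine ⟨g, Subgroup.eq_of_le_of_card_ge hg ?_⟩
    rw [Subgroup.card_map_of_injective (MulAut.conj g).injective,
      CfsgLib.Core.card_pprime_hall h1 h2, CfsgLib.Core.card_pprime_hall hc hi]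
  refine ⟨⟨H₀, h1, h2⟩, fun H₁ H₂ a1 b1 a2 b2 => ?_, fun U hU => ?_⟩
  · obtain ⟨g₁, e1⟩ := key H₁ a1 b1
    obtain ⟨g₂, e2⟩ := key H₂ a2 b2
    refine ⟨g₂⁻¹ * g₁, ?_⟩
    apply Subgroup.map_injective (f := (MulAut.conj g₂).toMonoidHom) (MulAut.conj g₂).injective
    rw [e2, Subgroup.map_map, ← e1]
    congr 1
    ext x
    simp [mul_assoc]
  · obtain ⟨g, hg⟩ := h3 U hU
    exact ⟨H₀, h1, h2, g, CfsgLib.Core.conj_smul_eq_map g U ▸ hg⟩

end Cfsg.Agent.S3744
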