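import Cfsg.Statements.S3746
import Cfsg.Agent.Lib.LocalNoComp

set_option autoImplicit false
open Cfsg

namespace Cfsg.Agent.S3746

/-- Let Z ≤ Z(G) be a central subgroup of a finite group G and E a subgroup of G containing Z whose image E/Z is a component of G/Z (subnormal and quasisimple). Then the derived subgroup [E, E] is a component of G. -/
theorem result {G : Type*} [Group G] [Finite G] (Z : Subgroup G) (hZ : Z ≤ Subgroup.center G) [Z.Normal] (E : Subgroup G) (hZE : Z ≤ E) (hE : Cfsg.IsComponent (E.map (QuotientGroup.mk' Z))) : Cfsg.IsComponent ⁅E, E⁆ := by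
  set q := QuotientGroup.mk' Z
  have hEq : (E.map q).comap q = E := by
    rw [Subgroup.comap_map_eq, QuotientGroup.ker_mk', sup_eq_left.2 hZE]
  set H := (E.map q).comap q with hH
  have hs : H.IsSubnormal := hE.1.comap q
  let g : ↥H →* ↥(E.map q) := q.subgroupComap (E.map q)
  have hg : Function.Surjective g :=
    MonoidHom.subgroupComap_surjective_of_surjective q _ (QuotientGroup.mk'_surjective Z)
  have hgk : g.ker ≤ Subgroup.center ↥H := fun a ha => by
    refine Subgroup.mem_center_iff.2 fun b => Subtype.ext ?_
    have ha' : (a : G) ∈ q.ker := by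
      rw [MonoidHom.mem_ker] at ha ⊢
      exact congrArg Subtype.val ha
    rw [QuotientGroup.ker_mk'] at ha'
    exact Subgroup.mem_center_iff.1 (hZ ha') b
  have hq := CfsgLib.Local.quasisimple_commutator_of_central_ext g hg hgk hE.2
  have hn : (⁅(⊤ : Subgroup ↥H), (⊤ : Subgroup ↥H)⁆ : Subgroup ↥H).Normal := inferInstance
  have h := CfsgLib.Core.isComponent_map_subtype hs ⟨hn.isSubnormal, hq⟩
  rwa [Subgroup.map_commutator, ← MonoidHom.range_eq_map, Subgroup.range_subtype, hEq] at h

end Cfsg.Agent.S3746
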