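import Cfsg.Statements.S3747
import Cfsg.Agent.Lib.CoreLayer

set_option autoImplicit false
open Cfsg

namespace Cfsg.Agent.S3747

/-- Let G be a finite group. (a) If K is a component of G with trivial centre, then the normal closure of K in G is a minimal normal subgroup of G. (b) If the Fitting subgroup of G is trivial, then the layer E(G) is generated by the minimal normal subgroups of G. -/
theorem result {G : Type*} [Group G] [Finite G] : (∀ K : Subgroup G, Cfsg.IsComponent K → Subgroup.center ↥K = ⊥ → (Subgroup.normalClosure (K : Set G) ≠ ⊥ ∧ ∀ N : Subgroup G, N.Normal → N ≤ Subgroup.normalClosure (K : Set G) → N = ⊥ ∨ N = Subgroup.normalClosure (K : Set G))) ∧ (Cfsg.fittingSubgroup G = ⊥ → sSup {N : Subgroup G | N ≠ ⊥ ∧ N.Normal ∧ ∀ N' : Subgroup G, N'.Normal → N' ≤ N → N' = ⊥ ∨ N' = N} = Cfsg.layer G) := by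
  classical
  have hsimple : ∀ (s : Finset (Subgroup G)), (∀ K ∈ s, Cfsg.IsComponent K ∧ Subgroup.center K = ⊥) →
      ∀ z ∈ s.sup id, (∀ x ∈ s.sup id, x * z = z * x) → z = 1 := by
    intro s
    induction s using Finset.induction_on with
    | empty => intro _ z hz _; exact Subgroup.mem_bot.1 (by simpa using hz)
    | @insert K s hKs ih =>
      intro hs z hz hcen
      simp only [Finset.forall_mem_insert] at hs
      rw [Finset.sup_insert, id_eq] at hz hcen
      set C := s.sup id
      have hKC : ∀ x ∈ K, ∀ c ∈ C, x * c = c * x := by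
        intro x hx c hc
        have h1 : C ≤ Subgroup.centralizer (K : Set G) := Finset.sup_le fun L hL =>
          Subgroup.commutator_eq_bot_iff_le_centralizer.1
            (CfsgLib.Core.components_commute (hs.2 L hL).1 hs.1.1 fun e => hKs (e ▸ hL))
        exact Subgroup.mem_centralizer_iff.1 (h1 hc) x hx
      have hnorm : K ≤ Subgroup.normalizer (C : Set G) := fun x hx =>
        Subgroup.centralizer_le_normalizer _ (Subgroup.mem_centralizer_iff.2 fun c hc => (hKC x hx c hc).symm)
      obtain ⟨k, hk, c, hc, rfl⟩ : ∃ k ∈ K, ∃ c ∈ C, k * c = z := by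
        have : z ∈ ((K ⊔ C : Subgroup G) : Set G) := hz
        rw [Subgroup.coe_mul_of_left_le_normalizer_right K C hnorm] at this
        exact this
      have hk1 : k = 1 := by
        have : (⟨k, hk⟩ : K) ∈ Subgroup.center K := Subgroup.mem_center_iff.2 fun x => Subtype.ext (by
          show (x : G) * k = k * x
          have h2 := hcen x (Subgroup.mem_sup_left x.2)
          rw [← mul_assoc, mul_assoc k c, ← hKC x x.2 c hc, ← mul_assoc] at h2
          exact mul_right_cancel h2)
        rw [hs.1.2, Subgroup.mem_bot] at this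
        exact congrArg Subtype.val this
      subst hk1
      rw [one_mul] at hcen ⊢
      exact ih hs.2 c hc fun x hx => hcen x (Subgroup.mem_sup_right hx)
  have hA : ∀ K : Subgroup G, Cfsg.IsComponent K → Subgroup.center ↥K = ⊥ →
      (Subgroup.normalClosure (K : Set G) ≠ ⊥ ∧ ∀ N : Subgroup G, N.Normal →
        N ≤ Subgroup.normalClosure (K : Set G) → N = ⊥ ∨ N = Subgroup.normalClosure (K : Set G)) := by
    intro K hK hZ
    refine ⟨fun e => CfsgLib.Core.component_ne_bot hK (le_bot_iff.1 (e ▸ Subgroup.le_normalClosure)), fun N hN hle => ?_⟩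
    haveI := hN
    rcases CfsgLib.Core.component_le_or_commutator_eq_bot hK hN.isSubnormal with h | h
    · exact Or.inr (le_antisymm hle (Subgroup.normalClosure_le_normal h))
    left
    have hcent : ∀ g : G, ∀ x ∈ K, ∀ n ∈ N, (g * x * g⁻¹) * n = n * (g * x * g⁻¹) := by
      intro g x hx n hn
      have hn' : g⁻¹ * n * g ∈ N := by simpa using hN.conj_mem n hn g⁻¹
      have h1 := Subgroup.mem_centralizer_iff.1 (Subgroup.commutator_eq_bot_iff_le_centralizer.1 h hx) _ hn'
      calc g * x * g⁻¹ * n = g * (x * (g⁻¹ * n * g)) * g⁻¹ := by group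
        _ = g * ((g⁻¹ * n * g) * x) * g⁻¹ := by rw [h1]
        _ = n * (g * x * g⁻¹) := by group
    set s : Finset (Subgroup G) := (Set.toFinite (Set.range fun g : G => K.map (MulAut.conj g).toMonoidHom)).toFinset
    have hs : ∀ L ∈ s, Cfsg.IsComponent L ∧ Subgroup.center L = ⊥ := by
      intro L hL
      obtain ⟨g, rfl⟩ := (Set.Finite.mem_toFinset _).1 hL
      refine ⟨CfsgLib.Core.isComponent_map_mulEquiv (MulAut.conj g) hK, ?_⟩
      rw [Subgroup.eq_bot_iff_forall]
      intro z hz
      let e := K.equivMapOfInjective (MulAut.conj g).toMonoidHom (MulAut.conj g).injective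
      have h1 : e.symm z ∈ Subgroup.center K := Subgroup.mem_center_iff.2 fun x => e.injective (by
        rw [map_mul, map_mul, e.apply_symm_apply]; exact Subgroup.mem_center_iff.1 hz (e x))
      rw [hZ, Subgroup.mem_bot] at h1
      rw [← e.apply_symm_apply z, h1, map_one]
    have hsup : Subgroup.normalClosure (K : Set G) ≤ s.sup id := by
      haveI : (s.sup id).Normal := by
        rw [← Subgroup.normalizer_eq_top_iff, eq_top_iff]
        intro g _
        have hmap : ∀ g : G, (s.sup id).map (MulAut.conj g).toMonoidHom ≤ s.sup id := by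
          intro g
          rw [Subgroup.map_le_iff_le_comap]
          refine Finset.sup_le fun L hL => ?_
          obtain ⟨u, rfl⟩ := (Set.Finite.mem_toFinset _).1 hL
          rw [id_eq, ← Subgroup.map_le_iff_le_comap, Subgroup.map_map]
          refine Finset.le_sup (f := id) ((Set.Finite.mem_toFinset _).2 ⟨g * u, ?_⟩)
          show K.map (MulAut.conj (g * u)).toMonoidHom = _
          congr 1
          exact MonoidHom.ext fun x => by simp [mul_assoc]
        refine Subgroup.mem_normalizer_iff.2 fun x => ⟨fun hx => hmap g ⟨x, hx, rfl⟩, fun hx => ?_⟩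
        simpa [mul_assoc] using hmap g⁻¹ ⟨_, hx, rfl⟩
      refine Subgroup.normalClosure_le_normal ?_
      have h1 : K.map (MulAut.conj (1 : G)).toMonoidHom ≤ s.sup id :=
        Finset.le_sup (f := id) ((Set.Finite.mem_toFinset _).2 ⟨1, rfl⟩)
      intro x hx
      exact h1 ⟨x, hx, by simp⟩
    rw [eq_bot_iff]
    intro z hz
    refine Subgroup.mem_bot.2 (hsimple s hs z (hsup (hle hz)) fun x hx => ?_)
    have h2 : s.sup id ≤ Subgroup.centralizer {z} := Finset.sup_le fun L hL => by
      obtain ⟨g, rfl⟩ := (Set.Finite.mem_toFinset _).1 hL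
      rintro _ ⟨y, hy, rfl⟩
      rw [Subgroup.mem_centralizer_singleton_iff]
      exact hcent g y hy z hz
    exact Subgroup.mem_centralizer_singleton_iff.1 (h2 hx)
  refine ⟨hA, fun hF => ?_⟩
  haveI := CfsgLib.Core.normal_layer (G := G)
  have hZK : ∀ K : Subgroup G, Cfsg.IsComponent K → Subgroup.center ↥K = ⊥ := by
    intro K hK
    have h1 : (Subgroup.center K).map K.subtype ≤ Cfsg.fittingSubgroup G := by
      refine CfsgLib.Core.le_fittingSubgroup_of_isSubnormal
        ((inferInstance : (Subgroup.center K).Normal).isSubnormal.trans' hK.1) ?_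
      letI : CommGroup (Subgroup.center K) := { (inferInstance : Group (Subgroup.center K)) with
        mul_comm := fun a b => Subtype.ext (Subgroup.mem_center_iff.1 b.2 a) }
      haveI : Group.IsNilpotent (Subgroup.center K) := CommGroup.isNilpotent
      exact Group.nilpotent_of_mulEquiv (Subgroup.equivMapOfInjective _ _ K.subtype_injective)
    rw [hF, le_bot_iff, Subgroup.map_eq_bot_iff_of_injective _ K.subtype_injective] at h1
    exact h1
  refine le_antisymm (sSup_le fun N ⟨hN1, hN, hmin⟩ => ?_) (sSup_le fun K hK => ?_)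
  · haveI := hN
    by_contra hNL
    have hcen : N ≤ Subgroup.centralizer (Cfsg.layer G : Set G) := by
      rw [Subgroup.le_centralizer_iff, Cfsg.layer]
      refine sSup_le fun K hK => ?_
      rcases CfsgLib.Core.component_le_or_commutator_eq_bot hK hN.isSubnormal with h | h
      · exfalso
        have h2 := hmin _ Subgroup.normalClosure_normal (Subgroup.normalClosure_le_normal h)
        rcases h2 with e | e
        · exact (hA K hK (hZK K hK)).1 e
        · exact hNL (e.symm.le.trans (Subgroup.normalClosure_le_normal (CfsgLib.Core.component_le_layer hK)))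
      · exact Subgroup.commutator_eq_bot_iff_le_centralizer.1 h
    have h3 := CfsgLib.Core.centralizer_generalizedFitting_le (G := G)
    rw [Cfsg.generalizedFittingSubgroup, hF, sup_bot_eq] at h3
    exact hNL (hcen.trans h3)
  · refine le_trans Subgroup.le_normalClosure (le_sSup ?_)
    obtain ⟨h1, h2⟩ := hA K hK (hZK K hK)
    exact ⟨h1, Subgroup.normalClosure_normal, h2⟩

end Cfsg.Agent.S3747
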