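import Cfsg.Statements.S3748
import Cfsg.Agent.Lib.CoreSubnormal
import Cfsg.Agent.Lib.CoreFitting

set_option autoImplicit false
open Cfsg

namespace Cfsg.Agent.S3748

/-- Call a proper subgroup M of G primitive when M = N_G(N) for every non-trivial normal subgroup N of M. If M is a primitive subgroup of the finite group G, then no non-trivial subnormal subgroup of G is contained in M; in particular M ∩ F(G) = 1. -/
theorem result {G : Type*} [Group G] [Finite G] (M : Subgroup G) (hM : M ≠ ⊤) (hprim : ∀ N : Subgroup G, N ≤ M → M ≤ Subgroup.normalizer (N : Set G) → N ≠ ⊥ → Subgroup.normalizer (N : Set G) = M) : (∀ L : Subgroup G, L.IsSubnormal → L ≤ M → L = ⊥) ∧ M ⊓ Cfsg.fittingSubgroup G = ⊥ := by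
  have key : ∀ L : Subgroup G, L.IsSubnormal → L ≤ M → L = ⊥ := by
    intro L₀ hL₀ hL₀M
    by_contra hne
    -- a maximal subnormal subgroup of `G` inside `M`
    set L : Subgroup G := sSup {U : Subgroup G | U.IsSubnormal ∧ U ≤ M} with hL
    have hLs : L.IsSubnormal := CfsgLib.Core.isSubnormal_sSup fun U hU => hU.1
    have hLM : L ≤ M := sSup_le fun U hU => hU.2
    have hL1 : L ≠ ⊥ := fun h => hne (le_bot_iff.mp (h ▸ le_sSup ⟨hL₀, hL₀M⟩))
    have hMN : M ≤ Subgroup.normalizer (L : Set G) := by
      intro m hm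
      have hsur : Function.Surjective (MulAut.conj m).toMonoidHom := (MulAut.conj m).surjective
      have hle : L.map (MulAut.conj m).toMonoidHom ≤ L := by
        refine le_sSup ⟨hLs.map hsur, ?_⟩
        rintro x ⟨y, hy, rfl⟩
        exact M.mul_mem (M.mul_mem hm (hLM hy)) (M.inv_mem hm)
      exact Subgroup.mem_normalizer_fintype fun y hy => hle ⟨y, hy, rfl⟩
    have hN : Subgroup.normalizer (L : Set G) = M := hprim L hLM hMN hL1
    rcases Subgroup.IsSubnormal.iff_eq_top_or_exists.mp hLs with htop | ⟨K, hLK, hK, hKn⟩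
    · exact hM (top_le_iff.mp (htop ▸ hLM))
    · have hKM : K ≤ M := hN ▸ (Subgroup.normal_subgroupOf_iff_le_normalizer hLK.le).mp hKn
      exact absurd (le_sSup ⟨hK, hKM⟩ : K ≤ L) (not_le_of_gt hLK)
  refine ⟨key, key _ ?_ inf_le_left⟩
  haveI : (Cfsg.fittingSubgroup G).Characteristic := CfsgLib.Core.characteristic_fittingSubgroup
  haveI : Group.IsNilpotent ↥(Cfsg.fittingSubgroup G) := CfsgLib.Core.isNilpotent_fittingSubgroup
  exact Subgroup.IsSubnormal.trans inf_le_right (CfsgLib.Core.isSubnormal_of_isNilpotent _)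
    (inferInstance : (Cfsg.fittingSubgroup G).Normal).isSubnormal

end Cfsg.Agent.S3748
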