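import Cfsg.Statements.S3749
import Cfsg.Agent.Lib.CoreCoprime

set_option autoImplicit false
open Cfsg

namespace Cfsg.Agent.S3749
open scoped Pointwise
open CfsgLib.Core
universe w

private theorem main {G : Type w} [Group G] [Finite G] (M : Subgroup G) (hM : M ≠ ⊤)
    (hprim : ∀ N : Subgroup G, N ≤ M → M ≤ Subgroup.normalizer (N : Set G) → N ≠ ⊥ →
      Subgroup.normalizer (N : Set G) = M)
    {p : ℕ} [hp : Fact p.Prime] (hOp : Cfsg.pCore p ↥M ≠ ⊥) (N : Subgroup G) [N.Normal]
    (hMN : M ⊓ N = ⊥) :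
    ¬ p ∣ Nat.card N ∧ (∀ q : ℕ, [Fact q.Prime] → ∃! Q : Sylow q ↥N,
      M ≤ Subgroup.normalizer ((Q : Subgroup ↥N).map N.subtype : Set G)) ∧
    ((∃ q r : ℕ, q.Prime ∧ r.Prime ∧ q ≠ r ∧ q ∣ Nat.card N ∧ r ∣ Nat.card N) → ¬ IsCoatom M) := by
  have _ := hM
  set A := (Cfsg.pCore p ↥M).map M.subtype with hA
  have hAM : A ≤ M := Subgroup.map_subtype_le _
  have hAp : IsPGroup p A := (CfsgLib.Core.isPGroup_pCore p).map _
  have hMA : M ≤ Subgroup.normalizer (A : Set G) := by
    haveI := CfsgLib.Core.characteristic_pCore (G := ↥M) p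
    rw [hA]
    refine (le_of_eq ?_).trans (Subgroup.le_normalizer_map M.subtype)
    rw [Subgroup.normalizer_eq_top, ← MonoidHom.range_eq_map, Subgroup.range_subtype]
  have hA0 : A ≠ ⊥ := fun h =>
    hOp ((Subgroup.map_eq_bot_iff_of_injective _ M.subtype_injective).1 h)
  have hNA : Subgroup.normalizer (A : Set G) = M := hprim A hAM hMA hA0
  have hfix : ∀ x ∈ N, x ∈ Subgroup.centralizer (A : Set G) → x = 1 := fun x hx hxc => by
    have : x ∈ M ⊓ N := ⟨hNA ▸ Subgroup.mem_normalizer_fintype fun a ha => by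
      show x * a * x⁻¹ ∈ A
      rw [← Subgroup.mem_centralizer_iff.1 hxc a ha, mul_inv_cancel_right]
      exact ha, hx⟩
    rwa [hMN, Subgroup.mem_bot] at this
  -- fixed points
  have hpN : ¬ p ∣ Nat.card N := by
    letI : MulAction A N := MulAction.compHom N ((MulAut.conjNormal (H := N)).comp A.subtype)
    have h1 := hAp.card_modEq_card_fixedPoints N
    have h2 : Nat.card (MulAction.fixedPoints A N) = 1 := by
      rw [Nat.card_eq_one_iff_unique]
      refine ⟨⟨fun a b => Subtype.ext ?_⟩, ⟨⟨1, fun a => Subtype.ext (by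
        show (a : G) * 1 * (a : G)⁻¹ = 1
        group)⟩⟩⟩
      have key : ∀ x ∈ MulAction.fixedPoints A N, x = 1 := fun x hx => by
        refine Subtype.ext (hfix x x.2 (Subgroup.mem_centralizer_iff.2 fun a ha => ?_))
        have h := congrArg Subtype.val (hx ⟨a, ha⟩)
        have h' : a * (x : G) * a⁻¹ = x := h
        calc a * (x : G) = a * x * a⁻¹ * a := by group
          _ = x * a := by rw [h']
      rw [key _ a.2, key _ b.2]
    rw [h2] at h1
    intro hd
    have h3 : Nat.card N % p = 1 % p := h1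
    rw [Nat.mod_eq_zero_of_dvd hd, Nat.mod_eq_of_lt hp.out.one_lt] at h3
    exact zero_ne_one h3
  have hcop : (Nat.card A).Coprime (Nat.card N) := by
    obtain ⟨k, hk⟩ := IsPGroup.iff_card.1 hAp
    rw [hk]
    exact (hp.out.coprime_iff_not_dvd.2 hpN).pow_left k
  have hAN : A ≤ Subgroup.normalizer (N : Set G) := CfsgLib.Core.le_normalizer_normal A
  have hsol : Group.IsSolvable A := by
    haveI := hAp.isNilpotent
    infer_instance
  have hex : ∀ q : ℕ, [Fact q.Prime] → ∃! H : Subgroup G,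
      IsHallIn {q} H N ∧ M ≤ Subgroup.normalizer (H : Set G) := by
    intro q _
    obtain ⟨⟨H, hH, hAH⟩, htrans⟩ := exists_invariant_sylow_aux q hAN hcop (Or.inl hsol)
    have huniq : ∀ H' : Subgroup G, IsHallIn {q} H' N → A ≤ Subgroup.normalizer (H' : Set G) →
        H' = H := by
      intro H' hH' hAH'
      obtain ⟨c, ⟨hcN, hcC⟩, hc⟩ := htrans H' H hH' hAH' hH hAH
      rw [hfix c hcN hcC, map_one, one_smul] at hc
      exact hc
    refine ⟨H, ⟨hH, fun m hm => ?_⟩, fun H' hH' => huniq H' hH'.1 (hAM.trans hH'.2)⟩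
    rw [← conj_smul_eq_self_iff]
    refine huniq _ ?_ fun a ha => conj_smul_eq_self_iff.1 ?_
    · have := IsHallIn.conj_smul hH m
      rwa [conj_smul_of_mem_normalizer
        (show m ∈ Subgroup.normalizer (N : Set G) from CfsgLib.Core.le_normalizer_normal M hm)] at this
    · have ha' : m⁻¹ * a * m ∈ A := by
        have := (Subgroup.mem_normalizer_iff.1 (hMA (inv_mem hm)) a).1 ha
        rwa [inv_inv] at this
      rw [← mul_smul, ← map_mul, show a * m = m * (m⁻¹ * a * m) by group, map_mul, mul_smul,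
        conj_smul_of_mem_normalizer (hAH ha')]
  refine ⟨hpN, fun q _ => ?_, ?_⟩
  · obtain ⟨H, ⟨hH, hMH⟩, huniq⟩ := hex q
    obtain ⟨Q, hQ⟩ := isHallIn_singleton_iff_exists_sylow.1 hH
    refine ⟨Q, by show M ≤ _; rw [hQ]; exact hMH, fun Q' hQ' => Sylow.ext ?_⟩
    refine Subgroup.map_injective N.subtype_injective ?_
    rw [huniq _ ⟨isHallIn_singleton_iff_exists_sylow.2 ⟨Q', rfl⟩, hQ'⟩, hQ]
  · rintro ⟨q, r, hq, hr, hqr, hqN, hrN⟩ hco
    haveI := Fact.mk hq
    obtain ⟨H, ⟨hH, hMH⟩, -⟩ := hex q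
    obtain ⟨Q, hQ⟩ := isHallIn_singleton_iff_exists_sylow.1 hH
    have htop : M ⊔ H = ⊤ := by
      rcases hco.le_iff.1 (le_sup_left : M ≤ M ⊔ H) with h | h
      · exact h
      exfalso
      have h1 : H ≤ M ⊓ N := le_inf (le_sup_right.trans h.le) hH.1
      rw [hMN] at h1
      rw [le_bot_iff.1 h1, Subgroup.map_eq_bot_iff_of_injective _ N.subtype_injective] at hQ
      exact Sylow.ne_bot_of_dvd_card Q hqN hQ
    have hNH : N ≤ H := fun x hx => by
      obtain ⟨m, hm, y, hy, rfl⟩ :=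
        (mem_sup_iff_of_le_normalizer hMH).1 (htop.ge (Subgroup.mem_top x))
      have hm' : m ∈ M ⊓ N := ⟨hm, by
        have := mul_mem hx (inv_mem (hH.1 hy))
        rwa [mul_inv_cancel_right] at this⟩
      rw [hMN, Subgroup.mem_bot] at hm'
      rw [hm', one_mul]; exact hy
    obtain ⟨k, hk⟩ := IsPGroup.iff_card.1 (Q.2.map N.subtype)
    have hrH : r ∣ q ^ k := by
      rw [← hk, hQ, le_antisymm hH.1 hNH]; exact hrN
    exact hqr ((Nat.prime_dvd_prime_iff_eq hr hq).1 (hr.dvd_of_dvd_pow hrH)).symm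


/-- Call a proper subgroup M of G primitive when M = N_G(N) for every non-trivial normal subgroup N of M. Let M be a primitive subgroup of the finite group G, p a prime with O_p(M) ≠ 1, and N a normal subgroup of G with M ∩ N = 1. Then p does not divide the order of N; for every prime q there is exactly one Sylow q-subgroup of N normalized by M; and if the order of N has at least two prime divisors then M is not a maximal subgroup of G. -/
theorem result {G : Type*} [Group G] [Finite G] (M : Subgroup G) (hM : M ≠ ⊤) (hprim : ∀ N : Subgroup G, N ≤ M → M ≤ Subgroup.normalizer (N : Set G) → N ≠ ⊥ → Subgroup.normalizer (N : Set G) = M) {p : ℕ} [Fact p.Prime] (hOp : Cfsg.pCore p ↥M ≠ ⊥) (N : Subgroup G) [N.Normal] (hMN : M ⊓ N = ⊥) : ¬ p ∣ Nat.card N ∧ (∀ q : ℕ, [Fact q.Prime] → ∃! Q : Sylow q ↥N, M ≤ Subgroup.normalizer ((Q : Subgroup ↥N).map N.subtype : Set G)) ∧ ((∃ q r : ℕ, q.Prime ∧ r.Prime ∧ q ≠ r ∧ q ∣ Nat.card N ∧ r ∣ Nat.card N) → ¬ IsCoatom M) := by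
  exact main M hM hprim hOp N hMN

end Cfsg.Agent.S3749
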