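import Cfsg.Statements.S3750
import Cfsg.Agent.Lib.CoreLayer
import Cfsg.Agent.Lib.CorePGroup
import Cfsg.Agent.Lib.CoreCoprime

set_option autoImplicit false
open Cfsg

namespace Cfsg.Agent.S3750
open CfsgLib.Core
universe w

private theorem main {G : Type w} [Group G] [Finite G] (M : Subgroup G) (hM : M ≠ ⊤)
    (hprim : ∀ N : Subgroup G, N ≤ M → M ≤ Subgroup.normalizer (N : Set G) → N ≠ ⊥ →
      Subgroup.normalizer (N : Set G) = M)
    (N : Subgroup G) [hN : N.Normal]
    (hMF : M ⊓ (Cfsg.generalizedFittingSubgroup ↥N).map N.subtype ≠ ⊥) :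
    Cfsg.fittingSubgroup G = ⊥ ∧
    (Cfsg.generalizedFittingSubgroup ↥N).map N.subtype = Cfsg.generalizedFittingSubgroup G ∧
    Cfsg.generalizedFittingSubgroup G = Cfsg.layer G ∧
    ∀ K : Subgroup G, K.Normal → K ≠ ⊥ →
      (∀ K' : Subgroup G, K'.Normal → K' ≤ K → K' = ⊥ ∨ K' = K) → K ≤ N := by
  set F' := (Cfsg.generalizedFittingSubgroup ↥N).map N.subtype with hF'
  haveI hF'n : F'.Normal := map_subtype_normal_of_characteristic hN
    characteristic_generalizedFittingSubgroup
  have hFN : F' ≤ N := Subgroup.map_subtype_le _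
  have hNA : Subgroup.normalizer ((M ⊓ F' : Subgroup G) : Set G) = M :=
    hprim _ inf_le_left (le_normalizer_inf Subgroup.le_normalizer (le_normalizer_normal M)) hMF
  have hsmall : ∀ X : Subgroup G, X.Normal → X ≤ M → X = ⊥ := fun X hX hXM => by
    by_contra hne
    haveI := hX
    have h := hprim X hXM (le_normalizer_normal M) hne
    rw [Subgroup.normalizer_eq_top] at h
    exact hM h.symm
  have hC : Subgroup.centralizer (F' : Set G) = ⊥ := by
    refine hsmall _ inferInstance fun x hx => hNA.le ?_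
    refine Subgroup.mem_normalizer_fintype fun a ha => ?_
    show x * a * x⁻¹ ∈ ((M ⊓ F' : Subgroup G) : Set G)
    rw [← Subgroup.mem_centralizer_iff.1 hx a ha.2, mul_inv_cancel_right]
    exact ha
  have hcent : ∀ X : Subgroup G, ⁅X, F'⁆ = ⊥ → X = ⊥ := fun X h =>
    le_bot_iff.1 ((Subgroup.commutator_eq_bot_iff_le_centralizer.1 h).trans hC.le)
  -- the Fitting subgroup of `N`
  have hFitN : Cfsg.fittingSubgroup ↥N = ⊥ := by
    by_contra hne
    haveI := isNilpotent_fittingSubgroup (G := ↥N)
    haveI : Nontrivial (Cfsg.fittingSubgroup ↥N) := (Subgroup.nontrivial_iff_ne_bot _).2 hne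
    have hZ : Subgroup.center (Cfsg.fittingSubgroup ↥N) ≠ ⊥ :=
      by simpa using nilpotent_inf_center_ne_bot (G := ↥(Cfsg.fittingSubgroup ↥N)) (N := ⊤) top_ne_bot
    set Z := (Subgroup.center (Cfsg.fittingSubgroup ↥N)).map
      (Cfsg.fittingSubgroup ↥N).subtype with hZd
    have hZF : Z ≤ Cfsg.fittingSubgroup ↥N := Subgroup.map_subtype_le _
    have hZc : ⁅Cfsg.generalizedFittingSubgroup ↥N, Z⁆ = ⊥ := by
      rw [Subgroup.commutator_eq_bot_iff_le_centralizer, Cfsg.generalizedFittingSubgroup]
      refine sup_le (Subgroup.commutator_eq_bot_iff_le_centralizer.1 ?_) fun x hx => ?_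
      · rw [eq_bot_iff, ← commutator_layer_fittingSubgroup (G := ↥N)]
        exact Subgroup.commutator_mono le_rfl hZF
      · refine Subgroup.mem_centralizer_iff.2 ?_
        rintro _ ⟨z, hz, rfl⟩
        exact congrArg Subtype.val (Subgroup.mem_center_iff.1 hz ⟨x, hx⟩).symm
    have h1 : Z.map N.subtype = ⊥ := hcent _ (by
      rw [hF', ← Subgroup.map_commutator, Subgroup.commutator_comm, hZc, Subgroup.map_bot])
    rw [Subgroup.map_eq_bot_iff_of_injective _ N.subtype_injective, hZd,
      Subgroup.map_eq_bot_iff_of_injective _ (Subgroup.subtype_injective _)] at h1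
    exact hZ h1
  have hFitG : Cfsg.fittingSubgroup G = ⊥ := by
    haveI := normal_fittingSubgroup (G := G)
    haveI := isNilpotent_fittingSubgroup (G := G)
    refine hcent _ (le_bot_iff.1 ((Subgroup.commutator_mono le_rfl hFN).trans ?_))
    refine (Subgroup.commutator_le_inf _ _).trans ?_
    have hn : ((Cfsg.fittingSubgroup G).subgroupOf N).Normal := inferInstance
    let f : ↥((Cfsg.fittingSubgroup G).subgroupOf N) →* ↥(Cfsg.fittingSubgroup G) :=
      MonoidHom.mk' (fun x => ⟨((x : ↥N) : G), x.2⟩) fun _ _ => rfl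
    have hf : f.ker = ⊥ := (MonoidHom.ker_eq_bot_iff f).2
      fun a b h => Subtype.ext (Subtype.ext (congrArg (fun y : ↥(Cfsg.fittingSubgroup G) => (y : G)) h))
    have hle := le_fittingSubgroup hn
      (Subgroup.isNilpotent_of_ker_le_center f (hf.le.trans bot_le))
    rw [hFitN] at hle
    rintro x ⟨hx, hxN⟩
    have := hle (Subgroup.mem_subgroupOf.2 hx : (⟨x, hxN⟩ : N) ∈ _)
    exact Subgroup.mem_bot.2 (congrArg Subtype.val (Subgroup.mem_bot.1 this))
  have hNl : F' = (Cfsg.layer ↥N).map N.subtype := by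
    rw [hF', Cfsg.generalizedFittingSubgroup, hFitN, sup_bot_eq]
  have hGl : Cfsg.generalizedFittingSubgroup G = Cfsg.layer G := by
    rw [Cfsg.generalizedFittingSubgroup, hFitG, sup_bot_eq]
  have heq : F' = Cfsg.layer G := by
    refine le_antisymm ?_ (sSup_le fun K hK => ?_)
    · rw [hNl, Subgroup.map_le_iff_le_comap]
      refine sSup_le fun K hK => ?_
      rw [← Subgroup.map_le_iff_le_comap]
      exact component_le_layer (isComponent_map_subtype hN.isSubnormal hK)
    · rcases component_le_or_commutator_eq_bot hK hF'n.isSubnormal with h | h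
      · exact h
      · exact absurd (hcent K h) (component_ne_bot hK)
  refine ⟨hFitG, heq.trans hGl.symm, hGl, fun K hK hK0 hmin => ?_⟩
  haveI := hK
  rcases hmin (K ⊓ N) inferInstance inf_le_left with h | h
  · exfalso
    refine hK0 (hcent K (le_bot_iff.1 ((Subgroup.commutator_mono le_rfl hFN).trans ?_)))
    rw [← h]
    exact Subgroup.commutator_le_inf K N
  · exact inf_eq_left.1 h


/-- Call a proper subgroup M of G primitive when M = N_G(N) for every non-trivial normal subgroup N of M. Let M be a primitive subgroup of the finite group G and N a normal subgroup of G with M ∩ F*(N) ≠ 1. Then F(G) = 1 and F*(N) = F*(G) = E(G); in particular every minimal normal subgroup of G is contained in N. -/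
theorem result {G : Type*} [Group G] [Finite G] (M : Subgroup G) (hM : M ≠ ⊤) (hprim : ∀ N : Subgroup G, N ≤ M → M ≤ Subgroup.normalizer (N : Set G) → N ≠ ⊥ → Subgroup.normalizer (N : Set G) = M) (N : Subgroup G) [N.Normal] (hMF : M ⊓ (Cfsg.generalizedFittingSubgroup ↥N).map N.subtype ≠ ⊥) : Cfsg.fittingSubgroup G = ⊥ ∧ (Cfsg.generalizedFittingSubgroup ↥N).map N.subtype = Cfsg.generalizedFittingSubgroup G ∧ Cfsg.generalizedFittingSubgroup G = Cfsg.layer G ∧ ∀ K : Subgroup G, K.Normal → K ≠ ⊥ → (∀ K' : Subgroup G, K'.Normal → K' ≤ K → K' = ⊥ ∨ K' = K) → K ≤ N := by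
  exact main M hM hprim N hMF

end Cfsg.Agent.S3750
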