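import Cfsg.Statements.S3751
import Cfsg.Agent.Lib.CoreBasic
import Cfsg.Agent.Lib.CoreOmega
import Cfsg.Agent.Lib.CoreCoprime
import Cfsg.Agent.Lib.CorePGroup

set_option autoImplicit false
open Cfsg

namespace Cfsg.Agent.S3751

universe w

open scoped Pointwise

private def Loc {G : Type w} [Group G] (p : ℕ) (M : Subgroup G) : Prop :=
  ∃ T : Subgroup G, IsPGroup p T ∧ T ≠ ⊥ ∧ M = Subgroup.normalizer (T : Set G)

private def MaxLoc {G : Type w} [Group G] (p : ℕ) (M : Subgroup G) : Prop :=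
  Loc p M ∧ ∀ L : Subgroup G, Loc p L → M ≤ L → L = M

open CfsgLib.Core in
private theorem main {G : Type w} [Group G] [Finite G] {p : ℕ} [Fact p.Prime]
    (hloc : Cfsg.IsOfLocalCharacteristic p G) (hOp : Cfsg.pCore p G = ⊥)
    (hfail : ∃ M : Subgroup G, MaxLoc p M ∧
      ¬ (M ≠ ⊤ ∧ p ∣ Nat.card M ∧ ∀ g : G, g ∉ M → ¬ p ∣ Nat.card ↥(M ⊓ M.map (MulAut.conj g).toMonoidHom))) :
    ∃ M₁ M₂ : Subgroup G, M₁ ≠ M₂ ∧ (∀ A : Subgroup G, A ≠ ⊥ → A ≤ M₁ ⊓ M₂ →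
      (M₁ ≤ Subgroup.normalizer (A : Set G) → M₂ ⊓ Subgroup.normalizer (A : Set G) = M₁ ⊓ M₂) ∧
      (M₂ ≤ Subgroup.normalizer (A : Set G) → M₁ ⊓ Subgroup.normalizer (A : Set G) = M₁ ⊓ M₂)) ∧
      Subgroup.centralizer (Cfsg.pCore p ↥M₁ : Set ↥M₁) ≤ Cfsg.pCore p ↥M₁ ∧
      Subgroup.centralizer (Cfsg.pCore p ↥M₂ : Set ↥M₂) ≤ Cfsg.pCore p ↥M₂ ∧
      (Cfsg.pCore p ↥M₁).map M₁.subtype ⊔ (Cfsg.pCore p ↥M₂).map M₂.subtype ≤ M₁ ⊓ M₂ := by
  classical
  have hp := (Fact.out : p.Prime)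
  have hchar : ∀ M : Subgroup G, Loc p M →
      Subgroup.centralizer (Cfsg.pCore p ↥M : Set ↥M) ≤ Cfsg.pCore p ↥M := by
    rintro M ⟨T, hT, hT1, rfl⟩
    exact hloc.2 T hT hT1
  have hOn : ∀ M : Subgroup G, ∀ m ∈ M, ∀ c ∈ (Cfsg.pCore p ↥M).map M.subtype,
      m * c * m⁻¹ ∈ (Cfsg.pCore p ↥M).map M.subtype := by
    rintro M m hm _ ⟨c, hc, rfl⟩
    exact ⟨_, (normal_pCore (G := M) p).conj_mem c hc ⟨m, hm⟩, rfl⟩
  have hON : ∀ M : Subgroup G, M ≤ Subgroup.normalizer (((Cfsg.pCore p ↥M).map M.subtype : Subgroup G) : Set G) :=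
    fun M m hm => Subgroup.mem_normalizer_fintype (hOn M m hm)
  have hOp' : ∀ M : Subgroup G, IsPGroup p ((Cfsg.pCore p ↥M).map M.subtype) :=
    fun M => (isPGroup_pCore p).map _
  have hO1 : ∀ M : Subgroup G, Loc p M → (Cfsg.pCore p ↥M).map M.subtype ≠ ⊥ := by
    rintro M ⟨T, hT, hT1, rfl⟩ h
    refine hT1 (le_bot_iff.1 (h ▸ fun t ht => ?_))
    exact ⟨⟨t, Subgroup.le_normalizer ht⟩, le_pCore (G := Subgroup.normalizer (T : Set G))
      (N := T.subgroupOf _) Subgroup.normal_in_normalizer (hT.comap_of_injective _ (Subgroup.subtype_injective _)) ht, rfl⟩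
  have hself : ∀ M : Subgroup G, MaxLoc p M →
      Subgroup.normalizer (((Cfsg.pCore p ↥M).map M.subtype : Subgroup G) : Set G) = M := fun M hM =>
    hM.2 _ ⟨_, hOp' M, hO1 M hM.1, rfl⟩ (hON M)
  have hprim : ∀ M : Subgroup G, MaxLoc p M → ∀ A : Subgroup G, A ≠ ⊥ → A ≤ M →
      M ≤ Subgroup.normalizer (A : Set G) → Subgroup.normalizer (A : Set G) = M := by
    intro M hM A hA hAM hMA
    refine le_antisymm ?_ hMA
    set O := (Cfsg.pCore p ↥M).map M.subtype with hO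
    set A₀ := (Cfsg.pCore p ↥A).map A.subtype with hA₀
    have hA₀n : Subgroup.normalizer (A : Set G) ≤ Subgroup.normalizer (A₀ : Set G) :=
      haveI := characteristic_pCore (G := A) p
      le_normalizer_map_of_characteristic le_rfl (Cfsg.pCore p ↥A)
    have hA₀1 : A₀ ≠ ⊥ := by
      intro h
      have hint : A ⊓ O = ⊥ := by
        rw [← le_bot_iff, ← h]
        rintro a ⟨haA, haO⟩
        refine ⟨⟨a, haA⟩, le_pCore (N := (A ⊓ O).subgroupOf A) ?_ (((hOp' M).to_le inf_le_right).comap_of_injective _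
          A.subtype_injective) ⟨haA, haO⟩, rfl⟩
        exact (Subgroup.normal_subgroupOf_iff_le_normalizer inf_le_left).2
          (le_normalizer_inf Subgroup.le_normalizer (hAM.trans (hON M)))
      have hAc : ∀ a ∈ A, ∀ o ∈ O, o * a = a * o := by
        intro a ha o ho
        have h1 : o * a * o⁻¹ * a⁻¹ ∈ A ⊓ O := by
          refine ⟨A.mul_mem ((Subgroup.mem_normalizer_iff.1 (hMA (Subgroup.map_subtype_le _ ho)) a).1 ha) (A.inv_mem ha), ?_⟩
          rw [show o * a * o⁻¹ * a⁻¹ = o * (a * o⁻¹ * a⁻¹) by group]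
          exact O.mul_mem ho (hOn M a (hAM ha) _ (O.inv_mem ho))
        rw [hint, Subgroup.mem_bot, mul_inv_eq_one, mul_inv_eq_iff_eq_mul] at h1
        exact h1
      refine hA (le_bot_iff.1 (hint ▸ fun a ha => ⟨ha, ?_⟩))
      refine ⟨⟨a, hAM ha⟩, hchar M hM.1 (Subgroup.mem_centralizer_iff.2 fun c hc => Subtype.ext ?_), rfl⟩
      exact hAc a ha c ⟨c, hc, rfl⟩
    exact hA₀n.trans (hM.2 _ ⟨A₀, (isPGroup_pCore p).map _, hA₀1, rfl⟩ (hMA.trans hA₀n)).le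
  have hne_top : ∀ M : Subgroup G, Loc p M → M ≠ ⊤ := by
    rintro M ⟨T, hT, hT1, rfl⟩ h
    exact hT1 (le_bot_iff.1 (hOp ▸ le_pCore (Subgroup.normalizer_eq_top_iff.1 h) hT))
  have hdvd : ∀ M : Subgroup G, Loc p M → p ∣ Nat.card M := by
    intro M hM
    haveI : Nontrivial ((Cfsg.pCore p ↥M).map M.subtype) := (Subgroup.nontrivial_iff_ne_bot _).2 (hO1 M hM)
    obtain ⟨k, hk, hc⟩ := (hOp' M).nontrivial_iff_card.1 inferInstance
    exact (hc ▸ dvd_pow_self p hk.ne' : p ∣ _).trans (Subgroup.card_dvd_of_le (Subgroup.map_subtype_le _))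
  have hconj : ∀ (M : Subgroup G) (g : G), MaxLoc p M → MaxLoc p (MulAut.conj g • M) := by
    have h1 : ∀ (M : Subgroup G) (g : G), Loc p M → Loc p (MulAut.conj g • M) := by
      rintro M g ⟨T, hT, hT1, rfl⟩
      refine ⟨MulAut.conj g • T, hT.map _, fun h => hT1 ?_, ?_⟩
      · have h2 := congrArg (MulAut.conj g⁻¹ • ·) h
        simpa [conj_smul_conj_smul, conj_one_smul] using h2
      · rw [conj_smul_eq_map, conj_smul_eq_map, ← Subgroup.map_equiv_normalizer_eq]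
    intro M g hM
    refine ⟨h1 M g hM.1, fun L hL hle => ?_⟩
    have h2 := hM.2 _ (h1 L g⁻¹ hL) (by
      have h3 := conj_smul_le_conj_smul (g := g⁻¹) |>.2 hle
      rwa [conj_smul_conj_smul, inv_mul_cancel, conj_one_smul] at h3)
    rw [← h2, conj_smul_conj_smul, mul_inv_cancel, conj_one_smul]
  obtain ⟨M₀, hM₀, hM₀fail⟩ := hfail
  obtain ⟨g, hg, hgd⟩ : ∃ g : G, g ∉ M₀ ∧ p ∣ Nat.card ↥(M₀ ⊓ M₀.map (MulAut.conj g).toMonoidHom) := by
    by_contra hcon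
    push Not at hcon
    exact hM₀fail ⟨hne_top M₀ hM₀.1, hdvd M₀ hM₀.1, hcon⟩
  rw [← conj_smul_eq_map] at hgd
  obtain ⟨x, hx⟩ := exists_prime_orderOf_dvd_card' (G := ↥(M₀ ⊓ MulAut.conj g • M₀)) p hgd
  rw [← Subgroup.orderOf_coe] at hx
  have hstab : ∀ (L : Subgroup G), MaxLoc p L → ∀ r : G, r ∉ L → MulAut.conj r • L ≠ L := by
    intro L hL r hr h
    refine hr ((hself L hL).le (Subgroup.mem_normalizer_fintype fun c hc => ?_))
    have hrc : ∀ l ∈ L, r * l * r⁻¹ ∈ L := fun l hl => by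
      have h1 : r * l * r⁻¹ ∈ MulAut.conj r • L := by rw [conj_smul_eq_map]; exact ⟨l, hl, rfl⟩
      rwa [h] at h1
    obtain ⟨c, hc, rfl⟩ := hc
    let φ : L ≃* L :=
      { toFun := fun l => ⟨r * l * r⁻¹, hrc l l.2⟩
        invFun := fun l => ⟨r⁻¹ * l * r, by
          have h1 : (l : G) ∈ MulAut.conj r • L := by rw [h]; exact l.2
          rw [conj_smul_eq_map] at h1
          obtain ⟨l', hl', he⟩ := h1
          rw [← he]
          simpa [mul_assoc] using hl'⟩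
        left_inv := fun l => Subtype.ext (by simp [mul_assoc])
        right_inv := fun l => Subtype.ext (by simp [mul_assoc])
        map_mul' := fun a b => Subtype.ext (by simp [mul_assoc]) }
    refine ⟨φ c, ?_, rfl⟩
    exact (characteristic_pCore (G := L) p).fixed φ ▸ hc |> fun h' => by simpa using h'
  obtain ⟨P, ⟨hPp, M, L, hM, hL, hML, hPML⟩, hPmax⟩ := Set.exists_max_image
    {P : Subgroup G | IsPGroup p P ∧ ∃ M L : Subgroup G, MaxLoc p M ∧ MaxLoc p L ∧ M ≠ L ∧ P ≤ M ⊓ L}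
    (fun P => Nat.card P) (Set.toFinite _)
    ⟨Subgroup.zpowers (x : G), IsPGroup.of_card (n := 1) (by rw [Nat.card_zpowers, hx, pow_one]), M₀, _,
      hM₀, hconj M₀ g hM₀, (hstab M₀ hM₀ g hg).symm, Subgroup.zpowers_le.2 x.2⟩
  have hP1 : P ≠ ⊥ := by
    intro h
    have h1 := hPmax (Subgroup.zpowers (x : G)) ⟨IsPGroup.of_card (n := 1) (by rw [Nat.card_zpowers, hx, pow_one]),
      M₀, _, hM₀, hconj M₀ g hM₀, (hstab M₀ hM₀ g hg).symm, Subgroup.zpowers_le.2 x.2⟩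
    rw [h, Subgroup.card_bot, Nat.card_zpowers, hx] at h1
    exact absurd h1 (Nat.not_le.2 hp.one_lt)
  have hmaxi : ∀ R M L : Subgroup G, MaxLoc p M → MaxLoc p L → M ≠ L → IsPGroup p R → P ≤ R → R ≤ M ⊓ L → R = P :=
    fun R M L hM hL hne hR hPR hRle =>
      (eq_of_le_of_card_le hPR (hPmax R ⟨hR, M, L, hM, hL, hne, hRle⟩)).symm
  -- when `P` is a maximal `p`-subgroup of both members
  have hgood : ∀ M L : Subgroup G, MaxLoc p M → MaxLoc p L → M ≠ L → P ≤ M ⊓ L →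
      (∀ R : Subgroup G, IsPGroup p R → P ≤ R → R ≤ M → R = P) →
      (∀ R : Subgroup G, IsPGroup p R → P ≤ R → R ≤ L → R = P) →
      ∃ M₁ M₂ : Subgroup G, M₁ ≠ M₂ ∧ (∀ A : Subgroup G, A ≠ ⊥ → A ≤ M₁ ⊓ M₂ →
        (M₁ ≤ Subgroup.normalizer (A : Set G) → M₂ ⊓ Subgroup.normalizer (A : Set G) = M₁ ⊓ M₂) ∧
        (M₂ ≤ Subgroup.normalizer (A : Set G) → M₁ ⊓ Subgroup.normalizer (A : Set G) = M₁ ⊓ M₂)) ∧
        Subgroup.centralizer (Cfsg.pCore p ↥M₁ : Set ↥M₁) ≤ Cfsg.pCore p ↥M₁ ∧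
        Subgroup.centralizer (Cfsg.pCore p ↥M₂ : Set ↥M₂) ≤ Cfsg.pCore p ↥M₂ ∧
        (Cfsg.pCore p ↥M₁).map M₁.subtype ⊔ (Cfsg.pCore p ↥M₂).map M₂.subtype ≤ M₁ ⊓ M₂ := by
    intro M L hM hL hne hPle hsM hsL
    have hin : ∀ K : Subgroup G, P ≤ K → (∀ R : Subgroup G, IsPGroup p R → P ≤ R → R ≤ K → R = P) →
        (Cfsg.pCore p ↥K).map K.subtype ≤ P := by
      intro K hPK hs
      have h1 := hs (P ⊔ (Cfsg.pCore p ↥K).map K.subtype)
        (hPp.to_sup_of_normal_right' (hOp' K) (hPK.trans (hON K))) le_sup_left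
        (sup_le hPK (Subgroup.map_subtype_le _))
      exact h1 ▸ le_sup_right
    refine ⟨M, L, hne, fun A hA hAle => ⟨fun h => ?_, fun h => ?_⟩, hchar M hM.1, hchar L hL.1,
      sup_le ((hin M (hPle.trans inf_le_left) hsM).trans hPle) ((hin L (hPle.trans inf_le_right) hsL).trans hPle)⟩
    · rw [hprim M hM A hA (hAle.trans inf_le_left) h, inf_comm]
    · rw [hprim L hL A hA (hAle.trans inf_le_right) h]
  -- growing inside the normaliser
  have hgrow : ∀ K : Subgroup G, P ≤ K → (∃ R : Subgroup G, IsPGroup p R ∧ P ≤ R ∧ R ≤ K ∧ R ≠ P) →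
      ∃ r ∈ K, r ∈ Subgroup.normalizer (P : Set G) ∧ r ∉ P ∧
        ∃ R : Subgroup G, IsPGroup p R ∧ P ≤ R ∧ R ≤ K ∧ r ∈ R ∧ R ≤ Subgroup.normalizer (P : Set G) := by
    rintro K hPK ⟨R, hR, hPR, hRK, hne⟩
    haveI := hR.isNilpotent
    have hlt : P.subgroupOf R < ⊤ := by
      rw [lt_top_iff_ne_top, Ne, Subgroup.subgroupOf_eq_top]
      exact fun h => hne (le_antisymm h hPR)
    obtain ⟨r, hr1, hr2⟩ := SetLike.exists_of_lt (normalizerCondition_of_isNilpotent (P.subgroupOf R) hlt)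
    have hrN : (r : G) ∈ Subgroup.normalizer (P : Set G) := Subgroup.mem_normalizer_fintype fun c hc =>
      Subgroup.mem_subgroupOf.1 ((Subgroup.mem_normalizer_iff.1 hr1 ⟨c, hPR hc⟩).1 (Subgroup.mem_subgroupOf.2 hc))
    refine ⟨r, hRK r.2, hrN, fun h => hr2 (Subgroup.mem_subgroupOf.2 h), R ⊓ Subgroup.normalizer (P : Set G),
      hR.to_le inf_le_left, le_inf hPR Subgroup.le_normalizer, inf_le_left.trans hRK, ⟨r.2, hrN⟩, inf_le_right⟩
  have key : ∀ M L : Subgroup G, MaxLoc p M → MaxLoc p L → M ≠ L → P ≤ M ⊓ L →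
      (∃ R : Subgroup G, IsPGroup p R ∧ P ≤ R ∧ R ≤ M ∧ R ≠ P) →
      ∃ L' : Subgroup G, MaxLoc p L' ∧ L' ≠ L ∧ P ≤ L' ⊓ L ∧
        (∀ R : Subgroup G, IsPGroup p R → P ≤ R → R ≤ L' → R = P) ∧
        (∀ R : Subgroup G, IsPGroup p R → P ≤ R → R ≤ L → R = P) := by
    intro M L hM hL hne hPle hex
    obtain ⟨r, hrM, hrN, hrP, R, hRp, hPR, hRM, hrR, hRN⟩ := hgrow M (hPle.trans inf_le_left) hex
    obtain ⟨N', ⟨hN'loc, hN'le⟩, hN'max⟩ := Set.exists_max_image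
      {K : Subgroup G | Loc p K ∧ Subgroup.normalizer (P : Set G) ≤ K} (fun K => Nat.card K) (Set.toFinite _)
      ⟨_, ⟨P, hPp, hP1, rfl⟩, le_rfl⟩
    have hN' : MaxLoc p N' := ⟨hN'loc, fun K hK hle =>
      (eq_of_le_of_card_le hle (hN'max K ⟨hK, hN'le.trans hle⟩)).symm⟩
    have hN'M : N' = M := by
      by_contra hne'
      exact hrP (hmaxi R N' M hN' hM hne' hRp hPR (le_inf (hRN.trans hN'le) hRM) ▸ hrR)
    have hsL : ∀ S : Subgroup G, IsPGroup p S → P ≤ S → S ≤ L → S = P := by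
      intro S hS hPS hSL
      by_contra hSne
      obtain ⟨s, hsL, hsN, hsP, S', hS'p, hPS', hS'L, hsS', hS'N⟩ :=
        hgrow L (hPle.trans inf_le_right) ⟨S, hS, hPS, hSL, hSne⟩
      exact hsP (hmaxi S' M L hM hL hne hS'p hPS' (le_inf ((hS'N.trans hN'le).trans hN'M.le) hS'L) ▸ hsS')
    have hrL : r ∉ L := fun h =>
      hrP (hmaxi (R ⊓ L) M L hM hL hne (hRp.to_le inf_le_left) (le_inf hPR (hPle.trans inf_le_right))
        (inf_le_inf_right L hRM) ▸ (show r ∈ R ⊓ L from ⟨hrR, h⟩))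
    have hPr : MulAut.conj r • P = P := conj_smul_of_mem_normalizer hrN
    refine ⟨MulAut.conj r • L, hconj L r hL, hstab L hL r hrL, le_inf ?_ (hPle.trans inf_le_right), ?_, hsL⟩
    · exact hPr.ge.trans (conj_smul_le_conj_smul.2 (hPle.trans inf_le_right))
    · intro S hS hPS hSL
      have hPr' : MulAut.conj r⁻¹ • P = P := conj_smul_of_mem_normalizer (Subgroup.inv_mem _ hrN)
      have h1 := hsL (MulAut.conj r⁻¹ • S) (hS.map _) (hPr'.ge.trans (conj_smul_le_conj_smul.2 hPS)) (by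
        have h2 := conj_smul_le_conj_smul (g := r⁻¹) |>.2 hSL
        rwa [conj_smul_conj_smul, inv_mul_cancel, conj_one_smul] at h2)
      have h3 := congrArg (MulAut.conj r • ·) h1
      simpa [conj_smul_conj_smul, conj_one_smul, hPr] using h3
  by_cases hMs : ∀ R : Subgroup G, IsPGroup p R → P ≤ R → R ≤ M → R = P
  · by_cases hLs : ∀ R : Subgroup G, IsPGroup p R → P ≤ R → R ≤ L → R = P
    · exact hgood M L hM hL hML hPML hMs hLs
    · push Not at hLs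
      obtain ⟨L', h1, h2, h3, h4, h5⟩ := key L M hL hM hML.symm (inf_comm M L ▸ hPML) hLs
      exact hgood L' M h1 hM h2 h3 h4 h5
  · push Not at hMs
    obtain ⟨L', h1, h2, h3, h4, h5⟩ := key M L hM hL hML hPML hMs
    exact hgood L' L h1 hL h2 h3 h4 h5


/-- Two distinct subgroups M₁, M₂ of G form a primitive pair when, for {i, j} = {1, 2}, every non-trivial normal subgroup A of M_i contained in M₁ ∩ M₂ satisfies N_{M_j}(A) = M₁ ∩ M₂; the pair has characteristic p when moreover C_{M_i}(O_p(M_i)) ≤ O_p(M_i) for both i and O_p(M₁)O_p(M₂) ≤ M₁ ∩ M₂. Let G be a finite group, p a prime dividing its order, with O_p(G) = 1 and every p-local subgroup of characteristic p. Then either G has a primitive pair of characteristic p, or every maximal p-local subgroup M of G is strongly p-embedded in G: M is a proper subgroup, p divides its order, and for every g ∉ M the order of M ∩ gMg⁻¹ is prime to p.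 -/
theorem result {G : Type*} [Group G] [Finite G] {p : ℕ} [Fact p.Prime] (hloc : Cfsg.IsOfLocalCharacteristic p G) (hOp : Cfsg.pCore p G = ⊥) : (∃ M₁ M₂ : Subgroup G, M₁ ≠ M₂ ∧ (∀ A : Subgroup G, A ≠ ⊥ → A ≤ M₁ ⊓ M₂ → (M₁ ≤ Subgroup.normalizer (A : Set G) → M₂ ⊓ Subgroup.normalizer (A : Set G) = M₁ ⊓ M₂) ∧ (M₂ ≤ Subgroup.normalizer (A : Set G) → M₁ ⊓ Subgroup.normalizer (A : Set G) = M₁ ⊓ M₂)) ∧ Subgroup.centralizer (Cfsg.pCore p ↥M₁ : Set ↥M₁) ≤ Cfsg.pCore p ↥M₁ ∧ Subgroup.centralizer (Cfsg.pCore p ↥M₂ : Set ↥M₂) ≤ Cfsg.pCore p ↥M₂ ∧ (Cfsg.pCore p ↥M₁).map M₁.subtype ⊔ (Cfsg.pCore p ↥M₂).map M₂.subtype ≤ M₁ ⊓ M₂) ∨ (∀ M : Subgroup G, (∃ T : Subgroup G, IsPGroup p T ∧ T ≠ ⊥ ∧ M = Subgroup.normalizer (T : Set G)) → (∀ L : Subgroup G, (∃ T : Subgroup G, IsPGroup p T ∧ T ≠ ⊥ ∧ L = Subgroup.normalizer (T : Set G)) → M ≤ L → L = M) → M ≠ ⊤ ∧ p ∣ Nat.card M ∧ ∀ g : G, g ∉ M → ¬ p ∣ Nat.card ↥(M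 ⊓ M.map (MulAut.conj g).toMonoidHom)) := by
  classical
  by_cases h : ∃ M : Subgroup G, MaxLoc p M ∧
      ¬ (M ≠ ⊤ ∧ p ∣ Nat.card M ∧ ∀ g : G, g ∉ M → ¬ p ∣ Nat.card ↥(M ⊓ M.map (MulAut.conj g).toMonoidHom))
  · exact Or.inl (main hloc hOp h)
  · refine Or.inr fun M hM hmax => ?_
    by_contra hc
    exact h ⟨M, ⟨hM, hmax⟩, hc⟩

end Cfsg.Agent.S3751
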