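import Cfsg.Statements.S3754
import Cfsg.Agent.Lib.CoreGen
import Cfsg.Agent.Lib.CorePSolvable
import Cfsg.Agent.Lib.LocalFFModel
import Cfsg.Agent.Lib.CorePGroup

set_option autoImplicit false
open Cfsg

namespace Cfsg.Agent.S3754

universe w

open CfsgLib.Core in
open scoped commutatorElement in
private theorem main {M : Type w} [Group M] [Finite M] {p : ℕ} [Fact p.Prime] (hM : Cfsg.IsPSolvable p M)
    (A : Subgroup M) (hA : IsPGroup p A) (hΦ : (frattini ↥A).map A.subtype ≤ Cfsg.pCore p M)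
    (hnot : ¬ A ≤ Cfsg.pCore p M) [(Cfsg.pCore p M).Normal] :
    ∃ x ∈ (Cfsg.pPrimeCore p (M ⧸ Cfsg.pCore p M)).comap (QuotientGroup.mk' (Cfsg.pCore p M)),
      x ∈ (Cfsg.pResidual p ↥(A ⊔ A.map (MulAut.conj x).toMonoidHom)).map (A ⊔ A.map (MulAut.conj x).toMonoidHom).subtype ∧
      (Cfsg.pResidual p ↥(A ⊔ A.map (MulAut.conj x).toMonoidHom)).map (A ⊔ A.map (MulAut.conj x).toMonoidHom).subtype ≤
        (Cfsg.pPrimeCore p (M ⧸ Cfsg.pCore p M)).comap (QuotientGroup.mk' (Cfsg.pCore p M)) ∧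
      ⁅(Cfsg.pResidual p ↥(A ⊔ A.map (MulAut.conj x).toMonoidHom)).map (A ⊔ A.map (MulAut.conj x).toMonoidHom).subtype, A⁆ =
        (Cfsg.pResidual p ↥(A ⊔ A.map (MulAut.conj x).toMonoidHom)).map (A ⊔ A.map (MulAut.conj x).toMonoidHom).subtype ∧
      (A ⊓ (Cfsg.pCore p ↥(A ⊔ A.map (MulAut.conj x).toMonoidHom)).map (A ⊔ A.map (MulAut.conj x).toMonoidHom).subtype).relIndex A = p ∧
      ⁅A ⊓ (Cfsg.pCore p ↥(A ⊔ A.map (MulAut.conj x).toMonoidHom)).map (A ⊔ A.map (MulAut.conj x).toMonoidHom).subtype,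
        A ⊔ A.map (MulAut.conj x).toMonoidHom⁆ ≤ Cfsg.pCore p M := by
  classical
  have hp := (Fact.out : p.Prime)
  set O := Cfsg.pCore p M with hO
  set f := QuotientGroup.mk' O with hf
  have hfs : Function.Surjective f := QuotientGroup.mk'_surjective O
  have hker : ∀ m : M, f m = 1 ↔ m ∈ O := fun m => QuotientGroup.eq_one_iff m
  set X := Cfsg.pPrimeCore p (M ⧸ O) with hX
  haveI hXn : X.Normal := normal_pPrimeCore p
  have hcent : Subgroup.centralizer (X : Set (M ⧸ O)) ≤ X :=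
    CfsgLib.LocalFF.centralizer_pPrimeCore_le (isPSolvable_of_surjective f hfs hM) (pCore_quotient_pCore p)
  set V := A.map f with hV
  have hVp : IsPGroup p V := hA.map f
  haveI hVc : IsMulCommutative V := by
    refine ⟨⟨fun a b => Subtype.ext ?_⟩⟩
    obtain ⟨a₀, ha₀, ha⟩ := a.2
    obtain ⟨b₀, hb₀, hb⟩ := b.2
    show (a : M ⧸ O) * b = b * a
    rw [← ha, ← hb, ← commutatorElement_eq_one_iff_mul_comm, ← map_commutatorElement, hker]
    exact hΦ ⟨_, pgroup_commutator_le_frattini hA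
      (Subgroup.commutator_mem_commutator (Subgroup.mem_top (⟨a₀, ha₀⟩ : A)) (Subgroup.mem_top ⟨b₀, hb₀⟩)),
      map_commutatorElement _ _ _⟩
  have hVexp : ∀ a ∈ V, a ^ p = 1 := by
    rintro _ ⟨a₀, ha₀, rfl⟩
    rw [← map_pow, hker]
    exact hΦ ⟨_, pgroup_pow_mem_frattini hA (⟨a₀, ha₀⟩ : A), rfl⟩
  have hXcop : ∀ z ∈ X, (orderOf z).Coprime p := fun z hz => by
    have h := orderOf_dvd_natCard (⟨z, hz⟩ : X)
    rw [← Subgroup.orderOf_coe] at h
    exact (coprime_card_pPrimeCore p).coprime_dvd_left h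
  have hcop : (Nat.card V).Coprime (Nat.card X) := by
    obtain ⟨k, hk⟩ := IsPGroup.iff_card.1 hVp
    rw [hk]
    exact (coprime_card_pPrimeCore p).symm.pow_left k
  have hVcomm : ∀ a ∈ V, ∀ b ∈ V, Commute a b := fun a ha b hb =>
    congrArg Subtype.val (hVc.is_comm.comm (⟨a, ha⟩ : V) ⟨b, hb⟩)
  -- a cocyclic subgroup with a centraliser moved by `V`
  obtain ⟨B, hBV, a, ha, hBa, z, hz, hzB, hza⟩ : ∃ B : Subgroup (M ⧸ O), B ≤ V ∧ ∃ a ∈ V,
      B ⊔ Subgroup.zpowers a = V ∧ ∃ z ∈ X, z ∈ Subgroup.centralizer (B : Set (M ⧸ O)) ∧ a * z ≠ z * a := by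
    by_contra hcon
    push Not at hcon
    have hXV : X ≤ Subgroup.centralizer (V : Set (M ⧸ O)) := by
      refine (generated_by_cocyclic (A := V) (le_normalizer_normal V) hcop).ge.trans (iSup₂_le fun B hB => ?_)
      obtain ⟨hBV, a, ha, hBa⟩ := hB
      intro w hw
      have h1 : V ≤ Subgroup.centralizer ({w} : Set (M ⧸ O)) := by
        rw [← hBa, sup_le_iff, Subgroup.zpowers_le]
        refine ⟨fun b hb => Subgroup.mem_centralizer_singleton_iff.2 ?_, Subgroup.mem_centralizer_singleton_iff.2 ?_⟩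
        · exact Subgroup.mem_centralizer_iff.1 hw.2 b hb
        · exact hcon B hBV a ha hBa w hw.1 hw.2
      exact Subgroup.mem_centralizer_iff.2 fun v hv => Subgroup.mem_centralizer_singleton_iff.1 (h1 hv)
    refine hnot fun m hm => (hker m).1 ?_
    have h1 : f m ∈ X := hcent (Subgroup.mem_centralizer_iff.2 fun w hw =>
      (Subgroup.mem_centralizer_iff.1 (hXV hw) (f m) ⟨m, hm, rfl⟩).symm)
    refine orderOf_eq_one_iff.1 (Nat.eq_one_of_dvd_coprimes (hXcop _ h1).symm ?_ dvd_rfl)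
    exact orderOf_dvd_of_pow_eq_one (hVexp _ ⟨m, hm, rfl⟩)
  -- a minimal invariant subgroup moved by `a`
  have haC : ∀ c ∈ Subgroup.centralizer (B : Set (M ⧸ O)), a * c * a⁻¹ ∈ Subgroup.centralizer (B : Set (M ⧸ O)) :=
    fun c hc => by
      have haB : a ∈ Subgroup.centralizer (B : Set (M ⧸ O)) :=
        Subgroup.mem_centralizer_iff.2 fun b hb => (hVcomm b (hBV hb) a ha).eq
      exact Subgroup.mul_mem _ (Subgroup.mul_mem _ haB hc) (Subgroup.inv_mem _ haB)
  obtain ⟨Y, ⟨hYX, hYa, y, hy, hya⟩, hYmin⟩ := Set.exists_min_image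
    {Y : Subgroup (M ⧸ O) | Y ≤ X ⊓ Subgroup.centralizer (B : Set (M ⧸ O)) ∧ (∀ c ∈ Y, a * c * a⁻¹ ∈ Y) ∧
      ∃ y ∈ Y, a * y ≠ y * a}
    (fun Y => Nat.card Y) (Set.toFinite _)
    ⟨X ⊓ Subgroup.centralizer (B : Set (M ⧸ O)), le_rfl,
      fun c hc => ⟨hXn.conj_mem c hc.1 a, haC c hc.2⟩, z, ⟨hz, hzB⟩, hza⟩
  have hyX : y ∈ X := (hYX hy).1
  have hyB : ∀ b ∈ B, b * y = y * b := Subgroup.mem_centralizer_iff.1 (hYX hy).2
  set Lb := V ⊔ V.map (MulAut.conj y).toMonoidHom with hLb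
  have hyL : y ∈ Lb := by
    have hcmem : a * y * a⁻¹ * y⁻¹ ∈ Lb := by
      rw [show a * y * a⁻¹ * y⁻¹ = a * (y * a⁻¹ * y⁻¹) by group]
      exact Lb.mul_mem (Subgroup.mem_sup_left ha) (Subgroup.mem_sup_right ⟨a⁻¹, V.inv_mem ha, rfl⟩)
    have hcY : a * y * a⁻¹ * y⁻¹ ∈ Y := Y.mul_mem (hYa y hy) (Y.inv_mem hy)
    have hmem : Y ⊓ Lb ∈ {Y : Subgroup (M ⧸ O) | Y ≤ X ⊓ Subgroup.centralizer (B : Set (M ⧸ O)) ∧
        (∀ c ∈ Y, a * c * a⁻¹ ∈ Y) ∧ ∃ y ∈ Y, a * y ≠ y * a} := by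
      refine ⟨inf_le_left.trans hYX, fun c hc => ⟨hYa c hc.1,
        Lb.mul_mem (Lb.mul_mem (Subgroup.mem_sup_left ha) hc.2) (Lb.inv_mem (Subgroup.mem_sup_left ha))⟩,
        a * y * a⁻¹ * y⁻¹, ⟨hcY, hcmem⟩, fun hac => hya ?_⟩
      set c := a * y * a⁻¹ * y⁻¹ with hc
      have hac' : Commute a c := hac
      have hj : ∀ j : ℕ, a ^ j * y * (a ^ j)⁻¹ = c ^ j * y := by
        intro j
        induction j with
        | zero => simp
        | succ j ihj =>
          rw [pow_succ', show a * a ^ j * y * (a * a ^ j)⁻¹ = a * (a ^ j * y * (a ^ j)⁻¹) * a⁻¹ by group,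
            ihj, show a * (c ^ j * y) * a⁻¹ = (a * c ^ j) * (y * a⁻¹) by group, (hac'.pow_right j).eq,
            show c ^ j * a * (y * a⁻¹) = c ^ j * (a * y * a⁻¹ * y⁻¹) * y by group, ← hc, ← pow_succ]
      have h3 := hj p
      rw [hVexp a ha, one_mul, inv_one, mul_one] at h3
      have h4 : c ^ p = 1 := by
        calc c ^ p = c ^ p * y * y⁻¹ := (mul_inv_cancel_right _ _).symm
          _ = 1 := by rw [← h3, mul_inv_cancel]
      have h5 : c = 1 := orderOf_eq_one_iff.1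
        (Nat.eq_one_of_dvd_coprimes (hXcop c (hYX hcY).1) dvd_rfl (orderOf_dvd_of_pow_eq_one h4))
      exact mul_inv_eq_iff_eq_mul.1 (mul_inv_eq_one.1 h5)
    have heq : Y ⊓ Lb = Y := eq_of_le_of_card_le inf_le_left (hYmin _ hmem)
    exact (heq.ge hy).2
  have hLmap : ∀ x : M, f x = y → (A ⊔ A.map (MulAut.conj x).toMonoidHom).map f = Lb := by
    intro x hx
    rw [Subgroup.map_sup, hLb, hV, Subgroup.map_map, Subgroup.map_map]
    congr 2
    exact MonoidHom.ext fun m => by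
      show f (x * m * x⁻¹) = y * f m * y⁻¹
      rw [map_mul, map_mul, map_inv, hx]
  obtain ⟨x₀, hx₀, hxmin⟩ := Set.exists_min_image {x : M | f x = y}
    (fun x => Nat.card ↥(A ⊔ A.map (MulAut.conj x).toMonoidHom)) (Set.toFinite _) (hfs y)
  set L := A ⊔ A.map (MulAut.conj x₀).toMonoidHom with hL
  obtain ⟨l, hl, hly⟩ : y ∈ L.map f := by rw [hLmap x₀ hx₀]; exact hyL
  obtain ⟨v, m, hm, hvm⟩ := Nat.exists_eq_pow_mul_and_not_dvd (orderOf_pos l).ne' p hp.ne_one
  obtain ⟨n, hn1, hn2⟩ := Nat.chineseRemainder ((hXcop y hyX).pow_right v) 1 0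
  set x := l ^ n with hx
  have hxL : x ∈ L := L.pow_mem hl n
  have hfx : f x = y := by
    rw [hx, map_pow, hly]
    exact (pow_eq_pow_iff_modEq.2 hn1).trans (pow_one y)
  have hxcop : (orderOf x).Coprime p := by
    have h1 : x ^ m = 1 := by
      obtain ⟨e, rfl⟩ := Nat.modEq_zero_iff_dvd.1 hn2
      rw [hx, ← pow_mul, mul_right_comm, ← hvm, pow_mul, pow_orderOf_eq_one, one_pow]
    exact (hp.coprime_iff_not_dvd.2 hm).symm.coprime_dvd_left (orderOf_dvd_of_pow_eq_one h1)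
  have hLeq : A ⊔ A.map (MulAut.conj x).toMonoidHom = L := by
    refine eq_of_le_of_card_le (sup_le le_sup_left ?_) (hxmin x hfx)
    rintro _ ⟨b, hb, rfl⟩
    exact L.mul_mem (L.mul_mem hxL (Subgroup.mem_sup_left hb)) (L.inv_mem hxL)
  rw [← hfx] at hyX
  refine ⟨x, hyX, ?_⟩
  rw [hLeq]
  set R := (Cfsg.pResidual p L).map L.subtype with hR
  have hAL : A ≤ L := le_sup_left
  have hxR : x ∈ R := ⟨⟨x, hxL⟩, Subgroup.subset_closure (by
    show (orderOf (⟨x, hxL⟩ : L)).Coprime p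
    rw [Subgroup.orderOf_mk]; exact hxcop), rfl⟩
  have hLXV : L.map f ≤ X ⊔ V := by
    rw [hLmap x₀ hx₀, hLb, sup_le_iff]
    refine ⟨le_sup_right, ?_⟩
    rintro _ ⟨b, hb, rfl⟩
    have hy' : y ∈ X ⊔ V := Subgroup.mem_sup_left (hfx ▸ hyX)
    exact Subgroup.mul_mem _ (Subgroup.mul_mem _ hy' (Subgroup.mem_sup_right hb)) (Subgroup.inv_mem _ hy')
  have hRle : R ≤ X.comap f := by
    rw [hR, Subgroup.map_le_iff_le_comap, Cfsg.pResidual, Subgroup.closure_le]
    intro g hg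
    show f (g : M) ∈ X
    obtain ⟨c, hc, v', hv', hcv⟩ := Subgroup.mem_sup_of_normal_left.1 (hLXV ⟨g, g.2, rfl⟩)
    have h1 : QuotientGroup.mk' X (f g) = QuotientGroup.mk' X v' := by
      rw [← hcv, map_mul, (QuotientGroup.eq_one_iff c).2 hc |> fun h => (show QuotientGroup.mk' X c = 1 from h),
        one_mul]
    have h2 : orderOf (QuotientGroup.mk' X (f g)) ∣ p := by
      rw [h1]
      exact (orderOf_map_dvd _ _).trans (orderOf_dvd_of_pow_eq_one (hVexp v' hv'))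
    have h3 : orderOf (QuotientGroup.mk' X (f g)) ∣ orderOf g :=
      (orderOf_map_dvd _ _).trans ((orderOf_map_dvd _ _).trans (Subgroup.orderOf_coe g).dvd)
    exact (QuotientGroup.eq_one_iff _).1 (orderOf_eq_one_iff.1 (Nat.eq_one_of_dvd_coprimes hg h3 h2))
  have hLR : L ≤ Subgroup.normalizer (R : Set M) := fun g hg => by
    refine Subgroup.mem_normalizer_fintype fun c hc => ?_
    obtain ⟨c, hc, rfl⟩ := hc
    have h1 : Cfsg.pResidual p L ≤ (Cfsg.pResidual p L).comap (MulAut.conj (⟨g, hg⟩ : L)).toMonoidHom := by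
      rw [Cfsg.pResidual, Subgroup.closure_le]
      intro e he
      refine Subgroup.subset_closure ?_
      show (orderOf (MulAut.conj (⟨g, hg⟩ : L) e)).Coprime p
      rw [MulEquiv.orderOf_eq]; exact he
    exact ⟨_, h1 hc, rfl⟩
  set D := ⁅R, A⁆ with hD
  have hDR : D ≤ R := commutator_le_of_le_normalizer (hAL.trans hLR)
  have hRD : R ≤ D := by
    have hRN : R ≤ Subgroup.normalizer (D : Set M) := le_normalizer_commutator_left R A
    have hAN : A ≤ Subgroup.normalizer (D : Set M) := le_normalizer_commutator_right R A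
    have hLN : L ≤ Subgroup.normalizer (D : Set M) := by
      rw [← hLeq]
      refine sup_le hAN ?_
      rintro _ ⟨b, hb, rfl⟩
      exact Subgroup.mul_mem _ (Subgroup.mul_mem _ (hRN hxR) (hAN hb)) (Subgroup.inv_mem _ (hRN hxR))
    haveI : (D.subgroupOf L).Normal := (Subgroup.normal_subgroupOf_iff_le_normalizer
      (hDR.trans (Subgroup.map_subtype_le _))).2 hLN
    set π := QuotientGroup.mk' (D.subgroupOf L) with hπ
    have hQ : (A.subgroupOf L).map π = ⊤ := by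
      rw [← Subgroup.map_top_of_surjective π (QuotientGroup.mk'_surjective _)]
      refine le_antisymm (Subgroup.map_mono le_top) ?_
      rw [Subgroup.map_le_iff_le_comap]
      intro g _
      have h2 : L ≤ ((((A.subgroupOf L).map π).comap π).map L.subtype) := by
        have hA' : ∀ b, b ∈ A → b ∈ ((((A.subgroupOf L).map π).comap π).map L.subtype) := fun b hb =>
          ⟨⟨b, hAL hb⟩, ⟨⟨b, hAL hb⟩, Subgroup.mem_subgroupOf.2 hb, rfl⟩, rfl⟩
        have hDm : ∀ b, b ∈ D → b ∈ ((((A.subgroupOf L).map π).comap π).map L.subtype) := fun b hb => by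
          have hbL : b ∈ L := Subgroup.map_subtype_le _ (hDR hb)
          refine ⟨⟨b, hbL⟩, ?_, rfl⟩
          show π ⟨b, hbL⟩ ∈ (A.subgroupOf L).map π
          rw [show π ⟨b, hbL⟩ = 1 from (QuotientGroup.eq_one_iff _).2 (Subgroup.mem_subgroupOf.2 hb)]
          exact one_mem _
        calc L = A ⊔ A.map (MulAut.conj x).toMonoidHom := hLeq.symm
          _ ≤ _ := sup_le hA' (by
            rintro _ ⟨b, hb, rfl⟩
            show x * b * x⁻¹ ∈ _
            rw [show x * b * x⁻¹ = ⁅x, b⁆ * b by rw [commutatorElement_def]; group]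
            exact Subgroup.mul_mem _ (hDm _ (Subgroup.commutator_mem_commutator hxR hb)) (hA' b hb))
      obtain ⟨g', hg', he⟩ := h2 g.2
      rwa [← L.subtype_injective he]
    have hpg : IsPGroup p (L ⧸ D.subgroupOf L) := by
      have h3 : IsPGroup p ((A.subgroupOf L).map π) :=
        (hA.of_equiv (Subgroup.subgroupOfEquivOfLe hAL).symm).map π
      rw [hQ] at h3
      exact h3.of_equiv Subgroup.topEquiv
    rw [hR, Subgroup.map_le_iff_le_comap, Cfsg.pResidual, Subgroup.closure_le]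
    intro g hg
    obtain ⟨k, hk⟩ := IsPGroup.iff_orderOf.1 hpg (π g)
    exact Subgroup.mem_subgroupOf.1 ((QuotientGroup.eq_one_iff g).1 (orderOf_eq_one_iff.1
      (Nat.eq_one_of_dvd_coprimes (Nat.Coprime.pow_right k hg) (orderOf_map_dvd π g) (dvd_of_eq hk))))
  -- the `p`-core of `L`
  have hBcen : ∀ g ∈ L, ∀ b ∈ B, f g * b * (f g)⁻¹ = b := by
    intro g hg b hb
    have h1 : L.map f ≤ Subgroup.centralizer ({b} : Set (M ⧸ O)) := by
      have hVb : ∀ c ∈ V, c ∈ Subgroup.centralizer ({b} : Set (M ⧸ O)) := fun c hc =>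
        Subgroup.mem_centralizer_singleton_iff.2 (hVcomm c hc b (hBV hb)).eq
      rw [hLmap x₀ hx₀, hLb, sup_le_iff]
      refine ⟨hVb, ?_⟩
      rintro _ ⟨c, hc, rfl⟩
      have hyb : y ∈ Subgroup.centralizer ({b} : Set (M ⧸ O)) :=
        Subgroup.mem_centralizer_singleton_iff.2 (hyB b hb).symm
      exact Subgroup.mul_mem _ (Subgroup.mul_mem _ hyb (hVb c hc)) (Subgroup.inv_mem _ hyb)
    exact mul_inv_eq_iff_eq_mul.2 (Subgroup.mem_centralizer_singleton_iff.1 (h1 ⟨g, hg, rfl⟩))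
  set B₀ := A ⊓ B.comap f with hB₀
  set P := (Cfsg.pCore p L).map L.subtype with hP
  have hB₀P : B₀ ≤ A ⊓ P := by
    refine le_inf inf_le_left ?_
    have hTn : ((B.comap f).subgroupOf L).Normal := ⟨fun t ht g => by
      rw [Subgroup.mem_subgroupOf, Subgroup.mem_comap] at ht ⊢
      push_cast
      rw [map_mul, map_mul, map_inv, hBcen g g.2 _ ht]
      exact ht⟩
    have hBp : IsPGroup p (B.comap f) := (hVp.to_le hBV).comap_of_ker_isPGroup f (by
      rw [hf, QuotientGroup.ker_mk']; exact isPGroup_pCore p)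
    have h2 : IsPGroup p ((B.comap f).subgroupOf L) := hBp.comap_of_injective L.subtype L.subtype_injective
    rintro b ⟨hbA, hbB⟩
    exact ⟨⟨b, hAL hbA⟩, le_pCore hTn h2 (Subgroup.mem_subgroupOf.2 hbB), rfl⟩
  have haB : a ∉ B := fun h => hya (hyB a h)
  have hrel : B₀.relIndex A = p := by
    rw [hB₀, Subgroup.inf_relIndex_left, Subgroup.relIndex_comap, ← hV]
    obtain ⟨k, hk⟩ := IsPGroup.iff_card.1 hVp
    have h1 : B.relIndex V ∣ p := by
      rw [← hBa, sup_comm, Subgroup.relIndex, Subgroup.index_eq_card]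
      have hnB : Subgroup.zpowers a ⊔ B ≤ Subgroup.normalizer (B : Set (M ⧸ O)) := by
        refine sup_le (Subgroup.zpowers_le.2 (centralizer_le_normalizer _ ?_)) Subgroup.le_normalizer
        exact Subgroup.mem_centralizer_iff.2 fun b hb => (hVcomm b (hBV hb) a ha).eq
      haveI : (B.subgroupOf (Subgroup.zpowers a ⊔ B)).Normal :=
        (Subgroup.normal_subgroupOf_iff_le_normalizer le_sup_right).2 hnB
      set U := Subgroup.zpowers a ⊔ B
      set q := QuotientGroup.mk' (B.subgroupOf U)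
      have haU : a ∈ U := Subgroup.mem_sup_left (Subgroup.mem_zpowers a)
      have h2 : ∀ u : U ⧸ B.subgroupOf U, u ∈ Subgroup.zpowers (q ⟨a, haU⟩) := by
        intro u
        obtain ⟨⟨g, hg⟩, rfl⟩ := QuotientGroup.mk'_surjective (B.subgroupOf U) u
        obtain ⟨s, hs, b, hb, hsb⟩ := (mem_sup_iff_of_le_normalizer
          ((le_sup_left : Subgroup.zpowers a ≤ U).trans hnB)).1 hg
        obtain ⟨i, rfl⟩ := Subgroup.mem_zpowers_iff.1 hs
        refine ⟨i, ?_⟩
        show q ⟨a, haU⟩ ^ i = q ⟨g, hg⟩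
        have : (⟨g, hg⟩ : U) = ⟨a, haU⟩ ^ i * ⟨b, Subgroup.mem_sup_right hb⟩ := Subtype.ext (by
          push_cast; exact hsb.symm)
        rw [this, map_mul, map_zpow,
          (show q ⟨b, Subgroup.mem_sup_right hb⟩ = 1 from (QuotientGroup.eq_one_iff _).2 hb), mul_one]
      rw [← orderOf_eq_card_of_forall_mem_zpowers h2]
      exact orderOf_dvd_of_pow_eq_one (by
        rw [← map_pow, show (⟨a, haU⟩ : U) ^ p = 1 from Subtype.ext (hVexp a ha), map_one])
    refine ((Nat.dvd_prime hp).1 h1).resolve_left fun h => haB ?_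
    exact Subgroup.relIndex_eq_one.1 h ha
  have hAP : (A ⊓ P).relIndex A = p := by
    refine ((Nat.dvd_prime hp).1 (hrel ▸ Subgroup.relIndex_dvd_of_le_left A hB₀P)).resolve_left fun h => ?_
    have hAle : A ≤ P := fun b hb => (Subgroup.relIndex_eq_one.1 h hb).2
    have hPn : L ≤ Subgroup.normalizer (P : Set M) := fun g hg => Subgroup.mem_normalizer_fintype fun c hc => by
      obtain ⟨c, hc, rfl⟩ := hc
      exact ⟨_, (normal_pCore (G := L) p).conj_mem c hc ⟨g, hg⟩, rfl⟩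
    have hLP : L ≤ P := by
      rw [← hLeq]
      refine sup_le hAle ?_
      rintro _ ⟨b, hb, rfl⟩
      exact (Subgroup.mem_normalizer_iff.1 (hPn hxL) b).1 (hAle hb)
    obtain ⟨k, hk⟩ := IsPGroup.iff_orderOf.1 ((isPGroup_pCore (G := L) p).map L.subtype) ⟨x, hLP hxL⟩
    rw [Subgroup.orderOf_mk] at hk
    have hx1 : x = 1 := orderOf_eq_one_iff.1
      (Nat.eq_one_of_dvd_coprimes (hxcop.pow_right k) dvd_rfl (dvd_of_eq hk))
    rw [hx1, map_one] at hfx
    exact hya (by rw [← hfx, mul_one, one_mul])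
  refine ⟨hxR, hRle, le_antisymm hDR hRD, hAP, ?_⟩
  have heq : A ⊓ P = B₀ := by
    refine (eq_of_le_of_card_le hB₀P ?_).symm
    have h1 := card_mul_relIndex (inf_le_left : B₀ ≤ A)
    have h2 := card_mul_relIndex (inf_le_left : A ⊓ P ≤ A)
    rw [hrel] at h1
    rw [hAP] at h2
    exact (Nat.eq_of_mul_eq_mul_right hp.pos (h2.trans h1.symm)).le
  rw [heq, Subgroup.commutator_le]
  intro b hb g hg
  rw [← hker, map_commutatorElement, commutatorElement_eq_one_iff_mul_comm]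
  exact (mul_inv_eq_iff_eq_mul.1 (hBcen g hg _ hb.2)).symm


/-- Let M be a finite p-soluble group and A a p-subgroup of M with Φ(A) ≤ O_p(M) but A ≰ O_p(M). Then there is x ∈ O_{p,p'}(M) such that L = ⟨A, xAx⁻¹⟩ satisfies: x ∈ O^p(L) and O^p(L) ≤ O_{p,p'}(M); [O^p(L), A] = O^p(L); A ∩ O_p(L) has index p in A; and [A ∩ O_p(L), L] ≤ O_p(M). Here O^p(L) is the subgroup generated by the p'-elements of L and O_{p,p'}(M) the preimage of O_{p'}(M/O_p(M)). -/
theorem result {M : Type*} [Group M] [Finite M] {p : ℕ} [Fact p.Prime] (hM : Cfsg.IsPSolvable p M) (A : Subgroup M) (hA : IsPGroup p A) (hΦ : (frattini ↥A).map A.subtype ≤ Cfsg.pCore p M) (hnot : ¬ A ≤ Cfsg.pCore p M) : ∃ x ∈ (Cfsg.pPrimeCore p (M ⧸ Cfsg.pCore p M)).comap (QuotientGroup.mk' (Cfsg.pCore p M)), x ∈ (Cfsg.pResidual p ↥(A ⊔ A.map (MulAut.conj x).toMonoidHom)).map (A ⊔ A.map (MulAut.conj x).toMonoidHom).subtype ∧ (Cfsg.pResidual p ↥(A ⊔ A.map (MulAut.conj x).toMonoidHom)).map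 (A ⊔ A.map (MulAut.conj x).toMonoidHom).subtype ≤ (Cfsg.pPrimeCore p (M ⧸ Cfsg.pCore p M)).comap (QuotientGroup.mk' (Cfsg.pCore p M)) ∧ ⁅(Cfsg.pResidual p ↥(A ⊔ A.map (MulAut.conj x).toMonoidHom)).map (A ⊔ A.map (MulAut.conj x).toMonoidHom).subtype, A⁆ = (Cfsg.pResidual p ↥(A ⊔ A.map (MulAut.conj x).toMonoidHom)).map (A ⊔ A.map (MulAut.conj x).toMonoidHom).subtype ∧ (A ⊓ (Cfsg.pCore p ↥(A ⊔ A.map (MulAut.conj x).toMonoidHom)).map (A ⊔ A.map (MulAut.conj x).toMonoidHom).subtype).relIndex A = p ∧ ⁅A ⊓ (Cfsg.pCore p ↥(A ⊔ A.map (MulAut.conj x).toMonoidHom)).map (A ⊔ A.map (MulAut.conj x).toMonoidHom).subtype, A ⊔ A.map (MulAut.conj x).toMonoidHom⁆ ≤ Cfsg.pCore p M := by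
  haveI : (Cfsg.pCore p M).Normal := CfsgLib.Core.normal_pCore p
  exact main hM A hA hΦ hnot

end Cfsg.Agent.S3754
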