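import Cfsg.Statements.S3755
import Cfsg.Agent.Lib.CoreSmallModuleThree

set_option autoImplicit false
open Cfsg

namespace Cfsg.Agent.S3755

/-- Let M and V be subgroups of a finite group with V an elementary abelian 2-group, M normalizing V and acting faithfully on it (M ∩ C(V) = 1), and C_M(O_{2'}(M)) ≤ O_{2'}(M). If some elementary abelian 2-subgroup A of M satisfies |V : C_V(A)| < |A|², then M has a section isomorphic to the symmetric group of degree 3. -/
theorem result {X : Type*} [Group X] [Finite X] (M V : Subgroup X) (hV : Cfsg.IsElementaryAbelian 2 V) (hMV : M ≤ Subgroup.normalizer (V : Set X)) (hfaith : M ⊓ Subgroup.centralizer (V : Set X) = ⊥) (hcon : Subgroup.centralizer (Cfsg.pPrimeCore 2 ↥M : Set ↥M) ≤ Cfsg.pPrimeCore 2 ↥M) (A : Subgroup X) (hAM : A ≤ M) (hA : Cfsg.IsElementaryAbelian 2 A) (hsmall : (V ⊓ Subgroup.centralizer (A : Set X)).relIndex V < Nat.card A ^ 2) : Cfsg.Involves (Equiv.Perm (Fin 3)) ↥M := by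
  haveI : Fact (Nat.Prime 2) := ⟨Nat.prime_two⟩
  set O := (Cfsg.pPrimeCore 2 ↥M).map M.subtype with hO
  have hodd : Odd (Nat.card O) := by
    rw [hO, Subgroup.card_map_of_injective M.subtype_injective]
    exact Nat.coprime_two_right.mp (CfsgLib.Core.coprime_card_pPrimeCore 2)
  have hMO : M ≤ Subgroup.normalizer (O : Set X) := by
    haveI := CfsgLib.Core.normal_pPrimeCore (G := ↥M) 2
    intro g hg
    exact Subgroup.le_normalizer_map M.subtype
      ⟨⟨g, hg⟩, by rw [Subgroup.normalizer_eq_top]; exact Subgroup.mem_top _, rfl⟩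
  have hcon' : ∀ a ∈ M, a ∈ Subgroup.centralizer (O : Set X) → a ∈ O := by
    intro a ha hc
    refine ⟨⟨a, ha⟩, hcon (Subgroup.mem_centralizer_iff.mpr fun b hb => Subtype.ext ?_), rfl⟩
    exact Subgroup.mem_centralizer_iff.mp hc b ⟨b, hb, rfl⟩
  rcases CfsgLib.Core.SmallModuleThree.involves_or_le M V hV hMV hfaith O (Subgroup.map_subtype_le _)
    hMO hodd hcon' _ A rfl hAM hA with h | h
  · exact h
  · omega

end Cfsg.Agent.S3755
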