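import Cfsg.Statements.S3760
import Cfsg.Agent.Lib.CoreBasic

set_option autoImplicit false
open Cfsg

namespace Cfsg.Agent.S3760

/-- Let the group G act transitively on a set X, let x ∈ X with stabilizer H = G_x, and let K ≤ H. Then N_G(K) acts transitively on the set of fixed points of K if and only if every G-conjugate of K contained in H is already an H-conjugate of K. -/
theorem result {G : Type*} [Group G] {X : Type*} [MulAction G X] (htrans : ∀ a b : X, ∃ g : G, g • a = b) (x : X) (K : Subgroup G) (hK : K ≤ MulAction.stabilizer G x) : (∀ a b : X, (∀ k ∈ K, k • a = a) → (∀ k ∈ K, k • b = b) → ∃ g ∈ Subgroup.normalizer (K : Set G), g • a = b) ↔ ∀ g : G, K.map (MulAut.conj g).toMonoidHom ≤ MulAction.stabilizer G x → ∃ h ∈ MulAction.stabilizer G x, K.map (MulAut.conj g).toMonoidHom = K.map (MulAut.conj h).toMonoidHom := by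
  have hfix : ∀ g : G, ((∀ k ∈ K, k • g • x = g • x) ↔ K.map (MulAut.conj g⁻¹).toMonoidHom ≤ MulAction.stabilizer G x) := by
    intro g
    constructor
    · rintro h _ ⟨k, hk, rfl⟩
      show (g⁻¹ * k * g⁻¹⁻¹) • x = x
      rw [inv_inv, mul_smul, mul_smul, h k hk, inv_smul_smul]
    · intro h k hk
      have h1 : (g⁻¹ * k * g⁻¹⁻¹) • x = x := h ⟨k, hk, rfl⟩
      rw [inv_inv, mul_smul, mul_smul, inv_smul_eq_iff] at h1
      exact h1
  have hcomp : ∀ g h : G, (K.map (MulAut.conj g).toMonoidHom).map (MulAut.conj h).toMonoidHom =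
      K.map (MulAut.conj (h * g)).toMonoidHom := by
    intro g h
    rw [Subgroup.map_map]
    congr 1
    ext z
    simp [mul_assoc]
  constructor
  · intro h g hg
    have h1 : ∀ k ∈ K, k • x = x := fun k hk => hK hk
    have h2 : ∀ k ∈ K, k • g⁻¹ • x = g⁻¹ • x := (hfix g⁻¹).2 (by rwa [inv_inv])
    obtain ⟨n, hn, hnx⟩ := h x (g⁻¹ • x) h1 h2
    refine ⟨g * n, by rw [MulAction.mem_stabilizer_iff, mul_smul, hnx, smul_inv_smul], ?_⟩
    rw [← hcomp n g]
    congr 1
    exact (Subgroup.mem_normalizer_iff_map_conj_eq.1 hn).symm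
  · intro h a b ha hb
    obtain ⟨ga, rfl⟩ := htrans x a
    obtain ⟨gb, rfl⟩ := htrans x b
    obtain ⟨s, hs, hse⟩ := h ga⁻¹ ((hfix ga).1 ha)
    obtain ⟨t, ht, hte⟩ := h gb⁻¹ ((hfix gb).1 hb)
    refine ⟨gb * t * (ga * s)⁻¹, mul_mem ?_ (inv_mem ?_), ?_⟩
    · rw [Subgroup.mem_normalizer_iff_map_conj_eq]
      show K.map (MulAut.conj (gb * t)).toMonoidHom = K
      rw [← hcomp t gb, ← hte, hcomp, mul_inv_cancel, map_one]
      exact Subgroup.map_id _
    · rw [Subgroup.mem_normalizer_iff_map_conj_eq]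
      show K.map (MulAut.conj (ga * s)).toMonoidHom = K
      rw [← hcomp s ga, ← hse, hcomp, mul_inv_cancel, map_one]
      exact Subgroup.map_id _
    · rw [mul_inv_rev, mul_smul, mul_smul, mul_smul, inv_smul_smul]
      rw [inv_smul_eq_iff.2 (MulAction.mem_stabilizer_iff.1 hs).symm, MulAction.mem_stabilizer_iff.1 ht]

end Cfsg.Agent.S3760
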