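import Cfsg.Statements.S3761
import Cfsg.Agent.Lib.CoreNormalCyclic

set_option autoImplicit false
open Cfsg

namespace Cfsg.Agent.S3761

/-- Let G be a finite non-abelian p-group with a cyclic normal subgroup U of order p^n such that C_G(U) = U. Then either p = 2 and G is dihedral, generalized quaternion or semidihedral of order 2^(n+1); or, writing U₁ for the subgroup generated by the p-th powers of elements of U and M = C_G(U₁), the subgroup U has index p in M and the subgroup Ω₁(M) generated by the elements of M of order dividing p is elementary abelian of order p² and characteristic in G. -/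
theorem result {G : Type*} [Group G] [Finite G] {p : ℕ} [Fact p.Prime] (hG : IsPGroup p G) (hna : ¬ IsMulCommutative G) (U : Subgroup G) [U.Normal] (hU : IsCyclic U) (n : ℕ) (hUn : Nat.card U = p ^ n) (hC : Subgroup.centralizer (U : Set G) = U) : (p = 2 ∧ Nat.card G = 2 ^ (n + 1) ∧ ((∃ m : ℕ, Nonempty (G ≃* DihedralGroup m)) ∨ (∃ m : ℕ, Nonempty (G ≃* QuaternionGroup m)) ∨ Cfsg.IsQuasiDihedral G)) ∨ (U.relIndex (Subgroup.centralizer (Cfsg.powerClosure p 1 U : Set G)) = p ∧ Cfsg.IsElementaryAbelian p (Cfsg.omegaOne p (Subgroup.centralizer (Cfsg.powerClosure p 1 U : Set G))) ∧ Nat.card ↥(Cfsg.omegaOne p (Subgroup.centralizer (Cfsg.powerClosure p 1 U : Set G))) = p ^ 2 ∧ (Cfsg.omegaOne p (Subgroup.centralizer (Cfsg.powerClosure p 1 U : Set G))).Characteristic) := by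
  classical
  have hp : p.Prime := Fact.out
  obtain ⟨u, hu⟩ : ∃ u : G, U = Subgroup.zpowers u := by
    haveI := hU
    obtain ⟨u0, hu0⟩ := IsCyclic.exists_generator (α := U)
    refine ⟨u0, le_antisymm (fun x hx => ?_) (Subgroup.zpowers_le.2 u0.2)⟩
    obtain ⟨i, hi⟩ := hu0 ⟨x, hx⟩
    exact ⟨i, congrArg Subtype.val hi⟩
  subst hu
  rw [Nat.card_zpowers] at hUn
  have htop : Subgroup.zpowers u ≠ ⊤ := by
    intro h
    apply hna
    refine ⟨⟨fun a b => ?_⟩⟩
    obtain ⟨i, rfl⟩ := h.ge (Subgroup.mem_top a)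
    obtain ⟨j, rfl⟩ := h.ge (Subgroup.mem_top b)
    exact (Commute.zpow_zpow_self u i j).eq
  rcases CfsgLib.NormalCyclic.alternatives hG hUn hC.le htop with ⟨w, hw, hn2, hn3⟩ | ⟨rfl, hcard, h4⟩
  swap
  · left
    refine ⟨rfl, hcard, ?_⟩
    rcases h4 with h4 | ⟨m, -, he⟩ | h4
    · exact Or.inr (Or.inl h4)
    · exact Or.inl ⟨m, he⟩
    · exact Or.inr (Or.inr h4)
  right
  haveI := Fact.mk hG
  obtain ⟨n', rfl⟩ : ∃ n', n = n' + 2 := ⟨n - 2, by omega⟩
  simp only [show n' + 2 - 1 = n' + 1 from rfl] at hw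
  set z := u ^ p ^ (n' + 1) with hzdef
  have hzc : z ∈ Subgroup.center G :=
    CfsgLib.NormalCyclic.center_of_normal_prime hUn inferInstance hp (by omega) (by rfl)
  have hcz : ∀ g : G, g * z = z * g := fun g => Subgroup.mem_center_iff.1 hzc g
  have hzp : z ^ p = 1 := by rw [hzdef, ← pow_mul, ← pow_succ, ← hUn, pow_orderOf_eq_one]
  have hz1 : z ≠ 1 := by
    intro h
    have := orderOf_dvd_of_pow_eq_one h
    rw [hUn, Nat.pow_dvd_pow_iff_le_right hp.one_lt] at this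
    omega
  have hord := orderOf_eq_prime hzp hz1
  -- elements of U killed by p
  have hUz : ∀ x ∈ Subgroup.zpowers u, x ^ p = 1 → x ∈ Subgroup.zpowers z := by
    intro x hx h1
    rw [← mem_powers_iff_mem_zpowers, Submonoid.mem_powers_iff] at hx
    obtain ⟨i, rfl⟩ := hx
    rw [← pow_mul] at h1
    have h2 := orderOf_dvd_of_pow_eq_one h1
    rw [hUn, pow_succ' p (n' + 1), mul_comm i p] at h2
    obtain ⟨c, rfl⟩ := Nat.dvd_of_mul_dvd_mul_left hp.pos h2
    rw [pow_mul]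
    exact Subgroup.pow_mem _ (Subgroup.mem_zpowers z) c
  have hcenterU : ∀ x ∈ Subgroup.center G, x ∈ Subgroup.zpowers u := fun x hx => by
    rw [← hC, Subgroup.mem_centralizer_iff]
    exact fun y _ => Subgroup.mem_center_iff.1 hx y
  set M := Subgroup.centralizer (Cfsg.powerClosure p 1 (Subgroup.zpowers u) : Set G) with hMdef
  have hup : u ^ p ∈ Cfsg.powerClosure p 1 (Subgroup.zpowers u) :=
    Subgroup.subset_closure ⟨u, Subgroup.mem_zpowers u, by rw [pow_one]⟩
  have hM : ∀ x : G, x ∈ M ↔ x * u * x⁻¹ * u⁻¹ ∈ Subgroup.zpowers z := by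
    intro x
    have hd : x * u * x⁻¹ * u⁻¹ ∈ Subgroup.zpowers u :=
      Subgroup.mul_mem _ ((inferInstance : (Subgroup.zpowers u).Normal).conj_mem u (Subgroup.mem_zpowers u) x)
        (Subgroup.inv_mem _ (Subgroup.mem_zpowers u))
    have hc : Commute (x * u * x⁻¹ * u⁻¹) u := by
      obtain ⟨i, hi⟩ := hd
      rw [← show u ^ i = x * u * x⁻¹ * u⁻¹ from hi]
      exact (Commute.refl u).zpow_left i
    have hpw : (x * u * x⁻¹ * u⁻¹) ^ p = x * u ^ p * x⁻¹ * (u ^ p)⁻¹ := by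
      have h1 : (x * u * x⁻¹ * u⁻¹ * u) ^ p = (x * u * x⁻¹ * u⁻¹) ^ p * u ^ p := hc.mul_pow p
      rw [inv_mul_cancel_right, conj_pow] at h1
      rw [h1, mul_inv_cancel_right]
    constructor
    · intro hx
      refine hUz _ hd ?_
      rw [hpw, ← Subgroup.mem_centralizer_iff.1 hx _ hup]; group
    · intro hx
      rw [hMdef, Cfsg.powerClosure, Subgroup.centralizer_closure, Subgroup.mem_centralizer_iff]
      rintro y ⟨v, hv, rfl⟩
      obtain ⟨i, rfl⟩ := hv
      have h1 : (x * u * x⁻¹ * u⁻¹) ^ p = 1 := by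
        obtain ⟨k, hk⟩ := hx
        rw [← show z ^ k = x * u * x⁻¹ * u⁻¹ from hk, ← zpow_natCast, ← zpow_mul, mul_comm, zpow_mul, zpow_natCast, hzp, one_zpow]
      rw [hpw, mul_inv_eq_one, mul_inv_eq_iff_eq_mul] at h1
      show (u ^ i) ^ p ^ 1 * x = x * (u ^ i) ^ p ^ 1
      have e : (u ^ i) ^ p = (u ^ p) ^ i := by rw [← zpow_natCast, ← zpow_mul, mul_comm, zpow_mul, zpow_natCast]
      rw [pow_one, e]
      exact ((show Commute x (u ^ p) from h1).zpow_right i).eq.symm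
  let δ : M →* Subgroup.zpowers z := MonoidHom.mk' (fun x => ⟨(x : G) * u * (x : G)⁻¹ * u⁻¹, (hM x).1 x.2⟩) (fun a b => Subtype.ext (by
    obtain ⟨k, hk⟩ := (hM b).1 b.2
    have hk' : (b : G) * u * (b : G)⁻¹ = z ^ k * u := by
      rw [show z ^ k = (b : G) * u * (b : G)⁻¹ * u⁻¹ from hk, inv_mul_cancel_right]
    show (a : G) * b * u * ((a : G) * b)⁻¹ * u⁻¹ = (a * u * (a : G)⁻¹ * u⁻¹) * ((b : G) * u * (b : G)⁻¹ * u⁻¹)
    rw [show (b : G) * u * (b : G)⁻¹ * u⁻¹ = z ^ k from hk.symm,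
      show (a : G) * b * u * ((a : G) * b)⁻¹ = a * ((b : G) * u * (b : G)⁻¹) * (a : G)⁻¹ from by group, hk']
    have hzk : ∀ g : G, g * z ^ k = z ^ k * g := fun g => ((show Commute g z from hcz g).zpow_right k).eq
    calc (a : G) * (z ^ k * u) * (a : G)⁻¹ * u⁻¹ = (a * z ^ k) * (u * (a : G)⁻¹ * u⁻¹) := by group
      _ = z ^ k * (a * u * (a : G)⁻¹ * u⁻¹) := by rw [hzk]; group
      _ = (a * u * (a : G)⁻¹ * u⁻¹) * z ^ k := (hzk _).symm))
  have hwz : w * u * w⁻¹ * u⁻¹ = z := by rw [hw, pow_add, pow_one, hzdef]; group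
  have hwM : w ∈ M := (hM w).2 (hwz.symm ▸ Subgroup.mem_zpowers z)
  have hker : δ.ker = (Subgroup.zpowers u).subgroupOf M := by
    ext x
    rw [MonoidHom.mem_ker, Subgroup.mem_subgroupOf]
    constructor
    · intro h
      have h1 : (x : G) * u * (x : G)⁻¹ * u⁻¹ = 1 := congrArg Subtype.val h
      rw [← hC, Subgroup.mem_centralizer_iff]
      intro y hy
      obtain ⟨i, rfl⟩ := hy
      rw [mul_inv_eq_one, mul_inv_eq_iff_eq_mul] at h1
      exact ((show Commute (x : G) u from h1).zpow_right i).eq.symm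
    · intro h
      apply Subtype.ext
      obtain ⟨i, hi⟩ := h
      show (x : G) * u * (x : G)⁻¹ * u⁻¹ = 1
      rw [← show u ^ i = (x : G) from hi]; group
  have hrel : (Subgroup.zpowers u).relIndex M = p := by
    show ((Subgroup.zpowers u).subgroupOf M).index = p
    rw [← hker, Subgroup.index_ker]
    have : δ.range = ⊤ := by
      rw [eq_top_iff]
      rintro ⟨_, k, rfl⟩ -
      exact ⟨⟨w, hwM⟩ ^ k, Subtype.ext (by rw [map_zpow]; show (w * u * w⁻¹ * u⁻¹) ^ k = z ^ k; rw [hwz])⟩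
    rw [this, Subgroup.card_top, Nat.card_zpowers, hord]
  obtain ⟨z', e, hz', hz'1, hz'c, he, hne, hconj⟩ :=
    CfsgLib.NormalCyclic.hasPair_of_one_add hn2 hn3 hUn hC.le (CfsgLib.NormalCyclic.quot_comm hC.le)
      (show w * u * w⁻¹ = u ^ (1 + p ^ (n' + 2 - 1)) from hw)
  have hzz : Subgroup.zpowers z' = Subgroup.zpowers z := by
    refine Subgroup.eq_of_le_of_card_ge (Subgroup.zpowers_le.2 (hUz z' (hcenterU z' hz'c) hz')) ?_
    rw [Nat.card_zpowers, Nat.card_zpowers, hord, orderOf_eq_prime hz' hz'1]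
  rw [hzz] at hne hconj
  have hMof : ∀ x : G, (∀ g, x⁻¹ * (g * x * g⁻¹) ∈ Subgroup.zpowers z) → x ∈ M := by
    intro x hx
    rw [hM]
    obtain ⟨k, hk⟩ := hx u
    refine ⟨-k, ?_⟩
    have hk' : z ^ k = x⁻¹ * (u * x * u⁻¹) := hk
    show z ^ (-k) = _
    have h1 : x * z ^ k * x⁻¹ = z ^ k := by rw [((show Commute x z from hcz x).zpow_right k).eq, mul_inv_cancel_right]
    rw [zpow_neg, ← h1, hk']; group
  have heM : e ∈ M := hMof e hconj
  set E := Subgroup.zpowers z ⊔ Subgroup.zpowers e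
  haveI hZn : (Subgroup.zpowers z).Normal := ⟨fun x hx g => by
    obtain ⟨i, rfl⟩ := hx
    show g * z ^ i * g⁻¹ ∈ Subgroup.zpowers z
    rw [((show Commute g z from hcz g).zpow_right i).eq, mul_inv_cancel_right]
    exact Subgroup.zpow_mem _ (Subgroup.mem_zpowers z) i⟩
  have hze : Commute z e := (hcz e).symm
  have hmem : ∀ v ∈ E, ∃ i j : ℤ, v = z ^ i * e ^ j := by
    intro v hv
    obtain ⟨a, ⟨i, rfl⟩, b, ⟨j, rfl⟩, rfl⟩ := Subgroup.mem_sup_of_normal_left.1 hv
    exact ⟨i, j, rfl⟩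
  have hEel : Cfsg.IsElementaryAbelian p E := by
    refine ⟨⟨⟨fun a b => Subtype.ext ?_⟩⟩, fun a ha => ?_⟩
    · obtain ⟨i, j, hi⟩ := hmem a a.2
      obtain ⟨k, l, hk⟩ := hmem b b.2
      show (a : G) * b = b * a
      rw [hi, hk]
      exact (((Commute.zpow_zpow_self z i k).mul_right (hze.zpow_zpow i l)).mul_left
        ((hze.symm.zpow_zpow j k).mul_right (Commute.zpow_zpow_self e j l))).eq
    · obtain ⟨i, j, rfl⟩ := hmem a ha
      rw [(hze.zpow_zpow i j).mul_pow, ← zpow_natCast, ← zpow_natCast, ← zpow_mul, ← zpow_mul, mul_comm i,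
        mul_comm j, zpow_mul, zpow_mul, zpow_natCast, zpow_natCast, hzp, he, one_zpow, one_zpow, one_mul]
  have hEc : Nat.card E = p ^ 2 := by
    rw [← Subgroup.relIndex_bot_left E, ← Subgroup.relIndex_mul_relIndex ⊥ (Subgroup.zpowers z) E bot_le le_sup_left,
      Subgroup.relIndex_bot_left, Nat.card_zpowers, hord, pow_two]
    congr 1
    rw [show E = Subgroup.zpowers e ⊔ Subgroup.zpowers z from sup_comm _ _, Subgroup.relIndex_sup_right]
    have hd : (Subgroup.zpowers z).relIndex (Subgroup.zpowers e) ∣ p := by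
      have := Subgroup.relIndex_dvd_card (Subgroup.zpowers z) (Subgroup.zpowers e)
      rwa [Nat.card_zpowers, orderOf_eq_prime he (fun h => hne (by rw [h]; exact Subgroup.one_mem _))] at this
    refine (hp.eq_one_or_self_of_dvd _ hd).resolve_left fun h => ?_
    exact hne (Subgroup.relIndex_eq_one.1 h (Subgroup.mem_zpowers e))
  -- every element of M killed by p lies in E
  have hsub : ∀ x ∈ M, x ^ p = 1 → x ∈ E := by
    intro x hx hxp
    have hδe : δ ⟨e, heM⟩ ≠ 1 := by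
      intro h
      have : (⟨e, heM⟩ : M) ∈ δ.ker := h
      rw [hker, Subgroup.mem_subgroupOf] at this
      exact hne (hUz e this he)
    have hgen : ∀ y : Subgroup.zpowers z, ∃ k : ℕ, δ ⟨e, heM⟩ ^ k = y := by
      intro y
      haveI : Fact (Nat.card (Subgroup.zpowers z)).Prime := ⟨by rw [Nat.card_zpowers, hord]; exact hp⟩
      have h1 : Subgroup.zpowers (δ ⟨e, heM⟩) = ⊤ :=
        ((Subgroup.zpowers (δ ⟨e, heM⟩)).eq_bot_or_eq_top_of_prime_card).resolve_left (Subgroup.zpowers_ne_bot.2 hδe)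
      have h2 : y ∈ Subgroup.zpowers (δ ⟨e, heM⟩) := h1 ▸ Subgroup.mem_top y
      rw [← mem_powers_iff_mem_zpowers, Submonoid.mem_powers_iff] at h2
      exact h2
    haveI : Fact (Nat.card (Subgroup.zpowers z)).Prime := ⟨by rw [Nat.card_zpowers, hord]; exact hp⟩
    obtain ⟨k, hk⟩ := hgen (δ ⟨x, hx⟩)
    obtain ⟨a, ha⟩ : ∃ a : ℕ, x = u ^ a * e ^ k := by
      have : (⟨x, hx⟩ : M) * (⟨e, heM⟩ ^ k)⁻¹ ∈ δ.ker := by
        rw [MonoidHom.mem_ker, map_mul, map_inv, map_pow, hk, mul_inv_cancel]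
      rw [hker, Subgroup.mem_subgroupOf] at this
      rw [← mem_powers_iff_mem_zpowers, Submonoid.mem_powers_iff] at this
      obtain ⟨a, ha⟩ := this
      refine ⟨a, ?_⟩
      rw [show u ^ a = x * (e ^ k)⁻¹ from by simpa using ha, inv_mul_cancel_right]
    obtain ⟨j, hj⟩ : ∃ j : ℕ, e ^ k * u * (e ^ k)⁻¹ = u ^ (1 + j * p ^ (n' + 1)) := by
      have h1 := (hM (e ^ k)).1 (M.pow_mem heM k)
      rw [← mem_powers_iff_mem_zpowers, Submonoid.mem_powers_iff] at h1
      obtain ⟨j, hj⟩ := h1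
      refine ⟨j, ?_⟩
      rw [add_comm, pow_succ, mul_comm j, pow_mul, ← hzdef, hj, inv_mul_cancel_right]
    have h1 := CfsgLib.NormalCyclic.conj_mul_pow hj a p
    rw [← ha, hxp, show (e ^ k) ^ p = 1 from by rw [← pow_mul, mul_comm, pow_mul, he, one_pow], mul_one] at h1
    have hkl : ∀ m : ℕ, ∃ c, (1 + j * p ^ (n' + 1)) ^ m = 1 + m * j * p ^ (n' + 1) + c * p ^ (n' + 2) := by
      intro m
      induction m with
      | zero => exact ⟨0, by simp⟩
      | succ m ih =>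
        obtain ⟨c, hc⟩ := ih
        refine ⟨c + c * j * p ^ (n' + 1) + m * j * j * p ^ n', ?_⟩
        rw [pow_succ, hc]
        ring
    choose c hc using hkl
    have hsum : (∑ l ∈ Finset.range p, (1 + j * p ^ (n' + 1)) ^ l) =
        p * (1 + j * (∑ l ∈ Finset.range p, l) * p ^ n' + (∑ l ∈ Finset.range p, c l) * p ^ (n' + 1)) := by
      rw [Finset.sum_congr rfl (fun l _ => hc l), Finset.sum_add_distrib, Finset.sum_add_distrib, ← Finset.sum_mul,
        ← Finset.sum_mul, ← Finset.sum_mul]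
      simp
      ring
    have hd := orderOf_dvd_of_pow_eq_one h1.symm
    rw [hUn, hsum] at hd
    set σ := 1 + j * (∑ l ∈ Finset.range p, l) * p ^ n' + (∑ l ∈ Finset.range p, c l) * p ^ (n' + 1)
    have hσ : ¬ p ∣ σ := by
      intro h
      have h2 : p ∣ (∑ l ∈ Finset.range p, c l) * p ^ (n' + 1) := Dvd.dvd.mul_left (dvd_pow_self p (by omega)) _
      have h3 : p ∣ j * (∑ l ∈ Finset.range p, l) * p ^ n' := by
        by_cases hp2 : p = 2
        · exact Dvd.dvd.mul_left (dvd_pow_self p (by have := hn3 hp2; omega)) _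
        · exact Dvd.dvd.mul_right (CfsgLib.NormalCyclic.sum_factor hp2 hp j) _
      exact hp.ne_one (Nat.dvd_one.1 ((Nat.dvd_add_left h3).1 ((Nat.dvd_add_left h2).1 h)))
    have hd2 : p ^ (n' + 2) ∣ a * p :=
      (Nat.Coprime.pow_left _ (hp.coprime_iff_not_dvd.2 hσ)).dvd_of_dvd_mul_right (by rwa [← mul_assoc] at hd)
    rw [ha]
    refine Subgroup.mul_mem_sup ?_ (Subgroup.pow_mem _ (Subgroup.mem_zpowers e) k)
    refine hUz _ (Subgroup.pow_mem _ (Subgroup.mem_zpowers u) a) ?_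
    rw [← pow_mul]
    exact orderOf_dvd_iff_pow_eq_one.1 (hUn ▸ hd2)
  have homega : Cfsg.omegaOne p M = E := by
    refine le_antisymm ((Subgroup.closure_le _).2 fun x hx => hsub x hx.1 hx.2) (sup_le ?_ ?_)
    · refine Subgroup.zpowers_le.2 (Subgroup.subset_closure ⟨(hM z).2 ?_, hzp⟩)
      rw [show z * u * z⁻¹ * u⁻¹ = 1 from by rw [← hcz u]; group]
      exact Subgroup.one_mem _
    · exact Subgroup.zpowers_le.2 (Subgroup.subset_closure ⟨heM, he⟩)
  rw [homega]
  refine ⟨hrel, hEel, hEc, Subgroup.characteristic_iff_map_le.2 fun φ => ?_⟩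
  rw [Subgroup.map_sup, MonoidHom.map_zpowers, MonoidHom.map_zpowers]
  have hφz : φ z ∈ Subgroup.zpowers z := by
    refine hUz _ (hcenterU _ (Subgroup.mem_center_iff.2 fun g => ?_)) (by rw [← map_pow, hzp, map_one])
    obtain ⟨g', rfl⟩ := φ.surjective g
    rw [← map_mul, ← map_mul, hcz]
  refine sup_le (Subgroup.zpowers_le.2 (Subgroup.mem_sup_left hφz)) (Subgroup.zpowers_le.2 (hsub _ (hMof _ fun g => ?_) ?_))
  · obtain ⟨g', rfl⟩ := φ.surjective g
    obtain ⟨i, hi⟩ := hconj g'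
    have hi' : φ (z ^ i) = φ (e⁻¹ * (g' * e * g'⁻¹)) := congrArg φ hi
    rw [map_zpow, map_mul, map_mul, map_mul, map_inv, map_inv] at hi'
    show (φ e)⁻¹ * (φ g' * φ e * (φ g')⁻¹) ∈ Subgroup.zpowers z
    rw [← hi']
    exact Subgroup.zpow_mem _ hφz i
  · show φ e ^ p = 1
    rw [← map_pow, he, map_one]

end Cfsg.Agent.S3761
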