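import Cfsg.Statements.S3763
import Cfsg.Agent.Lib.CoreExtraspecialRank

set_option autoImplicit false
open Cfsg

namespace Cfsg.Agent.S3763

/-- Let E be an extraspecial 2-group of order 2^(2n+1). Then the largest elementary abelian subgroups of E have order 2^n or 2^(n+1); and two extraspecial 2-groups of the same order whose largest elementary abelian subgroups have the same order are isomorphic. -/
theorem result {E : Type*} [Group E] [Finite E] (hE : Cfsg.IsExtraspecial 2 E) (n : ℕ) (hn : Nat.card E = 2 ^ (2 * n + 1)) : ((Cfsg.PRankLE 2 n E ∧ ¬ Cfsg.PRankLE 2 (n - 1) E) ∨ (Cfsg.PRankLE 2 (n + 1) E ∧ ¬ Cfsg.PRankLE 2 n E)) ∧ ∀ (E' : Type*) [Group E'] [Finite E'], Cfsg.IsExtraspecial 2 E' → Nat.card E' = Nat.card E → (∀ k : ℕ, Cfsg.PRankLE 2 k E ↔ Cfsg.PRankLE 2 k E') → Nonempty (E ≃* E') := by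
  haveI : Fact (Nat.Prime 2) := ⟨Nat.prime_two⟩
  obtain ⟨z, m, h⟩ := CfsgLib.Extraspecial.exists_ex hE
  obtain rfl : n = m := by
    have := Nat.pow_right_injective le_rfl (hn.symm.trans h.card)
    omega
  have htop : Cfsg.PRankLE 2 (n + 1) E := fun A hA1 hA2 =>
    CfsgLib.Core.ExRank.card_le n h A ⟨hA1, hA2⟩
  have hlow : ¬ Cfsg.PRankLE 2 (n - 1) E := fun hr => by
    obtain ⟨A, hA, h1, h2⟩ := CfsgLib.Core.ExRank.exists_card n h
    have h3 := hr A hA.1 hA.2
    rcases Nat.eq_zero_or_pos n with rfl | hn0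
    · simp only [Nat.zero_sub, pow_zero] at h3; omega
    · have h4 := Nat.pow_lt_pow_right (show 1 < 2 by norm_num) (show n - 1 < n by omega)
      omega
  refine ⟨?_, fun E' _ _ hE' hcard hk => ?_⟩
  · by_cases hr : Cfsg.PRankLE 2 n E
    · exact Or.inl ⟨hr, hlow⟩
    · exact Or.inr ⟨htop, hr⟩
  obtain ⟨z', m', h'⟩ := CfsgLib.Extraspecial.exists_ex hE'
  obtain rfl : n = m' := by
    have := Nat.pow_right_injective le_rfl ((hcard.trans hn).symm.trans h'.card)
    omega
  obtain ⟨φ, -⟩ := CfsgLib.Core.ExRank.iso_of_type n h h' (by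
    rw [← not_iff_not, ← CfsgLib.Core.ExRank.prankLE_iff_not_plus,
      ← CfsgLib.Core.ExRank.prankLE_iff_not_plus]
    exact hk n)
  exact ⟨φ⟩

end Cfsg.Agent.S3763
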