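import Cfsg.Statements.S3764
import Cfsg.Agent.Lib.CoreHallHigmanExtraspecial

set_option autoImplicit false
open Cfsg

namespace Cfsg.Agent.S3764

/-- Let p, q, r be distinct primes and let X, Q, V be subgroups of a finite group with X of order r, Q an extraspecial q-group normalized by X with C_Q(X) = Z(Q), and V an elementary abelian p-group normalized by X and Q on which XQ acts faithfully ((X ⊔ Q) ∩ C(V) = 1). If C_V(X) = 1, then q = 2, r = 2^n + 1 for some n, and Q has order 2^(2n+1). -/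
theorem result {G : Type*} [Group G] [Finite G] {p q r : ℕ} (hp : p.Prime) (hq : q.Prime) (hr : r.Prime) (hpq : p ≠ q) (hpr : p ≠ r) (hqr : q ≠ r) (X Q V : Subgroup G) (hX : Nat.card X = r) (hQ : Cfsg.IsExtraspecial q ↥Q) (hXQ : X ≤ Subgroup.normalizer (Q : Set G)) (hCQ : Q ⊓ Subgroup.centralizer (X : Set G) = (Subgroup.center ↥Q).map Q.subtype) (hV : Cfsg.IsElementaryAbelian p V) (hXV : X ≤ Subgroup.normalizer (V : Set G)) (hQV : Q ≤ Subgroup.normalizer (V : Set G)) (hfaith : (X ⊔ Q) ⊓ Subgroup.centralizer (V : Set G) = ⊥) (hCV : V ⊓ Subgroup.centralizer (X : Set G) = ⊥) : q = 2 ∧ ∃ n : ℕ, r = 2 ^ n + 1 ∧ Nat.card Q = 2 ^ (2 * n + 1) := by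
  obtain ⟨⟨hQp, -, hcomm⟩, hZc⟩ := hQ
  haveI : Fact p.Prime := ⟨hp⟩
  haveI : Fact q.Prime := ⟨hq⟩
  have hZt : Subgroup.center ↥Q ≠ ⊤ := fun h => by
    haveI : IsMulCommutative ↥Q := ⟨⟨fun a b => Subgroup.mem_center_iff.mp (h ▸ Subgroup.mem_top b) a⟩⟩
    have h1 : commutator ↥Q = ⊥ := by
      rw [commutator_def, Subgroup.commutator_eq_bot_iff_le_centralizer]
      intro a _
      exact Subgroup.mem_centralizer_iff.mpr fun b _ =>
        Std.Commutative.comm (op := (· * ·)) b a
    rw [← hcomm, h1, Subgroup.card_bot] at hZc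
    exact hq.ne_one hZc.symm
  rcases CfsgLib.Core.HallHigmanFixed.exponent_cases hr hq hqr with hexc | ⟨rfl, n, hn⟩
  · exfalso
    have h := CfsgLib.Core.HallHigmanFixed.eq_bot_of_trivial hr hX hV hQp hpr.symm hqr hpq.symm hXQ
      hXV hQV hfaith hCV (Or.inl hexc)
    rw [inf_eq_left.mpr (Subgroup.le_centralizer_iff.mp h), eq_comm] at hCQ
    refine hZt ?_
    rw [Subgroup.eq_top_iff']
    intro a
    obtain ⟨b, hb, hba⟩ := hCQ.ge a.2
    exact (Subtype.ext hba : b = a) ▸ hb
  refine ⟨rfl, n, hn, ?_⟩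
  haveI := hV.1
  open scoped IsMulCommutative in
  obtain ⟨x, hxX, hx1⟩ := X.bot_or_exists_ne_one.resolve_left fun h => hr.ne_one (by
    rw [← hX, h, Subgroup.card_bot])
  haveI : Fact r.Prime := ⟨hr⟩
  have hox : orderOf x = r := by
    rcases (Nat.dvd_prime hr).mp (by
      rw [← hX, ← Subgroup.orderOf_mk x hxX]; exact orderOf_dvd_natCard _ : orderOf x ∣ r) with h | h
    · exact absurd (orderOf_eq_one_iff.mp h) hx1
    · exact h
  have hzX : Subgroup.zpowers x = X := Subgroup.eq_of_le_of_card_ge (Subgroup.zpowers_le.mpr hxX)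
    (by rw [Nat.card_zpowers, hox, hX])
  have hmemX : ∀ g : G, g ∈ Subgroup.centralizer (X : Set G) ↔ x * g * x⁻¹ = g := fun g => by
    rw [← hzX, Subgroup.zpowers_eq_closure, Subgroup.centralizer_closure,
      Subgroup.mem_centralizer_singleton_iff, mul_inv_eq_iff_eq_mul, eq_comm]
  letI : CommGroup ↥V := { (inferInstance : Group ↥V) with
    mul_comm := fun a b => hV.1.is_comm.comm a b }
  set L := Subgroup.normalizer (V : Set G)
  let e : ↥(Q.subgroupOf L) ≃* ↥Q := Subgroup.subgroupOfEquivOfLe hQV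
  have hcen : ∀ a, a ∈ Subgroup.center ↥(Q.subgroupOf L) ↔ e a ∈ Subgroup.center ↥Q := fun a => by
    simp only [Subgroup.mem_center_iff]
    constructor
    · intro h b
      have := congrArg e (h (e.symm b))
      simpa using this
    · intro h b
      exact e.injective (by simpa using h (e b))
  have hZc' : Nat.card (Subgroup.center ↥(Q.subgroupOf L)) = 2 :=
    (Nat.card_congr (Equiv.subtypeEquiv e.toEquiv hcen)).trans hZc
  have hmain := CfsgLib.Core.HallHigmanFixed.card_extraspecial (ℓ := p)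
    (fun v : ↥V => Subtype.ext (hV.2 v v.2)) V.normalizerMonoidHom (x := ⟨x, hXV hxX⟩) hr
    (Subtype.ext (by show x ^ r = 1; rw [← hox, pow_orderOf_eq_one])) hpr.symm
    (fun v hv => by
      have h1 : x * (v : G) * x⁻¹ = v := congrArg Subtype.val hv
      have h2 : (v : G) ∈ V ⊓ Subgroup.centralizer (X : Set G) := ⟨v.2, (hmemX _).mpr h1⟩
      rw [hCV, Subgroup.mem_bot] at h2
      exact Subtype.ext h2)
    (s := 2) hqr hpq.symm (Q.subgroupOf L) (hQp.comap_subtype (K := L)) hZc'
    (fun a b => (hcen _).mpr (by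
      rw [← hcomm, map_commutatorElement, commutator_def]
      exact Subgroup.commutator_mem_commutator (Subgroup.mem_top _) (Subgroup.mem_top _)))
    (fun h => hZt (by
      rw [Subgroup.eq_top_iff'] at h ⊢
      intro a
      have := (hcen (e.symm a)).mp (h _)
      simpa using this))
    (fun a ha => (Subgroup.mem_normalizer_iff.mp (hXQ hxX) a).mp ha)
    (fun a => by
      rw [hcen]
      constructor
      · intro h
        have h1 : ((a : L) : G) ∈ Q ⊓ Subgroup.centralizer (X : Set G) :=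
          ⟨a.2, (hmemX _).mpr (congrArg Subtype.val h)⟩
        rw [hCQ] at h1
        obtain ⟨b, hb, hba⟩ := h1
        exact (Subtype.ext hba : b = e a) ▸ hb
      · intro h
        refine Subtype.ext ((hmemX _).mp ?_)
        have h1 : ((a : L) : G) ∈ (Subgroup.center ↥Q).map Q.subtype := ⟨e a, h, rfl⟩
        rw [← hCQ] at h1
        exact h1.2)
    (fun a ha h => by
      have h1 : a ∈ V.normalizerMonoidHom.ker := h
      rw [Subgroup.normalizerMonoidHom_ker] at h1
      have h2 : (a : G) ∈ (X ⊔ Q) ⊓ Subgroup.centralizer (V : Set G) := ⟨Subgroup.mem_sup_right ha, h1⟩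
      rw [hfaith, Subgroup.mem_bot] at h2
      exact Subtype.ext h2)
  rw [← Nat.card_congr e.toEquiv, Subgroup.card_eq_card_quotient_mul_card_subgroup
    (Subgroup.center ↥(Q.subgroupOf L)), hmain, hZc', hn, Nat.add_sub_cancel]
  ring

end Cfsg.Agent.S3764
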