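import Cfsg.Statements.S3766
import Cfsg.Agent.Lib.CoreFitting
import Cfsg.Agent.Lib.CoreSZ

set_option autoImplicit false
open Cfsg

namespace Cfsg.Agent.S3766

/-- Let G be a finite solvable group and N a normal subgroup of G. Call a pair V < U of normal subgroups of G a chief factor of G when no normal subgroup of G lies strictly between them; an element g centralizes the chief factor U/V when u g u⁻¹ g⁻¹ ∈ V for all u ∈ U. Then an element of G lies in the Fitting subgroup F(N) if and only if it lies in N and centralizes every chief factor of G; and also if and only if it lies in N and centralizes every chief factor U/V of G with U ≤ F(N). -/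
theorem result {G : Type*} [Group G] [Finite G] (hG : Group.IsSolvable G) (N : Subgroup G) [N.Normal] (g : G) : (g ∈ (Cfsg.fittingSubgroup ↥N).map N.subtype ↔ g ∈ N ∧ ∀ U V : Subgroup G, (U.Normal ∧ V.Normal ∧ V < U ∧ ∀ W : Subgroup G, W.Normal → V ≤ W → W ≤ U → W = V ∨ W = U) → ∀ u ∈ U, u * g * u⁻¹ * g⁻¹ ∈ V) ∧ (g ∈ (Cfsg.fittingSubgroup ↥N).map N.subtype ↔ g ∈ N ∧ ∀ U V : Subgroup G, (U.Normal ∧ V.Normal ∧ V < U ∧ ∀ W : Subgroup G, W.Normal → V ≤ W → W ≤ U → W = V ∨ W = U) → U ≤ (Cfsg.fittingSubgroup ↥N).map N.subtype → ∀ u ∈ U, u * g * u⁻¹ * g⁻¹ ∈ V) := by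
  set F := (Cfsg.fittingSubgroup ↥N).map N.subtype with hF
  haveI : (Cfsg.fittingSubgroup ↥N).Characteristic := CfsgLib.Core.characteristic_fittingSubgroup
  haveI hFn : F.Normal :=
    CfsgLib.Core.map_subtype_normal_of_characteristic inferInstance
      CfsgLib.Core.characteristic_fittingSubgroup
  haveI hFnil : Group.IsNilpotent ↥F := by
    haveI := CfsgLib.Core.isNilpotent_fittingSubgroup (G := ↥N)
    exact Group.nilpotent_of_mulEquiv
      ((Cfsg.fittingSubgroup ↥N).equivMapOfInjective N.subtype N.subtype_injective)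
  have hFN : F ≤ N := Subgroup.map_subtype_le _
  obtain ⟨c, hc⟩ := (Subgroup.isNilpotent_iff_lowerCentralSeries F).1 hFnil
  -- the forward direction
  have fwd : ∀ x ∈ F, ∀ U V : Subgroup G,
      (U.Normal ∧ V.Normal ∧ V < U ∧ ∀ W : Subgroup G, W.Normal → V ≤ W → W ≤ U → W = V ∨ W = U) →
      ∀ u ∈ U, u * x * u⁻¹ * x⁻¹ ∈ V := by
    rintro x hx U V ⟨hUn, hVn, hVU, hmin⟩ u hu
    haveI := hUn
    haveI := hVn
    have hle : ⁅U, F⁆ ⊔ V ≤ U := sup_le (Subgroup.commutator_le_left U F) hVU.le
    rcases hmin (⁅U, F⁆ ⊔ V) inferInstance le_sup_right hle with h | h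
    · exact h ▸ Subgroup.mem_sup_left (Subgroup.commutator_mem_commutator hu hx)
    · exfalso
      have key : ∀ i, U ≤ F.lowerCentralSeries i ⊔ V := by
        intro i
        induction i with
        | zero =>
          rw [Subgroup.lowerCentralSeries_zero]
          exact h.ge.trans (sup_le_sup_right (Subgroup.commutator_le_right U F) V)
        | succ i ih =>
          rw [Subgroup.lowerCentralSeries_succ]
          refine h.ge.trans (sup_le ((Subgroup.commutator_mono ih le_rfl).trans ?_) le_sup_right)
          refine le_trans ((Subgroup.map_le_map_iff (f := QuotientGroup.mk' V)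
            (H := ⁅F.lowerCentralSeries i ⊔ V, F⁆) (K := ⁅F.lowerCentralSeries i, F⁆)).1 ?_)
            (by rw [QuotientGroup.ker_mk'])
          rw [Subgroup.map_commutator, Subgroup.map_commutator, Subgroup.map_sup,
            QuotientGroup.map_mk'_self, sup_bot_eq]
      have h1 := key c
      rw [hc, bot_sup_eq] at h1
      exact absurd (le_antisymm h1 hVU.le) hVU.ne'
  -- the converse
  have bwd : g ∈ N → (∀ U V : Subgroup G,
      (U.Normal ∧ V.Normal ∧ V < U ∧ ∀ W : Subgroup G, W.Normal → V ≤ W → W ≤ U → W = V ∨ W = U) →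
      U ≤ F → ∀ u ∈ U, u * g * u⁻¹ * g⁻¹ ∈ V) → g ∈ F := by
    intro hgN hgc
    set S : Set G := {x | x ∈ N ∧ ∀ U V : Subgroup G,
      (U.Normal ∧ V.Normal ∧ V < U ∧ ∀ W : Subgroup G, W.Normal → V ≤ W → W ≤ U → W = V ∨ W = U) →
      U ≤ F → ∀ u ∈ U, u * x * u⁻¹ * x⁻¹ ∈ V}
    set K := Subgroup.normalClosure S with hK
    have hSN : K ≤ N := Subgroup.normalClosure_le_normal fun x hx => hx.1
    have hKc : ∀ U V : Subgroup G,
        (U.Normal ∧ V.Normal ∧ V < U ∧ ∀ W : Subgroup G, W.Normal → V ≤ W → W ≤ U → W = V ∨ W = U) →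
        U ≤ F → ⁅U, K⁆ ≤ V := by
      intro U V hUV hUF
      haveI := hUV.1
      haveI := hUV.2.1
      set π := QuotientGroup.mk' V
      haveI hUmn : (U.map π).Normal := Subgroup.Normal.map inferInstance π (QuotientGroup.mk'_surjective V)
      have h1 : K ≤ (Subgroup.centralizer ((U.map π : Subgroup (G ⧸ V)) : Set (G ⧸ V))).comap π := by
        refine Subgroup.normalClosure_le_normal fun x hx => ?_
        rw [SetLike.mem_coe, Subgroup.mem_comap, Subgroup.mem_centralizer_iff]
        rintro _ ⟨u, hu, rfl⟩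
        have h2 : π (u * x * u⁻¹ * x⁻¹) = 1 := (QuotientGroup.eq_one_iff _).2 (hx.2 U V hUV hUF u hu)
        rw [map_mul, map_mul, map_mul, map_inv, map_inv, mul_inv_eq_one, mul_inv_eq_iff_eq_mul] at h2
        exact h2
      rw [← QuotientGroup.ker_mk' V, ← Subgroup.map_eq_bot_iff, Subgroup.map_commutator,
        Subgroup.commutator_eq_bot_iff_le_centralizer, Subgroup.le_centralizer_iff,
        Subgroup.map_le_iff_le_comap]
      exact h1
    have hFK : F ≤ K := fun x hx => Subgroup.subset_normalClosure
      ⟨hFN hx, fun U V h _ => fwd x hx U V h⟩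
    have hKF : K ≤ F := by
      by_contra hne
      haveI := hG
      obtain ⟨j, hj⟩ := (Group.isSolvable_def _).1
        (Group.isSolvable_of_isSolvable_injective K.subtype_injective)
      -- the last derived subgroup not contained in `F`
      have hder : ∃ i, (derivedSeries ↥K i).map K.subtype ≤ F :=
        ⟨j, by rw [hj, Subgroup.map_bot]; exact bot_le⟩
      classical
      obtain ⟨i, hi⟩ : ∃ i, Nat.find hder = i + 1 := by
        refine ⟨Nat.find hder - 1, (Nat.succ_pred_eq_of_ne_zero fun h0 => hne ?_).symm⟩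
        have := Nat.find_spec hder
        rw [h0, derivedSeries_zero, ← MonoidHom.range_eq_map, Subgroup.range_subtype] at this
        exact this
      set D := (derivedSeries ↥K i).map K.subtype with hD
      have hDF : ¬ D ≤ F := Nat.find_min hder (by omega)
      have hDD : ⁅D, D⁆ ≤ F := by
        rw [hD, ← Subgroup.map_commutator, ← derivedSeries_succ]
        have := Nat.find_spec hder
        rwa [hi] at this
      haveI hDn : D.Normal :=
        CfsgLib.Core.map_subtype_normal_of_characteristic inferInstance (derivedSeries_characteristic ↥K i)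
      set E := D ⊔ F with hE
      have hEK : E ≤ K := sup_le (Subgroup.map_subtype_le _) hFK
      have hEE : ⁅E, E⁆ ≤ F := by
        rw [← QuotientGroup.ker_mk' F, ← Subgroup.map_eq_bot_iff, Subgroup.map_commutator, hE,
          Subgroup.map_sup, QuotientGroup.map_mk'_self, sup_bot_eq, ← Subgroup.map_commutator,
          Subgroup.map_eq_bot_iff, QuotientGroup.ker_mk']
        exact hDD
      -- `E` is nilpotent
      have key : ∀ m : ℕ, ∀ U : Subgroup G, U.Normal → U ≤ F → Nat.card U ≤ m →
          ∀ i, E.lowerCentralSeries i ≤ U → ∃ k, E.lowerCentralSeries k = ⊥ := by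
        intro m
        induction m with
        | zero =>
          intro U _ _ hU
          have := Nat.card_pos (α := U)
          omega
        | succ m ih =>
          intro U hUn hUF hUm i hiU
          by_cases hU1 : U = ⊥
          · exact ⟨i, le_bot_iff.1 (hU1 ▸ hiU)⟩
          obtain ⟨V, ⟨hVn, hVU⟩, hVmax⟩ :=
            (Set.toFinite {V : Subgroup G | V.Normal ∧ V < U}).exists_maximal
              ⟨⊥, inferInstance, bot_lt_iff_ne_bot.2 hU1⟩
          have hchief : ∀ W : Subgroup G, W.Normal → V ≤ W → W ≤ U → W = V ∨ W = U := by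
            intro W hW hVW hWU
            by_cases hWe : W = U
            · exact Or.inr hWe
            · exact Or.inl (le_antisymm (hVmax ⟨hW, lt_of_le_of_ne hWU hWe⟩ hVW) hVW)
          refine ih V hVn (hVU.le.trans hUF) ?_ (i + 1) ?_
          · have := Set.Finite.card_lt_card (Set.toFinite (U : Set G)) (SetLike.coe_ssubset_coe.2 hVU)
            simp only [SetLike.coe_sort_coe] at this
            omega
          · rw [Subgroup.lowerCentralSeries_succ]
            exact (Subgroup.commutator_mono hiU hEK).trans (hKc U V ⟨hUn, hVn, hVU, hchief⟩ hUF)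
      obtain ⟨k, hk⟩ := key _ F hFn le_rfl le_rfl 1 (by
        rw [Subgroup.lowerCentralSeries_succ, Subgroup.lowerCentralSeries_zero]; exact hEE)
      haveI hEnil : Group.IsNilpotent ↥E := (Subgroup.isNilpotent_iff_lowerCentralSeries E).2 ⟨k, hk⟩
      have hEN : E ≤ N := hEK.trans hSN
      haveI : Group.IsNilpotent ↥(E.subgroupOf N) :=
        Group.nilpotent_of_mulEquiv (Subgroup.subgroupOfEquivOfLe hEN).symm
      have h1 := CfsgLib.Core.le_fittingSubgroup ((inferInstance : E.Normal).subgroupOf N) inferInstance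
      refine hDF (le_trans (le_sup_left : D ≤ D ⊔ F) ?_)
      rw [← hE, ← Subgroup.map_subgroupOf_eq_of_le hEN]
      exact Subgroup.map_mono h1
    exact hKF (Subgroup.subset_normalClosure ⟨hgN, hgc⟩)
  exact ⟨⟨fun h => ⟨hFN h, fwd g h⟩, fun h => bwd h.1 fun U V hUV _ => h.2 U V hUV⟩,
    ⟨fun h => ⟨hFN h, fun U V hUV _ => fwd g h U V hUV⟩, fun h => bwd h.1 h.2⟩⟩

end Cfsg.Agent.S3766
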