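import Cfsg.Statements.S3768
import Cfsg.Agent.Lib.CoreFrobenius

set_option autoImplicit false
open Cfsg

set_option maxHeartbeats 400000

open scoped Pointwise

namespace Cfsg.Agent.S3768

/-- Let G be a finite Frobenius group with Frobenius complement R and Frobenius kernel K (the identity together with the elements in no conjugate of R), and let N be a normal subgroup of G not containing K. Then G/N is a Frobenius group with Frobenius complement RN/N whose Frobenius kernel is the image of K. -/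
theorem result {G : Type*} [Group G] [Finite G] (R : Subgroup G) (hR : Cfsg.IsFrobeniusComplement R) (N : Subgroup G) [N.Normal] (hKN : ¬ Cfsg.frobeniusKernel R ⊆ N) : Cfsg.IsFrobeniusComplement (R.map (QuotientGroup.mk' N)) ∧ Cfsg.frobeniusKernel (R.map (QuotientGroup.mk' N)) = QuotientGroup.mk' N '' Cfsg.frobeniusKernel R := by
  classical
  obtain ⟨K, hKn, hK, hKR, hKRtop, hKc⟩ := CfsgLib.Core.exists_kernel hR
  haveI := hKn
  rw [← hK] at hKN ⊢
  have hfpf : ∀ r ∈ R, r ≠ 1 → ∀ k ∈ K, r * k = k * r → k = 1 := fun r hr hr1 k hk h =>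
    CfsgLib.Core.eq_one_of_commute_kernel hR hKR hr hr1 hk h
  have hcK : ∀ r k : G, k ∈ K → r * k * r⁻¹ * k⁻¹ ∈ K := fun r k hk =>
    mul_mem (hKn.conj_mem k hk r) (inv_mem hk)
  have hinj : ∀ r ∈ R, r ≠ 1 → ∀ k ∈ K, ∀ l ∈ K,
      r * k * r⁻¹ * k⁻¹ = r * l * r⁻¹ * l⁻¹ → k = l := by
    intro r hr hr1 k hk l hl h
    have h1 : r * (l⁻¹ * k) = l⁻¹ * k * r := by
      calc r * (l⁻¹ * k) = r * l⁻¹ * r⁻¹ * (r * k * r⁻¹ * k⁻¹) * k * r := by group
        _ = r * l⁻¹ * r⁻¹ * (r * l * r⁻¹ * l⁻¹) * k * r := by rw [h]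
        _ = l⁻¹ * k * r := by group
    exact (inv_mul_eq_one.mp (hfpf r hr hr1 _ (mul_mem (inv_mem hl) hk) h1)).symm
  have hNR : N ⊓ R = ⊥ := by
    rw [eq_bot_iff]
    rintro r ⟨hrN, hrR⟩
    by_contra hr1
    rw [Subgroup.mem_bot] at hr1
    let f : ↥K → ↥K := fun k => ⟨r * k.1 * r⁻¹ * k.1⁻¹, hcK r k.1 k.2⟩
    have hf : Function.Surjective f := Finite.surjective_of_injective fun a b h =>
      Subtype.ext (hinj r hrR hr1 a.1 a.2 b.1 b.2 (congrArg Subtype.val h))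
    refine hKN fun k hk => ?_
    obtain ⟨l, hl⟩ := hf ⟨k, hk⟩
    have e : r * l.1 * r⁻¹ * l.1⁻¹ = k := congrArg Subtype.val hl
    rw [SetLike.mem_coe, ← e, mul_assoc, mul_assoc]
    refine mul_mem hrN ?_
    rw [← mul_assoc]
    exact ‹N.Normal›.conj_mem _ (inv_mem hrN) l.1
  have hNK : N ≤ K := by
    intro n hn
    rw [← SetLike.mem_coe, hK]
    by_cases hn1 : n = 1
    · exact Or.inl hn1
    refine Or.inr fun g hg => hn1 ?_
    rw [CfsgLib.Core.mem_conj_smul] at hg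
    have h1 : g⁻¹ * n * g ∈ N ⊓ R := Subgroup.mem_inf.mpr
      ⟨by simpa using ‹N.Normal›.conj_mem n hn g⁻¹, hg⟩
    rw [hNR, Subgroup.mem_bot] at h1
    calc n = g * (g⁻¹ * n * g) * g⁻¹ := by group
      _ = 1 := by rw [h1]; group
  set π := QuotientGroup.mk' N
  have hsurj := QuotientGroup.mk'_surjective N
  set Kb := K.map π
  set Rb := R.map π
  haveI : Kb.Normal := hKn.map π hsurj
  have hdisj : Kb ⊓ Rb = ⊥ := by
    rw [eq_bot_iff]
    rintro _ ⟨⟨k, hk, rfl⟩, ⟨r, hr, hrk⟩⟩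
    have h1 : r⁻¹ * k ∈ N := (QuotientGroup.eq (s := N)).mp hrk
    have h2 : r ∈ K := by
      have := mul_mem hk (inv_mem (hNK h1))
      simpa using this
    have hr1 : r = 1 := Subgroup.mem_bot.mp (hKR ▸ Subgroup.mem_inf.mpr ⟨h2, hr⟩)
    rw [Subgroup.mem_bot, ← hrk, hr1, map_one]
  have hc : Subgroup.IsComplement' Kb Rb := by
    refine Subgroup.isComplement'_of_disjoint_and_mul_eq_univ (disjoint_iff.mpr hdisj) ?_
    rw [← Subgroup.normal_mul, Set.eq_univ_iff_forall]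
    intro y
    have h : Kb ⊔ Rb = ⊤ := by
      rw [← Subgroup.map_sup, hKRtop, Subgroup.map_top_of_surjective _ hsurj]
    rw [SetLike.mem_coe, h]; trivial
  have hFC : Cfsg.IsFrobeniusComplement Rb := by
    refine CfsgLib.Core.isFrobeniusComplement_of_fpf hc (fun h => hKN ?_) (fun h => hR.1 ?_) ?_
    · rw [Subgroup.map_eq_bot_iff, QuotientGroup.ker_mk'] at h
      exact h
    · rw [Subgroup.map_eq_bot_iff, QuotientGroup.ker_mk'] at h
      rw [eq_bot_iff, ← hNR]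
      exact le_inf h le_rfl
    · rintro _ ⟨r, hr, rfl⟩ hr1 _ ⟨k, hk, rfl⟩ h
      have hr1' : r ≠ 1 := fun e => hr1 (by rw [e, map_one])
      have h1 : r * k * r⁻¹ * k⁻¹ ∈ N := by
        rw [← QuotientGroup.eq_one_iff]
        show π (r * k * r⁻¹ * k⁻¹) = 1
        rw [map_mul, map_mul, map_mul, h, ← map_mul, ← map_mul, ← map_mul]
        simp
      let f : ↥N → ↥N := fun n => ⟨r * n.1 * r⁻¹ * n.1⁻¹,
        mul_mem (‹N.Normal›.conj_mem n.1 n.2 r) (inv_mem n.2)⟩
      have hf : Function.Surjective f := Finite.surjective_of_injective fun a b h =>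
        Subtype.ext (hinj r hr hr1' a.1 (hNK a.2) b.1 (hNK b.2) (congrArg Subtype.val h))
      obtain ⟨n, hn⟩ := hf ⟨_, h1⟩
      have := hinj r hr hr1' n.1 (hNK n.2) k hk (congrArg Subtype.val hn)
      exact (QuotientGroup.eq_one_iff k).mpr (this ▸ n.2)
  refine ⟨hFC, ?_⟩
  obtain ⟨K', -, hK', -, -, hK'c⟩ := CfsgLib.Core.exists_kernel hFC
  have hle : Kb ≤ K' := by
    intro y hy
    rw [← SetLike.mem_coe, hK']
    by_cases hy1 : y = 1
    · exact Or.inl hy1
    refine Or.inr fun g hg => hy1 ?_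
    rw [CfsgLib.Core.mem_conj_smul] at hg
    have h1 : g⁻¹ * y * g ∈ Kb ⊓ Rb := Subgroup.mem_inf.mpr
      ⟨by simpa using Subgroup.Normal.conj_mem ‹Kb.Normal› y hy g⁻¹, hg⟩
    rw [hdisj, Subgroup.mem_bot] at h1
    calc y = g * (g⁻¹ * y * g) * g⁻¹ := by group
      _ = 1 := by rw [h1]; group
  have heq : Kb = K' := Subgroup.eq_of_le_of_card_ge hle
    (by rw [hK'c, hc.index_eq_card])
  rw [← hK', ← heq]
  rfl

end Cfsg.Agent.S3768
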