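import Cfsg.Statements.S3769
import Cfsg.Agent.Lib.CoreHallHigmanFixed

set_option autoImplicit false
open Cfsg

namespace Cfsg.Agent.S3769

/-- Let G and V be subgroups of a finite group with G solvable of odd order normalizing V, V an elementary abelian ℓ-group for a prime ℓ not dividing the order of G, and suppose G has a normal Hall subgroup K with a complement R of prime order. If C_V(R) = 1, then [R, K] centralizes V. -/
theorem result {X : Type*} [Group X] [Finite X] (G : Subgroup X) (hsolv : Group.IsSolvable G) (hodd : Odd (Nat.card G)) (V : Subgroup X) {ℓ : ℕ} (hℓ : ℓ.Prime) (hV : Cfsg.IsElementaryAbelian ℓ V) (hℓG : ¬ ℓ ∣ Nat.card G) (hGV : G ≤ Subgroup.normalizer (V : Set X)) (K R : Subgroup X) (hKG : K ≤ G) (hKn : G ≤ Subgroup.normalizer (K : Set X)) (hHall : (Nat.card K).Coprime (K.relIndex G)) (hRG : R ≤ G) (hR : (Nat.card R).Prime) (hKR : K ⊓ R = ⊥) (hKRG : K ⊔ R = G) (hCV : V ⊓ Subgroup.centralizer (R : Set X) = ⊥) : ⁅R, K⁆ ≤ Subgroup.centralizer (V : Set X) := by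
  haveI : Fact ℓ.Prime := ⟨hℓ⟩
  have hRK : R ≤ Subgroup.normalizer (K : Set X) := hRG.trans hKn
  have hKrel : K.relIndex G = Nat.card R := by
    have h1 := CfsgLib.Core.relIndex_sup_eq_of_le_normalizer hRK
    rw [sup_comm, hKRG] at h1
    have h2 := CfsgLib.Core.card_inf_mul_relIndex K R
    rw [hKR, Subgroup.card_bot, one_mul] at h2
    rw [h1, h2]
  have hcop : (Nat.card R).Coprime (Nat.card K) := by
    rw [← hKrel]
    exact hHall.symm
  haveI : Group.IsSolvable K := solvable_of_solvable_injective (Subgroup.inclusion_injective hKG)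
  set C := Subgroup.centralizer (V : Set X) with hC
  have hGC : G ≤ Subgroup.normalizer (C : Set X) := CfsgLib.Core.le_normalizer_centralizer hGV
  -- the elements of `K` centralized by `R` modulo `C`
  let K' : Subgroup X :=
    { carrier := {k | k ∈ K ∧ ∀ x ∈ R, x * k * x⁻¹ * k⁻¹ ∈ C}
      one_mem' := ⟨one_mem K, fun x _ => by simp⟩
      mul_mem' := by
        rintro a b ⟨ha, ha'⟩ ⟨hb, hb'⟩
        refine ⟨mul_mem ha hb, fun x hx => ?_⟩
        have := mul_mem (ha' x hx) ((Subgroup.mem_normalizer_iff.mp (hGC (hKG ha)) _).mp (hb' x hx))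
        convert this using 1
        group
      inv_mem' := by
        rintro a ⟨ha, ha'⟩
        refine ⟨inv_mem ha, fun x hx => ?_⟩
        have := (Subgroup.mem_normalizer_iff''.mp (hGC (hKG ha)) _).mp (inv_mem (ha' x hx))
        convert this using 1
        group }
  have hle : K' ≤ K := fun k hk => hk.1
  have hKK : K ≤ K' := by
    rw [← Subgroup.relIndex_eq_one]
    refine Nat.eq_one_iff_not_exists_prime_dvd.mpr fun s hs hd => ?_
    haveI : Fact s.Prime := ⟨hs⟩
    obtain ⟨P, hP⟩ := CfsgLib.Core.exists_invariant_sylow s hRK hcop (Or.inr inferInstance)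
    have hsG : s ∣ Nat.card G :=
      (hd.trans (Dvd.intro_left _ (CfsgLib.Core.card_mul_relIndex hle))).trans
        (Subgroup.card_dvd_of_le hKG)
    have hRG' : Nat.card R ∣ Nat.card G := Subgroup.card_dvd_of_le hRG
    have hsK : s ∣ Nat.card K := hd.trans (Dvd.intro_left _ (CfsgLib.Core.card_mul_relIndex hle))
    have hsr : s ≠ Nat.card R := fun e => hs.ne_one
      (Nat.eq_one_of_dvd_coprimes hcop (e ▸ dvd_rfl) hsK)
    have hmem := CfsgLib.Core.HallHigmanFixed.commutator_mem_centralizer (s := s) (Q := (P : Subgroup K).map K.subtype)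
      hR rfl hV (P.2.map _) (fun e => hℓG (e ▸ hRG')) hsr (fun e => hℓG (e ▸ hsG)) hP
      (hRG.trans hGV) (((Subgroup.map_subtype_le _).trans hKG).trans hGV) hCV ?_
    · have hPK : (P : Subgroup K) ≤ K'.subgroupOf K := fun k hk =>
        ⟨k.2, fun x hx => hmem x hx _ ⟨k, hk, rfl⟩⟩
      exact P.not_dvd_index (hd.trans (Subgroup.index_dvd_of_le hPK))
    · rcases CfsgLib.Core.HallHigmanFixed.exponent_cases hR hs hsr with h | ⟨h, -⟩
      · exact Or.inl h
      · exfalso
        subst h
        exact (Nat.not_even_iff_odd.mpr hodd) (even_iff_two_dvd.mpr hsG)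
  rw [Subgroup.commutator_le]
  intro x hx k hk
  rw [commutatorElement_def]
  exact (hKK hk).2 x hx

end Cfsg.Agent.S3769
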