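import Cfsg.Statements.S3770
import Cfsg.Agent.Lib.CoreOneFixedLine

set_option autoImplicit false
open Cfsg

namespace Cfsg.Agent.S3770

/-- Let G and V be subgroups of a finite group with G a Frobenius group with complement R of prime order and kernel K, G normalizing V, and V an elementary abelian ℓ-group for a prime ℓ not dividing the order of G. If C_V(R) has order ℓ, then the derived subgroup of K centralizes V. -/
theorem result {X : Type*} [Group X] [Finite X] (G : Subgroup X) (V : Subgroup X) {ℓ : ℕ} (hℓ : ℓ.Prime) (hV : Cfsg.IsElementaryAbelian ℓ V) (hℓG : ¬ ℓ ∣ Nat.card G) (hGV : G ≤ Subgroup.normalizer (V : Set X)) (R : Subgroup ↥G) (hR : Cfsg.IsFrobeniusComplement R) (hRp : (Nat.card R).Prime) (hCV : Nat.card ↥(V ⊓ Subgroup.centralizer ((R.map G.subtype : Subgroup X) : Set X)) = ℓ) : ⁅Subgroup.closure (Subtype.val '' Cfsg.frobeniusKernel R), Subgroup.closure (Subtype.val '' Cfsg.frobeniusKernel R)⁆ ≤ Subgroup.centralizer (V : Set X) := by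
  haveI : Fact ℓ.Prime := ⟨hℓ⟩
  obtain ⟨K, hK, hKset, hKR, -, -⟩ := CfsgLib.Core.exists_kernel hR
  have hcl : Subgroup.closure (Subtype.val '' Cfsg.frobeniusKernel R) = K.map G.subtype := by
    rw [← hKset]
    exact (congrArg Subgroup.closure (Subgroup.coe_map G.subtype K).symm).trans (Subgroup.closure_eq _)
  rw [hcl]
  obtain ⟨x, hxR, hx1⟩ := R.bot_or_exists_ne_one.resolve_left hR.1
  haveI : Fact (Nat.card R).Prime := ⟨hRp⟩
  have hox : orderOf x = Nat.card R := by
    rcases (Nat.dvd_prime hRp).mp (by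
      rw [← Subgroup.orderOf_mk x hxR]; exact orderOf_dvd_natCard _ : orderOf x ∣ Nat.card R) with h | h
    · exact absurd (orderOf_eq_one_iff.mp h) hx1
    · exact h
  have hzR : Subgroup.zpowers x = R := Subgroup.eq_of_le_of_card_ge (Subgroup.zpowers_le.mpr hxR)
    (by rw [Nat.card_zpowers, hox])
  have hxr : x ^ Nat.card R = 1 := by rw [← hox, pow_orderOf_eq_one]
  letI : CommGroup ↥V := { (inferInstance : Group ↥V) with
    mul_comm := fun a b => hV.1.is_comm.comm a b }
  let a : MulAut ↥K := MulAut.conjNormal x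
  have ha : ∀ m : K, (a m : G) = x * (m : G) * x⁻¹ := fun m => MulAut.conjNormal_apply x m
  have hfpf : ∀ m, a m = m → m = 1 := fun m hm => by
    have h1 : x * (m : G) * x⁻¹ = m := (ha m).symm.trans (congrArg Subtype.val hm)
    exact Subtype.ext (CfsgLib.Core.eq_one_of_commute_kernel hR hKR hxR hx1 m.2
      (mul_inv_eq_iff_eq_mul.mp h1))
  haveI : Group.IsNilpotent ↥K := CfsgLib.Core.isNilpotent_of_fpf_prime hRp (Nat.card K) ↥K le_rfl a
    (by
      show MulAut.conjNormal x ^ Nat.card R = 1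
      rw [← map_pow, hxr, map_one]) hfpf
  let f₀ : ↥G →* MulAut ↥V := V.normalizerMonoidHom.comp (Subgroup.inclusion hGV)
  have hf₀ : ∀ g : ↥G, f₀ g = 1 → (g : X) ∈ Subgroup.centralizer (V : Set X) := fun g hg => by
    have h1 : Subgroup.inclusion hGV g ∈ V.normalizerMonoidHom.ker := hg
    rwa [Subgroup.normalizerMonoidHom_ker] at h1
  have hmain := CfsgLib.Core.OneFixedLine.commutator_trivial (ℓ := ℓ)
    (fun v : ↥V => Subtype.ext (hV.2 v v.2))
    (fun hd => hℓG (hd.trans (Subgroup.card_subgroup_dvd_card K)))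
    (f₀.comp K.subtype) a (f₀ x) hRp
    (fun h => hℓG (h ▸ Subgroup.card_subgroup_dvd_card R))
    (by rw [← map_pow, hxr, map_one])
    (fun m => by
      show f₀ (a m : G) = f₀ x * f₀ m * (f₀ x)⁻¹
      rw [ha, map_mul, map_mul, map_inv])
    hfpf (by
      rw [← hCV]
      refine Nat.card_le_card_of_injective (fun v => (⟨((v : ↥V) : X), (v : ↥V).2, ?_⟩ :
        ↥(V ⊓ Subgroup.centralizer ((R.map G.subtype : Subgroup X) : Set X)))) ?_
      · have h1 : (x : X) * ((v : ↥V) : X) * (x : X)⁻¹ = ((v : ↥V) : X) := congrArg Subtype.val v.2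
        rw [← hzR, MonoidHom.map_zpowers, Subgroup.zpowers_eq_closure, Subgroup.centralizer_closure]
        exact Subgroup.mem_centralizer_singleton_iff.mpr (mul_inv_eq_iff_eq_mul.mp h1).symm
      · intro v w h
        exact Subtype.ext (Subtype.ext (Subtype.ext_iff.mp h :)))
  rw [← Subgroup.map_commutator]
  rintro _ ⟨g, hg, rfl⟩
  have hcomm : ⁅K, K⁆ = (commutator ↥K).map K.subtype := by
    rw [_root_.commutator_def, Subgroup.map_commutator, ← MonoidHom.range_eq_map, Subgroup.range_subtype]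
  rw [SetLike.mem_coe, hcomm] at hg
  obtain ⟨m, hm, rfl⟩ := hg
  exact hf₀ _ (hmain m hm)

end Cfsg.Agent.S3770
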