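import Cfsg.Statements.S3771
import Cfsg.Agent.Lib.ZStarTwoGroup
import Cfsg.Agent.Lib.InvolBasic

set_option autoImplicit false
open Cfsg

namespace Cfsg.Agent.S3771

/-- Let p be a prime and R a finite p-group of p-rank at most 2 (no elementary abelian subgroup of order p³) in which every element has order dividing p. Then R has order at most p³. -/
theorem result {R : Type*} [Group R] [Finite R] {p : ℕ} [Fact p.Prime] (hR : IsPGroup p R) (hrank : Cfsg.PRankLE p 2 R) (hexp : ∀ x : R, x ^ p = 1) : Nat.card R ≤ p ^ 3 := by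
  have hp := (Fact.out : p.Prime)
  obtain ⟨A, hAn, hAc, hAself⟩ := CfsgLib.TwoGroup.exists_self_centralizing hR
  haveI := hAn
  have hA2 : Nat.card A ≤ p ^ 2 := hrank A ⟨⟨fun u v => Subtype.ext (hAc u u.2 v v.2)⟩⟩ fun a _ => hexp a
  have hp23 : p ^ 2 ≤ p ^ 3 := Nat.pow_le_pow_right hp.pos (by norm_num)
  -- split on a central element
  by_cases hcen : A ≤ Subgroup.center R
  · have : (⊤ : Subgroup R) ≤ A := fun r _ => hAself (Subgroup.mem_centralizer_iff.2 fun a ha =>
      ((Subgroup.mem_center_iff.1 (hcen ha)) r).symm)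
    rw [top_le_iff] at this
    rw [this, Subgroup.card_top] at hA2
    exact hA2.trans hp23
  · obtain ⟨a, haA, hac⟩ := SetLike.not_le_iff_exists.1 hcen
    have hA1 : A ≠ ⊥ := fun e => hac (by rw [e, Subgroup.mem_bot] at haA; rw [haA]; exact one_mem _)
    haveI := hR.isNilpotent
    obtain ⟨z, hz, hz1⟩ : ∃ z ∈ A ⊓ Subgroup.center R, z ≠ 1 := by
      by_contra hcon
      push Not at hcon
      exact CfsgLib.Core.nilpotent_inf_center_ne_bot hA1 ((Subgroup.eq_bot_iff_forall _).2 hcon)
    have hzo : orderOf z = p := orderOf_eq_prime (hexp z) hz1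
    have hlt : (Subgroup.zpowers z : Set R) ⊆ A := Subgroup.zpowers_le.2 hz.1
    have hC : Subgroup.centralizer ({a} : Set R) = A := by
      refine le_antisymm (fun r hr => hAself (Subgroup.mem_centralizer_iff.2 fun b hb => ?_))
        (fun b hb => Subgroup.mem_centralizer_singleton_iff.2 (hAc b hb a haA))
      -- `A` is generated by `z` and `a`
      have hAgen : A ≤ Subgroup.zpowers z ⊔ Subgroup.zpowers a := by
        have hle : Subgroup.zpowers z ⊔ Subgroup.zpowers a ≤ A :=
          sup_le (Subgroup.zpowers_le.2 hz.1) (Subgroup.zpowers_le.2 haA)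
        refine (Subgroup.eq_of_le_of_card_ge hle ?_).ge
        obtain ⟨j, hj⟩ := (hR.to_subgroup (Subgroup.zpowers z ⊔ Subgroup.zpowers a)).exists_card_eq
        rw [hj]
        refine hA2.trans (Nat.pow_le_pow_right hp.pos ?_)
        by_contra hj2
        have heq : Subgroup.zpowers z = Subgroup.zpowers z ⊔ Subgroup.zpowers a :=
          Subgroup.eq_of_le_of_card_ge le_sup_left (by
            rw [hj, Nat.card_zpowers, hzo]
            calc p ^ j ≤ p ^ 1 := Nat.pow_le_pow_right hp.pos (by omega)
              _ = p := pow_one p)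
        exact hac (Subgroup.zpowers_le.2 hz.2 (heq ▸ Subgroup.mem_sup_right (Subgroup.mem_zpowers a) : a ∈ Subgroup.zpowers z))
      have hle2 : Subgroup.zpowers z ⊔ Subgroup.zpowers a ≤ Subgroup.centralizer ({r} : Set R) :=
        sup_le (Subgroup.zpowers_le.2 (Subgroup.mem_centralizer_singleton_iff.2 (Subgroup.mem_center_iff.1 hz.2 r).symm))
          (Subgroup.zpowers_le.2 (Subgroup.mem_centralizer_singleton_iff.2 (Subgroup.mem_centralizer_singleton_iff.1 hr).symm))
      exact Subgroup.mem_centralizer_singleton_iff.1 (hle2 (hAgen hb))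
    have hcls : Nat.card {g : R // IsConj a g} ≤ Nat.card A - p := by
      have hsub : {g : R | IsConj a g} ⊆ (A : Set R) \ (Subgroup.zpowers z : Set R) := by
        intro g hg
        obtain ⟨c, rfl⟩ := isConj_iff.1 hg
        refine ⟨hAn.conj_mem a haA c, fun hmem => hac ?_⟩
        have h1 : c * a * c⁻¹ ∈ Subgroup.center R := Subgroup.zpowers_le.2 hz.2 hmem
        have := (inferInstance : (Subgroup.center R).Normal).conj_mem _ h1 c⁻¹
        simpa [mul_assoc] using this
      have h1 := Set.ncard_le_ncard hsub (Set.toFinite _)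
      rw [Set.ncard_sdiff hlt, ← Nat.card_coe_set_eq, ← Nat.card_coe_set_eq, ← Nat.card_coe_set_eq,
        SetLike.coe_sort_coe, SetLike.coe_sort_coe, Nat.card_zpowers, hzo] at h1
      exact h1
    rw [CfsgLib.Invol.card_isConj_eq_index, hC] at hcls
    obtain ⟨i, hi⟩ := hR.index A
    obtain ⟨j, hj⟩ := (hR.to_subgroup A).exists_card_eq
    have hi1 : i ≤ 1 := by
      by_contra hi2
      have h1 : p ^ 2 ≤ A.index := hi ▸ Nat.pow_le_pow_right hp.pos (by omega)
      have := hp.pos
      have hp2 : p ^ 2 ≥ 1 := Nat.one_le_pow _ _ hp.pos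
      have hcls' : A.index ≤ Nat.card A - p := hcls
      generalize A.index = x at h1 hcls'
      generalize Nat.card A = y at hA2 hcls'
      generalize p ^ 2 = q at h1 hA2 hp2
      omega
    rw [← A.card_mul_index, hi]
    calc Nat.card A * p ^ i ≤ p ^ 2 * p ^ 1 := Nat.mul_le_mul hA2 (Nat.pow_le_pow_right hp.pos hi1)
      _ = p ^ 3 := by ring

end Cfsg.Agent.S3771
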