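import Cfsg.Statements.S3772
import Cfsg.Agent.Lib.CorePGroup
import Cfsg.Agent.Lib.CoreBasic

set_option autoImplicit false
open Cfsg

namespace Cfsg.Agent.S3772
open scoped commutatorElement
universe w

private theorem main {G : Type w} [Group G] [Finite G] (hG : IsPGroup 2 G)
    (hΦ : Nat.card (frattini G) = 2) (d : ℕ) (hd : (frattini G).index = 2 ^ d) :
    (Nat.card {x : G // x ^ 2 = 1} = 2 ^ d ∨ ∃ r : ℕ, 1 ≤ r ∧ 2 * r ≤ d ∧
      (Nat.card {x : G // x ^ 2 = 1} = 2 ^ d + 2 ^ (d - r) ∨
        Nat.card {x : G // x ^ 2 = 1} + 2 ^ (d - r) = 2 ^ d)) ∧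
    (∀ r : ℕ, d = 2 * r → (Nat.card {x : G // x ^ 2 = 1} = 2 ^ d + 2 ^ r ∨
      Nat.card {x : G // x ^ 2 = 1} + 2 ^ r = 2 ^ d) → Cfsg.IsExtraspecial 2 G) := by
  classical
  haveI : Fact (Nat.Prime 2) := ⟨Nat.prime_two⟩
  letI := Fintype.ofFinite G
  obtain ⟨z, hz, hz1, hzall⟩ : ∃ z ∈ frattini G, z ≠ 1 ∧ ∀ w ∈ frattini G, w = 1 ∨ w = z := by
    haveI := Fintype.ofFinite (frattini G)
    obtain ⟨a, b, hab, huniv⟩ := Finset.card_eq_two.1
      (show (Finset.univ : Finset (frattini G)).card = 2 by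
        rw [Finset.card_univ, ← Nat.card_eq_fintype_card, hΦ])
    have hall : ∀ w : frattini G, w = a ∨ w = b := fun w => by
      have := Finset.mem_univ w
      rw [huniv] at this
      simpa using this
    rcases hall 1 with h | h
    · refine ⟨b, b.2, fun e => hab (by rw [← h]; exact Subtype.ext e.symm), fun w hw => ?_⟩
      rcases hall ⟨w, hw⟩ with e | e
      · exact Or.inl (by rw [← h] at e; exact congrArg Subtype.val e)
      · exact Or.inr (congrArg Subtype.val e)
    · refine ⟨a, a.2, fun e => hab (by rw [← h]; exact Subtype.ext e), fun w hw => ?_⟩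
      rcases hall ⟨w, hw⟩ with e | e
      · exact Or.inr (congrArg Subtype.val e)
      · exact Or.inl (by rw [← h] at e; exact congrArg Subtype.val e)
  have hsq : ∀ x : G, x * x ∈ frattini G := fun x => by
    rw [← pow_two]; exact CfsgLib.Core.pgroup_pow_mem_frattini hG x
  have hcomm : ∀ a b : G, ⁅a, b⁆ ∈ frattini G := fun a b =>
    CfsgLib.Core.pgroup_commutator_le_frattini hG
      (Subgroup.commutator_mem_commutator (Subgroup.mem_top a) (Subgroup.mem_top b))
  have hzc : ∀ g : G, g * z = z * g := fun g => by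
    rcases hzall _ ((inferInstance : (frattini G).Normal).conj_mem z hz g) with h | h
    · exact absurd (conj_eq_one_iff.1 h) hz1
    · conv_rhs => rw [← h]
      group
  have hzz : z * z = 1 := by
    rcases hzall _ (mul_mem hz hz) with h | h
    · exact h
    · exact absurd (mul_eq_left.1 h) hz1
  have hcen : ∀ w ∈ frattini G, ∀ g : G, g * w = w * g := fun w hw g => by
    rcases hzall w hw with rfl | rfl
    · simp
    · exact hzc g
  let ε : G → ℤ := fun w => if w = 1 then 1 else -1
  have hε : ∀ v ∈ frattini G, ∀ w ∈ frattini G, ε (v * w) = ε v * ε w := fun v hv w hw => by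
    rcases hzall v hv with rfl | rfl <;> rcases hzall w hw with rfl | rfl <;> simp [ε, hz1, hzz]
  have hεsq : ∀ w : G, ε w * ε w = 1 := fun w => by by_cases h : w = 1 <;> simp [ε, h]
  let s : G → ℤ := fun x => ε (x * x)
  have hmul : ∀ x a : G, s x * s (x * a) = s a * ε ⁅a, x⁆ := fun x a => by
    have e : x * a * (x * a) = x * x * (⁅a, x⁆ * (a * a)) := by
      calc x * a * (x * a) = x * (⁅a, x⁆ * x) * a * a := by rw [commutatorElement_def]; group
        _ = x * (x * ⁅a, x⁆) * a * a := by rw [hcen _ (hcomm a x) x]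
        _ = _ := by group
    show s x * ε (x * a * (x * a)) = s a * ε ⁅a, x⁆
    rw [e, hε _ (hsq x) _ (mul_mem (hcomm a x) (hsq a)), ← mul_assoc, hεsq, one_mul,
      hε _ (hcomm a x) _ (hsq a), mul_comm]
  -- orthogonality
  have horth : ∀ a : G, ∑ x, ε ⁅a, x⁆ =
      if a ∈ Subgroup.center G then (Nat.card G : ℤ) else 0 := fun a => by
    have hone : ∀ x y : G, ⁅a, x⁆ * ⁅a, y⁆ = ⁅a, x * y⁆ := fun x y => by
      calc ⁅a, x⁆ * ⁅a, y⁆ = ⁅a, x⁆ * ((x * ⁅a, y⁆) * x⁻¹) := by
            rw [hcen _ (hcomm a y) x, mul_inv_cancel_right]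
        _ = _ := by simp [commutatorElement_def]; group
    by_cases ha : a ∈ Subgroup.center G
    · rw [if_pos ha]
      have : ∀ x, ε ⁅a, x⁆ = 1 := fun x => if_pos (commutatorElement_eq_one_iff_mul_comm.2
        (Subgroup.mem_center_iff.1 ha x).symm)
      simp [this, Nat.card_eq_fintype_card]
    · rw [if_neg ha]
      obtain ⟨g, hg⟩ : ∃ g : G, ⁅a, g⁆ ≠ 1 := by
        by_contra h
        push Not at h
        exact ha (Subgroup.mem_center_iff.2 fun g =>
          (commutatorElement_eq_one_iff_mul_comm.1 (h g)).symm)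
      have h1 : ∑ x, ε ⁅a, x⁆ = -∑ x, ε ⁅a, x⁆ := by
        conv_lhs => rw [← Equiv.sum_comp (Equiv.mulLeft g)]
        rw [← Finset.sum_neg_distrib]
        refine Finset.sum_congr rfl fun x _ => ?_
        rw [Equiv.coe_mulLeft, ← hone, hε _ (hcomm a g) _ (hcomm a x)]
        rw [show ε ⁅a, g⁆ = -1 from if_neg hg]
        ring
      omega
  set T : ℤ := ∑ x, s x with hT
  have hT2 : T * T = (Nat.card G : ℤ) * ∑ a ∈ Finset.univ.filter (· ∈ Subgroup.center G), s a := by
    calc T * T = ∑ x, s x * ∑ a, s (x * a) := by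
          rw [hT, Finset.sum_mul]
          exact Finset.sum_congr rfl fun x _ => by rw [← Equiv.sum_comp (Equiv.mulLeft x) s]; rfl
      _ = ∑ a, s a * ∑ x, ε ⁅a, x⁆ := by
          simp only [Finset.mul_sum]
          rw [Finset.sum_comm]
          simp only [hmul]
      _ = _ := by
          rw [Finset.mul_sum, Finset.sum_filter]
          refine Finset.sum_congr rfl fun a _ => ?_
          rw [horth]
          split_ifs <;> ring
  set j := Nat.card {x : G // x ^ 2 = 1} with hj
  have hcard : Nat.card G = 2 ^ (d + 1) := by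
    rw [← (frattini G).card_mul_index, hΦ, hd, pow_succ']
  have hTj : T = 2 * ((j : ℤ) - 2 ^ d) := by
    have e : ∀ x : G, s x = 2 * (if x ^ 2 = 1 then 1 else 0) - 1 := fun x => by
      by_cases h : x ^ 2 = 1
      · have h' : x * x = 1 := (pow_two x).symm.trans h
        simp [s, ε, h, h']
      · have h' : x * x ≠ 1 := fun e => h (by rw [pow_two, e])
        simp [s, ε, h, h']
    rw [hT, Finset.sum_congr rfl fun x _ => e x, Finset.sum_sub_distrib, ← Finset.mul_sum,
      Finset.sum_boole, Finset.sum_const, Finset.card_univ, ← Fintype.card_subtype,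
      ← Nat.card_eq_fintype_card, ← Nat.card_eq_fintype_card, hcard, ← hj]
    push_cast
    rw [pow_succ]; ring
  obtain ⟨k, hk⟩ := IsPGroup.iff_card.1 (hG.to_subgroup (Subgroup.center G))
  have hk1 : 1 ≤ k := by
    by_contra h0
    have hle : frattini G ≤ Subgroup.center G := fun w hw =>
      Subgroup.mem_center_iff.2 (hcen w hw)
    have := Subgroup.card_le_of_le hle
    rw [hΦ, hk, show k = 0 by omega] at this
    omega
  -- either no excess, or the centre has squares one
  by_cases hodd : ∃ c ∈ Subgroup.center G, c * c ≠ 1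
  · obtain ⟨c, hc, hc2⟩ := hodd
    have h0 : ∑ a ∈ Finset.univ.filter (· ∈ Subgroup.center G), s a = 0 := by
      rw [Finset.sum_filter]
      have h1 : ∑ a, (if a ∈ Subgroup.center G then s a else 0) =
          -∑ a, (if a ∈ Subgroup.center G then s a else 0) := by
        conv_lhs => rw [← Equiv.sum_comp (Equiv.mulLeft c)]
        rw [← Finset.sum_neg_distrib]
        refine Finset.sum_congr rfl fun a _ => ?_
        simp only [Equiv.coe_mulLeft, Subgroup.mul_mem_cancel_left _ hc]
        split_ifs with ha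
        · show ε (c * a * (c * a)) = -s a
          rw [show c * a * (c * a) = c * (a * c) * a by group, Subgroup.mem_center_iff.1 hc a,
            show c * (c * a) * a = c * c * (a * a) by group, hε _ (hsq c) _ (hsq a)]
          rw [show ε (c * c) = -1 from if_neg hc2]
          show (-1 : ℤ) * s a = -s a
          ring
        · rw [neg_zero]
      omega
    rw [h0, mul_zero, mul_self_eq_zero, hTj] at hT2
    have hj2 : (j : ℤ) = 2 ^ d := by linarith
    refine ⟨Or.inl (by exact_mod_cast hj2), fun r _ hr => ?_⟩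
    have hj3 : j = 2 ^ d := by exact_mod_cast hj2
    have := Nat.one_le_two_pow (n := r)
    omega
  push Not at hodd
  have hsum : ∑ a ∈ Finset.univ.filter (· ∈ Subgroup.center G), s a = (2 : ℤ) ^ k := by
    rw [Finset.sum_congr rfl fun a ha => (if_pos (hodd a (Finset.mem_filter.1 ha).2) : s a = 1),
      Finset.sum_const, nsmul_one, ← Fintype.card_subtype, ← Nat.card_eq_fintype_card, hk]
    norm_num
  rw [hsum, hTj, hcard] at hT2
  set J : ℤ := (j : ℤ) - 2 ^ d with hJ
  have hJJ : J.natAbs * J.natAbs * 4 = 2 ^ (d + 1) * 2 ^ k := by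
    have h := congrArg Int.natAbs hT2
    simp only [Int.natAbs_mul, Int.natAbs_natCast, Int.natAbs_pow] at h
    rw [show (2 : ℤ).natAbs = 2 from rfl] at h
    rw [← h]
    ring
  obtain ⟨t, ht, htJ⟩ := (Nat.dvd_prime_pow Nat.prime_two).1
    (show J.natAbs ∣ 2 ^ (d + 1 + k) from ⟨J.natAbs * 4, by rw [pow_add, ← hJJ]; ring⟩)
  have ht2 : 2 * t + 2 = d + 1 + k := by
    refine Nat.pow_right_injective le_rfl ?_
    simp only
    rw [pow_add _ (d + 1), ← hJJ, htJ]; ring
  have hcases : j = 2 ^ d + 2 ^ t ∨ j + 2 ^ t = 2 ^ d := by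
    rcases Int.natAbs_eq J with e | e <;> rw [htJ, hJ] at e
    · left
      have : ((j : ℕ) : ℤ) = ((2 ^ d + 2 ^ t : ℕ) : ℤ) := by push_cast at e ⊢; linarith
      exact_mod_cast this
    · right
      have : ((j + 2 ^ t : ℕ) : ℤ) = ((2 ^ d : ℕ) : ℤ) := by push_cast at e ⊢; linarith
      exact_mod_cast this
  have hne : Subgroup.center G ≠ ⊤ := fun htop => by
    have hle : frattini G ≤ (⊥ : Subgroup G) := by
      refine CfsgLib.Core.frattini_le_of_elementary (p := 2) ?_ fun x => ?_
      · rw [commutator_def, Subgroup.commutator_le]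
        intro a _ b _
        exact Subgroup.mem_bot.2 (commutatorElement_eq_one_iff_mul_comm.2
          (Subgroup.mem_center_iff.1 (htop ▸ Subgroup.mem_top b) a))
      · rw [Subgroup.mem_bot, pow_two]
        exact hodd x (htop ▸ Subgroup.mem_top x)
    exact hz1 (Subgroup.mem_bot.1 (hle hz))
  have hkd : k < d + 1 := by
    by_contra h
    refine hne (CfsgLib.Core.eq_of_le_of_card_le le_top ?_)
    rw [Subgroup.card_top, hcard, hk]
    exact Nat.pow_le_pow_right (by norm_num) (by omega)
  refine ⟨Or.inr ⟨d - t, by omega, by omega, ?_⟩, fun r hr hjr => ?_⟩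
  · rw [show d - (d - t) = t by omega]; exact hcases
  have hrt : r = t := by
    refine Nat.pow_right_injective le_rfl ?_
    simp only
    have := Nat.one_le_two_pow (n := r)
    have := Nat.one_le_two_pow (n := t)
    rcases hcases with e | e <;> rcases hjr with e' | e' <;> omega
  have hk' : k = 1 := by omega
  have hce : frattini G = Subgroup.center G := by
    refine CfsgLib.Core.eq_of_le_of_card_le (fun w hw => Subgroup.mem_center_iff.2 (hcen w hw)) ?_
    rw [hk, hk', hΦ, pow_one]
  refine ⟨⟨hG, hce, le_antisymm ?_ ?_⟩, by rw [hk, hk', pow_one]⟩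
  · rw [← hce]; exact CfsgLib.Core.pgroup_commutator_le_frattini hG
  · rw [← hce]
    intro w hw
    obtain ⟨a, b, hab⟩ : ∃ a b : G, ⁅a, b⁆ ≠ 1 := by
      by_contra h
      push Not at h
      exact hne ((Subgroup.eq_top_iff' _).2 fun a => Subgroup.mem_center_iff.2 fun b =>
        commutatorElement_eq_one_iff_mul_comm.1 (h b a))
    rcases hzall w hw with rfl | rfl
    · exact one_mem _
    · rw [← (hzall _ (hcomm a b)).resolve_left hab]
      exact Subgroup.commutator_mem_commutator (Subgroup.mem_top a) (Subgroup.mem_top b)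


/-- Let G be a finite 2-group whose Frattini subgroup Φ(G) has order 2, with |G : Φ(G)| = 2^d, and let j be the number of elements x of G with x² = 1. Then j = 2^d, or j = 2^d + 2^(d−r) or j = 2^d − 2^(d−r) for some positive integer r with 2r ≤ d. Moreover if d = 2r and j is 2^d + 2^r or 2^d − 2^r, then G is extraspecial. -/
theorem result {G : Type*} [Group G] [Finite G] (hG : IsPGroup 2 G) (hΦ : Nat.card (frattini G) = 2) (d : ℕ) (hd : (frattini G).index = 2 ^ d) : (Nat.card {x : G // x ^ 2 = 1} = 2 ^ d ∨ ∃ r : ℕ, 1 ≤ r ∧ 2 * r ≤ d ∧ (Nat.card {x : G // x ^ 2 = 1} = 2 ^ d + 2 ^ (d - r) ∨ Nat.card {x : G // x ^ 2 = 1} + 2 ^ (d - r) = 2 ^ d)) ∧ (∀ r : ℕ, d = 2 * r → (Nat.card {x : G // x ^ 2 = 1} = 2 ^ d + 2 ^ r ∨ Nat.card {x : G // x ^ 2 = 1} + 2 ^ r = 2 ^ d) → Cfsg.IsExtraspecial 2 G) := by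
  exact main hG hΦ d hd

end Cfsg.Agent.S3772
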