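import Cfsg.Statements.S3773
import Cfsg.Agent.Lib.CoreAnisotropic
import Cfsg.Agent.Lib.CoreExpFour

set_option autoImplicit false
open Cfsg

namespace Cfsg.Agent.S3773
open scoped commutatorElement
universe w

private theorem main {G : Type w} [Group G] [Finite G] (hG : IsPGroup 2 G)
    (hcl : (⊤ : Subgroup G).lowerCentralSeries 2 = ⊥) (hexp : ∀ x : G, x ^ 4 = 1)
    (hN : ∀ x y : G, x ^ 2 = 1 → y ^ 2 = 1 → (x * y) ^ 2 = 1) :
    Nat.card G ≤ Nat.card {x : G // x ^ 2 = 1} ^ 3 ∧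
      (¬ Cfsg.IsSpecial 2 G → Nat.card G < Nat.card {x : G // x ^ 2 = 1} ^ 3) := by
  haveI : Fact (Nat.Prime 2) := ⟨Nat.prime_two⟩
  have hΦZ := CfsgLib.Core.ExpFour.frattini_central hcl hexp
  have hΦ2 := CfsgLib.Core.ExpFour.frattini_sq hG hcl hexp
  let N : Subgroup G :=
    { carrier := {x | x ^ 2 = 1}
      one_mem' := one_pow 2
      mul_mem' := fun {x y} hx hy => hN x y hx hy
      inv_mem' := fun {x} hx => by
        show x⁻¹ ^ 2 = 1
        rw [inv_pow, hx, inv_one] }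
  have hNc : Nat.card {x : G // x ^ 2 = 1} = Nat.card N := rfl
  rw [hNc]
  have hZN : frattini G ≤ N := fun z hz => (pow_two z).trans (hΦ2 z hz)
  obtain ⟨h1, h2⟩ := CfsgLib.Core.Anisotropic.card_le hΦZ hZN
    (fun a ha => (pow_two a).symm.trans ha) (fun x hx => (pow_two x).trans hx)
    (fun x => by rw [← pow_two]; exact CfsgLib.Core.pgroup_pow_mem_frattini hG x)
    (fun x y => CfsgLib.Core.pgroup_commutator_le_frattini hG
      (Subgroup.commutator_mem_commutator (Subgroup.mem_top x) (Subgroup.mem_top y)))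
  have hle : Nat.card (frattini G) ≤ Nat.card N := Subgroup.card_le_of_le hZN
  have h3 : Nat.card N * Nat.card (frattini G) ^ 2 ≤ Nat.card N ^ 3 := by
    rw [pow_succ' (Nat.card N) 2]
    exact Nat.mul_le_mul_left _ (Nat.pow_le_pow_left hle 2)
  refine ⟨h1.trans h3, fun hns => lt_of_le_of_ne (h1.trans h3) fun he => hns ?_⟩
  have hNeq : N = frattini G := by
    refine (CfsgLib.Core.eq_of_le_of_card_le hZN ?_).symm
    have := (he ▸ h1 : Nat.card N ^ 3 ≤ Nat.card N * Nat.card (frattini G) ^ 2)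
    rw [pow_succ' (Nat.card N) 2] at this
    exact (Nat.pow_le_pow_iff_left two_ne_zero).1 (Nat.le_of_mul_le_mul_left this Nat.card_pos)
  obtain ⟨hcen, hcom⟩ := h2 hNeq (by rw [he, hNeq])
  exact ⟨hG, le_antisymm hΦZ hcen, le_antisymm
    ((CfsgLib.Core.ExpFour.comm_central hcl)) (hcen.trans hcom)⟩


/-- Let G be a finite 2-group of nilpotency class at most 2 and exponent dividing 4 in which the elements x with x² = 1 form a subgroup N. Then |G| ≤ |N|³, and |G| < |N|³ unless G is special. -/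
theorem result {G : Type*} [Group G] [Finite G] (hG : IsPGroup 2 G) (hcl : (⊤ : Subgroup G).lowerCentralSeries 2 = ⊥) (hexp : ∀ x : G, x ^ 4 = 1) (hN : ∀ x y : G, x ^ 2 = 1 → y ^ 2 = 1 → (x * y) ^ 2 = 1) : Nat.card G ≤ Nat.card {x : G // x ^ 2 = 1} ^ 3 ∧ (¬ Cfsg.IsSpecial 2 G → Nat.card G < Nat.card {x : G // x ^ 2 = 1} ^ 3) := by
  exact main hG hcl hexp hN

end Cfsg.Agent.S3773
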