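import Cfsg.Statements.S3774

set_option autoImplicit false
open Cfsg

namespace Cfsg.Agent.S3774

/-- Let G be a nontrivial finite 2-group whose automorphism group permutes the involutions of G transitively. Then every involution of G is central, so that the involutions together with 1 form the subgroup Ω₁(Z(G)), and if this subgroup has order q then |G| is a power of q. -/
theorem result {G : Type*} [Group G] [Finite G] [Nontrivial G] (hG : IsPGroup 2 G) (htrans : ∀ x y : G, x ≠ 1 → x ^ 2 = 1 → y ≠ 1 → y ^ 2 = 1 → ∃ a : MulAut G, a x = y) : (∀ x : G, x ^ 2 = 1 → x ∈ Subgroup.center G) ∧ ∃ m : ℕ, Nat.card G = Nat.card {z : G // z ^ 2 = 1} ^ m := by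
  classical
  letI := Fintype.ofFinite G
  haveI : Fact (Nat.Prime 2) := ⟨Nat.prime_two⟩
  haveI := hG.center_nontrivial
  obtain ⟨z, hz⟩ := exists_prime_orderOf_dvd_card' (G := Subgroup.center G) 2 (by
    obtain ⟨n, hn, hc⟩ := (hG.to_subgroup (Subgroup.center G)).nontrivial_iff_card.1 inferInstance
    exact hc ▸ dvd_pow_self 2 hn.ne')
  have hz2 : (z : G) ^ 2 = 1 := by
    rw [← hz, ← Subgroup.orderOf_coe]; exact pow_orderOf_eq_one _
  have hz1 : (z : G) ≠ 1 := fun h => by
    rw [← Subgroup.orderOf_coe, h, orderOf_one] at hz; omega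
  have hcen : ∀ x : G, x ^ 2 = 1 → x ∈ Subgroup.center G := by
    intro x hx
    rcases eq_or_ne x 1 with rfl | hx1
    · exact one_mem _
    obtain ⟨a, ha⟩ := htrans z x hz1 hz2 hx1 hx
    rw [Subgroup.mem_center_iff]
    intro g
    rw [← ha, ← a.apply_symm_apply g, ← map_mul, ← map_mul,
      Subgroup.mem_center_iff.1 z.2 (a.symm g)]
  refine ⟨hcen, ?_⟩
  let W : Subgroup G :=
    { carrier := {x | x ^ 2 = 1}
      one_mem' := one_pow 2
      mul_mem' := fun {x y} hx hy => by
        show (x * y) ^ 2 = 1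
        rw [(show Commute x y from (Subgroup.mem_center_iff.1 (hcen x hx) y).symm).mul_pow, hx, hy,
          one_mul]
      inv_mem' := fun {x} hx => by
        show x⁻¹ ^ 2 = 1
        rw [inv_pow, hx, inv_one] }
  have hWc : Nat.card {x : G // x ^ 2 = 1} = Nat.card W := rfl
  rw [hWc]
  obtain ⟨m, hm⟩ := IsPGroup.iff_card.1 (hG.to_subgroup W)
  obtain ⟨n, hn⟩ := IsPGroup.iff_card.1 hG
  -- orbits of non-identity elements
  have horb : ∀ g : G, g ≠ 1 → Nat.card W - 1 ∣ Nat.card (MulAction.orbit (MulAut G) g) := by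
    intro g hg
    obtain ⟨k, hk⟩ := exists_prime_orderOf_dvd_card' (G := Subgroup.zpowers g) 2 (by
      haveI : Nontrivial (Subgroup.zpowers g) :=
        (Subgroup.nontrivial_iff_ne_bot _).2 (by simpa using hg)
      obtain ⟨i, hi, hc⟩ := (hG.to_subgroup (Subgroup.zpowers g)).nontrivial_iff_card.1 inferInstance
      exact hc ▸ dvd_pow_self 2 hi.ne')
    obtain ⟨w, hw⟩ := k
    have hw2 : w ^ 2 = 1 := by
      rw [← hk, ← Subgroup.orderOf_coe]; exact pow_orderOf_eq_one _
    have hw1 : w ≠ 1 := fun h => by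
      rw [← Subgroup.orderOf_coe] at hk
      simp only [h, orderOf_one] at hk
      omega
    obtain ⟨j, rfl⟩ := Subgroup.mem_zpowers_iff.1 hw
    have hst : MulAction.stabilizer (MulAut G) g ≤ MulAction.stabilizer (MulAut G) (g ^ j) := by
      intro a ha
      rw [MulAction.mem_stabilizer_iff] at ha ⊢
      show a (g ^ j) = g ^ j
      rw [map_zpow]
      exact congrArg (· ^ j) ha
    have h1 := Subgroup.index_dvd_of_le hst
    rw [MulAction.index_stabilizer, MulAction.index_stabilizer] at h1
    have h2 : MulAction.orbit (MulAut G) (g ^ j) = (W : Set G) \ {1} := by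
      ext y
      constructor
      · rintro ⟨a, rfl⟩
        refine ⟨?_, ?_⟩
        · show (a (g ^ j)) ^ 2 = 1
          rw [← map_pow, hw2, map_one]
        · exact fun h => hw1 ((MulEquiv.map_eq_one_iff a).1 h)
      · rintro ⟨hy, hy1⟩
        obtain ⟨a, ha⟩ := htrans _ y hw1 hw2 hy1 hy
        exact ⟨a, ha⟩
    rw [h2] at h1
    have h3 : Nat.card ↥((W : Set G) \ {1}) = Nat.card W - 1 := by
      rw [Nat.card_coe_set_eq, Set.ncard_diff_singleton_of_mem W.one_mem]
      rfl
    rw [← h3, Nat.card_coe_set_eq, Nat.card_coe_set_eq]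
    exact h1
  have hdvd : 2 ^ m - 1 ∣ 2 ^ n - 1 := by
    rw [← hm, ← hn, ← CharP.cast_eq_zero_iff (ZMod (Nat.card W - 1)) (Nat.card W - 1),
      Nat.cast_sub Nat.card_pos, Nat.cast_one, sub_eq_zero]
    haveI : Fintype (MulAction.orbitRel.Quotient (MulAut G) G) := Fintype.ofFinite _
    rw [Nat.card_congr (MulAction.selfEquivSigmaOrbits' (MulAut G) G), Nat.card_sigma, Nat.cast_sum,
      Finset.sum_eq_single (Quotient.mk'' 1 : MulAction.orbitRel.Quotient (MulAut G) G)]
    · have : MulAction.orbit (MulAut G) (1 : G) = {1} := by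
        ext y
        constructor
        · rintro ⟨a, rfl⟩
          exact map_one a
        · intro h
          rw [Set.mem_singleton_iff.1 h]
          exact MulAction.mem_orbit_self _
      rw [MulAction.orbitRel.Quotient.orbit_mk, this, Nat.card_coe_set_eq, Set.ncard_singleton,
        Nat.cast_one]
    · intro q _ hq
      induction q using Quotient.inductionOn' with
      | _ g =>
        rw [MulAction.orbitRel.Quotient.orbit_mk, CharP.cast_eq_zero_iff (ZMod (Nat.card W - 1)) (Nat.card W - 1)]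
        exact horb g fun h => hq (h ▸ rfl)
    · exact fun h => absurd (Finset.mem_univ _) h
  have hgcd := Nat.pow_sub_one_gcd_pow_sub_one 2 m n
  rw [Nat.gcd_eq_left hdvd] at hgcd
  have hmg : m.gcd n = m := by
    have h1 : 1 ≤ 2 ^ m := Nat.one_le_two_pow
    have h2 : 1 ≤ 2 ^ m.gcd n := Nat.one_le_two_pow
    exact (Nat.pow_right_injective le_rfl (show 2 ^ m.gcd n = 2 ^ m by omega))
  obtain ⟨e, he⟩ : m ∣ n := hmg ▸ Nat.gcd_dvd_right m n
  exact ⟨e, by rw [hn, hm, ← pow_mul, he]⟩

end Cfsg.Agent.S3774
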