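import Cfsg.Statements.S3775
import Cfsg.Agent.Lib.CoreAbelianSplit

set_option autoImplicit false
open Cfsg

namespace Cfsg.Agent.S3775

/-- Let A be a finite abelian p-group and X a group of automorphisms of A of order prime to p. Call a subgroup of A invariant when every element of X maps it onto itself. Then the following are equivalent: (i) A is not the direct product of two nontrivial invariant subgroups; (ii) every invariant subgroup of A is one of the subgroups Ω_i(A) = {a : a^(p^i) = 1}; (iii) the subgroup Ω₁(A) of elements of order dividing p has no invariant subgroups other than 1 and itself. -/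
theorem result {A : Type*} [CommGroup A] [Finite A] {p : ℕ} [Fact p.Prime] (hA : IsPGroup p A) (X : Subgroup (MulAut A)) (hX : (Nat.card X).Coprime p) : ((¬ ∃ B C : Subgroup A, B ≠ ⊥ ∧ C ≠ ⊥ ∧ (∀ x ∈ X, B.map x.toMonoidHom = B) ∧ (∀ x ∈ X, C.map x.toMonoidHom = C) ∧ B ⊓ C = ⊥ ∧ B ⊔ C = ⊤) ↔ (∀ B : Subgroup A, (∀ x ∈ X, B.map x.toMonoidHom = B) → ∃ i : ℕ, ∀ a : A, a ∈ B ↔ a ^ p ^ i = 1)) ∧ ((∀ B : Subgroup A, (∀ x ∈ X, B.map x.toMonoidHom = B) → ∃ i : ℕ, ∀ a : A, a ∈ B ↔ a ^ p ^ i = 1) ↔ (∀ B : Subgroup A, (∀ x ∈ X, B.map x.toMonoidHom = B) → (∀ b ∈ B, b ^ p = 1) → B = ⊥ ∨ ∀ a : A, a ∈ B ↔ a ^ p = 1)) := by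
  classical
  have hp := (Fact.out : p.Prime)
  obtain ⟨v, hv⟩ := IsPGroup.iff_card.1 hA
  have hcop : (Nat.card X).Coprime (Nat.card A) := by rw [hv]; exact hX.pow_right v
  let Inv : Subgroup A → Prop := fun B => ∀ x ∈ X, ∀ b ∈ B, (x : MulAut A) b ∈ B
  have hinv : ∀ B : Subgroup A, (∀ x ∈ X, B.map x.toMonoidHom = B) ↔ Inv B := by
    refine fun B => ⟨fun h x hx b hb => (h x hx).le ⟨b, hb, rfl⟩, fun h x hx => ?_⟩
    refine SetLike.coe_injective (Set.eq_of_subset_of_ncard_le ?_ ?_ (Set.toFinite _))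
    · rintro _ ⟨b, hb, rfl⟩
      exact h x hx b hb
    · rw [← Nat.card_coe_set_eq, ← Nat.card_coe_set_eq]
      exact (Subgroup.card_map_of_injective (f := x.toMonoidHom) x.injective).ge
  simp only [hinv]
  let Ω : Subgroup A := (powMonoidHom p : A →* A).ker
  have hΩ : ∀ a, a ∈ Ω ↔ a ^ p = 1 := fun a => Iff.rfl
  have hΩinv : Inv Ω := fun x _ b hb => by
    rw [hΩ] at hb ⊢
    rw [← map_pow, hb, map_one]
  -- a nontrivial subgroup has an element of order `p`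
  have hne : ∀ B : Subgroup A, B ≠ ⊥ → ∃ b ∈ B, b ≠ 1 ∧ b ^ p = 1 := by
    intro B hB
    haveI : Nontrivial B := (Subgroup.nontrivial_iff_ne_bot B).2 hB
    obtain ⟨k, hk, hc⟩ := (hA.to_subgroup B).nontrivial_iff_card.1 inferInstance
    obtain ⟨b, hb⟩ := exists_prime_orderOf_dvd_card' (G := B) p (hc ▸ dvd_pow_self p hk.ne')
    rw [← Subgroup.orderOf_coe] at hb
    refine ⟨b, b.2, fun e => ?_, by rw [← hb, pow_orderOf_eq_one]⟩
    rw [e, orderOf_one] at hb
    exact hp.ne_one hb.symm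
  have h32 : (∀ B : Subgroup A, Inv B → (∀ b ∈ B, b ^ p = 1) → B = ⊥ ∨ ∀ a : A, a ∈ B ↔ a ^ p = 1) →
      ∀ B : Subgroup A, Inv B → ∃ i : ℕ, ∀ a : A, a ∈ B ↔ a ^ p ^ i = 1 := by
    intro h B hB
    have hsub : ∀ i, (∀ a : A, a ^ p ^ i = 1 → a ∈ B) →
        (∀ a : A, a ^ p ^ (i + 1) = 1 → a ∈ B) ∨ ∀ a : A, a ∈ B → a ^ p ^ i = 1 := by
      intro i hi
      let Y : Subgroup A :=
        { carrier := {y | ∃ b ∈ B, b ^ p ^ (i + 1) = 1 ∧ b ^ p ^ i = y}
          one_mem' := ⟨1, B.one_mem, one_pow _, one_pow _⟩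
          mul_mem' := by
            rintro _ _ ⟨b, hb, hb1, rfl⟩ ⟨c, hc, hc1, rfl⟩
            exact ⟨b * c, B.mul_mem hb hc, by rw [mul_pow, hb1, hc1, one_mul], mul_pow _ _ _⟩
          inv_mem' := by
            rintro _ ⟨b, hb, hb1, rfl⟩
            exact ⟨b⁻¹, B.inv_mem hb, by rw [inv_pow, hb1, inv_one], inv_pow _ _⟩ }
      have hYinv : Inv Y := by
        rintro x hx _ ⟨b, hb, hb1, rfl⟩
        exact ⟨x b, hB x hx b hb, by rw [← map_pow, hb1, map_one], (map_pow x b _).symm⟩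
      have hYp : ∀ y ∈ Y, y ^ p = 1 := by
        rintro _ ⟨b, hb, hb1, rfl⟩
        rw [← pow_mul, ← pow_succ, hb1]
      rcases h Y hYinv hYp with hY | hY
      · refine Or.inr fun a ha => ?_
        obtain ⟨k, hk⟩ := IsPGroup.iff_orderOf.1 hA a
        by_contra hne1
        have hki : i + 1 ≤ k := by
          by_contra hlt
          exact hne1 (orderOf_dvd_iff_pow_eq_one.1 (hk ▸ pow_dvd_pow p (by omega)))
        have h1 : (a ^ p ^ (k - (i + 1))) ^ p ^ i ∈ Y := by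
          refine ⟨_, B.pow_mem ha _, ?_, rfl⟩
          rw [← pow_mul, ← pow_add, show k - (i + 1) + (i + 1) = k by omega, ← hk, pow_orderOf_eq_one]
        rw [hY, Subgroup.mem_bot, ← pow_mul, ← pow_add, ← orderOf_dvd_iff_pow_eq_one, hk,
          Nat.pow_dvd_pow_iff_le_right hp.one_lt] at h1
        omega
      · refine Or.inl fun a ha => ?_
        obtain ⟨b, hb, -, hab⟩ := (hY (a ^ p ^ i)).2 (by rw [← pow_mul, ← pow_succ, ha])
        have h1 := hi (a / b) (by rw [div_pow, hab, div_self'])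
        rw [← div_mul_cancel a b]
        exact B.mul_mem h1 hb
    by_contra hcon
    push Not at hcon
    have hall : ∀ i, ∀ a : A, a ^ p ^ i = 1 → a ∈ B := by
      intro i
      induction i with
      | zero => intro a ha; rw [pow_zero, pow_one] at ha; rw [ha]; exact B.one_mem
      | succ i ihi =>
        rcases hsub i ihi with h1 | h1
        · exact h1
        · exfalso
          obtain ⟨a, ha⟩ := hcon i
          rcases ha with ⟨h2, h3⟩ | ⟨h2, h3⟩
          · exact h3 (h1 a h2)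
          · exact h2 (ihi a h3)
    obtain ⟨a, ha⟩ := hcon v
    have hav : ∀ a : A, a ^ p ^ v = 1 := fun a => by rw [← hv]; exact pow_card_eq_one'
    rcases ha with ⟨h2, h3⟩ | ⟨h2, h3⟩
    · exact h3 (hav a)
    · exact h2 (hall v a (hav a))
  have h23 : (∀ B : Subgroup A, Inv B → ∃ i : ℕ, ∀ a : A, a ∈ B ↔ a ^ p ^ i = 1) →
      ∀ B : Subgroup A, Inv B → (∀ b ∈ B, b ^ p = 1) → B = ⊥ ∨ ∀ a : A, a ∈ B ↔ a ^ p = 1 := by
    intro h B hB hBp
    obtain ⟨i, hi⟩ := h B hB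
    rcases Nat.eq_zero_or_pos i with rfl | hi0
    · refine Or.inl ((Subgroup.eq_bot_iff_forall _).2 fun a ha => ?_)
      have := (hi a).1 ha
      rwa [pow_zero, pow_one] at this
    · refine Or.inr fun a => ⟨hBp a, fun ha => (hi a).2 ?_⟩
      obtain ⟨j, rfl⟩ : ∃ j, i = j + 1 := ⟨i - 1, by omega⟩
      rw [pow_succ', pow_mul, ha, one_pow]
  refine ⟨⟨fun hind => h32 fun B hB hBp => ?_, fun h => ?_⟩, ⟨h23, h32⟩⟩
  swap
  · rintro ⟨B, C, hB0, hC0, hB, hC, hBC, -⟩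
    obtain ⟨i, hi⟩ := h B hB
    obtain ⟨j, hj⟩ := h C hC
    have key : ∀ (B C : Subgroup A) (i j : ℕ), (∀ a : A, a ∈ B ↔ a ^ p ^ i = 1) →
        (∀ a : A, a ∈ C ↔ a ^ p ^ j = 1) → i ≤ j → B ≤ C := fun B C i j hi hj hij a ha => by
      obtain ⟨d, rfl⟩ := Nat.exists_eq_add_of_le hij
      rw [hj, pow_add, pow_mul, (hi a).1 ha, one_pow]
    rcases le_total i j with hij | hij
    · exact hB0 (le_bot_iff.1 (hBC ▸ le_inf le_rfl (key B C i j hi hj hij)))
    · exact hC0 (le_bot_iff.1 (hBC ▸ le_inf (key C B j i hj hi hij) le_rfl))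
  -- an indecomposable group has an irreducible socle
  by_contra hcon
  push Not at hcon
  obtain ⟨hB0, a₀, ha₀⟩ := hcon
  have hBΩ : B ≠ Ω := fun e => by
    rcases ha₀ with ⟨h1, h2⟩ | ⟨h1, h2⟩
    · exact h2 (hBp a₀ h1)
    · exact h1 (e ▸ h2)
  haveI : Nontrivial A := by
    obtain ⟨b, hb, hb1, -⟩ := hne B hB0
    exact ⟨⟨b, 1, hb1⟩⟩
  have hex : ∃ e, ∀ a : A, a ^ p ^ e = 1 := ⟨v, fun a => by rw [← hv]; exact pow_card_eq_one'⟩
  obtain ⟨e', he'⟩ : ∃ e', Nat.find hex = e' + 1 := by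
    refine ⟨Nat.find hex - 1, ?_⟩
    rcases Nat.eq_zero_or_pos (Nat.find hex) with h0 | h0
    · exfalso
      obtain ⟨a, ha⟩ := exists_ne (1 : A)
      have := Nat.find_spec hex a
      rw [h0, pow_zero, pow_one] at this
      exact ha this
    · omega
  have hexp : ∀ a : A, a ^ p ^ (e' + 1) = 1 := he' ▸ Nat.find_spec hex
  let M : Subgroup A := (powMonoidHom (p ^ e') : A →* A).range
  have hMΩ : M ≤ Ω := by
    rintro _ ⟨a, rfl⟩
    rw [hΩ, powMonoidHom_apply, ← pow_mul, ← pow_succ, hexp]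
  have hMinv : Inv M := by
    rintro x _ _ ⟨a, rfl⟩
    exact ⟨x a, (map_pow x a _).symm⟩
  have hM0 : M ≠ ⊥ := by
    intro h
    refine Nat.find_min hex (show e' < Nat.find hex by omega) fun a => ?_
    have h1 : a ^ p ^ e' ∈ M := ⟨a, rfl⟩
    rwa [h, Subgroup.mem_bot] at h1
  obtain ⟨U, hUinv, hUM, hU0, hUΩ⟩ : ∃ U : Subgroup A, Inv U ∧ U ≤ M ∧ U ≠ ⊥ ∧ U ≠ Ω := by
    by_cases hM : M = Ω
    · exact ⟨B, hB, fun b hb => hM.ge (hBp b hb), hB0, hBΩ⟩
    · exact ⟨M, hMinv, le_rfl, hM0, hM⟩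
  have hUΩ' : U ≤ Ω := hUM.trans hMΩ
  -- the action restricted to `Ω`
  let ρΩ : X →* MulAut Ω :=
    { toFun := fun x =>
        { toFun := fun a => ⟨(x : MulAut A) a, hΩinv x x.2 a a.2⟩
          invFun := fun a => ⟨(x : MulAut A).symm a, hΩinv _ (X.inv_mem x.2) a a.2⟩
          left_inv := fun a => Subtype.ext ((x : MulAut A).symm_apply_apply _)
          right_inv := fun a => Subtype.ext ((x : MulAut A).apply_symm_apply _)
          map_mul' := fun a b => Subtype.ext (map_mul (x : MulAut A) _ _) }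
      map_one' := MulEquiv.ext fun a => rfl
      map_mul' := fun x y => MulEquiv.ext fun a => rfl }
  obtain ⟨W₀, hW₀, hW₀U, hW₀top⟩ := CfsgLib.Core.AbelianSplit.exists_invariant_complement_of_elementary ρΩ hp
    (fun a => Subtype.ext a.2) (hcop.coprime_dvd_right Ω.card_subgroup_dvd_card) (U.subgroupOf Ω)
    (fun x u hu => hUinv x x.2 _ hu)
  let W : Subgroup A := W₀.map Ω.subtype
  have hWinv : Inv W := by
    rintro x hx _ ⟨w, hw, rfl⟩
    exact ⟨_, hW₀ ⟨x, hx⟩ w hw, rfl⟩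
  have hW0 : W ≠ ⊥ := by
    intro h
    refine hUΩ (le_antisymm hUΩ' fun a ha => ?_)
    have h1 : W₀ = ⊥ := (Subgroup.map_eq_bot_iff_of_injective _ Ω.subtype_injective).1 h
    rw [h1, bot_sup_eq] at hW₀top
    exact (hW₀top.ge (Subgroup.mem_top (⟨a, ha⟩ : Ω)) : _)
  have hWU : W ⊓ U = ⊥ := by
    rw [Subgroup.eq_bot_iff_forall]
    rintro a ⟨⟨w, hw, rfl⟩, hwU⟩
    have h1 : w ∈ W₀ ⊓ U.subgroupOf Ω := ⟨hw, hwU⟩
    rw [hW₀U, Subgroup.mem_bot] at h1
    rw [h1, map_one]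
  obtain ⟨C, ⟨hCinv, hWC, hCU⟩, hCmax⟩ := Set.exists_max_image
    {C : Subgroup A | Inv C ∧ W ≤ C ∧ C ⊓ U = ⊥} (fun C => Nat.card C) (Set.toFinite _) ⟨W, hWinv, le_rfl, hWU⟩
  let q := QuotientGroup.mk' C
  have hCmap : ∀ x : X, C.map ((x : MulAut A) : A →* A) = C := fun x => (hinv C).2 hCinv x x.2
  let ρQ : X →* MulAut (A ⧸ C) :=
    { toFun := fun x => QuotientGroup.congr C C (x : MulAut A) (hCmap x)
      map_one' := MulEquiv.ext fun a => by
        obtain ⟨a, rfl⟩ := QuotientGroup.mk'_surjective C a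
        rfl
      map_mul' := fun x y => MulEquiv.ext fun a => by
        obtain ⟨a, rfl⟩ := QuotientGroup.mk'_surjective C a
        rfl }
  have hρQ : ∀ (x : X) (a : A), ρQ x (q a) = q ((x : MulAut A) a) := fun x a => rfl
  let Q₁ : Subgroup (A ⧸ C) := (powMonoidHom p : (A ⧸ C) →* (A ⧸ C)).ker
  have hQ₁inv : ∀ (x : X), ∀ b ∈ Q₁, ρQ x b ∈ Q₁ := fun x b hb => by
    show (ρQ x b) ^ p = 1
    rw [← map_pow, show b ^ p = 1 from hb, map_one]
  let ρ₁ : X →* MulAut Q₁ :=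
    { toFun := fun x =>
        { toFun := fun a => ⟨ρQ x a, hQ₁inv x a a.2⟩
          invFun := fun a => ⟨ρQ x⁻¹ a, hQ₁inv _ a a.2⟩
          left_inv := fun a => Subtype.ext (by
            show ρQ x⁻¹ (ρQ x a) = a
            rw [← MulAut.mul_apply, ← map_mul, inv_mul_cancel, map_one, MulAut.one_apply])
          right_inv := fun a => Subtype.ext (by
            show ρQ x (ρQ x⁻¹ a) = a
            rw [← MulAut.mul_apply, ← map_mul, mul_inv_cancel, map_one, MulAut.one_apply])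
          map_mul' := fun a b => Subtype.ext (map_mul (ρQ x) _ _) }
      map_one' := MulEquiv.ext fun a => Subtype.ext (by
        show ρQ 1 a = a
        rw [map_one, MulAut.one_apply])
      map_mul' := fun x y => MulEquiv.ext fun a => Subtype.ext (by
        show ρQ (x * y) a = ρQ x (ρQ y a)
        rw [map_mul, MulAut.mul_apply]) }
  have hUq : U.map q ≤ Q₁ := by
    rintro _ ⟨u, hu, rfl⟩
    show q u ^ p = 1
    rw [← map_pow, (hΩ u).1 (hUΩ' hu), map_one]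
  obtain ⟨S₀, hS₀, hS₀U, hS₀top⟩ := CfsgLib.Core.AbelianSplit.exists_invariant_complement_of_elementary ρ₁ hp
    (fun a => Subtype.ext a.2)
    ((hcop.coprime_dvd_right (Subgroup.card_quotient_dvd_card C)).coprime_dvd_right Q₁.card_subgroup_dvd_card)
    ((U.map q).subgroupOf Q₁) (by
      rintro x w ⟨u, hu, hue⟩
      exact ⟨_, hUinv x x.2 u hu, by
        show q ((x : MulAut A) u) = ρQ x (w : A ⧸ C)
        rw [← hρQ, hue]; rfl⟩)
  have hS₀bot : S₀ = ⊥ := by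
    let C' : Subgroup A := (S₀.map Q₁.subtype).comap q
    have hCC' : C ≤ C' := fun c hc => by
      show q c ∈ S₀.map Q₁.subtype
      rw [show q c = 1 from (QuotientGroup.eq_one_iff c).2 hc]
      exact one_mem _
    have h1 : C = C' := by
      refine SetLike.coe_injective (Set.eq_of_subset_of_ncard_le hCC' ?_ (Set.toFinite _))
      rw [← Nat.card_coe_set_eq, ← Nat.card_coe_set_eq]
      refine hCmax C' ⟨?_, hWC.trans hCC', ?_⟩
      · rintro x hx c ⟨s, hs, hse⟩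
        refine ⟨_, hS₀ ⟨x, hx⟩ s hs, ?_⟩
        show ρQ ⟨x, hx⟩ (s : A ⧸ C) = q (x c)
        rw [show (s : A ⧸ C) = q c from hse, hρQ]
      · rw [Subgroup.eq_bot_iff_forall]
        rintro u ⟨⟨s, hs, hse⟩, hu⟩
        have h2 : s ∈ S₀ ⊓ (U.map q).subgroupOf Q₁ := ⟨hs, ⟨u, hu, hse.symm⟩⟩
        rw [hS₀U, Subgroup.mem_bot] at h2
        have h3 : u ∈ C ⊓ U := ⟨(QuotientGroup.eq_one_iff u).1 (show q u = 1 by rw [← hse, h2, map_one]), hu⟩
        rwa [hCU, Subgroup.mem_bot] at h3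
    rw [← Subgroup.map_eq_bot_iff_of_injective _ Q₁.subtype_injective,
      ← Subgroup.map_comap_eq_self_of_surjective (QuotientGroup.mk'_surjective C) (S₀.map Q₁.subtype)]
    show C'.map q = ⊥
    rw [← h1, QuotientGroup.map_mk'_self]
  rw [hS₀bot, bot_sup_eq] at hS₀top
  have hsoc : ∀ b : A ⧸ C, b ^ p = 1 → ∃ y : A, q y ^ p ^ e' = b := by
    intro b hb
    obtain ⟨u, hu, hue⟩ := hS₀top.ge (Subgroup.mem_top (⟨b, hb⟩ : Q₁))
    obtain ⟨y, rfl⟩ := hUM hu
    exact ⟨y, by rw [← map_pow]; exact hue⟩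
  have hlift : ∀ k, k ≤ e' + 1 → ∀ b : A ⧸ C, b ^ p ^ k = 1 → ∃ a : A, q a = b ∧ a ^ p ^ k = 1 := by
    intro k
    induction k with
    | zero => exact fun _ b hb => ⟨1, by rw [map_one, ← hb, pow_zero, pow_one], one_pow _⟩
    | succ k ihk =>
      intro hk b hb
      obtain ⟨y, hy⟩ := hsoc (b ^ p ^ k) (by rw [← pow_mul, ← pow_succ, hb])
      obtain ⟨a, ha, hak⟩ := ihk (by omega) (b / q (y ^ p ^ (e' - k))) (by
        rw [div_pow, ← map_pow, ← pow_mul, ← pow_add, show e' - k + k = e' by omega, map_pow, hy, div_self'])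
      refine ⟨a * y ^ p ^ (e' - k), by rw [map_mul, ha, div_mul_cancel], ?_⟩
      rw [mul_pow, pow_succ, pow_mul, hak, one_pow, one_mul, ← pow_succ, ← pow_mul, ← pow_add,
        show e' - k + (k + 1) = e' + 1 by omega, hexp]
  obtain ⟨D, hD, hDC, hDtop⟩ := CfsgLib.Core.AbelianSplit.exists_invariant_complement X.subtype hcop C
    (fun x c hc => hCinv x x.2 c hc) (fun b => by
      obtain ⟨a, ha⟩ := QuotientGroup.mk'_surjective C b
      have h1 : orderOf b ∣ p ^ (e' + 1) := orderOf_dvd_of_pow_eq_one (by rw [← ha, ← map_pow, hexp, map_one])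
      obtain ⟨k, hk, hk'⟩ := (Nat.dvd_prime_pow hp).1 h1
      rw [hk']
      exact hlift k hk b (by rw [← hk', pow_orderOf_eq_one]))
  refine hind ⟨D, C, ?_, fun h => hW0 (le_bot_iff.1 (h ▸ hWC)), fun x hx b hb => hD ⟨x, hx⟩ b hb, hCinv, hDC, hDtop⟩
  intro h
  rw [h, bot_sup_eq] at hDtop
  rw [hDtop, top_inf_eq] at hCU
  exact hU0 hCU

end Cfsg.Agent.S3775
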