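import Cfsg.Statements.S3778
import Cfsg.Agent.Lib.CoreSZ

set_option autoImplicit false
open Cfsg

namespace Cfsg.Agent.S3778

universe w

open scoped commutatorElement

private theorem main {G : Type w} [Group G] [Finite G] {p : ℕ} [Fact p.Prime] (hG : IsPGroup p G)
    (b : ℕ) (hb : ∀ x : G, (Subgroup.centralizer ({x} : Set G)).index ≤ p ^ b) (c : ℕ)
    (hc : (⊤ : Subgroup G).lowerCentralSeries c = ⊥)
    (hmin : ∀ i, i < c → (⊤ : Subgroup G).lowerCentralSeries i ≠ ⊥) (hb0 : b ≠ 0) :
    (c - 1) * (p - 1) < b * p := by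
  classical
  letI := Fintype.ofFinite G
  have hp := (Fact.out : p.Prime)
  let L : ℕ → Subgroup G := fun i => (⊤ : Subgroup G).lowerCentralSeries i
  let C : ℕ → Subgroup G := fun i => (Subgroup.centralizer
    (((L i).map (QuotientGroup.mk' (L (i + 2)))) : Set (G ⧸ L (i + 2)))).comap (QuotientGroup.mk' (L (i + 2)))
  have hCmem : ∀ i x, x ∈ C i ↔ ∀ g ∈ L i, ⁅x, g⁆ ∈ L (i + 2) := by
    intro i x
    simp only [C, Subgroup.mem_comap, Subgroup.mem_centralizer_iff]
    constructor
    · intro h g hg
      rw [← QuotientGroup.eq_one_iff]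
      show QuotientGroup.mk' (L (i + 2)) ⁅x, g⁆ = 1
      rw [map_commutatorElement, commutatorElement_eq_one_iff_mul_comm]
      exact (h _ ⟨g, hg, rfl⟩).symm
    · rintro h _ ⟨g, hg, rfl⟩
      have h1 : QuotientGroup.mk' (L (i + 2)) ⁅x, g⁆ = 1 := (QuotientGroup.eq_one_iff _).2 (h g hg)
      rw [map_commutatorElement, commutatorElement_eq_one_iff_mul_comm] at h1
      exact h1.symm
  have hsucc : ∀ i, L (i + 1) = ⁅L i, (⊤ : Subgroup G)⁆ := fun i => rfl
  have hanti : ∀ i, L (i + 1) ≤ L i := fun i => Subgroup.lowerCentralSeries_antitone _ (Nat.le_succ i)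
  have hCtop : ∀ i, i + 1 < c → C i ≠ ⊤ := by
    intro i hi htop
    have h1 : L (i + 1) ≤ L (i + 2) := by
      rw [hsucc i, Subgroup.commutator_le]
      intro g hg x _
      rw [← commutatorElement_inv]
      exact Subgroup.inv_mem _ ((hCmem i x).1 (htop ▸ Subgroup.mem_top x) g hg)
    have h2 : ∀ k, L (i + 1 + k) = L (i + 1) := by
      intro k
      induction k with
      | zero => rfl
      | succ k ih =>
        rw [show i + 1 + (k + 1) = (i + 1 + k) + 1 by omega, hsucc (i + 1 + k), ih, ← hsucc (i + 1)]
        exact le_antisymm (hanti (i + 1)) h1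
    refine hmin (i + 1) hi ?_
    have h3 := h2 (c - (i + 1))
    rw [show i + 1 + (c - (i + 1)) = c by omega] at h3
    exact h3.symm.trans hc
  -- the count at each element
  have hcount : ∀ x : G, ((Finset.range (c - 1)).filter fun i => x ∉ C i).card ≤ b := by
    intro x
    set H := Subgroup.centralizer ({x} : Set G) with hH
    have hr : ∀ i, ∃ e, H.relIndex (L i) = p ^ e := fun i => (hG.to_subgroup (L i)).index _
    choose e he using hr
    have hmono : ∀ i, e (i + 1) + (if x ∉ C i then 1 else 0) ≤ e i := by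
      intro i
      have hle : e (i + 1) ≤ e i := by
        have h1 := Subgroup.relIndex_le_of_le_right (H := H) (hanti i) Subgroup.index_ne_zero_of_finite
        rw [he, he] at h1
        exact (Nat.pow_le_pow_iff_right hp.one_lt).1 h1
      by_cases hx : x ∈ C i
      · rw [if_neg (not_not.2 hx)]; omega
      rw [if_pos hx]
      by_contra hlt
      have heq : e (i + 1) = e i := by omega
      refine hx ((hCmem i x).2 fun g hg => ?_)
      have hk := CfsgLib.Core.card_sup_mul_card_inf
        (CfsgLib.Core.le_normalizer_normal (H ⊓ L i) (N := L (i + 1)))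
      have hinf : (H ⊓ L i) ⊓ L (i + 1) = H ⊓ L (i + 1) := by
        rw [inf_assoc, inf_eq_right.2 (hanti i)]
      have hc1 : Nat.card ↥(H ⊓ L i) * H.relIndex (L i) = Nat.card (L i) := by
        rw [← Subgroup.inf_relIndex_right]; exact CfsgLib.Core.card_mul_relIndex inf_le_right
      have hc2 : Nat.card ↥(H ⊓ L (i + 1)) * H.relIndex (L (i + 1)) = Nat.card (L (i + 1)) := by
        rw [← Subgroup.inf_relIndex_right]; exact CfsgLib.Core.card_mul_relIndex inf_le_right
      rw [hinf, ← hc2, he, heq, ← he, mul_left_comm, hc1, mul_comm (Nat.card ↥(H ⊓ L (i + 1)))] at hk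
      have hsup : H ⊓ L i ⊔ L (i + 1) = L i :=
        CfsgLib.Core.eq_of_le_of_card_le (sup_le inf_le_right (hanti i))
          (Nat.eq_of_mul_eq_mul_right Nat.card_pos hk).ge
      rw [← hsup] at hg
      obtain ⟨h, hh, k, hk', rfl⟩ := Subgroup.mem_sup_of_normal_right.1 hg
      have hxh : ⁅x, h⁆ = 1 := commutatorElement_eq_one_iff_mul_comm.2
        (Subgroup.mem_centralizer_iff.1 hh.1 x (Set.mem_singleton x))
      have hxk : ⁅x, k⁆ ∈ L (i + 2) := by
        rw [← commutatorElement_inv]
        exact Subgroup.inv_mem _ (Subgroup.commutator_mem_commutator hk' (Subgroup.mem_top x))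
      rw [show ⁅x, h * k⁆ = ⁅x, h⁆ * (h * ⁅x, k⁆ * h⁻¹) by
        simp only [commutatorElement_def]; group, hxh, one_mul]
      exact (inferInstance : (L (i + 2)).Normal).conj_mem _ hxk h
    have htel : ∀ n, ((Finset.range n).filter fun i => x ∉ C i).card + e n ≤ e 0 := by
      intro n
      induction n with
      | zero => simp
      | succ n ih =>
        have := hmono n
        rw [Finset.card_filter, Finset.sum_range_succ, ← Finset.card_filter]
        omega
    have he0 : p ^ e 0 ≤ p ^ b := by
      rw [← he]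
      show H.relIndex ⊤ ≤ p ^ b
      rw [Subgroup.relIndex_top_right]
      exact hb x
    have := htel (c - 1)
    have := (Nat.pow_le_pow_iff_right hp.one_lt).1 he0
    omega
  -- double counting
  have hbound : ∀ i ∈ Finset.range (c - 1),
      (p - 1) * Fintype.card G ≤ p * (Finset.univ.filter fun x : G => x ∉ C i).card := by
    intro i hi
    have h1 : (Finset.univ.filter fun x : G => x ∈ C i).card = Nat.card (C i) := by
      rw [Nat.card_eq_fintype_card, Fintype.card_subtype]
    obtain ⟨k, hk⟩ := hG.index (C i)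
    have hk0 : k ≠ 0 := fun h => hCtop i (by have := Finset.mem_range.1 hi; omega)
      (Subgroup.index_eq_one.1 (by rw [hk, h, pow_zero]))
    have h2 : p * Nat.card (C i) ≤ Fintype.card G := by
      rw [← Nat.card_eq_fintype_card, ← (C i).card_mul_index, mul_comm p, hk]
      exact Nat.mul_le_mul_left _ (Nat.le_self_pow hk0 p)
    have h3 := Finset.card_filter_add_card_filter_not (s := (Finset.univ : Finset G))
      (fun x : G => x ∈ C i)
    rw [Finset.card_univ, h1] at h3
    rw [Nat.sub_mul, one_mul]
    have : p * Fintype.card G = p * Nat.card (C i) +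
        p * (Finset.univ.filter fun x : G => x ∉ C i).card := by rw [← mul_add, h3]
    omega
  have hsum1 := Finset.sum_le_sum hbound
  rw [Finset.sum_const, Finset.card_range, smul_eq_mul, ← Finset.mul_sum] at hsum1
  have hswap : ∑ i ∈ Finset.range (c - 1), (Finset.univ.filter fun x : G => x ∉ C i).card
      = ∑ x : G, ((Finset.range (c - 1)).filter fun i => x ∉ C i).card := by
    simp only [Finset.card_filter]
    exact Finset.sum_comm
  have hlt : ∑ x : G, ((Finset.range (c - 1)).filter fun i => x ∉ C i).card < ∑ _x : G, b := by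
    refine Finset.sum_lt_sum (fun x _ => hcount x) ⟨1, Finset.mem_univ _, ?_⟩
    rw [Finset.filter_eq_empty_iff.2 fun i _ => by simp [(C i).one_mem], Finset.card_empty]
    omega
  rw [Finset.sum_const, Finset.card_univ, smul_eq_mul] at hlt
  rw [hswap] at hsum1
  refine Nat.lt_of_mul_lt_mul_right (a := Fintype.card G) ?_
  calc (c - 1) * (p - 1) * Fintype.card G = (c - 1) * ((p - 1) * Fintype.card G) := mul_assoc _ _ _
    _ ≤ p * ∑ x : G, ((Finset.range (c - 1)).filter fun i => x ∉ C i).card := hsum1
    _ < p * (Fintype.card G * b) := Nat.mul_lt_mul_of_pos_left hlt hp.pos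
    _ = b * p * Fintype.card G := by ring


/-- If G is a finite p-group in which every conjugacy class has at most p^b elements (every element has centralizer of index at most p^b), then G is abelian when b = 0, and when b ≥ 1 its nilpotency class c satisfies (c − 1)(p − 1) < bp, that is c < bp/(p − 1) + 1, and hence c ≤ 2b. -/
theorem result {G : Type*} [Group G] [Finite G] {p : ℕ} [Fact p.Prime] (hG : IsPGroup p G) (b : ℕ) (hb : ∀ x : G, (Subgroup.centralizer ({x} : Set G)).index ≤ p ^ b) : ∃ c : ℕ, (⊤ : Subgroup G).lowerCentralSeries c = ⊥ ∧ (b ≠ 0 → (c - 1) * (p - 1) < b * p ∧ c ≤ 2 * b) ∧ (b = 0 → c ≤ 1) := by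
  classical
  haveI := hG.isNilpotent
  refine ⟨Group.nilpotencyClass G, Subgroup.lowerCentralSeries_nilpotencyClass, fun hb0 => ?_,
    fun hb0 => ?_⟩
  · have h := main hG b hb (Group.nilpotencyClass G) Subgroup.lowerCentralSeries_nilpotencyClass
      (fun i hi h => absurd (Subgroup.lowerCentralSeries_eq_bot_iff_nilpotencyClass_le.1 h) (by omega)) hb0
    refine ⟨h, ?_⟩
    have hp := (Fact.out : p.Prime).two_le
    have h2 : b * p ≤ 2 * b * (p - 1) := by
      rw [mul_assoc, mul_comm 2, mul_assoc]
      exact Nat.mul_le_mul_left _ (by omega)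
    have := Nat.lt_of_mul_lt_mul_right (lt_of_lt_of_le h h2)
    omega
  · subst hb0
    refine Subgroup.lowerCentralSeries_eq_bot_iff_nilpotencyClass_le.1 ?_
    rw [Subgroup.lowerCentralSeries_succ, Subgroup.lowerCentralSeries_zero, Subgroup.commutator_eq_bot_iff_le_centralizer]
    intro x _
    rw [Subgroup.mem_centralizer_iff]
    intro y _
    have h1 := hb x
    rw [pow_zero] at h1
    have h2 : Subgroup.centralizer ({x} : Set G) = ⊤ := Subgroup.index_eq_one.1
      (le_antisymm h1 (Nat.pos_of_ne_zero Subgroup.index_ne_zero_of_finite))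
    have h3 : y ∈ Subgroup.centralizer ({x} : Set G) := h2 ▸ Subgroup.mem_top y
    exact (Subgroup.mem_centralizer_iff.1 h3 x (Set.mem_singleton x)).symm

end Cfsg.Agent.S3778
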