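import Cfsg.Statements.S3779
import Cfsg.Agent.Lib.CoreLieGraded
import Cfsg.Agent.Lib.CoreLieExtend
import Cfsg.Agent.Lib.CoreThompsonFpf

set_option autoImplicit false
open Cfsg

namespace Cfsg.Agent.S3779

/-- Let G be a finite group with an automorphism of prime order p fixing only the identity. Then G is nilpotent; if p = 2 then G is abelian, if p = 3 then G has class at most 2, and in general the class of G is at most ξ = 1 + (p−1) + (p−1)² + ⋯ + (p−1)^(n−1) with n = 2^(p−1) − 1 (the Higman–Kreknin–Kostrikin bound). -/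
theorem result {G : Type*} [Group G] [Finite G] {p : ℕ} (hp : p.Prime) (α : MulAut G) (hα : orderOf α = p) (hfpf : ∀ g : G, α g = g → g = 1) : (p = 2 → (⊤ : Subgroup G).lowerCentralSeries 1 = ⊥) ∧ (p = 3 → (⊤ : Subgroup G).lowerCentralSeries 2 = ⊥) ∧ (⊤ : Subgroup G).lowerCentralSeries (Finset.sum (Finset.range (2 ^ (p - 1) - 1)) (fun i => (p - 1) ^ i)) = ⊥ := by
  obtain ⟨hα1, hα2⟩ : α ^ p = 1 ∧ α ≠ 1 := ⟨hα ▸ pow_orderOf_eq_one α, fun h => by
    rw [h, orderOf_one] at hα; exact hp.ne_one hα.symm⟩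
  haveI := Fact.mk hp
  haveI hnil := CfsgLib.Core.isNilpotent_of_fpf_prime hp (Nat.card G) G le_rfl α hα1 hfpf
  have hcop : Nat.Coprime p (Nat.card G) := by
    refine hp.coprime_iff_not_dvd.2 fun hd => ?_
    have hA : IsPGroup p (Subgroup.zpowers α) :=
      IsPGroup.of_card (n := 1) (by rw [Nat.card_zpowers, hα, pow_one])
    have h1 := hA.card_modEq_card_fixedPoints G
    rw [show MulAction.fixedPoints (Subgroup.zpowers α) G = {1} from Set.eq_singleton_iff_unique_mem.2
      ⟨fun φ => map_one (φ : MulAut G), fun x hx => hfpf x (hx ⟨α, Subgroup.mem_zpowers α⟩)⟩,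
      Nat.card_coe_set_eq, Set.ncard_singleton] at h1
    exact hp.not_dvd_one (Nat.modEq_zero_iff_dvd.1 (h1.symm.trans (Nat.modEq_zero_iff_dvd.2 hd)))
  obtain ⟨gr⟩ := CfsgLib.Core.Kreknin.exists_grading p
    (L := CfsgLib.Core.LieGr.L G) (fun k => CfsgLib.Core.LieGr.act (α ^ k.val))
    (fun a b v => by
      rw [← CfsgLib.Core.LieGr.act_mul, ← pow_add, ZMod.val_add, ← pow_eq_pow_mod _ hα1])
    (fun v => by rw [ZMod.val_zero, pow_zero, CfsgLib.Core.LieGr.act_one])
    (fun a x y => CfsgLib.Core.LieGr.act_lie _ x y)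
    (fun v hv => CfsgLib.Core.LieGr.act_fixed (α ^ (1 : ZMod p).val)
      (by rw [ZMod.val_one, pow_one]; exact hfpf) hv)
    CfsgLib.Core.LieGr.card_nsmul_eq_zero hcop
  have key : ∀ c : ℕ, CfsgLib.Core.Kreknin.lcs
      (M := TensorProduct ℤ (CfsgLib.Core.Kreknin.Cyc p) (CfsgLib.Core.LieGr.L G)) c = ⊥ →
      (⊤ : Subgroup G).lowerCentralSeries c = ⊥ := by
    intro c hc
    have hle : CfsgLib.Core.LieGr.gam G c ≤ CfsgLib.Core.LieGr.gam G (c + 1) := fun x hx => by
      refine CfsgLib.Core.LieGr.mem_of_cls_eq_zero hx (CfsgLib.Core.Kreknin.one_tmul_injective p ?_)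
      have h1 := CfsgLib.Core.Kreknin.one_tmul_mem_lcs p c (CfsgLib.Core.LieGr.cls_mem_lcs c x hx)
      rw [hc] at h1
      exact AddSubgroup.mem_bot.1 h1
    obtain ⟨n, hn⟩ := (Subgroup.isNilpotent_iff_lowerCentralSeries (⊤ : Subgroup G)).1
      (Group.nilpotent_of_mulEquiv (Subgroup.topEquiv (G := G)).symm)
    have hk : ∀ k, (⊤ : Subgroup G).lowerCentralSeries c ≤ (⊤ : Subgroup G).lowerCentralSeries (c + k) := by
      intro k
      induction k with
      | zero => exact le_rfl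
      | succ k ih =>
        refine hle.trans ?_
        rw [← Nat.add_assoc]
        exact Subgroup.commutator_mono ih le_rfl
    refine le_bot_iff.1 ((hk n).trans ?_)
    rw [← hn]
    exact Subgroup.lowerCentralSeries_antitone _ (Nat.le_add_left n c)
  refine ⟨fun h2 => key 1 ?_, fun h3 => key 2 (CfsgLib.Core.Kreknin.lcs_two_eq_bot gr h3),
    key _ (CfsgLib.Core.Kreknin.lcs_eq_bot gr)⟩
  subst h2
  exact CfsgLib.Core.Kreknin.lcs_eq_bot gr

end Cfsg.Agent.S3779
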