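import Cfsg.Statements.S3780
import Cfsg.Agent.Lib.CorePGroup
import Mathlib.Algebra.CharP.Lemmas
import Mathlib.GroupTheory.GroupAction.Basic

set_option autoImplicit false
open Cfsg

namespace Cfsg.Agent.S3780

/-- Let V be a finite abelian p-group and α an automorphism of V of order p whose fixed-point subgroup has order p^n. Then V can be generated by pn elements: some subset of V with at most pn elements generates V. -/
theorem result {V : Type*} [CommGroup V] [Finite V] {p : ℕ} [Fact p.Prime] (hV : IsPGroup p V) (α : MulAut V) (hα : orderOf α = p) (n : ℕ) (hfix : Nat.card {v : V // α v = v} = p ^ n) : ∃ S : Finset V, S.card ≤ p * n ∧ Subgroup.closure (S : Set V) = ⊤ := by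
  classical
  set W : Subgroup V := (powMonoidHom p : V →* V).ker with hW
  have hmem : ∀ v, v ∈ W → α v ∈ W := fun v hv => by
    rw [hW, MonoidHom.mem_ker, powMonoidHom_apply] at hv ⊢
    rw [← map_pow, hv, map_one]
  let a : AddMonoid.End (Additive W) :=
    MonoidHom.toAdditive ((α.toMonoidHom.comp W.subtype).codRestrict W fun w => hmem w w.2)
  have hapow : ∀ (k : ℕ) (w : Additive W), (((a ^ k) w).toMul : V) = (α ^ k) (w.toMul : V) := by
    intro k
    induction k with
    | zero => intro w; rfl
    | succ k ih =>
      intro w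
      rw [pow_succ, pow_succ, AddMonoid.End.coe_mul, Function.comp_apply, ih]
      rfl
  have ha : a ^ p = 1 := by
    refine AddMonoidHom.ext fun w => Additive.toMul.injective (Subtype.ext ((hapow p w).trans ?_))
    rw [← hα, pow_orderOf_eq_one]; rfl
  have hp0 : ((p : ℕ) : AddMonoid.End (Additive W)) = 0 := by
    refine AddMonoidHom.ext fun w => Additive.toMul.injective (Subtype.ext ?_)
    refine (congrArg (fun z : Additive W => (z.toMul : V)) (AddMonoid.End.natCast_apply p w)).trans ?_
    exact w.toMul.2
  have hnil : (a - 1) ^ p = 0 := by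
    obtain ⟨r, hr⟩ := Commute.exists_add_pow_prime_eq (Fact.out : p.Prime) (Commute.one_right (a - 1))
    rw [sub_add_cancel, ha, one_pow, hp0, zero_mul, zero_mul, zero_mul, add_zero] at hr
    exact add_eq_right.1 hr.symm
  let d : Additive W →+ Additive W := ((a - 1 : AddMonoid.End (Additive W)))
  have hit : ∀ (k : ℕ) (w : Additive W), d^[k] w = ((a - 1) ^ k) w := by
    intro k
    induction k with
    | zero => intro w; rfl
    | succ k ih =>
      intro w
      rw [Function.iterate_succ_apply']
      refine (congrArg d (ih w)).trans ?_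
      rw [pow_succ']
      rfl
  have hdp : ∀ w, d^[p] w = 0 := fun w => by
    rw [hit p w, hnil]; rfl
  have hker1 : Nat.card {w : Additive W // d w = 0} ≤ p ^ n := by
    rw [← hfix]
    refine Nat.card_le_card_of_injective (fun w : {w : Additive W // d w = 0} =>
      (⟨((w : Additive W).toMul : V), ?_⟩ : {v : V // α v = v})) ?_
    · have h' : a (w : Additive W) = (w : Additive W) := sub_eq_zero.1 w.2
      exact congrArg (fun z : Additive W => (z.toMul : V)) h'
    · intro u w h
      have h1 : ((u : Additive W).toMul : V) = ((w : Additive W).toMul : V) := congrArg (fun z : {v : V // α v = v} => z.1) h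
      exact Subtype.ext (Additive.toMul.injective (Subtype.ext h1))
  have hkerk : ∀ k, Nat.card {w : Additive W // d^[k] w = 0} ≤ (p ^ n) ^ k := by
    intro k
    induction k with
    | zero =>
      refine le_of_eq (Nat.card_eq_one_iff_unique.2 ⟨⟨fun u w => Subtype.ext ?_⟩, ⟨⟨0, rfl⟩⟩⟩)
      exact (u.2 : (u : Additive W) = 0).trans (w.2 : (w : Additive W) = 0).symm
    | succ k ih =>
      have hs : ∀ w : Additive W, d (Function.invFun d (d w)) = d w := fun w => Function.invFun_eq ⟨w, rfl⟩
      refine le_trans (Nat.card_le_card_of_injective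
        (fun w : {w : Additive W // d^[k + 1] w = 0} =>
          ((⟨w.1 - Function.invFun d (d w.1), by rw [map_sub, hs, sub_self]⟩ : {v : Additive W // d v = 0}),
            (⟨d w.1, (Function.iterate_succ_apply _ k w.1).symm.trans w.2⟩ : {v : Additive W // d^[k] v = 0}))) ?_) ?_
      · intro u w h
        have h1 := congrArg (fun z => z.1.1) h
        have h2 : d u.1 = d w.1 := congrArg (fun z => z.2.1) h
        simp only [h2, sub_left_inj] at h1
        exact Subtype.ext h1
      · rw [Nat.card_prod, pow_succ']
        exact Nat.mul_le_mul hker1 ih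
  have hWcard : Nat.card W ≤ p ^ (p * n) := by
    rw [mul_comm, pow_mul]
    refine le_trans (le_of_eq ?_) (hkerk p)
    exact Nat.card_congr (Additive.ofMul.trans (Equiv.subtypeUnivEquiv hdp).symm)
  obtain ⟨m, hm⟩ : ∃ m, (frattini V).index = p ^ m := hV.index (frattini V)
  have hle : (frattini V).index ≤ p ^ (p * n) := by
    refine le_trans (Nat.le_of_dvd (Nat.pos_of_ne_zero Subgroup.index_ne_zero_of_finite)
      (Subgroup.index_dvd_of_le (show (powMonoidHom p : V →* V).range ≤ frattini V by
        rintro _ ⟨v, rfl⟩; exact CfsgLib.Core.pgroup_pow_mem_frattini hV v))) ?_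
    have h1 := (powMonoidHom p : V →* V).range.card_mul_index
    have h2 := W.card_mul_index
    rw [hW, Subgroup.index_ker, ← hW, mul_comm] at h2
    rw [Nat.eq_of_mul_eq_mul_left Nat.card_pos (h1.trans h2.symm)]
    exact hWcard
  rw [hm] at hle
  haveI : Fintype V := Fintype.ofFinite V
  obtain ⟨T, -, hT, hTgen⟩ := (CfsgLib.Core.burnside_basis hV hm).1 Finset.univ (by simp)
  exact ⟨T, hT ▸ (Nat.pow_le_pow_iff_right (Fact.out : p.Prime).one_lt).1 hle, hTgen⟩

end Cfsg.Agent.S3780
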