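import Cfsg.Statements.S3781

set_option autoImplicit false
open Cfsg

namespace Cfsg.Agent.S3781
open scoped commutatorElement
universe w

variable {G : Type w} [Group G]

/-- `⁅A, G, …, G⁆` with `m` entries `G`. -/
def iter (A : Subgroup G) : ℕ → Subgroup G
  | 0 => A
  | m + 1 => ⁅iter A m, ⊤⁆

theorem iter_normal (A : Subgroup G) [A.Normal] : ∀ m, (iter A m).Normal
  | 0 => inferInstanceAs A.Normal
  | m + 1 => by
    haveI := iter_normal A m
    exact inferInstanceAs (⁅iter A m, (⊤ : Subgroup G)⁆).Normal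

theorem iter_comm (A : Subgroup G) : ∀ m, iter ⁅A, ⊤⁆ m = iter A (m + 1)
  | 0 => rfl
  | m + 1 => by show ⁅iter ⁅A, ⊤⁆ m, ⊤⁆ = _; rw [iter_comm A m]; rfl

theorem iter_le_lcs (A : Subgroup G) : ∀ m, iter A m ≤ (⊤ : Subgroup G).lowerCentralSeries m
  | 0 => le_top
  | m + 1 => Subgroup.commutator_mono (iter_le_lcs A m) le_rfl

theorem rotate_le {H₁ H₂ H₃ X : Subgroup G} [X.Normal] (h1 : ⁅⁅H₂, H₃⁆, H₁⁆ ≤ X)
    (h2 : ⁅⁅H₃, H₁⁆, H₂⁆ ≤ X) : ⁅⁅H₁, H₂⁆, H₃⁆ ≤ X := by
  have key : ∀ Y : Subgroup G, Y ≤ X ↔ Y.map (QuotientGroup.mk' X) = ⊥ := fun Y => by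
    rw [Subgroup.map_eq_bot_iff, QuotientGroup.ker_mk']
  rw [key, Subgroup.map_commutator, Subgroup.map_commutator] at h1 h2 ⊢
  exact Subgroup.commutator_commutator_eq_bot_of_rotate h1 h2

theorem comm_lcs_le : ∀ (m : ℕ) (A : Subgroup G), A.Normal →
    ⁅A, (⊤ : Subgroup G).lowerCentralSeries m⁆ ≤ iter A (m + 1)
  | 0, A, _ => le_rfl
  | m + 1, A, hA => by
    haveI := hA
    haveI := iter_normal A (m + 1 + 1)
    rw [Subgroup.commutator_comm, Subgroup.lowerCentralSeries_succ]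
    refine rotate_le ?_ ?_
    · rw [Subgroup.commutator_comm ⊤ A, ← iter_comm A (m + 1)]
      exact comm_lcs_le m ⁅A, ⊤⁆ inferInstance
    · exact Subgroup.commutator_mono (comm_lcs_le m A hA) le_rfl

theorem le_iter_of_le_comm {A B : Subgroup G} [B.Normal] (h : A ≤ ⁅A, ⊤⁆ ⊔ B) :
    ∀ m, A ≤ iter A m ⊔ B
  | 0 => le_sup_left
  | m + 1 => by
    haveI := B
    refine h.trans (sup_le ?_ le_sup_right)
    refine (Subgroup.commutator_mono (le_iter_of_le_comm h m) le_rfl).trans ?_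
    refine Subgroup.commutator_le.2 fun x hx g _ => ?_
    obtain ⟨a, ha, b, hb, rfl⟩ := Subgroup.mem_sup_of_normal_right.1 hx
    rw [show ⁅a * b, g⁆ = a * ⁅b, g⁆ * a⁻¹ * ⁅a, g⁆ by simp [commutatorElement_def]; group]
    exact mul_mem (Subgroup.mem_sup_right
      (‹B.Normal›.conj_mem _ (Subgroup.commutator_le_left B ⊤
        (Subgroup.commutator_mem_commutator hb (Subgroup.mem_top g))) a))
      (Subgroup.mem_sup_left (Subgroup.commutator_mem_commutator ha (Subgroup.mem_top g)))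

private theorem main [Finite G] {p : ℕ} [hp : Fact p.Prime] (hG : IsPGroup p G) (n : ℕ)
    (hn : 1 ≤ n) (N : Subgroup G) [N.Normal]
    (hN : N ≤ (⊤ : Subgroup G).lowerCentralSeries (n - 1)) (i : ℕ) (hi : 1 < i)
    (hne : N.lowerCentralSeries i ≠ ⊥) :
    p ^ n ≤ (N.lowerCentralSeries i).relIndex (N.lowerCentralSeries (i - 1)) := by
  obtain ⟨i, rfl⟩ : ∃ k, i = k + 1 := ⟨i - 1, by omega⟩
  obtain ⟨n, rfl⟩ : ∃ k, n = k + 1 := ⟨n - 1, by omega⟩
  rw [Nat.add_sub_cancel] at hN ⊢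
  haveI hnorm : ∀ j, (N.lowerCentralSeries j).Normal := fun j => by
    induction j with
    | zero => simpa
    | succ j ih =>
      rw [Subgroup.lowerCentralSeries_succ]
      infer_instance
  set A := N.lowerCentralSeries i with hA
  set B := N.lowerCentralSeries (i + 1) with hB
  have hBA : B ≤ A := N.lowerCentralSeries_antitone (Nat.le_succ i)
  haveI := hG.isNilpotent
  obtain ⟨c, hc⟩ : ∃ c, (⊤ : Subgroup G).lowerCentralSeries c = ⊥ :=
    ⟨Group.nilpotencyClass G, Subgroup.lowerCentralSeries_eq_bot_iff_nilpotencyClass_le.2 le_rfl⟩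
  have hsmall : ¬ iter A n ≤ B := by
    intro h
    apply hne
    have h1 : B ≤ ⁅B, ⊤⁆ := calc
      B ≤ ⁅A, (⊤ : Subgroup G).lowerCentralSeries n⁆ := Subgroup.commutator_mono le_rfl hN
      _ ≤ iter A (n + 1) := comm_lcs_le n A (hnorm i)
      _ ≤ ⁅B, ⊤⁆ := Subgroup.commutator_mono h le_rfl
    have h2 := le_iter_of_le_comm (B := (⊥ : Subgroup G)) (h1.trans le_sup_left) c
    rw [sup_bot_eq] at h2
    exact le_bot_iff.1 (h2.trans ((iter_le_lcs B c).trans hc.le))
  haveI hi' : ∀ m, (iter A m).Normal := iter_normal A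
  -- each step strictly decreases modulo `B`
  have hchain : ∀ m, m ≤ n → p ^ (m + 1) ≤ B.relIndex (iter A (n - m) ⊔ B) := by
    have hstep : ∀ k, k ≤ n → p * B.relIndex (iter A (k + 1) ⊔ B) ≤ B.relIndex (iter A k ⊔ B) := by
      intro k hk
      have hle : iter A (k + 1) ⊔ B ≤ iter A k ⊔ B :=
        sup_le_sup_right (Subgroup.commutator_le_left _ _) B
      rw [← Subgroup.relIndex_mul_relIndex B _ _ le_sup_right hle, mul_comm p]
      refine Nat.mul_le_mul_left _ ?_
      obtain ⟨e, he⟩ := (hG.to_subgroup (iter A k ⊔ B)).index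
        ((iter A (k + 1) ⊔ B).subgroupOf (iter A k ⊔ B))
      rw [Subgroup.relIndex, he]
      refine Nat.le_self_pow (fun e0 => ?_) p
      rw [e0, pow_zero] at he
      have h3 : iter A k ≤ ⁅iter A k, ⊤⁆ ⊔ B :=
        le_sup_left.trans (Subgroup.relIndex_eq_one.1 he)
      have h4 := le_iter_of_le_comm h3 c
      apply hsmall
      have h5 : iter (iter A k) c ⊔ B ≤ B :=
        sup_le ((iter_le_lcs _ c).trans (hc.le.trans bot_le)) le_rfl
      have hmono : ∀ a b, a ≤ b → iter A b ≤ iter A a := fun a b hab => by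
        induction b, hab using Nat.le_induction with
        | base => exact le_rfl
        | succ b _ ih => exact (Subgroup.commutator_le_left _ _).trans ih
      exact (hmono k n hk).trans (h4.trans h5)
    intro m
    induction m with
    | zero =>
      intro _
      refine le_trans ?_ (hstep n le_rfl)
      rw [pow_one]
      exact Nat.le_mul_of_pos_right _ (Nat.pos_of_ne_zero Subgroup.index_ne_zero_of_finite)
    | succ m ih =>
      intro hm
      refine le_trans ?_ (hstep (n - (m + 1)) (by omega))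
      rw [show n - (m + 1) + 1 = n - m by omega, pow_succ']
      exact Nat.mul_le_mul_left _ (ih (by omega))
  have := hchain n le_rfl
  rwa [Nat.sub_self, show iter A 0 ⊔ B = A from sup_eq_left.2 hBA] at this


/-- Let G be a finite p-group and n ≥ 1, and write γ_1(G) = G, γ_{k+1}(G) = [γ_k(G), G], and likewise γ_k(N) for a subgroup N. Let N be a normal subgroup of G contained in γ_n(G). If i > 1 and γ_{i+1}(N) ≠ 1, then |γ_i(N) : γ_{i+1}(N)| ≥ p^n. -/
theorem result {G : Type*} [Group G] [Finite G] {p : ℕ} [Fact p.Prime] (hG : IsPGroup p G) (n : ℕ) (hn : 1 ≤ n) (N : Subgroup G) [N.Normal] (hN : N ≤ (⊤ : Subgroup G).lowerCentralSeries (n - 1)) (i : ℕ) (hi : 1 < i) (hne : N.lowerCentralSeries i ≠ ⊥) : p ^ n ≤ (N.lowerCentralSeries i).relIndex (N.lowerCentralSeries (i - 1)) := by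
  exact main hG n hn N hN i hi hne

end Cfsg.Agent.S3781
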