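import Cfsg.Statements.S3783
import Cfsg.Agent.Lib.CorePLength
import Cfsg.Agent.Lib.CorePSolvable
import Cfsg.Agent.Lib.LocalFFModel
import Cfsg.Agent.Lib.CoreCoprime2
import Cfsg.Agent.Lib.CoreOmega
import Cfsg.Agent.Lib.CorePGroup

set_option autoImplicit false
open Cfsg

namespace Cfsg.Agent.S3783
open scoped commutatorElement Pointwise

universe w

open CfsgLib.Core in
/-- The key step: the exponent drops modulo the `p`-core. -/
private theorem key {G : Type w} [Group G] [Finite G] {p : ℕ} [Fact p.Prime] (hG : Cfsg.IsPSolvable p G)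
    (hcore : Cfsg.pPrimeCore p G = ⊥)
    (hab : ∀ (q : ℕ) [Fact q.Prime], q ≠ p → ∀ Q : Sylow q G, IsMulCommutative (Q : Subgroup G)) (n : ℕ)
    (hexp : ∀ (P : Sylow p G), ∀ x ∈ (P : Subgroup G), x ^ p ^ (n + 1) = 1) (P : Sylow p G)
    (x : G) (hx : x ∈ (P : Subgroup G)) : x ^ p ^ n ∈ Cfsg.pCore p G := by
  classical
  have hp := (Fact.out : p.Prime)
  haveI hFn : (Cfsg.pCore p G).Normal := normal_pCore p
  set F := Cfsg.pCore p G with hF
  by_contra hy0
  set f := QuotientGroup.mk' F with hf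
  have hfs : Function.Surjective f := QuotientGroup.mk'_surjective F
  have hker : ∀ m : G, f m = 1 ↔ m ∈ F := fun m => QuotientGroup.eq_one_iff m
  set X := Cfsg.pPrimeCore p (G ⧸ F) with hX
  haveI hXn : X.Normal := normal_pPrimeCore p
  have hcent : Subgroup.centralizer (X : Set (G ⧸ F)) ≤ X :=
    CfsgLib.LocalFF.centralizer_pPrimeCore_le (isPSolvable_of_surjective f hfs hG) (pCore_quotient_pCore p)
  set y := x ^ p ^ n with hy
  set A := Subgroup.zpowers (f x) with hA
  have hAp : IsPGroup p A := (P.2.map f).to_le (Subgroup.zpowers_le.2 ⟨x, hx, rfl⟩)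
  obtain ⟨k₁, hk₁⟩ := IsPGroup.iff_card.1 hAp
  have hcopA : ∀ K : Subgroup (G ⧸ F), K ≤ X → (Nat.card A).Coprime (Nat.card K) := fun K hK => by
    rw [hk₁]
    exact ((coprime_card_pPrimeCore p).coprime_dvd_left (Subgroup.card_dvd_of_le hK)).symm.pow_left k₁
  have hfy : f y ∈ A := by rw [hy, map_pow]; exact A.pow_mem (Subgroup.mem_zpowers _) _
  have hord : orderOf (f y) ∣ p := by
    refine orderOf_dvd_of_pow_eq_one ?_
    rw [← map_pow, hy, ← pow_mul, ← pow_succ, hexp P x hx, map_one]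
  -- an invariant abelian Sylow subgroup of `X` moved by `y`
  obtain ⟨q, hq, hqp, Q, hQX, hQA, hQc, u, hu, huy⟩ : ∃ q : ℕ, q.Prime ∧ q ≠ p ∧ ∃ Q : Subgroup (G ⧸ F),
      Q ≤ X ∧ A ≤ Subgroup.normalizer (Q : Set (G ⧸ F)) ∧ IsMulCommutative Q ∧
      ∃ u ∈ Q, f y * u ≠ u * f y := by
    by_contra hcon
    push Not at hcon
    set C := X ⊓ Subgroup.centralizer ({f y} : Set (G ⧸ F)) with hC
    have hCX : C = X := by
      refine eq_of_le_of_card_le inf_le_left (Nat.le_of_dvd Nat.card_pos ?_)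
      rw [← Nat.factorization_prime_le_iff_dvd Nat.card_pos.ne' Nat.card_pos.ne']
      intro q hq
      haveI := Fact.mk hq
      rcases eq_or_ne q p with rfl | hqp
      · rw [Nat.factorization_eq_zero_of_not_dvd (not_dvd_card_pPrimeCore q)]
        exact Nat.zero_le _
      obtain ⟨S, hS⟩ := exists_invariant_sylow (A := A) (K := X) q (le_normalizer_normal A) (hcopA X le_rfl)
        (Or.inl inferInstance)
      haveI : IsMulCommutative ((S : Subgroup X).map X.subtype) := by
        obtain ⟨T, hT⟩ := (S.2.map X.subtype).exists_le_sylow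
        obtain ⟨T', hT'⟩ := Sylow.mapSurjective_surjective hfs q T
        haveI := hab q hqp T'
        refine ⟨⟨fun a b => Subtype.ext ?_⟩⟩
        have ha := hT a.2
        have hb := hT b.2
        rw [← hT', Sylow.coe_mapSurjective] at ha hb
        obtain ⟨a', ha', hae⟩ := ha
        obtain ⟨b', hb', hbe⟩ := hb
        show (a : G ⧸ F) * b = b * a
        rw [← hae, ← hbe, ← map_mul, ← map_mul]
        exact congrArg f (congrArg Subtype.val (mul_comm' (⟨a', ha'⟩ : (T' : Subgroup G)) ⟨b', hb'⟩))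
      have h1 := hcon q hq hqp _ (Subgroup.map_subtype_le _) hS inferInstance
      refine (hq.pow_dvd_iff_le_factorization Nat.card_pos.ne').1 ?_
      rw [← S.card_eq_multiplicity, ← Subgroup.card_map_of_injective X.subtype_injective]
      exact Subgroup.card_dvd_of_le fun u hu => ⟨Subgroup.map_subtype_le _ hu,
        Subgroup.mem_centralizer_singleton_iff.2 (h1 u hu).symm⟩
    have hyX : f y ∈ X := hcent (Subgroup.mem_centralizer_iff.2 fun w hw =>
      Subgroup.mem_centralizer_singleton_iff.1 (hCX.ge hw).2)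
    have h2 := orderOf_dvd_natCard (⟨_, hyX⟩ : X)
    rw [← Subgroup.orderOf_coe] at h2
    exact hy0 ((hker y).1 (orderOf_eq_one_iff.1 (Nat.eq_one_of_dvd_coprimes (coprime_card_pPrimeCore p) h2 hord)))
  haveI := hQc
  set Y := Subgroup.zpowers (f y) with hY
  have hYA : Y ≤ A := Subgroup.zpowers_le.2 hfy
  have hYQ : Y ≤ Subgroup.normalizer (Q : Set (G ⧸ F)) := hYA.trans hQA
  have hcopY : (Nat.card Y).Coprime (Nat.card Q) := (hcopA Q hQX).coprime_dvd_left (Subgroup.card_dvd_of_le hYA)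
  set Q₁ := ⁅Q, Y⁆ with hQ₁
  have hQ₁Q : Q₁ ≤ Q := commutator_le_of_le_normalizer hYQ
  have hQ₁ne : Q₁ ≠ ⊥ := fun h => huy
    (Subgroup.mem_centralizer_iff.1 (centralizes_of_commutator_eq_bot h (Subgroup.mem_zpowers (f y))) u hu).symm
  have hQ₁fix : ∀ v ∈ Q₁, f y * v = v * f y → v = 1 := by
    intro v hv hvy
    have h := abelian_centralizer_inf_commutator hYQ hcopY
    have hmem : v ∈ (Q ⊓ Subgroup.centralizer (Y : Set (G ⧸ F))) ⊓ ⁅Q, Y⁆ := by
      refine ⟨⟨hQ₁Q hv, Subgroup.mem_centralizer_iff.2 fun c hc => ?_⟩, hv⟩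
      obtain ⟨i, rfl⟩ := Subgroup.mem_zpowers_iff.1 hc
      exact ((show Commute (f y) v from hvy).zpow_left i).eq
    rwa [h, Subgroup.mem_bot] at hmem
  have hxQ₁ : f x ∈ Subgroup.normalizer (Q₁ : Set (G ⧸ F)) := by
    have hxQ := hQA (Subgroup.mem_zpowers (f x))
    have hxY : f x ∈ Subgroup.normalizer (Y : Set (G ⧸ F)) := by
      refine centralizer_le_normalizer _ (Subgroup.mem_centralizer_iff.2 fun c hc => ?_)
      obtain ⟨i, rfl⟩ := Subgroup.mem_zpowers_iff.1 hc
      rw [hy, map_pow]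
      exact (((Commute.refl (f x)).pow_left _).zpow_left i).eq
    rw [hQ₁, ← conj_smul_eq_self_iff, conj_smul_eq_map, Subgroup.map_commutator, ← conj_smul_eq_map,
      ← conj_smul_eq_map, conj_smul_of_mem_normalizer hxQ, conj_smul_of_mem_normalizer hxY]
  -- lift it
  set T := Q₁.comap f with hT
  have hFT : F ≤ T := (QuotientGroup.ker_mk' F).ge.trans (Subgroup.ker_le_comap f Q₁)
  have hrel : F.relIndex T = Nat.card Q₁ := by
    rw [PLen.relIndex_eq_card_map, hT, Subgroup.map_comap_eq_self_of_surjective hfs]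
  obtain ⟨kF, hkF⟩ := IsPGroup.iff_card.1 (isPGroup_pCore (G := G) p)
  obtain ⟨B, hBT, hBF, hBd, hBc⟩ := exists_complement_in hFT (le_normalizer_normal T) (by
    rw [hrel, hkF]
    exact ((coprime_card_pPrimeCore p).coprime_dvd_left
      (Subgroup.card_dvd_of_le (hQ₁Q.trans hQX))).symm.pow_left kF)
  have hBcop : (Nat.card B).Coprime (Nat.card F) := by
    rw [hBc, hrel, hkF]
    exact ((coprime_card_pPrimeCore p).coprime_dvd_left (Subgroup.card_dvd_of_le (hQ₁Q.trans hQX))).pow_right kF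
  have hBsol : Group.IsSolvable B ∨ Group.IsSolvable F :=
    Or.inr (haveI := (isPGroup_pCore (G := G) p).isNilpotent; inferInstance)
  have hxT : MulAut.conj x • T = T := by
    refine conj_smul_of_mem_normalizer (Subgroup.mem_normalizer_fintype fun c hc => ?_)
    show f (x * c * x⁻¹) ∈ Q₁
    rw [map_mul, map_mul, map_inv]
    exact (Subgroup.mem_normalizer_iff.1 hxQ₁ _).1 hc
  obtain ⟨t, ht, htB⟩ := exists_conj_eq_of_coprime (A := B) (K := F) (B := MulAut.conj x • B)
    (le_normalizer_normal B) hBcop hBsol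
    (((conj_smul_le_conj_smul.2 hBT).trans hxT.le).trans hBF.ge) (card_conj_smul x B)
  obtain ⟨z, hz⟩ : ∃ z, z = t⁻¹ * x := ⟨_, rfl⟩
  have hzB : MulAut.conj z • B = B := by
    rw [hz, ← conj_smul_conj_smul, ← htB, conj_smul_conj_smul, inv_mul_cancel, conj_one_smul]
  have hFP : F ≤ (P : Subgroup G) := pCore_le_sylow P
  have hzP : z ∈ (P : Subgroup G) := hz ▸ Subgroup.mul_mem _ (Subgroup.inv_mem _ (hFP ht)) hx
  have hfz : f z = f x := by rw [hz, map_mul, map_inv, (hker t).2 ht, inv_one, one_mul]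
  set N := p ^ (n + 1) with hN
  have hNz : z ^ N = 1 := hexp P z hzP
  have hzconj : ∀ (i : ℕ), ∀ b ∈ B, z ^ i * b * (z ^ i)⁻¹ ∈ B := by
    intro i b hb
    have h1 : z * b * z⁻¹ ∈ B ∧ True := ⟨by
      have : z * b * z⁻¹ ∈ MulAut.conj z • B := by rw [conj_smul_eq_map]; exact ⟨b, hb, rfl⟩
      rwa [hzB] at this, trivial⟩
    induction i generalizing b with
    | zero => simpa using hb
    | succ i ihi =>
      have hzb : z * b * z⁻¹ ∈ B := by
        have : z * b * z⁻¹ ∈ MulAut.conj z • B := by rw [conj_smul_eq_map]; exact ⟨b, hb, rfl⟩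
        rwa [hzB] at this
      have h2 := ihi _ hzb ⟨by
        have : z * (z * b * z⁻¹) * z⁻¹ ∈ MulAut.conj z • B := by rw [conj_smul_eq_map]; exact ⟨_, hzb, rfl⟩
        rwa [hzB] at this, trivial⟩
      rwa [show z ^ i * (z * b * z⁻¹) * (z ^ i)⁻¹ = z ^ (i + 1) * b * (z ^ (i + 1))⁻¹ by rw [pow_succ]; group] at h2
  have hfpf : ∀ i, 0 < i → i < N → ∀ b ∈ B, z ^ i * b = b * z ^ i → b = 1 := by
    intro i hi0 hiN b hb hcomm
    have hbQ : f b ∈ Q₁ := hBT hb
    have hc : Commute (f x ^ i) (f b) := by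
      show f x ^ i * f b = f b * f x ^ i
      rw [← hfz, ← map_pow, ← map_mul, ← map_mul, hcomm]
    have hg : Nat.gcd i N ∣ p ^ n := by
      obtain ⟨j, hj, hj'⟩ := (Nat.dvd_prime_pow hp).1 (Nat.gcd_dvd_right i N)
      rw [hj']
      refine pow_dvd_pow p (Nat.le_of_lt_succ (lt_of_le_of_ne hj fun e => ?_))
      have h' := Nat.gcd_dvd_left i N
      rw [hj', e] at h'
      exact absurd (Nat.le_of_dvd hi0 h') (Nat.not_le.2 hiN)
    obtain ⟨c, hc'⟩ := hg
    have hxN : f x ^ N = 1 := by rw [← map_pow, hexp P x hx, map_one]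
    obtain ⟨l, hl⟩ : ∃ l : ℤ, (f x ^ i) ^ l = f x ^ Nat.gcd i N := by
      refine ⟨Nat.gcdA i N, ?_⟩
      rw [← zpow_natCast (f x) (Nat.gcd _ _), Nat.gcd_eq_gcd_ab, zpow_add, zpow_mul, zpow_natCast,
        zpow_mul (f x) (N : ℤ), zpow_natCast, hxN, one_zpow, mul_one]
    have h1 := (hc.zpow_left l).pow_left c
    rw [hl, ← pow_mul, ← hc', ← map_pow, ← hy] at h1
    have h2 := hQ₁fix _ hbQ h1.eq
    have h3 : b ∈ B ⊓ F := ⟨hb, (hker b).1 h2⟩
    rwa [hBd, Subgroup.mem_bot] at h3
  -- the action on `F / Φ(F)`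
  set Φ := (frattini F).map F.subtype with hΦ
  haveI hΦn : Φ.Normal := Subgroup.normalizer_eq_top_iff.1
    (top_le_iff.1 (le_normalizer_map_of_characteristic (le_normalizer_normal ⊤) (frattini F)))
  set π := QuotientGroup.mk' Φ with hπ
  set E := F.map π with hE
  haveI hEn : E.Normal := hFn.map π (QuotientGroup.mk'_surjective Φ)
  letI : CommGroup E :=
    { (inferInstance : Group E) with
      mul_comm := fun a b => by
        obtain ⟨a', ha', hae⟩ := a.2
        obtain ⟨b', hb', hbe⟩ := b.2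
        refine Subtype.ext ?_
        show (a : G ⧸ Φ) * b = b * a
        rw [← hae, ← hbe, ← commutatorElement_eq_one_iff_mul_comm, ← map_commutatorElement]
        exact (QuotientGroup.eq_one_iff _).2 ⟨_, pgroup_commutator_le_frattini (isPGroup_pCore p)
          (Subgroup.commutator_mem_commutator (Subgroup.mem_top (⟨a', ha'⟩ : F)) (Subgroup.mem_top ⟨b', hb'⟩)),
          map_commutatorElement _ _ _⟩ }
  let c : G → E →* E := fun g => MonoidHom.mk'
    (fun e => ⟨π g * e * (π g)⁻¹, hEn.conj_mem e e.2 _⟩) fun e e' => Subtype.ext (by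
      show π g * ((e : G ⧸ Φ) * e') * (π g)⁻¹ = π g * e * (π g)⁻¹ * (π g * e' * (π g)⁻¹)
      group)
  have hc : ∀ g h e, c g (c h e) = c (g * h) e := fun g h e => Subtype.ext (by
    show π g * (π h * e * (π h)⁻¹) * (π g)⁻¹ = π (g * h) * e * (π (g * h))⁻¹
    rw [map_mul]; group)
  have hnorm : ∀ e : E, ∏ i ∈ Finset.range N, c (z ^ i) e = 1 := by
    intro e
    obtain ⟨v, hv, hve⟩ := e.2
    have key : ∀ j : ℕ, ((∏ i ∈ Finset.range j, c (z ^ i) e : E) : G ⧸ Φ) = π ((v * z) ^ j) * (π z ^ j)⁻¹ := by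
      intro j
      induction j with
      | zero => simp
      | succ j ihj =>
        rw [Finset.prod_range_succ, Subgroup.coe_mul, ihj]
        show π ((v * z) ^ j) * (π z ^ j)⁻¹ * (π (z ^ j) * (e : G ⧸ Φ) * (π (z ^ j))⁻¹) = _
        rw [← hve]
        simp only [map_pow, map_mul, pow_succ]
        group
    refine Subtype.ext ((key N).trans ?_)
    rw [hexp P (v * z) (Subgroup.mul_mem _ (hFP hv) hzP), ← map_pow, hNz, map_one, inv_one, mul_one]
    rfl
  letI := Fintype.ofFinite B
  have hfix : ∀ e : E, ∀ b : B, c b e = e := by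
    intro e
    let T' : E → E := fun u => ∏ a : B, c a u
    have hTfix : ∀ (u : E) (b : B), c b (T' u) = T' u := fun u b => by
      show c b (∏ a : B, c a u) = ∏ a : B, c a u
      rw [map_prod, ← Equiv.prod_comp (Equiv.mulLeft b) (fun a : B => c a u)]
      exact Finset.prod_congr rfl fun a _ => by rw [hc]; rfl
    have h0 : ∏ a : B, c a (∏ i ∈ Finset.range N, c (z ^ i) (c (a : G)⁻¹ e)) = 1 :=
      Finset.prod_eq_one fun a _ => by rw [hnorm, map_one]
    have h1 : ∏ i ∈ Finset.range N, ∏ a : B, c ((a : G) * z ^ i * (a : G)⁻¹) e = 1 := by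
      rw [Finset.prod_comm, ← h0]
      refine Finset.prod_congr rfl fun a _ => ?_
      rw [map_prod]
      exact Finset.prod_congr rfl fun i _ => by rw [hc, hc]
    have hNpos : 0 < N := pow_pos hp.pos _
    rw [← Finset.insert_erase (Finset.mem_range.2 hNpos), Finset.prod_insert (Finset.notMem_erase _ _)] at h1
    have hz0 : ∏ a : B, c ((a : G) * z ^ 0 * (a : G)⁻¹) e = e ^ Fintype.card B := by
      rw [Finset.prod_congr rfl (g := fun _ => e) fun a _ => by
        rw [pow_zero, mul_one, mul_inv_cancel]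
        exact Subtype.ext (by show π 1 * (e : G ⧸ Φ) * (π 1)⁻¹ = e; rw [map_one]; group),
        Finset.prod_const, Finset.card_univ]
    have hzi : ∀ i ∈ (Finset.range N).erase 0,
        ∏ a : B, c ((a : G) * z ^ i * (a : G)⁻¹) e = T' (c (z ^ i) e) := by
      intro i hi
      obtain ⟨hi0, hiN⟩ := Finset.mem_erase.1 hi
      let φ : B → B := fun a => ⟨(a : G) * (z ^ i * (a : G)⁻¹ * (z ^ i)⁻¹),
        B.mul_mem a.2 (hzconj i _ (B.inv_mem a.2))⟩
      have hφ : Function.Bijective φ := by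
        refine (Finite.injective_iff_bijective).1 fun a b e => ?_
        have e' : (a : G) * (z ^ i * (a : G)⁻¹ * (z ^ i)⁻¹) = b * (z ^ i * (b : G)⁻¹ * (z ^ i)⁻¹) :=
          congrArg Subtype.val e
        have h2 : (b : G)⁻¹ * a * z ^ i = z ^ i * ((b : G)⁻¹ * a) := by
          calc (b : G)⁻¹ * a * z ^ i
              = (b : G)⁻¹ * ((a : G) * (z ^ i * (a : G)⁻¹ * (z ^ i)⁻¹)) * z ^ i * a := by group
            _ = z ^ i * ((b : G)⁻¹ * a) := by rw [e']; group
        have h3 := hfpf i (Nat.pos_of_ne_zero hi0) (Finset.mem_range.1 hiN) _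
          (B.mul_mem (B.inv_mem b.2) a.2) h2.symm
        exact Subtype.ext (inv_mul_eq_one.1 h3).symm
      show _ = ∏ a : B, c a (c (z ^ i) e)
      rw [← Equiv.prod_comp (Equiv.ofBijective φ hφ) (fun a : B => c a (c (z ^ i) e))]
      refine Finset.prod_congr rfl fun a _ => ?_
      rw [hc]
      congr 2
      show (a : G) * z ^ i * (a : G)⁻¹ = (a : G) * (z ^ i * (a : G)⁻¹ * (z ^ i)⁻¹) * z ^ i
      group
    rw [hz0, Finset.prod_congr rfl hzi] at h1
    intro b
    have h2 : c b e ^ Fintype.card B = e ^ Fintype.card B := by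
      rw [← map_pow, eq_inv_of_mul_eq_one_left h1, map_inv, map_prod]
      exact congrArg _ (Finset.prod_congr rfl fun i _ => hTfix _ b)
    have hEp : IsPGroup p E := (isPGroup_pCore (G := G) p).map π
    obtain ⟨j, hj⟩ := IsPGroup.iff_card.1 hEp
    have hco : (Fintype.card B).Coprime (Nat.card E) := by
      rw [← Nat.card_eq_fintype_card, hj]
      obtain ⟨j', hj'⟩ := IsPGroup.iff_card.1 hEp
      rw [hBc, hrel]
      exact ((coprime_card_pPrimeCore p).coprime_dvd_left (Subgroup.card_dvd_of_le (hQ₁Q.trans hQX))).pow_right j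
    exact (powCoprime (G := E) (n := Fintype.card B) hco.symm).injective h2
  have hBcen : B ≤ Subgroup.centralizer (F : Set G) := by
    refine le_centralizer_of_trivial_mod_frattini (le_normalizer_normal B) ?_ fun b hb v hv => ?_
    · refine hBcop.coprime_dvd_right ?_
      exact (frattini F).card_subgroup_dvd_card
    · have h := congrArg Subtype.val (hfix ⟨π v, v, hv, rfl⟩ ⟨b, hb⟩)
      have h' : π b * π v * (π b)⁻¹ = π v := h
      refine (QuotientGroup.eq_one_iff _).1 ?_
      show π (b * v * b⁻¹ * v⁻¹) = 1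
      rw [map_mul, map_mul, map_mul, map_inv, map_inv, h', mul_inv_cancel]
  have hBF' : B ≤ F := hBcen.trans (centralizer_pCore_le_of_isPSolvable hG hcore)
  apply hQ₁ne
  rw [← Subgroup.map_comap_eq_self_of_surjective hfs Q₁, ← hT, ← hBF, sup_eq_right.2 hBF', hf,
    QuotientGroup.map_mk'_self]

open CfsgLib.Core in
private theorem main {p : ℕ} [Fact p.Prime] : ∀ (n : ℕ) (G : Type w) [Group G] [Finite G],
    Cfsg.IsPSolvable p G →
    (∀ (q : ℕ) [Fact q.Prime], q ≠ p → ∀ Q : Sylow q G, IsMulCommutative (Q : Subgroup G)) →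
    (∀ (P : Sylow p G), ∀ x ∈ (P : Subgroup G), x ^ p ^ n = 1) → Cfsg.PLengthLE p n G := by
  intro n
  induction n with
  | zero =>
    intro G _ _ _ _ hexp
    obtain ⟨P⟩ := (inferInstance : Nonempty (Sylow p G))
    have hP1 : (P : Subgroup G) = ⊥ := (Subgroup.eq_bot_iff_forall _).2 fun x hx => by
      have h := hexp P x hx; rwa [pow_zero, pow_one] at h
    have hnd : ¬ p ∣ Nat.card G := by
      have h := P.not_dvd_index
      rwa [hP1, Subgroup.index_bot] at h
    show PLen.term p G 1 = ⊤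
    refine top_le_iff.1 (PLen.le_succ_of_coprime (i := 0) ⟨0, rfl⟩ _ ?_)
    show ((⊥ : Subgroup G).relIndex ⊤).Coprime p
    rw [Subgroup.relIndex_bot_left, Subgroup.card_top]
    exact ((Fact.out : p.Prime).coprime_iff_not_dvd.2 hnd).symm
  | succ n ih =>
    intro G _ _ hG hab hexp
    refine PLen.pLengthLE_succ_of_quotient (ih _ (isPSolvable_of_surjective _ (QuotientGroup.mk'_surjective _) hG)
      (fun q _ hq Q => ?_) fun P x hx => ?_)
    · obtain ⟨Q', rfl⟩ := Sylow.mapSurjective_surjective (QuotientGroup.mk'_surjective (PLen.term p G 2)) q Q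
      haveI := hab q hq Q'
      rw [Sylow.coe_mapSurjective]
      infer_instance
    · obtain ⟨P', rfl⟩ := Sylow.mapSurjective_surjective (QuotientGroup.mk'_surjective (PLen.term p G 2)) p P
      rw [Sylow.coe_mapSurjective] at hx
      obtain ⟨g, hg, rfl⟩ := hx
      rw [← map_pow, QuotientGroup.mk'_apply, QuotientGroup.eq_one_iff]
      show g ^ p ^ n ∈ PLen.term p G (1 + 1)
      rw [PLen.term_succ_odd (by decide), Subgroup.mem_comap, map_pow]
      set K := PLen.term p G 1
      have hfs := QuotientGroup.mk'_surjective K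
      have hcore : Cfsg.pPrimeCore p (G ⧸ K) = ⊥ := by
        have h1 : ((Cfsg.pPrimeCore p (G ⧸ K)).comap (QuotientGroup.mk' K)) ≤ K := by
          haveI := (normal_pPrimeCore (G := G ⧸ K) p).comap (QuotientGroup.mk' K)
          refine PLen.absorb_coprime 0 (N := K) le_rfl ?_
          rw [PLen.relIndex_eq_card_map, Subgroup.map_comap_eq_self_of_surjective hfs]
          exact coprime_card_pPrimeCore p
        rw [← Subgroup.map_comap_eq_self_of_surjective hfs (Cfsg.pPrimeCore p (G ⧸ K)), Subgroup.map_eq_bot_iff,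
          QuotientGroup.ker_mk']
        exact h1
      refine key (isPSolvable_of_surjective _ hfs hG) hcore (fun q _ hq Q => ?_) n (fun P x hx => ?_)
        (P'.mapSurjective hfs) _ (by rw [Sylow.coe_mapSurjective]; exact ⟨g, hg, rfl⟩)
      · obtain ⟨Q', rfl⟩ := Sylow.mapSurjective_surjective hfs q Q
        haveI := hab q hq Q'
        rw [Sylow.coe_mapSurjective]
        infer_instance
      · obtain ⟨P'', rfl⟩ := Sylow.mapSurjective_surjective hfs p P
        rw [Sylow.coe_mapSurjective] at hx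
        obtain ⟨h, hh, rfl⟩ := hx
        rw [← map_pow, hexp P'' h hh, map_one]


/-- Let G be a finite p-soluble group in which, for every prime q ≠ p, the Sylow q-subgroups are abelian. If the Sylow p-subgroups of G have exponent dividing p^n, then G has p-length at most n. -/
theorem result {G : Type*} [Group G] [Finite G] {p : ℕ} [Fact p.Prime] (hG : Cfsg.IsPSolvable p G) (hab : ∀ (q : ℕ) [Fact q.Prime], q ≠ p → ∀ Q : Sylow q G, IsMulCommutative (Q : Subgroup G)) (n : ℕ) (hexp : ∀ (P : Sylow p G), ∀ x ∈ (P : Subgroup G), x ^ p ^ n = 1) : Cfsg.PLengthLE p n G := by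
  exact main n G hG hab hexp

end Cfsg.Agent.S3783
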