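import Cfsg.Statements.S3784
import Cfsg.Agent.Lib.CoreBasic
import Mathlib.NumberTheory.Fermat
import Mathlib.Tactic.Ring
import Mathlib.Tactic.Linarith
import Mathlib.Tactic.IntervalCases

set_option autoImplicit false
set_option maxHeartbeats 400000
open Cfsg

namespace Cfsg.Agent.S3784

/-- Let p, q be primes and a, b positive integers with p^a = q^b + 1. Then either p = 2, b = 1, a is prime and q = 2^a − 1; or q = 2, a = 1, b is a power of 2 and p = 2^b + 1; or p^a = 9 and q^b = 8. -/
theorem result (p q a b : ℕ) (hp : p.Prime) (hq : q.Prime) (ha : 1 ≤ a) (hb : 1 ≤ b) (h : p ^ a = q ^ b + 1) : (p = 2 ∧ b = 1 ∧ a.Prime ∧ q + 1 = 2 ^ a) ∨ (q = 2 ∧ a = 1 ∧ (∃ m : ℕ, b = 2 ^ m) ∧ p = 2 ^ b + 1) ∨ (p ^ a = 9 ∧ q ^ b = 8) := by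
  have hp2 := hp.two_le
  have hq2 := hq.two_le
  rcases hp.eq_two_or_odd' with rfl | hpodd
  · left
    have hqodd : Odd q := by
      rcases hq.eq_two_or_odd' with rfl | h'
      · exfalso
        have h1 : 2 ∣ 2 ^ a := dvd_pow_self 2 (by omega)
        have h2 : 2 ∣ 2 ^ b := dvd_pow_self 2 (by omega)
        omega
      · exact h'
    have hb1 : b = 1 := by
      rcases Nat.even_or_odd b with ⟨k, hk⟩ | hbo
      · exfalso
        obtain ⟨u, hu⟩ := hqodd.pow (n := k)
        have ha2 : 2 ≤ a := by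
          by_contra hlt
          have : a = 1 := by omega
          subst this
          have : 1 < q ^ b := Nat.one_lt_pow (by omega) (by omega)
          omega
        have h4 : 4 ∣ 2 ^ a := pow_dvd_pow 2 ha2
        have h5 : q ^ b = (2 * u + 1) * (2 * u + 1) := by rw [hk, pow_add, hu]
        rw [h, h5, show (2 * u + 1) * (2 * u + 1) + 1 = 4 * (u * u + u) + 2 by ring] at h4
        omega
      · obtain ⟨k, hk⟩ := hbo
        by_contra hne
        have hd : q + 1 ∣ 2 ^ a := by
          rw [h]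
          have hbodd : Odd b := ⟨k, hk⟩
          have := hbodd.nat_add_dvd_pow_add_pow q 1
          rwa [one_pow] at this
        obtain ⟨c, -, hc⟩ := (Nat.dvd_prime_pow Nat.prime_two).1 hd
        have key : ∀ n : ℕ, ∃ t : ℤ, ((2 : ℤ) ^ c - 1) ^ (2 * n + 1) + 1 = (2 * n + 1) * 2 ^ c + (2 ^ c) ^ 2 * t := by
          intro n
          induction n with
          | zero => exact ⟨0, by ring⟩
          | succ n ih =>
            obtain ⟨t, ht⟩ := ih
            refine ⟨t * ((2 : ℤ) ^ c - 1) ^ 2 - 1 - 2 * (2 * n + 1) + 2 ^ c * (2 * n + 1), ?_⟩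
            have ht' : ((2 : ℤ) ^ c - 1) ^ (2 * n + 1) = (2 * n + 1) * 2 ^ c + (2 ^ c) ^ 2 * t - 1 := by linarith
            rw [show 2 * (n + 1) + 1 = (2 * n + 1) + 2 by ring, pow_add, ht']
            push_cast
            ring
        obtain ⟨t, ht⟩ := key k
        have hq' : ((q : ℤ)) = 2 ^ c - 1 := by
          have : ((q + 1 : ℕ) : ℤ) = ((2 ^ c : ℕ) : ℤ) := by rw [hc]
          push_cast at this; linarith
        have hqb : ((2 : ℤ) ^ a) = ((2 : ℤ) ^ c - 1) ^ (2 * k + 1) + 1 := by
          rw [← hq', ← hk]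
          exact_mod_cast h
        rw [ht] at hqb
        have hca : c < a := by
          refine (Nat.pow_lt_pow_iff_right (a := 2) (by norm_num)).1 ?_
          rw [← hc, h]
          have : q ^ 1 < q ^ b := Nat.pow_lt_pow_right (by omega) (by omega)
          rw [pow_one] at this; omega
        have hcpos : 1 ≤ c := by
          by_contra hc0
          have : c = 0 := by omega
          subst this; simp at hc; omega
        obtain ⟨e, rfl⟩ : ∃ e, a = c + 1 + e := ⟨a - c - 1, by omega⟩
        obtain ⟨f, rfl⟩ : ∃ f, c = f + 1 := ⟨c - 1, by omega⟩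
        have h6 : (2 : ℤ) * 2 ^ e = (2 * k + 1) + 2 * (2 ^ f * t) := by
          refine mul_left_cancel₀ (pow_ne_zero (f + 1) (two_ne_zero (α := ℤ))) ?_
          calc (2 : ℤ) ^ (f + 1) * (2 * 2 ^ e) = 2 ^ (f + 1 + 1 + e) := by ring
            _ = _ := by rw [hqb]; ring
        omega
    subst hb1
    rw [pow_one] at h
    refine ⟨rfl, rfl, ?_, h.symm⟩
    have hP : (2 ^ a - 1).Prime := by rw [h, Nat.add_sub_cancel]; exact hq
    refine (Nat.prime_of_pow_sub_one_prime (fun e => ?_) hP).2
    subst e; simp at h; omega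
  · right
    have hq2' : q = 2 := by
      rcases hq.eq_two_or_odd' with h' | h'
      · exact h'
      · exfalso
        obtain ⟨u, hu⟩ := hpodd.pow (n := a)
        obtain ⟨v, hv⟩ := h'.pow (n := b)
        omega
    subst hq2'
    rcases Nat.lt_or_ge 1 a with ha1 | ha1
    swap
    · left
      have : a = 1 := by omega
      subst this
      rw [pow_one] at h
      exact ⟨rfl, rfl, Nat.pow_of_pow_add_prime (by norm_num) (by omega) (h ▸ hp), h⟩
    rcases Nat.even_or_odd a with ⟨k, hk⟩ | hao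
    · right
      have h1 : (p ^ k - 1) * (p ^ k + 1) = 2 ^ b := by
        have : p ^ k * p ^ k = 2 ^ b + 1 := by rw [← pow_add, ← hk, h]
        obtain ⟨w, hw⟩ : ∃ w, p ^ k = w + 1 := ⟨p ^ k - 1, by have := Nat.one_le_pow k p (by omega); omega⟩
        rw [hw] at this ⊢
        simp only [Nat.add_sub_cancel]
        nlinarith
      obtain ⟨i, -, hi⟩ := (Nat.dvd_prime_pow Nat.prime_two).1 (Dvd.intro _ h1)
      obtain ⟨j, -, hj⟩ := (Nat.dvd_prime_pow Nat.prime_two).1 (Dvd.intro_left _ h1)
      have hpk : p ^ k = 3 := by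
        have h3 : 2 < p ^ k := by
          have : p ^ 1 ≤ p ^ k := Nat.pow_le_pow_right (by omega) (by omega)
          obtain ⟨u, hu⟩ := hpodd
          rw [pow_one] at this; omega
        rcases Nat.lt_or_ge i 2 with hi2 | hi2
        · interval_cases i <;> omega
        · exfalso
          have h4 : 4 ∣ 2 ^ i := pow_dvd_pow 2 hi2
          have h5 : 2 ≤ j := by
            by_contra hlt
            interval_cases j <;> omega
          have h6 : 4 ∣ 2 ^ j := pow_dvd_pow 2 h5
          omega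
      have h9 : p ^ a = 9 := by rw [hk, pow_add, hpk]; norm_num
      exact ⟨h9, by omega⟩
    · exfalso
      obtain ⟨k, hk⟩ := hao
      have hd : p - 1 ∣ 2 ^ b := by
        have := Nat.sub_dvd_pow_sub_pow p 1 a
        rwa [one_pow, h, Nat.add_sub_cancel] at this
      obtain ⟨c, -, hc⟩ := (Nat.dvd_prime_pow Nat.prime_two).1 hd
      obtain ⟨u, hu⟩ := hpodd
      obtain ⟨f, rfl⟩ : ∃ f, c = f + 1 := ⟨c - 1, by
        rcases Nat.eq_zero_or_pos c with rfl | h'
        · simp at hc; omega
        · omega⟩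
      have key : ∀ n : ℕ, ∃ t : ℤ, ((2 : ℤ) ^ (f + 1) + 1) ^ n = 1 + n * 2 ^ (f + 1) + (2 ^ (f + 1)) ^ 2 * t := by
        intro n
        induction n with
        | zero => exact ⟨0, by ring⟩
        | succ n ih =>
          obtain ⟨t, ht⟩ := ih
          exact ⟨t * ((2 : ℤ) ^ (f + 1) + 1) + n, by rw [pow_succ, ht]; push_cast; ring⟩
      obtain ⟨t, ht⟩ := key a
      have hp' : ((p : ℤ)) = 2 ^ (f + 1) + 1 := by
        have : ((p - 1 : ℕ) : ℤ) = ((2 ^ (f + 1) : ℕ) : ℤ) := by rw [hc]
        rw [Nat.cast_sub (by omega)] at this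
        push_cast at this; linarith
      have hpa : ((p : ℤ)) ^ a = 2 ^ b + 1 := by exact_mod_cast h
      rw [hp', ht] at hpa
      have hfb : f + 1 < b := by
        refine (Nat.pow_lt_pow_iff_right (a := 2) (by norm_num)).1 ?_
        have : p ^ 1 < p ^ a := Nat.pow_lt_pow_right (by omega) ha1
        rw [pow_one] at this; omega
      obtain ⟨e, rfl⟩ : ∃ e, b = f + 1 + 1 + e := ⟨b - f - 2, by omega⟩
      have h6 : (2 : ℤ) * 2 ^ e = a + 2 * (2 ^ f * t) := by
        refine mul_left_cancel₀ (pow_ne_zero (f + 1) (two_ne_zero (α := ℤ))) ?_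
        calc (2 : ℤ) ^ (f + 1) * (2 * 2 ^ e) = 2 ^ (f + 1 + 1 + e) := by ring
          _ = 1 + (a : ℤ) * 2 ^ (f + 1) + (2 ^ (f + 1)) ^ 2 * t - 1 := by rw [hpa]; ring
          _ = _ := by ring
      omega

end Cfsg.Agent.S3784
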