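import Cfsg.Statements.S3785
import Cfsg.Agent.Lib.CoreLayer
import Cfsg.Agent.Lib.CoreOmega

set_option autoImplicit false
open Cfsg

namespace Cfsg.Agent.S3785

/-- Let G be a finite solvable group whose Fitting subgroup F(G) has odd order. If an element g of G commutes with every element of prime order of F(G), then g ∈ F(G). -/
theorem result {G : Type*} [Group G] [Finite G] (hG : Group.IsSolvable G) (hodd : Odd (Nat.card (Cfsg.fittingSubgroup G))) (g : G) (hg : ∀ x ∈ Cfsg.fittingSubgroup G, (orderOf x).Prime → g * x = x * g) : g ∈ Cfsg.fittingSubgroup G := by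
  haveI := hG
  haveI := CfsgLib.Core.isNilpotent_fittingSubgroup (G := G)
  set F := Cfsg.fittingSubgroup G with hF
  have hqF : ∀ (q : ℕ) [Fact q.Prime] (y : G), y ∈ F → (∃ k : ℕ, y ^ q ^ k = 1) → y ∈ Cfsg.pCore q G := by
    intro q _ y hy ⟨k, hk⟩
    have hp : IsPGroup q (Subgroup.zpowers (⟨y, hy⟩ : F)) := by
      rintro ⟨_, i, rfl⟩
      refine ⟨k, Subtype.ext ?_⟩
      show ((⟨y, hy⟩ : F) ^ i) ^ q ^ k = 1
      rw [← zpow_natCast, ← zpow_mul, mul_comm, zpow_mul, zpow_natCast, show (⟨y, hy⟩ : F) ^ q ^ k = 1 from Subtype.ext hk, one_zpow]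
    obtain ⟨P, hP⟩ := hp.exists_le_sylow
    have h1 : (⟨y, hy⟩ : F) ∈ Cfsg.pCore q F := by
      rw [CfsgLib.Core.pCore_eq_sylow_of_nilpotent P]; exact hP (Subgroup.mem_zpowers _)
    exact CfsgLib.Core.pCore_map_subtype_le CfsgLib.Core.normal_fittingSubgroup ⟨_, h1, rfl⟩
  have hodd2 : ∀ y ∈ Cfsg.pCore 2 G, y = 1 := by
    intro y hy
    haveI : Fact (Nat.Prime 2) := ⟨Nat.prime_two⟩
    obtain ⟨k, hk⟩ := CfsgLib.Core.isPGroup_pCore (G := G) 2 ⟨y, hy⟩
    have h1 : orderOf y ∣ 2 ^ k := orderOf_dvd_of_pow_eq_one (congrArg Subtype.val hk)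
    have h2 : orderOf y ∣ Nat.card F := by
      rw [← Subgroup.orderOf_mk y (CfsgLib.Core.pCore_le_fittingSubgroup 2 hy)]
      exact orderOf_dvd_natCard _
    exact orderOf_eq_one_iff.1 (Nat.eq_one_of_dvd_coprimes (hodd.coprime_two_left.pow_left k) h1 h2)
  have hfix : ∀ (p : ℕ) [Fact p.Prime] (y : G), (orderOf y).Coprime p →
      (∀ x ∈ Cfsg.pCore p G, x ^ p = 1 → y * x = x * y) → ∀ x ∈ Cfsg.pCore p G, y * x = x * y := by
    intro p _ y hcop h
    have hN : y ∈ Subgroup.normalizer (Cfsg.pCore p G : Set G) := by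
      haveI := CfsgLib.Core.normal_pCore (G := G) p
      rw [Subgroup.normalizer_eq_top]; trivial
    have hc := CfsgLib.Core.mem_centralizer_of_fixes_omega (CfsgLib.Core.isPGroup_pCore p) hN hcop (fun x hx h' => by
      have h1 : x ^ p = 1 := by
        rcases h' with h1 | ⟨rfl, -⟩
        · exact h1
        · rw [hodd2 x hx, one_pow]
      rw [h x hx h1, mul_inv_cancel_right])
    exact fun x hx => ((Subgroup.mem_centralizer_iff.1 hc) x hx).symm
  have hprime : ∀ (p : ℕ) [Fact p.Prime] (y : G), y ∈ Subgroup.zpowers g →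
      ∀ x ∈ Cfsg.pCore p G, x ^ p = 1 → y * x = x * y := by
    rintro p _ _ ⟨i, rfl⟩ x hx hxp
    by_cases hx1 : x = 1
    · rw [hx1]; group
    · have ho : (orderOf x).Prime := by rw [orderOf_eq_prime hxp hx1]; exact Fact.out
      exact (Commute.zpow_left (hg x (CfsgLib.Core.pCore_le_fittingSubgroup p hx) ho) i).eq
  have hr : ∀ (r : ℕ) [Fact r.Prime] (u : G), u ∈ Subgroup.zpowers g → (∃ k : ℕ, u ^ r ^ k = 1) → u ∈ F := by
    intro r _ u hu ⟨k, hk⟩
    let S : Set G := {x | (x ∈ Cfsg.pCore r G ∧ x ^ r = 1) ∨ ∃ p : ℕ, p.Prime ∧ p ≠ r ∧ x ∈ Cfsg.pCore p G}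
    set W := Subgroup.centralizer S with hW
    have hS : ∀ x ∈ S, ∀ c : G, c * x * c⁻¹ ∈ S := by
      rintro x (⟨hx, hxr⟩ | ⟨p, hp, hpr, hx⟩) c
      · exact Or.inl ⟨(CfsgLib.Core.normal_pCore r).conj_mem x hx c, by rw [conj_pow, hxr]; group⟩
      · exact Or.inr ⟨p, hp, hpr, (CfsgLib.Core.normal_pCore p).conj_mem x hx c⟩
    have hWn : W.Normal := ⟨fun w hw c => Subgroup.mem_centralizer_iff.2 fun x hx => by
      have h1 := Subgroup.mem_centralizer_iff.1 hw _ (hS x hx c⁻¹)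
      calc x * (c * w * c⁻¹) = c * (c⁻¹ * x * c⁻¹⁻¹ * w) * c⁻¹ := by group
        _ = c * (w * (c⁻¹ * x * c⁻¹⁻¹)) * c⁻¹ := by rw [h1]
        _ = _ := by group⟩
    haveI := hWn
    have hcent : ∀ (q : ℕ) [Fact q.Prime], q ≠ r → ∀ y ∈ W, (∃ j : ℕ, y ^ q ^ j = 1) → ∀ w ∈ W, y * w = w * y := by
      intro q _ hqr y hy ⟨j, hj⟩ w hw
      have hqr' : (orderOf y).Coprime r :=
        ((((Nat.coprime_primes Fact.out Fact.out).2 hqr).pow_left j).coprime_dvd_left (orderOf_dvd_of_pow_eq_one hj))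
      have hyF : y ∈ F := by
        refine CfsgLib.Core.centralizer_fitting_le (Subgroup.mem_centralizer_iff.2 ?_)
        intro x hx
        suffices hT : F ≤ Subgroup.centralizer {y} from Subgroup.mem_centralizer_singleton_iff.1 (hT hx)
        rw [hF, CfsgLib.Core.fittingSubgroup_eq_iSup_pCore]
        refine iSup_le fun p z hz => Subgroup.mem_centralizer_singleton_iff.2 ?_
        by_cases hpr : (p : ℕ) = r
        · rw [hpr] at hz
          exact (hfix r y hqr' (fun x hx hxr => (Subgroup.mem_centralizer_iff.1 hy x (Or.inl ⟨hx, hxr⟩)).symm) z hz).symm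
        · exact Subgroup.mem_centralizer_iff.1 hy z (Or.inr ⟨p, p.2, hpr, hz⟩)
      exact Subgroup.mem_centralizer_iff.1 hw y (Or.inr ⟨q, Fact.out, hqr, hqF q y hyF ⟨j, hj⟩⟩)
    have hWnil : Group.IsNilpotent W := by
      rw [CfsgLib.Core.isNilpotent_iff_sylow_normal]
      have hcq : ∀ (q : ℕ) [Fact q.Prime], q ≠ r → ∀ P : Sylow q W, (P : Subgroup W) ≤ Subgroup.center W := by
        intro q _ hqr P y hy
        obtain ⟨j, hj⟩ := P.isPGroup' ⟨y, hy⟩
        refine Subgroup.mem_center_iff.2 fun w => Subtype.ext ?_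
        exact (hcent q hqr (y : G) y.2 ⟨j, congrArg (fun z : (P : Subgroup W) => ((z : W) : G)) hj⟩ (w : G) w.2).symm
      intro p _ P
      rw [← Subgroup.normalizer_eq_top_iff]
      refine CfsgLib.Core.eq_top_of_sylow_le fun q hq => ?_
      by_cases hqp : q = p
      · subst hqp; exact ⟨P, Subgroup.le_normalizer⟩
      by_cases hqr : q = r
      · obtain ⟨Q⟩ : Nonempty (Sylow q W) := inferInstance
        refine ⟨Q, fun y _ => Subgroup.mem_normalizer_iff.2 fun z => ?_⟩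
        have hc := hcq p (fun e => hqp (hqr.trans e.symm)) P
        constructor
        · intro hz
          rw [Subgroup.mem_center_iff.1 (hc hz) y, mul_inv_cancel_right]; exact hz
        · intro hz
          have e : y * z * y⁻¹ = z := by
            have h1 := Subgroup.mem_center_iff.1 (hc hz) y⁻¹
            symm
            calc z = (y⁻¹ * (y * z * y⁻¹)) * y := by group
              _ = (y * z * y⁻¹ * y⁻¹) * y := by rw [h1]
              _ = y * z * y⁻¹ := by group
          rwa [e] at hz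
      · obtain ⟨Q⟩ : Nonempty (Sylow q W) := inferInstance
        exact ⟨Q, (hcq q hqr Q).trans (Subgroup.center_le_normalizer _)⟩
    refine CfsgLib.Core.le_fittingSubgroup hWn hWnil (Subgroup.mem_centralizer_iff.2 ?_)
    rintro x (⟨hx, hxr⟩ | ⟨p, hp, hpr, hx⟩)
    · exact (hprime r u hu x hx hxr).symm
    · haveI := Fact.mk hp
      refine (hfix p u ?_ (hprime p u hu) x hx).symm
      exact ((((Nat.coprime_primes Fact.out hp).2 (Ne.symm hpr)).pow_left k).coprime_dvd_left (orderOf_dvd_of_pow_eq_one hk))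
  have htop : F.subgroupOf (Subgroup.zpowers g) = ⊤ := by
    refine CfsgLib.Core.eq_top_of_sylow_le fun q hq => ?_
    obtain ⟨Q⟩ : Nonempty (Sylow q (Subgroup.zpowers g)) := inferInstance
    refine ⟨Q, fun y hy => ?_⟩
    obtain ⟨j, hj⟩ := Q.isPGroup' ⟨y, hy⟩
    exact hr q (y : G) y.2 ⟨j, congrArg (fun z : (Q : Subgroup (Subgroup.zpowers g)) => ((z : Subgroup.zpowers g) : G)) hj⟩
  exact (htop ▸ Subgroup.mem_top (⟨g, Subgroup.mem_zpowers g⟩ : Subgroup.zpowers g) :
    (⟨g, Subgroup.mem_zpowers g⟩ : Subgroup.zpowers g) ∈ F.subgroupOf (Subgroup.zpowers g))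

end Cfsg.Agent.S3785
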