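import Cfsg.Statements.S3790
import Cfsg.Agent.Lib.CorePLength

set_option autoImplicit false
open Cfsg

namespace Cfsg.Agent.S3790

universe w

private theorem main {G : Type w} [Group G] [Finite G] (p : ℕ) [Fact p.Prime] {r : ℕ} (q : Fin r → ℕ)
    (hq : ∀ i, (q i).Prime ∧ q i ≠ p) (l : Fin r → ℕ) (hl : ∀ i, Cfsg.PLengthLE (q i) (l i) G)
    (T : Finset (Fin r)) : ∀ (N M : Subgroup G), N.Normal → M.Normal → N ≤ M →
      (∀ s : ℕ, s.Prime → s ∣ N.relIndex M → s = p ∨ ∃ i ∈ T, q i = s) →
      CfsgLib.Core.PLen.Rel p (T.prod fun i => 1 + l i) N M := by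
  classical
  induction T using Finset.induction_on with
  | empty =>
    intro N M _ _ _ h
    have hne : N.relIndex M ≠ 0 := Subgroup.index_ne_zero_of_finite
    refine CfsgLib.Core.PLen.rel_pow (by simp) (Nat.eq_prime_pow_of_unique_prime_dvd hne fun {s} hs hd => ?_)
    rcases h s hs hd with h1 | ⟨i, hi, -⟩
    · exact h1
    · simp at hi
  | insert a T ha ih =>
    intro N M _ _ hNM h
    haveI := Fact.mk (hq a).1
    rw [Finset.prod_insert ha]
    refine CfsgLib.Core.PLen.rel_refine (hq a).2 (hl a) hNM fun A B hA hB _ hAB _ hcop hdvd => ?_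
    refine ih A B hA hB hAB fun s hs hd => ?_
    rcases h s hs (hd.trans hdvd) with h1 | ⟨i, hi, rfl⟩
    · exact Or.inl h1
    · refine Or.inr ⟨i, (Finset.mem_insert.1 hi).resolve_left fun e => ?_, rfl⟩
      subst e
      exact (hq i).1.coprime_iff_not_dvd.1 hcop.symm hd


/-- Let G be a finite solvable group and p a prime. Suppose p₁, …, p_r are distinct primes, all different from p, that include every prime dividing the order of G other than p, and that G has p_i-length at most l_i for each i. Then G has p-length at most the product of the numbers 1 + l_i. -/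
theorem result {G : Type*} [Group G] [Finite G] (hG : Group.IsSolvable G) (p : ℕ) [Fact p.Prime] (r : ℕ) (q : Fin r → ℕ) (hq : ∀ i, (q i).Prime ∧ q i ≠ p) (hinj : Function.Injective q) (hcover : ∀ s : ℕ, s.Prime → s ∣ Nat.card G → s ≠ p → ∃ i, q i = s) (l : Fin r → ℕ) (hl : ∀ i, Cfsg.PLengthLE (q i) (l i) G) : Cfsg.PLengthLE p (Finset.univ.prod fun i => 1 + l i) G := by
  refine CfsgLib.Core.PLen.pLengthLE_of_rel (main p q hq l hl Finset.univ ⊥ ⊤ inferInstance inferInstance
    bot_le fun s hs hd => ?_)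
  rw [Subgroup.relIndex_bot_left, Subgroup.card_top] at hd
  rcases eq_or_ne s p with h | h
  · exact Or.inl h
  · obtain ⟨i, hi⟩ := hcover s hs hd h
    exact Or.inr ⟨i, Finset.mem_univ i, hi⟩

end Cfsg.Agent.S3790
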