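import Cfsg.Statements.S3791
import Cfsg.Agent.Lib.CorePLength

set_option autoImplicit false
open Cfsg

namespace Cfsg.Agent.S3791

universe w

open CfsgLib.Core in
private theorem derived_add {G : Type w} [Group G] {U : Subgroup G} {a : ℕ} (h : derivedSeries G a ≤ U) :
    ∀ b, derivedSeries G (a + b) ≤ (derivedSeries U b).map U.subtype := by
  intro b
  induction b with
  | zero => rw [Nat.add_zero, derivedSeries_zero, ← MonoidHom.range_eq_map, Subgroup.range_subtype]; exact h
  | succ b ih =>
    rw [← Nat.add_assoc, derivedSeries_succ, derivedSeries_succ, Subgroup.map_commutator]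
    exact Subgroup.commutator_mono ih ih

open CfsgLib.Core in
private theorem main {r : ℕ} (q : Fin r → ℕ) (hq : ∀ i, (q i).Prime) (d : Fin r → ℕ) :
    ∀ (n : ℕ) (G : Type w) [Group G] [Finite G] [Group.IsSolvable G], Nat.card G = n →
    (∀ s : ℕ, s.Prime → s ∣ Nat.card G → ∃ i, q i = s) →
    (∀ i, ∀ S : Sylow (q i) G, derivedSeries ↥(S : Subgroup G) (d i) = ⊥) →
    ∀ l : Fin r → ℕ, (∀ i, Cfsg.PLengthLE (q i) (l i) G) →
    derivedSeries G (Finset.univ.sum fun i => d i * l i) = ⊥ := by
  intro n
  induction n using Nat.strong_induction_on with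
  | _ n ih =>
  intro G _ _ _ hn hcov hd l hl
  subst hn
  classical
  rcases subsingleton_or_nontrivial G with hs | hs
  · exact Subsingleton.elim _ _
  obtain ⟨N, hNn, hN0, -, hmin⟩ := exists_minimal_normal_le (N := (⊤ : Subgroup G)) top_ne_bot
  haveI := hNn
  have hquot : ∀ (K : Subgroup G) [K.Normal], K ≠ ⊥ → ∀ l' : Fin r → ℕ,
      (∀ i, Cfsg.PLengthLE (q i) (l' i) (G ⧸ K)) →
      derivedSeries G (Finset.univ.sum fun i => d i * l' i) ≤ K := by
    intro K _ hK l' hl'
    haveI : Group.IsSolvable (G ⧸ K) := Group.isSolvable_of_surjective (QuotientGroup.mk'_surjective K)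
    have h1 := ih _ (card_quotient_lt hK) (G ⧸ K) rfl
      (fun s hs hsd => hcov s hs (hsd.trans (Subgroup.card_quotient_dvd_card K)))
      (fun i S => by
        haveI := Fact.mk (hq i)
        obtain ⟨S', rfl⟩ := Sylow.mapSurjective_surjective (QuotientGroup.mk'_surjective K) (q i) S
        have h2 := map_derivedSeries_eq
          ((QuotientGroup.mk' K).subgroupMap_surjective (S' : Subgroup G)) (d i)
        rw [hd i S', Subgroup.map_bot] at h2
        exact h2.symm) l' hl'
    rwa [← map_derivedSeries_eq (QuotientGroup.mk'_surjective K), Subgroup.map_eq_bot_iff,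
      QuotientGroup.ker_mk'] at h1
  have hfix : ∀ (K : Subgroup G) [K.Normal], K ≠ ⊥ → ∀ i, Cfsg.PLengthLE (q i) (l i) (G ⧸ K) :=
    fun K _ _ i => by
      haveI := Fact.mk (hq i)
      exact PLen.pLengthLE_of_surjective _ (QuotientGroup.mk'_surjective K) (hl i)
  by_cases h2 : ∃ K : Subgroup G, K.Normal ∧ K ≠ ⊥ ∧ N ⊓ K = ⊥
  · obtain ⟨K, hKn, hK0, hNK⟩ := h2
    haveI := hKn
    exact le_bot_iff.1 (hNK ▸ le_inf (hquot N hN0 l (hfix N hN0)) (hquot K hK0 l (hfix K hK0)))
  have huniq : ∀ K : Subgroup G, K.Normal → K ≠ ⊥ → N ≤ K := by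
    intro K hK hK0
    rcases hmin (N ⊓ K) inferInstance inf_le_left with h | h
    · exact absurd ⟨K, hK, hK0, h⟩ h2
    · exact inf_eq_left.1 h
  obtain ⟨s, hs, hNs⟩ := exists_isPGroup_of_minimal_normal hN0 hmin
  haveI := Fact.mk hs
  have hsN : s ∣ Nat.card N := by
    haveI : Nontrivial N := (Subgroup.nontrivial_iff_ne_bot N).2 hN0
    obtain ⟨a, ha, hc⟩ := hNs.nontrivial_iff_card.1 inferInstance
    exact hc ▸ dvd_pow_self s ha.ne'
  obtain ⟨i, rfl⟩ := hcov s hs (hsN.trans N.card_subgroup_dvd_card)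
  have hterm1 : PLen.term (q i) G 1 = ⊥ := by
    by_contra h
    have h3 := Nat.Coprime.coprime_dvd_left
      (Subgroup.card_dvd_of_le (huniq _ inferInstance h))
      ((Subgroup.relIndex_bot_left (PLen.term (q i) G 1)).symm ▸
        PLen.coprime_relIndex_succ (p := q i) (G := G) (i := 0) ⟨0, rfl⟩)
    exact (Nat.Prime.coprime_iff_not_dvd hs).1 h3.symm hsN
  obtain ⟨l', hl'⟩ : ∃ l', l i = l' + 1 := by
    refine Nat.exists_eq_add_one.2 (Nat.pos_of_ne_zero fun h => ?_)
    have h3 := hl i
    rw [h] at h3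
    exact top_ne_bot (α := Subgroup G) ((show PLen.term (q i) G 1 = ⊤ from h3).symm.trans hterm1)
  set U := PLen.term (q i) G 2 with hU
  have hNU : N ≤ U := by
    obtain ⟨m, hm⟩ := IsPGroup.iff_card.1 hNs
    refine PLen.le_succ_of_pow (i := 1) (by decide) N (m := m) ?_
    rw [hterm1, Subgroup.relIndex_bot_left, hm]
  have hUp : IsPGroup (q i) U := by
    obtain ⟨m, hm⟩ := PLen.pow_relIndex_succ (p := q i) (G := G) (i := 1) (by decide)
    rw [hterm1, Subgroup.relIndex_bot_left] at hm
    exact IsPGroup.of_card hm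
  have h4 := hquot U (fun h => hN0 (le_bot_iff.1 (h ▸ hNU))) (Function.update l i l') (fun j => by
    haveI := Fact.mk (hq j)
    rcases eq_or_ne j i with rfl | hj
    · rw [Function.update_self]
      exact PLen.pLengthLE_quotient (hl' ▸ hl j)
    · rw [Function.update_of_ne hj]
      exact PLen.pLengthLE_of_surjective _ (QuotientGroup.mk'_surjective U) (hl j))
  have hsum : (Finset.univ.sum fun j => d j * l j) =
      (Finset.univ.sum fun j => d j * Function.update l i l' j) + d i := by
    rw [← Finset.add_sum_erase _ _ (Finset.mem_univ i), ← Finset.add_sum_erase _ _ (Finset.mem_univ i),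
      Function.update_self, hl', Finset.sum_congr rfl (fun j hj => by
        rw [Function.update_of_ne (Finset.ne_of_mem_erase hj)] :
        ∀ j ∈ Finset.univ.erase i, d j * Function.update l i l' j = d j * l j)]
    ring
  obtain ⟨S, hS⟩ := hUp.exists_le_sylow
  have h5 : derivedSeries U (d i) = ⊥ := by
    refine (Subgroup.map_eq_bot_iff_of_injective _ (Subgroup.inclusion_injective hS)).1 (le_bot_iff.1 ?_)
    exact (map_derivedSeries_le_derivedSeries (Subgroup.inclusion hS) (d i)).trans (hd i S).le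
  rw [hsum]
  refine le_bot_iff.1 ((derived_add h4 (d i)).trans ?_)
  rw [h5, Subgroup.map_bot]


/-- The Hall–Higman bound on derived length: let G be a finite solvable group, let p₁, …, p_r be distinct primes that include every prime dividing the order of G, and suppose that for each i the Sylow p_i-subgroups of G have derived length at most d_i and G has p_i-length at most l_i. Then G has derived length at most Σ d_i l_i. -/
theorem result {G : Type*} [Group G] [Finite G] (hG : Group.IsSolvable G) (r : ℕ) (q : Fin r → ℕ) (hq : ∀ i, (q i).Prime) (hinj : Function.Injective q) (hcover : ∀ s : ℕ, s.Prime → s ∣ Nat.card G → ∃ i, q i = s) (d l : Fin r → ℕ) (hd : ∀ i, ∀ P : Subgroup G, (haveI := Fact.mk (hq i); ∃ S : Sylow (q i) G, (S : Subgroup G) = P) → derivedSeries ↥P (d i) = ⊥) (hl : ∀ i, Cfsg.PLengthLE (q i) (l i) G) : derivedSeries G (Finset.univ.sum fun i => d i * l i) = ⊥ := by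
  haveI := hG
  exact main q hq d _ G rfl hcover (fun i S => hd i _ ⟨S, rfl⟩) l hl

end Cfsg.Agent.S3791
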