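import Cfsg.Statements.S3793
import Cfsg.Agent.Lib.CoreShultGross

set_option autoImplicit false
open Cfsg

namespace Cfsg.Agent.S3793

open CfsgLib.Core
open scoped IsMulCommutative

universe u

/-- A fixed-point-free automorphism of `p`-power order forces order prime to `p`. -/
theorem not_dvd_card {G : Type u} [Group G] [Finite G] {p m : ℕ} [hp : Fact p.Prime] (σ : MulAut G)
    (hσ : σ ^ (p ^ m) = 1) (hfpf : ∀ g, σ g = g → g = 1) : ¬ p ∣ Nat.card G := by
  intro hd
  have hB : IsPGroup p (Subgroup.zpowers σ) := fun b => ⟨m, Subtype.ext (by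
    obtain ⟨k, hk⟩ := Subgroup.mem_zpowers_iff.1 b.2
    show (b : MulAut G) ^ (p ^ m) = 1
    rw [← hk, ← zpow_natCast, ← zpow_mul, mul_comm, zpow_mul, zpow_natCast, hσ, one_zpow])⟩
  letI : MulAction (Subgroup.zpowers σ) G := MulAction.compHom G (Subgroup.zpowers σ).subtype
  have hone : (1 : G) ∈ MulAction.fixedPoints (Subgroup.zpowers σ) G := fun a => map_one (a : MulAut G)
  obtain ⟨g, hg, hg1⟩ := hB.exists_fixed_point_of_prime_dvd_card_of_fixed_point G hd hone
  exact hg1 (hfpf g (hg ⟨σ, Subgroup.mem_zpowers σ⟩)).symm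

/-- A `p`-power automorphism fixing a set of size prime to `p` fixes a point of it. -/
theorem exists_fixed_pt {G : Type u} [Group G] [Finite G] {p m : ℕ} [hp : Fact p.Prime]
    (σ : MulAut G) (hσ : σ ^ (p ^ m) = 1) (T : Set G) (hT : ∀ g ∈ T, σ g ∈ T)
    (hc : ¬ p ∣ Nat.card T) : ∃ g ∈ T, σ g = g := by
  have hB : IsPGroup p (Subgroup.zpowers σ) := fun b => ⟨m, Subtype.ext (by
    obtain ⟨k, hk⟩ := Subgroup.mem_zpowers_iff.1 b.2
    show (b : MulAut G) ^ (p ^ m) = 1
    rw [← hk, ← zpow_natCast, ← zpow_mul, mul_comm, zpow_mul, zpow_natCast, hσ, one_zpow])⟩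
  obtain ⟨g, hg, hgf⟩ := Ward.exists_fixed hB (Subgroup.zpowers σ).subtype T (by
    rintro ⟨b, hb⟩ g hg
    obtain ⟨j, rfl⟩ := mem_zpowers_nat hb
    show (σ ^ j) g ∈ T
    clear hb
    induction j with
    | zero => simpa using hg
    | succ j ih => rw [pow_succ', MulAut.mul_apply]; exact hT _ ih) hc
  exact ⟨g, hg, hgf ⟨σ, Subgroup.mem_zpowers σ⟩⟩

/-- `p`-power automorphisms of a coset of an invariant subgroup. -/
theorem fixed_lift {G : Type u} [Group G] [Finite G] {p m : ℕ} [hp : Fact p.Prime]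
    (σ : MulAut G) (hσ : σ ^ (p ^ m) = 1) (hfpf : ∀ g, σ g = g → g = 1) (N : Subgroup G) [N.Normal]
    (hN : ∀ g ∈ N, σ g ∈ N) {x : G} (hx : x⁻¹ * σ x ∈ N) : x ∈ N := by
  obtain ⟨g, hg, hgf⟩ := exists_fixed_pt σ hσ {g | x⁻¹ * g ∈ N} (fun g (hg : x⁻¹ * g ∈ N) => by
    show x⁻¹ * σ g ∈ N
    have := mul_mem hx (hN _ hg)
    rwa [map_mul, map_inv, show x⁻¹ * σ x * ((σ x)⁻¹ * σ g) = x⁻¹ * σ g by group] at this) (by
    rw [show Nat.card {g : G | x⁻¹ * g ∈ N} = Nat.card N from
      Nat.card_congr ((Equiv.mulLeft x⁻¹).subtypeEquiv fun g => Iff.rfl)]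
    exact fun h => not_dvd_card σ hσ hfpf (h.trans (Subgroup.card_subgroup_dvd_card _)))
  rw [show g = 1 from hfpf g hgf] at hg
  simpa using hg

/-- An elementary abelian group as a vector space over an algebraically closed field. -/
theorem linearise {W : Type u} [CommGroup W] [Finite W] {r : ℕ} [hr : Fact r.Prime]
    (hexp : ∀ v : W, v ^ r = 1) :
    ∃ (d : ℕ) (ι : MulAut W →* Module.End (AlgebraicClosure (ZMod r))
        (Fin d → AlgebraicClosure (ZMod r))), Function.Injective ι ∧
      ∀ (a : MulAut W) (P : ℕ), a ^ P = 1 → (∀ x, a x = x → x = 1) →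
        ∑ l ∈ Finset.range P, (ι a) ^ l = 0 := by
  letI : Module (ZMod r) (Additive W) := AddCommGroup.zmodModule (n := r) fun x =>
    (congrArg Additive.ofMul (hexp (Additive.toMul x)) :)
  haveI : Module.Finite (ZMod r) (Additive W) := Module.Finite.of_finite
  let toEnd : MulAut W →* Module.End (ZMod r) (Additive W) :=
    { toFun := fun f => (MonoidHom.toAdditive f.toMonoidHom).toZModLinearMap r
      map_one' := LinearMap.ext fun _ => rfl
      map_mul' := fun _ _ => LinearMap.ext fun _ => rfl }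
  have htoinj : Function.Injective toEnd := fun f f' he => MulEquiv.ext fun x =>
    Additive.ofMul.injective (LinearMap.congr_fun he (Additive.ofMul x))
  let b := Module.finBasis (ZMod r) (Additive W)
  let K := AlgebraicClosure (ZMod r)
  let ι : Module.End (ZMod r) (Additive W) →+*
      Module.End K (Fin (Module.finrank (ZMod r) (Additive W)) → K) :=
    (Matrix.toLinAlgEquiv' (R := K)).toRingEquiv.toRingHom.comp
      ((algebraMap (ZMod r) K).mapMatrix.comp
        (LinearMap.toMatrixAlgEquiv b).toRingEquiv.toRingHom)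
  have hι : Function.Injective ι :=
    (Matrix.toLinAlgEquiv' (R := K)).injective.comp
      ((Matrix.map_injective (algebraMap (ZMod r) K).injective).comp
        (LinearMap.toMatrixAlgEquiv b).injective)
  refine ⟨_, ι.toMonoidHom.comp toEnd, hι.comp htoinj, fun a P haP hfpf => ?_⟩
  have hZ : ∑ l ∈ Finset.range P, (toEnd a) ^ l = 0 := by
    set Z := ∑ l ∈ Finset.range P, (toEnd a) ^ l with hZdef
    have h1 : toEnd a * Z = Z := by
      have h2 := Finset.sum_range_succ (fun l => (toEnd a) ^ l) P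
      rw [Finset.sum_range_succ', pow_zero, ← map_pow, haP, map_one] at h2
      rw [hZdef, Finset.mul_sum]
      exact (Finset.sum_congr rfl fun l _ => (pow_succ' (toEnd a) l).symm).trans
        (add_right_cancel h2)
    refine LinearMap.ext fun x => ?_
    have h2 : a (Additive.toMul (Z x)) = Additive.toMul (Z x) :=
      congrArg Additive.toMul (LinearMap.congr_fun h1 x)
    exact Additive.toMul.injective (hfpf _ h2)
  show ∑ l ∈ Finset.range P, (ι (toEnd a)) ^ l = 0
  rw [Finset.sum_congr rfl fun l _ => (map_pow ι (toEnd a) l).symm, ← map_sum, hZ, map_zero]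

/-- The action on a chief factor commutes with the `p ^ n`-th power of the automorphism. -/
theorem on_chief {G : Type u} [Group G] [Finite G] [Group.IsSolvable G] {p n : ℕ}
    [hp : Fact p.Prime] (hp2 : p ≠ 2) (σ : MulAut G) (hσ : σ ^ (p ^ (n + 1)) = 1)
    (hfpf : ∀ g, σ g = g → g = 1) {r : ℕ} [hr : Fact r.Prime] (V : Subgroup G) [V.Normal]
    [IsMulCommutative V] (hV : IsPGroup r V) (hV0 : V ≠ ⊥) (hexp : ∀ v : V, v ^ r = 1)
    (hVσ : V.map σ.toMonoidHom = V)
    (hmin : ∀ K : Subgroup G, K.Normal → (∀ x ∈ K, σ x ∈ K) → K ≤ V → K ≠ ⊥ → K = V) (g : G) :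
    (MulAut.conjNormal ((σ ^ (p ^ n)) g) : MulAut V) = MulAut.conjNormal g := by
  classical
  have hpG := not_dvd_card σ hσ hfpf
  let φ : G →* MulAut V := MulAut.conjNormal
  set a : MulAut V := restrictAut σ V hVσ with ha
  have hcompat : ∀ g, a * φ g * a⁻¹ = φ (σ g) := fun g =>
    mul_inv_eq_iff_eq_mul.2 (MulEquiv.ext fun x => Subtype.ext (by
      show σ (g * (x : G) * g⁻¹) = σ g * σ (x : G) * (σ g)⁻¹
      rw [map_mul, map_mul, map_inv]))
  set H := φ.range with hH
  haveI : Group.IsSolvable H := Group.isSolvable_of_surjective φ.rangeRestrict_surjective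
  have hpH : ¬ p ∣ Nat.card H := fun h => hpG (h.trans (Subgroup.card_range_dvd φ))
  have hHa : ∀ h ∈ H, a * h * a⁻¹ ∈ H := by
    rintro h ⟨g, rfl⟩; exact ⟨σ g, (hcompat g).symm⟩
  let θ : MulAut H := restrictAut (MulAut.conj a) H (map_eq_of_forall _ hHa)
  have hθj : ∀ (j : ℕ) (g : G), ((θ ^ j) ⟨φ g, g, rfl⟩ : H) = ⟨φ ((σ ^ j) g), _, rfl⟩ := by
    intro j
    induction j with
    | zero => intro g; rfl
    | succ j ih =>
      intro g
      rw [pow_succ', MulAut.mul_apply, ih]
      exact Subtype.ext ((hcompat _).trans (by rw [pow_succ', MulAut.mul_apply]))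
  have hθP : θ ^ (p ^ (n + 1)) = 1 := MulEquiv.ext fun h => by
    obtain ⟨-, g, rfl⟩ := h
    rw [hθj, hσ]; rfl
  have hθfpf : ∀ h : H, θ h = h → h = 1 := by
    rintro ⟨-, g, rfl⟩ hh
    have hg : g⁻¹ * σ g ∈ φ.ker := by
      rw [MonoidHom.mem_ker, map_mul, map_inv, inv_mul_eq_one, ← hcompat]
      exact (congrArg Subtype.val hh).symm
    have := fixed_lift σ hσ hfpf φ.ker (fun x hx => by
      rw [MonoidHom.mem_ker, ← hcompat, MonoidHom.mem_ker.1 hx, mul_one, mul_inv_cancel]) hg
    exact Subtype.ext (MonoidHom.mem_ker.1 this)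
  -- each core is centralised
  have hcore : ∀ (q : ℕ), q.Prime → ∀ h ∈ Cfsg.pCore q H, (θ ^ (p ^ n)) h = h := by
    intro q hq h hh
    haveI := Fact.mk hq
    haveI : (Cfsg.pCore q H).Normal := normal_pCore q
    rcases eq_or_ne (Cfsg.pCore q H) ⊥ with hbot | hbot
    · rw [hbot, Subgroup.mem_bot] at hh
      rw [hh, map_one]
    have hQq : IsPGroup q (Cfsg.pCore q H) := isPGroup_pCore q
    have hqp : q ≠ p := by
      rintro rfl
      haveI : Nontrivial (Cfsg.pCore q H) := (Subgroup.nontrivial_iff_ne_bot _).2 hbot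
      obtain ⟨k, hk, hc⟩ := hQq.nontrivial_iff_card.1 inferInstance
      exact hpH ((hc ▸ dvd_pow_self q (by omega)).trans (Subgroup.card_subgroup_dvd_card _))
    have hmapQ : (Cfsg.pCore q H).map θ.toMonoidHom = Cfsg.pCore q H :=
      map_characteristic _ (characteristic_pCore q)
    have hqr : q ≠ r := by
      rintro rfl
      let Fix : Subgroup V :=
        { carrier := {x | ∀ e ∈ Cfsg.pCore q H, (e : MulAut V) x = x}
          one_mem' := fun e _ => map_one (e : MulAut V)
          mul_mem' := fun {x y} hx hy e he => by rw [map_mul, hx e he, hy e he]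
          inv_mem' := fun {x} hx e he => by rw [map_inv, hx e he] }
      letI : MulAction (Cfsg.pCore q H) V :=
        MulAction.compHom V (H.subtype.comp (Cfsg.pCore q H).subtype)
      have hone : (1 : V) ∈ MulAction.fixedPoints (Cfsg.pCore q H) V :=
        fun e => map_one ((e : H) : MulAut V)
      haveI : Nontrivial V := (Subgroup.nontrivial_iff_ne_bot _).2 hV0
      obtain ⟨k, hk, hc⟩ := hV.nontrivial_iff_card.1 inferInstance
      obtain ⟨x, hx, hx1⟩ := hQq.exists_fixed_point_of_prime_dvd_card_of_fixed_point V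
        (hc ▸ dvd_pow_self q (by omega)) hone
      have hFix : Fix ≠ ⊥ := fun e => hx1 (Subgroup.mem_bot.1
        (e ▸ (fun y hy => hx ⟨y, hy⟩ : x ∈ Fix))).symm
      have hn : (Fix.map V.subtype).Normal := ⟨by
        rintro - ⟨y, hy, rfl⟩ g
        refine ⟨φ g y, fun e he => ?_, rfl⟩
        have hconj : (⟨φ g, g, rfl⟩ : H)⁻¹ * e * ⟨φ g, g, rfl⟩ ∈ Cfsg.pCore q H := by
          simpa using (normal_pCore q).conj_mem e he (⟨φ g, g, rfl⟩ : H)⁻¹
        calc (e : MulAut V) (φ g y)
            = φ g (((φ g)⁻¹ * (e : MulAut V) * φ g) y) := by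
              rw [MulAut.mul_apply, MulAut.mul_apply, MulAut.apply_inv_self]
          _ = φ g y := congrArg (φ g) (hy _ hconj)⟩
      have hinv : ∀ z ∈ Fix.map V.subtype, σ z ∈ Fix.map V.subtype := by
        rintro - ⟨y, hy, rfl⟩
        refine ⟨a y, fun e he => ?_, rfl⟩
        obtain ⟨e', he', hee⟩ := hmapQ.ge he
        rw [← hee]
        show ((a * (e' : MulAut V) * a⁻¹) * a) y = a y
        rw [inv_mul_cancel_right, MulAut.mul_apply, hy e' he']
      have heq := hmin _ hn hinv (Subgroup.map_subtype_le _) (fun e => hFix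
        ((Subgroup.map_eq_bot_iff_of_injective _ V.subtype_injective).1 e))
      refine hbot ((Subgroup.eq_bot_iff_forall _).2 fun e he =>
        Subtype.ext (MulEquiv.ext fun y => ?_))
      obtain ⟨y', hy', hye⟩ := heq.ge y.2
      obtain rfl : y' = y := Subtype.ext hye
      exact hy' e he
    obtain ⟨d, ι, hι, hιsum⟩ := linearise (W := V) (r := r) hexp
    have haP : a ^ (p ^ (n + 1)) = 1 := MulEquiv.ext fun x => Subtype.ext (by
      rw [ha, coe_restrictAut_pow, hσ]; rfl)
    let K := AlgebraicClosure (ZMod r)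
    have hcast : ∀ s : ℕ, s.Prime → s ≠ r → (s : K) ≠ 0 := fun s hs hsr he => by
      haveI : CharP K r := charP_of_injective_algebraMap (algebraMap (ZMod r) K).injective r
      exact hsr (((Nat.prime_dvd_prime_iff_eq hr.out hs).1 ((CharP.cast_eq_zero_iff K r s).1 he)).symm)
    have hpr : p ≠ r := by
      rintro rfl
      haveI : Nontrivial V := (Subgroup.nontrivial_iff_ne_bot _).2 hV0
      obtain ⟨k, hk, hc⟩ := hV.nontrivial_iff_card.1 inferInstance
      exact hpG ((hc ▸ dvd_pow_self p (by omega)).trans (Subgroup.card_subgroup_dvd_card _))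
    have hkey := ShultGross.key (K := K) (n := n) hp2 hqp (hcast p hp.out hpr) (hcast q hq hqr)
      (ι a) (by rw [← map_pow, haP, map_one])
      (hιsum a _ haP fun x hx => Subtype.ext (hfpf x (congrArg Subtype.val hx)))
      _ (Cfsg.pCore q H) le_rfl hQq
      (restrictAut θ (Cfsg.pCore q H) hmapQ)
      (ι.comp (H.subtype.comp (Cfsg.pCore q H).subtype))
      (hι.comp (H.subtype_injective.comp (Cfsg.pCore q H).subtype_injective))
      (fun x => by
        show ι a * ι ((x : H) : MulAut V) = ι (a * ((x : H) : MulAut V) * a⁻¹) * ι a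
        rw [← map_mul ι, ← map_mul ι, inv_mul_cancel_right])
      (fun x hx => Subtype.ext (hθfpf x (congrArg Subtype.val hx)))
    have h1 := congrArg (fun f : MulAut (Cfsg.pCore q H) => ((f ⟨h, hh⟩ : Cfsg.pCore q H) : H)) hkey
    simp only [coe_restrictAut_pow, MulAut.one_apply] at h1
    exact h1
  -- hence everything
  let E : Subgroup H := MonoidHom.eqLocus (θ ^ (p ^ n)).toMonoidHom (MonoidHom.id H)
  have hFE : Cfsg.fittingSubgroup H ≤ E := by
    rw [fittingSubgroup_eq_iSup_pCore]
    exact iSup_le fun q x hx => hcore q q.2 x hx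
  haveI := normal_fittingSubgroup (G := H)
  have hall : ∀ h : H, (θ ^ (p ^ n)) h = h := by
    intro h
    set x := h⁻¹ * (θ ^ (p ^ n)) h with hx
    have hxF : x ∈ Cfsg.fittingSubgroup H := centralizer_fitting_le (by
      rw [Subgroup.mem_centralizer_iff]
      intro f hf
      have h1 : (θ ^ (p ^ n)) (h * f * h⁻¹) = h * f * h⁻¹ :=
        hFE (Subgroup.Normal.conj_mem inferInstance f hf h)
      have hf' : (θ ^ (p ^ n)) f = f := hFE hf
      rw [map_mul, map_mul, map_inv, hf'] at h1
      rw [hx]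
      calc f * (h⁻¹ * (θ ^ (p ^ n)) h) = h⁻¹ * (h * f * h⁻¹) * (θ ^ (p ^ n)) h := by group
        _ = h⁻¹ * ((θ ^ (p ^ n)) h * f * ((θ ^ (p ^ n)) h)⁻¹) * (θ ^ (p ^ n)) h := by rw [h1]
        _ = h⁻¹ * (θ ^ (p ^ n)) h * f := by group)
    have hxfix : (θ ^ (p ^ n)) x = x := hFE hxF
    have hpow : ∀ k : ℕ, ((θ ^ (p ^ n)) ^ k) h = h * x ^ k := by
      intro k
      induction k with
      | zero => simp
      | succ k ih =>
        rw [pow_succ', MulAut.mul_apply, ih, map_mul, map_pow, hxfix, pow_succ' x,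
          ← mul_assoc h x, hx, mul_inv_cancel_left]
    have h1 := hpow p
    rw [← pow_mul, ← pow_succ, hθP, MulAut.one_apply, left_eq_mul] at h1
    obtain ⟨k, hk⟩ := exists_pow_eq_self_of_coprime (x := x) (n := p)
      ((Nat.Coprime.coprime_dvd_right (orderOf_dvd_natCard x)
        (hp.out.coprime_iff_not_dvd.2 hpH)))
    rw [h1, one_pow] at hk
    rw [hx, eq_comm, inv_mul_eq_one] at hk
    exact hk.symm
  have := congrArg Subtype.val (hall ⟨φ g, g, rfl⟩)
  rw [hθj] at this
  exact this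

/-- The `p ^ n`-th power of the automorphism is trivial modulo the Fitting subgroup. -/
theorem trivial_mod_fitting {p n : ℕ} [hp : Fact p.Prime] (hp2 : p ≠ 2) :
    ∀ (m : ℕ) (G : Type u) [Group G] [Finite G] [Group.IsSolvable G], Nat.card G ≤ m →
      ∀ σ : MulAut G, σ ^ (p ^ (n + 1)) = 1 → (∀ g, σ g = g → g = 1) →
        ∀ g, g⁻¹ * (σ ^ (p ^ n)) g ∈ Cfsg.fittingSubgroup G := by
  intro m
  induction m with
  | zero => intro G _ _ _ h; exact absurd h (by simp [Nat.card_pos.ne'])
  | succ m ih =>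
    intro G _ _ _ hm σ hσ hfpf g
    rcases subsingleton_or_nontrivial G with hG | hG
    · rw [Subsingleton.elim (g⁻¹ * (σ ^ (p ^ n)) g) 1]; exact one_mem _
    obtain ⟨r, hr, hcore⟩ := exists_pCore_ne_bot (G := G)
    haveI := Fact.mk hr
    set P := Cfsg.pCore r G with hP
    haveI : P.Normal := normal_pCore r
    haveI : P.Characteristic := characteristic_pCore r
    set Z := (Subgroup.center P).map P.subtype with hZ
    have hZn : Z.Normal := inferInstance
    have hPσ : P.map σ.toMonoidHom = P := map_characteristic _ inferInstance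
    have hZσ : ∀ x ∈ Z, σ x ∈ Z := by
      rintro - ⟨z, hz, rfl⟩
      exact ⟨restrictAut σ P hPσ z, (map_characteristic (restrictAut σ P hPσ)
        (inferInstance : (Subgroup.center P).Characteristic)).le (Subgroup.mem_map_of_mem _ hz), rfl⟩
    have hZ0 : Z ≠ ⊥ := fun e => by
      haveI : Nontrivial P := (Subgroup.nontrivial_iff_ne_bot _).2 hcore
      haveI := (isPGroup_pCore (G := G) r).center_nontrivial
      exact (Subgroup.nontrivial_iff_ne_bot _).1 inferInstance
        ((Subgroup.map_eq_bot_iff_of_injective _ P.subtype_injective).1 e)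
    obtain ⟨V, ⟨hVn, hVσ, hV0, hVZ⟩, hVmin⟩ := (Set.toFinite {K : Subgroup G | K.Normal ∧
      (∀ x ∈ K, σ x ∈ K) ∧ K ≠ ⊥ ∧ K ≤ Z}).exists_minimal ⟨Z, hZn, hZσ, hZ0, le_rfl⟩
    haveI := hVn
    have hVP : V ≤ P := hVZ.trans (Subgroup.map_subtype_le _)
    haveI : IsMulCommutative V := ⟨⟨fun x y => Subtype.ext (by
      obtain ⟨x', hx', hxe⟩ := hVZ x.2
      show (x : G) * y = y * x
      rw [← hxe]
      exact congrArg Subtype.val (Subgroup.mem_center_iff.1 hx' ⟨y, hVP y.2⟩).symm)⟩⟩
    have hVr : IsPGroup r V := (isPGroup_pCore r).to_le hVP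
    have hmin : ∀ K : Subgroup G, K.Normal → (∀ x ∈ K, σ x ∈ K) → K ≤ V → K ≠ ⊥ → K = V :=
      fun K h1 h2 h3 h4 => le_antisymm h3 (hVmin (y := K) ⟨h1, h2, h4, h3.trans hVZ⟩ h3)
    have hexp : ∀ v : V, v ^ r = 1 := by
      have hle : torsionIn V r = V := by
        refine hmin _ (normal_torsionIn r) (fun x hx => ?_) (fun x hx => (mem_torsionIn.1 hx).1) ?_
        · rw [mem_torsionIn] at hx ⊢
          exact ⟨hVσ x hx.1, by rw [← map_pow, hx.2, map_one]⟩
        · intro e
          haveI : Nontrivial V := (Subgroup.nontrivial_iff_ne_bot _).2 hV0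
          obtain ⟨k, hk, hc⟩ := hVr.nontrivial_iff_card.1 inferInstance
          obtain ⟨v, hv⟩ := exists_prime_orderOf_dvd_card' (G := V) r (hc ▸ dvd_pow_self r (by omega))
          have hmem : (v : G) ∈ torsionIn V r := mem_torsionIn.2 ⟨v.2, by
            rw [← Subgroup.coe_pow, ← hv, pow_orderOf_eq_one]; rfl⟩
          rw [e, Subgroup.mem_bot] at hmem
          rw [show v = 1 from Subtype.ext hmem, orderOf_one] at hv
          exact hr.ne_one hv.symm
      intro v
      exact Subtype.ext ((mem_torsionIn.1 (hle.ge v.2)).2)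
    have hVmap : V.map σ.toMonoidHom = V := map_eq_of_forall σ hVσ
    -- the quotient by `V`
    let σQ : MulAut (G ⧸ V) := QuotientGroup.congr V V σ hVmap
    have hσQ : ∀ (j : ℕ) (x : G), (σQ ^ j) (x : G ⧸ V) = (((σ ^ j) x : G) : G ⧸ V) := by
      intro j
      induction j with
      | zero => intro x; rfl
      | succ j ih => intro x; rw [pow_succ', pow_succ', MulAut.mul_apply, ih]; rfl
    have hlt := card_quotient_lt (N := V) hV0
    have hQ := ih (G ⧸ V) (by omega) σQ
      (MulEquiv.ext fun y => by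
        obtain ⟨x, rfl⟩ := QuotientGroup.mk_surjective y
        rw [hσQ, hσ]; rfl)
      (fun y hy => by
        obtain ⟨x, rfl⟩ := QuotientGroup.mk_surjective y
        exact (QuotientGroup.eq_one_iff x).2 (fixed_lift σ hσ hfpf V hVσ (QuotientGroup.eq.1 hy.symm)))
      (g : G ⧸ V)
    rw [hσQ, ← QuotientGroup.mk_inv, ← QuotientGroup.mk_mul] at hQ
    set F' := Cfsg.fittingSubgroup (G ⧸ V) with hF'
    haveI : F'.Normal := normal_fittingSubgroup
    haveI : Group.IsNilpotent F' := isNilpotent_fittingSubgroup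
    let φ : G →* MulAut V := MulAut.conjNormal
    set K := F'.comap (QuotientGroup.mk' V) ⊓ φ.ker with hK
    have hKF : K ≤ Cfsg.fittingSubgroup G := by
      refine le_fittingSubgroup inferInstance ?_
      let ψ : K →* F' :=
        { toFun := fun x => ⟨((x : G) : G ⧸ V), x.2.1⟩
          map_one' := rfl
          map_mul' := fun _ _ => rfl }
      refine Subgroup.isNilpotent_of_ker_le_center ψ (fun y hy => Subgroup.mem_center_iff.2 fun h => ?_)
      have hyV : ((y : G)) ∈ V := (QuotientGroup.eq_one_iff _).1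
        (congrArg Subtype.val (MonoidHom.mem_ker.1 hy))
      have hh : φ (h : G) = 1 := MonoidHom.mem_ker.1 h.2.2
      have h'' := congrArg Subtype.val (DFunLike.congr_fun hh ⟨(y : G), hyV⟩)
      have h' : (h : G) * y * (h : G)⁻¹ = y := h''
      exact Subtype.ext (mul_inv_eq_iff_eq_mul.1 h')
    refine hKF ⟨hQ, ?_⟩
    show φ (g⁻¹ * (σ ^ (p ^ n)) g) = 1
    rw [map_mul, map_inv, inv_mul_eq_one]
    exact (on_chief hp2 σ hσ hfpf V hVr hV0 hexp hVmap hmin g).symm

/-- The Fitting height, by induction on `n`. -/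
theorem height {p : ℕ} [hp : Fact p.Prime] (hp2 : p ≠ 2) :
    ∀ (n : ℕ) (G : Type u) [Group G] [Finite G] [Group.IsSolvable G] (σ : MulAut G),
      σ ^ (p ^ n) = 1 → (∀ g, σ g = g → g = 1) →
      ∃ F : Fin (n + 1) → Subgroup G, F 0 = ⊥ ∧ F (Fin.last n) = ⊤ ∧ Monotone F ∧
        (∀ i, (F i).Normal) ∧ ∀ i : Fin n, ∃ k : ℕ, (F i.succ).lowerCentralSeries k ≤ F i.castSucc := by
  intro n
  induction n with
  | zero =>
    intro G _ _ _ σ hσ hfpf
    refine ⟨fun _ => ⊥, rfl, ?_, fun _ _ _ => le_rfl, fun _ => inferInstance, fun i => i.elim0⟩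
    refine eq_top_iff.2 fun g _ => Subgroup.mem_bot.2 (hfpf g ?_)
    rw [pow_zero, pow_one] at hσ
    rw [hσ]; rfl
  | succ n ih =>
    intro G _ _ _ σ hσ hfpf
    set F₁ := Cfsg.fittingSubgroup G with hF₁
    haveI : F₁.Normal := normal_fittingSubgroup
    have hF₁σ : F₁.map σ.toMonoidHom = F₁ := map_characteristic _ characteristic_fittingSubgroup
    let σQ : MulAut (G ⧸ F₁) := QuotientGroup.congr F₁ F₁ σ hF₁σ
    have hσQ : ∀ (j : ℕ) (x : G), (σQ ^ j) (x : G ⧸ F₁) = (((σ ^ j) x : G) : G ⧸ F₁) := by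
      intro j
      induction j with
      | zero => intro x; rfl
      | succ j ih => intro x; rw [pow_succ', pow_succ', MulAut.mul_apply, ih]; rfl
    obtain ⟨F', hF0, hFl, hFm, hFn, hFs⟩ := ih (G ⧸ F₁) σQ
      (MulEquiv.ext fun y => by
        obtain ⟨x, rfl⟩ := QuotientGroup.mk_surjective y
        rw [hσQ, MulAut.one_apply]
        exact (QuotientGroup.eq.2 (trivial_mod_fitting hp2 _ G le_rfl σ hσ hfpf x)).symm)
      (fun y hy => by
        obtain ⟨x, rfl⟩ := QuotientGroup.mk_surjective y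
        exact (QuotientGroup.eq_one_iff x).2 (fixed_lift σ hσ hfpf F₁
          (fun z hz => hF₁σ.le (Subgroup.mem_map_of_mem _ hz)) (QuotientGroup.eq.1 hy.symm)))
    refine ⟨Fin.cons ⊥ fun i => (F' i).comap (QuotientGroup.mk' F₁), rfl, ?_, ?_, ?_, ?_⟩
    · rw [← Fin.succ_last, Fin.cons_succ, hFl, Subgroup.comap_top]
    · refine Fin.monotone_iff_le_succ.2 fun i => ?_
      refine Fin.cases ?_ (fun j => ?_) i
      · exact bot_le
      · rw [← Fin.succ_castSucc, Fin.cons_succ, Fin.cons_succ]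
        exact Subgroup.comap_mono (hFm (Fin.castSucc_le_succ j))
    · refine Fin.cases ?_ (fun j => ?_)
      · exact inferInstanceAs (⊥ : Subgroup G).Normal
      · rw [Fin.cons_succ]; exact (hFn j).comap _
    · refine Fin.cases ?_ (fun j => ?_)
      · haveI : Group.IsNilpotent F₁ := isNilpotent_fittingSubgroup
        obtain ⟨k, hk⟩ := Subgroup.nilpotent_iff_lowerCentralSeries.1
          (inferInstance : Group.IsNilpotent F₁)
        refine ⟨k, ?_⟩
        rw [Fin.cons_succ, hF0, MonoidHom.comap_bot, QuotientGroup.ker_mk']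
        have h := Subgroup.map_lowerCentralSeries (S := (⊤ : Subgroup F₁)) F₁.subtype k
        rw [hk, Subgroup.map_bot, ← MonoidHom.range_eq_map, Subgroup.range_subtype] at h
        rw [← h]
        exact bot_le
      · obtain ⟨k, hk⟩ := hFs j
        refine ⟨k, ?_⟩
        rw [← Fin.succ_castSucc, Fin.cons_succ, Fin.cons_succ]
        refine Subgroup.map_le_iff_le_comap.1 ?_
        rw [Subgroup.map_lowerCentralSeries, Subgroup.map_comap_eq_self_of_surjective
          (QuotientGroup.mk'_surjective F₁)]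
        exact hk

/-- The Shult–Gross Theorem: let p be an odd prime and G a finite solvable group with an automorphism σ of order p^n fixing only the identity. Then G has Fitting height at most n: G has Fitting height at most m when there is a chain of normal subgroups 1 = F₀ ≤ F₁ ≤ ⋯ ≤ F_m = G with each F_{i+1}/F_i nilpotent. -/
theorem result {G : Type*} [Group G] [Finite G] (hG : Group.IsSolvable G) {p : ℕ} (hp : p.Prime) (hp2 : p ≠ 2) (σ : MulAut G) (n : ℕ) (hσ : orderOf σ = p ^ n) (hfpf : ∀ g : G, σ g = g → g = 1) : ∃ F : Fin (n + 1) → Subgroup G, F 0 = ⊥ ∧ F (Fin.last n) = ⊤ ∧ Monotone F ∧ (∀ i, (F i).Normal) ∧ ∀ i : Fin n, ∃ k : ℕ, (F i.succ).lowerCentralSeries k ≤ F i.castSucc := by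
  haveI := Fact.mk hp
  haveI := hG
  exact height hp2 n G σ (by rw [← hσ, pow_orderOf_eq_one]) hfpf

end Cfsg.Agent.S3793
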