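import Cfsg.Statements.S3794
import Cfsg.Agent.Lib.CoreFpfFour
import Cfsg.Agent.S0552
import Cfsg.Agent.S0031

set_option autoImplicit false
open Cfsg
open scoped commutatorElement IsMulCommutative

namespace Cfsg.Agent.S3794

universe u

/-- Action induced on the Frattini quotient. -/
noncomputable def modFrattini (Q : Type u) [Group Q] : MulAut Q →* MulAut (Q ⧸ frattini Q) where
  toFun φ := QuotientGroup.congr (frattini Q) (frattini Q) φ
    (CfsgLib.Core.map_characteristic φ inferInstance)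
  map_one' := by
    refine MulEquiv.ext fun y => ?_
    obtain ⟨x, rfl⟩ := QuotientGroup.mk_surjective y
    rfl
  map_mul' a b := by
    refine MulEquiv.ext fun y => ?_
    obtain ⟨x, rfl⟩ := QuotientGroup.mk_surjective y
    rfl

theorem centralizes_core {G : Type u} [Group G] [Finite G] (σ : MulAut G) (hσ : σ ^ 4 = 1)
    (hfpf : ∀ g : G, σ g = g → g = 1) {r q : ℕ} [Fact r.Prime] [Fact q.Prime] {R : Subgroup G}
    (hR : ∀ v ∈ R, σ v ∈ R) (hRr : IsPGroup r R) (Q : Subgroup G) [Q.Normal]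
    (hQσ : Q.map σ.toMonoidHom = Q) (hQ : IsPGroup q Q) (hrq : r ≠ q) {x : G} (hx : x ∈ R) :
    x⁻¹ * σ (σ x) ∈ Subgroup.centralizer (Q : Set G) := by
  haveI : IsMulCommutative (↥Q ⧸ frattini Q) := (Subgroup.Normal.quotient_commutative_iff_commutator_le).mpr
    (CfsgLib.Core.pgroup_commutator_le_frattini hQ)
  let ρ : R →* MulAut (↥Q ⧸ frattini Q) :=
    (modFrattini Q).comp ((MulAut.conjNormal : G →* MulAut Q).comp R.subtype)
  let σQ : MulAut Q := CfsgLib.Core.restrictAut σ Q hQσ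
  let θ : MulAut R := CfsgLib.Core.restrictAut σ R (CfsgLib.Core.map_eq_of_forall σ hR)
  have hσQ4 : σQ ^ 4 = 1 := by
    refine MulEquiv.ext fun y => Subtype.ext ?_
    show ((CfsgLib.Core.restrictAut σ Q hQσ ^ 4) y : G) = _
    rw [CfsgLib.Core.coe_restrictAut_pow, hσ]; rfl
  have hσQf : ∀ y, σQ y = y → y = 1 := fun y hy => Subtype.ext (hfpf _ (congrArg Subtype.val hy))
  have hcop : (Nat.card R).Coprime (Nat.card Q) := by
    obtain ⟨i, hi⟩ := hRr.exists_card_eq
    obtain ⟨j, hj⟩ := hQ.exists_card_eq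
    rw [hi, hj]
    exact ((Nat.coprime_primes Fact.out Fact.out).mpr hrq).pow i j
  have key : ∀ w : R, ρ (θ (θ w)) = ρ w := by
    refine CfsgLib.Core.commute_sq_of_fpf_four (r := r) _ _ (modFrattini Q σQ) R ρ θ le_rfl ?_ ?_ ?_
      ?_ ?_ hRr (hcop.coprime_dvd_right (Subgroup.card_quotient_dvd_card _))
    · intro w
      show modFrattini Q σQ * modFrattini Q _ = modFrattini Q _ * modFrattini Q σQ
      rw [← map_mul, ← map_mul]
      congr 1
      refine MulEquiv.ext fun k => Subtype.ext ?_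
      show σ ((w : G) * k * (w : G)⁻¹) = σ (w : G) * σ (k : G) * (σ (w : G))⁻¹
      rw [map_mul, map_mul, map_inv]
    · rw [← map_pow, hσQ4, map_one]
    · refine MulEquiv.ext fun y => Subtype.ext ?_
      show ((CfsgLib.Core.restrictAut σ R _ ^ 4) y : G) = _
      rw [CfsgLib.Core.coe_restrictAut_pow, hσ]; rfl
    · intro v hv
      obtain ⟨k, rfl⟩ := QuotientGroup.mk_surjective v
      refine (QuotientGroup.eq_one_iff k).mpr (CfsgLib.Core.fixed_mem_of_fpf σQ hσQf (frattini Q)
        (fun y hy => (CfsgLib.Core.map_characteristic σQ inferInstance).le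
          (Subgroup.mem_map_of_mem _ hy)) (QuotientGroup.eq.mp hv))
    · exact fun y hy => Subtype.ext (hfpf _ (congrArg Subtype.val hy))
  set z : R := (⟨x, hx⟩ : R)⁻¹ * θ (θ ⟨x, hx⟩) with hz
  have hzker : z ∈ ρ.ker := by
    rw [MonoidHom.mem_ker, hz, map_mul, map_inv, key, inv_mul_cancel]
  have hAR : Subgroup.zpowers (z : G) ≤ R := Subgroup.zpowers_le.mpr z.2
  have hle := CfsgLib.Core.le_centralizer_of_trivial_mod_frattini
    (A := Subgroup.zpowers (z : G)) (K := Q)
    (by rw [Subgroup.normalizer_eq_top (H := Q)]; exact le_top)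
    ((hcop.coprime_dvd_left (Subgroup.card_dvd_of_le hAR)).coprime_dvd_right
      (Subgroup.card_subgroup_dvd_card _))
    (fun a ha k hk => by
      obtain ⟨i, rfl⟩ := Subgroup.mem_zpowers_iff.mp ha
      have hmem : (z ^ i) ∈ ρ.ker := zpow_mem hzker i
      have h1 : ((MulAut.conjNormal ((z ^ i : R) : G) : MulAut Q) (⟨k, hk⟩ : Q) : ↥Q ⧸ frattini Q) =
          ((⟨k, hk⟩ : Q) : ↥Q ⧸ frattini Q) :=
        DFunLike.congr_fun (MonoidHom.mem_ker.mp hmem) ((⟨k, hk⟩ : Q) : ↥Q ⧸ frattini Q)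
      have h2 := (CfsgLib.Core.map_characteristic (MulAut.conj (⟨k, hk⟩ : Q))
        (inferInstance : (frattini Q).Characteristic)).le
          (Subgroup.mem_map_of_mem _ ((frattini Q).inv_mem (QuotientGroup.eq.mp h1)))
      refine ⟨_, h2, ?_⟩
      show k * ((((z ^ i : R) : G) * k * ((z ^ i : R) : G)⁻¹)⁻¹ * k)⁻¹ * k⁻¹ =
        (z : G) ^ i * k * ((z : G) ^ i)⁻¹ * k⁻¹
      rw [Subgroup.coe_zpow]
      group)
  exact hle (Subgroup.mem_zpowers (z : G))

/-- Let G be a finite solvable group with an automorphism σ satisfying σ⁴ = 1 and fixing only the identity. Then the derived subgroup G' is nilpotent. -/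
theorem result {G : Type*} [Group G] [Finite G] (hG : Group.IsSolvable G) (σ : MulAut G) (hσ : σ ^ 4 = 1) (hfpf : ∀ g : G, σ g = g → g = 1) : Group.IsNilpotent (commutator G) := by
  haveI := hG
  set F := Cfsg.fittingSubgroup G with hFdef
  haveI hFn : F.Normal := CfsgLib.Core.normal_fittingSubgroup
  have hFσ : F.map σ.toMonoidHom = F :=
    CfsgLib.Core.map_characteristic σ CfsgLib.Core.characteristic_fittingSubgroup
  let π := QuotientGroup.mk' F
  have hπ : Function.Surjective π := QuotientGroup.mk'_surjective F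
  let σH : MulAut (G ⧸ F) := QuotientGroup.congr F F σ hFσ
  have hσH : ∀ x : G, σH (π x) = π (σ x) := fun x => rfl
  have hσH4 : σH ^ 4 = 1 := by
    refine MulEquiv.ext fun y => ?_
    obtain ⟨x, rfl⟩ := hπ y
    show σH (σH (σH (σH (π x)))) = π x
    rw [hσH, hσH, hσH, hσH]
    show π ((σ ^ 4) x) = π x
    rw [hσ]; rfl
  have hσHf : ∀ y, σH y = y → y = 1 := by
    intro y hy
    obtain ⟨x, rfl⟩ := hπ y
    rw [hσH] at hy
    exact (QuotientGroup.eq_one_iff x).mpr (CfsgLib.Core.fixed_mem_of_fpf σ hfpf F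
      (fun z hz => hFσ.le (Subgroup.mem_map_of_mem _ hz)) (QuotientGroup.eq.mp hy))
  have hodd : Odd (Nat.card G) := CfsgLib.Core.odd_card_of_fpf_four σ hσ hfpf
  -- the square fixes the Fitting subgroup of the quotient
  let C : Subgroup (G ⧸ F) := (σH * σH).toMonoidHom.eqLocus (MonoidHom.id _)
  have hFit : Cfsg.fittingSubgroup (G ⧸ F) ≤ C := by
    rw [CfsgLib.Core.fittingSubgroup_eq_iSup_pCore]
    refine iSup_le fun r => ?_
    haveI := Fact.mk r.2
    intro y hy
    obtain ⟨P, hP⟩ := Cfsg.Agent.S0031.result σ (fun x => hfpf x) (r : ℕ)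
    have hyP := CfsgLib.Core.pCore_le_sylow (P.mapSurjective hπ) hy
    rw [Sylow.coe_mapSurjective] at hyP
    obtain ⟨x, hxP, rfl⟩ := hyP
    set N := (Cfsg.pCore (r : ℕ) (G ⧸ F)).comap π with hN
    haveI hNn : N.Normal := (CfsgLib.Core.normal_pCore _).comap π
    have hOσ := CfsgLib.Core.map_characteristic σH
      (CfsgLib.Core.characteristic_pCore (G := G ⧸ F) (r : ℕ))
    have hNσ : ∀ v ∈ N, σ v ∈ N := fun v hv => by
      show π (σ v) ∈ Cfsg.pCore (r : ℕ) (G ⧸ F)
      rw [← hσH]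
      exact hOσ.le (Subgroup.mem_map_of_mem _ hv)
    set R := (P : Subgroup G) ⊓ N with hR
    have hRσ : ∀ v ∈ R, σ v ∈ R := fun v hv =>
      ⟨hP.le (Subgroup.mem_map_of_mem _ hv.1), hNσ v hv.2⟩
    set z := x⁻¹ * σ (σ x) with hz
    have hxR : x ∈ R := ⟨hxP, hy⟩
    have hzR : z ∈ R := R.mul_mem (R.inv_mem hxR) (hRσ _ (hRσ _ hxR))
    let Ct : Subgroup G := ⨅ q : {q : Nat.Primes // q ≠ r},
      Subgroup.centralizer (Cfsg.pCore ((q : Nat.Primes) : ℕ) G : Set G)
    haveI hCt : Ct.Normal := Subgroup.normal_iInf_normal fun q => by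
      haveI := CfsgLib.Core.normal_pCore (G := G) ((q : Nat.Primes) : ℕ)
      infer_instance
    have hzC : z ∈ Ct := by
      rw [Subgroup.mem_iInf]
      rintro ⟨q, hq⟩
      haveI := Fact.mk q.2
      haveI := CfsgLib.Core.normal_pCore (G := G) (q : ℕ)
      exact centralizes_core σ hσ hfpf hRσ (P.2.to_le inf_le_left) (Cfsg.pCore (q : ℕ) G)
        (CfsgLib.Core.map_characteristic σ (CfsgLib.Core.characteristic_pCore _))
        (CfsgLib.Core.isPGroup_pCore (q : ℕ)) (fun e => hq (Subtype.ext e.symm)) hxR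
    set Y := R ⊓ Ct with hY
    have hYp : IsPGroup (r : ℕ) Y := P.2.to_le (inf_le_left.trans inf_le_left)
    have hYN : Y ≤ N := inf_le_left.trans inf_le_right
    have hnorm : N ≤ Subgroup.normalizer (Y : Set G) := by
      have hRY : R ≤ Subgroup.normalizer (Y : Set G) := CfsgLib.Core.le_normalizer_iff_forall.mpr
        fun a ha w hw => ⟨R.mul_mem (R.mul_mem ha hw.1) (R.inv_mem ha), hCt.conj_mem w hw.2 a⟩
      have hFY : F ≤ Subgroup.normalizer (Y : Set G) := by
        rw [hFdef, CfsgLib.Core.fittingSubgroup_eq_iSup_pCore]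
        refine iSup_le fun q => ?_
        haveI := Fact.mk q.2
        rcases eq_or_ne q r with rfl | hq
        · refine le_trans (le_inf (CfsgLib.Core.pCore_le_sylow P) fun v hv => ?_) hRY
          have hv' : v ∈ F := CfsgLib.Core.pCore_le_fittingSubgroup _ hv
          show π v ∈ Cfsg.pCore (q : ℕ) (G ⧸ F)
          rw [show π v = 1 from (QuotientGroup.eq_one_iff v).mpr hv']
          exact one_mem _
        · refine le_trans ?_ (Subgroup.centralizer_le_normalizer (Y : Set G))
          rw [Subgroup.le_centralizer_iff]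
          exact (inf_le_right : Y ≤ Ct).trans (iInf_le _ (⟨q, hq⟩ : {q : Nat.Primes // q ≠ r}))
      intro n hn
      have hnP := CfsgLib.Core.pCore_le_sylow (P.mapSurjective hπ) (show π n ∈ _ from hn)
      rw [Sylow.coe_mapSurjective] at hnP
      obtain ⟨w, hwP, hw⟩ := hnP
      have hwR : w ∈ R := ⟨hwP, by show π w ∈ Cfsg.pCore (r : ℕ) (G ⧸ F); rw [hw]; exact hn⟩
      have : n = n * w⁻¹ * w := by group
      rw [this]
      refine Subgroup.mul_mem _ (hFY ?_) (hRY hwR)
      rw [← QuotientGroup.eq_one_iff]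
      show π (n * w⁻¹) = 1
      rw [map_mul, map_inv, hw, mul_inv_cancel]
    have hsub : Y.IsSubnormal := Subgroup.IsSubnormal.step Y N hYN
      (Subgroup.IsSubnormal.step N ⊤ le_top Subgroup.IsSubnormal.top inferInstance)
      ((Subgroup.normal_subgroupOf_iff_le_normalizer hYN).mpr hnorm)
    have hzF : z ∈ F := CfsgLib.Core.pCore_le_fittingSubgroup _
      (CfsgLib.Core.le_pCore_of_isSubnormal hsub hYp ⟨hzR, hzC⟩)
    show σH (σH (π x)) = π x
    rw [hσH, hσH]
    exact (QuotientGroup.eq.mpr hzF).symm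
  -- hence everywhere
  have hsq : ∀ y : G ⧸ F, σH (σH y) = y := by
    by_contra hne
    have hne' : (σH * σH : MulAut (G ⧸ F)) ≠ MulEquiv.refl _ := fun e =>
      hne fun y => DFunLike.congr_fun e y
    refine Cfsg.Agent.S0552.result (σH * σH) (fun w hw => hFit hw) hne' ?_
    have h2 : orderOf (σH * σH) ∣ 2 := orderOf_dvd_of_pow_eq_one (by
      rw [← pow_two σH, ← pow_mul]; exact hσH4)
    exact (Nat.coprime_two_left.mpr (hodd.of_dvd_nat (Subgroup.card_quotient_dvd_card F))).coprime_dvd_left h2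
  have hinv : ∀ y, σH y = y⁻¹ := fun y => CfsgLib.Core.inverts_of_sq_fixed σH hσHf (hsq y)
  have hle : commutator G ≤ F := by
    rw [commutator_def, Subgroup.commutator_le]
    intro a _ b _
    rw [← QuotientGroup.eq_one_iff]
    show π ⁅a, b⁆ = 1
    rw [map_commutatorElement, commutatorElement_eq_one_iff_mul_comm]
    have h := hinv (π a * π b)
    rw [map_mul, hinv, hinv, ← mul_inv_rev, inv_inj] at h
    exact h.symm
  haveI := CfsgLib.Core.isNilpotent_fittingSubgroup (G := G)
  exact Group.nilpotent_of_mulEquiv (Subgroup.subgroupOfEquivOfLe hle)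

end Cfsg.Agent.S3794
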