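import Cfsg.Statements.S3796
import Cfsg.Agent.Lib.CoreWard
import Cfsg.Agent.Lib.CoreFpfFour

set_option autoImplicit false
open Cfsg
open scoped Pointwise

namespace Cfsg.Agent.S3796

universe u v

open CfsgLib.Core
open scoped IsMulCommutative

/-- An automorphism group without fixed points has order prime to the group. -/
theorem not_dvd_card {G : Type u} [Group G] [Finite G] {A : Type v} [CommGroup A] [Finite A] {p : ℕ}
    [hp : Fact p.Prime] (hexp : ∀ a : A, a ^ p = 1) (α : A →* MulAut G)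
    (hfpf : ∀ g, (∀ a, α a g = g) → g = 1) : ¬ p ∣ Nat.card G := by
  intro hd
  letI : MulAction A G := MulAction.compHom G α
  have hone : (1 : G) ∈ MulAction.fixedPoints A G := fun a => map_one (α a)
  obtain ⟨g, hg, hg1⟩ := (Ward.isPGroup_of_exp hexp).exists_fixed_point_of_prime_dvd_card_of_fixed_point
    G hd hone
  exact hg1 (hfpf g fun a => hg a).symm

/-- Two independent elements fixing a point fix it under all of `A`. -/
theorem fixed_of_two {G : Type u} [Group G] {A : Type v} [CommGroup A] [Finite A] {p : ℕ}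
    [Fact p.Prime] (hexp : ∀ a : A, a ^ p = 1) (hcard : Nat.card A = p ^ 2) (α : A →* MulAut G)
    {b c : A} (hb : b ≠ 1) (hc : c ∉ Subgroup.zpowers b) {g : G} (h1 : α b g = g) (h2 : α c g = g)
    (x : A) : α x g = g := by
  obtain ⟨i, j, rfl⟩ := Ward.exists_eq_mul_pow hexp hcard hb hc x
  rw [map_mul, map_pow, map_pow, MulAut.mul_apply, map_pow_eq_self _ h2, map_pow_eq_self _ h1]

/-- The core of the argument: the action on a chief factor is nilpotent. -/
theorem nilpotent_on_chief {G : Type u} [Group G] [Finite G] [Group.IsSolvable G] {A : Type v}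
    [CommGroup A] [Finite A] {p : ℕ} [hp : Fact p.Prime] (hexp : ∀ a : A, a ^ p = 1)
    (hcard : Nat.card A = p ^ 2) (α : A →* MulAut G) (hfpf : ∀ g, (∀ a, α a g = g) → g = 1)
    {r : ℕ} [hr : Fact r.Prime] (V : Subgroup G) [V.Normal] [IsMulCommutative V]
    (hV : IsPGroup r V) (hV0 : V ≠ ⊥) (hVA : ∀ b, V.map (α b).toMonoidHom = V)
    (hmin : ∀ K : Subgroup G, K.Normal → (∀ b, K.map (α b).toMonoidHom = K) → K ≤ V → K ≠ ⊥ → K = V) :
    Group.IsNilpotent (MulAut.conjNormal : G →* MulAut V).range := by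
  classical
  have hpG := not_dvd_card hexp α hfpf
  let φ : G →* MulAut V := MulAut.conjNormal
  let αV : A →* MulAut V :=
    { toFun := fun b => restrictAut (α b) V (hVA b)
      map_one' := MulEquiv.ext fun x => Subtype.ext (by
        show α 1 (x : G) = x
        rw [map_one]; rfl)
      map_mul' := fun b b' => MulEquiv.ext fun x => Subtype.ext (by
        show α (b * b') (x : G) = α b (α b' (x : G))
        rw [map_mul]; rfl) }
  have hcompat : ∀ b g, αV b * φ g * (αV b)⁻¹ = φ (α b g) := fun b g =>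
    mul_inv_eq_iff_eq_mul.2 (MulEquiv.ext fun x => Subtype.ext (by
      show α b (g * (x : G) * g⁻¹) = α b g * α b (x : G) * (α b g)⁻¹
      rw [map_mul, map_mul, map_inv]))
  show Group.IsNilpotent φ.range
  set H := φ.range with hH
  haveI : Group.IsSolvable H := Group.isSolvable_of_surjective φ.rangeRestrict_surjective
  have hpH : ¬ p ∣ Nat.card H := fun h => hpG (h.trans (Subgroup.card_range_dvd φ))
  have hHA : ∀ b, ∀ h ∈ H, αV b * h * (αV b)⁻¹ ∈ H := fun b h hh => by
    obtain ⟨g, rfl⟩ := hh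
    exact ⟨α b g, (hcompat b g).symm⟩
  -- lifting fixed elements
  have hlift : ∀ (B : Subgroup A), ∀ h ∈ H, (∀ b ∈ B, αV b * h = h * αV b) →
      ∃ g, φ g = h ∧ ∀ b ∈ B, α b g = g := by
    intro B h hh hc
    obtain ⟨g₀, hg₀⟩ := hh
    obtain ⟨g, hg, hgf⟩ := Ward.exists_fixed ((Ward.isPGroup_of_exp hexp).to_subgroup B)
      (α.comp B.subtype) {g | φ g = h} (fun b g hg => by
        show φ (α b g) = h
        rw [← hcompat, (hg : φ g = h), hc b b.2, mul_inv_cancel_right]) (by
        rw [show Nat.card {g : G | φ g = h} = Nat.card φ.ker from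
          Nat.card_congr ((Equiv.mulLeft g₀⁻¹).subtypeEquiv fun g => by
            show φ g = h ↔ g₀⁻¹ * g ∈ φ.ker
            rw [MonoidHom.mem_ker, map_mul, map_inv, inv_mul_eq_one, hg₀, eq_comm])]
        exact fun h => hpG (h.trans (Subgroup.card_subgroup_dvd_card _)))
    exact ⟨g, hg, fun b hb => hgf ⟨b, hb⟩⟩
  have hH0 : ∀ h ∈ H, (∀ b, αV b * h = h * αV b) → h = 1 := fun h hh hc => by
    obtain ⟨g, hg, hgf⟩ := hlift ⊤ h hh (fun b _ => hc b)
    rw [← hg, hfpf g (fun b => hgf b (Subgroup.mem_top b)), map_one]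
  -- centralisers in `G` are nilpotent
  let CG : A → Subgroup G := fun b =>
    { carrier := {g | α b g = g}
      one_mem' := map_one (α b)
      mul_mem' := fun {x y} (hx : α b x = x) (hy : α b y = y) => show α b (x * y) = x * y by
        rw [map_mul, hx, hy]
      inv_mem' := fun {x} (hx : α b x = x) => show α b x⁻¹ = x⁻¹ by rw [map_inv, hx] }
  have hCnil : ∀ b : A, b ≠ 1 → Group.IsNilpotent (CG b) := by
    intro b hb
    obtain ⟨c, hc⟩ := Ward.exists_notMem_zpowers hexp hcard b
    have hinv : (CG b).map (α c).toMonoidHom = CG b := map_eq_of_forall _ fun y (hy : α b y = y) => by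
      show α b (α c y) = α c y
      rw [← MulAut.mul_apply, ← map_mul, mul_comm, map_mul, MulAut.mul_apply, hy]
    refine isNilpotent_of_fpf_prime hp.out _ (CG b) le_rfl (restrictAut (α c) _ hinv)
      (MulEquiv.ext fun x => Subtype.ext ?_) (fun x hx => Subtype.ext (hfpf _ fun a =>
        fixed_of_two hexp hcard α hb hc x.2 (congrArg Subtype.val hx) a))
    rw [coe_restrictAut_pow, ← map_pow, hexp, map_one]
    rfl
  have hqlift : ∀ (b : A) (q : ℕ), q.Prime → ∀ h ∈ H, (∃ i, orderOf h = q ^ i) →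
      αV b * h = h * αV b → ∃ g ∈ CG b, φ g = h ∧ ∃ j, orderOf g = q ^ j := by
    intro b q hq h hh ⟨i, hi⟩ hc
    obtain ⟨g, hg, hgf⟩ := hlift (Subgroup.zpowers b) h hh (fun x hx => by
      obtain ⟨k, rfl⟩ := mem_zpowers_nat hx
      rw [map_pow]; exact (Commute.pow_left hc k).eq)
    obtain ⟨j, l, hl, he⟩ := Nat.exists_eq_pow_mul_and_not_dvd (orderOf_pos g).ne' q hq.ne_one
    have hgC : g ∈ CG b := hgf b (Subgroup.mem_zpowers b)
    obtain ⟨k, hk⟩ := exists_pow_eq_self_of_coprime (x := h) (n := l)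
      (by rw [hi]; exact ((hq.coprime_iff_not_dvd.2 hl).pow_left i).symm)
    refine ⟨(g ^ l) ^ k, pow_mem (pow_mem hgC l) k, by rw [map_pow, map_pow, hg, hk], ?_⟩
    have hd : orderOf ((g ^ l) ^ k) ∣ q ^ j := orderOf_dvd_of_pow_eq_one (by
      rw [← pow_mul, ← pow_mul, mul_comm k, ← mul_assoc, mul_comm l, ← he, pow_mul,
        pow_orderOf_eq_one, one_pow])
    obtain ⟨j', -, hj'⟩ := (Nat.dvd_prime_pow hq).1 hd
    exact ⟨j', hj'⟩
  have hpow : ∀ {q : ℕ} [Fact q.Prime] {K : Subgroup (MulAut V)}, IsPGroup q K → ∀ h ∈ K,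
      ∃ i, orderOf h = q ^ i := fun hK h hh => by
    obtain ⟨i, hi⟩ := IsPGroup.iff_orderOf.1 hK ⟨h, hh⟩
    exact ⟨i, by rw [← hi, Subgroup.orderOf_mk]⟩
  have hcomm : ∀ (b : A), b ≠ 1 → ∀ (q s : ℕ) [Fact q.Prime] [Fact s.Prime], q ≠ s →
      ∀ h₁ ∈ H, (∃ i, orderOf h₁ = q ^ i) → αV b * h₁ = h₁ * αV b →
      ∀ h₂ ∈ H, (∃ i, orderOf h₂ = s ^ i) → αV b * h₂ = h₂ * αV b → h₁ * h₂ = h₂ * h₁ := by
    intro b hb q s _ _ hqs h₁ hh₁ ho₁ hc₁ h₂ hh₂ ho₂ hc₂
    obtain ⟨g₁, hg₁, rfl, j₁, hj₁⟩ := hqlift b q Fact.out h₁ hh₁ ho₁ hc₁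
    obtain ⟨g₂, hg₂, rfl, j₂, hj₂⟩ := hqlift b s Fact.out h₂ hh₂ ho₂ hc₂
    have := le_centralizer_of_isNilpotent (hCnil b hb) hqs (Subgroup.zpowers_le.2 hg₁)
      (Subgroup.zpowers_le.2 hg₂) (IsPGroup.of_card (n := j₁) (by rw [Nat.card_zpowers, hj₁]))
      (IsPGroup.of_card (n := j₂) (by rw [Nat.card_zpowers, hj₂])) (Subgroup.mem_zpowers g₁)
    rw [← map_mul, ← map_mul, Subgroup.mem_centralizer_iff.1 this g₂ (Subgroup.mem_zpowers g₂)]
  -- the layer lemma
  have hlayer : ∀ (q s : ℕ) [Fact q.Prime] [Fact s.Prime], q ≠ s → ∀ P : Sylow s G,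
      (∀ b, ∀ g ∈ (P : Subgroup G), α b g ∈ (P : Subgroup G)) →
      ∀ g ∈ (P : Subgroup G), ∀ h ∈ Cfsg.pCore q H, φ g * (h : MulAut V) = h * φ g := by
    intro q s _ _ hqs P hPA
    set Q : Subgroup (MulAut V) := (Cfsg.pCore q H).map H.subtype with hQ
    have hQq : IsPGroup q Q := (isPGroup_pCore q).map H.subtype
    have hQH : Q ≤ H := Subgroup.map_subtype_le _
    have hQA : ∀ b, ∀ x ∈ Q, αV b * x * (αV b)⁻¹ ∈ Q := by
      rintro b - ⟨x, hx, rfl⟩
      have hi : H.map (MulAut.conj (αV b)).toMonoidHom = H :=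
        map_eq_of_forall (MulAut.conj (αV b)) (hHA b)
      exact ⟨restrictAut (MulAut.conj (αV b)) H hi x, (map_characteristic _
        (characteristic_pCore q)).le (Subgroup.mem_map_of_mem _ hx), rfl⟩
    have hQn : ∀ y ∈ H, ∀ x ∈ Q, y * x * y⁻¹ ∈ Q := by
      rintro y hy - ⟨x, hx, rfl⟩
      exact ⟨⟨y, hy⟩ * x * ⟨y, hy⟩⁻¹, (normal_pCore q).conj_mem x hx _, rfl⟩
    suffices hmain : ∀ g ∈ (P : Subgroup G), ∀ x ∈ Q, φ g * x = x * φ g from
      fun g hg h hh => hmain g hg _ ⟨h, hh, rfl⟩
    by_cases hQ1 : Q = ⊥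
    · intro g _ x hx
      rw [hQ1, Subgroup.mem_bot] at hx
      rw [hx, mul_one, one_mul]
    set E : Subgroup (MulAut V) := Q ⊓ Subgroup.centralizer (Q : Set (MulAut V)) with hE
    haveI : IsMulCommutative E :=
      ⟨⟨fun x y => Subtype.ext (Subgroup.mem_centralizer_iff.1 y.2.2 _ x.2.1)⟩⟩
    have hEn : ∀ y : MulAut V, (∀ x ∈ Q, y * x * y⁻¹ ∈ Q) → (∀ x ∈ Q, y⁻¹ * x * y ∈ Q) →
        ∀ e ∈ E, y * e * y⁻¹ ∈ E := fun y hy hy' e he => ⟨hy e he.1,
      Subgroup.mem_centralizer_iff.2 fun x hx => by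
        calc x * (y * e * y⁻¹) = y * ((y⁻¹ * x * y) * e) * y⁻¹ := by group
          _ = y * (e * (y⁻¹ * x * y)) * y⁻¹ := by
            rw [Subgroup.mem_centralizer_iff.1 he.2 _ (hy' x hx)]
          _ = y * e * y⁻¹ * x := by group⟩
    have hEH : ∀ y ∈ H, ∀ e ∈ E, y * e * y⁻¹ ∈ E := fun y hy => hEn y (hQn y hy) fun x hx => by
      simpa using hQn _ (inv_mem hy) x hx
    have hEA : ∀ b, ∀ e ∈ E, αV b * e * (αV b)⁻¹ ∈ E := fun b => hEn _ (hQA b) fun x hx => by
      simpa using hQA b⁻¹ x hx
    obtain ⟨z, hzE, hz1⟩ : ∃ z ∈ E, z ≠ 1 := by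
      haveI : Nontrivial Q := (Subgroup.nontrivial_iff_ne_bot _).2 hQ1
      haveI := hQq.center_nontrivial
      obtain ⟨⟨z, hz⟩, hne⟩ := exists_ne (1 : Subgroup.center Q)
      refine ⟨z, ⟨z.2, Subgroup.mem_centralizer_iff.2 fun x hx =>
        congrArg Subtype.val (Subgroup.mem_center_iff.1 hz ⟨x, hx⟩)⟩, fun e => hne ?_⟩
      exact Subtype.ext (Subtype.ext e)
    -- no fixed points of `E`
    let Fix : Subgroup V :=
      { carrier := {x | ∀ e ∈ E, e x = x}
        one_mem' := fun e _ => map_one e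
        mul_mem' := fun {x y} hx hy e he => by rw [map_mul, hx e he, hy e he]
        inv_mem' := fun {x} hx e he => by rw [map_inv, hx e he] }
    have hFix : Fix = ⊥ := by
      by_contra hne
      have hn : (Fix.map V.subtype).Normal := ⟨by
        rintro - ⟨x, hx, rfl⟩ g
        refine ⟨φ g x, fun e he => ?_, rfl⟩
        have h := hx _ (hEH _ (inv_mem ⟨g, rfl⟩) e he)
        rw [inv_inv, MulAut.mul_apply, MulAut.mul_apply] at h
        conv_rhs => rw [← h]
        simp⟩
      have ha : ∀ b, (Fix.map V.subtype).map (α b).toMonoidHom = Fix.map V.subtype := fun b =>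
        map_eq_of_forall _ (by
          rintro - ⟨x, hx, rfl⟩
          refine ⟨αV b x, fun e he => ?_, rfl⟩
          have h := hx _ (hEA b⁻¹ e he)
          rw [map_inv, inv_inv, MulAut.mul_apply, MulAut.mul_apply] at h
          conv_rhs => rw [← h]
          simp)
      have heq := hmin _ hn ha (Subgroup.map_subtype_le _) (fun e => hne
        ((Subgroup.map_eq_bot_iff_of_injective _ V.subtype_injective).1 e))
      refine hz1 (MulEquiv.ext fun x => ?_)
      obtain ⟨x', hx', he⟩ := heq.ge x.2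
      obtain rfl : x' = x := Subtype.ext he
      exact hx' z hzE
    have hqr : q ≠ r := by
      rintro rfl
      have hEq : IsPGroup q E := hQq.to_le inf_le_left
      have hone : (1 : V) ∈ MulAction.fixedPoints E V := fun e => map_one (e : MulAut V)
      haveI : Nontrivial V := (Subgroup.nontrivial_iff_ne_bot _).2 hV0
      obtain ⟨n, hn, hc⟩ := hV.nontrivial_iff_card.1 inferInstance
      obtain ⟨x, hx, hx1⟩ := hEq.exists_fixed_point_of_prime_dvd_card_of_fixed_point V
        (hc ▸ dvd_pow_self q (by omega)) hone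
      exact hx1 (Subgroup.mem_bot.1 (hFix ▸ (fun e he => hx ⟨e, he⟩ : x ∈ Fix))).symm
    have hcEV : (Nat.card E).Coprime (Nat.card V) := by
      obtain ⟨i, hi⟩ := (hQq.to_le (inf_le_left : E ≤ Q)).exists_card_eq
      obtain ⟨j, hj⟩ := hV.exists_card_eq
      rw [hi, hj]
      exact ((Nat.coprime_primes Fact.out hr.out).2 hqr).pow i j
    set S : Subgroup (MulAut V) := (P : Subgroup G).map φ with hS
    have hSs : IsPGroup s S := P.2.map φ
    have hSH : S ≤ H := Subgroup.map_le_range φ _
    have hSA : ∀ b, ∀ x ∈ S, αV b * x * (αV b)⁻¹ ∈ S := by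
      rintro b - ⟨g, hg, rfl⟩
      exact ⟨α b g, hPA b g hg, (hcompat b g).symm⟩
    -- generation of `Q`
    have hQgen : Q ≤ Subgroup.closure {x | x ∈ Q ∧ ∃ b : A, b ≠ 1 ∧ αV b * x = x * αV b} := by
      let θ : A →* MulAut Q :=
        { toFun := fun b => restrictAut (MulAut.conj (αV b)) Q (map_eq_of_forall _ (hQA b))
          map_one' := MulEquiv.ext fun x => Subtype.ext (by
            show αV 1 * (x : MulAut V) * (αV 1)⁻¹ = x
            rw [map_one]; group)
          map_mul' := fun b b' => MulEquiv.ext fun x => Subtype.ext (by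
            show αV (b * b') * (x : MulAut V) * (αV (b * b'))⁻¹ =
              αV b * (αV b' * (x : MulAut V) * (αV b')⁻¹) * (αV b)⁻¹
            rw [map_mul]; group) }
      haveI := isNilpotent_of_isPGroup hQq
      have hgen := Ward.closure_fixed_eq_top hexp hcard _ Q le_rfl
        (fun h => hpH (h.trans (Subgroup.card_dvd_of_le hQH))) θ
      intro x hx
      have h := Subgroup.mem_map_of_mem Q.subtype (hgen.ge (Subgroup.mem_top (⟨x, hx⟩ : Q)))
      rw [MonoidHom.map_closure] at h
      refine Subgroup.closure_mono ?_ h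
      rintro - ⟨y, ⟨b, hb, hy⟩, rfl⟩
      exact ⟨y.2, b, hb, mul_inv_eq_iff_eq_mul.1 (congrArg Subtype.val hy)⟩
    -- generation of `P`
    let θP : A →* MulAut (P : Subgroup G) :=
      { toFun := fun b => restrictAut (α b) (P : Subgroup G) (map_eq_of_forall _ (hPA b))
        map_one' := MulEquiv.ext fun x => Subtype.ext (by
          show α 1 (x : G) = x
          rw [map_one]; rfl)
        map_mul' := fun b b' => MulEquiv.ext fun x => Subtype.ext (by
          show α (b * b') (x : G) = α b (α b' (x : G))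
          rw [map_mul]; rfl) }
    haveI := isNilpotent_of_isPGroup P.2
    have hPgen := Ward.closure_fixed_eq_top hexp hcard _ (P : Subgroup G) le_rfl
      (fun h => hpG (h.trans (Subgroup.card_subgroup_dvd_card _))) θP
    let K : Subgroup (P : Subgroup G) :=
      (Subgroup.centralizer (Q : Set (MulAut V))).comap (φ.comp (P : Subgroup G).subtype)
    suffices hK : K = ⊤ by
      intro g hg x hx
      exact (Subgroup.mem_centralizer_iff.1 (hK.ge (Subgroup.mem_top (⟨g, hg⟩ : (P : Subgroup G))))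
        x hx).symm
    rw [eq_top_iff, ← hPgen, Subgroup.closure_le]
    rintro g ⟨a, ha, hga⟩
    refine Subgroup.mem_comap.2 (Subgroup.mem_centralizer_iff.2 fun x hx => ?_)
    have hga' : α a (g : G) = g := congrArg Subtype.val hga
    let Sa : Subgroup (MulAut V) := S ⊓ Subgroup.centralizer {αV a}
    have hSaH : Sa ≤ H := inf_le_left.trans hSH
    have hSac : ∀ y ∈ Sa, αV a * y = y * αV a := fun y hy =>
      (Subgroup.mem_centralizer_singleton_iff.1 hy.2).symm
    have hcab : ∀ b, αV a * αV b = αV b * αV a := fun b => by rw [← map_mul, ← map_mul, mul_comm]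
    refine ((Ward.centralizes hexp hcard αV E Q Sa ?_ hEA ?_ ?_ hcEV ?_ hQA ?_ hQgen ?_ a ha ?_ ?_ hSac
      ?_ (fun y hy => hEH y (hSaH hy)) (fun y hy => hQn y (hSaH hy)) ?_ ?_) (φ g)
      ⟨⟨g, g.2, rfl⟩, Subgroup.mem_centralizer_singleton_iff.2 ?_⟩ x hx).symm
    · exact fun y hy => Subtype.ext (hfpf _ fun b => congrArg Subtype.val (hy b))
    · exact fun e he hc => hH0 e (hQH he.1) hc
    · exact fun y hy => Subgroup.mem_bot.1 (hFix ▸ (hy : y ∈ Fix))
    · exact fun h => hpH (h.trans (Subgroup.card_dvd_of_le (inf_le_left.trans hQH)))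
    · exact fun y hy e he => Subgroup.mem_centralizer_iff.1 he.2 y hy
    · intro b hb y hy hyb v hv
      obtain ⟨g', hg', rfl, j, hj⟩ := hqlift b q Fact.out y (hQH hy) (hpow hQq y hy) hyb
      have hvC : (v : G) ∈ CG b := congrArg Subtype.val hv
      obtain ⟨k, hk⟩ := IsPGroup.iff_orderOf.1 hV v
      have h1 := le_centralizer_of_isNilpotent (hCnil b hb) hqr (Subgroup.zpowers_le.2 hg')
        (Subgroup.zpowers_le.2 hvC) (IsPGroup.of_card (n := j) (by rw [Nat.card_zpowers, hj]))
        (IsPGroup.of_card (n := k) (by rw [Nat.card_zpowers, Subgroup.orderOf_coe, hk]))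
        (Subgroup.mem_zpowers g')
      refine Subtype.ext ?_
      show g' * (v : G) * g'⁻¹ = v
      rw [← Subgroup.mem_centralizer_iff.1 h1 (v : G) (Subgroup.mem_zpowers _), mul_inv_cancel_right]
    · exact fun h => hpH (h.trans (Subgroup.card_dvd_of_le hSaH))
    · refine fun b y hy => ⟨hSA b y hy.1, Subgroup.mem_centralizer_singleton_iff.2 ?_⟩
      have h1 : Commute (αV a) (αV b) := hcab b
      have h2 : Commute (αV a) y := hSac y hy
      exact ((h1.mul_right h2).mul_right h1.inv_right).symm.eq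
    · intro b hb y hy hyb
      refine hH0 y (hSaH hy) fun c => ?_
      obtain ⟨i, j, rfl⟩ := Ward.exists_eq_mul_pow hexp hcard ha hb c
      rw [map_mul, map_pow, map_pow]
      exact (((show Commute (αV a) y from hSac y hy).pow_left i).mul_left
        ((show Commute (αV b) y from hyb).pow_left j)).eq
    · exact fun y hy e he hec => hcomm a ha s q hqs.symm y (hSaH hy) (hpow hSs y hy.1) (hSac y hy)
        e (hQH he.1) (hpow hQq e he.1) hec
    · exact fun y hy e he hec => hcomm a ha s q hqs.symm y (hSaH hy) (hpow hSs y hy.1) (hSac y hy)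
        e (hQH he) (hpow hQq e he) hec
    · show φ g * αV a = αV a * φ g
      have h := hcompat a g
      rw [hga'] at h
      exact (mul_inv_eq_iff_eq_mul.1 h).symm
  -- every Sylow subgroup centralises the other cores
  have hsyl : ∀ (q s : ℕ) [Fact q.Prime] [Fact s.Prime], q ≠ s → ∀ R : Sylow s H,
      (R : Subgroup H) ≤ Subgroup.centralizer (Cfsg.pCore q H : Set H) := by
    intro q s _ _ hqs R
    letI : MulDistribMulAction A G := MulDistribMulAction.compHom G α
    obtain ⟨P₀⟩ : Nonempty (Sylow s G) := inferInstance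
    obtain ⟨P, hP⟩ := (Ward.isPGroup_of_exp hexp).nonempty_fixed_point_of_prime_not_dvd_card
      (Sylow s G) (fun h => hpG (h.trans
        ((P₀.card_dvd_index).trans (P₀ : Subgroup G).index_dvd_card)))
    have hPA : ∀ b, ∀ g ∈ (P : Subgroup G), α b g ∈ (P : Subgroup G) := fun b g hg => by
      have h1 : b • g ∈ ((b • P : Sylow s G) : Subgroup G) :=
        Subgroup.smul_mem_pointwise_smul g b _ hg
      rwa [hP b] at h1
    let P' : Sylow s H := P.mapSurjective φ.rangeRestrict_surjective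
    obtain ⟨y, rfl⟩ := MulAction.exists_smul_eq H P' R
    haveI : (Cfsg.pCore q H).Normal := normal_pCore q
    haveI : (Subgroup.centralizer (Cfsg.pCore q H : Set H)).Normal := inferInstance
    intro x hx
    obtain ⟨x', hx', rfl⟩ := hx
    refine Subgroup.Normal.conj_mem inferInstance x' ?_ y
    obtain ⟨g, hg, rfl⟩ := hx'
    exact Subgroup.mem_centralizer_iff.2 fun h hh => Subtype.ext (hlayer q s hqs P hPA g hg h hh).symm
  rw [isNilpotent_iff_sylow_normal]
  intro q hq P
  haveI := hq
  haveI := normal_fittingSubgroup (G := H)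
  set F := Cfsg.fittingSubgroup H with hF
  have hFP : F ≤ Subgroup.normalizer ((P : Subgroup H) : Set H) := by
    rw [hF, fittingSubgroup_eq_iSup_pCore]
    refine iSup_le fun t => ?_
    by_cases ht : (t : ℕ) = q
    · rw [ht]; exact (pCore_le_sylow P).trans Subgroup.le_normalizer
    · haveI := Fact.mk t.2
      exact (Subgroup.le_centralizer_iff.1 (hsyl t q ht P)).trans
        (centralizer_le_normalizer _)
  have hD : ((P : Subgroup H) ⊔ F).Normal := by
    rw [← Subgroup.normalizer_eq_top_iff]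
    refine eq_top_of_sylow_le fun s _ => ?_
    by_cases hsq : s = q
    · subst hsq
      exact ⟨P, le_sup_left.trans Subgroup.le_normalizer⟩
    obtain ⟨R⟩ : Nonempty (Sylow s H) := inferInstance
    refine ⟨R, fun x hx => ?_⟩
    have hPF : ∀ y ∈ (P : Subgroup H), x * y * x⁻¹ ∈ (P : Subgroup H) ⊔ F := by
      intro y hy
      have hc : x * y * x⁻¹ * y⁻¹ ∈ F := centralizer_fitting_le (by
        rw [fittingSubgroup_eq_iSup_pCore, Subgroup.mem_centralizer_iff]
        intro f hf
        refine (Subgroup.mem_centralizer_singleton_iff.1 ((iSup_le fun t z hz => ?_ :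
          _ ≤ Subgroup.centralizer ({x * y * x⁻¹ * y⁻¹} : Set H)) hf))
        refine Subgroup.mem_centralizer_singleton_iff.2 ?_
        haveI := Fact.mk t.2
        haveI : (Cfsg.pCore (t : ℕ) H).Normal := normal_pCore _
        haveI : (Subgroup.centralizer (Cfsg.pCore (t : ℕ) H : Set H)).Normal := inferInstance
        have hmem : x * y * x⁻¹ * y⁻¹ ∈ Subgroup.centralizer (Cfsg.pCore (t : ℕ) H : Set H) := by
          by_cases ht : (t : ℕ) = q
          · have hx' := hsyl t s (by rw [ht]; exact fun e => hsq e.symm) R hx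
            rw [show x * y * x⁻¹ * y⁻¹ = x * (y * x⁻¹ * y⁻¹) by group]
            exact mul_mem hx' (Subgroup.Normal.conj_mem inferInstance _ (inv_mem hx') y)
          · have hy' := hsyl t q ht P hy
            exact mul_mem (Subgroup.Normal.conj_mem inferInstance _ hy' x) (inv_mem hy')
        exact Subgroup.mem_centralizer_iff.1 hmem z hz)
      rw [show x * y * x⁻¹ = x * y * x⁻¹ * y⁻¹ * y by group]
      exact mul_mem (Subgroup.mem_sup_right hc) (Subgroup.mem_sup_left hy)
    refine Subgroup.mem_normalizer_fintype fun y hy => ?_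
    refine (sup_le (fun w hw => Subgroup.mem_comap.2 (hPF w hw))
      (fun w hw => Subgroup.mem_comap.2 (Subgroup.mem_sup_right
        (Subgroup.Normal.conj_mem inferInstance w hw x))) :
      (P : Subgroup H) ⊔ F ≤ ((P : Subgroup H) ⊔ F).comap (MulAut.conj x).toMonoidHom) hy
  haveI := hD
  have hDN : (P : Subgroup H) ⊔ F ≤ Subgroup.normalizer ((P : Subgroup H) : Set H) :=
    sup_le Subgroup.le_normalizer hFP
  have h := P.normalizer_sup_eq_top' (le_sup_left : (P : Subgroup H) ≤ (P : Subgroup H) ⊔ F)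
  have h' : Subgroup.normalizer ((P : Subgroup H) : Set H) ⊔ ((P : Subgroup H) ⊔ F) = ⊤ := h
  rw [sup_eq_left.2 hDN] at h'
  exact Subgroup.normalizer_eq_top_iff.1 h'

/-- Fitting height at most two, by induction. -/
theorem height_two {A : Type v} [CommGroup A] [Finite A] {p : ℕ} [hp : Fact p.Prime]
    (hexp : ∀ a : A, a ^ p = 1) (hcard : Nat.card A = p ^ 2) :
    ∀ (n : ℕ) (G : Type u) [Group G] [Finite G] [Group.IsSolvable G], Nat.card G ≤ n →
      ∀ α : A →* MulAut G, (∀ g, (∀ a, α a g = g) → g = 1) →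
        ∃ F : Subgroup G, ∃ _ : F.Normal, F.Characteristic ∧ Group.IsNilpotent F ∧
          Group.IsNilpotent (G ⧸ F) := by
  intro n
  induction n with
  | zero => intro G _ _ _ h; exact absurd h (by simp [Nat.card_pos.ne'])
  | succ n ih =>
    intro G _ _ _ hn α hfpf
    haveI := normal_fittingSubgroup (G := G)
    refine ⟨Cfsg.fittingSubgroup G, inferInstance, characteristic_fittingSubgroup,
      isNilpotent_fittingSubgroup, ?_⟩
    rcases subsingleton_or_nontrivial G with hG | hG
    · infer_instance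
    obtain ⟨r, hr, hcore⟩ := exists_pCore_ne_bot (G := G)
    haveI := Fact.mk hr
    set P := Cfsg.pCore r G with hP
    haveI : P.Normal := normal_pCore r
    haveI : P.Characteristic := characteristic_pCore r
    set Z := (Subgroup.center P).map P.subtype with hZ
    have hZn : Z.Normal := inferInstance
    have hPA : ∀ b, P.map (α b).toMonoidHom = P := fun b => map_characteristic _ inferInstance
    have hZA : ∀ b, Z.map (α b).toMonoidHom = Z := fun b => map_eq_of_forall _ (by
      rintro - ⟨z, hz, rfl⟩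
      exact ⟨restrictAut (α b) P (hPA b) z, (map_characteristic (restrictAut (α b) P (hPA b))
        (inferInstance : (Subgroup.center P).Characteristic)).le (Subgroup.mem_map_of_mem _ hz), rfl⟩)
    have hZ0 : Z ≠ ⊥ := fun e => by
      haveI : Nontrivial P := (Subgroup.nontrivial_iff_ne_bot _).2 hcore
      haveI := (isPGroup_pCore (G := G) r).center_nontrivial
      exact (Subgroup.nontrivial_iff_ne_bot _).1 inferInstance
        ((Subgroup.map_eq_bot_iff_of_injective _ P.subtype_injective).1 e)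
    obtain ⟨V, ⟨hVn, hVA, hV0, hVZ⟩, hVmin⟩ := (Set.toFinite {K : Subgroup G | K.Normal ∧
      (∀ b, K.map (α b).toMonoidHom = K) ∧ K ≠ ⊥ ∧ K ≤ Z}).exists_minimal ⟨Z, hZn, hZA, hZ0, le_rfl⟩
    haveI := hVn
    have hVP : V ≤ P := hVZ.trans (Subgroup.map_subtype_le _)
    haveI : IsMulCommutative V := ⟨⟨fun x y => Subtype.ext (by
      obtain ⟨x', hx', hxe⟩ := hVZ x.2
      show (x : G) * y = y * x
      rw [← hxe]
      exact congrArg Subtype.val (Subgroup.mem_center_iff.1 hx' ⟨y, hVP y.2⟩).symm)⟩⟩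
    have hVr : IsPGroup r V := (isPGroup_pCore r).to_le hVP
    have hnilH := nilpotent_on_chief hexp hcard α hfpf V hVr hV0 hVA
      (fun K h1 h2 h3 h4 => le_antisymm h3 (hVmin (y := K) ⟨h1, h2, h4, h3.trans hVZ⟩ h3))
    -- the quotient by `V`
    let αQ : A →* MulAut (G ⧸ V) :=
      { toFun := fun b => QuotientGroup.congr V V (α b) (hVA b)
        map_one' := MulEquiv.ext fun y => by
          obtain ⟨x, rfl⟩ := QuotientGroup.mk_surjective y
          show ((α 1 x : G) : G ⧸ V) = _
          rw [map_one]; rfl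
        map_mul' := fun a b => MulEquiv.ext fun y => by
          obtain ⟨x, rfl⟩ := QuotientGroup.mk_surjective y
          show ((α (a * b) x : G) : G ⧸ V) = _
          rw [map_mul]; rfl }
    have hpG := not_dvd_card hexp α hfpf
    have hlt := card_quotient_lt (N := V) hV0
    obtain ⟨F', hF'n, -, hF'nil, hQnil⟩ := ih (G ⧸ V) (by omega) αQ (fun y hy => by
      obtain ⟨x, rfl⟩ := QuotientGroup.mk_surjective y
      obtain ⟨g, hg, hgf⟩ := Ward.exists_fixed_mod (Ward.isPGroup_of_exp hexp) α V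
        (fun b v hv => (hVA b).le (Subgroup.mem_map_of_mem _ hv))
        (fun h => hpG (h.trans (Subgroup.card_subgroup_dvd_card _))) (x := x)
        (fun b => QuotientGroup.eq.1 (hy b).symm)
      rw [QuotientGroup.eq_one_iff]
      rw [hfpf g hgf, mul_one] at hg
      exact inv_mem_iff.1 hg)
    let φ : G →* MulAut V := MulAut.conjNormal
    let π : G →* ((G ⧸ V) ⧸ F') × φ.range :=
      ((QuotientGroup.mk' F').comp (QuotientGroup.mk' V)).prod φ.rangeRestrict
    haveI : Group.IsNilpotent φ.range := hnilH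
    have hker : π.ker ≤ Cfsg.fittingSubgroup G := by
      refine le_fittingSubgroup inferInstance ?_
      let ψ : π.ker →* F' :=
        { toFun := fun g => ⟨((g : G) : G ⧸ V), (QuotientGroup.eq_one_iff _).1
            (congrArg Prod.fst (MonoidHom.mem_ker.1 g.2))⟩
          map_one' := rfl
          map_mul' := fun _ _ => rfl }
      refine Subgroup.isNilpotent_of_ker_le_center ψ (fun g hg => Subgroup.mem_center_iff.2 fun h => ?_)
      have hgV : ((g : G)) ∈ V := (QuotientGroup.eq_one_iff _).1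
        (congrArg Subtype.val (MonoidHom.mem_ker.1 hg))
      have hh : φ (h : G) = 1 := congrArg Subtype.val (congrArg Prod.snd (MonoidHom.mem_ker.1 h.2))
      have := congrArg Subtype.val (DFunLike.congr_fun hh ⟨(g : G), hgV⟩)
      have h' : (h : G) * g * (h : G)⁻¹ = g := this
      exact Subtype.ext (mul_inv_eq_iff_eq_mul.1 h')
    haveI : Group.IsNilpotent (G ⧸ π.ker) :=
      Group.nilpotent_of_mulEquiv (QuotientGroup.quotientKerEquivRange π).symm
    exact Group.nilpotent_of_surjective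
      (QuotientGroup.map π.ker (Cfsg.fittingSubgroup G) (MonoidHom.id G) hker)
      (fun y => by
        obtain ⟨x, rfl⟩ := QuotientGroup.mk_surjective y
        exact ⟨(x : G ⧸ π.ker), rfl⟩)

/-- Ward's Theorem: let G be a finite solvable group and A an elementary abelian group of automorphisms of G of order p² (p a prime) with no non-identity common fixed point. Then G has Fitting height at most 2: G has Fitting height at most m when there is a chain of normal subgroups 1 = F₀ ≤ F₁ ≤ ⋯ ≤ F_m = G with each F_{i+1}/F_i nilpotent. -/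
theorem result {G : Type*} [Group G] [Finite G] (hG : Group.IsSolvable G) {p : ℕ} (hp : p.Prime) (A : Subgroup (MulAut G)) (hA : Cfsg.IsElementaryAbelian p A) (hcard : Nat.card A = p ^ 2) (hfpf : ∀ g : G, (∀ a ∈ A, a g = g) → g = 1) : ∃ F : Fin (2 + 1) → Subgroup G, F 0 = ⊥ ∧ F (Fin.last 2) = ⊤ ∧ Monotone F ∧ (∀ i, (F i).Normal) ∧ ∀ i : Fin 2, ∃ k : ℕ, (F i.succ).lowerCentralSeries k ≤ F i.castSucc := by
  haveI := Fact.mk hp
  haveI := hG
  haveI : IsMulCommutative A := hA.1
  have hexp : ∀ a : A, a ^ p = 1 := fun a => Subtype.ext (by simpa using hA.2 a a.2)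
  obtain ⟨F, hFn, -, hFnil, hQnil⟩ := height_two hexp hcard _ G le_rfl A.subtype
    (fun g hg => hfpf g fun a ha => hg ⟨a, ha⟩)
  refine ⟨![⊥, F, ⊤], rfl, rfl, ?_, fun i => ?_, fun i => ?_⟩
  · refine Fin.monotone_iff_le_succ.2 fun i => ?_
    fin_cases i
    · exact bot_le
    · exact le_top
  · fin_cases i
    · exact inferInstanceAs (⊥ : Subgroup G).Normal
    · exact hFn
    · exact inferInstanceAs (⊤ : Subgroup G).Normal
  · fin_cases i
    · obtain ⟨k, hk⟩ := Subgroup.nilpotent_iff_lowerCentralSeries.1 hFnil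
      refine ⟨k, ?_⟩
      show F.lowerCentralSeries k ≤ ⊥
      have h := Subgroup.map_lowerCentralSeries (S := (⊤ : Subgroup F)) F.subtype k
      rw [hk, Subgroup.map_bot, ← MonoidHom.range_eq_map, Subgroup.range_subtype] at h
      rw [← h]
    · obtain ⟨k, hk⟩ := Subgroup.nilpotent_iff_lowerCentralSeries.1 hQnil
      refine ⟨k, ?_⟩
      show (⊤ : Subgroup G).lowerCentralSeries k ≤ F
      have h := Subgroup.map_lowerCentralSeries (S := (⊤ : Subgroup G)) (QuotientGroup.mk' F) k
      rw [Subgroup.map_top_of_surjective _ (QuotientGroup.mk'_surjective F), hk,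
        Subgroup.map_eq_bot_iff, QuotientGroup.ker_mk'] at h
      exact h

end Cfsg.Agent.S3796
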