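import Cfsg.Statements.S3798
import Cfsg.Agent.Lib.CorePSolvable

set_option autoImplicit false
open Cfsg

namespace Cfsg.Agent.S3798

/-- The Gaschütz–Yen Theorem: let G be a finite p-soluble group, p an odd prime dividing its order, such that the automorphism group of G permutes the subgroups of G of order p transitively. Then G has p-length at most 1. -/
theorem result {G : Type*} [Group G] [Finite G] {p : ℕ} [Fact p.Prime] (hp : p ≠ 2) (hdvd : p ∣ Nat.card G) (hG : Cfsg.IsPSolvable p G) (htrans : ∀ U V : Subgroup G, Nat.card U = p → Nat.card V = p → ∃ a : MulAut G, U.map a.toMonoidHom = V) : Cfsg.PLengthLE p 1 G := by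
  classical
  have key : ∀ (U : Subgroup G) (_ : U.Normal), U = Cfsg.pPrimeCore p G →
      ¬ p ∣ ((Cfsg.pCore p (G ⧸ U)).comap (QuotientGroup.mk' U)).index := by
    intro U hUn hU
    subst hU
    rw [Subgroup.index_comap_of_surjective _ (QuotientGroup.mk'_surjective _)]
    set f := QuotientGroup.mk' (Cfsg.pPrimeCore p G) with hf
    refine CfsgLib.Core.index_pCore_coprime_of_transitive hp
      (CfsgLib.Core.isPSolvable_of_surjective f (QuotientGroup.mk'_surjective _) hG)
      (CfsgLib.Core.pPrimeCore_quotient_pPrimeCore p) fun U V hU hV => ?_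
    have hlift : ∀ W : Subgroup (G ⧸ Cfsg.pPrimeCore p G), Nat.card W = p →
        ∃ X : Subgroup G, Nat.card X = p ∧ X.map f = W := by
      intro W hW
      have hd : p ∣ Nat.card (W.comap f) := by
        have h0 := Subgroup.card_map_dvd (H := W.comap f) (f := f)
        rw [Subgroup.map_comap_eq_self_of_surjective (QuotientGroup.mk'_surjective _), hW] at h0
        exact h0
      obtain ⟨⟨x, hx⟩, hxo⟩ := exists_prime_orderOf_dvd_card' (G := W.comap f) p hd
      have hxo' : orderOf x = p := (Subgroup.orderOf_coe ⟨x, hx⟩).trans hxo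
      refine ⟨Subgroup.zpowers x, by rw [Nat.card_zpowers, hxo'], ?_⟩
      rw [MonoidHom.map_zpowers]
      refine Subgroup.eq_of_le_of_card_ge (Subgroup.zpowers_le.2 hx) ?_
      rw [hW, Nat.card_zpowers]
      refine le_of_eq ?_
      symm
      refine orderOf_eq_prime (by
        rw [← map_pow, show x ^ p = 1 from orderOf_dvd_iff_pow_eq_one.1 (dvd_of_eq hxo'), map_one]) fun h1 => ?_
      have hxM : x ∈ Cfsg.pPrimeCore p G := (QuotientGroup.eq_one_iff x).1 h1
      exact (Fact.out : p.Prime).ne_one (Nat.eq_one_of_dvd_coprimes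
        (CfsgLib.Core.coprime_card_pPrimeCore p) (hxo' ▸ Subgroup.orderOf_dvd_natCard _ hxM) dvd_rfl)
    obtain ⟨X, hX, rfl⟩ := hlift U hU
    obtain ⟨Y, hY, rfl⟩ := hlift V hV
    obtain ⟨a, rfl⟩ := htrans X Y hX hY
    haveI := CfsgLib.Core.characteristic_pPrimeCore (G := G) p
    refine ⟨QuotientGroup.congr (Cfsg.pPrimeCore p G) (Cfsg.pPrimeCore p G) a
      (Subgroup.characteristic_iff_map_eq.1 inferInstance a), ?_⟩
    rw [Subgroup.map_map, Subgroup.map_map]
    rfl
  have h1 : (Cfsg.upperPSeries p G 1).1 = Cfsg.pPrimeCore p G := by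
    haveI : ((⊥ : Subgroup G)).Normal := inferInstance
    rw [Cfsg.upperPSeries, if_pos (by decide)]
    show (Cfsg.pPrimeCore p (G ⧸ (⊥ : Subgroup G))).comap (QuotientGroup.mk' (⊥ : Subgroup G)) = _
    have hinj : Function.Injective (QuotientGroup.mk' (⊥ : Subgroup G)) := by
      rw [← MonoidHom.ker_eq_bot_iff, QuotientGroup.ker_mk']
    refine le_antisymm (CfsgLib.Core.le_pPrimeCore ((CfsgLib.Core.normal_pPrimeCore p).comap _) ?_) ?_
    · refine Nat.Coprime.coprime_dvd_left ?_
        (CfsgLib.Core.coprime_card_pPrimeCore (G := G ⧸ (⊥ : Subgroup G)) p)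
      rw [← Subgroup.card_map_of_injective hinj]
      exact Subgroup.card_dvd_of_le (Subgroup.map_comap_le _ _)
    · rw [← Subgroup.map_le_iff_le_comap]
      exact CfsgLib.Core.map_pPrimeCore_le_of_surjective p _ (QuotientGroup.mk'_surjective _)
  have h2 : ¬ p ∣ (Cfsg.upperPSeries p G 2).1.index := by
    rw [Cfsg.upperPSeries, if_neg (by decide)]
    exact key _ (Cfsg.upperPSeries p G 1).2 h1
  show (Cfsg.upperPSeries p G 3).1 = ⊤
  rw [Cfsg.upperPSeries, if_pos (by decide)]
  have h3 : Cfsg.pPrimeCore p (G ⧸ (Cfsg.upperPSeries p G 2).1) = ⊤ :=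
    top_le_iff.1 (CfsgLib.Core.le_pPrimeCore inferInstance (by
      rw [Subgroup.card_top]
      exact ((Fact.out : p.Prime).coprime_iff_not_dvd.2 h2).symm))
  show (Cfsg.pPrimeCore p (G ⧸ (Cfsg.upperPSeries p G 2).1)).comap (QuotientGroup.mk' (Cfsg.upperPSeries p G 2).1) = ⊤
  rw [h3, Subgroup.comap_top]

end Cfsg.Agent.S3798
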