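import Cfsg.Statements.S3799
import Cfsg.Agent.Lib.CorePGroup

set_option autoImplicit false
open Cfsg

namespace Cfsg.Agent.S3799
open Matrix
open scoped commutatorElement

section Heis
variable {p n : ℕ}

abbrev Par (p n : ℕ) : Type := (Fin n → ZMod p) × (Fin n → ZMod p) × ZMod p

def uVec (t : Par p n) : Fin (n + 2) → ZMod p := Fin.cons 0 (Fin.snoc t.1 t.2.2)

def vVec (t : Par p n) : Fin (n + 2) → ZMod p := Fin.cons 0 (Fin.snoc t.2.1 0)

def hmat (t : Par p n) : Matrix (Fin (n + 2)) (Fin (n + 2)) (ZMod p) :=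
  1 + vecMulVec (Pi.single 0 1) (uVec t) + vecMulVec (vVec t) (Pi.single (Fin.last (n + 1)) 1)

def hop (t s : Par p n) : Par p n :=
  (t.1 + s.1, t.2.1 + s.2.1, t.2.2 + s.2.2 + t.1 ⬝ᵥ s.2.1)

theorem uv_dot (t s : Par p n) : uVec t ⬝ᵥ vVec s = t.1 ⬝ᵥ s.2.1 := by
  simp [uVec, vVec, dotProduct, Fin.sum_univ_succ (n := n + 1), Fin.sum_univ_castSucc]

theorem uVec_hop (t s : Par p n) :
    uVec (hop t s) = uVec t + uVec s + (t.1 ⬝ᵥ s.2.1) • Pi.single (Fin.last (n + 1)) 1 := by
  funext i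
  refine Fin.cases ?_ (fun j => ?_) i
  · simp [uVec, hop, Pi.single_apply, Fin.ext_iff]
  · refine Fin.lastCases ?_ (fun k => ?_) j
    · simp [uVec, hop, Pi.single_apply, Fin.succ_last, add_assoc]
    · simp [uVec, hop, Pi.single_apply, Fin.ext_iff, k.isLt.ne]

theorem vVec_hop (t s : Par p n) : vVec (hop t s) = vVec t + vVec s := by
  funext i
  refine Fin.cases ?_ (fun j => ?_) i
  · simp [vVec, hop]
  · refine Fin.lastCases ?_ (fun k => ?_) j
    · simp [vVec, hop]
    · simp [vVec, hop]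

theorem hmat_mul (t s : Par p n) : hmat t * hmat s = hmat (hop t s) := by
  have h0 : ∀ w : Fin (n + 2) → ZMod p, w ⬝ᵥ Pi.single 0 1 = w 0 := fun w => by simp
  have h1 : (Pi.single (Fin.last (n + 1)) (1 : ZMod p)) ⬝ᵥ vVec s = 0 := by
    simp [vVec, ← Fin.succ_last]
  have h2 : uVec t ⬝ᵥ (Pi.single 0 1) = 0 := by simp [uVec]
  have h3 : (Pi.single (Fin.last (n + 1)) (1 : ZMod p)) ⬝ᵥ (Pi.single 0 1) = 0 := by
    rw [h0]; exact Pi.single_eq_of_ne (by simp [Fin.ext_iff]) _
  unfold hmat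
  simp only [Matrix.add_mul, Matrix.mul_add, Matrix.one_mul, Matrix.mul_one,
    vecMulVec_mul_vecMulVec, h1, h2, h3, uv_dot, uVec_hop, vVec_hop, vecMulVec_add, add_vecMulVec,
    zero_smul, vecMulVec_zero, add_zero, zero_add, vecMulVec_smul]
  abel

theorem hmat_zero : hmat (0 : Par p n) = 1 := by
  have h1 : uVec (0 : Par p n) = 0 := by
    funext i
    refine Fin.cases ?_ (fun j => ?_) i
    · simp [uVec]
    · refine Fin.lastCases ?_ (fun k => ?_) j <;> simp [uVec]
  have h2 : vVec (0 : Par p n) = 0 := by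
    funext i
    refine Fin.cases ?_ (fun j => ?_) i
    · simp [vVec]
    · refine Fin.lastCases ?_ (fun k => ?_) j <;> simp [vVec]
  simp [hmat, h1, h2]

def hinv (t : Par p n) : Par p n := (-t.1, -t.2.1, t.1 ⬝ᵥ t.2.1 - t.2.2)

theorem hop_inv (t : Par p n) : hop t (hinv t) = 0 := by
  simp [hop, hinv, Prod.ext_iff]

theorem inv_hop (t : Par p n) : hop (hinv t) t = 0 := by
  simp [hop, hinv, Prod.ext_iff]

def hgl (t : Par p n) : GL (Fin (n + 2)) (ZMod p) :=
  ⟨hmat t, hmat (hinv t), by rw [hmat_mul, hop_inv, hmat_zero],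
    by rw [hmat_mul, inv_hop, hmat_zero]⟩

theorem hgl_mul (t s : Par p n) : hgl t * hgl s = hgl (hop t s) :=
  Units.ext (hmat_mul t s)

theorem hgl_zero : hgl (0 : Par p n) = 1 := Units.ext hmat_zero

theorem hgl_inv (t : Par p n) : (hgl t)⁻¹ = hgl (hinv t) := Units.ext rfl

theorem hgl_inj : Function.Injective (hgl : Par p n → _) := by
  intro t s h
  have h' : hmat t = hmat s := congrArg Units.val h
  have e : ∀ i j, hmat t i j = hmat s i j := fun i j => by rw [h']
  refine Prod.ext (funext fun k => ?_) (Prod.ext (funext fun k => ?_) ?_)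
  · simpa [hmat, uVec, vVec, vecMulVec_apply, Pi.single_apply, Fin.ext_iff, k.isLt.ne,
      Matrix.one_apply] using e 0 k.castSucc.succ
  · simpa [hmat, uVec, vVec, vecMulVec_apply, Pi.single_apply, Fin.ext_iff, k.isLt.ne,
      Matrix.one_apply] using e k.castSucc.succ (Fin.last (n + 1))
  · simpa [hmat, uVec, vVec, vecMulVec_apply, Pi.single_apply, Fin.ext_iff, ← Fin.succ_last,
      Matrix.one_apply] using e 0 (Fin.last n).succ

def heis (p n : ℕ) : Subgroup (GL (Fin (n + 2)) (ZMod p)) where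
  carrier := Set.range hgl
  one_mem' := ⟨0, hgl_zero⟩
  mul_mem' := by
    rintro _ _ ⟨t, rfl⟩ ⟨s, rfl⟩
    exact ⟨hop t s, (hgl_mul t s).symm⟩
  inv_mem' := by
    rintro _ ⟨t, rfl⟩
    exact ⟨hinv t, (hgl_inv t).symm⟩

theorem hgl_pow (t : Par p n) : ∀ k : ℕ,
    hgl t ^ k = hgl (k • t.1, k • t.2.1, k • t.2.2 + k.choose 2 • (t.1 ⬝ᵥ t.2.1)) := by
  intro k
  induction k with
  | zero => simp [← hgl_zero, Prod.ext_iff]; rfl
  | succ k ih =>
    rw [pow_succ, ih, hgl_mul]
    congr 1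
    simp only [hop, Prod.mk.injEq, smul_dotProduct, succ_nsmul]
    refine ⟨trivial, trivial, ?_⟩
    rw [Nat.choose_succ_succ, Nat.choose_one_right, add_nsmul]
    abel

private theorem main (p : ℕ) [Fact p.Prime] (hp : p ≠ 2) (n : ℕ) (hn : 1 ≤ n) :
    ∃ E : Subgroup (Matrix.GeneralLinearGroup (Fin (n + 2)) (ZMod p)), Cfsg.IsExtraspecial p ↥E ∧
      Nat.card E = p ^ (1 + 2 * n) ∧ ∀ x ∈ E, x ^ p = 1 := by
  have hpp : p.Prime := Fact.out
  let e : Par p n → ↥(heis p n) := fun t => ⟨hgl t, t, rfl⟩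
  have he : Function.Bijective e :=
    ⟨fun t s h => hgl_inj (congrArg Subtype.val h), fun x => by
      obtain ⟨t, ht⟩ := x.2
      exact ⟨t, Subtype.ext ht⟩⟩
  have hemul : ∀ t s, e t * e s = e (hop t s) := fun t s => Subtype.ext (hgl_mul t s)
  have heinv : ∀ t, (e t)⁻¹ = e (hinv t) := fun t => Subtype.ext (hgl_inv t)
  have hexp : ∀ x ∈ heis p n, x ^ p = 1 := by
    rintro _ ⟨t, rfl⟩
    have hc : (p : ℕ) ∣ p.choose 2 :=
      hpp.dvd_choose_self (by norm_num) (lt_of_le_of_ne hpp.two_le (Ne.symm hp))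
    rw [hgl_pow, ← hgl_zero]
    congr 1
    obtain ⟨c, hc⟩ := hc
    simp [hc, mul_smul, nsmul_eq_mul, Prod.ext_iff, funext_iff]
  have hexp' : ∀ x : ↥(heis p n), x ^ p = 1 := fun x =>
    Subtype.ext (by push_cast; exact hexp _ x.2)
  have hpg : IsPGroup p ↥(heis p n) := fun x => ⟨1, by rw [pow_one]; exact hexp' x⟩
  haveI : NeZero p := ⟨hpp.ne_zero⟩
  have hcard : Nat.card ↥(heis p n) = p ^ (1 + 2 * n) := by
    rw [← Nat.card_congr (Equiv.ofBijective e he)]
    simp only [Nat.card_prod, Nat.card_fun, Nat.card_zmod, Nat.card_fin]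
    ring
  have hcen : ∀ t : Par p n, e t ∈ Subgroup.center ↥(heis p n) ↔ t.1 = 0 ∧ t.2.1 = 0 := by
    intro t
    rw [Subgroup.mem_center_iff]
    constructor
    · intro h
      have key : ∀ s : Par p n, s.1 ⬝ᵥ t.2.1 = t.1 ⬝ᵥ s.2.1 := fun s => by
        have := he.1 (by rw [← hemul, ← hemul]; exact h (e s) : e (hop s t) = e (hop t s))
        simp only [hop, Prod.mk.injEq] at this
        have h3 := this.2.2
        rw [add_comm t.2.2] at h3
        exact add_left_cancel h3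
      refine ⟨funext fun k => ?_, funext fun k => ?_⟩
      · simpa using (key (0, Pi.single k 1, 0)).symm
      · simpa using key (Pi.single k 1, 0, 0)
    · rintro ⟨h1, h2⟩ x
      obtain ⟨s, rfl⟩ := he.2 x
      rw [hemul, hemul]
      congr 1
      simp [hop, h1, h2, add_comm]
  have hcomm_le : commutator ↥(heis p n) ≤ Subgroup.center _ := by
    rw [commutator_def, Subgroup.commutator_le]
    intro x _ y _
    obtain ⟨t, rfl⟩ := he.2 x
    obtain ⟨s, rfl⟩ := he.2 y
    rw [commutatorElement_def, heinv, heinv, hemul, hemul, hemul, hcen]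
    simp [hop, hinv]
  have hcen_le : Subgroup.center ↥(heis p n) ≤ commutator _ := by
    intro x hx
    obtain ⟨t, rfl⟩ := he.2 x
    obtain ⟨h1, h2⟩ := (hcen t).1 hx
    let k : Fin n := ⟨0, hn⟩
    have : e t = ⁅e ((Pi.single k t.2.2, 0, 0) : Par p n), e ((0, Pi.single k 1, 0) : Par p n)⁆ := by
      rw [commutatorElement_def, heinv, heinv, hemul, hemul, hemul]
      congr 1
      simp [hop, hinv, Prod.ext_iff, h1, h2]
    rw [this, commutator_def]
    exact Subgroup.commutator_mem_commutator (Subgroup.mem_top _) (Subgroup.mem_top _)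
  have hce : commutator ↥(heis p n) = Subgroup.center _ := le_antisymm hcomm_le hcen_le
  have hfr : frattini ↥(heis p n) = commutator ↥(heis p n) :=
    le_antisymm (CfsgLib.Core.frattini_le_of_elementary le_rfl
      fun x => by rw [hexp' x]; exact one_mem _)
      (CfsgLib.Core.pgroup_commutator_le_frattini hpg)
  refine ⟨heis p n, ⟨⟨hpg, hfr.trans hce, hce⟩, ?_⟩, hcard, hexp⟩
  let g : ZMod p → ↥(Subgroup.center ↥(heis p n)) :=
    fun c => ⟨e (0, 0, c), (hcen _).2 ⟨rfl, rfl⟩⟩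
  have hg : Function.Bijective g := by
    refine ⟨fun a b h => ?_, fun x => ?_⟩
    · exact (Prod.mk.inj (Prod.mk.inj (he.1 (congrArg Subtype.val h))).2).2
    · obtain ⟨t, ht⟩ := he.2 x.1
      obtain ⟨h1, h2⟩ := (hcen t).1 (ht ▸ x.2)
      refine ⟨t.2.2, Subtype.ext ?_⟩
      show e (0, 0, t.2.2) = x.1
      rw [← ht]
      congr 1
      simp [Prod.ext_iff, h1, h2]
  rw [← Nat.card_congr (Equiv.ofBijective g hg), Nat.card_zmod]

end Heis


/-- For every odd prime p and every n ≥ 1 there is an extraspecial p-group of order p^(1+2n) and exponent p; concretely, the general linear group of degree n + 2 over the field with p elements contains such a subgroup. -/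
theorem result (p : ℕ) [Fact p.Prime] (hp : p ≠ 2) (n : ℕ) (hn : 1 ≤ n) : ∃ E : Subgroup (Matrix.GeneralLinearGroup (Fin (n + 2)) (ZMod p)), Cfsg.IsExtraspecial p ↥E ∧ Nat.card E = p ^ (1 + 2 * n) ∧ ∀ x ∈ E, x ^ p = 1 := by
  exact main p hp n hn

end Cfsg.Agent.S3799
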