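import Cfsg.Statements.S3800
import Cfsg.Agent.Lib.StableComplement

set_option autoImplicit false
open Cfsg

namespace Cfsg.Agent.S3800

/-- Let G be a finite group, N a normal subgroup of G whose order is prime to p, and P a p-subgroup of G. Then in G/N the normalizer of the image of P is the image of N_G(P), and the centralizer of the image of P is the image of C_G(P). -/
theorem result {G : Type*} [Group G] [Finite G] {p : ℕ} [Fact p.Prime] (N : Subgroup G) [N.Normal] (hN : (Nat.card N).Coprime p) (P : Subgroup G) (hP : IsPGroup p P) : Subgroup.normalizer ((P.map (QuotientGroup.mk' N)) : Set (G ⧸ N)) = (Subgroup.normalizer (P : Set G)).map (QuotientGroup.mk' N) ∧ Subgroup.centralizer ((P.map (QuotientGroup.mk' N)) : Set (G ⧸ N)) = (Subgroup.centralizer (P : Set G)).map (QuotientGroup.mk' N) := by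
  have hker : (Nat.card (QuotientGroup.mk' N).ker).Coprime p := by rwa [QuotientGroup.ker_mk']
  refine ⟨CfsgLib.Stable.normalizer_map_eq _ (QuotientGroup.mk'_surjective N) hker hP,
    le_antisymm (CfsgLib.Stable.centralizer_map_le _ (QuotientGroup.mk'_surjective N) hker hP) ?_⟩
  rintro _ ⟨g, hg, rfl⟩
  refine Subgroup.mem_centralizer_iff.2 ?_
  rintro _ ⟨z, hz, rfl⟩
  rw [← map_mul, ← map_mul, Subgroup.mem_centralizer_iff.1 hg z hz]

end Cfsg.Agent.S3800
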