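import Cfsg.Statements.S3953
import Cfsg.Agent.Lib.CoreSchurTransfer

set_option autoImplicit false
open Cfsg

namespace Cfsg.Agent.S3953

/-- Let `P` be a Sylow `p`-subgroup of the finite group `G`, let `A` be the Schur multiplier of `G` and `B` that of `P`. Then the `p`-primary component of `A` is isomorphic to a direct factor of `B`: there are subgroups `C` and `D` of `B` meeting trivially and generating `B`, with `C` isomorphic to the `p`-primary component of `A`. -/
theorem result {G : Type*} [Group G] [Finite G] (p : ℕ) [Fact p.Prime] (P : Sylow p G) {A B : Type*} [CommGroup A] [CommGroup B] (hA : Cfsg.HasSchurMultiplier G A) (hB : Cfsg.HasSchurMultiplier P B) : ∃ C D : Subgroup B, C ⊓ D = ⊥ ∧ C ⊔ D = ⊤ ∧ Nonempty (CommGroup.primaryComponent A p ≃* C) := by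
  classical
  obtain ⟨hfA, ⟨eA⟩⟩ := CfsgLib.Core.Schur.nonempty_equiv_M hA
  obtain ⟨hfB, ⟨eB⟩⟩ := CfsgLib.Core.Schur.nonempty_equiv_M hB
  obtain ⟨s, t, hst⟩ := CfsgLib.Core.Schur.exists_transfer (P : Subgroup G)
  let s' : A →* B := eB.symm.toMonoidHom.comp (s.comp eA.toMonoidHom)
  let t' : B →* A := eA.symm.toMonoidHom.comp (t.comp eB.toMonoidHom)
  have h : ∀ a, t' (s' a) = a ^ (P : Subgroup G).index := fun a => by simp [s', t', hst]
  have hp : p.Prime := Fact.out
  set v := (Nat.card A).factorization p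
  set m' := Nat.card A / p ^ v with hm'
  have hA0 : Nat.card A ≠ 0 := Nat.card_pos.ne'
  have hπmem : ∀ y : B, t' y ^ m' ∈ CommGroup.primaryComponent A p := fun y => by
    show ∃ k : ℕ, (t' y ^ m') ^ p ^ k = 1
    have h1 : (t' y ^ m') ^ p ^ v = 1 := by
      rw [← pow_mul, hm', Nat.div_mul_cancel (Nat.ordProj_dvd _ _)]
      exact pow_card_eq_one'
    exact ⟨v, h1⟩
  let π : B →* CommGroup.primaryComponent A p := ((powMonoidHom m').comp t').codRestrict _ hπmem
  let i : CommGroup.primaryComponent A p →* B := s'.comp (CommGroup.primaryComponent A p).subtype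
  have hcop : p.Coprime ((P : Subgroup G).index * m') :=
    Nat.Coprime.mul_right (hp.coprime_iff_not_dvd.2 P.not_dvd_index) (Nat.coprime_ordCompl hp hA0)
  have hπi : ∀ a, ((π (i a)) : A) = (a : A) ^ ((P : Subgroup G).index * m') := fun a => by
    show (t' (s' (a : A))) ^ m' = _
    rw [h, pow_mul]
  have hinj : Function.Injective (fun a => π (i a)) := by
    intro a b hab
    have h1 : ((π (i (a * b⁻¹))) : A) = 1 := by
      rw [map_mul, map_inv, map_mul, map_inv]
      rw [show π (i a) = π (i b) from hab, mul_inv_cancel]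
      rfl
    rw [hπi] at h1
    obtain ⟨n, hn⟩ : ∃ n : ℕ, ((a * b⁻¹ : CommGroup.primaryComponent A p) : A) ^ p ^ n = 1 := (a * b⁻¹).2
    have h2 : orderOf ((a * b⁻¹ : CommGroup.primaryComponent A p) : A) = 1 :=
      Nat.eq_one_of_dvd_coprimes (Nat.Coprime.pow_left n hcop) (orderOf_dvd_of_pow_eq_one hn) (orderOf_dvd_of_pow_eq_one h1)
    rw [orderOf_eq_one_iff] at h2
    exact mul_inv_eq_one.1 (Subtype.ext h2)
  have hsurj := (Finite.injective_iff_surjective).1 hinj
  refine ⟨i.range, π.ker, ?_, ?_, ⟨MonoidHom.ofInjective fun a b hab => hinj (congrArg π hab)⟩⟩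
  · rw [eq_bot_iff]
    rintro _ ⟨⟨a, rfl⟩, ha⟩
    have ha1 : a = 1 := hinj (show π (i a) = π (i 1) by rw [map_one, map_one]; exact ha)
    rw [ha1, map_one]
    exact one_mem _
  · rw [eq_top_iff]
    intro b _
    obtain ⟨a, ha⟩ := hsurj (π b)
    rw [← mul_inv_cancel_left (i a) b]
    refine Subgroup.mul_mem_sup ⟨a, rfl⟩ ?_
    show π ((i a)⁻¹ * b) = 1
    rw [map_mul, map_inv, show π (i a) = π b from ha, inv_mul_cancel]

end Cfsg.Agent.S3953
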