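import Cfsg.Statements.S3954
import Cfsg.Agent.Lib.CoreSchurTransfer

set_option autoImplicit false
open Cfsg

namespace Cfsg.Agent.S3954

/-- Let `U` be a subgroup of index `m` in the finite group `G`, let `A` be the Schur multiplier of `G` and `B` that of `U`. Then the subgroup of `m`-th powers of `A` is isomorphic to a subgroup of `B`. -/
theorem result {G : Type*} [Group G] [Finite G] (U : Subgroup G) {A B : Type*} [CommGroup A] [CommGroup B] (hA : Cfsg.HasSchurMultiplier G A) (hB : Cfsg.HasSchurMultiplier U B) : ∃ C : Subgroup B, Nonempty ((powMonoidHom U.index : A →* A).range ≃* C) := by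
  obtain ⟨hfA, ⟨eA⟩⟩ := CfsgLib.Core.Schur.nonempty_equiv_M hA
  obtain ⟨hfB, ⟨eB⟩⟩ := CfsgLib.Core.Schur.nonempty_equiv_M hB
  obtain ⟨s, t, hst⟩ := CfsgLib.Core.Schur.exists_transfer U
  let s' : A →* B := eB.symm.toMonoidHom.comp (s.comp eA.toMonoidHom)
  let t' : B →* A := eA.symm.toMonoidHom.comp (t.comp eB.toMonoidHom)
  have h : ∀ a, t' (s' a) = a ^ U.index := fun a => by simp [s', t', hst]
  let f : s'.range →* (powMonoidHom U.index : A →* A).range :=
    (t'.comp s'.range.subtype).codRestrict _ fun y => by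
      obtain ⟨a, ha⟩ := y.2
      exact ⟨a, by show a ^ U.index = t' (y : B); rw [← ha, h]⟩
  refine CfsgLib.Core.Schur.exists_subgroup_equiv f fun y => ?_
  obtain ⟨a, ha⟩ := y.2
  exact ⟨⟨s' a, a, rfl⟩, Subtype.ext ((h a).trans ha)⟩

end Cfsg.Agent.S3954
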