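import Cfsg.Statements.S3956
import Cfsg.Agent.Lib.CoreSchurCover

set_option autoImplicit false
universe u v
open Cfsg

namespace Cfsg.Agent.S3956

/-- Let `σ : Γ →* Q` be a finite stem extension of the finite group `Q` such that every homomorphism from `Q` to the quotient of `GL n ℂ` by its centre, for every `n`, lifts along `σ` to a homomorphism `Γ →* GL n ℂ`. Then `σ` is a Schur covering group of `Q`: for every finite stem extension `τ : Δ →* Q` with `Δ` in the same universe as `Q`, the kernel of `τ` is a homomorphic image of the kernel of `σ`. -/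
theorem result {Q : Type u} [Group Q] [Finite Q] {Γ : Type v} [Group Γ] [Finite Γ] (σ : Γ →* Q) (hσ : Cfsg.IsStemExtension σ) (hlift : ∀ (n : ℕ) (γ : Q →* (GL (Fin n) ℂ ⧸ Subgroup.center (GL (Fin n) ℂ))), ∃ ρ : Γ →* GL (Fin n) ℂ, (QuotientGroup.mk' (Subgroup.center (GL (Fin n) ℂ))).comp ρ = γ.comp σ) (Δ : Type u) [Group Δ] [Finite Δ] (τ : Δ →* Q) (hτ : Cfsg.IsStemExtension τ) : ∃ π : σ.ker →* τ.ker, Function.Surjective π := by
  obtain ⟨f, hf⟩ := CfsgLib.Core.Schur.exists_surjective hσ
  obtain ⟨g, hg⟩ := CfsgLib.Core.Schur.exists_surjective hτ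
  have hle := CfsgLib.Core.Schur.card_M_le_of_lift hσ.1 hσ.2.1 hlift
  have hb : Function.Bijective f :=
    (Nat.bijective_iff_surjective_and_card f).2 ⟨hf, le_antisymm hle (Nat.card_le_card_of_surjective _ hf)⟩
  exact ⟨g.comp (MulEquiv.ofBijective f hb).symm.toMonoidHom,
    hg.comp (MulEquiv.ofBijective f hb).symm.surjective⟩

end Cfsg.Agent.S3956
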