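import Cfsg.Statements.S3958
import Cfsg.Agent.Lib.CoreSchurCover

set_option autoImplicit false
universe u v
open Cfsg

namespace Cfsg.Agent.S3958

/-- Let `σ : Γ →* Q` be a finite stem extension of the finite group `Q` with `Γ` of trivial Schur multiplier. Then `σ` is a Schur covering group of `Q`: for every finite stem extension `τ : Δ →* Q` with `Δ` in the same universe as `Q`, the kernel of `τ` is a homomorphic image of the kernel of `σ`. -/
theorem result {Q : Type u} [Group Q] [Finite Q] {Γ : Type v} [Group Γ] [Finite Γ] (σ : Γ →* Q) (hσ : Cfsg.IsStemExtension σ) (hΓ : Cfsg.HasCyclicSchurMultiplier Γ 1) (Δ : Type u) [Group Δ] [Finite Δ] (τ : Δ →* Q) (hτ : Cfsg.IsStemExtension τ) : ∃ π : σ.ker →* τ.ker, Function.Surjective π := by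
  obtain ⟨Γ', _, _, ρ, hρ, ⟨e⟩, β, hβ, hβσ⟩ := CfsgLib.Core.Schur.cover_of_stem hσ
  obtain ⟨f, hf⟩ := CfsgLib.Core.Schur.exists_surjective hτ
  have hle : β.ker ≤ ρ.ker := fun x hx => by
    show ρ x = 1
    rw [← hβσ, MonoidHom.comp_apply, show β x = 1 from hx, map_one]
  have hst : Cfsg.IsStemExtension β := ⟨hβ, hle.trans hρ.2.1, hle.trans hρ.2.2⟩
  obtain ⟨g, hg⟩ := CfsgLib.Core.Schur.exists_surjective hst
  have h1 := CfsgLib.Core.Schur.hasCyclic_one_iff.1 hΓ
  haveI : Subsingleton β.ker := by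
    haveI : Subsingleton (CfsgLib.Core.Schur.M Γ) := (Nat.card_eq_one_iff_unique.1 h1).1
    exact hg.subsingleton
  let i : ρ.ker →* σ.ker := (β.comp ρ.ker.subtype).codRestrict σ.ker fun x => by
    show σ (β x) = 1
    rw [← MonoidHom.comp_apply, hβσ]; exact x.2
  have hi : Function.Bijective i := by
    refine ⟨(injective_iff_map_eq_one i).2 fun x hx => ?_, fun y => ?_⟩
    · exact Subtype.ext (congrArg Subtype.val (Subsingleton.elim (⟨(x : Γ'), congrArg Subtype.val hx⟩ : β.ker) 1) : (x : Γ') = 1)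
    · obtain ⟨x, hx⟩ := hβ (y : Γ)
      refine ⟨⟨x, ?_⟩, Subtype.ext hx⟩
      show ρ x = 1
      rw [← hβσ, MonoidHom.comp_apply, hx]; exact y.2
  exact ⟨(f.comp e.toMonoidHom).comp (MulEquiv.ofBijective i hi).symm.toMonoidHom,
    (hf.comp e.surjective).comp (MulEquiv.ofBijective i hi).symm.surjective⟩

end Cfsg.Agent.S3958
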