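import Cfsg.Statements.S3960
import Cfsg.Agent.Lib.CoreSchurCover

set_option autoImplicit false
universe u
open Cfsg

namespace Cfsg.Agent.S3960

/-- A finite perfect group `Q` has a universal central extension: a finite perfect group `G` in the universe of `Q` and a surjective homomorphism `π : G →* Q` with central kernel such that for every group `X` in that universe and every surjective homomorphism `ξ : X →* Q` with central kernel there is exactly one homomorphism `η : G →* X` with `ξ ∘ η = π`. -/
theorem result {Q : Type u} [Group Q] [Finite Q] (hQ : Group.IsPerfect Q) : ∃ (G : Type u) (_ : Group G) (_ : Finite G) (π : G →* Q), Group.IsPerfect G ∧ Function.Surjective π ∧ π.ker ≤ Subgroup.center G ∧ ∀ (X : Type u) [Group X] (ξ : X →* Q), Function.Surjective ξ → ξ.ker ≤ Subgroup.center X → ∃! η : G →* X, ξ.comp η = π := by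
  refine ⟨commutator (CfsgLib.Core.Schur.E Q), inferInstance, inferInstance,
    (CfsgLib.Core.Schur.proj Q).comp (commutator (CfsgLib.Core.Schur.E Q)).subtype,
    CfsgLib.Core.Schur.commutator_perfect hQ, fun q => ?_, fun x hx => ?_,
    fun X _ ξ hξ hk => CfsgLib.Core.Schur.universal_perfect hQ ξ hξ hk⟩
  · obtain ⟨a, ha, haq⟩ := (CfsgLib.Core.Schur.map_commutator_proj hQ).ge (Subgroup.mem_top q)
    exact ⟨⟨a, ha⟩, haq⟩
  · exact Subgroup.mem_center_iff.2 fun y =>
      Subtype.ext (Subgroup.mem_center_iff.1 (CfsgLib.Core.Schur.K_le_center Q hx) (y : CfsgLib.Core.Schur.E Q))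

end Cfsg.Agent.S3960
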