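import Cfsg.Statements.S3962
import Cfsg.Agent.Lib.CoreBasic

set_option autoImplicit false
open Cfsg

namespace Cfsg.Agent.S3962

/-- Let `G` be a perfect group and `π : G →* Q` a surjective homomorphism whose kernel is central. Then `π` maps the centre of `G` onto the centre of `Q`. Taking `π` to be the map to `G ⧸ Z(G)` shows that the central quotient of a perfect group has trivial centre. -/
theorem result {G Q : Type*} [Group G] [Group Q] (hG : Group.IsPerfect G) (π : G →* Q) (hπ : Function.Surjective π) (hker : π.ker ≤ Subgroup.center G) : (Subgroup.center G).map π = Subgroup.center Q := by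
  apply le_antisymm
  · rintro _ ⟨z, hz, rfl⟩
    refine Subgroup.mem_center_iff.2 fun q => ?_
    obtain ⟨g, rfl⟩ := hπ q
    rw [← map_mul, ← map_mul, Subgroup.mem_center_iff.1 hz g]
  · intro q hq
    obtain ⟨z, rfl⟩ := hπ q
    have hcen : ∀ g : G, z * g * z⁻¹ * g⁻¹ ∈ Subgroup.center G := fun g => hker (by
      rw [MonoidHom.mem_ker, map_mul, map_mul, map_mul, map_inv, map_inv,
        ← Subgroup.mem_center_iff.1 hq (π g), mul_inv_cancel_right, mul_inv_cancel])
    let f : G →* Subgroup.center G := MonoidHom.mk' (fun g => ⟨z * g * z⁻¹ * g⁻¹, hcen g⟩) (fun g h => Subtype.ext (by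
      show z * (g * h) * z⁻¹ * (g * h)⁻¹ = (z * g * z⁻¹ * g⁻¹) * (z * h * z⁻¹ * h⁻¹)
      calc z * (g * h) * z⁻¹ * (g * h)⁻¹ = z * g * z⁻¹ * ((z * h * z⁻¹ * h⁻¹) * g⁻¹) := by group
        _ = z * g * z⁻¹ * (g⁻¹ * (z * h * z⁻¹ * h⁻¹)) := by rw [Subgroup.mem_center_iff.1 (hcen h) g⁻¹]
        _ = _ := by group))
    refine ⟨z, Subgroup.mem_center_iff.2 fun g => ?_, rfl⟩
    have htop : g ∈ f.ker := by
      have hk : commutator G ≤ f.ker := by
        rw [commutator_def, Subgroup.commutator_le]
        intro a _ b _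
        rw [MonoidHom.mem_ker, map_commutatorElement, commutatorElement_eq_one_iff_mul_comm]
        exact Subtype.ext (Subgroup.mem_center_iff.1 (f b).2 _)
      rw [hG.commutator_eq_top] at hk
      exact hk (Subgroup.mem_top g)
    have h1 : z * g * z⁻¹ * g⁻¹ = 1 := congrArg Subtype.val htop
    rw [mul_inv_eq_one, mul_inv_eq_iff_eq_mul] at h1
    exact h1.symm

end Cfsg.Agent.S3962
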