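import Cfsg.Statements.S3968
import Cfsg.Agent.Lib.CharBurnside
import Cfsg.Agent.Lib.CharLinear
import Cfsg.Agent.Lib.CharSmall
import Cfsg.Agent.Lib.CorePGroup

set_option autoImplicit false
open Cfsg

namespace Cfsg.Agent.S3968

open scoped commutatorElement

/-- Let `p` be a prime and `G` a finite group with a faithful irreducible complex character of degree `p` (so `G` is an irreducible linear group in `p` variables). If `p ^ 2` divides the order of `G`, then the centre of `G` is nontrivial. -/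
theorem result {G : Type*} [Group G] [Finite G] (p : ℕ) (hp : p.Prime) (χ : Cfsg.IrrCharacter G) (hdeg : χ.1 1 = p) (hfaith : ∀ g : G, χ.1 g = χ.1 1 → g = 1) (hdiv : p ^ 2 ∣ Nat.card G) : Subgroup.center G ≠ ⊥ := by
  classical
  haveI : Fact p.Prime := ⟨hp⟩
  haveI := Fintype.ofFinite G
  intro hZ
  obtain ⟨n, ρ, hρ, he⟩ := χ.2
  haveI := hρ
  have hfin : Module.finrank ℂ (Fin n → ℂ) = p := by
    have h : (Module.finrank ℂ (Fin n → ℂ) : ℂ) = (p : ℂ) := by rw [← ρ.char_one, he]; exact hdeg
    exact_mod_cast h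
  have hvan : ∀ (P : Sylow p G) (x : G), (∀ y ∈ (P : Subgroup G), y * x = x * y) → x ≠ 1 →
      χ.1 x = 0 := by
    intro P x hxP hx1
    have hcop : Nat.Coprime (Module.finrank ℂ (Fin n → ℂ))
        (Subgroup.centralizer ({x} : Set G)).index := by
      rw [hfin]
      refine (Nat.Prime.coprime_iff_not_dvd hp).mpr fun hd => P.not_dvd_index (hd.trans ?_)
      exact Subgroup.index_dvd_of_le fun y hy =>
        Subgroup.mem_centralizer_singleton_iff.mpr (hxP y hy)
    rcases CfsgLib.Char.burnside_zero_or_scalar ρ x hcop with h | h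
    · rw [← he]; exact h
    · exfalso
      obtain ⟨ω, hω⟩ := (CfsgLib.Char.norm_rep_char_eq_iff ρ x).mp h
      apply hx1
      refine Subgroup.mem_bot.mp (hZ ▸ Subgroup.mem_center_iff.mpr fun g => ?_)
      have h1 : ρ (g * x * g⁻¹ * x⁻¹) = 1 := by
        have h2 : ρ (g * x) = ρ (x * g) := by
          simp [map_mul, hω, ← Module.End.one_eq_id]
        rw [show g * x * g⁻¹ * x⁻¹ = (g * x) * (x * g)⁻¹ by group, map_mul, h2, ← map_mul,
          mul_inv_cancel, map_one]
      have h3 : g * x * g⁻¹ * x⁻¹ = 1 :=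
        hfaith _ (by rw [← he]; exact (CfsgLib.Char.char_eq_one_iff ρ _).mpr h1)
      calc g * x = (g * x * g⁻¹ * x⁻¹) * (x * g) := by group
        _ = x * g := by rw [h3, one_mul]
  obtain ⟨P⟩ : Nonempty (Sylow p G) := inferInstance
  obtain ⟨a, ha⟩ := IsPGroup.iff_card.mp P.2
  have ha2 : 2 ≤ a := by
    have h := P.card_eq_multiplicity
    rw [ha] at h
    rw [Nat.pow_right_injective hp.two_le h]
    exact (hp.pow_dvd_iff_le_factorization Nat.card_pos.ne').mp hdiv
  haveI := Fintype.ofFinite (P : Subgroup G)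
  set ψ : ↥(P : Subgroup G) → ℂ := fun y => χ.1 y with hψ
  have hψc : Cfsg.IsCharacter (P : Subgroup G) ψ :=
    CfsgLib.Char.isCharacter_restrict χ.2.isCharacter' (P : Subgroup G)
  have hψ1 : ψ 1 = (p : ℂ) := hdeg
  by_cases hcomm : ∀ x ∈ (P : Subgroup G), ∀ y ∈ (P : Subgroup G), y * x = x * y
  · obtain ⟨m, hm⟩ := CfsgLib.Char.inner_character_nat hψc CfsgLib.Char.isCharacter_one
    have hsum : Cfsg.classInner ψ (fun _ => (1 : ℂ)) =
        (Nat.card (P : Subgroup G) : ℂ)⁻¹ * (p : ℂ) := by
      unfold Cfsg.classInner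
      congr 1
      rw [Finset.sum_eq_single (1 : (P : Subgroup G))]
      · rw [hψ1, map_one, mul_one]
      · intro y _ hy
        rw [show ψ y = 0 from hvan P y (fun z hz => hcomm y y.2 z hz) fun h => hy (Subtype.ext h),
          zero_mul]
      · exact fun h => absurd (Finset.mem_univ _) h
    rw [hm, eq_inv_mul_iff_mul_eq₀ (Nat.cast_ne_zero.mpr Nat.card_pos.ne'), ha] at hsum
    have h4 : p ^ a * m = p := by exact_mod_cast hsum
    have h5 : p ^ 2 ∣ p ^ 1 := by
      rw [pow_one]
      exact (pow_dvd_pow p ha2).trans (Dvd.intro m h4)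
    have := (Nat.pow_dvd_pow_iff_le_right hp.one_lt).mp h5
    omega
  · -- a central element of the derived subgroup
    have hP : IsPGroup p (P : Subgroup G) := P.2
    haveI := hP.isNilpotent
    have hne : commutator (P : Subgroup G) ≠ ⊥ := fun h => hcomm fun x hx y hy => by
      have h1 : (⁅(⟨y, hy⟩ : ↥(P : Subgroup G)), (⟨x, hx⟩ : ↥(P : Subgroup G))⁆ : ↥(P : Subgroup G)) = 1 := by
        have h2 : (⁅(⟨y, hy⟩ : ↥(P : Subgroup G)), (⟨x, hx⟩ : ↥(P : Subgroup G))⁆ : ↥(P : Subgroup G)) ∈
            commutator ↥(P : Subgroup G) := by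
          rw [commutator_def]
          exact Subgroup.commutator_mem_commutator (Subgroup.mem_top _) (Subgroup.mem_top _)
        rw [h] at h2
        exact Subgroup.mem_bot.mp h2
      exact congrArg Subtype.val (commutatorElement_eq_one_iff_mul_comm.mp h1)
    obtain ⟨z, ⟨hzc, hzZ⟩, hz1⟩ := (Subgroup.bot_or_exists_ne_one _).resolve_left
      (CfsgLib.Core.nilpotent_inf_center_ne_bot hne)
    have hz0 : ψ z = 0 := hvan P z
      (fun y hy => congrArg Subtype.val (Subgroup.mem_center_iff.mp hzZ ⟨y, hy⟩))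
      fun h => hz1 (Subtype.ext h)
    choose N hN using fun φ : Cfsg.IrrCharacter (P : Subgroup G) =>
      CfsgLib.Char.inner_character_nat hψc φ.2.isCharacter'
    choose D hD hDd using fun φ : Cfsg.IrrCharacter (P : Subgroup G) =>
      CfsgLib.Char.irr_degree_dvd φ.2
    have hexp := CfsgLib.Char.classFunction_eq_sum ψ (CfsgLib.Char.isCharacter_classFunction hψc)
    have hdeg' : ∑ φ, N φ * D φ = p := by
      have h1 := congrFun hexp 1
      rw [hψ1, Finset.sum_apply] at h1
      simp only [Pi.smul_apply, hN, hD, smul_eq_mul] at h1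
      exact_mod_cast h1.symm
    have hz := congrFun hexp z
    rw [hz0, Finset.sum_apply] at hz
    simp only [Pi.smul_apply, hN, smul_eq_mul] at hz
    by_cases hlin : ∀ φ, N φ ≠ 0 → D φ = 1
    · have h1 : ∀ φ : Cfsg.IrrCharacter (P : Subgroup G), (N φ : ℂ) * φ.1 z = (N φ * D φ : ℕ) := by
        intro φ
        by_cases hn0 : N φ = 0
        · simp [hn0]
        obtain ⟨f, hf⟩ := CfsgLib.Char.exists_hom_of_degree_one φ.2.isCharacter'
          (by rw [hD, hlin φ hn0, Nat.cast_one])
        have hfz : f z = 1 := Abelianization.commutator_subset_ker f hzc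
        rw [hlin φ hn0, mul_one, show φ.1 z = 1 by rw [hf]; simp [hfz], mul_one]
      rw [Finset.sum_congr rfl fun φ _ => h1 φ, ← Nat.cast_sum, hdeg'] at hz
      exact hp.ne_zero (by exact_mod_cast hz.symm)
    · push Not at hlin
      obtain ⟨φ, hφN, hφD⟩ := hlin
      obtain ⟨j, -, hj⟩ := (Nat.dvd_prime_pow hp).mp (ha ▸ hDd φ)
      have hj1 : 1 ≤ j := by
        by_contra h
        exact hφD (by rw [hj, show j = 0 by omega, pow_zero])
      have hp_le : p ≤ D φ := hj ▸ Nat.le_self_pow (by omega) p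
      have hterm : N φ * D φ ≤ p :=
        hdeg' ▸ Finset.single_le_sum (f := fun φ => N φ * D φ) (fun _ _ => Nat.zero_le _) (Finset.mem_univ φ)
      have hN1 : N φ = 1 := by
        by_contra h
        have h2 : 2 ≤ N φ := by omega
        have := Nat.mul_le_mul h2 hp_le
        have := hp.pos
        omega
      have hD1 : D φ = p := le_antisymm (by rw [hN1, one_mul] at hterm; exact hterm) hp_le
      have hrest : ∀ φ', φ' ≠ φ → (N φ' : ℂ) * φ'.1 z = 0 := by
        intro φ' hne'
        have h0 : N φ' * D φ' = 0 := by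
          have h2 := Finset.sum_erase_add Finset.univ (fun φ => N φ * D φ) (Finset.mem_univ φ)
          simp only [hN1, hD1, one_mul, hdeg'] at h2
          have h3 : ∑ x ∈ Finset.univ.erase φ, N x * D x = 0 := by omega
          exact Finset.sum_eq_zero_iff.mp h3 φ' (Finset.mem_erase.mpr ⟨hne', Finset.mem_univ _⟩)
        rcases Nat.mul_eq_zero.mp h0 with h | h
        · rw [h, Nat.cast_zero, zero_mul]
        · have := hDd φ'
          rw [h, zero_dvd_iff] at this
          exact absurd this Nat.card_pos.ne'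
      rw [Finset.sum_eq_single φ (fun b _ => hrest b) (fun h => absurd (Finset.mem_univ _) h), hN1,
        Nat.cast_one, one_mul] at hz
      obtain ⟨m, σ, hσ, heσ⟩ := φ.2
      haveI := hσ
      obtain ⟨ω, hω⟩ := CfsgLib.Char.schur_scalar σ (σ z) fun y => by
        rw [← map_mul, ← map_mul, Subgroup.mem_center_iff.mp hzZ y]
      have h5 : φ.1 z = ω * (p : ℂ) := by
        rw [show (p : ℂ) = φ.1 1 by rw [hD, hD1], ← heσ]
        show LinearMap.trace ℂ _ (σ z) = ω * LinearMap.trace ℂ _ (σ 1)
        rw [hω, map_one, map_smul, smul_eq_mul]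
      rw [h5, eq_comm, mul_eq_zero] at hz
      have hω0 : ω = 0 := hz.resolve_right (Nat.cast_ne_zero.mpr hp.ne_zero)
      have h6 : (σ z) * σ z⁻¹ = 1 := by rw [← map_mul, mul_inv_cancel, map_one]
      rw [hω, hω0, zero_smul, zero_mul] at h6
      haveI := CfsgLib.Char.nontrivial_of_irreducible σ
      exact zero_ne_one h6

end Cfsg.Agent.S3968
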