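import Cfsg.Statements.S3969
import Cfsg.Agent.Lib.TransferMore

set_option autoImplicit false
open Cfsg

set_option maxHeartbeats 400000

namespace Cfsg.Agent.S3969

/-- Let `P` be an abelian Sylow `p`-subgroup of the finite group `G`, generated by `d` elements (`d` its minimal number of generators). If the order of `G` is coprime to `(p - 1)(p ^ 2 - 1) ⋯ (p ^ d - 1)`, then `G` has a normal `p`-complement. (The classical statement needs only the largest number of cyclic factors of `P` of equal order in place of `d`; the form here follows from it.) -/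
theorem result {G : Type*} [Group G] [Finite G] (p : ℕ) [Fact p.Prime] (P : Sylow p G) (hab : IsMulCommutative (P : Subgroup G)) (hcop : Nat.Coprime (Nat.card G) (∏ i ∈ Finset.Icc 1 (Group.rank (P : Subgroup G)), (p ^ i - 1))) : Cfsg.HasNormalPComplement p G := by
  classical
  have hp : p.Prime := Fact.out
  refine CfsgLib.Transfer.burnside P ?_
  set N := Subgroup.normalizer ((P : Subgroup G) : Set G)
  set C := Subgroup.centralizer ((P : Subgroup G) : Set G) with hC
  -- prime-power elements of N centralise P
  have key : ∀ (q k : ℕ), q.Prime → ∀ g ∈ N, orderOf g = q ^ k → g ∈ C := by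
    intro q k hq g hg hgk
    haveI := Fact.mk hq
    by_cases hqp : q = p
    · subst hqp
      have hz : IsPGroup q ↥(Subgroup.zpowers g) := IsPGroup.of_card (n := k) (by rw [Nat.card_zpowers, hgk])
      have hgP : g ∈ (P : Subgroup G) := by
        have h1 : IsPGroup q ↥(Subgroup.zpowers g ⊔ (P : Subgroup G)) :=
          hz.to_sup_of_normal_right' P.isPGroup' (Subgroup.zpowers_le.mpr hg)
        have h2 := P.is_maximal' h1 le_sup_right
        have h3 : g ∈ Subgroup.zpowers g ⊔ (P : Subgroup G) :=
          Subgroup.mem_sup_left (Subgroup.mem_zpowers g)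
        rwa [h2] at h3
      rw [hC, Subgroup.mem_centralizer_iff]
      exact fun x hx => congrArg Subtype.val (hab.is_comm.comm ⟨x, hx⟩ ⟨g, hgP⟩)
    letI : CommGroup ↥(P : Subgroup G) :=
      { (inferInstance : Group ↥(P : Subgroup G)) with mul_comm := hab.is_comm.comm }
    let φ : ↥(P : Subgroup G) →* ↥(P : Subgroup G) :=
      { toFun := fun x => ⟨g * x.1 * g⁻¹, (Subgroup.mem_normalizer_iff.mp hg x.1).mp x.2⟩
        map_one' := Subtype.ext (by simp)
        map_mul' := fun x y => Subtype.ext (by simp [mul_assoc]) }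
    have hφit : ∀ (j : ℕ) (x : ↥(P : Subgroup G)), ((φ^[j]) x : G) = g ^ j * x * (g ^ j)⁻¹ := by
      intro j x
      induction j with
      | zero => simp
      | succ j ih =>
        rw [Function.iterate_succ_apply']
        show g * _ * g⁻¹ = _
        rw [ih, pow_succ']
        group
    have hper : ∀ x, (φ^[q ^ k]) x = x := fun x => Subtype.ext (by
      rw [hφit, ← hgk, pow_orderOf_eq_one]; simp)
    -- φ is trivial modulo p-th powers
    set Q := (powMonoidHom p : ↥(P : Subgroup G) →* ↥(P : Subgroup G)).range
    have htriv : ∀ x, x⁻¹ * φ x ∈ Q := by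
      have hQφ : Q ≤ Q.comap φ := by rintro _ ⟨y, rfl⟩; exact ⟨φ y, by simp⟩
      let ψ : ↥(P : Subgroup G) ⧸ Q →* ↥(P : Subgroup G) ⧸ Q := QuotientGroup.map Q Q φ hQφ
      have hψper : ∀ v, (ψ^[q ^ k]) v = v := by
        intro v
        induction v using QuotientGroup.induction_on with
        | _ x =>
          have h : ∀ j : ℕ, (ψ^[j]) (x : ↥(P : Subgroup G) ⧸ Q) = ((φ^[j]) x : ↥(P : Subgroup G)) := by
            intro j
            induction j with
            | zero => rfl
            | succ j ih => rw [Function.iterate_succ_apply', Function.iterate_succ_apply', ih]; rfl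
          rw [h, hper]
      have hexp : ∀ v : ↥(P : Subgroup G) ⧸ Q, v ^ p = 1 := by
        intro v
        induction v using QuotientGroup.induction_on with
        | _ x => exact (QuotientGroup.eq_one_iff _).mpr ⟨x, rfl⟩
      obtain ⟨n, hn⟩ := IsPGroup.iff_card.mp (P.isPGroup'.to_quotient Q)
      have hnd : n ≤ Group.rank ↥(P : Subgroup G) := by
        have h1 := card_dvd_exponent_pow_rank' _ hexp
        rw [hn, Nat.pow_dvd_pow_iff_le_right hp.one_lt] at h1
        exact h1.trans (Group.rank_le_of_surjective _ (QuotientGroup.mk'_surjective Q))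
      -- the fixed points of ψ are everything
      let F : Subgroup (↥(P : Subgroup G) ⧸ Q) := MonoidHom.eqLocus ψ (MonoidHom.id _)
      suffices hF : F = ⊤ by
        intro x
        have h1 : (x : ↥(P : Subgroup G) ⧸ Q) ∈ F := hF ▸ Subgroup.mem_top _
        exact (QuotientGroup.eq (s := Q)).mp (h1.symm)
      obtain ⟨m, hm⟩ := IsPGroup.iff_card.mp ((P.isPGroup'.to_quotient Q).to_subgroup F)
      let e : Equiv.Perm (↥(P : Subgroup G) ⧸ Q) :=
        Equiv.ofBijective ψ ⟨Function.LeftInverse.injective (g := ψ^[q ^ k - 1]) (fun v => by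
            rw [← Function.iterate_succ_apply, Nat.succ_eq_add_one, Nat.sub_add_cancel (Nat.one_le_pow _ _ hq.pos)]; exact hψper v),
          fun v => ⟨(ψ^[q ^ k - 1]) v, by
            rw [← Function.iterate_succ_apply' ψ, Nat.succ_eq_add_one, Nat.sub_add_cancel (Nat.one_le_pow _ _ hq.pos)]; exact hψper v⟩⟩
      have he : IsPGroup q ↥(Subgroup.zpowers e) := by
        obtain ⟨j, -, hj⟩ := (Nat.dvd_prime_pow hq).mp (show orderOf e ∣ q ^ k from
          orderOf_dvd_of_pow_eq_one (Equiv.ext fun v => by
            rw [Equiv.Perm.coe_pow]; exact hψper v))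
        exact IsPGroup.of_card (n := j) (by rw [Nat.card_zpowers, hj])
      have hfx : MulAction.fixedPoints ↥(Subgroup.zpowers e) (↥(P : Subgroup G) ⧸ Q) = (F : Set _) := by
        ext v
        constructor
        · intro hv; exact hv ⟨e, Subgroup.mem_zpowers e⟩
        · intro hv
          rintro ⟨f, j, rfl⟩
          exact Equiv.Perm.zpow_apply_eq_self_of_apply_eq_self (f := e) (show e v = v from hv) j
      have h1 := he.card_modEq_card_fixedPoints (↥(P : Subgroup G) ⧸ Q)
      rw [hfx, SetLike.coe_sort_coe, hn, hm] at h1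
      have hmn : m ≤ n := (Nat.pow_le_pow_iff_right hp.one_lt).mp
        (hm ▸ hn ▸ Subgroup.card_le_card_group F)
      rcases Nat.lt_or_ge m n with hlt | hge
      · exfalso
        have h2 : q ∣ p ^ (n - m) - 1 := by
          have h3 : p ^ m * p ^ (n - m) ≡ p ^ m * 1 [MOD q] := by
            rw [← pow_add, Nat.add_sub_cancel' hmn, mul_one]; exact h1
          have h4 := Nat.ModEq.cancel_left_of_coprime
            (Nat.Coprime.pow_right m ((Nat.coprime_primes hq hp).mpr hqp)) h3
          exact (Nat.modEq_iff_dvd' (Nat.one_le_pow _ _ hp.pos)).mp h4.symm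
        have hqG : q ∣ Nat.card G := by
          rcases Nat.eq_zero_or_pos k with rfl | hk
          · -- g = 1, so everything is fixed
            exfalso
            have h5 : F = ⊤ := by
              rw [eq_top_iff]; intro v _
              exact (hψper v : (ψ^[q ^ 0]) v = v)
            rw [h5, Subgroup.card_top, hn] at hm
            exact absurd (Nat.pow_right_injective hp.two_le hm) hlt.ne'
          · exact (hgk ▸ dvd_pow_self q hk.ne').trans (orderOf_dvd_natCard g)
        refine hq.not_dvd_one (hcop.gcd_eq_one ▸ Nat.dvd_gcd hqG (h2.trans ?_))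
        exact Finset.dvd_prod_of_mem (fun i => p ^ i - 1) (Finset.mem_Icc.mpr ⟨by omega, by omega⟩)
      · exact Subgroup.eq_top_of_card_eq F (by rw [hm, hn, le_antisymm hmn hge])
    -- lift along the chain of powers
    obtain ⟨e, he⟩ := IsPGroup.iff_card.mp P.isPGroup'
    have hlast : ∀ x : ↥(P : Subgroup G), x ^ p ^ e = 1 := fun x => by
      rw [← he]; exact pow_card_eq_one'
    have down : ∀ i ≤ e, ∀ y : ↥(P : Subgroup G), φ (y ^ p ^ (e - i)) = y ^ p ^ (e - i) := by
      intro i
      induction i with
      | zero => intro _ y; rw [Nat.sub_zero, hlast, map_one]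
      | succ i ih =>
        intro hi y
        obtain ⟨z, hz⟩ := htriv y
        set u := z ^ p ^ (e - i)
        have hu : φ (y ^ p ^ (e - (i + 1))) = y ^ p ^ (e - (i + 1)) * u := by
          have hz' : φ y = y * z ^ p := by
            rw [show z ^ p = y⁻¹ * φ y from hz, mul_inv_cancel_left]
          rw [map_pow, hz', mul_pow, ← pow_mul, ← pow_succ', show e - (i + 1) + 1 = e - i by omega]
        have hit : ∀ j : ℕ, (φ^[j]) (y ^ p ^ (e - (i + 1))) = y ^ p ^ (e - (i + 1)) * u ^ j := by
          intro j
          induction j with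
          | zero => simp
          | succ j ihj =>
            rw [Function.iterate_succ_apply', ihj, map_mul, map_pow φ u, hu, ih (by omega) z,
              pow_succ', mul_assoc]
        have h2 := hit (q ^ k)
        rw [hper, left_eq_mul] at h2
        have hu1 : u = 1 := by
          obtain ⟨j, hj⟩ := P.isPGroup' u
          exact orderOf_eq_one_iff.mp (Nat.eq_one_of_dvd_coprimes
            ((Nat.coprime_primes hq hp).mpr hqp |>.pow k j) (orderOf_dvd_of_pow_eq_one h2)
            (orderOf_dvd_of_pow_eq_one hj))
        rw [hu, hu1, mul_one]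
    rw [hC, Subgroup.mem_centralizer_iff]
    intro x hx
    have := congrArg Subtype.val (down e le_rfl ⟨x, hx⟩)
    rw [Nat.sub_self, pow_zero, pow_one] at this
    exact (mul_inv_eq_iff_eq_mul.mp this).symm
  -- all prime divisors of |N : C| are absent
  intro g hg
  haveI : (C.subgroupOf N).Normal := inferInstance
  suffices h : (C.subgroupOf N) = ⊤ from Subgroup.subgroupOf_eq_top.mp h hg
  refine Subgroup.eq_top_of_le_card _ (Nat.le_of_dvd Nat.card_pos ?_)
  refine (Nat.dvd_iff_prime_pow_dvd_dvd _ _).mpr fun r k hr hrk => ?_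
  haveI := Fact.mk hr
  obtain ⟨R⟩ : Nonempty (Sylow r ↥N) := inferInstance
  have hRC : (R : Subgroup ↥N) ≤ C.subgroupOf N := fun y hy => by
    obtain ⟨j, hj⟩ := R.isPGroup' ⟨y, hy⟩
    obtain ⟨j', -, hj'⟩ := (Nat.dvd_prime_pow hr).mp (orderOf_dvd_of_pow_eq_one hj)
    exact key r j' hr y.1 y.2 (by rw [← hj', Subgroup.orderOf_coe, ← Subgroup.orderOf_mk y hy])
  refine dvd_trans ?_ (Subgroup.card_dvd_of_le hRC)
  rw [R.card_eq_multiplicity]
  exact pow_dvd_pow r ((hr.pow_dvd_iff_le_factorization Nat.card_pos.ne').mp hrk)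

end Cfsg.Agent.S3969
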