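import Cfsg.Statements.S3970
import Cfsg.Agent.Lib.FgsAutFrattini
import Cfsg.Agent.Lib.CorePGroup

set_option autoImplicit false
open Cfsg

namespace Cfsg.Agent.S3970

universe w

set_option maxHeartbeats 400000 in
private theorem main : ∀ (n : ℕ) {G : Type w} [Group G] [Finite G], Nat.card G = n →
    (∀ p : ℕ, p.Prime → p ∣ Nat.card G → (∃ q : ℕ, q.Prime ∧ q ∣ Nat.card G ∧ p < q) →
      ∀ P : Sylow p G, IsMulCommutative (P : Subgroup G) ∧ Group.rank (P : Subgroup G) ≤ 2) →
    ¬ 12 ∣ Nat.card G → Group.IsSolvable G := by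
  intro n
  induction n using Nat.strong_induction_on with
  | _ n ih =>
  intro G _ _ hn h h12
  by_cases h1 : Nat.card G = 1
  · haveI := (Nat.card_eq_one_iff_unique.1 h1).1
    infer_instance
  set p := (Nat.card G).minFac with hpdef
  have hp : p.Prime := Nat.minFac_prime h1
  haveI := Fact.mk hp
  have hpG : p ∣ Nat.card G := Nat.minFac_dvd _
  by_cases hbig : ∃ q : ℕ, q.Prime ∧ q ∣ Nat.card G ∧ p < q
  case neg =>
    have hG : IsPGroup p G := by
      refine IsPGroup.of_card (n := (Nat.card G).primeFactorsList.length)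
        (Nat.eq_prime_pow_of_unique_prime_dvd (p := p) Nat.card_pos.ne' fun {d} hd hdG => ?_)
      by_contra hdp
      exact hbig ⟨d, hd, hdG, lt_of_le_of_ne (Nat.minFac_le_of_dvd hd.two_le hdG) (Ne.symm hdp)⟩
    haveI := hG.isNilpotent
    infer_instance
  obtain ⟨P⟩ : Nonempty (Sylow p G) := inferInstance
  obtain ⟨hab, hrk⟩ := h p hp hpG hbig P
  -- `N(P)` centralises `P`
  have hNC : Subgroup.normalizer ((P : Subgroup G) : Set G) ≤
      Subgroup.centralizer ((P : Subgroup G) : Set G) := by
    set N := Subgroup.normalizer ((P : Subgroup G) : Set G) with hN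
    set f := Subgroup.normalizerMonoidHom (P : Subgroup G) with hf
    have hker : (P : Subgroup G).subgroupOf N ≤ f.ker := by
      intro g hg
      rw [hf, Subgroup.normalizerMonoidHom_ker, Subgroup.mem_subgroupOf,
        Subgroup.mem_centralizer_iff]
      intro q hq
      exact congrArg Subtype.val (hab.is_comm.comm (⟨q, hq⟩ : ↥(P : Subgroup G)) ⟨g, hg⟩)
    have hcopp : ¬ p ∣ Nat.card f.range := by
      intro hd
      rw [← Subgroup.index_ker] at hd
      exact P.not_dvd_index ((hd.trans (Subgroup.index_dvd_of_le hker)).trans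
        (Subgroup.relIndex_dvd_index_of_le (Subgroup.le_normalizer : (P : Subgroup G) ≤ N)))
    obtain ⟨m, hm⟩ := IsPGroup.iff_card.1 P.2
    obtain ⟨r, hrm, hr⟩ := (Nat.dvd_prime_pow hp).1
      (hm ▸ (frattini ↥(P : Subgroup G)).index_dvd_card :
        (frattini ↥(P : Subgroup G)).index ∣ p ^ m)
    obtain ⟨S, hScard, hStop⟩ := Group.rank_spec ↥(P : Subgroup G)
    have hr2 : r ≤ 2 := ((CfsgLib.Core.burnside_basis P.2 hr).2 S hStop).trans (hScard ▸ hrk)
    have hrange : Nat.card f.range ∣
        p ^ (r * (m - r)) * ∏ i ∈ Finset.range r, (p ^ r - p ^ i) :=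
      (Subgroup.card_subgroup_dvd_card _).trans (CfsgLib.FgsAutFrattini.card_aut_dvd hm hr)
    have hrG : Nat.card f.range ∣ Nat.card G :=
      (Subgroup.card_range_dvd f).trans (Subgroup.card_subgroup_dvd_card _)
    have hone : Nat.card f.range = 1 := by
      by_contra hne
      obtain ⟨q, hq, hqd⟩ := Nat.exists_prime_and_dvd hne
      have hqp : q ≠ p := fun e => hcopp (e ▸ hqd)
      have hpq : p < q :=
        lt_of_le_of_ne (Nat.minFac_le_of_dvd hq.two_le (hqd.trans hrG)) (Ne.symm hqp)
      have hprod : q ∣ ∏ i ∈ Finset.range r, (p ^ r - p ^ i) :=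
        ((hq.dvd_mul.1 (hqd.trans hrange)).resolve_left fun h' =>
          hqp ((Nat.prime_dvd_prime_iff_eq hq hp).1 (hq.dvd_of_dvd_pow h')))
      have hne1 : ∀ a : ℕ, 0 < a → a ≤ p → ¬ q ∣ a := fun a ha hap hd =>
        absurd (Nat.le_of_dvd ha hd) (by omega)
      interval_cases r
      · simp only [Finset.range_zero, Finset.prod_empty, Nat.dvd_one] at hprod
        exact hq.ne_one hprod
      · simp only [Finset.prod_range_one, pow_one, pow_zero] at hprod
        exact hne1 _ (by have := hp.two_le; omega) (Nat.sub_le _ _) hprod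
      · simp only [Finset.prod_range_succ, Finset.range_zero, Finset.prod_empty, one_mul,
          pow_zero, pow_one] at hprod
        rw [show p ^ 2 - 1 = (p + 1) * (p - 1) by rw [← Nat.sq_sub_sq, one_pow],
          show p ^ 2 - p = p * (p - 1) by rw [Nat.mul_sub, mul_one, pow_two]] at hprod
        rcases hq.dvd_mul.1 hprod with h' | h'
        · rcases hq.dvd_mul.1 h' with h'' | h''
          · have hq1 : q = p + 1 := le_antisymm (Nat.le_of_dvd (by omega) h'') hpq
            rcases hp.eq_two_or_odd with hp2 | hp2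
            · refine h12 ((Nat.Coprime.mul_dvd_of_dvd_of_dvd (by decide : Nat.Coprime 4 3) ?_ ?_))
              · refine dvd_trans ?_ (Subgroup.card_subgroup_dvd_card (P : Subgroup G))
                rw [hm, hp2]
                exact pow_dvd_pow 2 hrm
              · rw [show (3 : ℕ) = q by omega]
                exact hqd.trans hrG
            · have h3 : 2 ∣ q := by rw [hq1]; omega
              have := (Nat.prime_dvd_prime_iff_eq Nat.prime_two hq).1 h3
              have := hp.two_le
              omega
          · exact hne1 _ (by have := hp.two_le; omega) (Nat.sub_le _ _) h''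
        · rcases hq.dvd_mul.1 h' with h'' | h''
          · exact hne1 _ hp.pos le_rfl h''
          · exact hne1 _ (by have := hp.two_le; omega) (Nat.sub_le _ _) h''
    intro g hg
    have hg1 : f ⟨g, hg⟩ = 1 := by
      rw [Subgroup.card_eq_one, MonoidHom.range_eq_bot_iff] at hone
      rw [hone]; rfl
    have : (⟨g, hg⟩ : ↥N) ∈ f.ker := hg1
    rwa [hf, Subgroup.normalizerMonoidHom_ker, Subgroup.mem_subgroupOf] at this
  set K := (MonoidHom.transferSylow P hNC).ker with hKdef
  have hc : K.IsComplement' (P : Subgroup G) :=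
    MonoidHom.ker_transferSylow_isComplement' P hNC
  have hKP : Nat.card K * Nat.card ↥(P : Subgroup G) = Nat.card G := hc.card_mul
  have hP1 : 1 < Nat.card ↥(P : Subgroup G) :=
    (Subgroup.one_lt_card_iff_ne_bot _).2 (P.ne_bot_of_dvd_card hpG)
  have hlt : Nat.card K < n := by
    rw [← hn, ← hKP]
    exact lt_mul_of_one_lt_right Nat.card_pos hP1
  haveI : Group.IsSolvable ↥K := by
    refine ih _ hlt rfl (fun q hq hqK hex Q => ?_)
      (fun hd => h12 (hd.trans (Subgroup.card_subgroup_dvd_card K)))
    haveI := Fact.mk hq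
    have hqG : q ∣ Nat.card G := hqK.trans (Subgroup.card_subgroup_dvd_card K)
    obtain ⟨r, hr, hrK, hqr⟩ := hex
    have hqp : q ≠ p := fun e => MonoidHom.not_dvd_card_ker_transferSylow P hNC (e ▸ hqK)
    obtain ⟨R, hR⟩ := (Q.2.map K.subtype).exists_le_sylow
    have hRK : (R : Subgroup G) ≤ K := by
      intro x hx
      have h1 : ((x : G) : G ⧸ K) = 1 := by
        have e1 : orderOf ((x : G) : G ⧸ K) ∣ orderOf x :=
          orderOf_map_dvd (QuotientGroup.mk' K) x
        have e2 : orderOf ((x : G) : G ⧸ K) ∣ K.index := by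
          rw [Subgroup.index]; exact _root_.orderOf_dvd_natCard _
        obtain ⟨b, hb⟩ := IsPGroup.iff_orderOf.1 R.2 ⟨x, hx⟩
        obtain ⟨c, hcc⟩ := IsPGroup.iff_card.1 P.2
        rw [Subgroup.orderOf_mk] at hb
        rw [hb] at e1
        rw [hc.symm.index_eq_card, hcc] at e2
        exact orderOf_eq_one_iff.1 (Nat.eq_one_of_dvd_coprimes
          (((Nat.coprime_primes hq hp).2 hqp).pow b c) e1 e2)
      exact (QuotientGroup.eq_one_iff x).1 h1
    have hQR : (Q : Subgroup K).map K.subtype = (R : Subgroup G) := by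
      refine le_antisymm hR fun x hx => ?_
      have h2 := Q.3 (R.2.comap_of_injective K.subtype K.subtype_injective)
        (fun y hy => hR ⟨y, hy, rfl⟩)
      exact ⟨⟨x, hRK hx⟩, h2 ▸ (hx : (⟨x, hRK hx⟩ : ↥K).1 ∈ (R : Subgroup G)), rfl⟩
    obtain ⟨hab', hrk'⟩ := h q hq hqG ⟨r, hr, hrK.trans (Subgroup.card_subgroup_dvd_card K), hqr⟩ R
    set e : ↥(Q : Subgroup K) ≃* ↥(R : Subgroup G) :=
      ((Q : Subgroup K).equivMapOfInjective K.subtype K.subtype_injective).trans
        (MulEquiv.subgroupCongr hQR)
    refine ⟨⟨⟨fun a b => e.injective ?_⟩⟩, ?_⟩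
    · rw [map_mul, map_mul]
      exact hab'.is_comm.comm (e a) (e b)
    · rw [Group.rank_congr e]
      exact hrk'
  haveI : Group.IsSolvable (G ⧸ K) := by
    have : IsPGroup p (G ⧸ K) := by
      obtain ⟨c, hcc⟩ := IsPGroup.iff_card.1 P.2
      exact IsPGroup.of_card (n := c) (by rw [← Subgroup.index_eq_card, hc.symm.index_eq_card, hcc])
    haveI := this.isNilpotent
    infer_instance
  exact Group.isSolvable_of_ker_le_range K.subtype (QuotientGroup.mk' K)
    (by rw [QuotientGroup.ker_mk', Subgroup.range_subtype])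

/-- Let `G` be a finite group such that for every prime `p` dividing its order, other than the largest such prime, the Sylow `p`-subgroups are abelian and generated by at most two elements, and suppose `12` does not divide the order of `G`. Then `G` is solvable. In particular a group of cube-free order not divisible by `12` is solvable. -/
theorem result {G : Type*} [Group G] [Finite G] (h : ∀ p : ℕ, p.Prime → p ∣ Nat.card G → (∃ q : ℕ, q.Prime ∧ q ∣ Nat.card G ∧ p < q) → ∀ P : Sylow p G, IsMulCommutative (P : Subgroup G) ∧ Group.rank (P : Subgroup G) ≤ 2) (h12 : ¬ 12 ∣ Nat.card G) : Group.IsSolvable G := by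
  exact main (Nat.card G) rfl h h12

end Cfsg.Agent.S3970
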