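import Cfsg.Statements.S3971
import Cfsg.Agent.Lib.CoreTransfer
import Cfsg.Agent.Lib.FgsAutFrattini
import Cfsg.Agent.Lib.CorePGroup

set_option autoImplicit false
open Cfsg

namespace Cfsg.Agent.S3971

/-- Let `G` be a finite group of order `2 ^ a * n` with `n` odd and not divisible by `3`, and suppose `G` has an element of order `2 ^ (a - 1)` (so a Sylow `2`-subgroup has a cyclic subgroup of index at most `2`). Then `G` has a normal subgroup of order `n`. -/
theorem result {G : Type*} [Group G] [Finite G] (a n : ℕ) (hG : Nat.card G = 2 ^ a * n) (hn : Odd n) (h3 : ¬ 3 ∣ n) (hx : ∃ x : G, orderOf x = 2 ^ (a - 1)) : ∃ N : Subgroup G, N.Normal ∧ Nat.card N = n := by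
  haveI := Fact.mk Nat.prime_two
  obtain ⟨x, hx⟩ := hx
  have hfac : (Nat.card G).factorization 2 = a := by
    rw [hG, Nat.factorization_mul (by positivity) (Nat.pos_iff_ne_zero.1 hn.pos),
      Finsupp.add_apply, Nat.Prime.factorization_pow Nat.prime_two, Finsupp.single_eq_same,
      Nat.factorization_eq_zero_of_not_dvd (Nat.two_dvd_ne_zero.2 (Nat.odd_iff.1 hn))]
    rfl
  have hxP : IsPGroup 2 ↥(Subgroup.zpowers x) :=
    IsPGroup.of_card (n := a - 1) (by rw [Nat.card_zpowers, hx])
  obtain ⟨P, hP⟩ := hxP.exists_le_sylow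
  -- every `2`-subgroup is generated by two elements
  have hgen : ∀ Q : Subgroup G, IsPGroup 2 Q → ∃ T : Finset Q, T.card ≤ 2 ∧
      Subgroup.closure (T : Set Q) = ⊤ := by
    intro Q hQ
    obtain ⟨S, hS⟩ := hQ.exists_le_sylow
    obtain ⟨c, hc⟩ := MulAction.exists_smul_eq G P S
    set x' := c * x * c⁻¹ with hx'
    have hx'S : x' ∈ (S : Subgroup G) := by
      rw [← hc]
      exact ⟨x, hP (Subgroup.mem_zpowers x), rfl⟩
    have hrel : (Subgroup.zpowers x').relIndex (S : Subgroup G) ∣ 2 := by
      have h1 := Subgroup.card_mul_index ((Subgroup.zpowers x').subgroupOf (S : Subgroup G))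
      rw [Nat.card_congr (Subgroup.subgroupOfEquivOfLe (Subgroup.zpowers_le.2 hx'S)).toEquiv,
        Nat.card_zpowers, show orderOf x' = orderOf x from (MulAut.conj c).orderOf_eq x, hx,
        S.card_eq_multiplicity, hfac] at h1
      rcases Nat.eq_zero_or_pos a with rfl | ha
      · rw [Subgroup.relIndex]
        simp only [Nat.zero_sub, pow_zero, one_mul] at h1
        exact h1 ▸ one_dvd 2
      · rw [← Nat.sub_add_cancel ha, pow_succ, Nat.add_sub_cancel] at h1
        rw [Subgroup.relIndex, Nat.eq_of_mul_eq_mul_left (pow_pos two_pos _) h1]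
    set K : Subgroup Q := (Subgroup.zpowers x').subgroupOf Q with hK
    have hKidx : K.index ∣ 2 := by
      refine dvd_trans ?_ hrel
      have h1 : K.index = (Subgroup.zpowers x').relIndex Q := rfl
      rw [h1]
      have h2 : (Subgroup.zpowers x').relIndex Q ≤ (Subgroup.zpowers x').relIndex (S : Subgroup G) :=
        Subgroup.relIndex_le_of_le_right hS Subgroup.index_ne_zero_of_finite
      have h3 : (Subgroup.zpowers x').relIndex (S : Subgroup G) ≤ 2 := Nat.le_of_dvd two_pos hrel
      have h4 : (Subgroup.zpowers x').relIndex Q ≠ 0 := Subgroup.index_ne_zero_of_finite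
      have h5 : (Subgroup.zpowers x').relIndex (S : Subgroup G) ≠ 0 := Subgroup.index_ne_zero_of_finite
      have h6 : (Subgroup.zpowers x').relIndex Q = 1 ∨
          (Subgroup.zpowers x').relIndex Q = (Subgroup.zpowers x').relIndex (S : Subgroup G) := by omega
      rcases h6 with h | h <;> rw [h]
      exact one_dvd _
    haveI : IsCyclic K := by
      refine isCyclic_of_injective
        ((MonoidHom.comp Q.subtype K.subtype).codRestrict (Subgroup.zpowers x') fun k => k.2) ?_
      intro k l hkl
      exact Subtype.ext (Subtype.ext (congrArg (fun z : ↥(Subgroup.zpowers x') => (z : G)) hkl))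
    obtain ⟨y, hy⟩ := (Subgroup.isCyclic_iff_exists_zpowers_eq_top K).1 ‹IsCyclic K›
    classical
    by_cases hKt : K = ⊤
    · exact ⟨{y}, by simp, by rw [Finset.coe_singleton, ← Subgroup.zpowers_eq_closure, hy, hKt]⟩
    · obtain ⟨z, -, hz⟩ := SetLike.exists_of_lt (lt_top_iff_ne_top.2 hKt)
      refine ⟨{y, z}, Finset.card_le_two, ?_⟩
      set L := Subgroup.closure (({y, z} : Finset Q) : Set Q)
      have hKL : K < L := by
        refine lt_of_le_of_ne ?_ fun h => hz (h ▸ Subgroup.subset_closure (by simp))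
        rw [← hy, Subgroup.zpowers_le]
        exact Subgroup.subset_closure (by simp)
      have h2 := Subgroup.index_dvd_of_le hKL.le
      have h3 : L.index ∣ 2 := h2.trans hKidx
      rcases (Nat.dvd_prime Nat.prime_two).1 h3 with h4 | h4
      · exact Subgroup.index_eq_one.1 h4
      · exfalso
        have h5 : K.index = L.index := by
          rcases (Nat.dvd_prime Nat.prime_two).1 hKidx with h6 | h6
          · exact absurd (Subgroup.index_eq_one.1 h6) hKt
          · rw [h4, h6]
        exact hKL.ne (Subgroup.eq_of_le_of_card_ge hKL.le (le_of_eq (by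
          have e1 := Subgroup.card_mul_index K
          have e2 := Subgroup.card_mul_index L
          rw [h5, ← e2] at e1
          exact (Nat.eq_of_mul_eq_mul_right (Nat.pos_of_ne_zero Subgroup.index_ne_zero_of_finite) e1).symm)))
  have hnpc : Cfsg.HasNormalPComplement 2 G := by
    refine CfsgLib.Core.hasNormalPComplement_of_local fun Q hQ g hg hgo => ?_
    obtain ⟨T, hT, hTtop⟩ := hgen Q hQ
    obtain ⟨m, hm⟩ := IsPGroup.iff_card.1 hQ
    obtain ⟨r, -, hr⟩ := (Nat.dvd_prime_pow Nat.prime_two).1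
      (hm ▸ (frattini ↥Q).index_dvd_card : (frattini ↥Q).index ∣ 2 ^ m)
    have hr2 : r ≤ 2 := ((CfsgLib.Core.burnside_basis hQ hr).2 T hTtop).trans hT
    have haut := CfsgLib.FgsAutFrattini.card_aut_dvd hm hr
    set α := Subgroup.normalizerMonoidHom Q ⟨g, hg⟩ with hα
    have h1 : orderOf α ∣ n := by
      have h2 : orderOf α ∣ orderOf g :=
        (orderOf_map_dvd _ _).trans (Subgroup.orderOf_mk g hg ▸ dvd_rfl)
      have h3 : orderOf g ∣ 2 ^ a * n := hG ▸ _root_.orderOf_dvd_natCard g
      exact h2.trans (Nat.Coprime.dvd_of_dvd_mul_left (hgo.pow_right a) h3)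
    have h4 : orderOf α ∣ 2 ^ (r * (m - r)) * 6 := by
      refine (_root_.orderOf_dvd_natCard α).trans (haut.trans (mul_dvd_mul_left _ ?_))
      interval_cases r <;> simp [Finset.prod_range_succ]
    have hcop : n.Coprime (2 ^ (r * (m - r)) * 6) := by
      refine Nat.Coprime.mul_right (Nat.Coprime.pow_right _ (Nat.coprime_two_right.2 hn)) ?_
      rw [show (6 : ℕ) = 2 * 3 from rfl]
      exact Nat.Coprime.mul_right (Nat.coprime_two_right.2 hn)
        ((Nat.prime_three.coprime_iff_not_dvd).2 h3).symm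
    have hα1 : α = 1 := orderOf_eq_one_iff.1 (Nat.eq_one_of_dvd_coprimes hcop h1 h4)
    rw [Subgroup.mem_centralizer_iff]
    intro q hq
    have h5 := congrArg Subtype.val (DFunLike.congr_fun hα1 ⟨q, hq⟩)
    exact (mul_inv_eq_iff_eq_mul.1 (h5 : g * q * g⁻¹ = q)).symm
  obtain ⟨N, hN, hcop, k, hk⟩ := CfsgLib.Core.hasNormalPComplement_iff.1 hnpc
  refine ⟨N, hN, ?_⟩
  have h1 := Subgroup.card_mul_index N
  rw [hk, hG] at h1
  have h2 : Nat.card N ∣ n := (hcop.pow_right a).dvd_of_dvd_mul_left (Dvd.intro _ h1)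
  have h3 : n ∣ Nat.card N :=
    ((Nat.coprime_two_right.2 hn).pow_right k).dvd_of_dvd_mul_right (h1 ▸ Dvd.intro_left _ rfl)
  exact Nat.dvd_antisymm h2 h3

end Cfsg.Agent.S3971
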