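import Cfsg.Statements.S3973
import Cfsg.Agent.Lib.CoreSchurCover
import Mathlib.GroupTheory.Rank
import Mathlib.LinearAlgebra.Dimension.RankNullity

set_option autoImplicit false
open Cfsg

namespace Cfsg.Agent.S3973

open scoped commutatorElement
open CfsgLib.Core.Schur

set_option maxHeartbeats 400000

theorem key (n : ℕ) (rels : Finset (FreeGroup (Fin n))) [Finite (PresentedGroup (rels : Set (FreeGroup (Fin n))))] :
    ∃ S : Finset (M (PresentedGroup (rels : Set (FreeGroup (Fin n))))),
      Subgroup.closure (S : Set (M (PresentedGroup (rels : Set (FreeGroup (Fin n)))))) = ⊤ ∧ S.card ≤ rels.card - n := by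
  classical
  let F := FreeGroup (Fin n)
  let G := PresentedGroup (rels : Set (FreeGroup (Fin n)))
  haveI hGfin : Finite G := ‹_›
  let pm : F →* G := PresentedGroup.mk (rels : Set F)
  have hpm : Function.Surjective pm := PresentedGroup.mk_surjective _
  let R := pm.ker
  let Nc' : Subgroup F := ⁅(⊤ : Subgroup F), R⁆
  haveI : Nc'.Normal := inferInstance
  let τ : F ⧸ Nc' →* G := QuotientGroup.lift Nc' pm (Subgroup.commutator_le_right _ _)
  have hτ : Function.Surjective τ := fun g => by
    obtain ⟨f, hf⟩ := hpm g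
    exact ⟨(f : F ⧸ Nc'), hf⟩
  have hcen : τ.ker ≤ Subgroup.center (F ⧸ Nc') := by
    intro x hx
    obtain ⟨r, rfl⟩ := QuotientGroup.mk_surjective x
    refine Subgroup.mem_center_iff.2 fun y => ?_
    obtain ⟨f, rfl⟩ := QuotientGroup.mk_surjective y
    rw [← commutatorElement_eq_one_iff_mul_comm]
    show ⁅(QuotientGroup.mk' Nc') f, (QuotientGroup.mk' Nc') r⁆ = 1
    rw [← map_commutatorElement]
    exact (QuotientGroup.eq_one_iff _).2 (Subgroup.commutator_mem_commutator trivial hx)
  letI : CommGroup τ.ker := { (inferInstance : Group τ.ker) with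
    mul_comm := fun a b => Subtype.ext (Subgroup.mem_center_iff.1 (hcen b.2) (a : F ⧸ Nc')) }
  -- the relators generate
  let gen : (rels → ℤ) →ₗ[ℤ] Additive τ.ker :=
    Fintype.linearCombination ℤ (fun r => Additive.ofMul (⟨((r : F) : F ⧸ Nc'),
      PresentedGroup.one_of_mem r.2⟩ : τ.ker))
  have hgen : Function.Surjective gen := by
    let W : Subgroup (F ⧸ Nc') :=
      { carrier := {x | ∃ v, ((Additive.toMul (gen v) : τ.ker) : F ⧸ Nc') = x}
        one_mem' := ⟨0, by rw [map_zero]; rfl⟩
        mul_mem' := by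
          rintro _ _ ⟨v, rfl⟩ ⟨v', rfl⟩
          exact ⟨v + v', by rw [map_add]; rfl⟩
        inv_mem' := by
          rintro _ ⟨v, rfl⟩
          exact ⟨-v, by rw [map_neg]; rfl⟩ }
    have hWc : W ≤ Subgroup.center (F ⧸ Nc') := by
      rintro _ ⟨v, rfl⟩
      exact hcen (Additive.toMul (gen v)).2
    haveI : W.Normal := ⟨fun w hw g => by rw [Subgroup.mem_center_iff.1 (hWc hw) g, mul_inv_cancel_right]; exact hw⟩
    have h2 : R ≤ W.comap (QuotientGroup.mk' Nc') := by
      have h3 : R = Subgroup.normalClosure (rels : Set F) := QuotientGroup.ker_mk' _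
      rw [h3]
      refine Subgroup.normalClosure_le_normal fun r hr => ⟨Pi.single ⟨r, hr⟩ 1, ?_⟩
      simp [gen]
    intro y
    obtain ⟨r, hr⟩ := QuotientGroup.mk_surjective ((Additive.toMul y : τ.ker) : F ⧸ Nc')
    have hrR : r ∈ R := by
      show pm r = 1
      have h4 : τ ((Additive.toMul y : τ.ker) : F ⧸ Nc') = 1 := (Additive.toMul y).2
      rw [← hr] at h4
      exact h4
    obtain ⟨v, hv⟩ := h2 hrR
    exact ⟨v, congrArg Additive.ofMul (Subtype.ext (hv.trans hr) : Additive.toMul (gen v) = Additive.toMul y)⟩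
  -- exponent sums
  let a : F ⧸ Nc' →* Multiplicative (Fin n → ℤ) :=
    QuotientGroup.lift Nc' (FreeGroup.lift fun i => Multiplicative.ofAdd (Pi.single i (1 : ℤ))) (by
      rw [Subgroup.commutator_le]
      intro a _ b _
      rw [MonoidHom.mem_ker, map_commutatorElement]
      exact commutatorElement_eq_one_iff_mul_comm.2 (mul_comm _ _))
  have hker_a : a.ker ≤ commutator (F ⧸ Nc') := by
    intro x hx
    obtain ⟨f, rfl⟩ := QuotientGroup.mk_surjective x
    let back : (Fin n → ℤ) →ₗ[ℤ] Additive (Abelianization F) :=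
      Fintype.linearCombination ℤ fun i => Additive.ofMul (Abelianization.of (FreeGroup.of i))
    have hcomp : (AddMonoidHom.toMultiplicativeLeft back.toAddMonoidHom).comp
        (FreeGroup.lift fun i => Multiplicative.ofAdd (Pi.single i (1 : ℤ))) = (Abelianization.of : F →* _) := by
      refine FreeGroup.ext_hom _ _ fun i => ?_
      simp [back]
    have h1 : Abelianization.of f = 1 := by
      rw [← hcomp, MonoidHom.comp_apply]
      have hx' : (FreeGroup.lift fun i => Multiplicative.ofAdd (Pi.single i (1 : ℤ))) f = 1 := hx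
      rw [hx', map_one]
    have h3 : (commutator F).map (QuotientGroup.mk' Nc') ≤ commutator (F ⧸ Nc') := by
      rw [commutator_def, Subgroup.map_commutator]
      exact Subgroup.commutator_mono le_top le_top
    exact h3 ⟨f, (QuotientGroup.eq_one_iff f).1 h1, rfl⟩
  let al : Additive τ.ker →ₗ[ℤ] (Fin n → ℤ) := (MonoidHom.toAdditiveLeft (a.comp τ.ker.subtype)).toIntLinearMap
  let c : (rels → ℤ) →ₗ[ℤ] (Fin n → ℤ) := al.comp gen
  have hrank : n ≤ Module.finrank ℤ (LinearMap.range c) := by
    set N := Nat.card G with hN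
    have hN0 : (N : ℤ) ≠ 0 := by exact_mod_cast Nat.card_pos.ne'
    have hmem : ∀ v : Fin n → ℤ, (N : ℤ) • v ∈ LinearMap.range c := by
      intro v
      rw [pi_eq_sum_univ' v, Finset.smul_sum]
      refine Submodule.sum_mem _ fun i _ => ?_
      rw [smul_comm]
      refine Submodule.smul_mem _ _ ?_
      have hk : ((FreeGroup.of i : F) : F ⧸ Nc') ^ N ∈ τ.ker := by
        show τ _ = 1
        rw [map_pow, hN]
        exact pow_card_eq_one'
      obtain ⟨u, hu⟩ := hgen (Additive.ofMul ⟨_, hk⟩)
      refine ⟨u, ?_⟩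
      show al (gen u) = _
      rw [hu]
      show (a (((FreeGroup.of i : F) : F ⧸ Nc') ^ N)).toAdd = _
      rw [map_pow, toAdd_pow, natCast_zsmul]
      congr 1
      show ((FreeGroup.lift fun i => Multiplicative.ofAdd (Pi.single i (1 : ℤ))) (FreeGroup.of i)).toAdd = _
      rw [FreeGroup.lift_apply_of]
      rfl
    let m : (Fin n → ℤ) →ₗ[ℤ] LinearMap.range c :=
      LinearMap.codRestrict _ ((N : ℤ) • LinearMap.id) hmem
    have hm : Function.Injective m := fun v w h => by
      have h' : (N : ℤ) • v = (N : ℤ) • w := congrArg Subtype.val h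
      exact smul_right_injective _ hN0 h'
    have := LinearMap.finrank_le_finrank_of_injective hm
    rwa [Module.finrank_fin_fun] at this
  have hsum := Submodule.finrank_quotient_add_finrank (LinearMap.ker c)
  rw [c.quotKerEquivRange.finrank_eq, Module.finrank_pi, Fintype.card_coe] at hsum
  let B := Module.finBasis ℤ (LinearMap.ker c)
  -- transport to the multiplier
  obtain ⟨θ, hθ⟩ := exists_hom τ hτ hcen
  let g : F →* E G := FreeGroup.lift fun i => Function.surjInv (proj_surjective G) (pm (FreeGroup.of i))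
  have hg : (proj G).comp g = pm := FreeGroup.ext_hom _ _ fun i => by
    simp [g, Function.surjInv_eq (proj_surjective G)]
  let η : F ⧸ Nc' →* E G := QuotientGroup.lift Nc' g (by
    rw [Subgroup.commutator_le]
    intro x _ r hr
    rw [MonoidHom.mem_ker, map_commutatorElement]
    refine commutatorElement_eq_one_iff_mul_comm.2 (Subgroup.mem_center_iff.1 (K_le_center G ?_) _)
    show proj G (g r) = 1
    rw [← MonoidHom.comp_apply, hg]; exact hr)
  have hη : ∀ x, proj G (η x) = τ x := fun x => by
    obtain ⟨f, rfl⟩ := QuotientGroup.mk_surjective x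
    exact DFunLike.congr_fun hg f
  have hagree : ∀ z : E G, ((η.comp θ) z)⁻¹ * (MonoidHom.id _) z ∈ Subgroup.center (E G) := fun z => by
    refine K_le_center G ?_
    show proj G ((η (θ z))⁻¹ * z) = 1
    rw [map_mul, map_inv, hη, show τ (θ z) = proj G z from DFunLike.congr_fun hθ z, inv_mul_cancel]
  have hBmem : ∀ i, η ((Additive.toMul (gen (B i : rels → ℤ)) : τ.ker) : F ⧸ Nc') ∈ M G := fun i => by
    refine ⟨?_, ?_⟩
    · show proj G (η _) = 1
      rw [hη]; exact (Additive.toMul (gen (B i : rels → ℤ))).2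
    · have h3 : (commutator (F ⧸ Nc')).map η ≤ commutator (E G) := by
        rw [commutator_def, Subgroup.map_commutator]
        exact Subgroup.commutator_mono le_top le_top
      exact h3 ⟨_, hker_a ((B i).2), rfl⟩
  let S : Finset (M G) := Finset.univ.image fun i => ⟨_, hBmem i⟩
  refine ⟨S, ?_, le_trans Finset.card_image_le ?_⟩
  · rw [eq_top_iff]
    intro z _
    have h1 : θ (z : E G) ∈ τ.ker ⊓ commutator (F ⧸ Nc') :=
      (map_M_eq hcen hθ).le ⟨z, z.2, rfl⟩
    obtain ⟨v, hv⟩ := hgen (Additive.ofMul ⟨θ (z : E G), h1.1⟩)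
    have hvc : v ∈ LinearMap.ker c := by
      show al (gen v) = 0
      rw [hv]
      exact Abelianization.commutator_subset_ker a h1.2
    let W : Submodule ℤ (LinearMap.ker c) :=
      { carrier := {w | ∃ y ∈ Subgroup.closure (S : Set (M G)),
          η ((Additive.toMul (gen (w : rels → ℤ)) : τ.ker) : F ⧸ Nc') = (y : E G)}
        zero_mem' := ⟨1, one_mem _, by simp⟩
        add_mem' := by
          rintro w w' ⟨y, hy, e⟩ ⟨y', hy', e'⟩
          refine ⟨y * y', mul_mem hy hy', ?_⟩
          simp [e, e']
        smul_mem' := by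
          rintro k w ⟨y, hy, e⟩
          refine ⟨y ^ k, zpow_mem hy k, ?_⟩
          show η ((Additive.toMul (gen (k • (w : rels → ℤ))) : τ.ker) : F ⧸ Nc') = _
          rw [map_zsmul, toMul_zsmul, Subgroup.coe_zpow, map_zpow, e, Subgroup.coe_zpow] }
    have hW : W = ⊤ := by
      rw [eq_top_iff, ← B.span_eq, Submodule.span_le]
      rintro _ ⟨i, rfl⟩
      exact ⟨⟨_, hBmem i⟩, Subgroup.subset_closure (Finset.mem_image_of_mem _ (Finset.mem_univ i)), rfl⟩
    obtain ⟨y, hy, hye⟩ : (⟨v, hvc⟩ : LinearMap.ker c) ∈ W := hW ▸ Submodule.mem_top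
    have h2 : η (θ (z : E G)) = (z : E G) := eqOn_commutator _ _ hagree _ z.2.2
    have e3 : (y : E G) = z := by
      rw [← hye, ← h2]
      exact congrArg (fun q : Additive τ.ker => η ((Additive.toMul q : τ.ker) : F ⧸ Nc')) hv
    rwa [Subtype.ext e3] at hy
  · rw [Finset.card_univ, Fintype.card_fin]
    omega

/-- If a finite group is presented by `n` generators and a finite set of `r` relators, then its Schur multiplier can be generated by `r - n` elements. In particular a finite group with a presentation having as many relators as generators has trivial Schur multiplier. -/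
theorem result (n : ℕ) (rels : Finset (FreeGroup (Fin n))) [Finite (PresentedGroup (rels : Set (FreeGroup (Fin n))))] {A : Type*} [CommGroup A] [Finite A] (hA : Cfsg.HasSchurMultiplier (PresentedGroup (rels : Set (FreeGroup (Fin n)))) A) : Group.rank A ≤ rels.card - n := by
  obtain ⟨-, ⟨e⟩⟩ := CfsgLib.Core.Schur.nonempty_equiv_M hA
  obtain ⟨S, hS, hcard⟩ := key n rels
  classical
  refine (Group.rank_le (S := S.image e.symm) ?_).trans (Finset.card_image_le.trans hcard)
  rw [Finset.coe_image, show (⇑e.symm '' (S : Set _)) = e.symm.toMonoidHom '' (S : Set _) from rfl,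
    ← MonoidHom.map_closure, hS, ← MonoidHom.range_eq_map, MonoidHom.range_eq_top]
  exact e.symm.surjective

end Cfsg.Agent.S3973
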