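import Cfsg.Statements.S3974
import Cfsg.Agent.Lib.CoreSchurCover

set_option autoImplicit false
universe u v
open Cfsg

namespace Cfsg.Agent.S3974

open scoped commutatorElement
open CfsgLib.Core.Schur

universe w v₁ v₂

variable {Q : Type w} [Group Q] [Finite Q]

set_option maxHeartbeats 400000

theorem pow_card_ab_mem (C : Subgroup (E Q)) (h : IsCompl C) (e : E Q) :
    ∃ c ∈ C, ab Q c = (ab Q e) ^ Nat.card (Abelianization Q) := by
  have h1 : Abelianization.of (proj Q e) ^ Nat.card (Abelianization Q) = 1 := pow_card_eq_one'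
  rw [← map_pow, ← map_pow] at h1
  have h2 : proj Q (e ^ Nat.card (Abelianization Q)) ∈ (commutator (E Q)).map (proj Q) := by
    rw [commutator_def, Subgroup.map_commutator, Subgroup.map_top_of_surjective _ (proj_surjective Q)]
    exact (QuotientGroup.eq_one_iff _).1 h1
  obtain ⟨d, hd, hde⟩ := h2
  have h3 : d⁻¹ * e ^ Nat.card (Abelianization Q) ∈ K Q := by
    show proj Q (d⁻¹ * e ^ Nat.card (Abelianization Q)) = 1
    rw [map_mul, map_inv, hde, inv_mul_cancel]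
  haveI : (M Q).Normal := normal_of_le_K inf_le_left
  obtain ⟨c, hc, m, hm, hcm⟩ := Subgroup.mem_sup_of_normal_right.1 (h.sup h3)
  refine ⟨c, hc, ?_⟩
  have hm0 : ab Q m = 1 := by rw [← MonoidHom.mem_ker, ker_ab]; exact hm.2
  have hd0 : ab Q d = 1 := by rw [← MonoidHom.mem_ker, ker_ab]; exact hd
  have := congrArg (ab Q) hcm
  rw [map_mul, map_mul, map_inv, hm0, hd0, mul_one, inv_one, one_mul, map_pow] at this
  exact this

theorem ab_injOn (C : Subgroup (E Q)) (h : C ⊓ commutator (E Q) = ⊥) {c c' : E Q} (hc : c ∈ C) (hc' : c' ∈ C)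
    (e : ab Q c = ab Q c') : c = c' := by
  have h1 : c⁻¹ * c' ∈ C ⊓ commutator (E Q) := ⟨C.mul_mem (C.inv_mem hc) hc', (ker_ab Q).le (by
    rw [MonoidHom.mem_ker, map_mul, map_inv, e, inv_mul_cancel])⟩
  rw [h, Subgroup.mem_bot, inv_mul_eq_one] at h1
  exact h1

theorem iso_of_coprime (hcop : Nat.Coprime (Nat.card (Abelianization Q)) (Nat.card (M Q)))
    {Γ₁ : Type v₁} {Γ₂ : Type v₂} [Group Γ₁] [Finite Γ₁] [Group Γ₂] [Finite Γ₂] {σ₁ : Γ₁ →* Q} {σ₂ : Γ₂ →* Q}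
    (h₁ : Cfsg.IsStemExtension σ₁) (c₁ : Nat.card σ₁.ker = Nat.card (M Q))
    (h₂ : Cfsg.IsStemExtension σ₂) (c₂ : Nat.card σ₂.ker = Nat.card (M Q)) :
    ∃ e : Γ₁ ≃* Γ₂, σ₂.comp e.toMonoidHom = σ₁ := by
  classical
  obtain ⟨η₁, hη₁⟩ := exists_hom σ₁ h₁.1 h₁.2.1
  obtain ⟨η₂, hη₂⟩ := exists_hom σ₂ h₂.1 h₂.2.1
  have hC := isCompl_ker h₁ c₁ hη₁
  obtain ⟨u, v, huv⟩ := Nat.Coprime.isCoprime hcop
  set N := Nat.card (Abelianization Q)
  letI : CommGroup σ₂.ker := { (inferInstance : Group σ₂.ker) with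
    mul_comm := fun a b => Subtype.ext (Subgroup.mem_center_iff.1 (h₂.2.1 b.2) (a : Γ₂)) }
  choose cc hcc hccab using pow_card_ab_mem η₁.ker hC
  have hφmem : ∀ e, η₂ (cc e) ∈ σ₂.ker := fun e => by
    show σ₂ (η₂ (cc e)) = 1
    rw [← MonoidHom.comp_apply, hη₂]; exact hC.le (hcc e)
  let φ : E Q →* σ₂.ker := MonoidHom.mk' (fun e => ⟨η₂ (cc e), hφmem e⟩) fun a b => Subtype.ext (by
    show η₂ (cc (a * b)) = η₂ (cc a) * η₂ (cc b)
    rw [← map_mul]
    congr 1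
    refine ab_injOn _ hC.inf (hcc _) (mul_mem (hcc a) (hcc b)) ?_
    rw [hccab, map_mul, map_mul, hccab, hccab, mul_pow])
  let χ : E Q →* σ₂.ker := (zpowGroupHom u).comp φ
  let θ : E Q →* Γ₂ := MonoidHom.mk' (fun e => η₂ e * ((χ e : σ₂.ker) : Γ₂)⁻¹) fun a b => by
    have hz := Subgroup.mem_center_iff.1 (h₂.2.1 ((χ a)⁻¹ : σ₂.ker).2)
    rw [map_mul, map_mul, Subgroup.coe_mul, mul_inv_rev]
    have hz' : ∀ g, g * ((χ a : σ₂.ker) : Γ₂)⁻¹ = ((χ a : σ₂.ker) : Γ₂)⁻¹ * g := fun g => hz g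
    calc η₂ a * η₂ b * (((χ b : σ₂.ker) : Γ₂)⁻¹ * ((χ a : σ₂.ker) : Γ₂)⁻¹)
        = η₂ a * ((η₂ b * ((χ b : σ₂.ker) : Γ₂)⁻¹) * ((χ a : σ₂.ker) : Γ₂)⁻¹) := by group
      _ = η₂ a * (((χ a : σ₂.ker) : Γ₂)⁻¹ * (η₂ b * ((χ b : σ₂.ker) : Γ₂)⁻¹)) := by rw [hz']
      _ = _ := by group
  have hθ : σ₂.comp θ = proj Q := MonoidHom.ext fun e => by
    show σ₂ (η₂ e * ((χ e : σ₂.ker) : Γ₂)⁻¹) = _
    rw [map_mul, map_inv, show σ₂ ((χ e : σ₂.ker) : Γ₂) = 1 from (χ e).2, inv_one, mul_one]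
    exact DFunLike.congr_fun hη₂ e
  have hkill : η₁.ker ≤ θ.ker := by
    intro c hc
    have hcN : cc c = c ^ N := ab_injOn _ hC.inf (hcc c) (η₁.ker.pow_mem hc N) (by rw [hccab, map_pow])
    show η₂ c * ((χ c : σ₂.ker) : Γ₂)⁻¹ = 1
    have hk : η₂ c ∈ σ₂.ker := by
      show σ₂ (η₂ c) = 1
      rw [← MonoidHom.comp_apply, hη₂]; exact hC.le hc
    have hχ : χ c = ⟨η₂ c, hk⟩ := by
      show (φ c) ^ u = _
      have hφc : φ c = (⟨η₂ c, hk⟩ : σ₂.ker) ^ (N : ℤ) := Subtype.ext (by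
        show η₂ (cc c) = _
        rw [hcN, map_pow, zpow_natCast]; rfl)
      rw [hφc, ← zpow_mul, show (N : ℤ) * u = 1 + (Nat.card (M Q) : ℤ) * (-v) by linear_combination huv, zpow_add, zpow_one,
        zpow_mul, zpow_natCast, ← c₂, pow_card_eq_one', one_zpow, mul_one]
    rw [hχ, mul_inv_cancel]
  have hs₁ := surjective_of_stem h₁ hη₁
  let β : Γ₁ →* Γ₂ := η₁.liftOfSurjective hs₁ ⟨θ, hkill⟩
  have hβs : Function.Surjective β := fun y => by
    obtain ⟨e, he⟩ := surjective_of_stem h₂ hθ y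
    exact ⟨η₁ e, by rw [show β (η₁ e) = θ e from MonoidHom.liftOfRightInverse_comp_apply _ _ _ _ e, he]⟩
  have hcard : Nat.card Γ₁ = Nat.card Γ₂ := by
    rw [← σ₁.ker.index_mul_card, ← σ₂.ker.index_mul_card, Subgroup.index_ker, Subgroup.index_ker,
      MonoidHom.range_eq_top.2 h₁.1, MonoidHom.range_eq_top.2 h₂.1, c₁, c₂]
  refine ⟨MulEquiv.ofBijective β ((Nat.bijective_iff_surjective_and_card _).2 ⟨hβs, hcard⟩), MonoidHom.ext fun y => ?_⟩
  obtain ⟨e, rfl⟩ := hs₁ y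
  show σ₂ (β (η₁ e)) = σ₁ (η₁ e)
  rw [show β (η₁ e) = θ e from MonoidHom.liftOfRightInverse_comp_apply _ _ _ _ e,
    show σ₂ (θ e) = proj Q e from DFunLike.congr_fun hθ e]
  exact (DFunLike.congr_fun hη₁ e).symm

theorem not_iso (hcop : ¬ Nat.Coprime (Nat.card (Abelianization Q)) (Nat.card (M Q)))
    (h : ∀ (Γ₁ Γ₂ : Type w) [Group Γ₁] [Finite Γ₁] [Group Γ₂] [Finite Γ₂] (σ₁ : Γ₁ →* Q) (σ₂ : Γ₂ →* Q),
      Cfsg.IsStemExtension σ₁ → Cfsg.IsStemExtension σ₂ → Nonempty (σ₁.ker ≃* M Q) → Nonempty (σ₂.ker ≃* M Q) →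
      ∃ e : Γ₁ ≃* Γ₂, σ₂.comp e.toMonoidHom = σ₁) : False := by
  classical
  obtain ⟨p, hp, hpQ, hpM⟩ := Nat.Prime.not_coprime_iff_dvd.1 hcop
  haveI := Fact.mk hp
  haveI : Finite (Abelianization Q) := Finite.of_surjective _ (QuotientGroup.mk_surjective (s := commutator Q))
  obtain ⟨x, hx⟩ := exists_prime_orderOf_dvd_card' p hpQ
  obtain ⟨q, rfl⟩ : ∃ q, Abelianization.of q = x := QuotientGroup.mk_surjective x
  obtain ⟨e, rfl⟩ := proj_surjective Q q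
  obtain ⟨C, -, hCn, hC⟩ := exists_isCompl (K Q) le_rfl le_sup_left
  haveI := hCn
  haveI : (M Q).Normal := normal_of_le_K inf_le_left
  -- `c₀` is the part of `e ^ p` in `C`
  obtain ⟨c₀, hc₀, d, hd, hce⟩ : ∃ c₀ ∈ C, ∃ d ∈ commutator (E Q), e ^ p = c₀ * d := by
    have h1 : Abelianization.of (proj Q (e ^ p)) = 1 := by rw [map_pow, map_pow, ← hx, pow_orderOf_eq_one]
    have h2 : proj Q (e ^ p) ∈ (commutator (E Q)).map (proj Q) := by
      rw [commutator_def, Subgroup.map_commutator, Subgroup.map_top_of_surjective _ (proj_surjective Q)]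
      exact (QuotientGroup.eq_one_iff _).1 h1
    obtain ⟨d, hd, hde⟩ := h2
    have h3 : e ^ p * d⁻¹ ∈ K Q := by
      show proj Q (e ^ p * d⁻¹) = 1
      rw [map_mul, map_inv, hde, mul_inv_cancel]
    obtain ⟨c, hc, m, hm, hcm⟩ := Subgroup.mem_sup_of_normal_right.1 (hC.sup h3)
    exact ⟨c, hc, m * d, mul_mem hm.2 hd, by rw [← mul_assoc, hcm, inv_mul_cancel_right]⟩
  letI : CommGroup C := { (inferInstance : Group C) with
    mul_comm := fun a b => Subtype.ext (Subgroup.mem_center_iff.1 (K_le_center Q (hC.le b.2)) (a : E Q)) }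
  let f : Additive C →ₗ[ℤ] (Q →₀ ℤ) := (MonoidHom.toAdditiveLeft ((ab Q).comp C.subtype)).toIntLinearMap
  have hf : Function.Injective f := fun a b hab =>
    congrArg Additive.ofMul (Subtype.ext (ab_injOn C hC.inf (Additive.toMul a : C).2 (Additive.toMul b : C).2 hab) :
      (Additive.toMul a : C) = Additive.toMul b)
  let L := LinearMap.range f
  haveI : Module.Free ℤ L :=
    Module.Free.of_basis (Submodule.basisOfPid (Finsupp.basisSingleOne (R := ℤ) (ι := Q)) L).2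
  let eL : Additive C ≃ₗ[ℤ] L := LinearEquiv.ofInjective f hf
  let B := (Module.Free.chooseBasis ℤ L).map eL.symm
  obtain ⟨i, hi⟩ : ∃ i, ¬ (p : ℤ) ∣ B.repr (Additive.ofMul ⟨c₀, hc₀⟩) i := by
    by_contra hall
    push Not at hall
    choose w hw using hall
    let y : Additive C := ∑ i ∈ (B.repr (Additive.ofMul ⟨c₀, hc₀⟩)).support, w i • B i
    have hy : (p : ℤ) • y = Additive.ofMul ⟨c₀, hc₀⟩ := by
      conv_rhs => rw [← B.linearCombination_repr (Additive.ofMul ⟨c₀, hc₀⟩)]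
      rw [Finsupp.linearCombination_apply, Finsupp.sum, Finset.smul_sum]
      exact Finset.sum_congr rfl fun i _ => by rw [smul_smul, ← hw i]
    have h1 : f ((p : ℤ) • y) = f (Additive.ofMul ⟨c₀, hc₀⟩) := congrArg f hy
    rw [map_smul] at h1
    have hd0 : ab Q d = 1 := by rw [← MonoidHom.mem_ker, ker_ab]; exact hd
    have h2 : f (Additive.ofMul ⟨c₀, hc₀⟩) = (p : ℤ) • (ab Q e).toAdd := by
      show (ab Q c₀).toAdd = _
      rw [natCast_zsmul, ← toAdd_pow, ← map_pow, hce, map_mul, hd0, mul_one]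
    rw [h2] at h1
    have h3 : f y = (ab Q e).toAdd := smul_right_injective _ (by exact_mod_cast hp.ne_zero : (p : ℤ) ≠ 0) h1
    have h4 : ((Additive.toMul y : C) : E Q)⁻¹ * e ∈ commutator (E Q) := by
      rw [← ker_ab, MonoidHom.mem_ker, map_mul, map_inv, inv_mul_eq_one]
      exact h3
    have h5 : Abelianization.of (proj Q e) = 1 := by
      refine (QuotientGroup.eq_one_iff _).2 ?_
      have h6 : proj Q e = proj Q (((Additive.toMul y : C) : E Q)⁻¹ * e) := by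
        rw [map_mul, map_inv, show proj Q ((Additive.toMul y : C) : E Q) = 1 from hC.le (Additive.toMul y).2,
          inv_one, one_mul]
      rw [h6]
      have h7 : (commutator (E Q)).map (proj Q) ≤ commutator Q := by
        rw [commutator_def, Subgroup.map_commutator]; exact Subgroup.commutator_mono le_top le_top
      exact h7 ⟨_, h4, rfl⟩
    rw [h5, orderOf_one] at hx
    exact hp.ne_one hx.symm
  obtain ⟨z, hz⟩ : ∃ z : M Q, ∀ m : M Q, m ^ p ≠ z := by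
    by_contra hall
    push Not at hall
    obtain ⟨t, ht⟩ := exists_prime_orderOf_dvd_card' p hpM
    have hinj : Function.Injective fun m : M Q => m ^ p := Finite.injective_iff_surjective.2 hall
    have h1 : t = 1 := hinj (by show t ^ p = 1 ^ p; rw [one_pow, ← ht, pow_orderOf_eq_one])
    rw [h1, orderOf_one] at ht
    exact hp.ne_one ht.symm
  let fz : C →* M Q := (zpowersHom (M Q) z).comp
    (AddMonoidHom.toMultiplicativeRight (B.coord i).toAddMonoidHom)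
  let tw : C →* E Q := MonoidHom.mk' (fun c => (c : E Q) * ((fz c : M Q) : E Q)) fun a b => by
    have hzc := Subgroup.mem_center_iff.1 (M_le_center Q (fz a).2)
    rw [map_mul, Subgroup.coe_mul, Subgroup.coe_mul]
    calc (a : E Q) * b * (((fz a : M Q) : E Q) * ((fz b : M Q) : E Q))
        = (a : E Q) * ((b : E Q) * ((fz a : M Q) : E Q)) * ((fz b : M Q) : E Q) := by group
      _ = (a : E Q) * (((fz a : M Q) : E Q) * (b : E Q)) * ((fz b : M Q) : E Q) := by rw [hzc]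
      _ = _ := by group
  have habtw : ∀ c, ab Q (tw c) = ab Q (c : E Q) := fun c => by
    show ab Q ((c : E Q) * ((fz c : M Q) : E Q)) = _
    rw [map_mul, show ab Q ((fz c : M Q) : E Q) = 1 from (ker_ab Q).ge (fz c).2.2, mul_one]
  have hC' : IsCompl tw.range := by
    refine ⟨?_, ?_, ?_⟩
    · rintro _ ⟨c, rfl⟩
      exact (K Q).mul_mem (hC.le c.2) (fz c).2.1
    · rw [eq_bot_iff]
      rintro _ ⟨⟨c, rfl⟩, hc⟩
      have h1 : ab Q (tw c) = ab Q 1 := by rw [map_one]; exact (ker_ab Q).ge hc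
      rw [habtw] at h1
      have h2 : c = 1 := Subtype.ext (ab_injOn C hC.inf c.2 C.one_mem h1)
      rw [h2, map_one]
      exact Subgroup.one_mem _
    · intro x hx
      obtain ⟨c, hc, m, hm, rfl⟩ := Subgroup.mem_sup_of_normal_right.1 (hC.sup hx)
      rw [show c * m = tw ⟨c, hc⟩ * ((((fz ⟨c, hc⟩ : M Q) : E Q))⁻¹ * m) by
        show c * m = c * ((fz ⟨c, hc⟩ : M Q) : E Q) * _
        group]
      exact Subgroup.mul_mem_sup ⟨_, rfl⟩ ((M Q).mul_mem ((M Q).inv_mem (fz _).2) hm)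
  haveI : tw.range.Normal := normal_of_le_K hC'.le
  haveI := finite_cover C hC
  haveI := finite_cover tw.range hC'
  obtain ⟨ε, hε⟩ := h (E Q ⧸ C) (E Q ⧸ tw.range) (coverHom C hC) (coverHom tw.range hC') (coverHom_stem C hC)
    (coverHom_stem _ hC') ⟨(coverHom_ker C hC).some.symm⟩ ⟨(coverHom_ker _ hC').some.symm⟩
  set ρ := coverHom tw.range hC'
  have hρs := coverHom_stem tw.range hC'
  letI : CommGroup ρ.ker := { (inferInstance : Group ρ.ker) with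
    mul_comm := fun a b => Subtype.ext (Subgroup.mem_center_iff.1 (hρs.2.1 b.2) (a : E Q ⧸ tw.range)) }
  let mk' := QuotientGroup.mk' tw.range
  let θ : E Q →* E Q ⧸ tw.range := ε.toMonoidHom.comp (QuotientGroup.mk' C)
  have hδmem : ∀ x, (mk' x)⁻¹ * θ x ∈ ρ.ker := fun x => by
    show ρ ((mk' x)⁻¹ * θ x) = 1
    rw [map_mul, map_inv, show ρ (θ x) = coverHom C hC (x : E Q ⧸ C) from DFunLike.congr_fun hε _]
    exact inv_mul_cancel _
  let δ : E Q →* ρ.ker := MonoidHom.mk' (fun x => ⟨_, hδmem x⟩) fun a b => Subtype.ext (by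
    show (mk' (a * b))⁻¹ * θ (a * b) = (mk' a)⁻¹ * θ a * ((mk' b)⁻¹ * θ b)
    have hz := Subgroup.mem_center_iff.1 (hρs.2.1 (hδmem a))
    calc (mk' (a * b))⁻¹ * θ (a * b) = (mk' b)⁻¹ * ((mk' a)⁻¹ * θ a) * θ b := by rw [map_mul, map_mul]; group
      _ = (mk' a)⁻¹ * θ a * (mk' b)⁻¹ * θ b := by rw [hz (mk' b)⁻¹]
      _ = _ := by group)
  obtain ⟨m, hm, hme⟩ := (map_M_eq_ker hρs (η := mk') rfl).ge (δ e).2
  have hδd : δ d = 1 := Abelianization.commutator_subset_ker δ hd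
  have hδc : δ c₀ = (δ e) ^ p := by
    rw [← map_pow, hce, map_mul, hδd, mul_one]
  have h1 : (mk' c₀)⁻¹ * θ c₀ = (mk' m) ^ p := by
    have := congrArg Subtype.val hδc
    rw [SubmonoidClass.coe_pow, ← hme] at this
    exact this
  have h2 : θ c₀ = 1 := by
    show ε (c₀ : E Q ⧸ C) = 1
    rw [(QuotientGroup.eq_one_iff c₀).2 hc₀, map_one]
  have h3 : mk' ((fz ⟨c₀, hc₀⟩ : M Q) : E Q) = (mk' c₀)⁻¹ := by
    rw [eq_inv_iff_mul_eq_one, ← map_mul, Subgroup.mem_center_iff.1 (M_le_center Q (fz _).2) c₀ |>.symm]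
    exact (QuotientGroup.eq_one_iff _).2 ⟨⟨c₀, hc₀⟩, rfl⟩
  rw [h2, mul_one, ← h3, ← map_pow] at h1
  have h4 : fz ⟨c₀, hc₀⟩ = (⟨m, hm⟩ : M Q) ^ p := by
    have h5 : (((fz ⟨c₀, hc₀⟩) * ((⟨m, hm⟩ : M Q) ^ p)⁻¹ : M Q) : E Q) = 1 := by
      refine coverHom_injOn _ hC' _ (Subtype.coe_prop _) ?_
      show mk' _ = 1
      rw [Subgroup.coe_mul, Subgroup.coe_inv, SubmonoidClass.coe_pow, map_mul, map_inv]
      rw [h1, mul_inv_cancel]
    exact mul_inv_eq_one.1 (Subtype.ext h5)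
  obtain ⟨a, b, hab⟩ : IsCoprime (B.repr (Additive.ofMul ⟨c₀, hc₀⟩) i) (p : ℤ) :=
    (((Nat.prime_iff_prime_int.1 hp).coprime_iff_not_dvd).2 hi).symm
  refine hz ((⟨m, hm⟩ : M Q) ^ a * z ^ b) ?_
  rw [mul_pow, ← zpow_natCast, ← zpow_natCast (z ^ b), ← zpow_mul, mul_comm a, zpow_mul, zpow_natCast, ← h4]
  show ((z ^ (B.repr (Additive.ofMul ⟨c₀, hc₀⟩) i)) ^ a) * _ = z
  rw [← zpow_mul, ← zpow_mul, ← zpow_add]
  conv_rhs => rw [← zpow_one z]
  congr 1
  linear_combination hab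


/-- Let `Q` be a finite group with Schur multiplier `A`. Any two Schur covering groups of `Q` (finite stem extensions `σ₁ : Γ₁ →* Q`, `σ₂ : Γ₂ →* Q` with kernels isomorphic to `A`, `Γ₁, Γ₂` in the universe of `Q`) are isomorphic over `Q` — there is a group isomorphism `e : Γ₁ ≃* Γ₂` with `σ₂ ∘ e = σ₁` — if and only if the order of the commutator quotient of `Q` is coprime to the order of `A`. In particular a finite perfect group has a unique Schur covering group up to isomorphism over it. -/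
theorem result {Q : Type u} [Group Q] [Finite Q] {A : Type v} [CommGroup A] (hA : Cfsg.HasSchurMultiplier Q A) : (∀ (Γ₁ Γ₂ : Type u) [Group Γ₁] [Finite Γ₁] [Group Γ₂] [Finite Γ₂] (σ₁ : Γ₁ →* Q) (σ₂ : Γ₂ →* Q), Cfsg.IsStemExtension σ₁ → Cfsg.IsStemExtension σ₂ → Nonempty (σ₁.ker ≃* A) → Nonempty (σ₂.ker ≃* A) → ∃ e : Γ₁ ≃* Γ₂, σ₂.comp e.toMonoidHom = σ₁) ↔ Nat.Coprime (Nat.card (Abelianization Q)) (Nat.card A) := by
  classical
  obtain ⟨hfin, ⟨eA⟩⟩ := CfsgLib.Core.Schur.nonempty_equiv_M hA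
  rw [Nat.card_congr eA.toEquiv]
  constructor
  · intro h
    by_contra hcop
    exact not_iso hcop (fun Γ₁ Γ₂ _ _ _ _ σ₁ σ₂ h₁ h₂ ⟨k₁⟩ ⟨k₂⟩ =>
      h Γ₁ Γ₂ σ₁ σ₂ h₁ h₂ ⟨k₁.trans eA.symm⟩ ⟨k₂.trans eA.symm⟩)
  · intro hcop Γ₁ Γ₂ _ _ _ _ σ₁ σ₂ h₁ h₂ ⟨k₁⟩ ⟨k₂⟩
    exact iso_of_coprime hcop h₁ (Nat.card_congr (k₁.trans eA).toEquiv) h₂ (Nat.card_congr (k₂.trans eA).toEquiv)

end Cfsg.Agent.S3974
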