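import Cfsg.Statements.S3977
import Cfsg.Agent.Lib.TransferMore
import Cfsg.Agent.Lib.CorePGroup

set_option autoImplicit false
open Cfsg
open scoped commutatorElement

namespace Cfsg.Agent.S3977

/-- Let `p` be a prime and `G` a group of order `p ^ m` which has exactly one subgroup of order `p ^ s`, where `1 ≤ s < m`, and where `s ≥ 2` if `p = 2`. Then `G` is cyclic. (For `p = 2` and `s = 1` the generalized quaternion groups also occur; that case is the classical criterion for a unique involution.) -/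
theorem result {G : Type*} [Group G] [Finite G] (p m s : ℕ) (hp : p.Prime) (hG : Nat.card G = p ^ m) (hs : 1 ≤ s) (hsm : s < m) (h2 : p ≠ 2 ∨ 2 ≤ s) (huniq : ∀ H K : Subgroup G, Nat.card H = p ^ s → Nat.card K = p ^ s → H = K) : IsCyclic G := by
  classical
  haveI := Fact.mk hp
  suffices key : ∀ (k : ℕ) (K : Subgroup G), Nat.card K = p ^ k → IsCyclic K from
    (Subgroup.topEquiv (G := G)).isCyclic.1 (key m ⊤ (by rw [Subgroup.card_top, hG]))
  have hP : IsPGroup p G := IsPGroup.of_card hG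
  obtain ⟨H, hH⟩ := Sylow.exists_subgroup_card_pow_prime p (n := s) (G := G) (hG ▸ pow_dvd_pow p hsm.le)
  have hsmall : ∀ (K : Subgroup G) (k : ℕ), Nat.card K = p ^ k → k ≤ s → K ≤ H := by
    intro K k hK hks
    obtain ⟨L, hL, hKL⟩ := Sylow.exists_subgroup_card_pow_prime_le p (m := s) (hG ▸ pow_dvd_pow p hsm.le) K hK hks
    exact hKL.trans (le_of_eq (huniq L H hL hH))
  have hbig : ∀ (K : Subgroup G) (k : ℕ), Nat.card K = p ^ k → s ≤ k → H ≤ K := by
    intro K k hK hks
    obtain ⟨L, hL⟩ := Sylow.exists_subgroup_card_pow_prime p (n := s) (G := K) (hK ▸ pow_dvd_pow p hks)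
    rw [← huniq _ H (by rw [Subgroup.card_map_of_injective K.subtype_injective, hL]) hH]
    exact Subgroup.map_subtype_le L
  have hpow : ∀ c : G, c ^ (p ^ s) = 1 → c ∈ H := by
    intro c hc
    obtain ⟨k, hk, hord⟩ := (Nat.dvd_prime_pow hp).1 (orderOf_dvd_of_pow_eq_one hc)
    exact hsmall _ k (by rw [Nat.card_zpowers, hord]) hk (Subgroup.mem_zpowers c)
  have hHcyc : IsCyclic H := by
    obtain ⟨x, hx⟩ : ∃ x : G, x ∉ H := by
      by_contra hne
      push Not at hne
      have : H = ⊤ := eq_top_iff.2 fun x _ => hne x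
      rw [this, Subgroup.card_top, hG] at hH
      exact absurd (Nat.pow_right_injective hp.two_le hH) hsm.ne'
    obtain ⟨k, hk⟩ := IsPGroup.iff_orderOf.1 hP x
    have hks : s ≤ k := by
      by_contra hlt
      exact hx (hsmall _ k (by rw [Nat.card_zpowers, hk]) (by omega) (Subgroup.mem_zpowers x))
    exact isCyclic_of_injective (Subgroup.inclusion (hbig _ k (by rw [Nat.card_zpowers, hk]) hks))
      (Subgroup.inclusion_injective _)
  intro k
  induction k using Nat.strong_induction_on with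
  | _ k ih =>
  intro K hK
  by_cases hks : k ≤ s
  · exact isCyclic_of_injective (Subgroup.inclusion (hsmall K k hK hks)) (Subgroup.inclusion_injective _)
  by_contra hnc
  have hKp : IsPGroup p K := hP.to_subgroup K
  have hco : ∀ M : Subgroup K, IsCoatom M → M.Normal ∧ M.index = p ∧ IsCyclic M ∧ H.subgroupOf K ≤ M := by
    intro M hM
    obtain ⟨h1, h2⟩ := CfsgLib.Core.index_of_coatom_pgroup hKp hM
    obtain ⟨j, rfl⟩ : ∃ j, k = j + 1 := ⟨k - 1, by omega⟩
    have hcard : Nat.card (M.map K.subtype) = p ^ j := by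
      rw [Subgroup.card_map_of_injective K.subtype_injective]
      have := Subgroup.card_mul_index M
      rw [h2, hK, pow_succ] at this
      exact Nat.eq_of_mul_eq_mul_right hp.pos this
    refine ⟨h1, h2, (M.equivMapOfInjective _ K.subtype_injective).isCyclic.2 (ih j (by omega) _ hcard), ?_⟩
    intro x hx
    obtain ⟨y, hy, hyx⟩ := hbig _ j hcard (by omega) (Subgroup.mem_subgroupOf.1 hx)
    exact K.subtype_injective hyx ▸ hy
  haveI : Nontrivial K := Finite.one_lt_card_iff_nontrivial.1 (by rw [hK]; exact Nat.one_lt_pow (by omega) hp.one_lt)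
  obtain ⟨M₁, hM₁, -⟩ := (eq_top_or_exists_le_coatom (⊥ : Subgroup K)).resolve_left bot_ne_top
  obtain ⟨h1n, h1i, h1c, h1H⟩ := hco M₁ hM₁
  haveI := h1c
  obtain ⟨⟨a, haM⟩, ha⟩ := IsCyclic.exists_generator (α := M₁)
  have hMa : ∀ x ∈ M₁, x ∈ Subgroup.zpowers a := fun x hx => by
    obtain ⟨i, hi⟩ := Subgroup.mem_zpowers_iff.1 (ha ⟨x, hx⟩)
    exact ⟨i, congrArg Subtype.val hi⟩
  obtain ⟨x, hx⟩ : ∃ x, x ∉ M₁ := by
    by_contra hne; push Not at hne
    exact hM₁.1 (eq_top_iff.2 fun x _ => hne x)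
  obtain ⟨M₂, hM₂, hxM⟩ := (eq_top_or_exists_le_coatom (Subgroup.zpowers x)).resolve_left fun e => hnc
    (isCyclic_iff_exists_zpowers_eq_top.2 ⟨x, e⟩)
  obtain ⟨h2n, h2i, h2c, -⟩ := hco M₂ hM₂
  haveI := h2c
  obtain ⟨⟨b, hbM⟩, hb⟩ := IsCyclic.exists_generator (α := M₂)
  have hMb : ∀ x ∈ M₂, x ∈ Subgroup.zpowers b := fun x hx => by
    obtain ⟨i, hi⟩ := Subgroup.mem_zpowers_iff.1 (hb ⟨x, hx⟩)
    exact ⟨i, congrArg Subtype.val hi⟩
  have hne : M₁ ≠ M₂ := fun e => hx (e ▸ hxM (Subgroup.mem_zpowers x))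
  have hsup : M₁ ⊔ M₂ = ⊤ := hM₁.2 _ (lt_of_le_of_ne le_sup_left fun e => hne
    (CfsgLib.Core.eq_of_le_of_card_le (e.symm ▸ le_sup_right : M₂ ≤ M₁) (by
      have a1 := Subgroup.card_mul_index M₁; have a2 := Subgroup.card_mul_index M₂
      rw [h1i] at a1; rw [h2i] at a2
      exact le_of_eq (Nat.eq_of_mul_eq_mul_right hp.pos (a1.trans a2.symm)))).symm)
  have hbne : b ∉ M₁ := fun h => hne (le_antisymm (by
    have : M₂ ≤ M₁ := fun y hy => (Subgroup.zpowers_le.2 h) (hMb y hy)
    exact le_of_eq (CfsgLib.Core.eq_of_le_of_card_le this (by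
      have a1 := Subgroup.card_mul_index M₁; have a2 := Subgroup.card_mul_index M₂
      rw [h1i] at a1; rw [h2i] at a2
      exact le_of_eq (Nat.eq_of_mul_eq_mul_right hp.pos (a1.trans a2.symm)))).symm)
    (fun y hy => (Subgroup.zpowers_le.2 h) (hMb y hy)))
  -- powers `p` of generators lie in the central intersection
  have hcen : M₁ ⊓ M₂ ≤ Subgroup.center K := by
    intro z hz
    rw [Subgroup.mem_center_iff]
    intro g
    have h : M₁ ⊔ M₂ ≤ Subgroup.centralizer {z} := by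
      refine sup_le (fun y hy => ?_) (fun y hy => ?_) <;> rw [Subgroup.mem_centralizer_singleton_iff]
      · letI := IsCyclic.commGroup (α := M₁)
        exact congrArg Subtype.val (mul_comm (⟨y, hy⟩ : M₁) ⟨z, hz.1⟩)
      · letI := IsCyclic.commGroup (α := M₂)
        exact congrArg Subtype.val (mul_comm (⟨y, hy⟩ : M₂) ⟨z, hz.2⟩)
    exact Subgroup.mem_centralizer_singleton_iff.1 (h (hsup.ge (Subgroup.mem_top g)))
  have hpmem : ∀ (M : Subgroup K), M.Normal → M.index = p → ∀ y : K, y ^ p ∈ M := by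
    intro M hMn hMi y
    have := Subgroup.pow_index_mem M y
    rwa [hMi] at this
  have hap : a ^ p ∈ M₁ ⊓ M₂ := ⟨pow_mem haM p, hpmem M₂ h2n h2i a⟩
  have hbp : b ^ p ∈ M₁ ⊓ M₂ := ⟨hpmem M₁ h1n h1i b, pow_mem hbM p⟩
  -- `b ^ p` is a power of `a ^ p`
  obtain ⟨i, hi⟩ := Subgroup.mem_zpowers_iff.1 (hMa _ hbp.1)
  have hdiv : (p : ℤ) ∣ i := by
    by_contra hnd
    have hgcd : Int.gcd (p : ℤ) i = 1 := by
      refine (hp.coprime_iff_not_dvd).2 fun h => hnd ?_
      exact Int.natCast_dvd.2 h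
    have hbez := Int.gcd_eq_gcd_ab (p : ℤ) i
    rw [hgcd, Nat.cast_one] at hbez
    have haM₂ : a ∈ M₂ := by
      have h1 : (a ^ (p : ℤ)) ^ Int.gcdA p i * (a ^ i) ^ Int.gcdB p i = a := by
        rw [← zpow_mul, ← zpow_mul, ← zpow_add, ← hbez, zpow_one]
      rw [← h1, hi, zpow_natCast]
      exact mul_mem (zpow_mem (show a ^ p ∈ M₂ from hap.2) _) (zpow_mem (show b ^ p ∈ M₂ from hbp.2) _)
    exact hne (CfsgLib.Core.eq_of_le_of_card_le (fun y hy => (Subgroup.zpowers_le.2 haM₂) (hMa y hy)) (by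
      have a1 := Subgroup.card_mul_index M₁; have a2 := Subgroup.card_mul_index M₂
      rw [h1i] at a1; rw [h2i] at a2
      exact le_of_eq (Nat.eq_of_mul_eq_mul_right hp.pos (a2.trans a1.symm))))
  obtain ⟨j, rfl⟩ := hdiv
  set u : K := a ^ (-j) with hu
  have huM : u ∈ M₁ := zpow_mem haM _
  have hup : u ^ p = (b ^ p)⁻¹ := by
    rw [hu, ← zpow_natCast, ← zpow_mul, ← hi, ← zpow_neg]; congr 1; ring
  have hcomm : _root_.commutator K ≤ M₁ ⊓ M₂ := by
    haveI := h1n; haveI := h2n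
    refine le_inf ?_ ?_
    · haveI : IsCyclic (K ⧸ M₁) := isCyclic_of_prime_card (p := p) (by rw [← Subgroup.index_eq_card]; exact h1i)
      exact Subgroup.Normal.quotient_commutative_iff_commutator_le.1 inferInstance
    · haveI : IsCyclic (K ⧸ M₂) := isCyclic_of_prime_card (p := p) (by rw [← Subgroup.index_eq_card]; exact h2i)
      exact Subgroup.Normal.quotient_commutative_iff_commutator_le.1 inferInstance
  have hupc : u ^ p ∈ Subgroup.center K := by
    rw [hup]; exact inv_mem (hcen hbp)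
  have hc : (b * u) ^ (p ^ s) = 1 := by
    rcases eq_or_ne p 2 with hp2 | hp2
    · subst hp2
      have hs2 : 2 ≤ s := by simpa using h2
      have hz : ⁅u, b⁆ ∈ Subgroup.center K :=
        hcen (hcomm (Subgroup.commutator_mem_commutator (Subgroup.mem_top _) (Subgroup.mem_top _)))
      have hz2 : ⁅u, b⁆ ^ 2 = 1 := by
        rw [← CfsgLib.Transfer.commutator_pow_left hz, commutatorElement_eq_one_iff_mul_comm]
        exact (Subgroup.mem_center_iff.1 hupc b).symm
      have hsq : (b * u) ^ 2 = ⁅u, b⁆ := by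
        have e : u * b = ⁅u, b⁆ * (b * u) := by rw [commutatorElement_def]; group
        calc (b * u) ^ 2 = b * (u * b) * u := by rw [pow_two]; group
          _ = (b * ⁅u, b⁆) * (b * u * u) := by rw [e]; group
          _ = (⁅u, b⁆ * b) * (b * u * u) := by rw [Subgroup.mem_center_iff.1 hz b]
          _ = ⁅u, b⁆ * (b ^ 2 * u ^ 2) := by rw [pow_two, pow_two]; group
          _ = _ := by rw [hup, mul_inv_cancel, mul_one]
      obtain ⟨e, rfl⟩ : ∃ e, s = e + 2 := ⟨s - 2, by omega⟩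
      rw [show 2 ^ (e + 2) = 2 * 2 * 2 ^ e by ring, pow_mul, pow_mul, hsq, hz2, one_pow]
    · have h1 : (b * u) ^ p = 1 := by
        rw [CfsgLib.Transfer.mul_pow_class_two hp2 (hcomm.trans hcen) b u
          (commutatorElement_eq_one_iff_mul_comm.2 (Subgroup.mem_center_iff.1 hupc b).symm), hup, mul_inv_cancel]
      obtain ⟨e, rfl⟩ : ∃ e, s = e + 1 := ⟨s - 1, by omega⟩
      rw [pow_succ', pow_mul, h1, one_pow]
  have hmem : b * u ∈ M₁ := h1H (Subgroup.mem_subgroupOf.2 (hpow _ (by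
    rw [← SubmonoidClass.coe_pow, hc, OneMemClass.coe_one])))
  exact hbne (by simpa using mul_mem hmem (inv_mem huM))

end Cfsg.Agent.S3977
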