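import Cfsg.Statements.S3978
import Cfsg.Agent.Lib.CoreSchurCover

set_option autoImplicit false
open Cfsg

namespace Cfsg.Agent.S3978

/-- A finite group `Q` has trivial Schur multiplier if and only if, for every `n`, every homomorphism from `Q` to the projective general linear group (the quotient of `GL n ℂ` by its centre) lifts to a homomorphism into `GL n ℂ`. -/
theorem result {Q : Type*} [Group Q] [Finite Q] : Cfsg.HasCyclicSchurMultiplier Q 1 ↔ ∀ (n : ℕ) (γ : Q →* (GL (Fin n) ℂ ⧸ Subgroup.center (GL (Fin n) ℂ))), ∃ ρ : Q →* GL (Fin n) ℂ, (QuotientGroup.mk' (Subgroup.center (GL (Fin n) ℂ))).comp ρ = γ := by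
  have hid : Cfsg.IsStemExtension (MonoidHom.id Q) :=
    ⟨Function.surjective_id, fun x hx => by rw [show x = 1 from hx]; exact one_mem _,
      fun x hx => by rw [show x = 1 from hx]; exact one_mem _⟩
  have hker : Nat.card (MonoidHom.id Q).ker = 1 := by rw [MonoidHom.ker_id, Subgroup.card_bot]
  haveI : Finite (MonoidHom.id Q).ker := inferInstance
  rw [CfsgLib.Core.Schur.hasCyclic_one_iff]
  constructor
  · intro h n γ
    obtain ⟨ρ, hρ⟩ := CfsgLib.Core.Schur.lift_projective hid (hker.trans h.symm) n γ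
    exact ⟨ρ, hρ⟩
  · intro h
    exact le_antisymm (hker ▸ CfsgLib.Core.Schur.card_M_le_of_lift hid.1 hid.2.1 h) Nat.card_pos

end Cfsg.Agent.S3978
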