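import Cfsg.Statements.S3979
import Cfsg.Agent.Lib.CoreBasic

set_option autoImplicit false
open Cfsg

namespace Cfsg.Agent.S3979

/-- A finite cyclic group has trivial Schur multiplier: every finite stem extension of it is an isomorphism, said through `HasCyclicSchurMultiplier G 1`. -/
theorem result {G : Type*} [Group G] [Finite G] [IsCyclic G] : Cfsg.HasCyclicSchurMultiplier G 1 := by
  refine ⟨⟨G, inferInstance, inferInstance, MonoidHom.id G, ⟨fun g => ⟨g, rfl⟩, by simp, by simp⟩, ⟨?_⟩⟩, ?_⟩
  · haveI : Unique (MonoidHom.id G).ker := ⟨⟨1⟩, fun z => Subtype.ext z.2⟩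
    haveI : Unique (Multiplicative (ZMod 1)) := ⟨⟨1⟩, fun z => (Multiplicative.toAdd.injective (Subsingleton.elim (α := ZMod 1) _ _))⟩
    exact MulEquiv.ofUnique
  · intro Γ _ _ σ hσ
    obtain ⟨hs, hc, hd⟩ := hσ
    have hcomm : ∀ a b : Γ, a * b = b * a := commutative_of_cyclic_center_quotient σ hc
    refine ⟨1, fun z => ⟨1, ?_⟩⟩
    have hz : (z : Γ) ∈ commutator Γ := hd z.2
    have hb : commutator Γ = ⊥ := by
      rw [commutator_def, Subgroup.commutator_eq_bot_iff_le_centralizer]
      exact fun a _ => Subgroup.mem_centralizer_iff.2 fun b _ => hcomm b a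
    rw [hb, Subgroup.mem_bot] at hz
    exact Subtype.ext hz.symm

end Cfsg.Agent.S3979
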