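import Cfsg.Statements.S3980
import Cfsg.Agent.Lib.CoreSchurProduct

set_option autoImplicit false
universe u v w
open Cfsg
open scoped TensorProduct

namespace Cfsg.Agent.S3980

/-- Let `Q₁` and `Q₂` be finite groups whose commutator quotients have coprime orders, with Schur multipliers `A` and `B`. Then the Schur multiplier of `Q₁ × Q₂` is isomorphic to `A × B`. -/
theorem result {Q₁ : Type u} {Q₂ : Type v} [Group Q₁] [Group Q₂] [Finite Q₁] [Finite Q₂] {A B : Type w} [CommGroup A] [CommGroup B] (hA : Cfsg.HasSchurMultiplier Q₁ A) (hB : Cfsg.HasSchurMultiplier Q₂ B) (hcop : Nat.Coprime (Nat.card (Abelianization Q₁)) (Nat.card (Abelianization Q₂))) : Cfsg.HasSchurMultiplier (Q₁ × Q₂) (A × B) := by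
  have h := CfsgLib.Core.Schur.product_multiplier hA hB
  obtain ⟨-, ⟨e⟩⟩ := CfsgLib.Core.Schur.nonempty_equiv_M h
  haveI : Subsingleton (CfsgLib.Core.Schur.Tens Q₁ Q₂) := by
    refine subsingleton_of_forall_eq 0 fun t => ?_
    induction t using TensorProduct.induction_on with
    | zero => rfl
    | add a b ha hb => rw [ha, hb, add_zero]
    | tmul a b =>
      obtain ⟨u, v, huv⟩ := Nat.Coprime.isCoprime hcop
      have h1 : ((Nat.card (Abelianization Q₁) : ℕ) : ℤ) • a = 0 := by
        rw [natCast_zsmul]; exact congrArg Additive.ofMul (pow_card_eq_one' (x := a.toMul))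
      have h2 : ((Nat.card (Abelianization Q₂) : ℕ) : ℤ) • b = 0 := by
        rw [natCast_zsmul]; exact congrArg Additive.ofMul (pow_card_eq_one' (x := b.toMul))
      rw [← one_smul ℤ (a ⊗ₜ[ℤ] b), ← huv, add_smul, mul_smul, mul_smul]
      nth_rw 1 [TensorProduct.smul_tmul' (R := ℤ) ((Nat.card (Abelianization Q₁) : ℕ) : ℤ) a b]
      rw [← TensorProduct.tmul_smul ((Nat.card (Abelianization Q₂) : ℕ) : ℤ), h1, h2, TensorProduct.zero_tmul,
        TensorProduct.tmul_zero, smul_zero, smul_zero, add_zero]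
  haveI : Subsingleton (Multiplicative (CfsgLib.Core.Schur.Tens Q₁ Q₂)) :=
    inferInstanceAs (Subsingleton (CfsgLib.Core.Schur.Tens Q₁ Q₂))
  refine CfsgLib.Core.Schur.hasSchurMultiplier_of_equiv (MulEquiv.trans ?_ e)
  exact
    { toFun := fun p => (p.1, p.2, 1)
      invFun := fun p => (p.1, p.2.1)
      left_inv := fun p => rfl
      right_inv := fun p => Prod.ext rfl (Prod.ext rfl (Subsingleton.elim _ _))
      map_mul' := fun p q => Prod.ext rfl (Prod.ext rfl (Subsingleton.elim _ _)) }

end Cfsg.Agent.S3980
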