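import Cfsg.Statements.S3994
import Cfsg.Agent.Lib.CoreFrobeniusCount

set_option autoImplicit false
open Cfsg

namespace Cfsg.Agent.S3994

open CfsgLib.Core in
/-- For a class function `B` and `D ∣ |G|`, the pairs `(y, z)` with `B y`, `z ∈ C(y)`, `z ^ D = 1`. -/
theorem dvd_sum_centralizer {G : Type*} [Group G] [Fintype G] [DecidableEq G] (B : G → Prop) [DecidablePred B]
    (hB : ∀ x y : G, IsConj x y → B x → B y) {D : ℕ} (hD : D ∣ Nat.card G) :
    D ∣ ∑ y ∈ Finset.univ.filter B, Nat.card {z : Subgroup.centralizer ({y} : Set G) // z ^ D = 1} := by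
  classical
  rw [← Finset.sum_fiberwise_of_maps_to (t := (Finset.univ.filter B).image ConjClasses.mk) (g := ConjClasses.mk)
    (fun y hy => Finset.mem_image_of_mem _ hy)]
  refine Finset.dvd_sum fun c hc => ?_
  obtain ⟨y, hy, rfl⟩ := Finset.mem_image.1 hc
  rw [Finset.mem_filter] at hy
  have hset : ((Finset.univ.filter B).filter
      fun z => ConjClasses.mk z = ConjClasses.mk y) = Finset.univ.filter fun z => IsConj y z := by
    ext z
    simp only [Finset.mem_filter, Finset.mem_univ, true_and, ConjClasses.mk_eq_mk_iff_isConj]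
    exact ⟨fun h => h.2.symm, fun h => ⟨hB y z h hy.2, h.symm⟩⟩
  have hconst : ∀ z, IsConj y z → Nat.card {w : Subgroup.centralizer ({z} : Set G) // w ^ D = 1} =
      Nat.card {w : Subgroup.centralizer ({y} : Set G) // w ^ D = 1} := by
    intro z hz
    obtain ⟨g, rfl⟩ := isConj_iff.1 hz
    refine Nat.card_congr (Equiv.subtypeEquiv ((MulAut.conj g).toEquiv.symm.subtypeEquiv fun w => ?_) fun w => ?_)
    · show w ∈ Subgroup.centralizer {g * y * g⁻¹} ↔ g⁻¹ * w * g ∈ Subgroup.centralizer {y}
      rw [Subgroup.mem_centralizer_singleton_iff, Subgroup.mem_centralizer_singleton_iff]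
      constructor
      · intro h
        calc g⁻¹ * w * g * y = g⁻¹ * (w * (g * y * g⁻¹)) * g := by group
          _ = _ := by rw [h]; group
      · intro h
        calc w * (g * y * g⁻¹) = g * (g⁻¹ * w * g * y) * g⁻¹ := by group
          _ = _ := by rw [h]; group
    · rw [Subtype.ext_iff, Subtype.ext_iff, SubmonoidClass.coe_pow, SubmonoidClass.coe_pow]
      show (w : G) ^ D = 1 ↔ ((MulAut.conj g).symm (w : G)) ^ D = 1
      rw [← map_pow, MulEquiv.map_eq_one_iff]
  rw [hset, Finset.sum_congr rfl (fun z hz => hconst z (Finset.mem_filter.1 hz).2), Finset.sum_const,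
    smul_eq_mul, ← Fintype.card_subtype, ← Nat.card_eq_fintype_card, CfsgLib.Invol.card_isConj_eq_index]
  refine dvd_trans ?_ (mul_dvd_mul_left _ (FrobeniusCount.gcd_dvd_card
    (FrobeniusCount.frobenius _ _ le_rfl) D))
  rw [← Nat.gcd_mul_left]
  refine Nat.dvd_gcd (dvd_mul_left _ _) ?_
  rw [Subgroup.index_mul_card]
  exact hD

/-- Let G be a finite group and n a positive integer. The number of elements of G whose order is divisible by n is either 0 or divisible by the largest divisor of the order of G that is coprime to n. -/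
theorem result {G : Type*} [Group G] [Finite G] (n : ℕ) (hn : 0 < n) :
    Nat.card {g : G // n ∣ orderOf g} = 0 ∨
      (Nat.card G / Nat.gcd (Nat.card G) (n ^ Nat.card G)) ∣ Nat.card {g : G // n ∣ orderOf g} := by
  classical
  haveI := Fintype.ofFinite G
  right
  set N := Nat.card G with hN
  set M := Nat.gcd N (n ^ N) with hM
  have hN0 : 0 < N := Nat.card_pos
  have hMN : M ∣ N := Nat.gcd_dvd_left _ _
  set D := N / M with hD
  have hMD : M * D = N := Nat.mul_div_cancel' hMN
  have hnD : n.Coprime D := by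
    refine Nat.coprime_of_dvd fun q hq hqn hqD => ?_
    haveI := Fact.mk hq
    have h1 : q ^ N.factorization q ∣ M := Nat.dvd_gcd (Nat.ordProj_dvd N q)
      ((pow_dvd_pow_of_dvd hqn _).trans (pow_dvd_pow n (Nat.factorization_lt q hN0.ne').le))
    refine Nat.pow_succ_factorization_not_dvd hN0.ne' hq ?_
    rw [pow_succ]
    exact (mul_dvd_mul h1 hqD).trans (dvd_of_eq hMD)
  have hcop : M.Coprime D := (hnD.pow_left N).coprime_dvd_left (Nat.gcd_dvd_right _ _)
  obtain ⟨a, b, hab⟩ : ∃ a b : ℤ, a * (M : ℤ) + b * (D : ℤ) = 1 := Nat.Coprime.isCoprime hcop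
  let B : G → Prop := fun y => y ^ M = 1 ∧ n ∣ orderOf y
  have hN1 : ∀ (g : G) (i : ℤ), g ^ ((N : ℤ) * i) = 1 := fun g i => by
    rw [zpow_mul, zpow_natCast, hN, pow_card_eq_one', one_zpow]
  let toY : {g : G // n ∣ orderOf g} → {y : G // B y} := fun g => ⟨(g : G) ^ (b * D), by
    rw [← zpow_natCast, ← zpow_mul, show b * (D : ℤ) * M = ((N : ℕ) : ℤ) * b by rw [← hMD]; push_cast; ring, hN1],
    by
    have hz : ((g : G) ^ (a * M)) ^ D = 1 := by
      rw [← zpow_natCast, ← zpow_mul, show a * (M : ℤ) * D = ((N : ℕ) : ℤ) * a by rw [← hMD]; push_cast; ring, hN1]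
    have hy : ((g : G) ^ (b * D)) ^ M = 1 := by
      rw [← zpow_natCast, ← zpow_mul, show b * (D : ℤ) * M = ((N : ℕ) : ℤ) * b by rw [← hMD]; push_cast; ring, hN1]
    have h := g.2
    have hg : (g : G) = (g : G) ^ (b * D) * (g : G) ^ (a * M) := by
      rw [← zpow_add, show b * (D : ℤ) + a * M = 1 by linear_combination hab, zpow_one]
    rw [hg, (((Commute.refl (g : G)).zpow_zpow _ _)).orderOf_mul_eq_mul_orderOf_of_coprime
      ((hcop.coprime_dvd_left (orderOf_dvd_of_pow_eq_one hy)).coprime_dvd_right (orderOf_dvd_of_pow_eq_one hz))] at h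
    exact (hnD.coprime_dvd_right (orderOf_dvd_of_pow_eq_one hz)).dvd_of_dvd_mul_right h⟩
  have hfib : ∀ y : {y : G // B y}, Nat.card {g // toY g = y} =
      Nat.card {z : Subgroup.centralizer ({(y : G)} : Set G) // z ^ D = 1} := by
    intro y
    refine Nat.card_congr
      { toFun := fun x => ⟨⟨(x.1 : G) ^ (a * M), Subgroup.mem_centralizer_singleton_iff.2 (by
            rw [← congrArg Subtype.val x.2]
            exact ((Commute.refl (x.1 : G)).zpow_zpow _ _).eq)⟩, Subtype.ext (by
            rw [SubmonoidClass.coe_pow, ← zpow_natCast, ← zpow_mul,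
              show a * (M : ℤ) * D = ((N : ℕ) : ℤ) * a by rw [← hMD]; push_cast; ring, hN1]
            rfl)⟩
        invFun := fun z => ⟨⟨(y : G) * (z.1 : G), ?_⟩, ?_⟩
        left_inv := fun x => Subtype.ext (Subtype.ext (by
          show (y : G) * (x.1 : G) ^ (a * (M : ℤ)) = (x.1 : G)
          rw [← congrArg Subtype.val x.2]
          show (x.1 : G) ^ (b * (D : ℤ)) * _ = _
          rw [← zpow_add, show b * (D : ℤ) + a * M = 1 by linear_combination hab, zpow_one]))
        right_inv := fun z => Subtype.ext (Subtype.ext ?_) }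
    · have hc : Commute (y : G) (z.1 : G) := (Subgroup.mem_centralizer_singleton_iff.1 z.1.2).symm
      have hz : (z.1 : G) ^ D = 1 := by rw [← SubmonoidClass.coe_pow, z.2]; rfl
      rw [hc.orderOf_mul_eq_mul_orderOf_of_coprime
        ((hcop.coprime_dvd_left (orderOf_dvd_of_pow_eq_one y.2.1)).coprime_dvd_right (orderOf_dvd_of_pow_eq_one hz))]
      exact y.2.2.trans (dvd_mul_right _ _)
    · refine Subtype.ext ?_
      show ((y : G) * (z.1 : G)) ^ (b * (D : ℤ)) = (y : G)
      have hc : Commute (y : G) (z.1 : G) := (Subgroup.mem_centralizer_singleton_iff.1 z.1.2).symm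
      have hz : (z.1 : G) ^ D = 1 := by rw [← SubmonoidClass.coe_pow, z.2]; rfl
      rw [hc.mul_zpow, mul_comm b (D : ℤ), zpow_mul (z.1 : G), zpow_natCast, hz, one_zpow, mul_one,
        show (D : ℤ) * b = (M : ℤ) * (-a) + 1 by linear_combination hab,
        zpow_add, zpow_mul, zpow_natCast, y.2.1, one_zpow, one_mul, zpow_one]
    · show ((y : G) * (z.1 : G)) ^ (a * (M : ℤ)) = (z.1 : G)
      have hc : Commute (y : G) (z.1 : G) := (Subgroup.mem_centralizer_singleton_iff.1 z.1.2).symm
      have hz : (z.1 : G) ^ D = 1 := by rw [← SubmonoidClass.coe_pow, z.2]; rfl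
      rw [hc.mul_zpow, mul_comm a, zpow_mul (y : G), zpow_natCast, y.2.1, one_zpow, one_mul,
        show (M : ℤ) * a = (D : ℤ) * (-b) + 1 by linear_combination hab,
        zpow_add, zpow_mul, zpow_natCast, hz, one_zpow, one_mul, zpow_one]
  rw [← Nat.card_congr (Equiv.sigmaFiberEquiv toY), Nat.card_sigma, Finset.sum_congr rfl (fun y _ => hfib y),
    ← Finset.sum_subtype (Finset.univ.filter B) (p := B) (fun y => by simp)
      (fun y => Nat.card {z : Subgroup.centralizer ({y} : Set G) // z ^ D = 1})]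
  refine dvd_sum_centralizer B (fun x y hxy hx => ?_) (Dvd.intro_left M hMD)
  have ho := CfsgLib.Invol.isConj_orderOf_eq hxy
  exact ⟨orderOf_dvd_iff_pow_eq_one.1 (ho ▸ orderOf_dvd_iff_pow_eq_one.2 hx.1), ho ▸ hx.2⟩

end Cfsg.Agent.S3994
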