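import Cfsg.Statements.S3995
import Cfsg.Agent.Lib.CoreFrobeniusCount
import Cfsg.Agent.Lib.ZStarTwoGroup

set_option autoImplicit false
open Cfsg

namespace Cfsg.Agent.S3995
universe w

/-- A copy of `Fin c` without arithmetic instances. -/
def PT (c : ℕ) : Type := Fin c

variable {G : Type w} [Group G] [Finite G]

/-- The number of elements of order `m`. -/
noncomputable def cnt (G : Type w) [Group G] (m : ℕ) : ℕ := Nat.card {g : G // orderOf g = m}

theorem sum_cnt {m : ℕ} (hm : m ≠ 0) (hdvd : m ∣ Nat.card G) :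
    m ∣ ∑ d ∈ m.divisors, cnt G d := by
  classical
  letI := Fintype.ofFinite G
  have h := CfsgLib.Core.FrobeniusCount.frobenius (Nat.card G) G le_rfl m hdvd
  have e : ∑ d ∈ m.divisors, cnt G d = Nat.card {g : G // g ^ m = 1} := by
    rw [Nat.card_eq_fintype_card, Fintype.card_subtype]
    convert sum_card_orderOf_eq_card_pow_eq_one (G := G) hm using 2 with d
    rw [cnt, Nat.card_eq_fintype_card, Fintype.card_subtype]
  rwa [e]

theorem divisors_sum {a p : ℕ} (hp : p.Prime) (hpa : ¬ p ∣ a) (ha : a ≠ 0) (f : ℕ → ℕ) :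
    ∑ d ∈ (a * p).divisors, f d = ∑ d ∈ a.divisors, f d + ∑ d ∈ a.divisors, f (d * p) := by
  classical
  have e : (a * p).divisors = a.divisors ∪ a.divisors.image (· * p) := by
    ext d
    simp only [Finset.mem_union, Finset.mem_image, Nat.mem_divisors]
    constructor
    · rintro ⟨hd, -⟩
      by_cases hpd : p ∣ d
      · obtain ⟨e, rfl⟩ := hpd
        refine Or.inr ⟨e, ⟨?_, ha⟩, mul_comm _ _⟩
        rw [mul_comm a p] at hd
        exact Nat.dvd_of_mul_dvd_mul_left hp.pos hd
      · exact Or.inl ⟨((hp.coprime_iff_not_dvd.2 hpd).symm).dvd_of_dvd_mul_right hd, ha⟩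
    · rintro (⟨hd, -⟩ | ⟨e, ⟨he, -⟩, rfl⟩)
      · exact ⟨hd.mul_right p, mul_ne_zero ha hp.ne_zero⟩
      · exact ⟨Nat.mul_dvd_mul_right he p, mul_ne_zero ha hp.ne_zero⟩
  rw [e, Finset.sum_union, Finset.sum_image fun x _ y _ h => Nat.eq_of_mul_eq_mul_right hp.pos h]
  rw [Finset.disjoint_left]
  intro d hd hd'
  obtain ⟨e, -, rfl⟩ := Finset.mem_image.1 hd'
  exact hpa ((dvd_mul_left p e).trans (Nat.mem_divisors.1 hd).1)

private theorem main (n : ℕ) (hn : n ≠ 1)
    (h : ((fun m : ℕ => Nat.card {g : G // orderOf g = m}) '' Set.range (orderOf : G → ℕ)) = {1, n}) :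
    (∃ p : ℕ, p.Prime ∧ IsPGroup p G ∧ 3 ≤ Nat.card G ∧ Monoid.exponent G = p) ∨
      Nonempty (G ≃* QuaternionGroup 2) ∨ (IsCyclic G ∧ Nat.card G = 4) ∨
      (∃ (p : ℕ) (P : Type) (_ : Group P) (_ : Finite P), p.Prime ∧ p ≠ 2 ∧ IsPGroup p P ∧
        Monoid.exponent P = p ∧ Nonempty (G ≃* Multiplicative (ZMod 2) × P)) := by
  classical
  letI := Fintype.ofFinite G
  have hval : ∀ x : G, cnt G (orderOf x) = 1 ∨ cnt G (orderOf x) = n := fun x => by
    have : cnt G (orderOf x) ∈ ({1, n} : Set ℕ) := h ▸ ⟨orderOf x, ⟨x, rfl⟩, rfl⟩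
    simpa using this
  -- elements of order at least three come in pairs
  have hfix : ∀ m, 3 ≤ m → 2 ∣ cnt G m := fun m hm => by
    refine CfsgLib.Core.FrobeniusCount.dvd_card_of_zpowers_closed (fun x : G => orderOf x = m) 2
      (fun x y hxy hx => ?_) fun x hx => (hx ▸ Nat.totient_even hm).two_dvd
    rw [← hx, ← Nat.card_zpowers, ← hxy, Nat.card_zpowers]
  have hbig : ∀ x : G, 3 ≤ orderOf x → cnt G (orderOf x) = n := fun x hx => by
    refine (hval x).resolve_left fun h1 => ?_
    have := hfix _ hx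
    omega
  have hzero : ∀ m, (∀ x : G, orderOf x ≠ m) → cnt G m = 0 := fun m hm => by
    haveI : IsEmpty {g : G // orderOf g = m} := ⟨fun g => hm g.1 g.2⟩
    exact Nat.card_of_isEmpty
  have h1 : cnt G 1 = 1 := by
    show Nat.card {g : G // orderOf g = 1} = 1
    rw [Nat.card_eq_one_iff_unique]
    exact ⟨⟨fun a b => Subtype.ext ((orderOf_eq_one_iff.1 a.2).trans
      (orderOf_eq_one_iff.1 b.2).symm)⟩, ⟨⟨1, orderOf_one⟩⟩⟩
  -- an odd prime divisor
  have hodd : ∀ p, p.Prime → p ≠ 2 → p ∣ Nat.card G →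
      cnt G p = n ∧ 2 ∣ n ∧ p ∣ n + 1 ∧ ∀ x : G, ¬ p ^ 2 ∣ orderOf x := by
    intro p hp hp2 hd
    haveI := Fact.mk hp
    obtain ⟨x, hx⟩ := exists_prime_orderOf_dvd_card' (G := G) p hd
    have hp3 : 3 ≤ p := by have := hp.two_le; omega
    have hc : cnt G p = n := hx ▸ hbig x (hx ▸ hp3)
    have hdiv : p ∣ n + 1 := by
      have := sum_cnt (G := G) hp.ne_zero hd
      rwa [hp.divisors, Finset.sum_pair hp.one_lt.ne, h1, hc, add_comm] at this
    refine ⟨hc, hc ▸ hfix p hp3, hdiv, fun y hy => ?_⟩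
    obtain ⟨z, hz⟩ : ∃ z : G, orderOf z = p ^ 2 :=
      ⟨y ^ (orderOf y / p ^ 2), orderOf_pow_orderOf_div (orderOf_pos y).ne' hy⟩
    have hzc := hbig z (hz ▸ (by
      calc 3 ≤ p := hp3
        _ ≤ p ^ 2 := Nat.le_self_pow two_ne_zero p))
    have h2 : p ∣ cnt G (p ^ 2) := by
      refine CfsgLib.Core.FrobeniusCount.dvd_card_of_zpowers_closed (fun x : G => orderOf x = p ^ 2) p
        (fun a b hab ha => ?_) fun a ha => ?_
      · rw [← ha, ← Nat.card_zpowers, ← hab, Nat.card_zpowers]
      · rw [ha, Nat.totient_prime_pow hp (by norm_num)]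
        exact Dvd.intro (p - 1) (by simp)
    rw [← hz, hzc] at h2
    exact hp.not_dvd_one ((Nat.dvd_add_right h2).1 hdiv)
  by_cases hp : ∃ p, p.Prime ∧ p ≠ 2 ∧ p ∣ Nat.card G
  · obtain ⟨p, hp, hp2, hd⟩ := hp
    haveI := Fact.mk hp
    obtain ⟨hcp, hne, hdp, hsq⟩ := hodd p hp hp2 hd
    have hp3 : 3 ≤ p := by have := hp.two_le; omega
    have hq : ∀ q, q.Prime → q ∣ Nat.card G → q = 2 ∨ q = p := by
      intro q hq hdq
      by_contra hcon
      push Not at hcon
      obtain ⟨hcq, -, -, -⟩ := hodd q hq hcon.1 hdq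
      have hcop : ¬ q ∣ p := fun e => hcon.2 ((Nat.prime_dvd_prime_iff_eq hq hp).1 e)
      have hs := sum_cnt (G := G) (mul_ne_zero hp.ne_zero hq.ne_zero)
        (((Nat.coprime_primes hp hq).2 (Ne.symm hcon.2)).mul_dvd_of_dvd_of_dvd hd hdq)
      rw [divisors_sum hq hcop hp.ne_zero, hp.divisors, Finset.sum_pair hp.one_lt.ne,
        Finset.sum_pair hp.one_lt.ne, one_mul, h1, hcp, hcq] at hs
      have hcpq : cnt G (p * q) = 0 ∨ cnt G (p * q) = n := by
        by_cases hex : ∃ x : G, orderOf x = p * q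
        · obtain ⟨x, hx⟩ := hex
          exact Or.inr (hx ▸ hbig x (hx ▸ le_trans hp3 (Nat.le_mul_of_pos_right p hq.pos)))
        · push Not at hex
          exact Or.inl (hzero _ hex)
      have hpd : p ∣ 1 + n + (n + cnt G (p * q)) := (dvd_mul_right p q).trans hs
      rcases hcpq with e | e <;> rw [e] at hpd
      · have h3 : p ∣ n := (Nat.dvd_add_right (hdp.trans (by rw [add_comm]))).1
          (by simpa using hpd)
        exact hp.not_dvd_one ((Nat.dvd_add_right h3).1 hdp)
      · have h3 : p ∣ n + n := (Nat.dvd_add_right (hdp.trans (by rw [add_comm]))).1 hpd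
        rw [← two_mul] at h3
        exact hp.not_dvd_one ((Nat.dvd_add_right (((Nat.coprime_primes hp Nat.prime_two).2
          hp2).dvd_of_dvd_mul_left h3)).1 hdp)
    by_cases h2 : 2 ∣ Nat.card G
    swap
    · left
      have hexp : ∀ x : G, x ^ p = 1 := fun x => by
        refine orderOf_dvd_iff_pow_eq_one.1 ?_
        have hox : ∀ {q : ℕ}, q.Prime → q ∣ orderOf x → q = p := fun hq' hdx =>
          (hq _ hq' (hdx.trans (orderOf_dvd_natCard x))).resolve_left fun e =>
            h2 (e ▸ hdx.trans (orderOf_dvd_natCard x))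
        obtain ⟨k, hk⟩ : ∃ k, orderOf x = p ^ k :=
          ⟨_, Nat.eq_prime_pow_of_unique_prime_dvd (orderOf_pos x).ne' hox⟩
        have hk1 : k ≤ 1 := by
          by_contra hk2
          exact hsq x (hk ▸ pow_dvd_pow p (by omega))
        rw [hk]
        exact (pow_dvd_pow p hk1).trans (pow_one p).dvd
      refine ⟨p, hp, fun x => ⟨1, by rw [pow_one]; exact hexp x⟩,
        le_trans hp3 (Nat.le_of_dvd Nat.card_pos hd), ?_⟩
      refine Nat.dvd_antisymm (Monoid.exponent_dvd_of_forall_pow_eq_one hexp) ?_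
      obtain ⟨x, hx⟩ := exists_prime_orderOf_dvd_card' (G := G) p hd
      exact hx ▸ Monoid.order_dvd_exponent x
    -- a unique involution
    right; right; right
    have hi : cnt G 2 = 1 := by
      haveI : Fact (Nat.Prime 2) := ⟨Nat.prime_two⟩
      obtain ⟨x, hx⟩ := exists_prime_orderOf_dvd_card' (G := G) 2 h2
      have h3 := sum_cnt (G := G) two_ne_zero h2
      rw [Nat.prime_two.divisors, Finset.sum_pair (by norm_num), h1] at h3
      refine (hx ▸ hval x).resolve_right fun e => ?_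
      omega
    obtain ⟨hsub, ⟨⟨t, ht⟩⟩⟩ := Nat.card_eq_one_iff_unique.1 hi
    have htu : ∀ s : G, orderOf s = 2 → s = t := fun s hs =>
      congrArg Subtype.val (@Subsingleton.elim _ hsub ⟨s, hs⟩ ⟨t, ht⟩)
    have htc : ∀ g : G, Commute t g := fun g => by
      have e := htu (g * t * g⁻¹) (by
        rw [← MulAut.conj_apply]; exact (MulEquiv.orderOf_eq (MulAut.conj g) t).trans ht)
      show t * g = g * t
      conv_lhs => rw [← e]
      group
    have hp2' : ¬ p ∣ 2 := fun e => hp2 ((Nat.prime_dvd_prime_iff_eq hp Nat.prime_two).1 e)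
    have hno4 : ∀ x : G, ¬ 4 ∣ orderOf x := by
      intro x hx
      obtain ⟨z, hz⟩ : ∃ z : G, orderOf z = 4 :=
        ⟨x ^ (orderOf x / 4), orderOf_pow_orderOf_div (orderOf_pos x).ne' hx⟩
      have h4 : cnt G 4 = n := hz ▸ hbig z (hz ▸ by norm_num)
      have hp4 : ¬ p ∣ 4 := fun e => hp2' (hp.dvd_of_dvd_pow (show p ∣ 2 ^ 2 from e))
      have hcop : (4 : ℕ).Coprime p := (hp.coprime_iff_not_dvd.2 hp4).symm
      have hs := sum_cnt (G := G) (mul_ne_zero (by norm_num) hp.ne_zero)
        (hcop.mul_dvd_of_dvd_of_dvd (hz ▸ orderOf_dvd_natCard z) hd)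
      have hd4 : (4 : ℕ).divisors = {1, 2, 4} := by decide
      rw [divisors_sum hp hp4 (by norm_num), hd4] at hs
      rw [Finset.sum_insert (by decide), Finset.sum_pair (by norm_num),
        Finset.sum_insert (by decide), Finset.sum_pair (by norm_num), one_mul, h1, hi, h4, hcp] at hs
      have h2p : cnt G (2 * p) = n := by
        obtain ⟨w, hw⟩ := exists_prime_orderOf_dvd_card' (G := G) p hd
        have ho : orderOf (t * w) = 2 * p := by
          rw [(htc w).orderOf_mul_eq_mul_orderOf_of_coprime (by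
            rw [ht, hw]; exact (hp.coprime_iff_not_dvd.2 hp2').symm), ht, hw]
        exact ho ▸ hbig (t * w) (ho ▸ by omega)
      rw [h2p] at hs
      have hpd : p ∣ 1 + (1 + n) + (n + (n + cnt G (4 * p))) := (dvd_mul_left p 4).trans hs
      obtain ⟨c, hc⟩ := hdp
      have h4p : cnt G (4 * p) = 0 ∨ cnt G (4 * p) = n := by
        by_cases hex : ∃ y : G, orderOf y = 4 * p
        · obtain ⟨y, hy⟩ := hex
          exact Or.inr (hy ▸ hbig y (hy ▸ by omega))
        · push Not at hex
          exact Or.inl (hzero _ hex)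
      rcases h4p with e | e <;> rw [e] at hpd
      · have h3 : p ∣ 1 := by
          have hbase : p ∣ 3 * (n + 1) := Dvd.dvd.mul_left ⟨c, hc⟩ 3
          have h5 : 1 + (1 + n) + (n + (n + 0)) + 1 = 3 * (n + 1) := by ring
          exact (Nat.dvd_add_right hpd).1 (h5 ▸ hbase)
        exact hp.not_dvd_one h3
      · have h3 : p ∣ 2 := by
          have hbase : p ∣ 4 * (n + 1) := Dvd.dvd.mul_left ⟨c, hc⟩ 4
          have h5 : 1 + (1 + n) + (n + (n + n)) + 2 = 4 * (n + 1) := by ring
          exact (Nat.dvd_add_right hpd).1 (h5 ▸ hbase)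
        exact hp2' h3
    haveI : Fact (Nat.Prime 2) := ⟨Nat.prime_two⟩
    obtain ⟨S⟩ := (inferInstance : Nonempty (Sylow 2 G))
    have hS2 : Nat.card S = 2 := by
      have hsub' : (S : Subgroup G) ≤ Subgroup.zpowers t := fun s hs => by
        obtain ⟨k, hk⟩ := IsPGroup.iff_orderOf.1 S.2 ⟨s, hs⟩
        rw [Subgroup.orderOf_mk] at hk
        have hk1 : k ≤ 1 := by
          by_contra hk2
          exact hno4 s (hk ▸ (show 4 ∣ 2 ^ k from pow_dvd_pow 2 (show 2 ≤ k by omega)))
        interval_cases k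
        · rw [pow_zero, orderOf_eq_one_iff] at hk
          rw [hk]; exact one_mem _
        · rw [pow_one] at hk
          rw [htu s hk]; exact Subgroup.mem_zpowers t
      have h5 := Subgroup.card_dvd_of_le hsub'
      rw [Nat.card_zpowers, ht] at h5
      rcases (Nat.dvd_prime Nat.prime_two).1 h5 with e | e
      · exact absurd (S.dvd_card_of_dvd_card h2) (by rw [e]; norm_num)
      · exact e
    obtain ⟨P⟩ := (inferInstance : Nonempty (Sylow p G))
    have hPc : Nat.card G = 2 * Nat.card P := by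
      refine Nat.eq_of_factorization_eq Nat.card_pos.ne' (mul_ne_zero two_ne_zero Nat.card_pos.ne')
        fun q => ?_
      rw [Nat.factorization_mul two_ne_zero Nat.card_pos.ne', Finsupp.add_apply]
      by_cases hqd : q.Prime ∧ q ∣ Nat.card G
      · rcases hq q hqd.1 hqd.2 with rfl | rfl
        · rw [Nat.Prime.factorization_self Nat.prime_two, P.card_eq_multiplicity,
            hp.factorization_pow, Finsupp.single_eq_of_ne hp2.symm, add_zero]
          refine Nat.pow_right_injective le_rfl (?_ : (2 : ℕ) ^ _ = 2 ^ 1)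
          rw [← S.card_eq_multiplicity, hS2, pow_one]
        · rw [P.card_eq_multiplicity, hp.factorization_pow, Finsupp.single_eq_same,
            Nat.prime_two.factorization, Finsupp.single_eq_of_ne hp2, zero_add]
      · have hn0 : (Nat.card G).factorization q = 0 := by
          rw [Nat.factorization_eq_zero_iff]
          tauto
        rw [hn0, P.card_eq_multiplicity, hp.factorization_pow, Finsupp.single_apply,
          Nat.prime_two.factorization, Finsupp.single_apply]
        rw [if_neg (fun (e : p = q) => hqd ⟨e ▸ hp, e ▸ hd⟩),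
          if_neg (fun (e : 2 = q) => hqd ⟨e ▸ Nat.prime_two, e ▸ h2⟩)]
        simp
    have hexpP : ∀ x : (P : Subgroup G), x ^ p = 1 := fun x => by
      obtain ⟨k, hk⟩ := IsPGroup.iff_orderOf.1 P.2 x
      refine orderOf_dvd_iff_pow_eq_one.1 ?_
      rw [hk]
      have hk1 : k ≤ 1 := by
        by_contra hk2
        apply hsq (x : G)
        rw [Subgroup.orderOf_coe, hk]
        exact pow_dvd_pow p (by omega)
      exact (pow_dvd_pow p hk1).trans (pow_one p).dvd
    let T := Subgroup.zpowers t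
    let f : T × (P : Subgroup G) →* G :=
      MonoidHom.mk' (fun a => (a.1 : G) * a.2) fun a b => by
        obtain ⟨i, hi⟩ := Subgroup.mem_zpowers_iff.1 b.1.2
        have hc : Commute (b.1 : G) (a.2 : G) := hi ▸ (htc a.2).zpow_left i
        show (a.1 : G) * b.1 * ((a.2 : G) * b.2) = (a.1 : G) * a.2 * ((b.1 : G) * b.2)
        rw [mul_assoc (a.1 : G), ← mul_assoc (b.1 : G), hc.eq]
        group
    have hdis : Disjoint T (P : Subgroup G) := by
      rw [disjoint_iff]
      refine Subgroup.inf_eq_bot_of_coprime ?_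
      rw [Nat.card_zpowers, ht, P.card_eq_multiplicity]
      exact ((hp.coprime_iff_not_dvd.2 hp2').symm.pow_right _)
    have hf : Function.Bijective f :=
      (Nat.bijective_iff_injective_and_card f).2 ⟨Subgroup.mul_injective_of_disjoint hdis, by
        rw [Nat.card_prod, Nat.card_zpowers, ht, hPc]⟩
    let e₀ : PT (Nat.card P) ≃ (P : Subgroup G) := (Finite.equivFin _).symm
    haveI : Finite (PT (Nat.card P)) := Finite.of_equiv _ e₀.symm
    letI : Group (PT (Nat.card P)) := e₀.group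
    let e₁ : PT (Nat.card P) ≃* (P : Subgroup G) := e₀.mulEquiv
    refine ⟨p, PT (Nat.card P), inferInstance, inferInstance, hp, hp2, P.2.of_equiv e₁.symm, ?_,
      ⟨(MulEquiv.ofBijective f hf).symm.trans (MulEquiv.prodCongr
        (mulEquivOfCyclicCardEq (by rw [Nat.card_zpowers, ht]; simp)) e₁.symm)⟩⟩
    rw [Monoid.exponent_eq_of_mulEquiv e₁]
    refine Nat.dvd_antisymm (Monoid.exponent_dvd_of_forall_pow_eq_one hexpP) ?_
    obtain ⟨x, hx⟩ := exists_prime_orderOf_dvd_card' (G := (P : Subgroup G)) p (P.dvd_card_of_dvd_card hd)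
    exact hx.symm.dvd.trans (Monoid.order_dvd_exponent x)
  -- a 2-group
  push Not at hp
  haveI : Fact (Nat.Prime 2) := ⟨Nat.prime_two⟩
  have hG2 : IsPGroup 2 G := IsPGroup.of_card
    (Nat.eq_prime_pow_of_unique_prime_dvd Nat.card_pos.ne' fun {q} hq' hdq => by
      by_contra hne
      exact hp q hq' hne hdq)
  by_cases hb : ∃ x : G, 3 ≤ orderOf x
  swap
  · push Not at hb
    left
    have hexp : ∀ x : G, x ^ 2 = 1 := fun x => by
      refine orderOf_dvd_iff_pow_eq_one.1 ?_
      have := orderOf_pos x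
      have := hb x
      interval_cases (orderOf x)
      · exact one_dvd 2
      · exact dvd_rfl
    obtain ⟨m, ⟨x, rfl⟩, hx⟩ : ∃ m ∈ Set.range (orderOf : G → ℕ), cnt G m = n := by
      have : n ∈ (fun m : ℕ => Nat.card {g : G // orderOf g = m}) '' Set.range (orderOf : G → ℕ) := by
        rw [h]; exact Set.mem_insert_of_mem _ rfl
      exact this
    have hx2 : orderOf x = 2 := by
      rcases (Nat.dvd_prime Nat.prime_two).1 (orderOf_dvd_of_pow_eq_one (hexp x)) with e | e
      · rw [e, h1] at hx; exact absurd hx.symm hn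
      · exact e
    refine ⟨2, Nat.prime_two, hG2, ?_, ?_⟩
    · rw [hx2] at hx
      obtain ⟨k, hk⟩ := IsPGroup.iff_card.1 hG2
      have hle : cnt G 2 + 1 ≤ Nat.card G := by
        rw [cnt, ← Finite.card_option]
        refine Nat.card_le_card_of_injective
          (fun o : Option {g : G // orderOf g = 2} => o.elim 1 Subtype.val) ?_
        rintro (_ | a) (_ | b) hab <;> simp only [Option.elim] at hab
        · rfl
        · exact absurd b.2 (by rw [← hab, orderOf_one]; norm_num)
        · exact absurd a.2 (by rw [hab, orderOf_one]; norm_num)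
        · rw [Subtype.ext hab]
      have hpos : 0 < cnt G 2 := Nat.card_pos_iff.2 ⟨⟨⟨x, hx2⟩⟩, inferInstance⟩
      omega
    · exact Nat.dvd_antisymm (Monoid.exponent_dvd_of_forall_pow_eq_one hexp)
        (hx2 ▸ Monoid.order_dvd_exponent x)
  obtain ⟨x, hx⟩ := hb
  have hne : 2 ∣ n := hbig x hx ▸ hfix _ hx
  obtain ⟨k, hk⟩ := IsPGroup.iff_orderOf.1 hG2 x
  have h4x : 4 ∣ orderOf x := by
    rw [hk] at hx ⊢
    refine (show (4 : ℕ) = 2 ^ 2 from rfl) ▸ pow_dvd_pow 2 ?_
    by_contra hcon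
    have : k = 0 ∨ k = 1 := by omega
    rcases this with rfl | rfl <;> norm_num at hx
  obtain ⟨z, hz⟩ : ∃ z : G, orderOf z = 4 :=
    ⟨x ^ (orderOf x / 4), orderOf_pow_orderOf_div (orderOf_pos x).ne' h4x⟩
  have h4 : cnt G 4 = n := hz ▸ hbig z (hz ▸ by norm_num)
  have h2d : 2 ∣ Nat.card G := (show 2 ∣ 4 by norm_num).trans (hz ▸ orderOf_dvd_natCard z)
  have hi : cnt G 2 = 1 := by
    obtain ⟨y, hy⟩ := exists_prime_orderOf_dvd_card' (G := G) 2 h2d
    have h3 := sum_cnt (G := G) two_ne_zero h2d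
    rw [Nat.prime_two.divisors, Finset.sum_pair (by norm_num), h1] at h3
    refine (hy ▸ hval y).resolve_right fun e => ?_
    omega
  have hno8 : ∀ y : G, ¬ 8 ∣ orderOf y := by
    intro y hy
    obtain ⟨w, hw⟩ : ∃ w : G, orderOf w = 8 :=
      ⟨y ^ (orderOf y / 8), orderOf_pow_orderOf_div (orderOf_pos y).ne' hy⟩
    have h8 : cnt G 8 = n := hw ▸ hbig w (hw ▸ by norm_num)
    have hs := sum_cnt (G := G) (m := 8) (by norm_num) (hw ▸ orderOf_dvd_natCard w)
    rw [show (8 : ℕ).divisors = {1, 2, 4, 8} by decide, Finset.sum_insert (by decide),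
      Finset.sum_insert (by decide), Finset.sum_pair (by norm_num), h1, hi, h4, h8] at hs
    omega
  obtain ⟨hsub, ⟨⟨t, ht⟩⟩⟩ := Nat.card_eq_one_iff_unique.1 hi
  rcases CfsgLib.TwoGroup.cyclic_or_quaternion hG2 (c := t) (fun s hs =>
      congrArg Subtype.val (@Subsingleton.elim _ hsub ⟨s, hs⟩ ⟨t, ht⟩)) with hc | ⟨m, ⟨e⟩⟩
  · refine Or.inr (Or.inr (Or.inl ⟨hc, ?_⟩))
    haveI := hc
    obtain ⟨g, hg⟩ := IsCyclic.exists_generator (α := G)
    have hgc : orderOf g = Nat.card G := orderOf_eq_card_of_forall_mem_zpowers hg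
    obtain ⟨j, hj⟩ := IsPGroup.iff_orderOf.1 hG2 g
    have hj2 : j ≤ 2 := by
      by_contra hcon
      exact hno8 g (hj ▸ (show 8 ∣ 2 ^ j from (show (8 : ℕ) = 2 ^ 3 from rfl) ▸ pow_dvd_pow 2 (by omega)))
    have h44 : 4 ∣ Nat.card G := hz ▸ orderOf_dvd_natCard z
    rw [← hgc, hj] at h44 ⊢
    interval_cases j <;> revert h44 <;> norm_num
  · right; left
    have hm : m = 0 := by
      by_contra hm0
      apply hno8 (e.symm (QuaternionGroup.a 1))
      rw [MulEquiv.orderOf_eq, QuaternionGroup.orderOf_a_one,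
        show 2 * 2 ^ (m + 1) = 8 * 2 ^ (m - 1) by
          obtain ⟨j, rfl⟩ : ∃ j, m = j + 1 := ⟨m - 1, by omega⟩
          rw [Nat.add_sub_cancel, pow_succ, pow_succ]; ring]
      exact dvd_mul_right 8 _
    subst hm
    exact ⟨e⟩


/-- Let G be a finite group such that the numbers of elements of each order that occurs in G (the numbers #{g : o(g) = m}, m ranging over the element orders of G) take exactly two values, 1 and some n ≠ 1. Then either G is a p-group of exponent p and order at least 3 for some prime p, or G is the quaternion group of order 8, or G is cyclic of order 4, or G ≅ Z₂ × P for a p-group P of exponent p with p an odd prime. -/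
theorem result {G : Type*} [Group G] [Finite G] (n : ℕ) (hn : n ≠ 1) (h : ((fun m : ℕ => Nat.card {g : G // orderOf g = m}) '' Set.range (orderOf : G → ℕ)) = {1, n}) :
    (∃ p : ℕ, p.Prime ∧ IsPGroup p G ∧ 3 ≤ Nat.card G ∧ Monoid.exponent G = p) ∨
      Nonempty (G ≃* QuaternionGroup 2) ∨ (IsCyclic G ∧ Nat.card G = 4) ∨
      (∃ (p : ℕ) (P : Type) (_ : Group P) (_ : Finite P), p.Prime ∧ p ≠ 2 ∧ IsPGroup p P ∧ Monoid.exponent P = p ∧
        Nonempty (G ≃* Multiplicative (ZMod 2) × P)) := by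
  exact main n hn h

end Cfsg.Agent.S3995
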