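import Cfsg.Statements.S3997
import Cfsg.Agent.Lib.CoreBasic

set_option autoImplicit false
open Cfsg

namespace Cfsg.Agent.S3997

/-- Let G and H be finite groups with the same order type: for every m they have the same number of elements of order m. If G is nilpotent then so is H. -/
theorem result {G H : Type*} [Group G] [Finite G] [Group H] [Finite H] (hT : (∀ m : ℕ, Nat.card {g : G // orderOf g = m} = Nat.card {h : H // orderOf h = m})) (hG : Group.IsNilpotent G) :
    Group.IsNilpotent H := by
  classical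
  have hfib : ∀ m : ℕ, ∃ e : {g : G // orderOf g = m} ≃ {h : H // orderOf h = m}, True := fun m =>
    ⟨(Finite.equivFinOfCardEq (hT m)).trans (Finite.equivFinOfCardEq rfl).symm, trivial⟩
  choose em _ using hfib
  set e : G ≃ H := (Equiv.sigmaFiberEquiv orderOf).symm.trans
    ((Equiv.sigmaCongrRight em).trans (Equiv.sigmaFiberEquiv orderOf)) with he
  have hoe : ∀ g, orderOf (e g) = orderOf g := fun g => (em (orderOf g) ⟨g, rfl⟩).2
  have hcard : Nat.card G = Nat.card H := Nat.card_congr e
  haveI := hG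
  have hiff : Group.IsNilpotent H ↔ ∀ (p : ℕ) (_ : Fact p.Prime) (P : Sylow p H), (P : Subgroup H).Normal :=
    (Group.isNilpotent_of_finite_tfae (G := H)).out 0 3
  refine hiff.2 fun p _ P => ?_
  obtain ⟨Q⟩ : Nonempty (Sylow p G) := inferInstance
  haveI := Sylow.unique_of_normal Q inferInstance
  have hsame : Nat.card (Q : Subgroup G) = Nat.card (P : Subgroup H) := by
    rw [Sylow.card_eq_multiplicity, Sylow.card_eq_multiplicity, hcard]
  -- every `p`-element of `H` lies in `P`
  have hmem : ∀ x : H, (∃ a, orderOf x = p ^ a) → x ∈ (P : Subgroup H) := by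
    let S : Set H := {x | ∃ a, orderOf x = p ^ a}
    have hPS : ((P : Subgroup H) : Set H) ⊆ S := fun x hx => by
      obtain ⟨a, ha⟩ := IsPGroup.iff_orderOf.1 P.2 ⟨x, hx⟩
      exact ⟨a, by rwa [Subgroup.orderOf_mk] at ha⟩
    have hle : Nat.card S ≤ Nat.card (Q : Subgroup G) := by
      refine Nat.card_le_card_of_injective (fun x : S => (⟨e.symm x, ?_⟩ : (Q : Subgroup G))) fun x y h => ?_
      · obtain ⟨a, ha⟩ := x.2
        obtain ⟨Q', hQ'⟩ := (IsPGroup.of_card (n := a) (by
          rw [Nat.card_zpowers, ← hoe, Equiv.apply_symm_apply, ha]) :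
          IsPGroup p (Subgroup.zpowers (e.symm (x : H)))).exists_le_sylow
        obtain rfl : Q' = Q := Subsingleton.elim _ _
        exact hQ' (Subgroup.mem_zpowers _)
      · exact Subtype.ext (e.symm.injective (congrArg Subtype.val h))
    intro x hx
    have heq : ((P : Subgroup H) : Set H) = S := Set.eq_of_subset_of_ncard_le hPS (by
      rw [← Nat.card_coe_set_eq, ← Nat.card_coe_set_eq]
      exact hle.trans hsame.le) (Set.toFinite _)
    exact (heq ▸ hx : x ∈ ((P : Subgroup H) : Set H))
  refine ⟨fun x hx g => hmem _ ?_⟩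
  obtain ⟨a, ha⟩ := IsPGroup.iff_orderOf.1 P.2 ⟨x, hx⟩
  exact ⟨a, by rw [show g * x * g⁻¹ = MulAut.conj g x from rfl, MulEquiv.orderOf_eq]; rwa [Subgroup.orderOf_mk] at ha⟩

end Cfsg.Agent.S3997
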