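import Cfsg.Statements.S3998
import Cfsg.Agent.Lib.CoreOrderTypeFrob
import Cfsg.Agent.Lib.CoreSuperTower

set_option autoImplicit false
open Cfsg

namespace Cfsg.Agent.S3998

/-- Let G and H be finite groups with the same order type (for every m the same number of elements of order m). If G is supersolvable then H is solvable. -/
theorem result {G H : Type*} [Group G] [Finite G] [Group H] [Finite H] (hT : (∀ m : ℕ, Nat.card {g : G // orderOf g = m} = Nat.card {h : H // orderOf h = m})) (hG : Cfsg.IsSupersolvable G) :
    Group.IsSolvable H := by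
  obtain ⟨e, he⟩ := CfsgLib.Core.exists_orderOf_equiv hT
  obtain ⟨M, hMn, hMs, hM⟩ := CfsgLib.Core.exists_solvable_upper 2 le_rfl
    (fun t _ => CfsgLib.Core.exists_upper_hall_of_supersolvable t _ G rfl hG) e he
  have htop : M = ⊤ := by
    refine Subgroup.index_eq_one.1 ?_
    by_contra h1
    obtain ⟨p, hp, hpd⟩ := Nat.exists_prime_and_dvd h1
    exact absurd (hM p hp hpd) (not_lt.2 hp.two_le)
  subst htop
  haveI := hMs
  exact Group.isSolvable_of_surjective (f := (⊤ : Subgroup H).subtype) fun x => ⟨⟨x, trivial⟩, rfl⟩

end Cfsg.Agent.S3998
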