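import Cfsg.Statements.S3999
import Cfsg.Agent.Lib.CoreOrderTypeFrob
import Cfsg.Agent.Lib.CoreFrobenius
import Cfsg.Agent.S0042

set_option autoImplicit false
open Cfsg
open scoped Pointwise

namespace Cfsg.Agent.S3999

/-- Let F be a finite Frobenius group (it has a Frobenius complement) and G a finite group with the same order type as F (for every m the same number of elements of order m). Then G is a Frobenius group; moreover G is solvable if and only if F is. -/
theorem result {F G : Type*} [Group F] [Finite F] [Group G] [Finite G] (hF : (∃ C : Subgroup F, Cfsg.IsFrobeniusComplement C)) (hT : (∀ m : ℕ, Nat.card {g : F // orderOf g = m} = Nat.card {h : G // orderOf h = m})) :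
    (∃ C : Subgroup G, Cfsg.IsFrobeniusComplement C) ∧ (Group.IsSolvable G ↔ Group.IsSolvable F) := by
  classical
  obtain ⟨e, he⟩ := CfsgLib.Core.exists_orderOf_equiv hT
  have hcardFG : Nat.card F = Nat.card G := Nat.card_congr e
  obtain ⟨C, hC⟩ := hF
  obtain ⟨K, hKn, hKset, hKC, hKC', hKcard⟩ := CfsgLib.Core.exists_kernel hC
  haveI := hKn
  have hcop : (Nat.card K).Coprime (Nat.card C) := by
    rw [hKcard]; exact (CfsgLib.Core.coprime_card_index hC).symm
  have hcompl : Subgroup.IsComplement' K C :=
    Subgroup.isComplement'_of_coprime (by rw [hKcard, mul_comm]; exact C.card_mul_index) hcop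
  have hKi : K.index = Nat.card C := by
    have h1 := K.card_mul_index
    rw [← C.card_mul_index, ← hKcard, mul_comm (Nat.card C)] at h1
    exact Nat.eq_of_mul_eq_mul_left Nat.card_pos h1
  have hcK : (Nat.card K).Coprime K.index := by rw [hKi]; exact hcop
  have hKne : K ≠ ⊥ := by
    intro h
    rw [h, Subgroup.card_bot] at hKcard
    exact hC.2.1 (Subgroup.index_eq_one.1 hKcard.symm)
  have hfreeF : ∀ x v : F, x ∉ K → v ∈ K → Commute x v → v = 1 := by
    intro x v hx hv hxv
    have hxn : ¬ (x = 1 ∨ ∀ g : F, x ∉ MulAut.conj g • C) := fun h => hx (by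
      rw [← SetLike.mem_coe, hKset]; exact h)
    push Not at hxn
    obtain ⟨hx1, g, hg⟩ := hxn
    rw [CfsgLib.Core.mem_conj_smul] at hg
    have h1 : g⁻¹ * v * g = 1 := by
      refine CfsgLib.Core.eq_one_of_commute_kernel hC hKC hg (fun h => hx1 ?_) ?_ ?_
      · calc x = g * (g⁻¹ * x * g) * g⁻¹ := by group
          _ = 1 := by rw [h]; group
      · simpa using hKn.conj_mem v hv g⁻¹
      · calc g⁻¹ * x * g * (g⁻¹ * v * g) = g⁻¹ * (x * v) * g := by group
          _ = g⁻¹ * (v * x) * g := by rw [hxv.eq]
          _ = g⁻¹ * v * g * (g⁻¹ * x * g) := by group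
    calc v = g * (g⁻¹ * v * g) * g⁻¹ := by group
      _ = 1 := by rw [h1]; group
  obtain ⟨N0, hN0set, hN0n, hN0nil⟩ := Cfsg.Agent.S0042.result C hC
  have hKnil : Group.IsNilpotent K := by
    have : N0 = K := SetLike.coe_injective (hN0set.trans hKset.symm)
    exact this ▸ hN0nil
  -- the kernel of `G`
  have hstep : ∀ s : Finset ℕ, s ⊆ (Nat.card K).primeFactors → ∃ N : Subgroup G, N.Normal ∧
      N ≤ Cfsg.fittingSubgroup G ∧
      Nat.card N = ∏ r ∈ s, r ^ (Nat.card K).factorization r := by
    intro s
    induction s using Finset.induction_on with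
    | empty => exact fun _ => ⟨⊥, inferInstance, bot_le, by simp⟩
    | insert r s hrs ih =>
      intro hsub
      obtain ⟨N, hNn, hNF, hNc⟩ := ih ((Finset.subset_insert _ _).trans hsub)
      obtain ⟨hr, hrK, -⟩ := Nat.mem_primeFactors.1 (hsub (Finset.mem_insert_self r s))
      haveI := Fact.mk hr
      haveI := hNn
      obtain ⟨P⟩ : Nonempty (Sylow r K) := inferInstance
      haveI hPn : (P : Subgroup K).Normal :=
        (CfsgLib.Core.isNilpotent_iff_sylow_normal.1 hKnil) r inferInstance P
      haveI hPc := P.characteristic_of_normal inferInstance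
      set PF := (P : Subgroup K).map K.subtype with hPF
      haveI : PF.Normal := CfsgLib.Core.map_subtype_normal_of_characteristic hKn hPc
      have hPFc : Nat.card PF = r ^ (Nat.card K).factorization r := by
        rw [hPF, Subgroup.card_subtype, Sylow.card_eq_multiplicity]
      have hfac : (Nat.card F).factorization r = (Nat.card K).factorization r := by
        rw [← K.card_mul_index, Nat.factorization_mul Nat.card_pos.ne' Subgroup.index_ne_zero_of_finite,
          Finsupp.add_apply, Nat.factorization_eq_zero_of_not_dvd (n := K.index) (fun h =>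
            hr.ne_one (Nat.eq_one_of_dvd_coprimes hcK hrK h)), add_zero]
      have hPFcop : (Nat.card PF).Coprime PF.index := by
        rw [hPFc]
        refine Nat.Coprime.pow_left _ (hr.coprime_iff_not_dvd.2 fun hd => ?_)
        have h1 := PF.card_mul_index
        rw [hPFc, ← hfac] at h1
        have h2 : r ^ ((Nat.card F).factorization r + 1) ∣ Nat.card F := by
          rw [pow_succ]
          exact (Nat.mul_dvd_mul_left _ hd).trans (dvd_of_eq h1)
        exact Nat.pow_succ_factorization_not_dvd Nat.card_pos.ne' hr h2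
      obtain ⟨R⟩ : Nonempty (Sylow r G) := inferInstance
      have hRc : Nat.card (R : Subgroup G) = Nat.card PF := by
        rw [Sylow.card_eq_multiplicity, hPFc, ← hfac, hcardFG]
      have hcnt : Nat.card {x : G // orderOf x ∣ Nat.card PF} = Nat.card PF := by
        rw [← Nat.card_congr (e.subtypeEquiv (p := fun x => orderOf x ∣ Nat.card PF)
          (q := fun x => orderOf x ∣ Nat.card PF) fun x => by rw [he])]
        exact CfsgLib.Core.card_orderOf_dvd hPFcop
      haveI hRn : (R : Subgroup G).Normal := (CfsgLib.Core.normal_of_card_orderOf_dvd hRc hcnt).1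
      refine ⟨(R : Subgroup G) ⊔ N, inferInstance, sup_le ?_ hNF, ?_⟩
      · exact (CfsgLib.Core.le_pCore hRn R.isPGroup').trans (CfsgLib.Core.pCore_le_fittingSubgroup r)
      · have hco : (Nat.card (R : Subgroup G)).Coprime (Nat.card N) := by
          rw [hRc, hPFc, hNc]
          refine Nat.Coprime.prod_right fun q hq => Nat.Coprime.pow _ _ ?_
          exact (Nat.coprime_primes hr (Nat.prime_of_mem_primeFactors (hsub (Finset.mem_insert_of_mem hq)))).2
            fun h => hrs (h ▸ hq)
        rw [CfsgLib.Core.card_sup_of_disjoint (CfsgLib.Core.le_normalizer_normal _)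
          (CfsgLib.Core.inf_eq_bot_of_coprime hco), Finset.prod_insert hrs, hRc, hPFc, hNc]
  obtain ⟨K', hK'n, hK'F, hK'c0⟩ := hstep _ subset_rfl
  have hK'c : Nat.card K' = Nat.card K := by
    rw [hK'c0]
    exact Nat.prod_factorization_pow_eq_self (n := Nat.card K) Nat.card_pos.ne'
  haveI := hK'n
  have hK'i : K'.index = K.index := by
    have h1 := K'.card_mul_index
    rw [hK'c, ← hcardFG, ← K.card_mul_index] at h1
    exact Nat.eq_of_mul_eq_mul_left Nat.card_pos h1
  have hcK' : (Nat.card K').Coprime K'.index := by rw [hK'c, hK'i]; exact hcK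
  have hfreeG : ∀ x v : G, x ∉ K' → v ∈ K' → Commute x v → v = 1 := fun x v =>
    CfsgLib.Core.free_of_no_mixed hcK' fun a q ha haK hq hqi g hg =>
      CfsgLib.Core.no_mixed_of_free hcK hfreeF a q ha (hK'c ▸ haK) hq (hK'i ▸ hqi) (e.symm g)
        (by rw [← he, e.apply_symm_apply]; exact hg)
  obtain ⟨C', hc'⟩ := Subgroup.exists_right_complement'_of_coprime hcK'
  have hd' : K' ⊓ C' = ⊥ := disjoint_iff.1 hc'.disjoint
  have hC'c : Nat.card C' = Nat.card C := by
    have h1 := hc'.card_mul
    rw [← hcardFG, ← hcompl.card_mul, hK'c] at h1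
    exact Nat.eq_of_mul_eq_mul_left Nat.card_pos h1
  have hK'ne : K' ≠ ⊥ := fun h => hKne (Subgroup.eq_bot_of_card_eq _ (by
    rw [← hK'c, h, Subgroup.card_bot]))
  have hC'ne : C' ≠ ⊥ := fun h => hC.1 (Subgroup.eq_bot_of_card_eq _ (by
    rw [← hC'c, h, Subgroup.card_bot]))
  refine ⟨⟨C', CfsgLib.Core.isFrobeniusComplement_of_fpf hc' hK'ne hC'ne fun h hh h1 k hk hhk =>
    hfreeG h k (fun hK => h1 (Subgroup.mem_bot.1 (hd' ▸ ⟨hK, hh⟩))) hk hhk⟩, ?_⟩
  have hT' : ∀ m : ℕ, Nat.card {c : C // orderOf c = m} = Nat.card {c : C' // orderOf c = m} := by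
    intro m
    rcases eq_or_ne m 1 with rfl | hm1
    · simp only [orderOf_eq_one_iff]
      rw [Nat.card_unique, Nat.card_unique]
    by_cases hmd : m ∣ Nat.card C
    · have hm : 1 < m := by
        have : m ≠ 0 := by
          rintro rfl
          exact Nat.card_pos.ne' (Nat.eq_zero_of_zero_dvd hmd)
        omega
      have h1 := CfsgLib.Core.card_orderOf_complement hcompl hcop hfreeF hm hmd
      have h2 := CfsgLib.Core.card_orderOf_complement hc' (by rw [hK'c, hC'c]; exact hcop) hfreeG hm
        (hC'c ▸ hmd)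
      rw [hT m, h2, hK'c] at h1
      exact Nat.eq_of_mul_eq_mul_left Nat.card_pos h1.symm
    · haveI : IsEmpty {c : C // orderOf c = m} := ⟨fun c => hmd (c.2 ▸ orderOf_dvd_natCard _)⟩
      haveI : IsEmpty {c : C' // orderOf c = m} :=
        ⟨fun c => hmd (hC'c ▸ c.2 ▸ orderOf_dvd_natCard _)⟩
      rw [Nat.card_of_isEmpty, Nat.card_of_isEmpty]
  obtain ⟨f, hf⟩ := CfsgLib.Core.exists_orderOf_equiv hT'
  haveI hK'nil : Group.IsNilpotent K' := by
    haveI := CfsgLib.Core.isNilpotent_fittingSubgroup (G := G)
    exact Group.nilpotent_of_mulEquiv (Subgroup.subgroupOfEquivOfLe hK'F)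
  haveI := hKnil
  have extF : Group.IsSolvable C → Group.IsSolvable F := fun h => by
    haveI := h
    haveI : Group.IsSolvable (F ⧸ K) :=
      Group.isSolvable_of_surjective (f := (hcompl.symm.QuotientMulEquiv).symm.toMonoidHom)
        (hcompl.symm.QuotientMulEquiv).symm.surjective
    exact Group.isSolvable_of_ker_le_range K.subtype (QuotientGroup.mk' K) (by simp)
  have extG : Group.IsSolvable C' → Group.IsSolvable G := fun h => by
    haveI := h
    haveI : Group.IsSolvable (G ⧸ K') :=
      Group.isSolvable_of_surjective (f := (hc'.symm.QuotientMulEquiv).symm.toMonoidHom)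
        (hc'.symm.QuotientMulEquiv).symm.surjective
    exact Group.isSolvable_of_ker_le_range K'.subtype (QuotientGroup.mk' K') (by simp)
  constructor
  · intro hG
    haveI := hG
    haveI : Group.IsSolvable C' := inferInstance
    exact extF (CfsgLib.Core.isSolvable_of_orderType (CfsgLib.Core.sylSmall_of_free hd' hK'ne hfreeG)
      f.symm fun x => by rw [← hf, f.apply_symm_apply])
  · intro hF'
    haveI := hF'
    haveI : Group.IsSolvable C := inferInstance
    exact extG (CfsgLib.Core.isSolvable_of_orderType (CfsgLib.Core.sylSmall_of_free hKC hKne hfreeF) f hf)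

end Cfsg.Agent.S3999
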