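import Cfsg.Statements.S4001
import Cfsg.Agent.Lib.CorePrimeGraphSolvable
import Cfsg.Agent.S0042

set_option autoImplicit false
open Cfsg

namespace Cfsg.Agent.S4001
open CfsgLib.Core
open scoped Pointwise commutatorElement
universe w

variable {X : Type w} [Group X] [Finite X]

theorem frob_facts {N C : Subgroup X} [N.Normal] (hC : Cfsg.IsFrobeniusComplement C)
    (hk : Cfsg.frobeniusKernel C = (N : Set X)) :
    Subgroup.IsComplement' N C ∧ Group.IsNilpotent N ∧ (Nat.card N).Coprime (Nat.card C) ∧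
      N.index = Nat.card C ∧
      (∀ c ∈ C, c ≠ 1 → ∀ k ∈ N, c * k = k * c → k = 1) ∧
      (∀ k ∈ N, k ≠ 1 → ∀ x : X, x * k = k * x → x ∈ N) := by
  obtain ⟨K', -, hK', hd, hsup, hcard⟩ := exists_kernel hC
  obtain rfl : K' = N := SetLike.coe_injective (hK'.trans hk)
  obtain ⟨N₂, hN₂, -, hnil⟩ := Cfsg.Agent.S0042.result C hC
  obtain rfl : N₂ = K' := SetLike.coe_injective (hN₂.trans hk)
  have hcompl : Subgroup.IsComplement' N₂ C :=
    Subgroup.isComplement'_of_card_mul_and_disjoint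
      (by rw [hcard, mul_comm, C.card_mul_index]) (disjoint_iff.2 hd)
  refine ⟨hcompl, hnil, ?_, hcompl.symm.index_eq_card, fun c hc hc1 k hk' h =>
    eq_one_of_commute_kernel hC hd hc hc1 hk' h, fun k hk' hk1 x hx => ?_⟩
  · rw [hcard, Nat.coprime_comm]
    exact coprime_card_index hC
  · by_contra hxN
    have hxk : x ∉ Cfsg.frobeniusKernel C := by rw [hk]; exact hxN
    obtain ⟨hx1, g, hg⟩ : x ≠ 1 ∧ ∃ g : X, x ∈ MulAut.conj g • C := by
      simpa [Cfsg.frobeniusKernel] using hxk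
    rw [CfsgLib.Core.mem_conj_smul] at hg
    have hk'' : g⁻¹ * k * g ∈ N₂ := by
      simpa using ‹N₂.Normal›.conj_mem k hk' g⁻¹
    have h1 := eq_one_of_commute_kernel hC hd hg (fun e => hx1 (by
      calc x = g * (g⁻¹ * x * g) * g⁻¹ := by group
        _ = 1 := by rw [e]; group)) hk'' (by
      calc g⁻¹ * x * g * (g⁻¹ * k * g) = g⁻¹ * (x * k) * g := by group
        _ = g⁻¹ * (k * x) * g := by rw [hx]
        _ = _ := by group)
    exact hk1 (by
      calc k = g * (g⁻¹ * k * g) * g⁻¹ := by group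
        _ = 1 := by rw [h1]; group)

/-- A nilpotent group has elements of order `p * q`. -/
theorem exists_orderOf_mul [Group.IsNilpotent X] {p q : ℕ} (hp : p.Prime) (hq : q.Prime)
    (hne : p ≠ q) (hpd : p ∣ Nat.card X) (hqd : q ∣ Nat.card X) :
    ∃ g : X, orderOf g = p * q := by
  haveI := Fact.mk hp
  haveI := Fact.mk hq
  have hnorm := isNilpotent_iff_sylow_normal.1 (inferInstance : Group.IsNilpotent X)
  obtain ⟨P⟩ := (inferInstance : Nonempty (Sylow p X))
  obtain ⟨Q⟩ := (inferInstance : Nonempty (Sylow q X))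
  obtain ⟨x, hx⟩ :=
    exists_prime_orderOf_dvd_card' (G := (P : Subgroup X)) p (P.dvd_card_of_dvd_card hpd)
  obtain ⟨y, hy⟩ :=
    exists_prime_orderOf_dvd_card' (G := (Q : Subgroup X)) q (Q.dvd_card_of_dvd_card hqd)
  rw [← Subgroup.orderOf_coe] at hx hy
  have hc : Commute (x : X) y :=
    Subgroup.commute_of_normal_of_disjoint _ _ (hnorm p inferInstance P) (hnorm q inferInstance Q)
      (IsPGroup.disjoint_of_ne p q hne _ _ P.2 Q.2) x y x.2 y.2
  refine ⟨x * y, ?_⟩
  rw [hc.orderOf_mul_eq_mul_orderOf_of_coprime, hx, hy]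
  rw [hx, hy]
  exact (Nat.coprime_primes hp hq).2 hne

/-- The cyclic odd layer. -/
theorem odd_cyclic {Y : Type w} [Group Y] [Finite Y] {N C : Subgroup X} [N.Normal] (hN : N ≠ ⊥)
    [Group.IsNilpotent C] (hfree : ∀ c ∈ C, c ≠ 1 → ∀ k ∈ N, c * k = k * c → k = 1)
    {F : Subgroup Y} [hF : F.Normal] (π : C →* F) (hπ : Function.Bijective π)
    {d : Y} (hd : ∀ y ∈ F, d * y = y * d → y = 1) :
    ¬ 2 ∣ Nat.card F ∧ IsCyclic F := by
  haveI : Fact (Nat.Prime 2) := ⟨Nat.prime_two⟩
  have hsyl : ∀ (q : ℕ) [Fact q.Prime] (Q : Sylow q C), IsCyclic Q ∨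
      (q = 2 ∧ ∃ n : ℕ, Nonempty (Q ≃* QuaternionGroup (2 ^ n))) := by
    intro q _ Q
    have he := (Q : Subgroup C).equivMapOfInjective C.subtype C.subtype_injective
    rcases cyclic_or_quaternion_of_fpf (Q.2.map C.subtype) (le_normalizer_normal _) hN
      (fun c hc hc1 k hk hck => hfree c (Subgroup.map_subtype_le _ hc) hc1 k hk hck) with
      h1 | ⟨h2, n, ⟨e⟩⟩
    · exact Or.inl (he.isCyclic.2 h1)
    · exact Or.inr ⟨h2, n, ⟨he.trans e⟩⟩
  have hinv : ∀ s t : C, orderOf s = 2 → orderOf t = 2 → s = t := by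
    intro s t hs ht
    obtain ⟨Q⟩ := (inferInstance : Nonempty (Sylow 2 C))
    haveI : (Q : Subgroup C).Normal := isNilpotent_iff_sylow_normal.1 inferInstance 2 inferInstance Q
    have hmem : ∀ r : C, orderOf r = 2 → r ∈ (Q : Subgroup C) := fun r hr => by
      obtain ⟨R, hR⟩ := IsPGroup.exists_le_sylow (G := C)
        (IsPGroup.of_card (n := 1) (by rw [Nat.card_zpowers, hr, pow_one]) :
          IsPGroup 2 (Subgroup.zpowers r))
      haveI := Sylow.unique_of_normal Q inferInstance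
      have e : R = Q := Subsingleton.elim _ _
      exact e ▸ hR (Subgroup.mem_zpowers r)
    have hs' : orderOf (⟨s, hmem s hs⟩ : Q) = 2 := by rw [Subgroup.orderOf_mk]; exact hs
    have ht' : orderOf (⟨t, hmem t ht⟩ : Q) = 2 := by rw [Subgroup.orderOf_mk]; exact ht
    rcases hsyl 2 Q with hc | ⟨-, n, ⟨e⟩⟩
    · exact congrArg Subtype.val (CfsgLib.DStarCI.involution_unique hs' ht')
    · refine (congrArg Subtype.val (e.injective (a₁ := ⟨s, hmem s hs⟩) (a₂ := ⟨t, hmem t ht⟩) ?_) :)
      rw [CfsgLib.ZStar.quat_unique_involution (e ⟨s, hmem s hs⟩) (by rw [MulEquiv.orderOf_eq, hs']),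
        CfsgLib.ZStar.quat_unique_involution (e ⟨t, hmem t ht⟩) (by rw [MulEquiv.orderOf_eq, ht'])]
  have hcard : Nat.card C = Nat.card F := Nat.card_eq_of_bijective π hπ
  have hodd : ¬ 2 ∣ Nat.card F := by
    intro h2
    obtain ⟨s, hs⟩ := exists_prime_orderOf_dvd_card' (G := F) 2 h2
    set t : F := ⟨d * s * d⁻¹, hF.conj_mem s s.2 d⟩ with ht
    have hto : orderOf t = 2 := by
      rw [← Subgroup.orderOf_coe, ht]
      show orderOf (MulAut.conj d (s : Y)) = 2
      rw [MulEquiv.orderOf_eq, Subgroup.orderOf_coe, hs]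
    obtain ⟨s', rfl⟩ := hπ.2 s
    obtain ⟨t', ht'⟩ := hπ.2 t
    have e : s' = t' := hinv s' t' (by rw [← orderOf_injective π hπ.1, hs])
      (by rw [← orderOf_injective π hπ.1, ht', hto])
    have e2 : (π s' : Y) = d * π s' * d⁻¹ := by
      conv_lhs => rw [e, ht']
    have h3 : (π s' : Y) = 1 := hd _ (π s').2 (by
      conv_rhs => rw [e2]
      group)
    rw [← Subgroup.orderOf_coe, h3, orderOf_one] at hs
    exact absurd hs (by norm_num)
  refine ⟨hodd, ?_⟩
  haveI : IsZGroup C := ⟨fun q hq Q => by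
    haveI := Fact.mk hq
    rcases hsyl q Q with hc | ⟨rfl, n, ⟨e⟩⟩
    · exact hc
    · exfalso
      refine hodd (hcard ▸ ?_)
      refine dvd_trans ?_ ((Q : Subgroup C).card_subgroup_dvd_card)
      rw [Nat.card_congr e.toEquiv, Nat.card_eq_fintype_card, QuaternionGroup.card]
      exact Dvd.dvd.mul_right (by norm_num) _⟩
  exact (MulEquiv.ofBijective π hπ).isCyclic.1 inferInstance

private theorem main {G : Type w} [Group G] [Finite G] (H K : Subgroup G) [H.Normal] [K.Normal]
    (hlt : H < K)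
    (hK : ∃ C : Subgroup ↥K, Cfsg.IsFrobeniusComplement C ∧
      Cfsg.frobeniusKernel C = (H.subgroupOf K : Set ↥K))
    (hGH : ∃ C : Subgroup (G ⧸ H), Cfsg.IsFrobeniusComplement C ∧
      Cfsg.frobeniusKernel C = (K.map (QuotientGroup.mk' H) : Set (G ⧸ H))) :
    Group.IsSolvable G ∧ Odd (Nat.card (↥K ⧸ H.subgroupOf K)) ∧
      Nat.Coprime (Nat.card (↥K ⧸ H.subgroupOf K)) (Nat.card ↥H * Nat.card (G ⧸ K)) ∧
      IsCyclic (G ⧸ K) ∧
      ∀ p q : ℕ, p.Prime → q.Prime → p ≠ q → p ∣ Nat.card G → q ∣ Nat.card G →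
        ((∃ g : G, orderOf g = p * q) ↔
          (p ∣ Nat.card (↥K ⧸ H.subgroupOf K) ↔ q ∣ Nat.card (↥K ⧸ H.subgroupOf K))) := by
  classical
  obtain ⟨C, hC, hCk⟩ := hK
  obtain ⟨D, hD, hDk⟩ := hGH
  set f := QuotientGroup.mk' H with hf
  set F := K.map f with hFdef
  have hfs : Function.Surjective f := QuotientGroup.mk'_surjective H
  haveI hFn : F.Normal := Subgroup.Normal.map inferInstance f hfs
  obtain ⟨hc1, hnil1, hcop1, hidx1, hfree1, hker1⟩ := frob_facts hC hCk
  obtain ⟨hc2, hnil2, hcop2, hidx2, hfree2, hker2⟩ := frob_facts hD hDk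
  have hHK : H ≤ K := hlt.le
  haveI : Group.IsNilpotent H := Group.nilpotent_of_mulEquiv (Subgroup.subgroupOfEquivOfLe hHK)
  have hrel : H.relIndex K = Nat.card F := by
    have h2 := Subgroup.relIndex_ker (f := f) (K := K)
    rwa [QuotientGroup.ker_mk'] at h2
  have hQc : Nat.card (↥K ⧸ H.subgroupOf K) = Nat.card F := by
    rw [← Subgroup.index_eq_card, ← Subgroup.relIndex, hrel]
  have hCF : Nat.card C = Nat.card F := by rw [← hidx1, ← hQc, Subgroup.index_eq_card]
  have hHF : (Nat.card H).Coprime (Nat.card F) := by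
    rwa [← hCF, ← CfsgLib.Core.card_subgroupOf_of_le hHK]
  have hGK : Nat.card (G ⧸ K) = Nat.card D := by
    rw [← Subgroup.index_eq_card, ← hidx2, hFdef, Subgroup.index_map, MonoidHom.range_eq_top.2 hfs,
      Subgroup.index_top, mul_one, QuotientGroup.ker_mk', sup_eq_left.2 hHK]
  have hGcard : Nat.card G = Nat.card H * Nat.card F * Nat.card D := by
    rw [← hGK, ← Subgroup.index_eq_card, ← K.card_mul_index, ← card_mul_relIndex hHK, hrel]
  have hH0 : H.subgroupOf K ≠ ⊥ := fun e => by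
    rw [e] at hc1
    exact hC.2.1 (Subgroup.isComplement'_bot_left.1 hc1)
  have hF0 : F ≠ ⊥ := fun e => by
    rw [e] at hc2
    exact hD.2.1 (Subgroup.isComplement'_bot_left.1 hc2)
  -- the complement in `K` maps onto `F`
  let π : C →* F := MonoidHom.mk' (fun c => ⟨f ((c : K) : G), _, (c : K).2, rfl⟩)
    fun a b => Subtype.ext (map_mul f _ _)
  have hπi : Function.Injective π := (injective_iff_map_eq_one π).2 fun c hc => by
    have h1 : (c : K) ∈ H.subgroupOf K ⊓ C :=
      ⟨(QuotientGroup.eq_one_iff (N := H) ((c : K) : G)).1 (by exact congrArg Subtype.val hc), c.2⟩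
    rw [disjoint_iff.1 hc1.disjoint, Subgroup.mem_bot] at h1
    exact Subtype.ext h1
  have hπ : Function.Bijective π :=
    (Nat.bijective_iff_injective_and_card π).2 ⟨hπi, hCF⟩
  haveI := hnil2
  haveI : Group.IsNilpotent C :=
    Group.nilpotent_of_mulEquiv (MulEquiv.ofBijective π hπ).symm
  obtain ⟨d, hdD, hd1⟩ : ∃ d ∈ D, d ≠ 1 := (Subgroup.bot_or_exists_ne_one D).resolve_left hD.1
  obtain ⟨hodd, hcyc⟩ := odd_cyclic hH0 hfree1 π hπ (fun y hy h => hfree2 d hdD hd1 y hy h)
  haveI := hcyc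
  -- the upper complement is cyclic
  obtain ⟨g₀, hg₀⟩ := IsCyclic.exists_generator (α := F)
  have hDab : ∀ a ∈ D, ∀ b ∈ D, a * b = b * a := by
    intro a ha b hb
    have hconj : ∀ u : G ⧸ H, ∃ i : ℤ, u * (g₀ : G ⧸ H) * u⁻¹ = (g₀ : G ⧸ H) ^ i := fun u => by
      obtain ⟨i, hi⟩ := Subgroup.mem_zpowers_iff.1 (hg₀ ⟨_, hFn.conj_mem _ g₀.2 u⟩)
      exact ⟨i, by rw [← SubgroupClass.coe_zpow, hi]⟩
    obtain ⟨i, hi⟩ := hconj a
    obtain ⟨i', hi'⟩ := hconj b
    have e1 : a * b * (g₀ : G ⧸ H) * (a * b)⁻¹ = b * a * (g₀ : G ⧸ H) * (b * a)⁻¹ := by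
      calc a * b * (g₀ : G ⧸ H) * (a * b)⁻¹ = a * (b * g₀ * b⁻¹) * a⁻¹ := by group
        _ = (g₀ : G ⧸ H) ^ (i * i') := by rw [hi', ← conj_zpow, hi, ← zpow_mul]
        _ = b * (a * g₀ * a⁻¹) * b⁻¹ := by rw [hi, ← conj_zpow, hi', ← zpow_mul, mul_comm]
        _ = _ := by group
    by_contra hne
    have hu : (b * a)⁻¹ * (a * b) ≠ 1 := fun e => hne (inv_mul_eq_one.1 e).symm
    have h1 := hfree2 _ (mul_mem (inv_mem (mul_mem hb ha)) (mul_mem ha hb)) hu g₀ g₀.2 (by
      calc (b * a)⁻¹ * (a * b) * g₀ = (b * a)⁻¹ * (a * b * g₀ * (a * b)⁻¹) * (a * b) := by group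
        _ = _ := by rw [e1]; group)
    refine hF0 ((Subgroup.eq_bot_iff_forall _).2 fun y hy => ?_)
    obtain ⟨j, hj⟩ := Subgroup.mem_zpowers_iff.1 (hg₀ ⟨y, hy⟩)
    rw [show y = (g₀ : G ⧸ H) ^ j by rw [← SubgroupClass.coe_zpow, hj], h1, one_zpow]
  haveI : IsMulCommutative D := ⟨⟨fun a b => Subtype.ext (hDab a a.2 b b.2)⟩⟩
  haveI : Group.IsNilpotent D := by
    letI : CommGroup D := { (inferInstance : Group D) with mul_comm := fun a b => mul_comm' a b }
    exact CommGroup.isNilpotent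
  haveI : IsZGroup D := ⟨fun q hq Q => by
    haveI := Fact.mk hq
    have he := (Q : Subgroup D).equivMapOfInjective D.subtype D.subtype_injective
    rcases cyclic_or_quaternion_of_fpf (Q.2.map D.subtype) (le_normalizer_normal _) hF0
      (fun c hc hc1' k hk hck => hfree2 c (Subgroup.map_subtype_le _ hc) hc1' k hk hck) with
      h1 | ⟨-, n, ⟨e⟩⟩
    · exact he.isCyclic.2 h1
    · by_contra hnc
      have hcomm : ∀ u v : QuaternionGroup (2 ^ n), u * v = v * u := fun u v => by
        refine e.symm.injective ?_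
        rw [map_mul, map_mul]
        exact Subtype.ext (hDab _ (Subgroup.map_subtype_le _ (e.symm u).2) _
          (Subgroup.map_subtype_le _ (e.symm v).2))
      have h2 := hcomm (QuaternionGroup.a 1) (QuaternionGroup.xa 0)
      rw [QuaternionGroup.a_mul_xa, QuaternionGroup.xa_mul_a, QuaternionGroup.xa.injEq,
        zero_sub, zero_add] at h2
      rcases n with - | n
      · haveI : IsCyclic (QuaternionGroup (2 ^ 0)) := by
          rw [pow_zero]; exact QuaternionGroup.quaternionGroup_one_isCyclic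
        exact absurd (he.isCyclic.2 (e.isCyclic.2 inferInstance)) hnc
      · have h3 : ((2 : ℕ) : ZMod (2 * 2 ^ (n + 1))) = 0 := by
          push_cast
          linear_combination -h2
        rw [ZMod.natCast_eq_zero_iff] at h3
        have h5 := Nat.le_of_dvd two_pos h3
        have := Nat.one_le_two_pow (n := n)
        rw [pow_succ] at h5
        omega⟩
  haveI hDc : IsCyclic D := inferInstance
  have hGKc : IsCyclic (G ⧸ K) := by
    have e : D ≃* (G ⧸ H) ⧸ F := MulEquiv.ofBijective ((QuotientGroup.mk' F).comp D.subtype)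
      ((Nat.bijective_iff_injective_and_card _).2 ⟨(injective_iff_map_eq_one _).2 fun a ha => by
        have h1 : (a : G ⧸ H) ∈ F ⊓ D := ⟨(QuotientGroup.eq_one_iff _).1 ha, a.2⟩
        rw [disjoint_iff.1 hc2.disjoint, Subgroup.mem_bot] at h1
        exact Subtype.ext h1, by rw [← Subgroup.index_eq_card, hidx2]⟩)
    exact (QuotientGroup.quotientQuotientEquivQuotient H K hHK).isCyclic.1 (e.isCyclic.1 inferInstance)
  have hsol : Group.IsSolvable G := by
    haveI : Group.IsSolvable (G ⧸ H) := by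
      haveI : Group.IsSolvable ((G ⧸ H) ⧸ F) := by
        haveI := hGKc
        letI := IsCyclic.commGroup (α := G ⧸ K)
        exact Group.isSolvable_of_isSolvable_injective
          (f := (QuotientGroup.quotientQuotientEquivQuotient H K hHK).toMonoidHom)
          (MulEquiv.injective _)
      exact (Group.isSolvable_iff_subgroup_quotient F).2 ⟨inferInstance, inferInstance⟩
    exact (Group.isSolvable_iff_subgroup_quotient H).2 ⟨inferInstance, inferInstance⟩
  -- the prime graph
  have hlift : ∀ (y : G ⧸ H), ∃ g : G, orderOf g = orderOf y := fun y => by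
    obtain ⟨g, rfl⟩ := hfs y
    exact ⟨_, orderOf_pow_orderOf_div (orderOf_pos g).ne' (orderOf_map_dvd f g)⟩
  have hFmem : ∀ {g : G} {p : ℕ}, orderOf g = p → p.Prime → p ∣ Nat.card F → f g ∈ F := by
    intro g p hg hp hpF
    rw [← QuotientGroup.eq_one_iff]
    refine orderOf_eq_one_iff.1 ?_
    refine ((Nat.dvd_prime hp).1 (((orderOf_map_dvd (QuotientGroup.mk' F) (f g)).trans
      (orderOf_map_dvd f g)).trans hg.dvd)).resolve_right fun e => ?_
    refine hp.not_dvd_one ?_
    rw [← hcop2.gcd_eq_one]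
    refine Nat.dvd_gcd hpF ?_
    rw [← hidx2, Subgroup.index_eq_card, ← e]
    exact orderOf_dvd_natCard _
  have hcross : ∀ p q : ℕ, p.Prime → q.Prime → p ∣ Nat.card F → ¬ q ∣ Nat.card F →
      ∀ g : G, orderOf g ≠ p * q := by
    intro p q hp hq hpF hqF g hg
    have hx : orderOf (g ^ q) = p := by
      rw [orderOf_pow' g hq.ne_zero, hg, Nat.gcd_mul_left_left, Nat.mul_div_cancel _ hq.pos]
    have hy : orderOf (g ^ p) = q := by
      rw [orderOf_pow' g hp.ne_zero, hg, Nat.gcd_mul_right_left, Nat.mul_div_cancel_left _ hp.pos]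
    have hpH : ¬ p ∣ Nat.card H := fun h => hp.not_dvd_one
      (hHF.gcd_eq_one ▸ Nat.dvd_gcd h hpF)
    have hxH : g ^ q ∉ H := fun h => hpH (hx ▸ Subgroup.orderOf_dvd_natCard H h)
    have hcomm : g ^ q * g ^ p = g ^ p * g ^ q := by rw [← pow_add, ← pow_add, add_comm]
    have hxF := hFmem hx hp hpF
    by_cases hyH : g ^ p ∈ H
    · have hxK : g ^ q ∈ K := by
        rw [hFdef] at hxF
        obtain ⟨k, hk, hke⟩ := hxF
        have : k⁻¹ * g ^ q ∈ H := QuotientGroup.eq.1 hke
        simpa using mul_mem hk (hHK this)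
      exact hxH (hker1 ⟨g ^ p, hHK hyH⟩ hyH (fun e => by
        have := congrArg Subtype.val e
        rw [show g ^ p = 1 from this, orderOf_one] at hy
        exact hq.ne_one hy.symm) ⟨g ^ q, hxK⟩ (Subtype.ext hcomm))
    · have h1 := hker2 (f (g ^ q)) hxF (fun e => hxH ((QuotientGroup.eq_one_iff _).1 e)) (f (g ^ p))
        (by rw [← map_mul, ← map_mul, hcomm])
      have hord : orderOf (f (g ^ p)) = q := ((Nat.dvd_prime hq).1
        ((orderOf_map_dvd f _).trans hy.dvd)).resolve_left fun e =>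
          hyH ((QuotientGroup.eq_one_iff _).1 (orderOf_eq_one_iff.1 e))
      exact hqF (hord ▸ Subgroup.orderOf_dvd_natCard F h1)
  refine ⟨hsol, ?_, ?_, hGKc, fun p q hp hq hne hpG hqG => ?_⟩
  · rw [hQc]; exact Nat.odd_iff.2 (Nat.two_dvd_ne_zero.1 hodd)
  · rw [hQc, hGK]
    exact Nat.Coprime.mul_right hHF.symm hcop2
  rw [hQc]
  constructor
  · rintro ⟨g, hg⟩
    refine ⟨fun h => ?_, fun h => ?_⟩ <;> by_contra h'
    · exact hcross p q hp hq h h' g hg
    · exact hcross q p hq hp h h' g (hg.trans (mul_comm p q))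
  intro hiff
  by_cases hpF : p ∣ Nat.card F
  · obtain ⟨y, hy⟩ := exists_orderOf_mul hp hq hne hpF (hiff.1 hpF)
    obtain ⟨g, hg⟩ := hlift y
    exact ⟨g, by rw [hg, Subgroup.orderOf_coe, hy]⟩
  have hqF : ¬ q ∣ Nat.card F := fun h => hpF (hiff.2 h)
  have hsplit : ∀ r : ℕ, r.Prime → r ∣ Nat.card G → ¬ r ∣ Nat.card F →
      r ∣ Nat.card H ∨ r ∣ Nat.card D := fun r hr hrG hrF => by
    rw [hGcard] at hrG
    rcases hr.dvd_mul.1 hrG with h | h
    · exact Or.inl ((hr.dvd_mul.1 h).resolve_right hrF)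
    · exact Or.inr h
  by_cases hpHqH : p ∣ Nat.card H ∧ q ∣ Nat.card H
  · obtain ⟨y, hy⟩ := exists_orderOf_mul hp hq hne hpHqH.1 hpHqH.2
    exact ⟨y, by rw [Subgroup.orderOf_coe, hy]⟩
  by_cases hpDqD : p ∣ Nat.card D ∧ q ∣ Nat.card D
  · obtain ⟨y, hy⟩ := exists_orderOf_mul hp hq hne hpDqD.1 hpDqD.2
    obtain ⟨g, hg⟩ := hlift y
    exact ⟨g, by rw [hg, Subgroup.orderOf_coe, hy]⟩
  -- one prime below, one on top
  have hmixed : ∀ p q : ℕ, p.Prime → q.Prime → p ∣ Nat.card H → q ∣ Nat.card D →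
      ¬ q ∣ Nat.card H → ¬ q ∣ Nat.card F → ∃ g : G, orderOf g = p * q := by
    intro p q hp hq hpH hqD hqH hqF
    haveI := Fact.mk hp
    haveI := Fact.mk hq
    obtain ⟨r, hr, hrF⟩ := Nat.exists_prime_and_dvd
      (fun e => hF0 (Subgroup.eq_bot_of_card_eq _ e) : Nat.card F ≠ 1)
    haveI := Fact.mk hr
    obtain ⟨R⟩ := (inferInstance : Nonempty (Sylow r K))
    set R' := (R : Subgroup K).map K.subtype with hR'
    have hfr := Sylow.normalizer_sup_eq_top R
    have hqN : q ∣ Nat.card (Subgroup.normalizer (R' : Set G)) := by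
      have h1 := Nat.Prime.dvd_mul hq |>.1 ((hqD.trans (show Nat.card D ∣ Nat.card G from
        ⟨Nat.card H * Nat.card F, by rw [hGcard, mul_comm]⟩)).trans
        ((dvd_of_eq (by rw [← Subgroup.card_top (G := G), ← hfr])).trans
          (card_sup_dvd_mul (le_normalizer_normal _))))
      refine h1.resolve_right fun h => ?_
      rw [← card_mul_relIndex hHK, hrel] at h
      rcases hq.dvd_mul.1 h with h | h
      · exact hqH h
      · exact hqF h
    obtain ⟨⟨y, hyN⟩, hy⟩ := exists_prime_orderOf_dvd_card' (G := Subgroup.normalizer (R' : Set G)) q hqN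
    rw [Subgroup.orderOf_mk] at hy
    have hyH : y ∉ H := fun h => hqH (hy ▸ Subgroup.orderOf_dvd_natCard H h)
    have hfy : f y ∉ F := fun h => by
      have hord : orderOf (f y) = q := ((Nat.dvd_prime hq).1
        ((orderOf_map_dvd f _).trans hy.dvd)).resolve_left fun e =>
          hyH ((QuotientGroup.eq_one_iff _).1 (orderOf_eq_one_iff.1 e))
      exact hqF (hord ▸ Subgroup.orderOf_dvd_natCard F h)
    obtain ⟨P⟩ := (inferInstance : Nonempty (Sylow p H))
    haveI : (Cfsg.pCore p H).Characteristic := characteristic_pCore p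
    set V := (Cfsg.pCore p H).map H.subtype with hV
    haveI hVn : V.Normal := map_subtype_normal_of_characteristic inferInstance inferInstance
    have hV0 : V ≠ ⊥ := by
      rw [hV, Ne, Subgroup.map_eq_bot_iff_of_injective _ H.subtype_injective,
        pCore_eq_sylow_of_nilpotent P]
      exact Sylow.ne_bot_of_dvd_card P hpH
    have hRF : ∀ x ∈ R', x ∈ H → x = 1 := fun x hxR hxH => by
      obtain ⟨k, hk⟩ := IsPGroup.iff_orderOf.1 (R.2.map K.subtype) ⟨x, hxR⟩
      rw [Subgroup.orderOf_mk] at hk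
      refine orderOf_eq_one_iff.1 (Nat.eq_one_of_dvd_coprimes (k := orderOf x)
        (hHF.coprime_dvd_right (dvd_refl _)) (Subgroup.orderOf_dvd_natCard H hxH) ?_)
      rw [hk]
      rcases Nat.eq_zero_or_pos k with rfl | hk0
      · simp
      · exfalso
        have h1 : r ∣ Nat.card H :=
          ((dvd_pow_self r hk0.ne').trans (hk ▸ dvd_rfl)).trans (Subgroup.orderOf_dvd_natCard H hxH)
        exact hr.not_dvd_one (hHF.gcd_eq_one ▸ Nat.dvd_gcd h1 hrF)
    have hRK : R' ≤ K := Subgroup.map_subtype_le _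
    have hfp : ∀ x ∈ R', x * y = y * x → x = 1 := fun x hx hxy => hRF x hx (by
      by_contra hxH
      exact hfy (hker2 (f x) ⟨x, hRK hx, rfl⟩ (fun e => hxH ((QuotientGroup.eq_one_iff _).1 e))
        (f y) (by rw [← map_mul, ← map_mul, hxy])))
    obtain ⟨v, hv, hv1, hvy⟩ : ∃ v ∈ V, v ≠ 1 ∧ v * y = y * v := by
      by_contra hcon
      push Not at hcon
      refine hV0 (eq_bot_of_fpf hq hy (q := r) (R.2.map K.subtype) ?_ hyN (le_normalizer_normal _)
        hfp fun g hg hg1 v hv hgv => ?_)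
      · rw [Ne, Subgroup.map_eq_bot_iff_of_injective _ K.subtype_injective]
        refine Sylow.ne_bot_of_dvd_card R ?_
        rw [← card_mul_relIndex hHK, hrel]
        exact hrF.mul_left _
      · have hle : Subgroup.zpowers y ≤ Subgroup.normalizer (R' : Set G) := Subgroup.zpowers_le.2 hyN
        rw [sup_comm] at hg
        obtain ⟨z, hz, x, hx, rfl⟩ := (mem_sup_iff_of_le_normalizer hle).1 hg
        by_cases hz1 : z = 1
        · subst hz1
          rw [one_mul] at hgv hg1
          have hvH : v ∈ H := Subgroup.map_subtype_le _ hv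
          by_contra hv1
          exact hg1 (hRF x hx (hker1 ⟨v, hHK hvH⟩ hvH (fun e => hv1 (congrArg Subtype.val e))
            ⟨x, hRK hx⟩ (Subtype.ext hgv)))
        have hzy : y ∈ Subgroup.zpowers z := by
          haveI : Fact (Nat.card (Subgroup.zpowers y)).Prime := ⟨by rw [Nat.card_zpowers, hy]; exact hq⟩
          have hzy' : Subgroup.zpowers z ≤ Subgroup.zpowers y := Subgroup.zpowers_le.2 hz
          rcases Subgroup.eq_bot_or_eq_top_of_prime_card
            ((Subgroup.zpowers z).subgroupOf (Subgroup.zpowers y)) with h | h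
          · exfalso
            rw [Subgroup.subgroupOf_eq_bot, disjoint_iff, inf_eq_left.2 hzy',
              Subgroup.zpowers_eq_bot] at h
            exact hz1 h
          · exact Subgroup.subgroupOf_eq_top.1 h (Subgroup.mem_zpowers y)
        -- conjugate `z * x` back to `z`
        let φ : R' → R' := fun s => ⟨z⁻¹ * s * z * (s : G)⁻¹, mul_mem (by
          have := (Subgroup.mem_normalizer_iff.1 (inv_mem (hle hz)) (s : G)).1 s.2
          rwa [inv_inv] at this) (inv_mem s.2)⟩
        have hφ : Function.Surjective φ := Finite.injective_iff_surjective.1 fun s t hst => by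
          have h1 : z⁻¹ * s * z * (s : G)⁻¹ = z⁻¹ * t * z * (t : G)⁻¹ := congrArg Subtype.val hst
          have h2 : Commute ((t : G)⁻¹ * s) z := by
            show (t : G)⁻¹ * s * z = z * ((t : G)⁻¹ * s)
            calc (t : G)⁻¹ * s * z = (t : G)⁻¹ * z * (z⁻¹ * s * z * (s : G)⁻¹) * s := by group
              _ = (t : G)⁻¹ * z * (z⁻¹ * t * z * (t : G)⁻¹) * s := by rw [h1]
              _ = _ := by group
          obtain ⟨i, hi⟩ := Subgroup.mem_zpowers_iff.1 hzy
          have h3 := hfp _ (mul_mem (inv_mem t.2) s.2) (hi ▸ (h2.zpow_right i).eq)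
          exact Subtype.ext (inv_mul_eq_one.1 h3).symm
        obtain ⟨s, hs⟩ := hφ ⟨x, hx⟩
        have hs' : z⁻¹ * s * z * (s : G)⁻¹ = x := congrArg Subtype.val hs
        have hgz : z * x = s * z * (s : G)⁻¹ := by rw [← hs']; group
        rw [hgz] at hgv
        have h4 : Commute z ((s : G)⁻¹ * v * s) := by
          show z * ((s : G)⁻¹ * v * s) = (s : G)⁻¹ * v * s * z
          calc z * ((s : G)⁻¹ * v * s) = (s : G)⁻¹ * (s * z * (s : G)⁻¹ * v) * s := by group
            _ = _ := by rw [hgv]; group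
        obtain ⟨i, hi⟩ := Subgroup.mem_zpowers_iff.1 hzy
        have h5 : (s : G)⁻¹ * v * s = 1 := by
          by_contra h6
          refine hcon _ ?_ h6 (hi ▸ (h4.zpow_left i).symm.eq)
          simpa using hVn.conj_mem v hv (s : G)⁻¹
        calc v = s * ((s : G)⁻¹ * v * s) * (s : G)⁻¹ := by group
          _ = 1 := by rw [h5]; group
    obtain ⟨k, hk⟩ := IsPGroup.iff_orderOf.1 ((isPGroup_pCore p).map H.subtype) ⟨v, hv⟩
    rw [Subgroup.orderOf_mk] at hk
    have hk0 : k ≠ 0 := by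
      rintro rfl
      exact hv1 (orderOf_eq_one_iff.1 (hk.trans (pow_zero p)))
    have hdv : p ∣ orderOf v := hk ▸ dvd_pow_self p hk0
    have hv' := orderOf_pow_orderOf_div (orderOf_pos v).ne' hdv
    refine ⟨v ^ (orderOf v / p) * y, ?_⟩
    have hne' : p ≠ q := fun e => hqH (e ▸ hpH)
    rw [((show Commute v y from hvy).pow_left _).orderOf_mul_eq_mul_orderOf_of_coprime, hv', hy]
    rw [hv', hy]
    exact (Nat.coprime_primes hp hq).2 hne'
  rcases hsplit p hp hpG hpF with h1 | h1 <;> rcases hsplit q hq hqG hqF with h2 | h2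
  · exact absurd ⟨h1, h2⟩ hpHqH
  · exact hmixed p q hp hq h1 h2 (fun h => hpHqH ⟨h1, h⟩) hqF
  · obtain ⟨g, hg⟩ := hmixed q p hq hp h2 h1 (fun h => hpHqH ⟨h, h2⟩) hpF
    exact ⟨g, hg.trans (mul_comm q p)⟩
  · exact absurd ⟨h1, h2⟩ hpDqD


/-- Let G be a 2-Frobenius group: it has normal subgroups H < K with K a Frobenius group with kernel H and G/H a Frobenius group with kernel K/H. Then G is solvable; K/H has odd order coprime to the order of H and to the order of G/K (it is the image of an odd-order Hall subgroup); G/K is cyclic; and the prime graph of G has exactly two connected components, both complete: for distinct primes p, q dividing the order of G, G has an element of order pq exactly when p and q either both divide the order of K/H or both do not. -/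
theorem result {G : Type*} [Group G] [Finite G] (H K : Subgroup G) [H.Normal] [K.Normal] (hlt : H < K)
    (hK : ∃ C : Subgroup ↥K, Cfsg.IsFrobeniusComplement C ∧ Cfsg.frobeniusKernel C = (H.subgroupOf K : Set ↥K))
    (hGH : ∃ C : Subgroup (G ⧸ H), Cfsg.IsFrobeniusComplement C ∧ Cfsg.frobeniusKernel C = (K.map (QuotientGroup.mk' H) : Set (G ⧸ H))) :
    Group.IsSolvable G ∧ Odd (Nat.card (↥K ⧸ H.subgroupOf K)) ∧
      Nat.Coprime (Nat.card (↥K ⧸ H.subgroupOf K)) (Nat.card ↥H * Nat.card (G ⧸ K)) ∧ IsCyclic (G ⧸ K) ∧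
      ∀ p q : ℕ, p.Prime → q.Prime → p ≠ q → p ∣ Nat.card G → q ∣ Nat.card G →
        ((∃ g : G, orderOf g = p * q) ↔ (p ∣ Nat.card (↥K ⧸ H.subgroupOf K) ↔ q ∣ Nat.card (↥K ⧸ H.subgroupOf K))) := by
  exact main H K hlt hK hGH

end Cfsg.Agent.S4001
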