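import Cfsg.Statements.S4005
import Cfsg.Agent.Lib.CorePrimeOrders

set_option autoImplicit false
open Cfsg

namespace Cfsg.Agent.S4005

open CfsgLib.Core
open scoped Pointwise

theorem main {G : Type*} [Group G] [Finite G] (h : Set.range (orderOf : G → ℕ) = {k : ℕ | 1 ≤ k ∧ k ≤ 3}) :
    (∃ N : Subgroup G, N.Normal ∧ Cfsg.IsElementaryAbelian 3 N ∧ N.index = 2) ∨
      (∃ N : Subgroup G, N.Normal ∧ Cfsg.IsElementaryAbelian 2 N ∧ N.index = 3) := by
  classical
  haveI : Fact (Nat.Prime 2) := ⟨Nat.prime_two⟩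
  haveI : Fact (Nat.Prime 3) := ⟨Nat.prime_three⟩
  have hord : ∀ x : G, x ≠ 1 → orderOf x = 2 ∨ orderOf x = 3 := fun x hx => by
    have hm : orderOf x ∈ Set.range (orderOf : G → ℕ) := ⟨x, rfl⟩
    rw [h] at hm
    obtain ⟨h1, h3⟩ := hm
    have : orderOf x ≠ 1 := fun e => hx (orderOf_eq_one_iff.1 e)
    omega
  have hPO : PrimeOrders.PO G := fun x hx => by
    rcases hord x hx with e | e <;> rw [e] <;> norm_num
  have hex : ∀ d, 1 ≤ d → d ≤ 3 → ∃ x : G, orderOf x = d := fun d h1 h3 => by
    have hm : d ∈ {k : ℕ | 1 ≤ k ∧ k ≤ 3} := ⟨h1, h3⟩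
    rwa [← h] at hm
  obtain ⟨x2, hx2⟩ := hex 2 (by norm_num) (by norm_num)
  obtain ⟨x3, hx3⟩ := hex 3 (by norm_num) (by norm_num)
  have hsub : (Nat.card G).primeFactors ⊆ {2, 3} := fun d hd => by
    obtain ⟨hdp, hdn, -⟩ := Nat.mem_primeFactors.1 hd
    haveI := Fact.mk hdp
    obtain ⟨x, hx⟩ := exists_prime_orderOf_dvd_card' (G := G) d hdn
    rcases hord x (fun e => by rw [e, orderOf_one] at hx; exact hdp.ne_one hx.symm) with e | e <;>
      simp [← hx, e]
  haveI : Group.IsSolvable G := by
    refine CfsgLib.Char.burnside_pq Nat.prime_two Nat.prime_three _ G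
      ((Nat.card G).factorization 2) ((Nat.card G).factorization 3) rfl ?_
    conv_lhs => rw [Nat.prod_primeFactors_pow_factorization Nat.card_pos.ne']
    rw [Finset.prod_subset hsub (fun d _ hd => by
      rw [← Nat.support_factorization, Finsupp.notMem_support_iff] at hd
      rw [hd, pow_zero]), Finset.prod_pair (by norm_num : (2 : ℕ) ≠ 3)]
  haveI : Nontrivial G := ⟨⟨x2, 1, fun e => by rw [e, orderOf_one] at hx2; omega⟩⟩
  obtain ⟨M, hMn, hM0, -, hmin⟩ := exists_minimal_normal_le (N := (⊤ : Subgroup G)) top_ne_bot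
  haveI := hMn
  haveI := isMulCommutative_of_minimal_normal hmin
  haveI : Nontrivial M := (Subgroup.nontrivial_iff_ne_bot M).2 hM0
  obtain ⟨⟨a, haM⟩, ha⟩ := exists_ne (1 : M)
  have ha1 : a ≠ 1 := fun e => ha (Subtype.ext e)
  have hMord : ∀ v ∈ M, v ≠ 1 → orderOf v = orderOf a := fun v hv hv1 =>
    PrimeOrders.eq_of_commute hPO hv1 ha1 (congrArg Subtype.val (IsMulCommutative.is_comm.comm (⟨v, hv⟩ : M) ⟨a, haM⟩))
  have key : ∀ p q : ℕ, p.Prime → q.Prime → p ≠ q → orderOf a = p →
      (∀ x : G, x ≠ 1 → orderOf x = p ∨ orderOf x = q) → (∃ x : G, orderOf x = q) →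
      (q = 2 ∨ p = 2) → ∃ N : Subgroup G, N.Normal ∧ Cfsg.IsElementaryAbelian p N ∧ N.index = q := by
    intro p q hp hq hpq hap hord' ⟨y, hy⟩ htwo
    haveI := Fact.mk hp
    haveI := Fact.mk hq
    obtain ⟨Q⟩ : Nonempty (Sylow q G) := inferInstance
    obtain ⟨S⟩ : Nonempty (Sylow p G) := inferInstance
    have hQord : ∀ g ∈ (Q : Subgroup G), g ≠ 1 → orderOf g = q := fun g hg hg1 => by
      obtain ⟨k, hk⟩ := IsPGroup.iff_orderOf.1 Q.2 ⟨g, hg⟩
      rw [Subgroup.orderOf_mk] at hk
      rcases hord' g hg1 with e | e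
      · exfalso
        rw [e] at hk
        exact hpq ((Nat.prime_dvd_prime_iff_eq hp hq).1 (hp.dvd_of_dvd_pow (dvd_of_eq hk)))
      · exact e
    have hSord : ∀ g ∈ (S : Subgroup G), g ^ p = 1 := fun g hg => by
      rcases eq_or_ne g 1 with rfl | hg1
      · exact one_pow _
      obtain ⟨k, hk⟩ := IsPGroup.iff_orderOf.1 S.2 ⟨g, hg⟩
      rw [Subgroup.orderOf_mk] at hk
      rcases hord' g hg1 with e | e
      · rw [← e, pow_orderOf_eq_one]
      · exfalso
        rw [e] at hk
        exact hpq ((Nat.prime_dvd_prime_iff_eq hq hp).1 (hq.dvd_of_dvd_pow (dvd_of_eq hk))).symm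
    have hQc : Nat.card (Q : Subgroup G) = q := by
      have hcyc : IsCyclic (Q : Subgroup G) := by
        rcases cyclic_or_quaternion_of_fpf (K := M) Q.2 (by rw [Subgroup.normalizer_eq_top]; exact le_top) hM0
          (fun g hg hg1 v hv hgv => by
            by_contra hv1
            have := PrimeOrders.eq_of_commute hPO hg1 hv1 hgv
            rw [hQord g hg hg1, hMord v hv hv1, hap] at this
            exact hpq this.symm) with h' | ⟨hq2, m, ⟨e⟩⟩
        · exact h'
        · exfalso
          set w : (Q : Subgroup G) := e.symm (QuaternionGroup.xa 0) with hw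
          have how : orderOf w = 4 := by rw [hw, MulEquiv.orderOf_eq, QuaternionGroup.orderOf_xa]
          have hw4 : orderOf (w : G) = 4 := by rw [Subgroup.orderOf_coe, how]
          have := hQord (w : G) w.2 (fun e => by rw [e, orderOf_one] at hw4; omega)
          omega
      obtain ⟨⟨g, hg⟩, hgen⟩ := hcyc.exists_generator
      have h1 : Nat.card (Q : Subgroup G) = orderOf g := by
        rw [← Subgroup.orderOf_mk g hg, orderOf_eq_card_of_forall_mem_zpowers hgen]
      rw [h1]
      refine hQord g hg fun e => ?_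
      have hdvd := Q.dvd_card_of_dvd_card (hy ▸ orderOf_dvd_natCard y)
      rw [h1, e, orderOf_one] at hdvd
      exact hq.not_dvd_one hdvd
    have hidx : (S : Subgroup G).index = q := by
      have h1 := Subgroup.card_mul_index (S : Subgroup G)
      have hsub' : (Nat.card G).primeFactors ⊆ {p, q} := fun d hd => by
        obtain ⟨hdp, hdn, -⟩ := Nat.mem_primeFactors.1 hd
        haveI := Fact.mk hdp
        obtain ⟨x, hx⟩ := exists_prime_orderOf_dvd_card' (G := G) d hdn
        rcases hord' x (fun e => by rw [e, orderOf_one] at hx; exact hdp.ne_one hx.symm) with e | e <;>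
          simp [← hx, e]
      have h2 : Nat.card G = Nat.card (S : Subgroup G) * Nat.card (Q : Subgroup G) := by
        rw [Sylow.card_eq_multiplicity, Sylow.card_eq_multiplicity]
        conv_lhs => rw [Nat.prod_primeFactors_pow_factorization (Nat.card_pos (α := G)).ne']
        rw [Finset.prod_subset hsub' (fun d _ hd => by
          rw [← Nat.support_factorization, Finsupp.notMem_support_iff] at hd
          rw [hd, pow_zero]), Finset.prod_pair hpq]
      rw [hQc, ← h1] at h2
      exact Nat.eq_of_mul_eq_mul_left Nat.card_pos h2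
    by_cases hp2 : p = 2
    · -- an elementary abelian Sylow subgroup centralising `M`
      subst hp2
      have hSab : ∀ u ∈ (S : Subgroup G), ∀ v ∈ (S : Subgroup G), u * v = v * u := fun u hu v hv => by
        have hinv : ∀ w ∈ (S : Subgroup G), w⁻¹ = w := fun w hw =>
          inv_eq_of_mul_eq_one_right (by rw [← sq]; exact hSord w hw)
        have e := hinv _ ((S : Subgroup G).mul_mem hu hv)
        rw [mul_inv_rev, hinv u hu, hinv v hv] at e
        exact e.symm
      have hMp : IsPGroup 2 M := fun v => ⟨1, by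
        rcases eq_or_ne (v : G) 1 with e | e
        · exact Subtype.ext (by simp [e])
        · refine Subtype.ext ?_
          rw [SubmonoidClass.coe_pow, pow_one, ← hap, ← hMord v v.2 e, pow_orderOf_eq_one]; rfl⟩
      have hMS : M ≤ (S : Subgroup G) := (le_pCore hMn hMp).trans (pCore_le_sylow S)
      have hKp : IsPGroup 2 (Subgroup.centralizer (M : Set G)) := fun v => ⟨1, Subtype.ext (by
        rw [pow_one]
        have := PrimeOrders.pow_orderOf_centralizer hPO ha1 (y := (v : G))
          (Subgroup.mem_centralizer_singleton_iff.2 (Subgroup.mem_centralizer_iff.1 v.2 a haM).symm)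
        rwa [hap] at this)⟩
      have hSK : (S : Subgroup G) = Subgroup.centralizer (M : Set G) :=
        (S.3 hKp (fun s hs => Subgroup.mem_centralizer_iff.2 fun v hv => hSab v (hMS hv) s hs)).symm
      refine ⟨S, hSK ▸ inferInstance, ⟨⟨⟨fun u v => Subtype.ext (hSab u u.2 v v.2)⟩⟩, hSord⟩, hidx⟩
    · obtain rfl : q = 2 := htwo.resolve_right hp2
      haveI hSn := Subgroup.normal_of_index_eq_two hidx
      have htS : y ∉ (S : Subgroup G) := fun hyS => by
        have h1 := orderOf_dvd_of_pow_eq_one (hSord y hyS)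
        rw [hy] at h1
        exact hpq ((Nat.prime_dvd_prime_iff_eq hq hp).1 h1).symm
      have hinv : ∀ s ∈ (S : Subgroup G), y * s * y⁻¹ = s⁻¹ := fun s hs => by
        have hns : y * s ∉ (S : Subgroup G) := fun e => htS ((Subgroup.mul_mem_cancel_right _ hs).1 e)
        have h2 : orderOf (y * s) = 2 := by
          rcases hord' (y * s) (fun e => hns (e ▸ one_mem _)) with e | e
          · exfalso
            refine hns ?_
            obtain ⟨T, hT⟩ := (IsPGroup.of_card (n := 1) (by rw [Nat.card_zpowers, e, pow_one]) :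
              IsPGroup p (Subgroup.zpowers (y * s))).exists_le_sylow
            haveI := Sylow.unique_of_normal S hSn
            obtain rfl : T = S := Subsingleton.elim _ _
            exact hT (Subgroup.mem_zpowers _)
          · exact e
        have hy' : y⁻¹ = y := inv_eq_of_mul_eq_one_right (by rw [← sq, ← hy, pow_orderOf_eq_one])
        rw [hy']
        refine eq_inv_of_mul_eq_one_left ?_
        rw [mul_assoc (y * s), ← sq, ← h2, pow_orderOf_eq_one]
      refine ⟨S, hSn, ⟨⟨⟨fun u v => Subtype.ext ?_⟩⟩, hSord⟩, hidx⟩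
      have h1 := hinv _ ((S : Subgroup G).mul_mem u.2 v.2)
      rw [show y * ((u : G) * v) * y⁻¹ = (y * u * y⁻¹) * (y * v * y⁻¹) by group, hinv u u.2, hinv v v.2,
        ← mul_inv_rev] at h1
      exact (inv_injective h1).symm
  rcases hord a ha1 with e | e
  · exact Or.inr (key 2 3 Nat.prime_two Nat.prime_three (by norm_num) e hord ⟨x3, hx3⟩ (Or.inr rfl))
  · exact Or.inl (key 3 2 Nat.prime_three Nat.prime_two (by norm_num) e (fun x hx => (hord x hx).symm)
      ⟨x2, hx2⟩ (Or.inl rfl))

/-- A finite group whose set of element orders is exactly {1, 2, 3} has either a normal elementary abelian 3-subgroup of index 2 or a normal elementary abelian 2-subgroup of index 3. -/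
theorem result {G : Type*} [Group G] [Finite G] (h : Set.range (orderOf : G → ℕ) = {k : ℕ | 1 ≤ k ∧ k ≤ 3}) :
    (∃ N : Subgroup G, N.Normal ∧ Cfsg.IsElementaryAbelian 3 N ∧ N.index = 2) ∨
      (∃ N : Subgroup G, N.Normal ∧ Cfsg.IsElementaryAbelian 2 N ∧ N.index = 3) := by
  exact main h

end Cfsg.Agent.S4005
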