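import Cfsg.Statements.S4200
import Cfsg.Agent.Lib.FgsCommPairs

set_option autoImplicit false
open Cfsg

namespace Cfsg.Agent.S4200

/-- Let Y be a subgroup of the finite group X, of index m. Then the numbers of conjugacy classes satisfy k(Y) ≤ m·k(X) and k(X) ≤ m·k(Y), and the second inequality is strict unless Y is normal in X. -/
theorem result {X : Type*} [Group X] [Finite X] (Y : Subgroup X) : Nat.card (ConjClasses Y) ≤ Y.index * Nat.card (ConjClasses X) ∧ Nat.card (ConjClasses X) ≤ Y.index * Nat.card (ConjClasses Y) ∧ (¬ Y.Normal → Nat.card (ConjClasses X) < Y.index * Nat.card (ConjClasses Y)) := by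
  have hX := card_comm_eq_card_conjClasses_mul_card X
  have hY := card_comm_eq_card_conjClasses_mul_card Y
  have hm : Nat.card X = Y.index * Nat.card Y := Y.index_mul_card.symm
  have hpos := Nat.card_pos (α := Y)
  have hm0 : 0 < Y.index := Nat.pos_of_ne_zero Subgroup.index_ne_zero_of_finite
  have h1 : Nat.card {p : Y × Y // Commute p.1 p.2} ≤ Nat.card {p : X × X // Commute p.1 p.2} :=
    Nat.card_le_card_of_injective (fun p => ⟨((p.1.1 : X), (p.1.2 : X)), congrArg Subtype.val p.2⟩)
      fun p q h => by
        have h' := congrArg Subtype.val h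
        exact Subtype.ext (Prod.ext (Subtype.ext (congrArg Prod.fst h')) (Subtype.ext (congrArg Prod.snd h')))
  have h2 := CfsgLib.Fgs.CommPairs.pairs_le Y
  rw [hX, hY, hm] at h2
  rw [hX, hY, hm] at h1
  refine ⟨?_, ?_, fun hn => ?_⟩
  · refine Nat.le_of_mul_le_mul_right ?_ hpos
    calc Nat.card (ConjClasses Y) * Nat.card Y ≤ Nat.card (ConjClasses X) * (Y.index * Nat.card Y) := h1
      _ = Y.index * Nat.card (ConjClasses X) * Nat.card Y := by ring
  · refine Nat.le_of_mul_le_mul_right ?_ (Nat.mul_pos hm0 hpos)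
    calc Nat.card (ConjClasses X) * (Y.index * Nat.card Y)
        ≤ Y.index * Y.index * (Nat.card (ConjClasses Y) * Nat.card Y) := h2
      _ = Y.index * Nat.card (ConjClasses Y) * (Y.index * Nat.card Y) := by ring
  · have h3 := CfsgLib.Fgs.CommPairs.pairs_lt Y hn
    rw [hX, hY, hm] at h3
    refine Nat.lt_of_mul_lt_mul_right (a := Y.index * Nat.card Y) ?_
    calc Nat.card (ConjClasses X) * (Y.index * Nat.card Y)
        < Y.index * Y.index * (Nat.card (ConjClasses Y) * Nat.card Y) := h3
      _ = Y.index * Nat.card (ConjClasses Y) * (Y.index * Nat.card Y) := by ring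

end Cfsg.Agent.S4200
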