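import Cfsg.Statements.S4201
import Cfsg.Agent.Lib.FgsCommPairs

set_option autoImplicit false
open Cfsg

namespace Cfsg.Agent.S4201

/-- If N is a normal subgroup of the finite group X then k(X) ≤ k(N)·k(X ⧸ N), where k denotes the number of conjugacy classes. -/
theorem result {X : Type*} [Group X] [Finite X] (N : Subgroup X) [N.Normal] : Nat.card (ConjClasses X) ≤ Nat.card (ConjClasses N) * Nat.card (ConjClasses (X ⧸ N)) := by
  have h := CfsgLib.Fgs.CommPairs.pairs_le_quotient N
  rw [card_comm_eq_card_conjClasses_mul_card, card_comm_eq_card_conjClasses_mul_card,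
    card_comm_eq_card_conjClasses_mul_card, Subgroup.card_eq_card_quotient_mul_card_subgroup N] at h
  refine Nat.le_of_mul_le_mul_right ?_ (Nat.mul_pos (Nat.card_pos (α := X ⧸ N)) (Nat.card_pos (α := N)))
  refine h.trans (le_of_eq ?_)
  ring

end Cfsg.Agent.S4201
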