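import Cfsg.Statements.S4203
import Cfsg.Agent.Lib.FgsTwoPrime

set_option autoImplicit false
open Cfsg

namespace Cfsg.Agent.S4203

/-- A finite group in which every maximal subgroup has index a prime or the square of a prime is solvable. -/
theorem result {G : Type*} [Group G] [Finite G] (h : ∀ M : Subgroup G, IsCoatom M → ∃ p : ℕ, p.Prime ∧ (M.index = p ∨ M.index = p ^ 2)) : Group.IsSolvable G := by
  suffices h' : ∀ (n : ℕ) (H : Type _) [Group H] [Finite H], Nat.card H = n →
      (∀ M : Subgroup H, IsCoatom M → ∃ p : ℕ, p.Prime ∧ (M.index = p ∨ M.index = p ^ 2)) →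
      Group.IsSolvable H from h' _ G rfl h
  intro n
  induction n using Nat.strong_induction_on with
  | _ n ih =>
    intro H _ _ hn hH
    by_cases h1 : Nat.card H = 1
    · haveI : Subsingleton H := (Nat.card_eq_one_iff_unique.1 h1).1
      infer_instance
    have hne := Nat.nonempty_primeFactors.2 (lt_of_le_of_ne Nat.card_pos (Ne.symm h1))
    set p := (Nat.card H).primeFactors.max' hne with hpdef
    have hpmem : p ∈ (Nat.card H).primeFactors := Finset.max'_mem _ _
    have hpp : p.Prime := Nat.prime_of_mem_primeFactors hpmem
    have hple : ∀ r : ℕ, r.Prime → r ∣ Nat.card H → r ≤ p := fun r hr hd =>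
      Finset.le_max' _ _ (Nat.mem_primeFactors.2 ⟨hr, hd, Nat.card_pos.ne'⟩)
    haveI := Fact.mk hpp
    obtain ⟨P⟩ : Nonempty (Sylow p H) := inferInstance
    by_cases hPn : (P : Subgroup H).Normal
    · haveI := hPn
      have hP1 : (P : Subgroup H) ≠ ⊥ := P.ne_bot_of_dvd_card (Nat.dvd_of_mem_primeFactors hpmem)
      have hlt : Nat.card (H ⧸ (P : Subgroup H)) < n := by
        have h2 := Subgroup.card_eq_card_quotient_mul_card_subgroup (P : Subgroup H)
        have h3 : 1 < Nat.card (P : Subgroup H) := (Subgroup.one_lt_card_iff_ne_bot _).2 hP1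
        have h4 : 0 < Nat.card (H ⧸ (P : Subgroup H)) := Nat.card_pos
        rw [← hn, h2]
        exact lt_mul_of_one_lt_right h4 h3
      haveI : Group.IsSolvable (H ⧸ (P : Subgroup H)) := by
        refine ih _ hlt _ rfl fun M hM => ?_
        have hsur : Function.Surjective (QuotientGroup.mk' (P : Subgroup H)) := QuotientGroup.mk'_surjective _
        have hc : IsCoatom (M.comap (QuotientGroup.mk' (P : Subgroup H))) :=
          Subgroup.isCoatom_comap_of_surjective hsur hM
        have := hH _ hc
        rwa [Subgroup.index_comap_of_surjective M hsur] at this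
      haveI : Group.IsNilpotent (P : Subgroup H) := P.2.isNilpotent
      haveI : Group.IsSolvable (P : Subgroup H) := inferInstance
      exact Group.isSolvable_of_ker_le_range ((P : Subgroup H).subtype)
        (QuotientGroup.mk' (P : Subgroup H)) (by simp)
    · set N := Subgroup.normalizer ((P : Subgroup H) : Set H) with hN
      have hNne : N ≠ ⊤ := fun e => hPn (Subgroup.normalizer_eq_top_iff.1 e)
      obtain ⟨M, hM, hNM⟩ := (eq_top_or_exists_le_coatom N).resolve_left hNne
      obtain ⟨q, hq, hMi⟩ := hH M hM
      have h2 : N.index ≡ 1 [MOD p] := by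
        have h0 := card_sylow_modEq_one p H
        rw [Sylow.card_eq_index_normalizer P] at h0
        exact h0
      have h3 : N.relIndex M ≡ 1 [MOD p] := by
        have hPM : (P : Subgroup H) ≤ M := Subgroup.le_normalizer.trans hNM
        have h4 := card_sylow_modEq_one p M
        rw [Sylow.card_eq_index_normalizer (P.subtype hPM)] at h4
        change (Subgroup.normalizer ((((P.subtype hPM : Sylow p M) : Subgroup M)) : Set M)).index ≡ 1 [MOD p] at h4
        rw [Sylow.coe_subtype,
          ← Subgroup.subgroupOf_normalizer_eq hPM] at h4
        exact h4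
      have h4 : M.index ≡ 1 [MOD p] := by
        rw [← Subgroup.relIndex_mul_index hNM] at h2
        have := (h3.mul_right M.index).symm.trans h2
        rwa [one_mul] at this
      have hqd : q ∣ Nat.card H :=
        dvd_trans (by rcases hMi with e | e <;> rw [e]; exact dvd_pow_self q two_ne_zero) M.index_dvd_card
      have hqp : q ≤ p := hple q hq hqd
      have hqne : q ≠ p := by
        intro he
        subst he
        have h5 : M.index ≡ 0 [MOD p] := by
          rcases hMi with e | e <;> rw [e, Nat.modEq_zero_iff_dvd]
          exact dvd_pow_self _ two_ne_zero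
        have := Nat.modEq_zero_iff_dvd.1 (h4.symm.trans h5)
        exact hpp.one_lt.ne' (Nat.dvd_one.1 this)
      have hq2 := hq.two_le
      rcases hMi with e | e
      · rw [e] at h4
        have := Nat.ModEq.eq_of_lt_of_lt h4 (by omega) hpp.one_lt
        omega
      · rw [e] at h4
        have hd : p ∣ (q + 1) * (q - 1) := by
          have hm := (Nat.modEq_iff_dvd' (Nat.one_le_pow _ _ hq.pos)).1 h4.symm
          rw [← Nat.sq_sub_sq, one_pow]
          exact hm
        rcases hpp.dvd_mul.1 hd with hd | hd
        · have hp1 : p ≤ q + 1 := Nat.le_of_dvd (by omega) hd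
          have hp1' : p = q + 1 := by omega
          have hq' : q = 2 := by
            rcases hq.eq_two_or_odd with h5 | h5
            · exact h5
            · rcases hpp.eq_two_or_odd with h6 | h6 <;> omega
          subst hq'
          refine CfsgLib.FgsTwoPrime.isSolvable_of_two_primes Nat.prime_two Nat.prime_three (by norm_num) fun r hr hrd => ?_
          have := hple r hr hrd
          have := hr.two_le
          omega
        · have := Nat.le_of_dvd (by omega) hd
          omega

end Cfsg.Agent.S4203
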