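import Cfsg.Statements.S4205


set_option autoImplicit false
open Cfsg
open scoped commutatorElement

namespace Cfsg.Agent.S4205

/-- In a finite group whose upper central series reaches the whole group at step `c` (nilpotent of class at most `c`), starting from any subgroup and taking normalizers `c` times reaches the whole group. -/
theorem result {G : Type*} [Group G] [Finite G] (c : ℕ) (hG : Subgroup.upperCentralSeries G c = ⊤) (H : Subgroup G) : (fun K : Subgroup G => Subgroup.normalizer (K : Set G))^[c] H = ⊤ := by
  have key : ∀ k, Subgroup.upperCentralSeries G k ≤
      (fun K : Subgroup G => Subgroup.normalizer (K : Set G))^[k] H := by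
    intro k
    induction k with
    | zero => simp
    | succ k ih =>
      rw [Function.iterate_succ_apply']
      set K := (fun K : Subgroup G => Subgroup.normalizer (K : Set G))^[k] H
      intro x hx
      have hmem : ∀ y : G, ⁅x, y⁆ ∈ K := fun y => ih (Subgroup.mem_upperCentralSeries_succ_iff.mp hx y)
      refine Subgroup.mem_normalizer_iff.mpr fun h => ⟨fun hh => ?_, fun hh => ?_⟩
      · have := mul_mem (hmem h) hh
        simpa [commutatorElement_def, mul_assoc] using this
      · have := mul_mem (inv_mem (hmem h)) hh
        simpa [commutatorElement_def, mul_assoc] using this
  exact eq_top_iff.mpr (hG ▸ key c)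

end Cfsg.Agent.S4205
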