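import Cfsg.Statements.S4206


set_option autoImplicit false
open Cfsg

namespace Cfsg.Agent.S4206

/-- Let `H 0 ≥ H 1 ≥ H 2 ≥ ⋯` be normal subgroups of a finite group and `L` a subgroup with `⁅H i, L⁆ ≤ H (i+1)` for all `i`. Then `⁅H i, γ⁆ ≤ H (i + j + 1)` where `γ` is the `j`-th term of the lower central series of `L` (indexed from `0`, so the term with index `j` is the `(j+1)`-fold commutator). -/
theorem result {G : Type*} [Group G] [Finite G] (H : ℕ → Subgroup G) (hN : ∀ i, (H i).Normal) (hdesc : ∀ i, H (i + 1) ≤ H i) (L : Subgroup G) (hL : ∀ i, ⁅H i, L⁆ ≤ H (i + 1)) (i j : ℕ) : ⁅H i, L.lowerCentralSeries j⁆ ≤ H (i + j + 1) := by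
  haveI := hN
  induction j generalizing i with
  | zero => simpa using hL i
  | succ j ih =>
    rw [Subgroup.lowerCentralSeries_succ]
    set M := H (i + (j + 1) + 1) with hM
    set π := QuotientGroup.mk' M with hπ
    rw [← QuotientGroup.ker_mk' M, ← Subgroup.map_eq_bot_iff, Subgroup.map_commutator,
      Subgroup.map_commutator, Subgroup.commutator_comm]
    apply Subgroup.commutator_commutator_eq_bot_of_rotate
    · rw [← Subgroup.map_commutator, ← Subgroup.map_commutator, Subgroup.map_eq_bot_iff,
        QuotientGroup.ker_mk']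
      refine (Subgroup.commutator_mono (le_of_eq_of_le (Subgroup.commutator_comm _ _) (hL i)) le_rfl).trans ?_
      rw [hM, show i + (j + 1) + 1 = (i + 1) + j + 1 by ring]
      exact ih (i + 1)
    · rw [← Subgroup.map_commutator, ← Subgroup.map_commutator, Subgroup.map_eq_bot_iff,
        QuotientGroup.ker_mk']
      refine (Subgroup.commutator_mono (ih i) le_rfl).trans ?_
      rw [hM, show i + (j + 1) + 1 = (i + j + 1) + 1 by ring]
      exact hL _

end Cfsg.Agent.S4206
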