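import Cfsg.Statements.S4212
import Cfsg.Agent.Lib.FgsRootCount

set_option autoImplicit false
open Cfsg

namespace Cfsg.Agent.S4212

/-- Let `G` be a finite group of order `g`, `c` an element whose conjugacy class has `h` elements, and `n` a natural number. Then the number of elements `x` of `G` with `x^n` conjugate to `c` is a multiple of `gcd(hn, g)`. -/
theorem result {G : Type*} [Group G] [Finite G] (c : G) (n : ℕ) : Nat.gcd (Nat.card {y : G // IsConj c y} * n) (Nat.card G) ∣ Nat.card {x : G // IsConj c (x ^ n)} := by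
  classical
  haveI := Fintype.ofFinite G
  have hcard : Nat.card {x : G // IsConj c (x ^ n)} =
      Nat.card {y : G // IsConj c y} * Nat.card {x : G // x ^ n = c} := by
    rw [← Nat.card_prod]
    symm
    choose g hg using fun y : {y : G // IsConj c y} => isConj_iff.1 y.2
    refine Nat.card_congr
      { toFun := fun p => ⟨g p.1 * p.2.1 * (g p.1)⁻¹, by
          rw [conj_pow, p.2.2, hg]; exact p.1.2⟩
        invFun := fun x => ⟨⟨x.1 ^ n, x.2⟩,
          ⟨(g ⟨x.1 ^ n, x.2⟩)⁻¹ * x.1 * g ⟨x.1 ^ n, x.2⟩, by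
            have := hg ⟨x.1 ^ n, x.2⟩
            have h2 : ((g ⟨x.1 ^ n, x.2⟩)⁻¹ * x.1 * (g ⟨x.1 ^ n, x.2⟩)⁻¹⁻¹) ^ n = c := by
              rw [conj_pow]
              calc (g ⟨x.1 ^ n, x.2⟩)⁻¹ * x.1 ^ n * (g ⟨x.1 ^ n, x.2⟩)⁻¹⁻¹
                  = (g ⟨x.1 ^ n, x.2⟩)⁻¹ * (g ⟨x.1 ^ n, x.2⟩ * c * (g ⟨x.1 ^ n, x.2⟩)⁻¹) *
                      (g ⟨x.1 ^ n, x.2⟩)⁻¹⁻¹ := by rw [this]
                _ = c := by group
            rwa [inv_inv] at h2⟩⟩
        left_inv := fun p => ?_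
        right_inv := fun x => Subtype.ext (by group) }
    have he : (⟨(g p.1 * p.2.1 * (g p.1)⁻¹) ^ n, by rw [conj_pow, p.2.2, hg]; exact p.1.2⟩ :
        {y : G // IsConj c y}) = p.1 := Subtype.ext (by
      change (g p.1 * p.2.1 * (g p.1)⁻¹) ^ n = p.1.1
      rw [conj_pow, p.2.2, hg])
    refine Prod.ext he (Subtype.ext ?_)
    change (g _)⁻¹ * (g p.1 * p.2.1 * (g p.1)⁻¹) * g _ = p.2.1
    rw [he]; group
  set C := Subgroup.centralizer ({c} : Set G) with hC
  have hcC : c ∈ C := Subgroup.mem_centralizer_singleton_iff.2 rfl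
  have hroots : Nat.card {x : G // x ^ n = c} = Nat.card {x : C // x ^ n = ⟨c, hcC⟩} :=
    Nat.card_congr
      { toFun := fun x => ⟨⟨x.1, Subgroup.mem_centralizer_singleton_iff.2
          ((congrArg (fun z => x.1 * z = z * x.1) x.2).mp ((Commute.self_pow x.1 n).eq))⟩, Subtype.ext x.2⟩
        invFun := fun x => ⟨x.1.1, congrArg Subtype.val x.2⟩
        left_inv := fun x => rfl
        right_inv := fun x => rfl }
  have hcen : (⟨c, hcC⟩ : C) ∈ Subgroup.center C := Subgroup.mem_center_iff.2 fun w =>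
    Subtype.ext (Subgroup.mem_centralizer_singleton_iff.1 w.2)
  rw [hcard, hroots]
  refine dvd_trans ?_ (mul_dvd_mul_left _ (CfsgLib.FgsRootCount.gcd_dvd_card_roots hcen n))
  rw [← Nat.gcd_mul_left, CfsgLib.Invol.card_isConj_eq_index, C.index_mul_card]

end Cfsg.Agent.S4212
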