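import Cfsg.Statements.S4213
import Cfsg.Agent.S3993
import Cfsg.Agent.Lib.CoreFitting

set_option autoImplicit false
open Cfsg

namespace Cfsg.Agent.S4213

/-- If `G` is a finite solvable group and `n` divides the order of `G` and exactly `n` elements `x` of `G` satisfy `x^n = 1`, then these elements form a normal subgroup. -/
theorem result {G : Type*} [Group G] [Finite G] [Group.IsSolvable G] (n : ℕ) (hn : n ∣ Nat.card G) (hcount : Nat.card {x : G // x ^ n = 1} = n) : ∃ H : Subgroup G, H.Normal ∧ (H : Set G) = {x : G | x ^ n = 1} := by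
  suffices h : ∀ (N : ℕ) (H : Type _) [Group H] [Finite H] [Group.IsSolvable H] (n : ℕ), Nat.card H = N →
      n ∣ Nat.card H → Nat.card {x : H // x ^ n = 1} = n →
      ∃ K : Subgroup H, (K : Set H) = {x : H | x ^ n = 1} by
    obtain ⟨K, hK⟩ := h _ G n rfl hn hcount
    refine ⟨K, ⟨fun x hx g => ?_⟩, hK⟩
    have hx' : x ∈ (K : Set G) := hx
    rw [hK] at hx'
    have hg : g * x * g⁻¹ ∈ {x : G | x ^ n = 1} := by
      change (g * x * g⁻¹) ^ n = 1
      rw [conj_pow, (hx' : x ^ n = 1), mul_one, mul_inv_cancel]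
    rw [← hK] at hg
    exact hg
  clear hn hcount n
  intro N
  induction N using Nat.strong_induction_on with
  | _ N ih =>
    intro H _ _ _ n hN hn hcount
    by_cases hH : Nat.card H = 1
    · haveI : Subsingleton H := (Nat.card_eq_one_iff_unique.1 hH).1
      exact ⟨⊥, Set.ext fun x => by simp [Subsingleton.elim x 1]⟩
    haveI : Nontrivial H := by
      rw [← Finite.one_lt_card_iff_nontrivial]
      have : 0 < Nat.card H := Nat.card_pos
      omega
    obtain ⟨M, hM, hM0, -, hmin⟩ := CfsgLib.Core.exists_minimal_normal_le (N := (⊤ : Subgroup H)) top_ne_bot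
    haveI := hM
    obtain ⟨p, hp, hexp⟩ := CfsgLib.Core.exists_prime_pow_eq_one_of_minimal_normal hM0 hmin
    haveI := Fact.mk hp
    obtain ⟨a, ha⟩ : ∃ a, Nat.card M = p ^ a :=
      (show IsPGroup p M from fun x => ⟨1, Subtype.ext (by rw [Subgroup.coe_pow, pow_one]; exact hexp _ x.2)⟩).exists_card_eq
    have hMpow : ∀ m ∈ M, m ^ p ^ a = 1 := fun m hm => by
      rw [← ha]; exact congrArg Subtype.val (pow_card_eq_one' : (⟨m, hm⟩ : M) ^ Nat.card M = 1)
    have hcardH : Nat.card H = Nat.card (H ⧸ M) * p ^ a := by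
      rw [← ha]; exact Subgroup.card_eq_card_quotient_mul_card_subgroup M
    have hlt : Nat.card (H ⧸ M) < N := by
      rw [← hN, Subgroup.card_eq_card_quotient_mul_card_subgroup M]
      exact lt_mul_of_one_lt_right Nat.card_pos ((Subgroup.one_lt_card_iff_ne_bot _).2 hM0)
    -- the preimage of a set of solutions in the quotient
    have hpre : ∀ j : ℕ, Nat.card {x : H // (x : H ⧸ M) ^ j = 1} =
        Nat.card {w : H ⧸ M // w ^ j = 1} * p ^ a := by
      intro j
      rw [← ha, ← Nat.card_prod]
      exact Nat.card_congr ((QuotientGroup.preimageMkEquivSubgroupProdSet M {w : H ⧸ M | w ^ j = 1}).trans (Equiv.prodComm _ _))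
    by_cases hpn : p ∣ n
    · -- the minimal normal subgroup consists of solutions
      obtain ⟨b, hb, hba, hbmax⟩ : ∃ b, p ^ b ∣ n ∧ b ≤ a ∧ (b < a → ¬ p ^ (b + 1) ∣ n) := by
        by_cases h : p ^ a ∣ n
        · exact ⟨a, h, le_rfl, fun h' => absurd h' (lt_irrefl a)⟩
        · refine ⟨n.factorization p, Nat.ordProj_dvd n p, ?_, fun _ => ?_⟩
          · by_contra hc
            exact h ((pow_dvd_pow p (by omega)).trans (Nat.ordProj_dvd n p))
          · exact Nat.pow_succ_factorization_not_dvd (fun h0 => by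
              rw [h0] at h; exact h (dvd_zero _)) hp
      obtain ⟨j, hj⟩ := hb
      have hjd : j ∣ Nat.card (H ⧸ M) := by
        rcases hba.eq_or_lt with rfl | hlt'
        · rw [hcardH, hj, mul_comm] at hn
          exact (Nat.mul_dvd_mul_iff_right (pow_pos hp.pos _)).1 hn
        · have hpj : ¬ p ∣ j := fun hd => hbmax hlt' (by rw [pow_succ, hj]; exact mul_dvd_mul_left _ hd)
          have hd : j ∣ Nat.card (H ⧸ M) * p ^ a := hcardH ▸ (Dvd.intro_left _ hj.symm).trans hn
          exact ((hp.coprime_iff_not_dvd.2 hpj).pow_left a).symm.dvd_of_dvd_mul_right hd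
      have hb1 : 1 ≤ b := by
        by_contra hb0
        have hb0 : b = 0 := by omega
        subst hb0
        have ha0 : 0 < a := Nat.pos_of_ne_zero fun h0 => hM0 (by
          rw [← Subgroup.card_eq_one, ha, h0, pow_zero])
        exact hbmax ha0 (by simpa using hpn)
      have hsub : ∀ x : H, (x : H ⧸ M) ^ j = 1 → x ^ n = 1 := by
        intro x hx
        rw [← QuotientGroup.mk_pow, QuotientGroup.eq_one_iff] at hx
        obtain ⟨c, hc⟩ := dvd_pow_self p (by omega : b ≠ 0)
        rw [hj, mul_comm, pow_mul, hc, pow_mul, hexp _ hx, one_pow]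
      obtain ⟨c, hc⟩ := Cfsg.Agent.S3993.result j hjd
      have hle : Nat.card {x : H // (x : H ⧸ M) ^ j = 1} ≤ n := hcount ▸
        Nat.card_le_card_of_injective (fun x => ⟨x.1, hsub x.1 x.2⟩)
          (fun x y h => Subtype.ext (congrArg Subtype.val h :))
      rw [hpre, hc, hj] at hle
      have hj0 : 0 < j := Nat.pos_of_ne_zero fun h0 => by
        rw [h0, mul_zero] at hj
        rw [hj] at hn
        exact Nat.card_pos.ne' (Nat.eq_zero_of_zero_dvd hn)
      have hc0 : 0 < c := Nat.pos_of_ne_zero fun h0 => by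
        rw [h0, mul_zero] at hc
        haveI : Nonempty {g : H ⧸ M // g ^ j = 1} := ⟨⟨1, one_pow _⟩⟩
        exact Nat.card_pos.ne' hc
      have hc1 : c = 1 ∧ a = b := by
        have h1 : c * p ^ a ≤ p ^ b := by
          refine Nat.le_of_mul_le_mul_left ?_ hj0
          calc j * (c * p ^ a) = j * c * p ^ a := by ring
            _ ≤ p ^ b * j := hle
            _ = j * p ^ b := mul_comm _ _
        have h2 : p ^ b ≤ p ^ a := Nat.pow_le_pow_right hp.pos hba
        have h3 : c * p ^ a ≤ 1 * p ^ a := by rw [one_mul]; exact h1.trans h2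
        have hc1 : c = 1 := le_antisymm (Nat.le_of_mul_le_mul_right h3 (pow_pos hp.pos a)) hc0
        subst hc1
        rw [one_mul] at h1
        exact ⟨rfl, Nat.pow_right_injective hp.two_le (le_antisymm h1 h2)⟩
      obtain ⟨rfl, rfl⟩ := hc1
      rw [mul_one] at hc
      obtain ⟨K, hK⟩ := ih _ hlt (H ⧸ M) j rfl hjd hc
      refine ⟨K.comap (QuotientGroup.mk' M), Set.eq_of_subset_of_ncard_le (fun x hx => ?_) ?_⟩
      · have : (x : H ⧸ M) ∈ (K : Set (H ⧸ M)) := hx
        rw [hK] at this
        exact hsub x this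
      · rw [← Nat.card_coe_set_eq, ← Nat.card_coe_set_eq]
        have e : Nat.card {x : H // (x : H ⧸ M) ^ j = 1} = Nat.card (K.comap (QuotientGroup.mk' M)) :=
          Nat.card_congr (Equiv.subtypeEquivRight fun x => by
            change (x : H ⧸ M) ∈ {w : H ⧸ M | w ^ j = 1} ↔ (x : H ⧸ M) ∈ (K : Set (H ⧸ M))
            rw [hK])
        refine le_of_eq ?_
        change Nat.card {x : H // x ^ n = 1} = Nat.card (K.comap (QuotientGroup.mk' M))
        rw [← e, hpre, hc, hcount, hj, mul_comm]
    · -- coprime case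
      have hcop : (p ^ a).Coprime n := (hp.coprime_iff_not_dvd.2 hpn).pow_left a
      have hjd : n ∣ Nat.card (H ⧸ M) := hcop.symm.dvd_of_dvd_mul_right (hcardH ▸ hn)
      have hn0 : 0 < n := Nat.pos_of_ne_zero fun h0 => by
        rw [h0] at hn; exact Nat.card_pos.ne' (Nat.eq_zero_of_zero_dvd hn)
      have hsur : Function.Surjective (fun x : {x : H // x ^ n = 1} =>
          (⟨(x.1 : H ⧸ M), by rw [← QuotientGroup.mk_pow, x.2, QuotientGroup.mk_one]⟩ :
            {w : H ⧸ M // w ^ n = 1})) := by
        rintro ⟨w, hw⟩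
        obtain ⟨x, rfl⟩ := QuotientGroup.mk_surjective w
        obtain ⟨u, v, huv⟩ := Int.isCoprime_iff_gcd_eq_one.2
          (show Int.gcd (p ^ a : ℕ) (n : ℤ) = 1 by rw [Int.gcd_natCast_natCast]; exact hcop)
        refine ⟨⟨(x ^ p ^ a) ^ u, ?_⟩, Subtype.ext ?_⟩
        · rw [← QuotientGroup.mk_pow, QuotientGroup.eq_one_iff] at hw
          rw [← zpow_natCast ((x ^ p ^ a) ^ u), ← zpow_mul, mul_comm, zpow_mul, zpow_natCast,
            ← pow_mul, mul_comm, pow_mul, hMpow _ hw, one_zpow]
        · change (((x ^ p ^ a) ^ u : H) : H ⧸ M) = (x : H ⧸ M)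
          rw [QuotientGroup.mk_zpow, QuotientGroup.mk_pow]
          calc ((x : H ⧸ M) ^ p ^ a) ^ u = (x : H ⧸ M) ^ (u * ((p ^ a : ℕ) : ℤ)) := by
                rw [mul_comm, zpow_mul, zpow_natCast]
            _ = (x : H ⧸ M) ^ (u * ((p ^ a : ℕ) : ℤ) + v * (n : ℤ)) := by
                rw [zpow_add, mul_comm v, zpow_mul (x : H ⧸ M) (n : ℤ) v, zpow_natCast, hw, one_zpow,
                  mul_one]
            _ = (x : H ⧸ M) := by rw [huv, zpow_one]
      obtain ⟨c, hc⟩ := Cfsg.Agent.S3993.result n hjd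
      have hle := hcount ▸ Nat.card_le_card_of_surjective _ hsur
      rw [hc] at hle
      have hc1 : c = 1 := by
        haveI : Nonempty {g : H ⧸ M // g ^ n = 1} := ⟨⟨1, one_pow _⟩⟩
        have h1 : 0 < n * c := hc ▸ Nat.card_pos
        have h2 : c ≤ 1 := Nat.le_of_mul_le_mul_left (by rw [mul_one]; exact hle) hn0
        rcases Nat.le_one_iff_eq_zero_or_eq_one.1 h2 with rfl | rfl
        · simp at h1
        · rfl
      subst hc1
      rw [mul_one] at hc
      obtain ⟨K, hK⟩ := ih _ hlt (H ⧸ M) n rfl hjd hc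
      set L := K.comap (QuotientGroup.mk' M) with hL
      have hML : M ≤ L := fun m hm => by
        rw [hL, Subgroup.mem_comap, QuotientGroup.mk'_apply, (QuotientGroup.eq_one_iff m).2 hm]
        exact one_mem K
      have hLcard : Nat.card L = n * p ^ a := by
        rw [← hc, ← hpre]
        exact Nat.card_congr (Equiv.subtypeEquivRight fun x => by
            change (x : H ⧸ M) ∈ (K : Set (H ⧸ M)) ↔ (x : H ⧸ M) ∈ {w : H ⧸ M | w ^ n = 1}
            rw [hK])
      have hMc : Nat.card (M.subgroupOf L) = p ^ a := by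
        rw [Nat.card_congr (Subgroup.subgroupOfEquivOfLe hML).toEquiv, ha]
      have hindex : (M.subgroupOf L).index = n := by
        have h1 := (M.subgroupOf L).card_mul_index
        rw [hMc, hLcard, mul_comm n] at h1
        exact Nat.eq_of_mul_eq_mul_left (pow_pos hp.pos a) h1
      obtain ⟨C, hC⟩ := Subgroup.exists_right_complement'_of_coprime
        (show (Nat.card (M.subgroupOf L)).Coprime (M.subgroupOf L).index by rw [hMc, hindex]; exact hcop)
      have hCc : Nat.card C = n := by
        have h1 := hC.card_mul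
        rw [hMc, hLcard, mul_comm n] at h1
        exact Nat.eq_of_mul_eq_mul_left (pow_pos hp.pos a) h1
      refine ⟨C.map L.subtype, Set.eq_of_subset_of_ncard_le ?_ ?_⟩
      · rintro x ⟨y, hy, rfl⟩
        have := congrArg (fun z : C => ((z : L) : H)) (pow_card_eq_one' : (⟨y, hy⟩ : C) ^ Nat.card C = 1)
        rw [hCc] at this
        simpa using this
      · rw [← Nat.card_coe_set_eq, ← Nat.card_coe_set_eq]
        refine le_of_eq ?_
        change Nat.card {x : H // x ^ n = 1} = Nat.card (C.map L.subtype)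
        rw [hcount, Subgroup.card_map_of_injective L.subtype_injective, hCc]

end Cfsg.Agent.S4213
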