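import Cfsg.Statements.S4216
import Cfsg.Agent.Lib.FgsGrun

set_option autoImplicit false
open Cfsg

namespace Cfsg.Agent.S4216

/-- Grün's first Theorem: if `P` is a Sylow `p`-subgroup of the finite group `G`, then `P ∩ G'` is the subgroup generated by `P ∩ N_G(P)'` together with the subgroups `P ∩ z P' z⁻¹` for all `z ∈ G`, where `'` denotes the derived subgroup and `N_G(P)` the normalizer of `P`. -/
theorem result {G : Type*} [Group G] [Finite G] {p : ℕ} [Fact p.Prime] (P : Sylow p G) : (P : Subgroup G) ⊓ commutator G = ((P : Subgroup G) ⊓ ⁅Subgroup.normalizer ((P : Subgroup G) : Set G), Subgroup.normalizer ((P : Subgroup G) : Set G)⁆) ⊔ ⨆ z : G, (P : Subgroup G) ⊓ (⁅(P : Subgroup G), (P : Subgroup G)⁆).map (MulAut.conj z).toMonoidHom := by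
  refine le_antisymm ?_ (sup_le ?_ (iSup_le fun z => ?_))
  · rintro x ⟨hxP, hxG⟩
    exact CfsgLib.FgsGrun.mem_of_grun P _
      (fun a ha ha' => Subgroup.mem_sup_left (Subgroup.mem_inf.2 ⟨ha, ha'⟩))
      (fun z a ha ha' => Subgroup.mem_sup_right (Subgroup.mem_iSup_of_mem z (Subgroup.mem_inf.2 ⟨ha, ha'⟩))) x hxP hxG
  · exact inf_le_inf_left _ (Subgroup.commutator_mono le_top le_top)
  · refine inf_le_inf_left _ ?_
    refine (Subgroup.map_mono (Subgroup.commutator_mono le_top le_top)).trans ?_
    rw [Subgroup.map_commutator]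
    exact Subgroup.commutator_mono le_top le_top

end Cfsg.Agent.S4216
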