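import Cfsg.Statements.S4217
import Cfsg.Agent.Lib.FgsGaschutzLocal

set_option autoImplicit false
open Cfsg

namespace Cfsg.Agent.S4217

/-- Let `A` be an abelian normal subgroup of the finite group `G`. Then `A` has a complement in `G` if and only if, for every prime `p` dividing the index of `A`, there are a Sylow `p`-subgroup `S` of `G/A` and a subgroup `K` of `G` with `K ∩ A = 1` and `KA` equal to the preimage of `S` (that is, `A` has a complement in the preimage of a Sylow `p`-subgroup of `G/A`). -/
theorem result {G : Type*} [Group G] [Finite G] (A : Subgroup G) [A.Normal] (hA : IsMulCommutative A) : (∃ K : Subgroup G, K.IsComplement' A) ↔ ∀ p : ℕ, p.Prime → p ∣ A.index → ∃ (S : Sylow p (G ⧸ A)) (K : Subgroup G), K ⊓ A = ⊥ ∧ K ⊔ A = (S : Subgroup (G ⧸ A)).comap (QuotientGroup.mk' A) := by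
  haveI := hA
  constructor
  · rintro ⟨K, hK⟩ p hp _
    haveI := Fact.mk hp
    obtain ⟨S⟩ : Nonempty (Sylow p (G ⧸ A)) := inferInstance
    set U := (S : Subgroup (G ⧸ A)).comap (QuotientGroup.mk' A) with hU
    have hAU : A ≤ U := fun a ha => by
      rw [hU, Subgroup.mem_comap, (QuotientGroup.eq_one_iff a).2 ha |> fun h => (show QuotientGroup.mk' A a = 1 from h)]
      exact one_mem _
    refine ⟨S, K ⊓ U, ?_, le_antisymm (sup_le inf_le_right hAU) fun u hu => ?_⟩
    · rw [eq_bot_iff]
      exact le_trans (inf_le_inf_right A inf_le_left) (disjoint_iff_inf_le.1 hK.disjoint)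
    · have htop : u ∈ K ⊔ A := by rw [hK.sup_eq_top]; exact Subgroup.mem_top u
      obtain ⟨k, hk, a, ha, rfl⟩ := Subgroup.mem_sup_of_normal_right.1 htop
      have hkU : k ∈ U := by
        have := mul_mem hu (inv_mem (hAU ha))
        rwa [mul_inv_cancel_right] at this
      exact mul_mem (Subgroup.mem_sup_left ⟨hk, hkU⟩) (Subgroup.mem_sup_right ha)
  · exact CfsgLib.FgsGaschutzLocal.exists_complement A

end Cfsg.Agent.S4217
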