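import Cfsg.Statements.S4218
import Cfsg.Agent.Lib.CorePSolvable
import Cfsg.Agent.Lib.CoreCoprime2
import Cfsg.Agent.Lib.CorePGroup

set_option autoImplicit false
open Cfsg
open scoped commutatorElement

namespace Cfsg.Agent.S4218

/-- Let `G` be a finite `p`-solvable group, `N₀ = O_{p'}(G)`, `P₁ = O_{p',p}(G)`, and let `F ≤ P₁` be the preimage of the Frattini subgroup of `P₁/N₀`. Then an element `g` of `G` induces the identity on `P₁/F` by conjugation (that is, `g x g⁻¹ x⁻¹ ∈ F` for all `x ∈ P₁`) if and only if `g ∈ P₁`: the group `G/P₁` acts faithfully on `P₁/F`. -/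
theorem result {G : Type*} [Group G] [Finite G] {p : ℕ} [Fact p.Prime] (hG : Cfsg.IsPSolvable p G) (g : G) : (∀ x ∈ Cfsg.pPrimePCore p G, g * x * g⁻¹ * x⁻¹ ∈ ((frattini (↥(Cfsg.pPrimePCore p G) ⧸ (Cfsg.pPrimeCore p G).subgroupOf (Cfsg.pPrimePCore p G))).comap (QuotientGroup.mk' ((Cfsg.pPrimeCore p G).subgroupOf (Cfsg.pPrimePCore p G)))).map (Cfsg.pPrimePCore p G).subtype) ↔ g ∈ Cfsg.pPrimePCore p G := by
  haveI hn := CfsgLib.Core.normal_pPrimeCore (G := G) p
  set N₀ := Cfsg.pPrimeCore p G with hN₀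
  set π := QuotientGroup.mk' N₀ with hπ
  have hπs : Function.Surjective π := QuotientGroup.mk'_surjective N₀
  set V := Cfsg.pCore p (G ⧸ N₀) with hV
  haveI hVn : V.Normal := CfsgLib.Core.normal_pCore p
  set P₁ := Cfsg.pPrimePCore p G with hP₁
  have hP₁' : P₁ = V.comap π := rfl
  have hVp : IsPGroup p V := CfsgLib.Core.isPGroup_pCore p
  have hmap : ∀ y : G, y ∈ ((frattini (↥P₁ ⧸ N₀.subgroupOf P₁)).comap
      (QuotientGroup.mk' (N₀.subgroupOf P₁))).map P₁.subtype ↔
      y ∈ P₁ ∧ π y ∈ (frattini ↥V).map V.subtype := by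
    let ψ : P₁ →* V := π.subgroupComap V
    have hψs : Function.Surjective ψ := π.subgroupComap_surjective_of_surjective V hπs
    have hψk : N₀.subgroupOf P₁ = ψ.ker := by
      ext x
      rw [Subgroup.mem_subgroupOf, MonoidHom.mem_ker]
      constructor
      · intro hx; exact Subtype.ext ((QuotientGroup.eq_one_iff _).2 hx)
      · intro hx; exact (QuotientGroup.eq_one_iff _).1 (congrArg Subtype.val hx)
    let e := (QuotientGroup.quotientMulEquivOfEq hψk).trans (QuotientGroup.quotientKerEquivOfSurjective ψ hψs)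
    have he : ∀ x : P₁, e (QuotientGroup.mk' (N₀.subgroupOf P₁) x) = ψ x := fun x => rfl
    have h1 := frattini_le_comap_frattini_of_surjective (φ := e.toMonoidHom) e.surjective
    have h2 := frattini_le_comap_frattini_of_surjective (φ := e.symm.toMonoidHom) e.symm.surjective
    intro y
    constructor
    · rintro ⟨x, hx, rfl⟩
      refine ⟨x.2, ψ x, ?_, rfl⟩
      rw [← he]
      exact h1 hx
    · rintro ⟨hy, v, hv, hve⟩
      refine ⟨⟨y, hy⟩, ?_, rfl⟩
      have hv' : ψ ⟨y, hy⟩ = v := Subtype.ext hve.symm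
      show QuotientGroup.mk' (N₀.subgroupOf P₁) ⟨y, hy⟩ ∈ frattini (↥P₁ ⧸ N₀.subgroupOf P₁)
      rw [← e.symm_apply_apply (QuotientGroup.mk' (N₀.subgroupOf P₁) ⟨y, hy⟩), he, hv']
      exact h2 hv
  have hcomm : ∀ a ∈ V, ∀ v ∈ V, a * v * a⁻¹ * v⁻¹ ∈ (frattini ↥V).map V.subtype := fun a ha v hv =>
    ⟨⁅(⟨a, ha⟩ : V), ⟨v, hv⟩⁆, CfsgLib.Core.pgroup_commutator_le_frattini hVp
      (Subgroup.commutator_mem_commutator (Subgroup.mem_top _) (Subgroup.mem_top _)), rfl⟩
  constructor
  · intro h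
    -- the kernel of the action on the Frattini quotient
    set Φ := (frattini ↥V).map V.subtype with hΦ
    haveI hΦn : Φ.Normal := CfsgLib.Core.map_subtype_normal_of_characteristic hVn inferInstance
    let K : Subgroup (G ⧸ N₀) :=
      { carrier := {x | ∀ v ∈ V, x * v * x⁻¹ * v⁻¹ ∈ Φ}
        one_mem' := fun v _ => by simp
        mul_mem' := fun {a b} ha hb v hv => by
          have h1 := ha _ (hVn.conj_mem v hv b)
          have h2 := hb v hv
          have := mul_mem h1 h2
          simpa [mul_assoc] using this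
        inv_mem' := fun {a} ha v hv => by
          have h1 := ha _ (hVn.conj_mem v hv a⁻¹)
          have h2 := inv_mem h1
          simpa [mul_assoc] using h2 }
    haveI hKn : K.Normal := ⟨fun a ha x v hv => by
      have h1 := hΦn.conj_mem _ (ha _ (hVn.conj_mem v hv x⁻¹)) x
      simpa [mul_assoc] using h1⟩
    have hKp : IsPGroup p K := by
      rw [IsPGroup.iff_card]
      refine ⟨_, Nat.eq_prime_pow_of_unique_prime_dvd Nat.card_pos.ne' (fun {r} hr hrd => ?_)⟩
      by_contra hrp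
      haveI := Fact.mk hr
      obtain ⟨x, hx⟩ := exists_prime_orderOf_dvd_card' r hrd
      have hx' : orderOf ((x : K) : G ⧸ N₀) = r := by rw [Subgroup.orderOf_coe, hx]
      have hz : Subgroup.zpowers ((x : K) : G ⧸ N₀) ≤ K := Subgroup.zpowers_le.2 x.2
      obtain ⟨j, hj⟩ := IsPGroup.iff_card.1 (hVp.to_subgroup (frattini ↥V))
      have hc := CfsgLib.Core.le_centralizer_of_trivial_mod_frattini
        (A := Subgroup.zpowers ((x : K) : G ⧸ N₀)) (K := V)
        (by rw [Subgroup.normalizer_eq_top]; exact le_top)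
        (by rw [Nat.card_zpowers, hx', hj]; exact ((Nat.coprime_primes hr (Fact.out)).2 hrp).pow_right j)
        (fun a ha v hv => hz ha v hv)
      have hxV : ((x : K) : G ⧸ N₀) ∈ V :=
        CfsgLib.Core.centralizer_pCore_le_of_isPSolvable
          (CfsgLib.Core.isPSolvable_of_surjective π hπs hG)
          (CfsgLib.Core.pPrimeCore_quotient_pPrimeCore p) (hc (Subgroup.mem_zpowers _))
      obtain ⟨k, hk⟩ := IsPGroup.iff_orderOf.1 hVp ⟨_, hxV⟩
      rw [Subgroup.orderOf_mk, hx'] at hk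
      exact hrp ((Nat.prime_dvd_prime_iff_eq hr Fact.out).1 (hr.dvd_of_dvd_pow hk.dvd))
    have hgK : π g ∈ K := by
      intro v hv
      obtain ⟨x, rfl⟩ := hπs v
      have h2 := ((hmap _).1 (h x hv)).2
      rwa [map_mul, map_mul, map_mul, map_inv, map_inv] at h2
    exact CfsgLib.Core.le_pCore hKn hKp hgK
  · intro hg x hx
    rw [hmap]
    refine ⟨P₁.mul_mem (P₁.mul_mem (P₁.mul_mem hg hx) (P₁.inv_mem hg)) (P₁.inv_mem hx), ?_⟩
    rw [map_mul, map_mul, map_mul, map_inv, map_inv]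
    exact hcomm _ hg _ hx

end Cfsg.Agent.S4218
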