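import Cfsg.Statements.S4219


set_option autoImplicit false
open Cfsg
open scoped Pointwise

namespace Cfsg.Agent.S4219

/-- Let a finite group `G` act `t`-fold transitively on a finite set, let `H` be the stabilizer of `t` distinct points and `P` a Sylow `p`-subgroup of `H`. Then the normalizer of `P` in `G` is `t`-fold transitive on the fixed points of `P`: any `t` distinct fixed points of `P` can be carried to any other `t` distinct fixed points of `P` by an element normalizing `P`. -/
theorem result {G : Type*} [Group G] [Finite G] {α : Type*} [Fintype α] [MulAction G α] {t : ℕ} (hG : MulAction.IsMultiplyPretransitive G α t) (x : Fin t ↪ α) {p : ℕ} [Fact p.Prime] (P : Sylow p (MulAction.stabilizer G x)) (a b : Fin t ↪ α) (ha : ∀ i, a i ∈ MulAction.fixedPoints ((P : Subgroup (MulAction.stabilizer G x)).map (MulAction.stabilizer G x).subtype) α) (hb : ∀ i, b i ∈ MulAction.fixedPoints ((P : Subgroup (MulAction.stabilizer G x)).map (MulAction.stabilizer G x).subtype) α) : ∃ g ∈ Subgroup.normalizer ((((P : Subgroup (MulAction.stabilizer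 G x)).map (MulAction.stabilizer G x).subtype) : Subgroup G) : Set G), g • a = b := by
  classical
  haveI := hG
  obtain ⟨g, hg⟩ := MulAction.exists_smul_eq G a b
  obtain ⟨g₁, hg₁⟩ := MulAction.exists_smul_eq G x a
  set Q : Subgroup G := (P : Subgroup (MulAction.stabilizer G x)).map (MulAction.stabilizer G x).subtype with hQ
  have hfix : ∀ (c : Fin t ↪ α), (∀ i, c i ∈ MulAction.fixedPoints Q α) → Q ≤ MulAction.stabilizer G c := by
    intro c hc q hq
    rw [MulAction.mem_stabilizer_iff]
    ext i
    exact hc i ⟨q, hq⟩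
  set T := MulAction.stabilizer G a with hT
  have hQa : Q ≤ T := hfix a ha
  have hQb : Q ≤ MulAction.stabilizer G b := hfix b hb
  set R : Subgroup G := Q.map (MulAut.conj g⁻¹).toMonoidHom with hR
  have hRT : R ≤ T := by
    rintro _ ⟨q, hq, rfl⟩
    have := MulAction.mem_stabilizer_iff.mp (hQb hq)
    rw [hT, MulAction.mem_stabilizer_iff]
    simp only [MulEquiv.coe_toMonoidHom, MulAut.conj_apply, inv_inv, mul_smul]
    rw [hg, this, inv_smul_eq_iff, hg]
  have hcardT : Nat.card T = Nat.card (MulAction.stabilizer G x) := by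
    rw [hT, ← hg₁, MulAction.stabilizer_smul_eq_stabilizer_map_conj,
      Subgroup.card_map_of_injective (MulAut.conj g₁).injective]
  have hcQ : Nat.card Q = p ^ (Nat.card (MulAction.stabilizer G x)).factorization p := by
    rw [hQ, Subgroup.card_map_of_injective (MulAction.stabilizer G x).subtype_injective]
    exact P.card_eq_multiplicity
  have hcR : Nat.card R = Nat.card Q := Subgroup.card_map_of_injective (MulAut.conj g⁻¹).injective
  let P1 : Sylow p T := Sylow.ofCard (Q.subgroupOf T) (by
    rw [Nat.card_congr (Subgroup.subgroupOfEquivOfLe hQa).toEquiv, hcQ, hcardT])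
  let P2 : Sylow p T := Sylow.ofCard (R.subgroupOf T) (by
    rw [Nat.card_congr (Subgroup.subgroupOfEquivOfLe hRT).toEquiv, hcR, hcQ, hcardT])
  obtain ⟨h, hh⟩ := MulAction.exists_smul_eq T P1 P2
  have hmap : Q.map (MulAut.conj (h : G)).toMonoidHom = R := by
    have e := congrArg (fun U : Sylow p T => ((U : Subgroup T)).map T.subtype) hh
    change ((h • P1 : Sylow p T) : Subgroup T).map T.subtype = (P2 : Subgroup T).map T.subtype at e
    rw [Sylow.coe_subgroup_smul] at e
    have e1 : (P1 : Subgroup T) = Q.subgroupOf T := rfl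
    have e2 : (P2 : Subgroup T) = R.subgroupOf T := rfl
    rw [e1, e2, Subgroup.map_subgroupOf_eq_of_le hRT] at e
    rw [← e]
    ext y
    simp only [Subgroup.mem_map, MulEquiv.coe_toMonoidHom]
    constructor
    · rintro ⟨q, hq, rfl⟩
      refine ⟨MulAut.conj h ⟨q, hQa hq⟩, ?_, by simp⟩
      exact Subgroup.smul_mem_pointwise_smul _ _ _ (Subgroup.mem_subgroupOf.mpr hq)
    · rintro ⟨z, hz, rfl⟩
      rw [Subgroup.mem_pointwise_smul_iff_inv_smul_mem, Subgroup.mem_subgroupOf] at hz
      refine ⟨_, hz, ?_⟩
      simp [MulAut.smul_def, mul_assoc]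
  refine ⟨g * h, ?_, ?_⟩
  · rw [Subgroup.mem_normalizer_iff]
    have key : Q.map (MulAut.conj (g * h)).toMonoidHom = Q := by
      have : (MulAut.conj (g * h)).toMonoidHom = ((MulAut.conj g).toMonoidHom).comp (MulAut.conj (h : G)).toMonoidHom := by
        ext y; simp [mul_assoc]
      rw [this, ← Subgroup.map_map, hmap, hR, Subgroup.map_map]
      conv_rhs => rw [← Q.map_id]
      congr 1
      ext y; simp [mul_assoc]
    intro y
    constructor
    · intro hy
      exact key.le ⟨y, hy, rfl⟩
    · intro hy
      obtain ⟨z, hz, hzy⟩ := key.ge hy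
      simp only [MulEquiv.coe_toMonoidHom, MulAut.conj_apply] at hzy
      have : z = y := mul_left_cancel (mul_right_cancel hzy)
      exact this ▸ hz
  · rw [mul_smul, MulAction.mem_stabilizer_iff.mp h.2, hg]

end Cfsg.Agent.S4219
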