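import Cfsg.Statements.S4225
import Cfsg.Agent.Lib.FgsRegular

set_option autoImplicit false
open Cfsg
open CfsgLib.FgsRegular

namespace Cfsg.Agent.S4225

/-- In a regular `p`-group, for every `k` the elements whose `p^k`-th power is `1` form a characteristic subgroup. -/
theorem result {G : Type*} [Group G] [Finite G] {p : ℕ} [Fact p.Prime] (hG : Cfsg.IsRegularPGroup p G) (k : ℕ) : ∃ H : Subgroup G, H.Characteristic ∧ (H : Set G) = {x : G | x ^ p ^ k = 1} := by
  have hF := pow_eq_iff_inv_mul hG.1 (powFormula_of_regular hG k)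
  let H : Subgroup G :=
    { carrier := {x : G | x ^ p ^ k = 1}
      one_mem' := one_pow _
      inv_mem' := fun {x} hx => by
        change x ^ p ^ k = 1 at hx
        change x⁻¹ ^ p ^ k = 1
        rw [inv_pow, hx, inv_one]
      mul_mem' := fun {x y} hx hy => by
        change x ^ p ^ k = 1 at hx
        change y ^ p ^ k = 1 at hy
        have h := (hF x⁻¹ y).1 (by rw [inv_pow, hx, inv_one, hy])
        rw [inv_inv] at h
        exact h }
  refine ⟨H, Subgroup.characteristic_iff_comap_eq.2 fun φ => ?_, rfl⟩
  ext x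
  change φ x ^ p ^ k = 1 ↔ x ^ p ^ k = 1
  rw [← map_pow, map_eq_one_iff _ φ.injective]

end Cfsg.Agent.S4225
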