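import Cfsg.Statements.S4227
import Cfsg.Agent.Lib.LocalPLength
import Cfsg.Agent.Lib.LocalPStableTwo
import Cfsg.Agent.Lib.LocalSolvable
import Cfsg.Agent.Lib.FgsTwoPrime

set_option autoImplicit false
open Cfsg
open scoped commutatorElement

namespace Cfsg.Agent.S4227

universe u

theorem eq_one_of_sylow {p m : ℕ} [Fact p.Prime] {Q : Type u} [Group Q] [Finite Q] (hQ : ∀ x : Q, x ^ (p * m) = 1)
    (hm : p.Coprime m) {S : Subgroup Q} (hS : IsPGroup p S) {x : Q} (hx : x ∈ S) : x ^ p = 1 := by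
  obtain ⟨k, hk⟩ := IsPGroup.iff_orderOf.1 hS ⟨x, hx⟩
  rw [Subgroup.orderOf_mk] at hk
  apply orderOf_dvd_iff_pow_eq_one.1
  exact ((hk ▸ hm.pow_left k : (orderOf x).Coprime m)).dvd_of_dvd_mul_right (orderOf_dvd_of_pow_eq_one (hQ x))

theorem comm_of_sq {Q : Type u} [Group Q] {S : Subgroup Q} (h : ∀ x ∈ S, x ^ 2 = 1) {a b : Q} (ha : a ∈ S)
    (hb : b ∈ S) : a * b = b * a := by
  have h1 : a⁻¹ = a := inv_eq_of_mul_eq_one_right (by rw [← pow_two]; exact h a ha)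
  have h2 : b⁻¹ = b := inv_eq_of_mul_eq_one_right (by rw [← pow_two]; exact h b hb)
  have h3 : (a * b)⁻¹ = a * b := inv_eq_of_mul_eq_one_right (by rw [← pow_two]; exact h _ (mul_mem ha hb))
  rw [mul_inv_rev, h1, h2] at h3
  exact h3.symm

theorem two_case {Q : Type u} [Group Q] [Finite Q] [Fact (Nat.Prime 2)] (hQ : ∀ x : Q, x ^ 6 = 1)
    (hC : Subgroup.centralizer (Cfsg.pCore 2 Q : Set Q) ≤ Cfsg.pCore 2 Q) (S : Sylow 2 Q) :
    (S : Subgroup Q) ≤ Cfsg.pCore 2 Q := by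
  have h2 : ∀ x ∈ (S : Subgroup Q), x ^ 2 = 1 := fun x hx => eq_one_of_sylow (m := 3) hQ (by decide) S.2 hx
  intro x hx
  refine hC (Subgroup.mem_centralizer_iff.2 fun y hy => ?_)
  exact comm_of_sq h2 (CfsgLib.Core.pCore_le_sylow S hy) hx

theorem engel {Q : Type u} [Group Q] {S : Subgroup Q} (h : ∀ x ∈ S, x ^ 3 = 1) {x y : Q} (hx : x ∈ S)
    (hy : y ∈ S) : x * (y * x * y⁻¹) = (y * x * y⁻¹) * x := by
  set b := y * x * y⁻¹ with hb
  set c := y ^ 2 * x * (y ^ 2)⁻¹ with hc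
  have hy3 : y * y * y = 1 := by
    have := h y hy
    rwa [pow_succ, pow_two] at this
  have e1 : x * b * c = (x * y) ^ 3 * (y * y * y)⁻¹ := by
    rw [hb, hc]; simp only [pow_succ, pow_zero, one_mul]; group
  have e2 : x⁻¹ * b⁻¹ * c⁻¹ = (x⁻¹ * y) ^ 3 * (y * y * y)⁻¹ := by
    rw [hb, hc]; simp only [pow_succ, pow_zero, one_mul]; group
  rw [h _ (mul_mem hx hy), hy3, inv_one, mul_one] at e1
  rw [h _ (mul_mem (inv_mem hx) hy), hy3, inv_one, mul_one] at e2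
  have e3 : c = (x * b)⁻¹ := eq_inv_of_mul_eq_one_right e1
  have e4 : c⁻¹ = (x⁻¹ * b⁻¹)⁻¹ := eq_inv_of_mul_eq_one_right e2
  rw [e3, inv_inv, mul_inv_rev, inv_inv, inv_inv] at e4
  exact e4

theorem three_case {Q : Type u} [Group Q] [Finite Q] [Fact (Nat.Prime 2)] [Fact (Nat.Prime 3)] (hQ : ∀ x : Q, x ^ 6 = 1)
    (hC : Subgroup.centralizer (Cfsg.pCore 3 Q : Set Q) ≤ Cfsg.pCore 3 Q) (S : Sylow 3 Q) :
    (S : Subgroup Q) ≤ Cfsg.pCore 3 Q := by
  have hSL : ¬ CfsgLib.PStableTwo.HasSL 3 Q :=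
    CfsgLib.PStableTwo.not_hasSL_of_abelian (by decide) fun T => ⟨⟨fun a b => Subtype.ext
      (comm_of_sq (fun x hx => eq_one_of_sylow (m := 3) hQ (by decide) T.2 hx) a.2 b.2)⟩⟩
  have h3 : ∀ x ∈ (S : Subgroup Q), x ^ 3 = 1 := fun x hx => eq_one_of_sylow (m := 2) hQ (by decide) S.2 hx
  haveI := CfsgLib.Core.normal_pCore (G := Q) 3
  set V := Cfsg.pCore 3 Q
  set C := Subgroup.centralizer (V : Set Q)
  haveI : (Cfsg.pCore 3 (Q ⧸ C)).Normal := CfsgLib.Core.normal_pCore 3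
  intro a ha
  have hq : ⁅⁅V, Subgroup.zpowers a⁆, Subgroup.zpowers a⁆ = ⊥ := by
    rw [Subgroup.commutator_eq_bot_iff_le_centralizer, Subgroup.commutator_le]
    intro v hv w hw
    rw [Subgroup.mem_centralizer_iff]
    rintro z ⟨j, rfl⟩
    obtain ⟨i, rfl⟩ := hw
    have hc : Commute a (v * a * v⁻¹) := engel h3 ha (CfsgLib.Core.pCore_le_sylow S hv)
    have e : ⁅v, a ^ i⁆ = (v * a * v⁻¹) ^ i * (a ^ i)⁻¹ := by rw [commutatorElement_def, conj_zpow]
    show a ^ j * ⁅v, a ^ i⁆ = ⁅v, a ^ i⁆ * a ^ j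
    rw [e]
    exact ((hc.zpow_zpow j i).mul_right ((Commute.refl a).zpow_zpow j i).inv_right).eq
  have hmem : (QuotientGroup.mk a : Q ⧸ C) ∈ Cfsg.pCore 3 (Q ⧸ C) := by
    by_contra hn
    exact hSL (CfsgLib.PStableTwo.hasSL_of_unstable (by decide) (CfsgLib.Core.isPGroup_pCore 3) hq hn)
  refine CfsgLib.Core.le_pCore (Subgroup.Normal.comap inferInstance (QuotientGroup.mk' C))
    ((CfsgLib.Core.isPGroup_pCore 3).comap_of_ker_isPGroup _ ?_) hmem
  rw [QuotientGroup.ker_mk']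
  exact (CfsgLib.Core.isPGroup_pCore 3).to_le hC

theorem length_one {G : Type u} [Group G] [Finite G] {p : ℕ} [Fact p.Prime] (hsol : Cfsg.IsPSolvable p G)
    (key : ∀ (Q : Type u) [Group Q] [Finite Q], ((∀ y : G, y ^ 6 = 1) → ∀ x : Q, x ^ 6 = 1) →
      Subgroup.centralizer (Cfsg.pCore p Q : Set Q) ≤ Cfsg.pCore p Q → ∀ S : Sylow p Q, (S : Subgroup Q) ≤ Cfsg.pCore p Q) :
    Cfsg.PLengthLE p 1 G := by
  obtain ⟨S⟩ := (inferInstance : Nonempty (Sylow p G))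
  set U := (Cfsg.upperPSeries p G (2 * 0 + 1)).1 with hU
  set π := QuotientGroup.mk' U
  have hπ : Function.Surjective π := QuotientGroup.mk'_surjective U
  have hV : (Cfsg.upperPSeries p G 2).1 = (Cfsg.pCore p (G ⧸ U)).comap π := by
    rw [show (2 : ℕ) = 2 * 0 + 1 + 1 from rfl, Cfsg.upperPSeries, if_neg (by decide)]
  have hfac := CfsgLib.Constrained.upperPSeries_factor (p := p) hsol 0
  rw [show 2 * 0 + 2 = 2 from rfl, hV, Subgroup.map_comap_eq_self_of_surjective hπ] at hfac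
  have hS : (S : Subgroup G) ≤ (Cfsg.upperPSeries p G 2).1 := by
    rw [hV, ← Subgroup.map_le_iff_le_comap, ← Sylow.coe_mapSurjective hπ S]
    refine key _ (fun hy x => ?_) hfac _
    obtain ⟨y, rfl⟩ := hπ x
    rw [← map_pow, hy, map_one]
  set W := (Cfsg.upperPSeries p G 2).1 with hW
  show (Cfsg.upperPSeries p G (2 + 1)).1 = ⊤
  rw [Cfsg.upperPSeries, if_pos (by decide)]
  have h1 : (Nat.card (G ⧸ W)).Coprime p := by
    rw [← Subgroup.index_eq_card]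
    exact (((Fact.out : p.Prime).coprime_iff_not_dvd.mpr
      fun hd => S.not_dvd_index (hd.trans (Subgroup.index_dvd_of_le hS)))).symm
  have h2 : (⊤ : Subgroup (G ⧸ W)) ≤ Cfsg.pPrimeCore p (G ⧸ W) :=
    CfsgLib.Core.le_pPrimeCore inferInstance (by rwa [Subgroup.card_top])
  exact eq_top_iff.mpr fun x _ => h2 (Subgroup.mem_top _)

/-- A finite group in which every element has order dividing `6` has `2`-length at most `1` and `3`-length at most `1`. -/
theorem result {G : Type*} [Group G] [Finite G] (h : ∀ x : G, x ^ 6 = 1) : Cfsg.PLengthLE 2 1 G ∧ Cfsg.PLengthLE 3 1 G := by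
  haveI hsolv : Group.IsSolvable G := CfsgLib.FgsTwoPrime.isSolvable_of_two_primes
    Nat.prime_two Nat.prime_three (by decide) (fun r hr hd => by
      haveI := Fact.mk hr
      obtain ⟨x, hx⟩ := exists_prime_orderOf_dvd_card' r hd
      have h6 : r ∣ 6 := hx ▸ orderOf_dvd_of_pow_eq_one (h x)
      rcases (hr.dvd_mul).1 (show r ∣ 2 * 3 by simpa using h6) with e | e
      · exact Or.inl ((Nat.prime_dvd_prime_iff_eq hr Nat.prime_two).1 e)
      · exact Or.inr ((Nat.prime_dvd_prime_iff_eq hr Nat.prime_three).1 e))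
  haveI : Fact (Nat.Prime 2) := ⟨Nat.prime_two⟩
  haveI : Fact (Nat.Prime 3) := ⟨Nat.prime_three⟩
  exact ⟨length_one (CfsgLib.LocalFF.isPSolvable_of_solvable _ rfl inferInstance) fun Q _ _ hQ hC S =>
    two_case (fun x => hQ (fun y => h y) x) hC S,
    length_one (CfsgLib.LocalFF.isPSolvable_of_solvable _ rfl inferInstance) fun Q _ _ hQ hC S =>
    three_case (fun x => hQ (fun y => h y) x) hC S⟩

end Cfsg.Agent.S4227
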