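import Cfsg.Statements.S4275


set_option autoImplicit false
open Cfsg

namespace Cfsg.Agent.S4275

/-- Let G be a transitive group of permutations of a finite set Ω, let o ∈ Ω, and let α be an automorphism of G. Then α is induced by conjugation by a permutation of Ω normalizing G if and only if the image under α of the stabilizer of o fixes some point of Ω. -/
theorem result {Ω : Type*} [Fintype Ω] (G : Subgroup (Equiv.Perm Ω)) (htr : MulAction.IsPretransitive G Ω) (o : Ω) (α : G ≃* G) : (∃ σ : Equiv.Perm Ω, σ ∈ Subgroup.normalizer (G : Set (Equiv.Perm Ω)) ∧ ∀ g : G, ((α g : G) : Equiv.Perm Ω) = σ * (g : Equiv.Perm Ω) * σ⁻¹) ↔ ∃ ω : Ω, ∀ g ∈ (MulAction.stabilizer G o).map α.toMonoidHom, g • ω = ω := by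
  classical
  haveI := htr
  constructor
  · rintro ⟨σ, -, hσ⟩
    refine ⟨σ o, ?_⟩
    rintro _ ⟨g, hg, rfl⟩
    show ((α g : G) : Equiv.Perm Ω) (σ o) = σ o
    rw [hσ]
    simp only [Equiv.Perm.mul_apply, Equiv.Perm.inv_def, Equiv.symm_apply_apply]
    exact congrArg σ (hg : g • o = o)
  · rintro ⟨ω, hω⟩
    choose f hf using fun x : Ω => MulAction.exists_smul_eq G o x
    have hwd : ∀ g : G, α g • ω = α (f (g • o)) • ω := by
      intro g
      have hmem : (f (g • o))⁻¹ * g ∈ MulAction.stabilizer G o := by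
        rw [MulAction.mem_stabilizer_iff, mul_smul, inv_smul_eq_iff, hf]
      have h := hω _ ⟨_, hmem, rfl⟩
      rw [MulEquiv.coe_toMonoidHom, map_mul, map_inv, mul_smul, inv_smul_eq_iff] at h
      exact h
    let s : Ω → Ω := fun x => α (f x) • ω
    have hs : Function.Surjective s := by
      intro y
      obtain ⟨k, hk⟩ := MulAction.exists_smul_eq G ω y
      refine ⟨α.symm k • o, ?_⟩
      show α (f (α.symm k • o)) • ω = y
      rw [← hwd, MulEquiv.apply_symm_apply, hk]
    let σ : Equiv.Perm Ω := Equiv.ofBijective s ⟨Finite.injective_iff_surjective.mpr hs, hs⟩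
    have hcomm : ∀ (g : G) (x : Ω), σ ((g : Equiv.Perm Ω) x) = ((α g : G) : Equiv.Perm Ω) (σ x) := by
      intro g x
      show α (f (g • x)) • ω = α g • (α (f x) • ω)
      rw [← mul_smul, ← map_mul]
      conv_rhs => rw [hwd]
      rw [mul_smul, hf]
    have hconj : ∀ g : G, ((α g : G) : Equiv.Perm Ω) = σ * (g : Equiv.Perm Ω) * σ⁻¹ := by
      intro g
      ext x
      have h := hcomm g (σ⁻¹ x)
      simp only [Equiv.Perm.inv_def, Equiv.apply_symm_apply] at h
      exact h.symm
    refine ⟨σ, Subgroup.mem_normalizer_iff.mpr fun k => ⟨fun hk => ?_, fun hk => ?_⟩, hconj⟩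
    · exact hconj ⟨k, hk⟩ ▸ (α ⟨k, hk⟩).2
    · have h := hconj (α.symm ⟨_, hk⟩)
      rw [MulEquiv.apply_symm_apply] at h
      have h2 : k = ((α.symm ⟨_, hk⟩ : G) : Equiv.Perm Ω) := mul_left_cancel (mul_right_cancel h)
      exact h2 ▸ (α.symm _).2

end Cfsg.Agent.S4275
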