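import Cfsg.Statements.S4283
import Mathlib
import Cfsg.Agent.Lib.CoreFrobenius

set_option autoImplicit false
open Cfsg
open scoped Pointwise

namespace Cfsg.Agent.S4283

/-- Let G be a finite group with centre Z and let K, H be abelian subgroups of G containing Z such that G/Z is a Frobenius group with complement H/Z and kernel K/Z. Then the conjugacy class sizes of G are exactly 1, [G : K] and [G : H], and these two indices are coprime. (This is the converse half of the characterization of finite groups whose conjugacy class sizes are exactly 1, m and n with m and n coprime.) -/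
theorem result {G : Type*} [Group G] [Finite G] (K H : Subgroup G) (hZK : Subgroup.center G ≤ K) (hZH : Subgroup.center G ≤ H) (hK : IsMulCommutative K) (hH : IsMulCommutative H) (hFrob : Cfsg.IsFrobeniusComplement (H.map (QuotientGroup.mk' (Subgroup.center G)))) (hker : Cfsg.frobeniusKernel (H.map (QuotientGroup.mk' (Subgroup.center G))) = (K.map (QuotientGroup.mk' (Subgroup.center G)) : Set (G ⧸ Subgroup.center G))) : Set.range (fun x : G => (Subgroup.centralizer ({x} : Set G)).index) = ({1, K.index, H.index} : Set ℕ) ∧ K.index.Coprime H.index := by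
  classical
  set Z := Subgroup.center G
  set f := QuotientGroup.mk' Z with hf
  have hfs : Function.Surjective f := QuotientGroup.mk'_surjective Z
  set Kb := K.map f
  set Hb := H.map f
  obtain ⟨K0, hK0n, hK0s, hinf, hsup, hcard⟩ := CfsgLib.Core.exists_kernel hFrob
  obtain rfl : K0 = Kb := SetLike.coe_injective (hK0s.trans hker)
  haveI := hK0n
  have hKi : Kb.index = K.index := Subgroup.index_map_eq _ hfs ((QuotientGroup.ker_mk' Z).le.trans hZK)
  have hHi : Hb.index = H.index := Subgroup.index_map_eq _ hfs ((QuotientGroup.ker_mk' Z).le.trans hZH)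
  have hKH : Kb.index = Nat.card Hb := by
    have h1 := Kb.card_mul_index
    have h2 := Hb.card_mul_index
    rw [← h2, hcard, mul_comm (Nat.card Hb)] at h1
    exact Nat.eq_of_mul_eq_mul_left (Nat.pos_of_ne_zero Subgroup.index_ne_zero_of_finite) h1
  have hmem : ∀ {S : Subgroup G}, Z ≤ S → ∀ g : G, f g ∈ S.map f → g ∈ S := by
    intro S hS g hg
    have : g ∈ (S.map f).comap f := hg
    rwa [Subgroup.comap_map_eq, QuotientGroup.ker_mk', sup_eq_left.mpr hS] at this
  have habel : ∀ a ∈ Kb, ∀ b ∈ Kb, a * b = b * a := by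
    rintro _ ⟨a, ha, rfl⟩ _ ⟨b, hb, rfl⟩
    rw [← map_mul, ← map_mul]
    exact congrArg f (congrArg Subtype.val (hK.is_comm.comm ⟨a, ha⟩ ⟨b, hb⟩))
  have hCK : ∀ x ∈ K, x ∉ Z → Subgroup.centralizer ({x} : Set G) = K := by
    intro x hx hxZ
    refine le_antisymm (fun g hg => hmem hZK g ?_) (fun g hg => Subgroup.mem_centralizer_singleton_iff.mpr
      (congrArg Subtype.val (hK.is_comm.comm ⟨g, hg⟩ ⟨x, hx⟩)))
    have hfx : f x ≠ 1 := fun e => hxZ ((QuotientGroup.eq_one_iff x).mp e)
    have hc : f g * f x = f x * f g := by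
      rw [← map_mul, ← map_mul, Subgroup.mem_centralizer_singleton_iff.mp hg]
    have : f g ∈ Kb ⊔ Hb := hsup ▸ Subgroup.mem_top _
    obtain ⟨k, hk, u, hu, hku⟩ := Subgroup.mem_sup_of_normal_left.mp this
    have hxK : f x ∈ Kb := ⟨x, hx, rfl⟩
    have hu1 : u = 1 := by
      by_contra hne
      refine hfx (CfsgLib.Core.eq_one_of_commute_kernel hFrob hinf hu hne hxK ?_)
      apply mul_left_cancel (a := k)
      rw [← mul_assoc, hku, hc, ← hku, ← mul_assoc, ← mul_assoc, habel _ hxK _ hk]
    rw [← hku, hu1, mul_one]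
    exact hk
  have hCH : ∀ x ∈ H, x ∉ Z → Subgroup.centralizer ({x} : Set G) = H := by
    intro x hx hxZ
    refine le_antisymm (fun g hg => hmem hZH g ?_) (fun g hg => Subgroup.mem_centralizer_singleton_iff.mpr
      (congrArg Subtype.val (hH.is_comm.comm ⟨g, hg⟩ ⟨x, hx⟩)))
    by_contra hgH
    refine hxZ ((QuotientGroup.eq_one_iff x).mp ?_)
    refine CfsgLib.Core.malnormal_of_isFrobeniusComplement hFrob (f g) hgH (f x) ⟨x, hx, rfl⟩ ?_
    refine ⟨x, hx, ?_⟩
    rw [← map_inv, ← map_mul, ← map_mul, Subgroup.mem_centralizer_singleton_iff.mp hg, mul_inv_cancel_right]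
  have hcentral : ∀ x ∈ Z, (Subgroup.centralizer ({x} : Set G)).index = 1 := by
    intro x hx
    rw [Subgroup.index_eq_one, eq_top_iff]
    intro g _
    exact Subgroup.mem_centralizer_singleton_iff.mpr (Subgroup.mem_center_iff.mp hx g)
  refine ⟨Set.ext fun i => ⟨?_, ?_⟩, ?_⟩
  · rintro ⟨x, rfl⟩
    by_cases hxZ : x ∈ Z
    · exact Or.inl (hcentral x hxZ)
    by_cases hxK : x ∈ K
    · exact Or.inr (Or.inl (congrArg Subgroup.index (hCK x hxK hxZ)))
    refine Or.inr (Or.inr ?_)
    have hnk : f x ∉ (Kb : Set (G ⧸ Z)) := fun h => hxK (hmem hZK x h)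
    rw [← hker] at hnk
    have hnk' : ¬ (f x = 1 ∨ ∀ gb : G ⧸ Z, f x ∉ MulAut.conj gb • Hb) := hnk
    push Not at hnk'
    obtain ⟨-, gb, hgb⟩ := hnk'
    obtain ⟨g, rfl⟩ := hfs gb
    rw [CfsgLib.Core.mem_conj_smul, ← map_inv, ← map_mul, ← map_mul] at hgb
    have hy : g⁻¹ * x * g ∈ H := hmem hZH _ hgb
    have hyZ : g⁻¹ * x * g ∉ Z := fun h => hxZ (by
      have := (inferInstance : (Subgroup.center G).Normal).conj_mem _ h g
      simpa [mul_assoc] using this)
    show (Subgroup.centralizer ({x} : Set G)).index = H.index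
    conv_rhs => rw [← hCH _ hy hyZ]
    rw [← Subgroup.index_map_equiv (Subgroup.centralizer ({g⁻¹ * x * g} : Set G)) (MulAut.conj g),
      show (Subgroup.centralizer ({g⁻¹ * x * g} : Set G)).map (MulAut.conj g : G →* G) =
        Subgroup.centralizer ({x} : Set G) from ?_]
    ext u
    rw [Subgroup.mem_map]
    simp only [Subgroup.mem_centralizer_singleton_iff]
    constructor
    · rintro ⟨v, hv, rfl⟩
      show g * v * g⁻¹ * x = x * (g * v * g⁻¹)
      calc g * v * g⁻¹ * x = g * (v * (g⁻¹ * x * g)) * g⁻¹ := by group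
        _ = g * ((g⁻¹ * x * g) * v) * g⁻¹ := by rw [hv]
        _ = x * (g * v * g⁻¹) := by group
    · intro hu
      refine ⟨g⁻¹ * u * g, ?_, show g * (g⁻¹ * u * g) * g⁻¹ = u by group⟩
      calc g⁻¹ * u * g * (g⁻¹ * x * g) = g⁻¹ * (u * x) * g := by group
        _ = g⁻¹ * (x * u) * g := by rw [hu]
        _ = g⁻¹ * x * g * (g⁻¹ * u * g) := by group
  · have hne : Kb ≠ ⊥ := fun e => hFrob.2.1 (Subgroup.index_eq_one.mp (by
      have := hcard; rw [e, Subgroup.card_bot] at this; exact this.symm))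
    rintro (rfl | rfl | rfl)
    · exact ⟨1, hcentral 1 (one_mem _)⟩
    · obtain ⟨_, ⟨x, hx, rfl⟩, hx1⟩ := Kb.bot_or_exists_ne_one.resolve_left hne
      exact ⟨x, congrArg Subgroup.index (hCK x hx fun h => hx1 ((QuotientGroup.eq_one_iff x).mpr h))⟩
    · obtain ⟨_, ⟨x, hx, rfl⟩, hx1⟩ := Hb.bot_or_exists_ne_one.resolve_left hFrob.1
      exact ⟨x, congrArg Subgroup.index (hCH x hx fun h => hx1 ((QuotientGroup.eq_one_iff x).mpr h))⟩
  · rw [← hKi, ← hHi, hKH]
    exact CfsgLib.Core.coprime_card_index hFrob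

end Cfsg.Agent.S4283
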