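import Cfsg.Statements.S4291
import Cfsg.Agent.Lib.PermFpfComplement2
import Cfsg.Agent.Lib.CoreFrobenius

set_option autoImplicit false
open Cfsg

namespace Cfsg.Agent.S4291

open CfsgLib.FpfQuat

/-- Let G be a finite group that occurs as a Frobenius complement. Then G has exactly one normal subgroup N such that every Sylow subgroup of N is cyclic and the quotient of G by N is trivial or isomorphic to one of the following five groups: the Klein four-group, the alternating group of degree 4, the symmetric group of degree 4, the alternating group of degree 5, the symmetric group of degree 5. (The quotient is described by a surjective homomorphism with kernel N; the Klein four-group is written as the dihedral group of order 4.) -/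
theorem result {G : Type*} [Group G] [Finite G]
    (hFC : (∃ (L : Type) (_ : Group L) (_ : Finite L) (H : Subgroup L), Cfsg.IsFrobeniusComplement H ∧ Nonempty (G ≃* H))) :
    ∃! N : Subgroup G, N.Normal ∧ (∀ (p : ℕ) [Fact p.Prime] (P : Sylow p N), IsCyclic P) ∧
      (N = ⊤ ∨
        (∃ f : G →* DihedralGroup 2, Function.Surjective f ∧ f.ker = N) ∨
        (∃ f : G →* alternatingGroup (Fin 4), Function.Surjective f ∧ f.ker = N) ∨
        (∃ f : G →* Equiv.Perm (Fin 4), Function.Surjective f ∧ f.ker = N) ∨
        (∃ f : G →* alternatingGroup (Fin 5), Function.Surjective f ∧ f.ker = N) ∨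
        (∃ f : G →* Equiv.Perm (Fin 5), Function.Surjective f ∧ f.ker = N)) := by
  obtain ⟨L, _, _, H, hH, ⟨e⟩⟩ := hFC
  obtain ⟨K, hK, -, hKH, hsup, -⟩ := CfsgLib.Core.exists_kernel hH
  haveI := hK
  haveI : Nontrivial G := by
    by_contra h
    rw [not_nontrivial_iff_subsingleton] at h
    haveI : Subsingleton H := e.symm.toEquiv.subsingleton
    exact hH.1 (Subgroup.eq_bot_of_subsingleton H)
  haveI : Nontrivial K := (Subgroup.nontrivial_iff_ne_bot K).mpr fun h => hH.2.1 (by
    rwa [h, bot_sup_eq] at hsup)
  let σ : G →* MulAut K := (MulAut.conjNormal : L →* MulAut K).comp (H.subtype.comp e.toMonoidHom)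
  obtain ⟨A, iR, iA, hA, ⟨R⟩⟩ := exists_fpfRep_of_aut σ fun g hg x hx => by
    have h1 : ((e g : H) : L) * x * ((e g : H) : L)⁻¹ = x := congrArg Subtype.val hx
    refine Subtype.ext ?_
    by_cases hxH : (x : L) ∈ H
    · have h2 : (x : L) ∈ K ⊓ H := ⟨x.2, hxH⟩
      rwa [hKH, Subgroup.mem_bot] at h2
    · exfalso
      refine hg (e.injective (Subtype.ext ?_))
      rw [map_one]
      refine CfsgLib.Core.malnormal_of_isFrobeniusComplement hH (x : L) hxH _ (e g).2 ?_
      have h3 : (x : L) * (e g : H) * (x : L)⁻¹ = (e g : H) := by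
        calc (x : L) * (e g : H) * (x : L)⁻¹
            = ((e g : H) : L) * x * ((e g : H) : L)⁻¹ * (e g : H) * (x : L)⁻¹ := by rw [h1]
          _ = (e g : H) := by group
      rw [h3]
      exact (e g).2
  obtain ⟨N, hN, hNZ, hNg⟩ := exists_good R
  refine ⟨N, ⟨hN, fun p hp P => hNZ.isZGroup p hp.out P, hNg⟩, ?_⟩
  rintro N' ⟨hN', hc, hg'⟩
  exact good_unique R hN' hN ⟨fun p hp P => by haveI := Fact.mk hp; exact hc p P⟩ hNZ hg' hNg

end Cfsg.Agent.S4291
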