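import Cfsg.Statements.S4293
import Cfsg.Agent.Lib.FgsDivisionRing

set_option autoImplicit false
open Cfsg

namespace Cfsg.Agent.S4293

/-- A nontrivial finite subgroup of the multiplicative group of a division ring occurs as a Frobenius complement of some finite Frobenius group. -/
theorem result {D : Type*} [DivisionRing D] (H : Subgroup Dˣ) [Finite H] (hH : H ≠ ⊥) :
    ∃ (L : Type) (_ : Group L) (_ : Finite L) (C : Subgroup L), Cfsg.IsFrobeniusComplement C ∧ Nonempty (H ≃* C) := by
  classical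
  haveI : Small.{0} H := inferInstance
  let e : Shrink.{0} H ≃* H := Shrink.mulEquiv
  haveI : Finite (Shrink.{0} H) := Finite.of_equiv H e.symm.toEquiv
  letI := Fintype.ofFinite (Shrink.{0} H)
  let ι : Shrink.{0} H →* D := (Units.coeHom D).comp (H.subtype.comp e.toMonoidHom)
  have hι : Function.Injective ι := fun a b h => e.injective (Subtype.ext (Units.ext h))
  have hne : Nontrivial (Shrink.{0} H) := by
    haveI : Nontrivial H := (Subgroup.nontrivial_iff_ne_bot H).2 hH
    exact e.toEquiv.nontrivial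
  obtain ⟨ℓ, hℓ, hcop, h1⟩ := CfsgLib.FgsDivisionRing.exists_prime ι hι
  haveI : NeZero ℓ := ⟨hℓ.ne_zero⟩
  obtain ⟨L, i1, i2, C, hC, ⟨f⟩⟩ := CfsgLib.FgsDivisionRing.exists_frobenius ι ℓ hι hne hcop h1
  exact ⟨L, i1, i2, C, hC, ⟨e.symm.trans f⟩⟩

end Cfsg.Agent.S4293
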