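import Cfsg.Statements.S4296
import Cfsg.Agent.Lib.CoreFpfComplement
import Cfsg.Agent.Lib.CoreFrobenius
import Cfsg.Agent.Lib.FgsAnticomm

set_option autoImplicit false
open Cfsg
open Subgroup

namespace Cfsg.Agent.S4296

/-- Let H be a Frobenius complement in a finite group, and suppose some Sylow subgroup of H is not cyclic. Then the number of elements of the Frobenius kernel (the identity together with the elements lying in no conjugate of H) is an odd perfect square. -/
theorem result {L : Type*} [Group L] [Finite L] (H : Subgroup L) (hF : Cfsg.IsFrobeniusComplement H)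
    (hZ : ∃ (p : ℕ) (_ : Fact p.Prime) (P : Sylow p H), ¬ IsCyclic P) :
    Odd (Nat.card (Cfsg.frobeniusKernel H)) ∧ IsSquare (Nat.card (Cfsg.frobeniusKernel H)) := by
  classical
  obtain ⟨p, hp, P, hP⟩ := hZ
  obtain ⟨K, hKn, hKset, hKH, hKH', hKcard⟩ := CfsgLib.Core.exists_kernel hF
  haveI := hKn
  have hcardK : Nat.card K = Nat.card (Cfsg.frobeniusKernel H) := by rw [← hKset]; rfl
  rw [← hcardK]
  have hK0 : K ≠ ⊥ := by
    intro e
    rw [e, Subgroup.card_bot] at hKcard
    exact hF.2.1 (Subgroup.index_eq_one.mp hKcard.symm)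
  have hfree : ∀ h ∈ H, h ≠ 1 → ∀ k ∈ K, h * k = k * h → k = 1 := fun h hh h1 k hk hc =>
    CfsgLib.Core.eq_one_of_commute_kernel hF hKH hh h1 hk hc
  set Q : Subgroup L := (P : Subgroup H).map H.subtype with hQ
  let e : P ≃* Q := (P : Subgroup H).equivMapOfInjective H.subtype H.subtype_injective
  have hQH : Q ≤ H := Subgroup.map_subtype_le _
  rcases CfsgLib.Core.cyclic_or_quaternion_of_fpf (P.isPGroup'.map H.subtype)
    (le_top.trans_eq (Subgroup.normalizer_eq_top_iff.mpr hKn).symm) hK0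
    (fun a ha => hfree a (hQH ha)) with hc | ⟨-, n, ⟨f⟩⟩
  · haveI := hc
    exact absurd (isCyclic_of_surjective e.symm e.symm.surjective) hP
  obtain ⟨m, rfl⟩ : ∃ m, n = m + 1 := by
    refine ⟨n - 1, (Nat.succ_pred_eq_of_ne_zero ?_).symm⟩
    rintro rfl
    haveI : IsCyclic (QuaternionGroup (2 ^ 0)) :=
      QuaternionGroup.quaternionGroup_one_isCyclic
    exact hP (isCyclic_of_surjective (e.trans f).symm (e.trans f).symm.surjective)
  set u : QuaternionGroup (2 ^ (m + 1)) := QuaternionGroup.a ((2 ^ m : ℕ)) with hu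
  set w : QuaternionGroup (2 ^ (m + 1)) := QuaternionGroup.xa 0 with hw
  have huu : u * u = w * w := by
    rw [hu, hw, QuaternionGroup.a_mul_a, QuaternionGroup.xa_mul_xa]
    congr 1
    push_cast
    ring
  have hwu : w * u = (w * w) * (u * w) := by
    rw [hu, hw]
    simp only [QuaternionGroup.a_mul_xa, QuaternionGroup.xa_mul_a, QuaternionGroup.xa_mul_xa]
    congr 1
    have h0 : ((2 * 2 ^ (m + 1) : ℕ) : ZMod (2 * 2 ^ (m + 1))) = 0 := ZMod.natCast_self _
    push_cast at h0 ⊢
    ring_nf at h0 ⊢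
    linear_combination h0
  have hz1 : (w * w) ≠ 1 := by
    intro h
    have := QuaternionGroup.orderOf_xa (n := 2 ^ (m + 1)) (0 : ZMod (2 * 2 ^ (m + 1)))
    rw [← hw] at this
    have h2 : orderOf w ∣ 2 := orderOf_dvd_of_pow_eq_one (by rw [pow_two]; exact h)
    rw [this] at h2
    norm_num at h2
  set x : L := ((f.symm u : Q) : L) with hx
  set y : L := ((f.symm w : Q) : L) with hy
  have hxy : x * x = y * y := by
    simp only [hx, hy, ← Subgroup.coe_mul, ← map_mul, huu]
  have hyx : y * x = (y * y) * (x * y) := by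
    simp only [hx, hy, ← Subgroup.coe_mul, ← map_mul]
    rw [← hwu]
  have hzH : y * y ∈ H := hQH ((f.symm w * f.symm w : Q)).2
  have hzne : y * y ≠ 1 := by
    intro h
    apply hz1
    apply f.symm.injective
    rw [map_one, map_mul]
    exact Subtype.ext h
  have hzz : (y * y) * (y * y) = 1 := by
    have h4 : w ^ 4 = 1 := by
      rw [← QuaternionGroup.orderOf_xa (n := 2 ^ (m + 1)) (0 : ZMod (2 * 2 ^ (m + 1))), ← hw]
      exact pow_orderOf_eq_one w
    have h5 := congrArg (fun q => ((f.symm q : Q) : L)) h4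
    simp only [map_pow, map_one, Subgroup.coe_pow, Subgroup.coe_one] at h5
    rw [← h5, hy]
    simp [pow_succ, mul_assoc]
  have hevenH : 2 ∣ Nat.card H := by
    have h2 : orderOf (⟨y * y, hzH⟩ : H) = 2 :=
      orderOf_eq_prime (Subtype.ext (by simpa [pow_two] using hzz))
        (fun h => hzne (congrArg Subtype.val h))
    exact h2 ▸ orderOf_dvd_natCard _
  have hoddK : Odd (Nat.card K) := by
    rw [← Nat.not_even_iff_odd, even_iff_two_dvd]
    intro h
    have := Nat.dvd_gcd hevenH (hKcard ▸ h)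
    rw [CfsgLib.Core.coprime_card_index hF] at this
    norm_num at this
  refine ⟨hoddK, ?_⟩
  have hinv : ∀ k ∈ K, (y * y) * k * (y * y)⁻¹ = k⁻¹ := by
    set z := y * y with hz
    have hzi : z⁻¹ = z := inv_eq_of_mul_eq_one_right hzz
    let F : K → K := fun k => ⟨(k : L)⁻¹ * (z * k * z⁻¹), K.mul_mem (K.inv_mem k.2) (hKn.conj_mem _ k.2 z)⟩
    have hFinj : Function.Injective F := by
      intro k l hkl
      have h : (k : L)⁻¹ * (z * k * z⁻¹) = (l : L)⁻¹ * (z * l * z⁻¹) := congrArg Subtype.val hkl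
      have h1 : ((l : L) * (k : L)⁻¹) = z * l * (z * k)⁻¹ := by
        calc (l : L) * (k : L)⁻¹ = l * ((k : L)⁻¹ * (z * k * z⁻¹)) * (z * k * z⁻¹)⁻¹ := by group
          _ = z * l * (z * k)⁻¹ := by rw [h]; group
      have h2 := hfree z hzH hzne ((l : L) * (k : L)⁻¹) (K.mul_mem l.2 (K.inv_mem k.2)) (by
        calc z * ((l : L) * (k : L)⁻¹) = z * l * (z * k)⁻¹ * z := by group
          _ = (l : L) * (k : L)⁻¹ * z := by rw [← h1])
      exact Subtype.ext (mul_inv_eq_one.mp h2).symm
    intro k hk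
    obtain ⟨⟨l, hl⟩, hkl⟩ := Finite.injective_iff_surjective.mp hFinj ⟨k, hk⟩
    have h : l⁻¹ * (z * l * z⁻¹) = k := congrArg Subtype.val hkl
    rw [← h, hzi]
    calc z * (l⁻¹ * (z * l * z)) * z = z * l⁻¹ * z * l * (z * z) := by group
      _ = z⁻¹ * l⁻¹ * z⁻¹ * l := by rw [hzz, mul_one, hzi]
      _ = _ := by group
  haveI : IsMulCommutative K := ⟨⟨fun a b => Subtype.ext (by
    have h := hinv _ (K.mul_mem a.2 b.2)
    have h' : (y * y) * ((a : L) * b) * (y * y)⁻¹ = (a : L)⁻¹ * (b : L)⁻¹ := by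
      rw [← hinv _ a.2, ← hinv _ b.2]; group
    rw [h, mul_inv_rev] at h'
    simpa using congrArg (·⁻¹) h')⟩⟩
  letI : CommGroup K := { (inferInstance : Group K) with mul_comm := mul_comm' }
  let act : L → (K →* K) := fun g =>
    { toFun := fun k => ⟨g * k * g⁻¹, hKn.conj_mem _ k.2 g⟩
      map_one' := Subtype.ext (by simp)
      map_mul' := fun a b => Subtype.ext (by simp [mul_assoc]) }
  refine CfsgLib.Fgs.isSquare_card_of_anticomm hoddK (act x) (act y) (fun k => Subtype.ext ?_)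
    (fun k => Subtype.ext ?_) (fun k => Subtype.ext ?_)
  · show x * (x * k * x⁻¹) * x⁻¹ = (k : L)⁻¹
    rw [← hinv _ k.2, ← hxy]; group
  · show y * (y * k * y⁻¹) * y⁻¹ = (k : L)⁻¹
    rw [← hinv _ k.2]; group
  · show y * (x * k * x⁻¹) * y⁻¹ = (x * (y * k * y⁻¹) * x⁻¹)⁻¹
    rw [← hinv _ (hKn.conj_mem _ (hKn.conj_mem _ k.2 y) x)]
    calc y * (x * k * x⁻¹) * y⁻¹ = (y * x) * k * (y * x)⁻¹ := by group
      _ = _ := by rw [hyx]; group

end Cfsg.Agent.S4296
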