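import Cfsg.Statements.S4295
import Cfsg.Agent.Lib.FgsFrobConstruct
import Cfsg.Agent.S4296

set_option autoImplicit false
open Cfsg

namespace Cfsg.Agent.S4295

/-- For a natural number m the following are equivalent: (a) some finite group has a Frobenius complement isomorphic to the quaternion group of order 8 whose Frobenius kernel (the identity together with the elements lying in no conjugate of the complement) has exactly m elements; (b) m is an odd perfect square greater than 1. -/
theorem result (m : ℕ) :
    (∃ (L : Type) (_ : Group L) (_ : Finite L) (H : Subgroup L), Cfsg.IsFrobeniusComplement H ∧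
        Nonempty (H ≃* QuaternionGroup 2) ∧ Nat.card (Cfsg.frobeniusKernel H) = m) ↔
    (Odd m ∧ IsSquare m ∧ 1 < m) := by
  constructor
  · rintro ⟨L, i1, i2, H, hH, ⟨e⟩, rfl⟩
    haveI : Fact (Nat.Prime 2) := ⟨Nat.prime_two⟩
    have hp : IsPGroup 2 H :=
      IsPGroup.of_card (n := 3) (by rw [Nat.card_congr e.toEquiv, Nat.card_eq_fintype_card, QuaternionGroup.card]; rfl)
    let P : Sylow 2 H := default
    have hnc : ¬ IsCyclic P := by
      intro hc
      have htop : (P : Subgroup H) = ⊤ := P.3 (hp.of_equiv Subgroup.topEquiv.symm) le_top |>.symm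
      haveI : IsCyclic (⊤ : Subgroup H) := htop ▸ hc
      haveI : IsCyclic H := isCyclic_of_surjective Subgroup.topEquiv Subgroup.topEquiv.surjective
      haveI : IsCyclic (QuaternionGroup 2) := isCyclic_of_surjective e e.surjective
      have hcomm : ∀ x y : QuaternionGroup 2, x * y = y * x :=
        fun x y => (IsCyclic.commGroup (α := QuaternionGroup 2)).mul_comm x y
      exact absurd (hcomm (QuaternionGroup.a 1) (QuaternionGroup.xa 0)) (by decide)
    obtain ⟨ho, hs⟩ := Cfsg.Agent.S4296.result H hH ⟨2, inferInstance, P, hnc⟩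
    refine ⟨ho, hs, ?_⟩
    obtain ⟨K, -, hKset, -, -, hKcard⟩ := CfsgLib.Core.exists_kernel hH
    rw [← hKset]
    change 1 < Nat.card K
    rw [hKcard]
    exact Subgroup.one_lt_index_of_ne_top hH.2.1
  · rintro ⟨ho, ⟨k, rfl⟩, h1⟩
    have hk1 : 1 < k := by
      by_contra h
      have hle : k ≤ 1 := by omega
      nlinarith
    obtain ⟨L, i1, i2, C, hC, ⟨e⟩, hcard⟩ :=
      CfsgLib.Fgs.FrobConstruct.exists_of_q8 k (Nat.Odd.of_mul_left ho) hk1
    exact ⟨L, i1, i2, C, hC, ⟨e.symm⟩, by rw [hcard, pow_two]⟩

end Cfsg.Agent.S4295
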