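import Cfsg.Statements.S4299
import Cfsg.Agent.Lib.FgsFrobConstruct

set_option autoImplicit false
open Cfsg

namespace Cfsg.Agent.S4299

/-- Every nontrivial finite cyclic group occurs as a Frobenius complement of some finite Frobenius group. -/
theorem result {C : Type*} [Group C] [Finite C] [IsCyclic C] [Nontrivial C] :
    ∃ (L : Type) (_ : Group L) (_ : Finite L) (H : Subgroup L), Cfsg.IsFrobeniusComplement H ∧ Nonempty (C ≃* H) := by
  exact CfsgLib.Fgs.FrobConstruct.exists_of_cyclic

end Cfsg.Agent.S4299
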