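import Cfsg.Statements.S4300


set_option autoImplicit false
open Cfsg

namespace Cfsg.Agent.S4300

/-- Let G act faithfully and primitively on a set X, and suppose the stabilizer of some point is a simple group. Then either G is simple, or G has a normal subgroup, neither trivial nor the whole group, that acts regularly on X (transitively with trivial point stabilizers). -/
theorem result {G : Type*} [Group G] {X : Type*} [MulAction G X] [FaithfulSMul G X]
    (hprim : MulAction.IsPreprimitive G X) (x : X) (hsimple : IsSimpleGroup (MulAction.stabilizer G x)) :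
    IsSimpleGroup G ∨ ∃ N : Subgroup G, N.Normal ∧ N ≠ ⊥ ∧ N ≠ ⊤ ∧
      MulAction.IsPretransitive N X ∧ ∀ y : X, MulAction.stabilizer N y = ⊥ := by
  classical
  haveI := hprim
  haveI := hsimple
  by_cases hS : IsSimpleGroup G
  · exact Or.inl hS
  right
  haveI : Nontrivial G := (Subgroup.subtype_injective (MulAction.stabilizer G x)).nontrivial
  obtain ⟨N, hN, hN0, hNT⟩ : ∃ N : Subgroup G, N.Normal ∧ N ≠ ⊥ ∧ N ≠ ⊤ := by
    by_contra hcon
    push Not at hcon
    exact hS ⟨fun N hN => or_iff_not_imp_left.mpr (hcon N hN)⟩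
  haveI := hN
  have hfix : ¬ MulAction.fixedPoints N X = Set.univ := by
    intro e
    apply hN0
    rw [eq_bot_iff]
    intro n hn
    rw [Subgroup.mem_bot]
    refine FaithfulSMul.eq_of_smul_eq_smul (α := X) fun y => ?_
    rw [one_smul]
    exact (e ▸ Set.mem_univ y : y ∈ MulAction.fixedPoints N X) ⟨n, hn⟩
  have htr : MulAction.IsPretransitive N X :=
    MulAction.IsQuasiPreprimitive.isPretransitive_of_normal hfix
  refine ⟨N, hN, hN0, hNT, htr, fun y => ?_⟩
  haveI := htr
  rcases (inferInstance : (N.subgroupOf (MulAction.stabilizer G x)).Normal).eq_bot_or_eq_top with h | h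
  · obtain ⟨n, rfl⟩ := MulAction.exists_smul_eq N x y
    rw [MulAction.stabilizer_smul_eq_stabilizer_map_conj]
    have : MulAction.stabilizer N x = ⊥ := by
      rw [eq_bot_iff]
      intro m hm
      have hm' : (⟨(m : G), hm⟩ : MulAction.stabilizer G x) ∈ N.subgroupOf (MulAction.stabilizer G x) := m.2
      rw [h, Subgroup.mem_bot] at hm'
      rw [Subgroup.mem_bot]
      exact Subtype.ext (congrArg (fun g : MulAction.stabilizer G x => (g : G)) hm')
    rw [this, Subgroup.map_bot]
  · exfalso
    apply hNT
    rw [Subgroup.subgroupOf_eq_top] at h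
    rw [eq_top_iff]
    intro g _
    obtain ⟨n, hn⟩ := MulAction.exists_smul_eq N x (g • x)
    have hmem : (n : G)⁻¹ * g ∈ MulAction.stabilizer G x := by
      rw [MulAction.mem_stabilizer_iff, mul_smul, ← hn, Subgroup.smul_def, inv_smul_smul]
    have := N.mul_mem n.2 (h hmem)
    rwa [mul_inv_cancel_left] at this

end Cfsg.Agent.S4300
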