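import Cfsg.Statements.S4301
import Mathlib

set_option autoImplicit false
open Cfsg

namespace Cfsg.Agent.S4301

/-- One-point extension of a multiply transitive group. Let X be a set and G a group of permutations of Option X (the set X with one extra point ∗ = none) all of whose elements fix ∗, such that G is k-transitive on the points of X for some k ≥ 2, X having at least k points. Suppose a permutation h of Option X and an element g of G satisfy: h interchanges ∗ with a point x of X and fixes a point y of X; g interchanges x and y; (g h)³ and h² lie in G; and for every f in G fixing x, the product h f h lies in G and fixes x. Then an element of the group generated by G and h fixes ∗ exactly when it lies in G, and that group acts (k+1)-transitively on Option X. -/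
theorem result {X : Type*} (G : Subgroup (Equiv.Perm (Option X))) (hfix : ∀ f ∈ G, f none = none)
    (k : ℕ) (hk : 2 ≤ k) (hkX : Nonempty (Fin k ↪ X))
    (htrans : ∀ a b : Fin k ↪ X, ∃ f ∈ G, ∀ i, f (some (a i)) = some (b i))
    (h g : Equiv.Perm (Option X)) (hg : g ∈ G) (x y : X)
    (h1 : h none = some x) (h2 : h (some x) = none) (h3 : h (some y) = some y)
    (h4 : g (some x) = some y) (h5 : g (some y) = some x)
    (h6 : (g * h) ^ 3 ∈ G) (h7 : h ^ 2 ∈ G)
    (h8 : ∀ f ∈ G, f (some x) = some x → h * f * h ∈ G ∧ (h * f * h) (some x) = some x) :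
    (∀ f ∈ Subgroup.closure ((G : Set (Equiv.Perm (Option X))) ∪ {h}), f none = none ↔ f ∈ G) ∧
      MulAction.IsMultiplyPretransitive (Subgroup.closure ((G : Set (Equiv.Perm (Option X))) ∪ {h})) (Option X) (k + 1) := by
  classical
  set K := Subgroup.closure ((G : Set (Equiv.Perm (Option X))) ∪ {h}) with hKdef
  have hGK : G ≤ K := fun f hf => Subgroup.subset_closure (Or.inl hf)
  have hhK : h ∈ K := Subgroup.subset_closure (Or.inr rfl)
  set a := h ^ 2 with ha
  have hha : h⁻¹ = a⁻¹ * h := by rw [ha, sq]; group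
  have hha' : h⁻¹ = h * a⁻¹ := by rw [ha, sq]; group
  have hxy : x ≠ y := fun e => by rw [← e, h2] at h3; exact absurd h3 (by simp)
  have htwo : ∀ u v u' v' : X, u ≠ v → u' ≠ v' →
      ∃ f ∈ G, f (some u) = some u' ∧ f (some v) = some v' := by
    intro u v u' v' huv huv'
    obtain ⟨e⟩ := hkX
    let i0 : Fin k := ⟨0, by omega⟩
    let i1 : Fin k := ⟨1, by omega⟩
    have hi : i0 ≠ i1 := by simp [i0, i1, Fin.ext_iff]
    have mk : ∀ u v : X, u ≠ v → ∃ em : Fin k ↪ X, em i0 = u ∧ em i1 = v := by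
      intro u v huv
      let σ₁ := Equiv.swap (e i0) u
      let σ₂ := Equiv.swap (σ₁ (e i1)) v
      refine ⟨e.trans (σ₁.trans σ₂).toEmbedding, ?_, ?_⟩
      · show σ₂ (σ₁ (e i0)) = u
        have h0 : σ₁ (e i0) = u := Equiv.swap_apply_left _ _
        rw [h0]
        refine Equiv.swap_apply_of_ne_of_ne ?_ huv
        intro hc
        exact hi (e.injective (σ₁.injective (h0.trans hc)))
      · show σ₂ (σ₁ (e i1)) = v
        exact Equiv.swap_apply_left _ _
    obtain ⟨em, e1, e2⟩ := mk u v huv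
    obtain ⟨em', e1', e2'⟩ := mk u' v' huv'
    obtain ⟨f, hf, hff⟩ := htrans em em'
    exact ⟨f, hf, by rw [← e1, hff, e1'], by rw [← e2, hff, e2']⟩
  -- the double coset
  let D : Set (Equiv.Perm (Option X)) := {f | f ∈ G ∨ ∃ f₁ ∈ G, ∃ f₂ ∈ G, f = f₁ * h * f₂}
  have hghh : h * g * h ∈ D := by
    refine Or.inr ⟨g⁻¹ * (g * h) ^ 3 * a⁻¹, mul_mem (mul_mem (inv_mem hg) h6) (inv_mem h7), g⁻¹, inv_mem hg, ?_⟩
    rw [mul_assoc _ a⁻¹ h, ← hha, pow_three]
    group
  have hconj : ∀ f ∈ G, h * f * h ∈ D := by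
    intro f hf
    by_cases hfx : f (some x) = some x
    · exact Or.inl (h8 f hf hfx).1
    obtain ⟨z, hz⟩ : ∃ z, f (some x) = some z := by
      rcases hfs : f (some x) with _ | z
      · have := f.injective (hfs.trans (hfix f hf).symm)
        simp at this
      · exact ⟨z, rfl⟩
    have hzx : x ≠ z := fun e => hfx (by rw [hz, e])
    obtain ⟨f₁, hf₁, hf₁x, hf₁y⟩ := htwo x y x z hxy hzx
    set f₂ := (f₁ * g)⁻¹ * f with hf₂
    have hf₂G : f₂ ∈ G := mul_mem (inv_mem (mul_mem hf₁ hg)) hf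
    have hf₂x : f₂ (some x) = some x := by
      rw [hf₂, Equiv.Perm.mul_apply, hz, Equiv.Perm.inv_eq_iff_eq, Equiv.Perm.mul_apply, h4, hf₁y]
    obtain ⟨hA, -⟩ := h8 f₁ hf₁ hf₁x
    obtain ⟨hB, -⟩ := h8 f₂ hf₂G hf₂x
    have e : h * f * h = (h * f₁ * h) * a⁻¹ * (h * g * h) * a⁻¹ * (h * f₂ * h) := by
      rw [hf₂, ha, sq]; group
    rw [e]
    rcases hghh with hd | ⟨u, hu, v, hv, huv⟩
    · exact Or.inl (mul_mem (mul_mem (mul_mem (mul_mem hA (inv_mem h7)) hd) (inv_mem h7)) hB)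
    · exact Or.inr ⟨_, mul_mem (mul_mem hA (inv_mem h7)) hu, _, mul_mem (mul_mem hv (inv_mem h7)) hB,
        by rw [huv]; simp only [mul_assoc]⟩
  have hleft : ∀ f₁ ∈ G, ∀ d ∈ D, f₁ * d ∈ D := by
    rintro f₁ hf₁ d (hd | ⟨u, hu, v, hv, rfl⟩)
    · exact Or.inl (mul_mem hf₁ hd)
    · exact Or.inr ⟨f₁ * u, mul_mem hf₁ hu, v, hv, by simp only [mul_assoc]⟩
  have hright : ∀ d ∈ D, ∀ f₁ ∈ G, d * f₁ ∈ D := by
    rintro d (hd | ⟨u, hu, v, hv, rfl⟩) f₁ hf₁
    · exact Or.inl (mul_mem hd hf₁)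
    · exact Or.inr ⟨u, hu, v * f₁, mul_mem hv hf₁, by simp only [mul_assoc]⟩
  have hmul : ∀ d ∈ D, ∀ d' ∈ D, d * d' ∈ D := by
    intro d hd d' hd'
    rcases hd' with hd' | ⟨u', hu', v', hv', rfl⟩
    · exact hright d hd d' hd'
    rcases hd with hd | ⟨u, hu, v, hv, rfl⟩
    · exact hleft d hd _ (Or.inr ⟨u', hu', v', hv', rfl⟩)
    have e : u * h * v * (u' * h * v') = u * (h * (v * u') * h) * v' := by simp only [mul_assoc]
    rw [e]
    exact hright _ (hleft u hu _ (hconj _ (mul_mem hv hu'))) v' hv'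
  have hsub : ∀ f ∈ K, f ∈ D := by
    intro f hf
    induction hf using Subgroup.closure_induction with
    | mem f hf =>
      rcases hf with hf | hf
      · exact Or.inl hf
      · exact Or.inr ⟨1, G.one_mem, 1, G.one_mem, by rw [Set.mem_singleton_iff.mp hf, one_mul, mul_one]⟩
    | one => exact Or.inl G.one_mem
    | mul f f' _ _ h h' => exact hmul f h f' h'
    | inv f _ hd =>
      rcases hd with hd | ⟨u, hu, v, hv, rfl⟩
      · exact Or.inl (inv_mem hd)
      · refine Or.inr ⟨v⁻¹ * a⁻¹, mul_mem (inv_mem hv) (inv_mem h7), u⁻¹, inv_mem hu, ?_⟩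
        rw [mul_inv_rev, mul_inv_rev, hha]
        simp only [mul_assoc]
  have hstab : ∀ f ∈ K, (f none = none ↔ f ∈ G) := by
    intro f hf
    refine ⟨fun e => ?_, hfix f⟩
    rcases hsub f hf with hd | ⟨u, hu, v, hv, rfl⟩
    · exact hd
    · exfalso
      rw [Equiv.Perm.mul_apply, Equiv.Perm.mul_apply, hfix v hv, h1] at e
      exact absurd (u.injective (e.trans (hfix u hu).symm)) (by simp)
  refine ⟨hstab, ?_⟩
  have hto : ∀ o : Option X, ∃ f ∈ K, f o = none := by
    rintro (_ | z)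
    · exact ⟨1, K.one_mem, rfl⟩
    · by_cases hzx : z = x
      · subst hzx; exact ⟨h, hhK, h2⟩
      · obtain ⟨f, hf, hfz, -⟩ := htwo z x x z hzx (Ne.symm hzx)
        exact ⟨h * f, mul_mem hhK (hGK hf), by rw [Equiv.Perm.mul_apply, hfz, h2]⟩
  have base : ∀ em : Fin (k + 1) ↪ Option X, ∃ f ∈ K, ∃ e' : Fin k ↪ X,
      f (em 0) = none ∧ ∀ i, f (em i.succ) = some (e' i) := by
    intro em
    obtain ⟨f, hf, hf0⟩ := hto (em 0)
    have hs : ∀ i : Fin k, ∃ z, f (em i.succ) = some z := fun i => by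
      rcases hfs : f (em i.succ) with _ | z
      · exact absurd (em.injective (f.injective (hfs.trans hf0.symm))) (Fin.succ_ne_zero i)
      · exact ⟨z, rfl⟩
    choose z hz using hs
    refine ⟨f, hf, ⟨z, fun i j hij => ?_⟩, hf0, hz⟩
    exact Fin.succ_injective _ (em.injective (f.injective ((hz i).trans ((congrArg some hij).trans (hz j).symm))))
  refine ⟨fun u v => ?_⟩
  obtain ⟨f, hf, eu, hu0, hu⟩ := base u
  obtain ⟨f', hf', ev, hv0, hv⟩ := base v
  obtain ⟨c, hc, hcc⟩ := htrans eu ev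
  refine ⟨⟨f'⁻¹ * c * f, mul_mem (mul_mem (inv_mem hf') (hGK hc)) hf⟩, ?_⟩
  ext i : 1
  show (f'⁻¹ * c * f) (u i) = v i
  rw [Equiv.Perm.mul_apply, Equiv.Perm.mul_apply, Equiv.Perm.inv_eq_iff_eq]
  refine Fin.cases ?_ ?_ i
  · rw [hu0, hv0, hfix c hc]
  · intro j; rw [hu j, hcc j, hv j]

end Cfsg.Agent.S4301
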