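import Cfsg.Statements.S4303
import Cfsg.Agent.Lib.FgsSylowProduct

set_option autoImplicit false
universe u
open Cfsg

namespace Cfsg.Agent.S4303

/-- For a finite group `G` and a prime `p`, the number of Sylow `p`-subgroups of `G` is a product of natural numbers each of which is either a prime power congruent to 1 modulo `p` or the number of Sylow `p`-subgroups of some finite simple group. -/
theorem result {G : Type u} [Group G] [Finite G]
    (p : ℕ) [Fact p.Prime] :
    ∃ l : List ℕ, l.prod = Nat.card (Sylow p G) ∧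
      ∀ m ∈ l, (IsPrimePow m ∧ m % p = 1) ∨
        ∃ (S : Type u) (_ : Group S) (_ : Finite S), IsSimpleGroup S ∧ m = Nat.card (Sylow p S) := by
  refine CfsgLib.SylowProd.sylow_number_induction.{u} p (fun n => ∃ l : List ℕ, l.prod = n ∧
      ∀ m ∈ l, (IsPrimePow m ∧ m % p = 1) ∨
        ∃ (S : Type u) (_ : Group S) (_ : Finite S), IsSimpleGroup S ∧ m = Nat.card (Sylow p S))
    False ⟨[], rfl, by simp⟩ ?_ ?_ ?_ _ G rfl False.elim
  · rintro a b ⟨l, rfl, hl⟩ ⟨l', rfl, hl'⟩
    exact ⟨l ++ l', List.prod_append, fun m hm => (List.mem_append.1 hm).elim (hl m) (hl' m)⟩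
  · exact fun ℓ k hℓ hk h => ⟨[ℓ ^ k], by simp, fun m hm =>
      Or.inl ⟨(List.mem_singleton.1 hm) ▸ hℓ.isPrimePow.pow hk.ne', (List.mem_singleton.1 hm) ▸ h⟩⟩
  · intro S hg hf hS _
    exact ⟨[Nat.card (Sylow p S)], by simp, fun m hm =>
      Or.inr ⟨S, hg, hf, hS, List.mem_singleton.1 hm⟩⟩

end Cfsg.Agent.S4303
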