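import Cfsg.Statements.S4304
import Mathlib
import Cfsg.Agent.Lib.FgsSylowNumber
import Cfsg.Agent.Lib.PermSylow
import Cfsg.Agent.S0219
import Cfsg.Agent.S0987

set_option autoImplicit false
open Cfsg

namespace Cfsg.Agent.S4304

open CfsgLib.SylowNum in
/-- Induction form. -/
theorem aux : ∀ k : ℕ, ∀ (G : Type*) [Group G] [Finite G], Nat.card G = k → Nat.card (Sylow 7 G) ≠ 15 := by
  intro k
  induction k using Nat.strong_induction_on with
  | _ k ih =>
  intro G _ _ hk hn
  classical
  haveI : Fact (Nat.Prime 7) := ⟨by norm_num⟩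
  haveI : Fact (Nat.Prime 2) := ⟨Nat.prime_two⟩
  haveI := Fintype.ofFinite (Sylow 7 G)
  have hX : Fintype.card (Sylow 7 G) = 15 := by rw [← Nat.card_eq_fintype_card]; exact hn
  set φ := MulAction.toPermHom G (Sylow 7 G) with hφ
  -- the action is faithful
  have hker : φ.ker = ⊥ := by
    by_contra hne
    have hlt : Nat.card (G ⧸ φ.ker) < k := by
      have h1 := φ.ker.card_eq_card_quotient_mul_card_subgroup
      have h2 : 2 ≤ Nat.card φ.ker := by
        have : 0 < Nat.card φ.ker := Nat.card_pos
        have := mt Subgroup.card_eq_one.mp hne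
        omega
      have h3 : 0 < Nat.card (G ⧸ φ.ker) := Nat.card_pos
      rw [hk] at h1
      nlinarith
    refine ih _ hlt (G ⧸ φ.ker) rfl ?_
    rw [card_sylow_quotient fun Q x hx => Sylow.smul_eq_iff_mem_normalizer.mp (mem_ker_iff.mp hx Q)]
    exact hn
  have hfaith : ∀ x : G, (∀ Q : Sylow 7 G, x • Q = Q) → x = 1 := fun x hx =>
    Subgroup.mem_bot.mp (hker ▸ mem_ker_iff.mpr hx)
  have hinj : Function.Injective φ := (MonoidHom.ker_eq_bot_iff φ).mp hker
  -- no subgroups of index two
  have hno2 : ∀ M : Subgroup G, M.index ≠ 2 := by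
    intro M hM
    haveI := Subgroup.normal_of_index_eq_two hM
    have h1 := M.index_mul_card
    rw [hM, hk] at h1
    have h2 : 0 < Nat.card M := Nat.card_pos
    refine ih _ (by omega) M rfl ?_
    rw [card_sylow_normal (p := 7) (by rw [hM]; norm_num)]
    exact hn
  have hsign : ∀ x : G, Equiv.Perm.sign (φ x) = 1 := by
    intro x
    by_contra hx
    obtain ⟨M, -, hM⟩ := sign_ne_one_descent (p := 7) (G := G) ⟨x, by convert hx⟩
    exact hno2 M hM
  obtain ⟨P⟩ : Nonempty (Sylow 7 G) := inferInstance
  have hPeq : ∀ Q : Sylow 7 G, Nat.card Q = Nat.card P := fun Q => by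
    rw [Q.card_eq_multiplicity, P.card_eq_multiplicity]
  obtain ⟨j, hj⟩ := P.isPGroup'.exists_card_eq
  -- orbit of a second point
  have horb : ∀ P Q : Sylow 7 G, P ≠ Q →
      Nat.card (MulAction.orbit (P : Subgroup G) Q) * Nat.card ↥((P : Subgroup G) ⊓ (Q : Subgroup G)) = Nat.card P ∧
      Nat.card (MulAction.orbit (P : Subgroup G) Q) = 7 := by
    intro P Q hPQ
    haveI := Fintype.ofFinite (P : Subgroup G)
    haveI := Fintype.ofFinite (MulAction.orbit (P : Subgroup G) Q)
    have h1 : Nat.card (MulAction.orbit (P : Subgroup G) Q) * Nat.card (MulAction.stabilizer (P : Subgroup G) Q) = Nat.card P := by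
      rw [Nat.card_congr (MulAction.orbitEquivQuotientStabilizer (P : Subgroup G) Q)]
      exact (MulAction.stabilizer (P : Subgroup G) Q).index_mul_card
    have h2 : Nat.card (MulAction.stabilizer (P : Subgroup G) Q) = Nat.card ↥((P : Subgroup G) ⊓ (Q : Subgroup G)) := by
      have he : MulAction.stabilizer (P : Subgroup G) Q =
          ((P : Subgroup G) ⊓ (Q : Subgroup G)).subgroupOf (P : Subgroup G) := by
        ext x
        rw [MulAction.mem_stabilizer_iff, Subgroup.mem_subgroupOf]
        change (x : G) • Q = Q ↔ _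
        rw [Sylow.smul_eq_iff_mem_normalizer]
        exact ⟨fun hx => ⟨x.2, ((P.isPGroup'.inf_normalizer_sylow Q).le ⟨x.2, hx⟩).2⟩,
          fun hx => Subgroup.le_normalizer hx.2⟩
      rw [he]
      exact Nat.card_congr (Subgroup.subgroupOfEquivOfLe inf_le_left).toEquiv
    rw [h2] at h1
    refine ⟨h1, ?_⟩
    have hnP : ∀ R ∈ MulAction.orbit (P : Subgroup G) Q, R ≠ P := by
      rintro R ⟨u, rfl⟩ he
      apply hPQ
      have : (u : G) • Q = (u : G) • P := he.trans (smul_eq_of_mem u.2).symm
      exact (smul_left_cancel _ this).symm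
    have hle : Nat.card (MulAction.orbit (P : Subgroup G) Q) ≤ 14 := by
      have h3 : Nat.card (MulAction.orbit (P : Subgroup G) Q) ≤ Nat.card {R : Sylow 7 G // R ≠ P} :=
        Nat.card_le_card_of_injective (fun R => ⟨R.1, hnP R.1 R.2⟩)
          (fun a b h => Subtype.ext (congrArg Subtype.val h :))
      rw [Nat.card_eq_fintype_card (α := {R : Sylow 7 G // R ≠ P}), Fintype.card_subtype_compl,
        Fintype.card_subtype_eq, hX] at h3
      exact h3
    have hne1 : Nat.card (MulAction.orbit (P : Subgroup G) Q) ≠ 1 := by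
      intro hone
      apply hPQ
      have hsub := (Nat.card_eq_one_iff_unique.mp hone).1
      have hle' : (P : Subgroup G) ≤ (Q : Subgroup G) := by
        intro x hx
        have := congrArg Subtype.val (Subsingleton.elim
          (⟨(⟨x, hx⟩ : (P : Subgroup G)) • Q, MulAction.mem_orbit _ _⟩ : MulAction.orbit (P : Subgroup G) Q)
          ⟨Q, MulAction.mem_orbit_self Q⟩)
        change x • Q = Q at this
        exact ((P.isPGroup'.inf_normalizer_sylow Q).le ⟨hx, Sylow.smul_eq_iff_mem_normalizer.mp this⟩).2
      exact Sylow.ext (P.3 Q.isPGroup' hle').symm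
    obtain ⟨j', hj'⟩ := P.isPGroup'.exists_card_eq
    obtain ⟨i, -, hi⟩ := (Nat.dvd_prime_pow (by norm_num : Nat.Prime 7)).mp (hj' ▸ ⟨_, h1.symm⟩ :
      Nat.card (MulAction.orbit (P : Subgroup G) Q) ∣ 7 ^ j')
    rcases (show i = 0 ∨ i = 1 ∨ 2 ≤ i by omega) with rfl | rfl | hi2
    · exact absurd hi hne1
    · exact hi
    · have := Nat.pow_le_pow_right (show 0 < 7 by norm_num) hi2
      omega
  obtain ⟨P', hP'⟩ : ∃ Q : Sylow 7 G, P ≠ Q := by
    by_contra h
    push_neg at h
    haveI : Subsingleton (Sylow 7 G) := ⟨fun a b => (h a).symm.trans (h b)⟩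
    have := Finite.card_le_one_iff_subsingleton.mpr this
    omega
  have hj1 : 1 ≤ j := by
    by_contra h
    have h1 := (horb P P' hP').1
    rw [(horb P P' hP').2, hj, show j = 0 by omega] at h1
    have : 0 < Nat.card ↥((P : Subgroup G) ⊓ (P' : Subgroup G)) := Nat.card_pos
    omega
  have hj2 : j ≤ 2 := by
    have h1 : Nat.card P ∣ Nat.factorial 15 := by
      have := Subgroup.card_dvd_of_injective (φ.comp (P : Subgroup G).subtype) (hinj.comp (P : Subgroup G).subtype_injective)
      rwa [Nat.card_perm, hn] at this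
    by_contra h
    rw [hj] at h1
    exact absurd ((pow_dvd_pow 7 (show 3 ≤ j by omega)).trans h1) (by norm_num [Nat.factorial])
  -- the Sylow order is seven
  have hj7 : j = 1 := by
    by_contra hne
    have hj49 : j = 2 := by omega
    have hD : ∀ P Q : Sylow 7 G, P ≠ Q → Nat.card ↥((P : Subgroup G) ⊓ (Q : Subgroup G)) = 7 := by
      intro P₀ Q hPQ
      obtain ⟨h1, h2⟩ := horb P₀ Q hPQ
      rw [h2, hPeq, hj, hj49] at h1
      omega
    -- the number of Sylow subgroups through an intersection
    have height : ∀ P Q : Sylow 7 G, P ≠ Q →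
        (Finset.univ.filter fun R : Sylow 7 G => (P : Subgroup G) ⊓ (Q : Subgroup G) ≤ (R : Subgroup G)).card = 8 := by
      intro P Q hPQ
      set D := (P : Subgroup G) ⊓ (Q : Subgroup G) with hDdef
      set S := Finset.univ.filter fun R : Sylow 7 G => D ≤ (R : Subgroup G) with hS
      haveI : IsMulCommutative (P : Subgroup G) :=
        IsPGroup.isMulCommutative_of_card_eq_prime_sq (p := 7) (by rw [hPeq, hj, hj49])
      have horbS : ∀ R ∈ S, R ≠ P → ∀ z ∈ MulAction.orbit (P : Subgroup G) R, z ∈ S := by
        rintro R hR - z ⟨u, rfl⟩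
        simp only [hS, Finset.mem_filter, Finset.mem_univ, true_and] at hR ⊢
        intro d hd
        refine ⟨d, hR hd, ?_⟩
        have : (⟨d, (inf_le_left : D ≤ (P : Subgroup G)) hd⟩ : (P : Subgroup G)) * u = u * ⟨d, (inf_le_left : D ≤ (P : Subgroup G)) hd⟩ :=
          IsMulCommutative.is_comm.comm _ _
        have h3 : d * (u : G) = u * d := congrArg Subtype.val this
        change (u : G) * d * (u : G)⁻¹ = d
        rw [← h3, mul_inv_cancel_right]
      have hbig : ∀ R ∈ S, R ≠ P →
          ((MulAction.orbit (P : Subgroup G) R).toFinset ⊆ S.erase P ∧ (MulAction.orbit (P : Subgroup G) R).toFinset.card = 7) := by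
        intro R hR hRP
        refine ⟨fun z hz => ?_, ?_⟩
        · rw [Set.mem_toFinset] at hz
          refine Finset.mem_erase.mpr ⟨?_, horbS R hR hRP z hz⟩
          rintro rfl
          obtain ⟨u, hu⟩ := hz
          apply hRP
          exact smul_left_cancel (u : G) (hu.trans (smul_eq_of_mem u.2).symm)
        · rw [← Nat.card_eq_card_toFinset]; exact (horb P R (Ne.symm hRP)).2
      have hPS : P ∈ S := by simp [hS, hDdef]
      have hQS : Q ∈ S := by simp [hS, hDdef]
      have hne : S ≠ Finset.univ := by
        intro h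
        have hD1 : D = ⊥ := by
          rw [eq_bot_iff]
          intro d hd
          rw [Subgroup.mem_bot]
          apply hfaith
          intro R
          have hR : R ∈ S := h ▸ Finset.mem_univ R
          simp only [hS, Finset.mem_filter, Finset.mem_univ, true_and] at hR
          exact smul_eq_of_mem (hR hd)
        have := hD P Q hPQ
        rw [← hDdef, hD1, Subgroup.card_bot] at this
        omega
      obtain ⟨R, hR⟩ : ∃ R, R ∉ S := by
        by_contra h
        push_neg at h
        exact hne (Finset.eq_univ_of_forall h)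
      have hRP : R ≠ P := fun h => hR (h ▸ hPS)
      have hdisj : Disjoint (MulAction.orbit (P : Subgroup G) R).toFinset S := by
        rw [Finset.disjoint_left]
        intro z hz hzS
        rw [Set.mem_toFinset] at hz
        have hzP : z ≠ P := by
          rintro rfl
          obtain ⟨u, hu⟩ := hz
          exact hRP (smul_left_cancel (u : G) (hu.trans (smul_eq_of_mem u.2).symm))
        exact hR (horbS z hzS hzP R (MulAction.mem_orbit_symm.mp hz))
      have h7 : (MulAction.orbit (P : Subgroup G) R).toFinset.card = 7 := by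
        rw [← Nat.card_eq_card_toFinset]; exact (horb P R (Ne.symm hRP)).2
      have hup := Finset.card_le_univ ((MulAction.orbit (P : Subgroup G) R).toFinset ∪ S)
      rw [Finset.card_union_of_disjoint hdisj, h7, hX] at hup
      obtain ⟨hsub, hQ7⟩ := hbig Q hQS (Ne.symm hPQ)
      have hlow := Finset.card_le_card hsub
      rw [hQ7, Finset.card_erase_of_mem hPS] at hlow
      omega
    -- fibres of the intersection map have size 56
    set T := Finset.univ.filter fun x : Sylow 7 G × Sylow 7 G => x.1 ≠ x.2
    have hTc : T.card = 210 := by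
      have : T = (Finset.univ : Finset (Sylow 7 G)).offDiag := by
        ext x; simp [T, Finset.mem_offDiag]
      rw [this, Finset.offDiag_card, Finset.card_univ, hX]
    have hsum := Finset.card_eq_sum_card_image (fun x : Sylow 7 G × Sylow 7 G => (x.1 : Subgroup G) ⊓ (x.2 : Subgroup G)) T
    rw [hTc, Finset.sum_const_nat (m := 56)] at hsum
    · omega
    intro D hD'
    obtain ⟨⟨P₀, Q₀⟩, hPQ, rfl⟩ := Finset.mem_image.mp hD'
    simp only [T, Finset.mem_filter, Finset.mem_univ, true_and] at hPQ
    have : (T.filter fun x : Sylow 7 G × Sylow 7 G => (x.1 : Subgroup G) ⊓ (x.2 : Subgroup G) = (P₀ : Subgroup G) ⊓ (Q₀ : Subgroup G)) =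
        (Finset.univ.filter fun R : Sylow 7 G => (P₀ : Subgroup G) ⊓ (Q₀ : Subgroup G) ≤ (R : Subgroup G)).offDiag := by
      ext ⟨A, B⟩
      simp only [T, Finset.mem_filter, Finset.mem_univ, true_and, Finset.mem_offDiag]
      constructor
      · rintro ⟨h1, h2⟩
        exact ⟨h2 ▸ inf_le_left, h2 ▸ inf_le_right, h1⟩
      · rintro ⟨h1, h2, h3⟩
        exact ⟨h3, (Subgroup.eq_of_le_of_card_ge (le_inf h1 h2) (by rw [hD A B h3, hD P₀ Q₀ hPQ])).symm⟩
    rw [this, Finset.offDiag_card, height P₀ Q₀ hPQ]
  have hPc : ∀ Q : Sylow 7 G, Nat.card Q = 7 := fun Q => by rw [hPeq, hj, hj7, pow_one]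
  obtain ⟨g0, hg0P, hg01⟩ : ∃ x ∈ (P : Subgroup G), x ≠ 1 :=
    (Subgroup.ne_bot_iff_exists_ne_one.mp fun h => by
      have := hPc P; rw [h, Subgroup.card_bot] at this; omega).elim fun a ha => ⟨a.1, a.2, fun h => ha (Subtype.ext h)⟩
  set x := g0
  have hox : orderOf x = 7 ^ 1 := by
    rw [pow_one]; exact CfsgLib.Perm.orderOf_eq_prime_of_mem (hPc P) hg0P hg01
  have hzx : Subgroup.zpowers x = (P : Subgroup G) := CfsgLib.Perm.zpowers_eq_sylow (hPc P) hg0P hg01
  have hfix : ∀ Q : Sylow 7 G, x • Q = Q ↔ Q = P := fun Q => by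
    refine ⟨fun h => Sylow.ext ?_, fun h => h ▸ smul_eq_of_mem hg0P⟩
    rw [← CfsgLib.Perm.zpowers_eq_sylow (hPc Q) (mem_of_smul_eq hox h) hg01, hzx]
  -- the cycle type of x
  have hsupp : ∀ y : G, (∀ Q : Sylow 7 G, y • Q = Q ↔ Q = P) → (φ y).support.card = 14 := by
    intro y hy
    have : (φ y).support = Finset.univ.erase P := by
      ext Q
      rw [Equiv.Perm.mem_support, Finset.mem_erase]
      simp only [Finset.mem_univ, and_true]
      exact not_congr (hy Q)
    rw [this, Finset.card_erase_of_mem (Finset.mem_univ _), Finset.card_univ, hX]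
  have hct : (φ x).cycleType = Multiset.replicate 2 7 := by
    have ho : orderOf (φ x) = 7 := by rw [orderOf_injective φ hinj, hox, pow_one]
    obtain ⟨m, hm⟩ := Equiv.Perm.cycleType_prime_order (σ := φ x) (by rw [ho]; norm_num)
    rw [ho] at hm
    have := Equiv.Perm.sum_cycleType (φ x)
    rw [hm, Multiset.sum_replicate, hsupp x hfix, smul_eq_mul] at this
    rw [hm, show m + 1 = 2 by omega]
  set C := Subgroup.centralizer ({x} : Set G) with hC
  have hC98 : Nat.card C ∣ 98 := by
    have h := Equiv.Perm.nat_card_centralizer (φ x)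
    rw [hct, hX] at h
    norm_num [-Nat.card_eq_fintype_card, Multiset.toFinset_replicate, Multiset.sum_replicate, Multiset.prod_replicate, Nat.factorial] at h
    rw [← h]
    let f : C →* Subgroup.centralizer ({φ x} : Set (Equiv.Perm (Sylow 7 G))) :=
      (φ.comp C.subtype).codRestrict _ fun c => by
        rw [Subgroup.mem_centralizer_singleton_iff]
        change φ c * φ x = φ x * φ c
        rw [← map_mul, ← map_mul, Subgroup.mem_centralizer_singleton_iff.mp c.2]
    exact Subgroup.card_dvd_of_injective f ((MonoidHom.injective_codRestrict _ _ _).mpr (hinj.comp C.subtype_injective))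
  have hCodd : ¬ 2 ∣ Nat.card C := by
    intro h2
    obtain ⟨t, ht⟩ := exists_prime_orderOf_dvd_card' (G := C) 2 h2
    have hto : orderOf (t : G) = 2 := by rw [orderOf_submonoid]; exact ht
    have htx : (t : G) * x = x * t := Subgroup.mem_centralizer_singleton_iff.mp t.2
    have htP : (t : G) • P = P := by
      rw [← hfix, ← mul_smul, ← htx, mul_smul, (hfix P).mpr rfl]
    have hone : ∀ Q : Sylow 7 G, (t : G) • Q = Q ↔ Q = P := by
      intro Q₀
      refine ⟨fun hQ => ?_, fun h => h ▸ htP⟩
      by_contra hQP
      have hcomm : ∀ u ∈ (P : Subgroup G), (t : G) * u = u * t := by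
        intro u hu
        rw [← hzx] at hu
        obtain ⟨i, rfl⟩ := hu
        exact (Commute.zpow_right htx i).eq
      have hA : ∀ z ∈ MulAction.orbit (P : Subgroup G) Q₀, (t : G) • z = z := by
        rintro _ ⟨u, rfl⟩
        change (t : G) • (u : G) • Q₀ = (u : G) • Q₀
        rw [← mul_smul, hcomm u u.2, mul_smul, hQ]
      have hall : ∀ z : Sylow 7 G, (t : G) • z = z := by
        intro z
        by_contra hz
        have hzP : z ≠ P := fun h => hz (h ▸ htP)
        have hzA : z ∉ MulAction.orbit (P : Subgroup G) Q₀ := fun h => hz (hA z h)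
        -- the orbit of z is all the rest
        set A := (MulAction.orbit (P : Subgroup G) Q₀).toFinset
        set B := (MulAction.orbit (P : Subgroup G) z).toFinset
        have hPA : P ∉ A ∪ B := by
          rw [Finset.mem_union, not_or, Set.mem_toFinset, Set.mem_toFinset]
          refine ⟨?_, ?_⟩ <;> rintro ⟨u, hu⟩
          · exact hQP (smul_left_cancel (u : G) (hu.trans (smul_eq_of_mem u.2).symm))
          · exact hzP (smul_left_cancel (u : G) (hu.trans (smul_eq_of_mem u.2).symm))
        have hAB : Disjoint A B := by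
          rw [Finset.disjoint_left]
          intro w hw hw'
          rw [Set.mem_toFinset] at hw hw'
          exact hzA (MulAction.orbit_eq_iff.mp ((MulAction.orbit_eq_iff.mpr hw').symm.trans (MulAction.orbit_eq_iff.mpr hw)))
        have hcov : insert P (A ∪ B) = Finset.univ := by
          apply Finset.eq_univ_of_card
          rw [Finset.card_insert_of_notMem hPA, Finset.card_union_of_disjoint hAB,
            ← Nat.card_eq_card_toFinset, ← Nat.card_eq_card_toFinset, hX]
          rw [(horb P Q₀ (Ne.symm hQP)).2, (horb P z (Ne.symm hzP)).2]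
        have htz : (t : G) • z ∈ insert P (A ∪ B) := hcov ▸ Finset.mem_univ _
        rw [Finset.mem_insert, Finset.mem_union, Set.mem_toFinset, Set.mem_toFinset] at htz
        rcases htz with h | h | h
        · exact hzP (smul_left_cancel (t : G) (h.trans htP.symm))
        · exact hz (smul_left_cancel (t : G) (hA _ h))
        · obtain ⟨u, hu⟩ := h
          change (u : G) • z = (t : G) • z at hu
          have h2' : ((u : G) * u) • z = z := by
            rw [mul_smul, hu, ← mul_smul, ← hcomm u u.2, mul_smul, hu, ← mul_smul,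
              ← pow_two, ← hto, pow_orderOf_eq_one, one_smul]
          have hu7 : (u : G) ^ 7 = 1 := by
            have := congrArg Subtype.val (pow_card_eq_one' (x := u))
            simpa [hPc P] using this
          apply hz
          rw [← hu]
          have h8 : ∀ i : ℕ, ((u : G) * u) ^ i • z = z := fun i => by
            induction i with
            | zero => simp
            | succ i hi => rw [pow_succ, mul_smul, h2', hi]
          have h9 := h8 4
          rw [show ((u : G) * u) ^ 4 = (u : G) ^ 7 * u by rw [← pow_two, ← pow_mul, ← pow_succ], hu7, one_mul] at h9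
          exact h9
      exact ne_of_apply_ne orderOf (by rw [hto, orderOf_one]; norm_num) (hfaith _ hall)
    have hs := hsign (t : G)
    have ho : orderOf (φ (t : G)) = 2 := by rw [orderOf_injective φ hinj, hto]
    obtain ⟨m, hm⟩ := Equiv.Perm.cycleType_prime_order (σ := φ (t : G)) (by rw [ho]; norm_num)
    rw [ho] at hm
    have hsum := Equiv.Perm.sum_cycleType (φ (t : G))
    rw [hm, Multiset.sum_replicate, hsupp _ hone, smul_eq_mul] at hsum
    rw [Equiv.Perm.sign_of_cycleType, hm, Multiset.sum_replicate, Multiset.card_replicate,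
      show m + 1 = 7 by omega] at hs
    exact absurd hs (by decide)
  have hxC : 7 ∣ Nat.card C := by
    have := Subgroup.orderOf_dvd_natCard C (Subgroup.mem_centralizer_singleton_iff.mpr rfl : x ∈ C)
    rwa [hox, pow_one] at this
  have h49 : ¬ 49 ∣ Nat.card C := by
    intro h
    have h' := h.trans (Subgroup.card_subgroup_dvd_card C)
    have := Sylow.card_eq_multiplicity P
    rw [hPc P] at this
    have hle := (Nat.Prime.pow_dvd_iff_le_factorization (by norm_num : Nat.Prime 7) Nat.card_pos.ne').mp
      (show 7 ^ 2 ∣ Nat.card G by simpa using h')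
    have : 7 ^ 2 ≤ 7 ^ (Nat.card G).factorization 7 := Nat.pow_le_pow_right (by norm_num) hle
    omega
  have hC7 : Nat.card C = 7 := by
    have : Nat.card C ∈ Nat.divisors 98 := Nat.mem_divisors.mpr ⟨hC98, by norm_num⟩
    rw [show Nat.divisors 98 = {1, 2, 7, 14, 49, 98} by decide] at this
    simp only [Finset.mem_insert, Finset.mem_singleton] at this
    rcases this with h | h | h | h | h | h <;> rw [h] at hxC h49 hCodd <;>
      first
        | exact h
        | omega
  -- the normaliser
  set N := Subgroup.normalizer ((P : Subgroup G) : Set G) with hN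
  have hCP : Subgroup.centralizer ((P : Subgroup G) : Set G) = C := by
    rw [← hzx, hC, ← Subgroup.centralizer_closure ({x} : Set G), ← Subgroup.zpowers_eq_closure]
  obtain ⟨e, he6, he⟩ : ∃ e, e ∣ 6 ∧ Nat.card N = e * 7 := by
    set r : N →* MulAut (P : Subgroup G) := Subgroup.normalizerMonoidHom (P : Subgroup G)
    haveI : IsCyclic (P : Subgroup G) := isCyclic_of_prime_card (hPc P)
    have h6 : Nat.card r.range ∣ 6 := by
      have := Subgroup.card_subgroup_dvd_card r.range
      rwa [IsCyclic.card_mulAut, hPc P, Nat.totient_prime (by norm_num)] at this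
    refine ⟨_, h6, ?_⟩
    rw [← Subgroup.index_ker, ← r.ker.index_mul_card]
    congr 1
    rw [show r.ker = _ from Subgroup.normalizerMonoidHom_ker _, hCP]
    have hle : C ≤ N := hCP ▸ Subgroup.centralizer_le_normalizer _
    rw [Nat.card_congr (Subgroup.subgroupOfEquivOfLe hle).toEquiv, hC7]
  have hg := CfsgLib.Perm.card_sylow_mul_card_normalizer P
  rw [hn, ← hN, he] at hg
  have hev : ∀ d, Nat.card G = 2 * d → ¬ 2 ∣ d → False := by
    intro d hd hd2
    obtain ⟨T⟩ : Nonempty (Sylow 2 G) := inferInstance
    obtain ⟨M, hM⟩ := Cfsg.Agent.S0219.result (by rw [hd]; exact even_two_mul d) T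
      (isCyclic_of_prime_card (p := 2) ((CfsgLib.Perm.sylow_card T (k := 1) (m := d) (by rw [pow_one, hd]) hd2).trans (pow_one 2)))
    exact hno2 M hM
  have hediv : e = 1 ∨ e = 2 ∨ e = 3 ∨ e = 6 := by
    have : e ∈ Nat.divisors 6 := Nat.mem_divisors.mpr ⟨he6, by norm_num⟩
    rw [show Nat.divisors 6 = {1, 2, 3, 6} by decide] at this
    simpa using this
  rcases hediv with rfl | rfl | rfl | rfl
  · haveI := Cfsg.Agent.S0987.result 3 5 7 (by norm_num) (by norm_num) (by norm_num) (by norm_num) (by omega) P
    haveI := Sylow.unique_of_normal P this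
    rw [Nat.card_unique] at hn
    omega
  · exact hev 105 (by omega) (by norm_num)
  · exact order315 (by omega) (fun c hc => by
      have hcC : c ∈ C := Subgroup.mem_centralizer_singleton_iff.mpr hc
      have := Subgroup.orderOf_dvd_natCard C hcC
      rwa [hC7] at this) hox
  · exact hev 315 (by omega) (by norm_num)
where
  order315 {G : Type _} [Group G] [Finite G] (hG : Nat.card G = 315) {x : G}
      (hC : ∀ c : G, c * x = x * c → orderOf c ∣ 7) (hox : orderOf x = 7 ^ 1) : False := by
    classical
    haveI : Fact (Nat.Prime 7) := ⟨by norm_num⟩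
    haveI : Fact (Nat.Prime 3) := ⟨by norm_num⟩
    haveI : Fact (Nat.Prime 5) := ⟨by norm_num⟩
    have hdiv : ∀ (q : ℕ) [Fact q.Prime] (Q : Sylow q G) (s : ℕ), Nat.card Q * s = 315 →
        Nat.card (Sylow q G) ∈ Nat.divisors s := by
      intro q _ Q s hs
      have h1 := Q.card_dvd_index
      have h2 := (Q : Subgroup G).index_mul_card
      rw [hG, ← hs, mul_comm (Nat.card Q)] at h2
      rw [Nat.eq_of_mul_eq_mul_right Nat.card_pos h2] at h1
      exact Nat.mem_divisors.mpr ⟨h1, by rintro rfl; omega⟩
    obtain ⟨R⟩ : Nonempty (Sylow 3 G) := inferInstance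
    obtain ⟨Q⟩ : Nonempty (Sylow 5 G) := inferInstance
    have hR : Nat.card R = 3 ^ 2 := CfsgLib.Perm.sylow_card R (m := 35) (by rw [hG]; norm_num) (by norm_num)
    have hQ : Nat.card Q = 5 ^ 1 := CfsgLib.Perm.sylow_card Q (m := 63) (by rw [hG]; norm_num) (by norm_num)
    -- a normal subgroup of order not above nine is centralised by x
    have key : ∀ (K : Subgroup G), K.Normal → Nat.card K ≤ 9 → ¬ 7 ∣ Nat.card K → 2 < Nat.card K →
        Nat.card K % 7 ≠ 1 → False := by
      intro K hK hle h7 h2 hmod
      haveI := hK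
      let act : Subgroup.zpowers x →* MulAut K :=
        (MulAut.conjNormal : G →* MulAut K).comp (Subgroup.zpowers x).subtype
      letI : MulAction (Subgroup.zpowers x) K := MulAction.compHom K act
      have hp : IsPGroup 7 (Subgroup.zpowers x) := IsPGroup.of_card (n := 1) (by rw [Nat.card_zpowers, hox])
      have hmodeq := hp.card_modEq_card_fixedPoints K
      have h1 : 2 ≤ Nat.card (MulAction.fixedPoints (Subgroup.zpowers x) K) := by
        by_contra hlt
        have h3 : (1 : K) ∈ MulAction.fixedPoints (Subgroup.zpowers x) K := fun u => map_one (act u)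
        have h4 : 0 < Nat.card (MulAction.fixedPoints (Subgroup.zpowers x) K) := by
          haveI : Nonempty (MulAction.fixedPoints (Subgroup.zpowers x) K) := ⟨⟨1, h3⟩⟩
          exact Nat.card_pos
        rw [show Nat.card (MulAction.fixedPoints (Subgroup.zpowers x) K) = 1 by omega] at hmodeq
        exact hmod hmodeq
      haveI : Nontrivial (MulAction.fixedPoints (Subgroup.zpowers x) K) :=
        Finite.one_lt_card_iff_nontrivial.mp (by omega)
      obtain ⟨⟨c, hc⟩, hc1⟩ := exists_ne (⟨1, fun u => map_one (act u)⟩ : MulAction.fixedPoints (Subgroup.zpowers x) K)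
      have h5 := congrArg Subtype.val (hc ⟨x, Subgroup.mem_zpowers x⟩)
      change x * (c : G) * x⁻¹ = c at h5
      have h6 := hC c (mul_inv_eq_iff_eq_mul.mp h5).symm
      have h8 : orderOf (c : G) ∣ Nat.card K := Subgroup.orderOf_dvd_natCard K c.2
      have h9 : (c : G) ≠ 1 := fun h => hc1 (Subtype.ext (Subtype.ext h))
      rcases (Nat.dvd_prime (by norm_num : Nat.Prime 7)).mp h6 with h | h
      · exact h9 (orderOf_eq_one_iff.mp h)
      · exact h7 (h ▸ h8)
    have hQn : ¬ (Q : Subgroup G).Normal := fun h =>
      key _ h (by rw [hQ]; norm_num) (by rw [hQ]; norm_num) (by rw [hQ]; norm_num) (by rw [hQ]; norm_num)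
    have hRn : ¬ (R : Subgroup G).Normal := fun h =>
      key _ h (by rw [hR]; norm_num) (by rw [hR]; norm_num) (by rw [hR]; norm_num) (by rw [hR]; norm_num)
    have hn3 : Nat.card (Sylow 3 G) = 7 := by
      have h1 := hdiv 3 R 35 (by rw [hR]; norm_num)
      rw [show Nat.divisors 35 = {1, 5, 7, 35} by decide] at h1
      simp only [Finset.mem_insert, Finset.mem_singleton] at h1
      have h2 := card_sylow_modEq_one 3 G
      rw [Nat.ModEq] at h2
      rcases h1 with h | h | h | h <;> first | exact h | (rw [h] at h2; norm_num at h2) | skip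
      exfalso
      haveI := (Nat.card_eq_one_iff_unique.mp h).1
      exact hRn (Sylow.normal_of_subsingleton R)
    have hn5 : Nat.card (Sylow 5 G) = 21 := by
      have h1 := hdiv 5 Q 63 (by rw [hQ]; norm_num)
      rw [show Nat.divisors 63 = {1, 3, 7, 9, 21, 63} by decide] at h1
      simp only [Finset.mem_insert, Finset.mem_singleton] at h1
      have h2 := card_sylow_modEq_one 5 G
      rw [Nat.ModEq] at h2
      rcases h1 with h | h | h | h | h | h <;> first | exact h | (rw [h] at h2; norm_num at h2) | skip
      exfalso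
      haveI := (Nat.card_eq_one_iff_unique.mp h).1
      exact hQn (Sylow.normal_of_subsingleton Q)
    set M := Subgroup.normalizer ((R : Subgroup G) : Set G) with hM
    have hM45 : Nat.card M = 45 := by
      have := CfsgLib.Perm.card_sylow_mul_card_normalizer R
      rw [hn3, hG, ← hM] at this
      omega
    obtain ⟨Q'⟩ : Nonempty (Sylow 5 M) := inferInstance
    have hQ' : Nat.card Q' = 5 ^ 1 := CfsgLib.Perm.sylow_card Q' (m := 9) (by rw [hM45]; norm_num) (by norm_num)
    have hone : Nat.card (Sylow 5 M) = 1 := by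
      have h1 := Q'.card_dvd_index
      have h2 := (Q' : Subgroup M).index_mul_card
      rw [hM45, hQ'] at h2
      rw [show (Q' : Subgroup M).index = 9 by omega] at h1
      have h3 : Nat.card (Sylow 5 M) ∈ Nat.divisors 9 := Nat.mem_divisors.mpr ⟨h1, by norm_num⟩
      rw [show Nat.divisors 9 = {1, 3, 9} by decide] at h3
      simp only [Finset.mem_insert, Finset.mem_singleton] at h3
      have h4 := card_sylow_modEq_one 5 M
      rw [Nat.ModEq] at h4
      rcases h3 with h | h | h <;> first | exact h | (rw [h] at h4; norm_num at h4)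
    haveI := (Nat.card_eq_one_iff_unique.mp hone).1
    have hQ'n : (Q' : Subgroup M).Normal := Sylow.normal_of_subsingleton Q'
    set QG : Subgroup G := (Q' : Subgroup M).map M.subtype
    have hQG : Nat.card QG = 5 := by
      rw [Subgroup.card_map_of_injective M.subtype_injective, hQ', pow_one]
    obtain ⟨S, hS⟩ := (Q'.isPGroup'.map M.subtype).exists_le_sylow
    have hSe : QG = (S : Subgroup G) :=
      Subgroup.eq_of_le_of_card_ge hS (by
        rw [hQG, CfsgLib.Perm.card_eq_of_card_sylow hQ S, pow_one])
    have hsub : M ≤ Subgroup.normalizer ((S : Subgroup G) : Set G) := by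
      rw [← hSe]
      intro m hm
      have := Subgroup.le_normalizer_map M.subtype (H := (Q' : Subgroup M))
        ⟨⟨m, hm⟩, by rw [Subgroup.normalizer_eq_top_iff.mpr hQ'n]; trivial, rfl⟩
      exact this
    have hcard := Subgroup.card_dvd_of_le hsub
    have h15 := CfsgLib.Perm.card_sylow_mul_card_normalizer S
    rw [hn5, hG] at h15
    rw [hM45, show Nat.card (Subgroup.normalizer ((S : Subgroup G) : Set G)) = 15 by omega] at hcard
    exact absurd hcard (by norm_num)

/-- No finite group has exactly 15 Sylow 7-subgroups. -/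
theorem result {G : Type*} [Group G] [Finite G] : Nat.card (Sylow 7 G) ≠ 15 := by
  exact aux (Nat.card G) G rfl

end Cfsg.Agent.S4304
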