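import Cfsg.Statements.S4309


set_option autoImplicit false
open Cfsg

namespace Cfsg.Agent.S4309

/-- Let `π` be a set of primes, `G` a finite group with a Hall `π`-subgroup `H` (every prime divisor of the order of `H` lies in `π` and no prime of `π` divides its index), and `A` a normal subgroup of `G`. Then `H ∩ A` is a Hall `π`-subgroup of `A` and the image of `H` in `G/A` is a Hall `π`-subgroup of `G/A`. -/
theorem result {G : Type*} [Group G] [Finite G] (π : Set ℕ)
    (H A : Subgroup G) [A.Normal] (hH : Cfsg.IsPiHall π H) :
    Cfsg.IsPiHall π ((H ⊓ A).subgroupOf A) ∧ Cfsg.IsPiHall π (H.map (QuotientGroup.mk' A)) := by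
  constructor
  · constructor
    · intro p hp hd
      refine hH.1 p hp (hd.trans ?_)
      rw [Nat.card_congr (Subgroup.subgroupOfEquivOfLe inf_le_right).toEquiv]
      exact Subgroup.card_dvd_of_le inf_le_left
    · intro p hp hpπ hd
      refine hH.2 p hp hpπ (hd.trans ?_)
      show (H ⊓ A).relIndex A ∣ H.index
      rw [Subgroup.inf_relIndex_right]
      have e1 : H.relIndex A = H.relIndex (A ⊔ H) := by
        have h1 : Nat.card (A ⊓ H : Subgroup G) * H.relIndex A = Nat.card A := by
          rw [← Subgroup.inf_relIndex_left, ← Subgroup.relIndex_bot_left,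
            Subgroup.relIndex_mul_relIndex _ _ _ bot_le inf_le_left, Subgroup.relIndex_bot_left]
        have h2 : Nat.card (A ⊓ H : Subgroup G) * A.relIndex H = Nat.card H := by
          rw [← Subgroup.inf_relIndex_right, ← Subgroup.relIndex_bot_left,
            Subgroup.relIndex_mul_relIndex _ _ _ bot_le inf_le_right, Subgroup.relIndex_bot_left]
        have h3 : Nat.card A * A.relIndex H = Nat.card (A ⊔ H : Subgroup G) := by
          rw [← Subgroup.relIndex_sup_right, ← Subgroup.relIndex_bot_left, sup_comm,
            Subgroup.relIndex_mul_relIndex _ _ _ bot_le le_sup_left, Subgroup.relIndex_bot_left]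
        have h4 : Nat.card H * H.relIndex (A ⊔ H) = Nat.card (A ⊔ H : Subgroup G) := by
          rw [← Subgroup.relIndex_bot_left, Subgroup.relIndex_mul_relIndex _ _ _ bot_le le_sup_right,
            Subgroup.relIndex_bot_left]
        refine Nat.eq_of_mul_eq_mul_left (Nat.card_pos (α := H)) ?_
        rw [h4, ← h3]
        nth_rw 1 [← h2]
        rw [← h1]
        ring
      rw [e1]
      exact Dvd.intro _ (Subgroup.relIndex_mul_index le_sup_right)
  · constructor
    · intro p hp hd
      exact hH.1 p hp (hd.trans (Subgroup.card_map_dvd H _))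
    · intro p hp hpπ hd
      exact hH.2 p hp hpπ (hd.trans (Subgroup.index_map_dvd H (QuotientGroup.mk'_surjective A)))

end Cfsg.Agent.S4309
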