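import Cfsg.Statements.S4314
import Cfsg.Agent.Lib.InvolBasic

set_option autoImplicit false
open Cfsg

namespace Cfsg.Agent.S4314

theorem mem_cent {G : Type*} [Group G] {x g : G} :
    g ∈ Subgroup.centralizer ({x} : Set G) ↔ g * x = x * g := Subgroup.mem_centralizer_singleton_iff

theorem central_iff {G : Type*} [Group G] {x : G} :
    x ∈ Subgroup.center G ↔ (Subgroup.centralizer ({x} : Set G)).index = 1 := by
  rw [Subgroup.index_eq_one, Subgroup.eq_top_iff']
  simp [mem_cent, Subgroup.mem_center_iff]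

theorem class_card {G : Type*} [Group G] [Finite G] (x : G) :
    (conjugatesOf x).ncard = (Subgroup.centralizer ({x} : Set G)).index := by
  rw [← CfsgLib.Invol.card_isConj_eq_index, ← Nat.card_coe_set_eq]
  exact Nat.card_congr (Equiv.subtypeEquivRight fun g => Iff.rfl)

theorem class_le_two {G : Type*} [Group G]
    (h : ∀ x : G, (Subgroup.centralizer ({x} : Set G)).Normal ∧
      ((Subgroup.centralizer ({x} : Set G)).index = 1 ∨ (Subgroup.centralizer ({x} : Set G)).index.Prime)) :
    Subgroup.upperCentralSeries G 2 = ⊤ := by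
  have hC : ∀ x : G, _root_.commutator G ≤ Subgroup.centralizer ({x} : Set G) := by
    intro x
    haveI := (h x).1
    rcases (h x).2 with h1 | h1
    · rw [Subgroup.index_eq_one.mp h1]; exact le_top
    · haveI : Fact (Subgroup.centralizer ({x} : Set G)).index.Prime := ⟨h1⟩
      haveI : IsCyclic (G ⧸ Subgroup.centralizer ({x} : Set G)) :=
        isCyclic_of_prime_card (p := (Subgroup.centralizer ({x} : Set G)).index) (Subgroup.index_eq_card _).symm
      letI := IsCyclic.commGroup (α := G ⧸ Subgroup.centralizer ({x} : Set G))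
      exact Abelianization.commutator_subset_ker (QuotientGroup.mk' (Subgroup.centralizer ({x} : Set G))) |>.trans
        (QuotientGroup.ker_mk' _).le
  rw [eq_top_iff]
  intro g _
  rw [Subgroup.mem_upperCentralSeries_succ_iff]
  intro y
  rw [Subgroup.upperCentralSeries_one, Subgroup.mem_center_iff]
  intro z
  refine (mem_cent.mp (hC z ?_)).symm
  exact Subgroup.commutator_mem_commutator (Subgroup.mem_top _) (Subgroup.mem_top _)

/-- Commuting elements of coprime orders with centralizers of index `p`. -/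
theorem same_cent {G : Type*} [Group G] [Finite G] {p : ℕ} (hp : p.Prime)
    (h : ∀ x : G, (Subgroup.centralizer ({x} : Set G)).index = 1 ∨ (Subgroup.centralizer ({x} : Set G)).index = p)
    {y w : G} (hy : y ∉ Subgroup.center G) (hw : w ∉ Subgroup.center G) (hc : Commute w y)
    (hcop : (orderOf y).Coprime (orderOf w)) :
    Subgroup.centralizer ({w} : Set G) = Subgroup.centralizer ({y} : Set G) := by
  have hnonc : ∀ z : G, z ∉ Subgroup.center G → (Subgroup.centralizer ({z} : Set G)).index = p :=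
    fun z hz => (h z).resolve_left fun e => hz (central_iff.mpr e)
  have hsub : ∀ g : G, g ∈ Subgroup.centralizer ({y * w} : Set G) →
      g ∈ Subgroup.centralizer ({y} : Set G) ∧ g ∈ Subgroup.centralizer ({w} : Set G) := by
    intro g hg
    have hgw : Commute g (y * w) := mem_cent.mp hg
    obtain ⟨i, hi⟩ := exists_pow_eq_self_of_coprime (n := orderOf w) (x := y) (Nat.Coprime.symm hcop)
    obtain ⟨i', hi'⟩ := exists_pow_eq_self_of_coprime (n := orderOf y) (x := w) hcop
    constructor
    · refine mem_cent.mpr ?_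
      have := (hgw.pow_right (orderOf w)).pow_right i
      rw [hc.symm.mul_pow, pow_orderOf_eq_one, mul_one, hi] at this
      exact this.eq
    · refine mem_cent.mpr ?_
      have := (hgw.pow_right (orderOf y)).pow_right i'
      rw [hc.symm.mul_pow, pow_orderOf_eq_one, one_mul, hi'] at this
      exact this.eq
  have hyw : y * w ∉ Subgroup.center G := fun hh => hy (central_iff.mpr (by
    rw [Subgroup.index_eq_one, eq_top_iff]
    intro g _
    exact (hsub g (mem_cent.mpr (Subgroup.mem_center_iff.mp hh g))).1))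
  have hcard : ∀ z : G, z ∉ Subgroup.center G →
      Nat.card (Subgroup.centralizer ({z} : Set G)) ≤ Nat.card (Subgroup.centralizer ({y * w} : Set G)) := by
    intro z hz
    have a1 := (Subgroup.centralizer ({y * w} : Set G)).card_mul_index
    have a2 := (Subgroup.centralizer ({z} : Set G)).card_mul_index
    rw [hnonc _ hyw] at a1; rw [hnonc z hz] at a2
    exact (Nat.eq_of_mul_eq_mul_right hp.pos (a2.trans a1.symm)).le
  exact (Subgroup.eq_of_le_of_card_ge (fun g hg => (hsub g hg).2) (hcard w hw)).symm.trans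
    (Subgroup.eq_of_le_of_card_ge (fun g hg => (hsub g hg).1) (hcard y hy))

/-- A group with noncentral class sizes all equal to the prime `p`. -/
theorem normal_of_one_size {G : Type*} [Group G] [Finite G] {p : ℕ} (hp : p.Prime)
    (h : ∀ x : G, (Subgroup.centralizer ({x} : Set G)).index = 1 ∨ (Subgroup.centralizer ({x} : Set G)).index = p)
    (x : G) : (Subgroup.centralizer ({x} : Set G)).Normal := by
  classical
  haveI : Fact p.Prime := ⟨hp⟩
  rcases h x with hx | hx
  · rw [Subgroup.index_eq_one.mp hx]; infer_instance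
  have hnonc : ∀ y : G, y ∉ Subgroup.center G → (Subgroup.centralizer ({y} : Set G)).index = p :=
    fun y hy => (h y).resolve_left fun e => hy (central_iff.mpr e)
  -- `q`-elements
  have key : ∀ y : G, y ∉ Subgroup.center G → (orderOf y).Coprime p →
      (Subgroup.centralizer ({y} : Set G)).Normal := by
    intro y hy hq
    set C := Subgroup.centralizer ({y} : Set G) with hC
    have hCi : C.index = p := hnonc y hy
    obtain ⟨PC⟩ : Nonempty (Sylow p C) := inferInstance
    set A := (PC : Subgroup C).map C.subtype with hA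
    have hAp : IsPGroup p A := PC.isPGroup'.map _
    obtain ⟨P, hAP⟩ := hAp.exists_le_sylow
    have hPC : (P : Subgroup G) ⊓ C = A := by
      refine le_antisymm ?_ (le_inf hAP (Subgroup.map_subtype_le _))
      have hm := PC.3 (Q := ((P : Subgroup G) ⊓ C).subgroupOf C)
        ((P.isPGroup'.to_le inf_le_left).of_equiv (Subgroup.subgroupOfEquivOfLe inf_le_right).symm)
        (fun z hz => ⟨hAP ⟨z, hz, rfl⟩, z.2⟩)
      intro z hz
      exact ⟨⟨z, hz.2⟩, hm ▸ (show (⟨z, hz.2⟩ : C) ∈ ((P : Subgroup G) ⊓ C).subgroupOf C from hz), rfl⟩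
    have hPnC : ¬ (P : Subgroup G) ≤ C := fun hle =>
      P.not_dvd_index (by have := Subgroup.index_dvd_of_le hle; rwa [hCi] at this)
    have hrel : C.relIndex (P : Subgroup G) = p := by
      obtain ⟨j, hj⟩ := IsPGroup.index P.isPGroup' (C.subgroupOf (P : Subgroup G))
      have hj' : C.relIndex (P : Subgroup G) = p ^ j := hj
      have hle : C.relIndex (P : Subgroup G) ≤ p := by
        have := Subgroup.relIndex_le_of_le_right (H := C) (le_top : (P : Subgroup G) ≤ ⊤)
          (by rw [Subgroup.relIndex_top_right]; exact Subgroup.index_ne_zero_of_finite)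
        rwa [Subgroup.relIndex_top_right, hCi] at this
      have hj0 : j ≠ 0 := fun e => hPnC (Subgroup.relIndex_eq_one.mp (by rw [hj', e, pow_zero]))
      have hj1 : j ≤ 1 := by
        by_contra
        have := Nat.pow_le_pow_right hp.pos (show 2 ≤ j by omega)
        have h1 : p * 1 < p * p := Nat.mul_lt_mul_of_pos_left hp.one_lt hp.pos
        rw [sq] at this
        omega
      rw [hj', show j = 1 by omega, pow_one]
    haveI hAn : (C.subgroupOf (P : Subgroup G)).Normal := by
      refine Subgroup.normal_of_index_eq_minFac_card ?_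
      obtain ⟨k, hk⟩ := P.isPGroup'.exists_card_eq
      have hk0 : k ≠ 0 := by
        rintro rfl
        have hd := (C.subgroupOf (P : Subgroup G)).index_dvd_card
        rw [hk, pow_zero, show (C.subgroupOf (P : Subgroup G)).index = p from hrel, Nat.dvd_one] at hd
        exact hp.ne_one hd
      rw [show (C.subgroupOf (P : Subgroup G)).index = p from hrel, hk, Nat.pow_minFac hk0, hp.minFac_eq]
    have hsame : ∀ w : G, w ∈ A → w ∉ Subgroup.center G → Subgroup.centralizer ({w} : Set G) = C := by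
      intro w hw hwZ
      refine same_cent hp h hy hwZ (mem_cent.mp (Subgroup.map_subtype_le _ hw)) ?_
      obtain ⟨j, hj⟩ := IsPGroup.iff_orderOf.mp P.isPGroup' ⟨w, hAP hw⟩
      rw [Subgroup.orderOf_mk] at hj
      rw [hj]; exact hq.pow_right j
    obtain ⟨u, huP, huC⟩ := SetLike.not_le_iff_exists.mp hPnC
    by_cases hAZ : A ≤ Subgroup.center G
    · exfalso
      have huZ : u ∉ Subgroup.center G := fun hh => huC (mem_cent.mpr (Subgroup.mem_center_iff.mp hh y).symm)
      have hle : (P : Subgroup G) ≤ Subgroup.centralizer ({u} : Set G) := by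
        intro v hv
        refine mem_cent.mpr ?_
        haveI : IsCyclic ((P : Subgroup G) ⧸ C.subgroupOf (P : Subgroup G)) :=
          isCyclic_of_prime_card (p := p) hrel
        have hker : (QuotientGroup.mk' (C.subgroupOf (P : Subgroup G))).ker ≤ Subgroup.center (P : Subgroup G) := by
          rw [QuotientGroup.ker_mk']
          intro z hz
          rw [Subgroup.mem_center_iff]
          intro g
          apply Subtype.ext
          exact Subgroup.mem_center_iff.mp (hAZ (hPC ▸ (⟨z.2, hz⟩ : (z : G) ∈ (P : Subgroup G) ⊓ C))) g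
        letI := IsCyclic.commGroup (α := (P : Subgroup G) ⧸ C.subgroupOf (P : Subgroup G))
        haveI := (QuotientGroup.mk' (C.subgroupOf (P : Subgroup G))).isMulCommutative_of_isCyclic_of_ker_le_center hker
        exact congrArg Subtype.val (IsMulCommutative.is_comm.comm (⟨v, hv⟩ : (P : Subgroup G)) ⟨u, huP⟩)
      exact P.not_dvd_index (by have := Subgroup.index_dvd_of_le hle; rwa [hnonc u huZ] at this)
    · obtain ⟨w, hwA, hwZ⟩ := SetLike.not_le_iff_exists.mp hAZ
      have hw' : u * w * u⁻¹ ∈ A := by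
        rw [← hPC] at hwA ⊢
        have := hAn.conj_mem ⟨w, hwA.1⟩ hwA.2 ⟨u, huP⟩
        exact ⟨(P : Subgroup G).mul_mem ((P : Subgroup G).mul_mem huP hwA.1) ((P : Subgroup G).inv_mem huP), this⟩
      have hw'Z : u * w * u⁻¹ ∉ Subgroup.center G := fun hh => hwZ (by
        have e : u⁻¹ * (u * w * u⁻¹) * u = u * w * u⁻¹ := by
          rw [mul_assoc, ← Subgroup.mem_center_iff.mp hh u, inv_mul_cancel_left]
        have e2 : u⁻¹ * (u * w * u⁻¹) * u = w := by group
        rw [← e2, e]; exact hh)
      have e1 := hsame w hwA hwZ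
      have e2 := hsame _ hw' hw'Z
      have huN : u ∈ Subgroup.normalizer (C : Set G) := by
        rw [Subgroup.mem_normalizer_iff]
        intro c
        constructor
        · intro hc
          rw [← e2, mem_cent]
          rw [← e1, mem_cent] at hc
          calc u * c * u⁻¹ * (u * w * u⁻¹) = u * (c * w) * u⁻¹ := by group
            _ = u * (w * c) * u⁻¹ := by rw [hc]
            _ = u * w * u⁻¹ * (u * c * u⁻¹) := by group
        · intro hc
          rw [← e1, mem_cent]
          rw [← e2, mem_cent] at hc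
          calc c * w = u⁻¹ * (u * c * u⁻¹ * (u * w * u⁻¹)) * u := by group
            _ = u⁻¹ * (u * w * u⁻¹ * (u * c * u⁻¹)) * u := by rw [hc]
            _ = w * c := by group
      rw [← Subgroup.normalizer_eq_top_iff]
      have hd := Subgroup.relIndex_mul_index (Subgroup.le_normalizer (H := C))
      rw [hCi] at hd
      rcases (Nat.dvd_prime hp).mp ⟨_, hd.symm⟩ with e | e
      · exact absurd (Subgroup.relIndex_eq_one.mp e huN) huC
      · rw [e] at hd
        exact Subgroup.index_eq_one.mp (Nat.eq_of_mul_eq_mul_left hp.pos (hd.trans (mul_one p).symm))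
  set C := Subgroup.centralizer ({x} : Set G) with hC
  obtain ⟨k, m, hm, hkm⟩ := Nat.exists_eq_pow_mul_and_not_dvd (orderOf_pos x).ne' p hp.ne_one
  have hmp : m.Coprime p := (hp.coprime_iff_not_dvd.mpr hm).symm
  have hxZ : x ∉ Subgroup.center G := fun hh => hp.ne_one (by rw [← hx]; exact central_iff.mp hh)
  set b := x ^ p ^ k with hb
  have hbo : (orderOf b).Coprime p :=
    Nat.Coprime.coprime_dvd_left (orderOf_dvd_of_pow_eq_one (by rw [hb, ← pow_mul, ← hkm, pow_orderOf_eq_one])) hmp
  by_cases hbZ : b ∈ Subgroup.center G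
  swap
  · have hle : C ≤ Subgroup.centralizer ({b} : Set G) := fun v hv =>
      mem_cent.mpr ((show Commute v x from mem_cent.mp hv).pow_right _).eq
    have heq : C = Subgroup.centralizer ({b} : Set G) := Subgroup.eq_of_le_of_card_ge hle (by
      have a1 := C.card_mul_index
      have a2 := (Subgroup.centralizer ({b} : Set G)).card_mul_index
      rw [hx] at a1; rw [hnonc b hbZ] at a2
      exact (Nat.eq_of_mul_eq_mul_right hp.pos (a2.trans a1.symm)).le)
    rw [heq]; exact key b hbZ hbo
  -- the `p'`-part is central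
  set a := x ^ m with ha
  have hao : ∀ y : G, (orderOf y).Coprime p → (orderOf y).Coprime (orderOf a) := fun y hy =>
    Nat.Coprime.coprime_dvd_right (orderOf_dvd_of_pow_eq_one (by rw [ha, ← pow_mul, mul_comm, ← hkm, pow_orderOf_eq_one]))
      (hy.pow_right k)
  have hCa : Subgroup.centralizer ({a} : Set G) ≤ C := by
    intro v hv
    refine mem_cent.mpr ?_
    have h1 : Commute v a := mem_cent.mp hv
    have h2 : Commute v b := Subgroup.mem_center_iff.mp hbZ v
    obtain ⟨i, j, hij⟩ : IsCoprime ((p ^ k : ℕ) : ℤ) (m : ℤ) := Nat.isCoprime_iff_coprime.mpr (hmp.pow_right k).symm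
    have e : x = b ^ i * a ^ j := by
      rw [hb, ha, ← zpow_natCast, ← zpow_natCast, ← zpow_mul, ← zpow_mul, ← zpow_add,
        mul_comm _ i, mul_comm _ j, hij, zpow_one]
    rw [e]; exact ((h2.zpow_right i).mul_right (h1.zpow_right j)).eq
  have haZ : a ∉ Subgroup.center G := fun hh => hxZ (Subgroup.mem_center_iff.mpr fun v =>
    mem_cent.mp (hCa (mem_cent.mpr (Subgroup.mem_center_iff.mp hh v))))
  have hCa' : Subgroup.centralizer ({a} : Set G) = C := le_antisymm hCa fun v hv =>
    mem_cent.mpr ((show Commute v x from mem_cent.mp hv).pow_right _).eq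
  by_cases hex : ∃ y ∈ C, y ∉ Subgroup.center G ∧ (orderOf y).Coprime p
  · obtain ⟨y, hyC, hy, hyp⟩ := hex
    rw [← hCa', same_cent hp h hy haZ ((show Commute y x from mem_cent.mp hyC).pow_right m).symm (hao y hyp)]
    exact key y hy hyp
  push Not at hex
  have hZC : Subgroup.center G ≤ C := Subgroup.center_le_centralizer _
  have hpg : IsPGroup p (G ⧸ Subgroup.center G) := by
    refine IsPGroup.of_card (n := (Nat.card (G ⧸ Subgroup.center G)).primeFactorsList.length)
      (Nat.eq_prime_pow_of_unique_prime_dvd Nat.card_pos.ne' ?_)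
    intro q hq hqd
    by_contra hqp
    haveI : Fact q.Prime := ⟨hq⟩
    obtain ⟨Q⟩ : Nonempty (Sylow q G) := inferInstance
    have hQZ : ¬ (Q : Subgroup G) ≤ Subgroup.center G := fun hle =>
      Q.not_dvd_index (((Subgroup.index_eq_card (Subgroup.center G)).symm ▸ hqd).trans (Subgroup.index_dvd_of_le hle))
    obtain ⟨y, hyQ, hyZ⟩ := SetLike.not_le_iff_exists.mp hQZ
    obtain ⟨QC⟩ : Nonempty (Sylow q C) := inferInstance
    obtain ⟨Q', hQ'⟩ := (QC.isPGroup'.map C.subtype).exists_le_sylow
    have hcard : Nat.card Q' ≤ Nat.card ((QC : Subgroup C).map C.subtype) := by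
      have hf : (Nat.card G).factorization q = (Nat.card C).factorization q := by
        rw [← C.card_mul_index, hx, Nat.factorization_mul Nat.card_pos.ne' hp.ne_zero, Finsupp.add_apply,
          hp.factorization, Finsupp.single_apply, if_neg (Ne.symm hqp), add_zero]
      rw [Subgroup.card_map_of_injective C.subtype_injective, Q'.card_eq_multiplicity, QC.card_eq_multiplicity, hf]
    have heq : (QC : Subgroup C).map C.subtype = (Q' : Subgroup G) := Subgroup.eq_of_le_of_card_ge hQ' hcard
    obtain ⟨g, hg⟩ := MulAction.exists_smul_eq G Q Q'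
    have hy' : g * y * g⁻¹ ∈ (Q' : Subgroup G) := by rw [← hg]; exact ⟨y, hyQ, rfl⟩
    have hyC : g * y * g⁻¹ ∈ C := Subgroup.map_subtype_le _ (heq.ge hy')
    refine hyZ ?_
    obtain ⟨j, hj⟩ := IsPGroup.iff_orderOf.mp Q'.isPGroup' ⟨_, hy'⟩
    rw [Subgroup.orderOf_mk] at hj
    have hz : g * y * g⁻¹ ∈ Subgroup.center G := by
      by_contra hnz
      exact hex _ hyC hnz (hj ▸ Nat.Coprime.pow_left j ((Nat.coprime_primes hq hp).mpr hqp))
    have e : g⁻¹ * (g * y * g⁻¹) * g = g * y * g⁻¹ := by
      rw [mul_assoc, ← Subgroup.mem_center_iff.mp hz g, inv_mul_cancel_left]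
    have e2 : g⁻¹ * (g * y * g⁻¹) * g = y := by group
    rw [← e2, e]; exact hz
  let π := QuotientGroup.mk' (Subgroup.center G)
  have hmap : (C.map π).index = p := by
    rw [Subgroup.index_map_eq C (QuotientGroup.mk'_surjective _) (by rw [QuotientGroup.ker_mk']; exact hZC), hx]
  haveI : (C.map π).Normal := by
    refine Subgroup.normal_of_index_eq_minFac_card ?_
    obtain ⟨k', hk⟩ := hpg.exists_card_eq
    have hk0 : k' ≠ 0 := by
      rintro rfl
      have hd := (C.map π).index_dvd_card
      rw [hk, pow_zero, hmap, Nat.dvd_one] at hd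
      exact hp.ne_one hd
    rw [hmap, hk, Nat.pow_minFac hk0, hp.minFac_eq]
  have e : C = (C.map π).comap π := by
    rw [Subgroup.comap_map_eq, QuotientGroup.ker_mk', sup_eq_left.mpr hZC]
  rw [e]; infer_instance

/-- Two different class sizes: the product of two classes is a class. -/
theorem two_sizes {G : Type*} [Group G] [Finite G]
    (h : ∀ x : G, (Subgroup.centralizer ({x} : Set G)).index = 1 ∨ ((Subgroup.centralizer ({x} : Set G)).index).Prime)
    {x y : G} {p q : ℕ} (hp : p.Prime) (hq : q.Prime) (hx : (Subgroup.centralizer ({x} : Set G)).index = p)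
    (hy : (Subgroup.centralizer ({y} : Set G)).index = q) (hpq : p < q) :
    ∃ D : Subgroup G, D.Normal ∧ Nat.card D = q ∧ (∀ g : G, g * x * g⁻¹ * x⁻¹ ∈ D) ∧ ∀ g : G, g * y * g⁻¹ * y⁻¹ ∈ D := by
  classical
  set Cx := Subgroup.centralizer ({x} : Set G) with hCx
  set Cy := Subgroup.centralizer ({y} : Set G) with hCy
  set I := Cx ⊓ Cy with hI
  have hcop : p.Coprime q := (Nat.coprime_primes hp hq).mpr hpq.ne
  have hIi : I.index = p * q := by
    have h1 : I.index ≤ p * q := hx ▸ hy ▸ Subgroup.index_inf_le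
    refine le_antisymm h1 (Nat.le_of_dvd (Nat.pos_of_ne_zero Subgroup.index_ne_zero_of_finite) ?_)
    exact hcop.mul_dvd_of_dvd_of_dvd (hx ▸ Subgroup.index_dvd_of_le inf_le_left) (hy ▸ Subgroup.index_dvd_of_le inf_le_right)
  have hsplit : ∀ g : G, ∃ c ∈ Cx, c⁻¹ * g ∈ Cy := by
    intro g
    have hrel : I.relIndex Cx = q := by
      have e := Subgroup.relIndex_mul_index (show I ≤ Cx from inf_le_left)
      rw [hx, hIi, mul_comm p q] at e
      exact Nat.eq_of_mul_eq_mul_right hp.pos e
    have hst : MulAction.stabilizer Cx ((1 : G) : G ⧸ Cy) = I.subgroupOf Cx := by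
      ext c
      rw [MulAction.mem_stabilizer_iff, Subgroup.mem_subgroupOf, hI, Subgroup.mem_inf, eq_comm]
      change ((1 : G) : G ⧸ Cy) = (((c : G) * 1 : G) : G ⧸ Cy) ↔ _
      rw [QuotientGroup.eq, inv_one, one_mul, mul_one]
      exact ⟨fun hc => ⟨c.2, hc⟩, fun hc => hc.2⟩
    have ho : (MulAction.orbit Cx ((1 : G) : G ⧸ Cy)).ncard = Nat.card (G ⧸ Cy) := by
      rw [← MulAction.index_stabilizer, hst, ← Subgroup.index_eq_card, hy]; exact hrel
    have hu : MulAction.orbit Cx ((1 : G) : G ⧸ Cy) = Set.univ :=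
      Set.eq_of_subset_of_ncard_le (Set.subset_univ _) (by rw [Set.ncard_univ, ho])
    obtain ⟨c, hc⟩ : (g : G ⧸ Cy) ∈ MulAction.orbit Cx ((1 : G) : G ⧸ Cy) := hu ▸ Set.mem_univ _
    refine ⟨c, c.2, ?_⟩
    have hc' : (((c : G) * 1 : G) : G ⧸ Cy) = g := hc
    rwa [QuotientGroup.eq, mul_one] at hc'
  have hprod : ∀ a ∈ conjugatesOf x, ∀ b ∈ conjugatesOf y, a * b ∈ conjugatesOf (x * y) := by
    intro a ha b hb
    obtain ⟨g, rfl⟩ := isConj_iff.mp ha
    obtain ⟨g', rfl⟩ := isConj_iff.mp hb
    obtain ⟨c, hc, hd⟩ := hsplit (g⁻¹ * g')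
    refine isConj_iff.mpr ⟨g * c, ?_⟩
    have e1 : c * x * c⁻¹ = x := by rw [mem_cent.mp hc, mul_inv_cancel_right]
    have e2 : c⁻¹ * (g⁻¹ * g') * y * (c⁻¹ * (g⁻¹ * g'))⁻¹ = y := by rw [mem_cent.mp hd, mul_inv_cancel_right]
    calc g * c * (x * y) * (g * c)⁻¹ = (g * (c * x * c⁻¹) * g⁻¹) * ((g * c) * y * (g * c)⁻¹) := by group
      _ = g * x * g⁻¹ * ((g * c) * (c⁻¹ * (g⁻¹ * g') * y * (c⁻¹ * (g⁻¹ * g'))⁻¹) * (g * c)⁻¹) := by rw [e1, e2]
      _ = g * x * g⁻¹ * (g' * y * g'⁻¹) := by group
  set r := (Subgroup.centralizer ({x * y} : Set G)).index with hr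
  have hrd : r ∣ p * q := hIi ▸ Subgroup.index_dvd_of_le (fun v hv =>
    mem_cent.mpr ((show Commute v x from mem_cent.mp hv.1).mul_right (mem_cent.mp hv.2)).eq)
  have hsub : ∀ a ∈ conjugatesOf x, (fun b => a * b) '' conjugatesOf y ⊆ conjugatesOf (x * y) := by
    rintro a ha _ ⟨b, hb, rfl⟩; exact hprod a ha b hb
  have himg : ∀ a : G, ((fun b => a * b) '' conjugatesOf y).ncard = q := fun a => by
    rw [Set.ncard_image_of_injective _ (mul_right_injective a), class_card, ← hCy, hy]
  have hqr : q ≤ r := by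
    have := Set.ncard_le_ncard (hsub x (mem_conjugatesOf_self)) (Set.toFinite _)
    rwa [himg, class_card] at this
  have hrq : r = q := by
    rcases h (x * y) with e | e
    · rw [← hr] at e; have := hq.one_lt; omega
    · rcases e.dvd_mul.mp hrd with e' | e'
      · have := Nat.le_of_dvd hp.pos e'; omega
      · exact (Nat.prime_dvd_prime_iff_eq e hq).mp e'
  have hall : ∀ a ∈ conjugatesOf x, (fun b => a * b) '' conjugatesOf y = conjugatesOf (x * y) := fun a ha =>
    Set.eq_of_subset_of_ncard_le (hsub a ha) (by rw [himg, class_card, ← hr, hrq]) (Set.toFinite _)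
  -- the subgroup of differences
  set T : Set G := {z | ∃ g : G, z = x⁻¹ * (g * x * g⁻¹)} with hT
  set D := Subgroup.closure T with hD
  have hDn : D.Normal := by
    refine ⟨fun d hd v => ?_⟩
    have hle : D ≤ D.comap (MulAut.conj v).toMonoidHom := by
      rw [hD, Subgroup.closure_le]
      rintro _ ⟨g, rfl⟩
      show v * (x⁻¹ * (g * x * g⁻¹)) * v⁻¹ ∈ Subgroup.closure T
      have e : v * (x⁻¹ * (g * x * g⁻¹)) * v⁻¹ =
          (x⁻¹ * (v * x * v⁻¹))⁻¹ * (x⁻¹ * ((v * g) * x * (v * g)⁻¹)) := by group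
      rw [e]
      exact mul_mem (inv_mem (Subgroup.subset_closure ⟨v, rfl⟩)) (Subgroup.subset_closure ⟨v * g, rfl⟩)
    exact hle hd
  have hstab : ∀ d ∈ D, (fun b => d * b) '' conjugatesOf y = conjugatesOf y := by
    intro d hd
    induction hd using Subgroup.closure_induction with
    | mem z hz =>
      obtain ⟨g, rfl⟩ := hz
      have e1 := hall (g * x * g⁻¹) (isConj_iff.mpr ⟨g, rfl⟩)
      have e2 := hall x (mem_conjugatesOf_self)
      rw [← e2] at e1
      rw [show (fun b => x⁻¹ * (g * x * g⁻¹) * b) = (fun b => x⁻¹ * b) ∘ (fun b => g * x * g⁻¹ * b) from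
        funext fun b => by simp [mul_assoc], Set.image_comp, e1, ← Set.image_comp]
      simp [Function.comp_def]
    | one => simp
    | mul a b _ _ iha ihb =>
      rw [show (fun z => a * b * z) = (fun z => a * z) ∘ (fun z => b * z) from funext fun z => by simp [mul_assoc],
        Set.image_comp, ihb, iha]
    | inv a _ iha =>
      conv_lhs => rw [← iha]
      rw [← Set.image_comp]
      simp [Function.comp_def]
  have hD1 : D ≠ ⊥ := by
    intro e
    have htop : Cx = ⊤ := by
      rw [eq_top_iff]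
      intro g _
      have hm : x⁻¹ * (g * x * g⁻¹) ∈ D := Subgroup.subset_closure ⟨g, rfl⟩
      rw [e, Subgroup.mem_bot, inv_mul_eq_one] at hm
      exact mem_cent.mpr (mul_inv_eq_iff_eq_mul.mp hm.symm)
    rw [htop, Subgroup.index_top] at hx
    exact hp.ne_one hx.symm
  let π := QuotientGroup.mk' D
  have hpre : π ⁻¹' (π '' conjugatesOf y) = conjugatesOf y := by
    refine Set.Subset.antisymm ?_ (Set.subset_preimage_image _ _)
    rintro z ⟨b, hb, hbz⟩
    have hd : z * b⁻¹ ∈ D := (QuotientGroup.eq_one_iff _).mp (show π (z * b⁻¹) = 1 by rw [map_mul, map_inv, hbz, mul_inv_cancel])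
    have : z * b⁻¹ * b ∈ (fun w => z * b⁻¹ * w) '' conjugatesOf y := ⟨b, hb, rfl⟩
    rwa [hstab _ hd, inv_mul_cancel_right] at this
  have hcount : q = Nat.card D * (π '' conjugatesOf y).ncard := by
    have e := Nat.card_congr (QuotientGroup.preimageMkEquivSubgroupProdSet D (π '' conjugatesOf y))
    rw [Nat.card_prod, Nat.card_coe_set_eq, Nat.card_coe_set_eq] at e
    rw [show (QuotientGroup.mk ⁻¹' (π '' conjugatesOf y) : Set G) = conjugatesOf y from hpre, class_card, ← hCy, hy] at e
    exact e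
  have hDq : Nat.card D = q :=
    ((Nat.dvd_prime hq).mp ⟨_, hcount⟩).resolve_left fun e => hD1 (Subgroup.card_eq_one.mp e)
  refine ⟨D, hDn, hDq, fun g => ?_, fun g => ?_⟩
  · have := hDn.conj_mem _ (Subgroup.subset_closure (k := T) ⟨g, rfl⟩) x
    convert this using 1
    group
  · rw [hDq] at hcount
    obtain ⟨w, hw⟩ := Set.ncard_eq_one.mp (Nat.eq_of_mul_eq_mul_left hq.pos (hcount.symm.trans (mul_one q).symm))
    have h1 : π (g * y * g⁻¹) = w := Set.mem_singleton_iff.mp (hw ▸ Set.mem_image_of_mem π (isConj_iff.mpr ⟨g, rfl⟩))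
    have h2 : π y = w := Set.mem_singleton_iff.mp (hw ▸ Set.mem_image_of_mem π (mem_conjugatesOf_self))
    refine (QuotientGroup.eq_one_iff _).mp ?_
    show π (g * y * g⁻¹ * y⁻¹) = 1
    rw [map_mul, map_inv, h1, h2, mul_inv_cancel]

/-- Let `G` be a finite group every conjugacy class of which has size 1 or a prime. Then either `G` is nilpotent of class at most 2, or `G/Z(G)` is a non-abelian group of order `pq` for distinct primes `p, q` (a Frobenius group of order `pq`). -/
theorem result {G : Type*} [Group G] [Finite G]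
    (h : ∀ x : G, (Subgroup.centralizer ({x} : Set G)).index = 1 ∨ ((Subgroup.centralizer ({x} : Set G)).index).Prime) :
    Subgroup.upperCentralSeries G 2 = ⊤ ∨
      ∃ p q : ℕ, p.Prime ∧ q.Prime ∧ p ≠ q ∧ Nat.card (G ⧸ Subgroup.center G) = p * q ∧ ¬ IsMulCommutative (G ⧸ Subgroup.center G) := by
  classical
  by_cases hone : ∀ x y : G, (Subgroup.centralizer ({x} : Set G)).index.Prime →
      (Subgroup.centralizer ({y} : Set G)).index.Prime →
      (Subgroup.centralizer ({x} : Set G)).index = (Subgroup.centralizer ({y} : Set G)).index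
  · left
    refine class_le_two fun x => ⟨?_, h x⟩
    rcases h x with hx | hx
    · rw [Subgroup.index_eq_one.mp hx]; infer_instance
    · exact normal_of_one_size hx (fun z => (h z).imp_right fun hz => hone z x hz hx) x
  right
  push Not at hone
  obtain ⟨x₀, y₀, hx₀, hy₀, hne⟩ := hone
  -- the largest class size
  obtain ⟨y, -, hymax⟩ := Set.exists_max_image (Set.univ : Set G)
    (fun z => (Subgroup.centralizer ({z} : Set G)).index) (Set.toFinite _) Set.univ_nonempty
  set q := (Subgroup.centralizer ({y} : Set G)).index with hqdef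
  have hmax : ∀ z : G, (Subgroup.centralizer ({z} : Set G)).index ≤ q := fun z => hymax z (Set.mem_univ z)
  obtain ⟨x, hx, hxq⟩ : ∃ x : G, (Subgroup.centralizer ({x} : Set G)).index.Prime ∧ (Subgroup.centralizer ({x} : Set G)).index < q := by
    rcases (hmax x₀).lt_or_eq with e | e
    · exact ⟨x₀, hx₀, e⟩
    · exact ⟨y₀, hy₀, lt_of_le_of_ne (hmax y₀) fun e' => hne (e.trans e'.symm)⟩
  have hq : q.Prime := (h y).resolve_left fun e => by have := hx.two_le; rw [← hqdef] at e; omega
  set p := (Subgroup.centralizer ({x} : Set G)).index with hpdef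
  obtain ⟨D, hDn, hDq, hDx, hDy⟩ := two_sizes h hx hq rfl rfl hxq
  haveI := hDn
  have hprimeD : ∀ a ∈ D, a ≠ 1 → Subgroup.zpowers a = D := by
    intro a ha ha1
    haveI : Fact q.Prime := ⟨hq⟩
    have hd : orderOf a ∣ q := hDq ▸ Subgroup.orderOf_dvd_natCard D ha
    refine Subgroup.eq_of_le_of_card_ge (Subgroup.zpowers_le.mpr ha) ?_
    rw [hDq, Nat.card_zpowers, ((Nat.dvd_prime hq).mp hd).resolve_left fun e => ha1 (orderOf_eq_one_iff.mp e)]
  -- every commutator lies in `D`
  have hDall : ∀ z g : G, g * z * g⁻¹ * z⁻¹ ∈ D := by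
    intro z g
    rcases h z with hz | hz
    · rw [← central_iff, Subgroup.mem_center_iff] at hz
      rw [hz g, mul_inv_cancel_right, mul_inv_cancel]; exact D.one_mem
    rcases (hmax z).lt_or_eq with e | e
    · obtain ⟨D', hD'n, hD'q, hD'z, hD'y⟩ := two_sizes h hz hq rfl rfl e
      obtain ⟨g₀, hg₀⟩ : ∃ g₀ : G, g₀ * y * g₀⁻¹ * y⁻¹ ≠ 1 := by
        by_contra hall
        push Not at hall
        have htop : (Subgroup.centralizer ({y} : Set G)) = ⊤ := eq_top_iff.mpr fun v _ =>
          mem_cent.mpr (mul_inv_eq_iff_eq_mul.mp (mul_inv_eq_one.mp (hall v)))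
        rw [hqdef, htop, Subgroup.index_top] at hq
        exact Nat.not_prime_one hq
      have heq : D' = D := by
        rw [← hprimeD _ (hDy g₀) hg₀]
        refine (Subgroup.eq_of_le_of_card_ge (Subgroup.zpowers_le.mpr (hD'y g₀)) ?_).symm
        rw [hprimeD _ (hDy g₀) hg₀, hDq, hD'q]
      exact heq ▸ hD'z g
    · obtain ⟨D', hD'n, hD'q, hD'x, hD'z⟩ := two_sizes h hx hz rfl rfl (e ▸ hxq)
      obtain ⟨g₀, hg₀⟩ : ∃ g₀ : G, g₀ * x * g₀⁻¹ * x⁻¹ ≠ 1 := by
        by_contra hall
        push Not at hall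
        have htop : (Subgroup.centralizer ({x} : Set G)) = ⊤ := eq_top_iff.mpr fun v _ =>
          mem_cent.mpr (mul_inv_eq_iff_eq_mul.mp (mul_inv_eq_one.mp (hall v)))
        rw [hpdef, htop, Subgroup.index_top] at hx
        exact Nat.not_prime_one hx
      have heq : D' = D := by
        rw [← hprimeD _ (hDx g₀) hg₀]
        refine (Subgroup.eq_of_le_of_card_ge (Subgroup.zpowers_le.mpr (hD'x g₀)) ?_).symm
        rw [hprimeD _ (hDx g₀) hg₀, hDq, hD'q, e]
      exact heq ▸ hD'z g
  -- `D` is not central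
  have hDZ : ¬ D ≤ Subgroup.center G := by
    intro hle
    let f : G →* D := MonoidHom.mk' (fun g => ⟨g * x * g⁻¹ * x⁻¹, hDx g⟩) (fun a b => by
      apply Subtype.ext
      show a * b * x * (a * b)⁻¹ * x⁻¹ = a * x * a⁻¹ * x⁻¹ * (b * x * b⁻¹ * x⁻¹)
      have hc := Subgroup.mem_center_iff.mp (hle (hDx b))
      rw [hc (a * x * a⁻¹ * x⁻¹)]
      calc a * b * x * (a * b)⁻¹ * x⁻¹ = a * (b * x * b⁻¹ * x⁻¹) * (x * a⁻¹ * x⁻¹) := by group
        _ = b * x * b⁻¹ * x⁻¹ * a * (x * a⁻¹ * x⁻¹) := by rw [hc a]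
        _ = b * x * b⁻¹ * x⁻¹ * (a * x * a⁻¹ * x⁻¹) := by group)
    have hk : f.ker = Subgroup.centralizer ({x} : Set G) := by
      ext g
      rw [MonoidHom.mem_ker, mem_cent, ← OneMemClass.coe_eq_one]
      show g * x * g⁻¹ * x⁻¹ = 1 ↔ _
      rw [mul_inv_eq_one, mul_inv_eq_iff_eq_mul]
    have hd := Subgroup.card_subgroup_dvd_card f.range
    rw [← Subgroup.index_ker, hk, ← hpdef, hDq] at hd
    exact hxq.ne ((Nat.prime_dvd_prime_iff_eq hx hq).mp hd)
  set E := Subgroup.centralizer (D : Set G) with hE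
  obtain ⟨d, hdD, hdZ⟩ := SetLike.not_le_iff_exists.mp hDZ
  have hd1 : d ≠ 1 := fun e => hdZ (e ▸ Subgroup.one_mem _)
  have hEd : E = Subgroup.centralizer ({d} : Set G) := by
    rw [hE, ← hprimeD d hdD hd1, Subgroup.zpowers_eq_closure, Subgroup.centralizer_closure]
  haveI hEn : E.Normal := Subgroup.normal_centralizer
  set s := E.index with hs
  have hsp : s.Prime := by
    rw [hs, hEd]; exact (h d).resolve_left fun e => hdZ (central_iff.mpr e)
  have hsq : s < q := by
    have hsub : conjugatesOf d ⊆ (D : Set G) \ {1} := by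
      intro z hz
      obtain ⟨g, rfl⟩ := isConj_iff.mp hz
      exact ⟨hDn.conj_mem d hdD g, fun e => hd1 (conj_eq_one_iff.mp e)⟩
    have := Set.ncard_le_ncard hsub (Set.toFinite _)
    rw [Set.ncard_sdiff (by simpa using D.one_mem), Set.ncard_singleton, class_card, ← hEd, ← hs,
      ← Nat.card_coe_set_eq, show Nat.card ((D : Set G) : Set G) = q from hDq] at this
    have := hq.one_lt
    omega
  obtain ⟨g, hgE⟩ : ∃ g, g ∉ E := by
    by_contra hall
    push Not at hall
    have htop : E = ⊤ := eq_top_iff.mpr fun v _ => hall v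
    rw [hs, htop, Subgroup.index_top] at hsp
    exact Nat.not_prime_one hsp
  set C := Subgroup.centralizer ({g} : Set G) with hC
  have hCD : D ⊓ C = ⊥ := by
    by_contra hne
    obtain ⟨a, ha, ha1⟩ := (Subgroup.bot_or_exists_ne_one _).resolve_left hne
    refine hgE ?_
    rw [hE, ← hprimeD a ha.1 ha1, Subgroup.zpowers_eq_closure, Subgroup.centralizer_closure]
    exact mem_cent.mpr (mem_cent.mp ha.2).symm
  have hCi : C.index = q := by
    refine le_antisymm (hmax g) ?_
    rw [← hDq]
    have hst : ∀ a ∈ D, ∀ b ∈ D, a * g * a⁻¹ = b * g * b⁻¹ → a = b := by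
      intro a ha b hb hab
      have hm : a⁻¹ * b ∈ D ⊓ C := ⟨D.mul_mem (D.inv_mem ha) hb, mem_cent.mpr (by
        calc a⁻¹ * b * g = a⁻¹ * (b * g * b⁻¹) * b := by group
          _ = a⁻¹ * (a * g * a⁻¹) * b := by rw [hab]
          _ = g * (a⁻¹ * b) := by group)⟩
      rw [hCD, Subgroup.mem_bot, inv_mul_eq_one] at hm
      exact hm
    rw [← class_card g, ← Nat.card_coe_set_eq]
    exact Nat.card_le_card_of_injective (fun a : D => (⟨(a : G) * g * (a : G)⁻¹, isConj_iff.mpr ⟨a, rfl⟩⟩ : conjugatesOf g))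
      (fun a b hab => Subtype.ext (hst a a.2 b b.2 (congrArg Subtype.val hab)))
  have hCcomm : ∀ a ∈ C, ∀ b ∈ C, a * b = b * a := by
    intro a ha b hb
    have hm : a * b * a⁻¹ * b⁻¹ ∈ D ⊓ C :=
      ⟨hDall b a, C.mul_mem (C.mul_mem (C.mul_mem ha hb) (C.inv_mem ha)) (C.inv_mem hb)⟩
    rw [hCD, Subgroup.mem_bot, mul_inv_eq_one, mul_inv_eq_iff_eq_mul] at hm
    exact hm
  have htop : D ⊔ C = ⊤ := by
    refine Subgroup.eq_top_of_card_eq _ (le_antisymm (Subgroup.card_le_card_group _) ?_)
    let φ : D × C → (D ⊔ C : Subgroup G) := fun z =>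
      ⟨z.1 * z.2, mul_mem (Subgroup.mem_sup_left z.1.2) (Subgroup.mem_sup_right z.2.2)⟩
    have := Nat.card_le_card_of_injective φ fun a b hab =>
      Subgroup.mul_injective_of_disjoint (disjoint_iff.mpr hCD) (congrArg Subtype.val hab)
    rw [Nat.card_prod, hDq, mul_comm, ← hCi, Subgroup.card_mul_index] at this
    exact this
  have hZ : Subgroup.center G = C ⊓ E := by
    refine le_antisymm (le_inf (Subgroup.center_le_centralizer _) (Subgroup.center_le_centralizer _)) ?_
    intro v hv
    rw [Subgroup.mem_center_iff]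
    intro w
    have hle : D ⊔ C ≤ Subgroup.centralizer ({v} : Set G) := sup_le
      (fun a ha => mem_cent.mpr (Subgroup.mem_centralizer_iff.mp hv.2 a ha))
      (fun a ha => mem_cent.mpr (hCcomm a ha v hv.1))
    exact mem_cent.mp (hle (htop ▸ Subgroup.mem_top w))
  refine ⟨q, s, hq, hsp, hsq.ne', ?_, ?_⟩
  · rw [← Subgroup.index_eq_card, hZ]
    refine le_antisymm ?_ (Nat.le_of_dvd (Nat.pos_of_ne_zero Subgroup.index_ne_zero_of_finite) ?_)
    · exact hCi ▸ hs ▸ Subgroup.index_inf_le
    · exact ((Nat.coprime_primes hq hsp).mpr hsq.ne').mul_dvd_of_dvd_of_dvd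
        (hCi ▸ Subgroup.index_dvd_of_le inf_le_left) (hs ▸ Subgroup.index_dvd_of_le inf_le_right)
  · intro hc
    have hgd : g * d * g⁻¹ * d⁻¹ ∈ D ⊓ Subgroup.center G := ⟨hDall d g, by
      refine (QuotientGroup.eq_one_iff _).mp ?_
      show QuotientGroup.mk' (Subgroup.center G) (g * d * g⁻¹ * d⁻¹) = 1
      rw [map_mul, map_mul, map_mul, map_inv, map_inv, hc.is_comm.comm (QuotientGroup.mk' _ g) (QuotientGroup.mk' _ d)]
      group⟩
    have hb : D ⊓ Subgroup.center G = ⊥ := by
      rw [eq_bot_iff, ← hCD, hZ]; exact inf_le_inf_left _ inf_le_left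
    rw [hb, Subgroup.mem_bot, mul_inv_eq_one, mul_inv_eq_iff_eq_mul] at hgd
    exact hgE (by rw [hEd, mem_cent]; exact hgd)

end Cfsg.Agent.S4314
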