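import Cfsg.Statements.S4416
import Cfsg.Agent.Lib.TransferExtraspecialCount

set_option autoImplicit false
open Cfsg

namespace Cfsg.Agent.S4416

/-- Classification of extraspecial 2-groups in intrinsic form. An extraspecial 2-group has order 2^(2m+1) for some m ≥ 1, and the number of its elements squaring to the identity is either 2^(2m) + 2^m or 2^(2m) − 2^m; two extraspecial 2-groups of the same order with the same number of such elements are isomorphic. (The two cases are the central products of m dihedral groups of order 8, and of m − 1 dihedral groups with one quaternion group.) -/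
theorem result (E : Type*) [Group E] [Finite E] (hE : Cfsg.IsExtraspecial 2 E) :
    (∃ m : ℕ, 1 ≤ m ∧ Nat.card E = 2 ^ (2 * m + 1) ∧
      (Nat.card {x : E // x ^ 2 = 1} = 2 ^ (2 * m) + 2 ^ m ∨ Nat.card {x : E // x ^ 2 = 1} = 2 ^ (2 * m) - 2 ^ m)) ∧
    ∀ (E' : Type*) [Group E'] [Finite E'], Cfsg.IsExtraspecial 2 E' → Nat.card E' = Nat.card E →
      Nat.card {x : E' // x ^ 2 = 1} = Nat.card {x : E // x ^ 2 = 1} → Nonempty (E ≃* E') := by
  haveI : Fact (Nat.Prime 2) := ⟨Nat.prime_two⟩
  obtain ⟨z, n, h⟩ := CfsgLib.Extraspecial.exists_ex hE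
  have hn : 1 ≤ n := by
    by_contra hn
    obtain rfl : n = 0 := by omega
    obtain ⟨⟨-, -, hC⟩, hZ⟩ := hE
    have htop : Subgroup.zpowers z = ⊤ := Subgroup.eq_top_of_card_eq _ (by
      rw [Nat.card_zpowers, orderOf_eq_prime h.zp h.zne, h.card]; simp)
    have hbot : ⁅(⊤ : Subgroup E), (⊤ : Subgroup E)⁆ = ⊥ := by
      rw [Subgroup.commutator_eq_bot_iff_le_centralizer, Subgroup.coe_top, Subgroup.centralizer_univ,
        h.center_eq, htop]
    rw [← hC, commutator_def, hbot, Subgroup.card_bot] at hZ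
    exact absurd hZ (by norm_num)
  obtain ⟨k, rfl⟩ : ∃ k, n = k + 1 := ⟨n - 1, by omega⟩
  refine ⟨⟨k + 1, hn, h.card, CfsgLib.ExtraspecialCount.sqOne_values k h⟩, fun E' _ _ hE' hc hs => ?_⟩
  obtain ⟨z', n', h'⟩ := CfsgLib.Extraspecial.exists_ex hE'
  obtain rfl : n' = k + 1 := by
    have := Nat.pow_right_injective le_rfl (h'.card.symm.trans (hc.trans h.card))
    omega
  obtain ⟨φ, -⟩ := CfsgLib.ExtraspecialCount.iso_of_sqOne _ h h' hs.symm
  exact ⟨φ⟩

end Cfsg.Agent.S4416
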