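import Cfsg.Statements.S4422


set_option autoImplicit false
open Cfsg

namespace Cfsg.Agent.S4422

/-- Primitive divisors of `q^e - 1` are congruent to 1 modulo `e`. Let `q ≥ 2` and `e ≥ 1` be natural numbers and let `m` be a divisor of `q^e - 1` that is coprime to `q^i - 1` for every `1 ≤ i < e` (so `m` divides the primitive part of `q^e - 1`, the largest such divisor). Then `m ≡ 1 (mod e)`. -/
theorem result (q e m : ℕ) (hq : 2 ≤ q) (he : 1 ≤ e)
    (hm : m ∣ q ^ e - 1) (hcop : ∀ i : ℕ, 1 ≤ i → i < e → Nat.Coprime m (q ^ i - 1)) :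
    m % e = 1 % e := by
  have key : ∀ r : ℕ, r.Prime → r ∣ m → r % e = 1 % e := by
    intro r hr hrm
    haveI := Fact.mk hr
    have h1 : r ∣ q ^ e - 1 := hrm.trans hm
    have hqe : ((q : ZMod r)) ^ e = 1 := by
      have h : ((q ^ e - 1 : ℕ) : ZMod r) = 0 := (ZMod.natCast_eq_zero_iff _ _).mpr h1
      rw [Nat.cast_sub (Nat.one_le_pow _ _ (by omega)), Nat.cast_pow, Nat.cast_one, sub_eq_zero] at h
      exact h
    have hne : (q : ZMod r) ≠ 0 := fun h => by simp [h, zero_pow (show e ≠ 0 by omega)] at hqe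
    have hord : orderOf (q : ZMod r) = e := by
      have hle := Nat.le_of_dvd (by omega) (orderOf_dvd_of_pow_eq_one hqe)
      rcases lt_or_eq_of_le hle with hlt | h
      · exfalso
        have hpos := orderOf_pos_iff.mpr (isOfFinOrder_iff_pow_eq_one.mpr ⟨e, by omega, hqe⟩)
        have hdvd : r ∣ q ^ orderOf (q : ZMod r) - 1 := by
          rw [← ZMod.natCast_eq_zero_iff, Nat.cast_sub (Nat.one_le_pow _ _ (by omega)),
            Nat.cast_pow, Nat.cast_one, pow_orderOf_eq_one, sub_self]
        exact hr.not_dvd_one ((hcop _ hpos hlt).gcd_eq_one ▸ Nat.dvd_gcd hrm hdvd)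
      · exact h
    have hd := ZMod.orderOf_dvd_card_sub_one hne
    rw [hord] at hd
    exact ((Nat.modEq_iff_dvd' hr.one_le).mpr hd).symm
  have hm0 : m ≠ 0 := by
    rintro rfl
    rw [zero_dvd_iff] at hm
    have : q ≤ q ^ e := Nat.le_self_pow (by omega) q
    omega
  clear hm hcop
  induction m using induction_on_primes with
  | zero => exact absurd rfl hm0
  | one => rfl
  | prime_mul p a hp ih =>
    rw [Nat.mul_mod, key p hp (Dvd.intro a rfl),
      ih (fun r hr h => key r hr (h.mul_left p)) (fun h => hm0 (by rw [h, mul_zero])),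
      ← Nat.mul_mod, one_mul]

end Cfsg.Agent.S4422
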