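import Cfsg.Statements.S4424
import Cfsg.Agent.Lib.BlockRegInt

set_option autoImplicit false
open Cfsg

namespace Cfsg.Agent.S4424

/-- Let χ be an irreducible character of the finite group G lying in the p-block B (relative to a maximal ideal M of the algebraic integers containing p), and let p^a be the p-part of the order of G. Then the class function that equals p^a · χ on the p-regular elements and vanishes on the p-singular elements is an integer combination of the irreducible characters in B: there are integers a_ψ, zero for ψ outside B, with that function equal to Σ a_ψ ψ. -/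
theorem result {G : Type*} [Group G] [Finite G] (p : ℕ) [Fact p.Prime] (M : Ideal Cfsg.AlgInt) (hM : Cfsg.IsPModular p M) (B : Set (Cfsg.IrrCharacter G)) (hB : Cfsg.IsPBlock M B) (χ : Cfsg.IrrCharacter G) (hχ : χ ∈ B) : ∃ a : Cfsg.IrrCharacter G → ℤ, (∀ ψ, ψ ∉ B → a ψ = 0) ∧ (fun x : G => if p ∣ orderOf x then (0 : ℂ) else ((p ^ (Nat.card G).factorization p : ℕ) : ℂ) * (χ : G → ℂ) x) = fun x => ∑ᶠ ψ : Cfsg.IrrCharacter G, (a ψ : ℂ) * (ψ : G → ℂ) x := by
  haveI := Fintype.ofFinite G
  classical
  have hp : p.Prime := Fact.out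
  choose k hk using fun ψ : IrrCharacter G => CfsgLib.Block.exists_int_inner_regPart hp χ
    ψ.2.isCharacter' (e := (Nat.card G).factorization p) (Nat.le_add_right _ _)
  refine ⟨fun ψ => if ψ ∈ B then k ψ else 0, fun ψ hψ => if_neg hψ, ?_⟩
  rw [CfsgLib.Block.scaled_regPart_eq]
  funext x
  rw [finsum_eq_sum_of_fintype, Pi.smul_apply,
    congrFun (CfsgLib.Block.regPart_eq_sum_block hM hB hχ) x, smul_eq_mul]
  simp only [Finset.sum_apply, Pi.smul_apply, smul_eq_mul, Finset.mul_sum, Nat.cast_pow]
  refine Finset.sum_congr rfl fun ψ _ => ?_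
  by_cases hψ : ψ ∈ B
  · rw [if_pos hψ, ← hk ψ, CfsgLib.Char.inner_smul_left, CfsgLib.Block.indVal, if_pos hψ]
    ring
  · simp [CfsgLib.Block.indVal, hψ]

end Cfsg.Agent.S4424
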