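import Cfsg.Statements.S4425
import Cfsg.Agent.Lib.BlockRegInt

set_option autoImplicit false
open Cfsg

namespace Cfsg.Agent.S4425

/-- Let χ be an irreducible character of the finite group G, p a prime, p^a the p-part of the order of G and p^b the p-part of the degree χ(1). Let χ̃ be the class function equal to p^a · χ on p-regular elements and zero on p-singular elements. Then p^(−b) · χ̃ is a generalized character of G, while p^(−(b+1)) · χ̃ is not. -/
theorem result {G : Type*} [Group G] [Finite G] (p : ℕ) [Fact p.Prime] (χ : Cfsg.IrrCharacter G) : Cfsg.IsGeneralizedCharacter G (fun x : G => if p ∣ orderOf x then (0 : ℂ) else ((p ^ ((Nat.card G).factorization p - (Cfsg.charDegree (χ : G → ℂ)).factorization p) : ℕ) : ℂ) * (χ : G → ℂ) x) ∧ ¬ Cfsg.IsGeneralizedCharacter G (fun x : G => if p ∣ orderOf x then (0 : ℂ) else ((p ^ (Nat.card G).factorization p : ℕ) : ℂ) / ((p ^ ((Cfsg.charDegree (χ : G → ℂ)).factorization p + 1) : ℕ) : ℂ) * (χ : G → ℂ) x) := by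
  haveI := Fintype.ofFinite G
  have hp : p.Prime := Fact.out
  refine ⟨?_, fun hgen => ?_⟩
  · rw [CfsgLib.Block.scaled_regPart_eq, Nat.cast_pow]
    exact CfsgLib.Block.isGenChar_regPart hp χ (by omega)
  · obtain ⟨k, hk⟩ := CfsgLib.Block.genChar_one_dvd hp hgen fun g hg => if_pos hg
    rw [if_neg (by rw [orderOf_one]; exact hp.not_dvd_one),
      ← CfsgLib.Block.charDegree_cast χ.2.isCharacter'] at hk
    set d := charDegree (χ : G → ℂ) with hd
    have hp0 : ((p : ℕ) : ℂ) ≠ 0 := Nat.cast_ne_zero.2 hp.ne_zero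
    have h1 : ((d : ℤ) : ℂ) = ((((p ^ (d.factorization p + 1) : ℕ) : ℤ) * k : ℤ) : ℂ) := by
      push_cast at hk ⊢
      field_simp at hk
      linear_combination hk
    have h2 : (d : ℤ) = ((p ^ (d.factorization p + 1) : ℕ) : ℤ) * k := Int.cast_injective h1
    exact Nat.pow_succ_factorization_not_dvd (CfsgLib.Block.charDegree_pos χ).ne' hp
      (Int.natCast_dvd_natCast.1 ⟨k, h2⟩)

end Cfsg.Agent.S4425
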