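import Cfsg.Statements.S4434
import Cfsg.Agent.Lib.BlockQuotient

set_option autoImplicit false
open Cfsg
open CfsgLib.Block CfsgLib.Char
open scoped Classical


namespace Cfsg.Agent.S4434

/-- Let N be a normal p-subgroup of the finite group G and write Ḡ = G/N; fix a maximal ideal M of the algebraic integers containing p. Then every block B of G contains a block B̄ of Ḡ (the inflation of every member of B̄ lies in B) whose defect groups are exactly the images in Ḡ of the defect groups of B. -/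
theorem result {G : Type*} [Group G] [Finite G] (p : ℕ) [Fact p.Prime] (M : Ideal Cfsg.AlgInt) (hM : Cfsg.IsPModular p M) (N : Subgroup G) [N.Normal] (hN : IsPGroup p N) (B : Set (Cfsg.IrrCharacter G)) (hB : Cfsg.IsPBlock M B) : ∃ Bbar : Set (Cfsg.IrrCharacter (G ⧸ N)), Cfsg.IsPBlock M Bbar ∧ (∀ χ ∈ Bbar, ∀ ψ : Cfsg.IrrCharacter G, (ψ : G → ℂ) = (χ : G ⧸ N → ℂ) ∘ QuotientGroup.mk → ψ ∈ B) ∧ ∀ Dbar : Subgroup (G ⧸ N), Cfsg.IsDefectGroup p M Bbar Dbar ↔ ∃ P : Subgroup G, Cfsg.IsDefectGroup p M B P ∧ Dbar = P.map (QuotientGroup.mk' N) := by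
  haveI := Fintype.ofFinite G
  haveI := Fintype.ofFinite (G ⧸ N)
  obtain ⟨C, hC, hsub, hle⟩ := exists_quotient_block N hM hN hB
  obtain ⟨χ, hχ⟩ := isPBlock_nonempty hM hC
  refine ⟨C, hC, fun ξ hξ ψ hψ => eq_inflate N hψ ▸ hsub ξ hξ, ?_⟩
  have hcard : ∀ P, IsDefectGroup p M B P →
      Nat.card (P.map (QuotientGroup.mk' N)) = p ^ (blockDefect p B - (Nat.card N).factorization p) := by
    intro P hP
    have hNP : N ≤ P := normal_pGroup_le_defectGroup hM N hN hB hP
    refine le_antisymm ?_ (card_le_card_map N P (card_defectGroup hM hB hP) rfl)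
    obtain ⟨b, hb⟩ := hN.exists_card_eq
    rw [hb, hM.1.factorization_pow, Finsupp.single_eq_same]
    have h1 : Nat.card (P.map (QuotientGroup.mk' N)) * Nat.card N ≤ Nat.card P := by
      have e := ((QuotientGroup.mk' N).subgroupMap P).ker.card_mul_index
      rw [Subgroup.index_ker, MonoidHom.range_eq_top.2 ((QuotientGroup.mk' N).subgroupMap_surjective P),
        Subgroup.card_top] at e
      rw [← e, mul_comm]
      refine Nat.mul_le_mul_right _ ?_
      rw [show ((QuotientGroup.mk' N).subgroupMap P).ker = N.subgroupOf P by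
        ext x
        rw [MonoidHom.mem_ker, Subgroup.mem_subgroupOf, Subtype.ext_iff]
        exact QuotientGroup.eq_one_iff _]
      exact (Nat.card_congr (Subgroup.subgroupOfEquivOfLe hNP).toEquiv).ge
    rw [hb, card_defectGroup hM hB hP] at h1
    have hbd : b ≤ blockDefect p B := by
      have := Subgroup.card_le_of_le hNP
      rw [hb, card_defectGroup hM hB hP] at this
      exact (Nat.pow_le_pow_iff_right hM.1.one_lt).1 this
    refine Nat.le_of_mul_le_mul_right ?_ (pow_pos hM.1.pos b)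
    rwa [← pow_add, Nat.sub_add_cancel hbd]
  have heq : ∀ D, IsDefectGroup p M C D →
      ∃ P, IsDefectGroup p M B P ∧ D = P.map (QuotientGroup.mk' N) := by
    intro D hD
    obtain ⟨P, hP, hDP⟩ := exists_defectGroup_map_ge N hM hC hB hχ (hsub χ hχ) hD
    refine ⟨P, hP, Subgroup.eq_of_le_of_card_ge hDP ?_⟩
    rw [hcard P hP, card_defectGroup hM hC hD]
    exact Nat.pow_le_pow_right hM.1.pos hle
  intro D
  refine ⟨heq D, ?_⟩
  rintro ⟨P, hP, rfl⟩
  obtain ⟨D₀, hD₀⟩ := exists_defectGroup hM hC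
  obtain ⟨P₀, hP₀, rfl⟩ := heq D₀ hD₀
  obtain ⟨x, rfl⟩ := defectGroup_eq_conj hM hB hP₀ hP
  have := isDefectGroup_conj hM hC hD₀ (QuotientGroup.mk x : G ⧸ N)
  convert this using 1
  rw [Subgroup.map_map, Subgroup.map_map]
  congr 1

end Cfsg.Agent.S4434
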