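import Cfsg.Statements.S4435
import Cfsg.Agent.Lib.BlockFongReynolds

set_option autoImplicit false
open Cfsg
open CfsgLib.Block CfsgLib.Char
open scoped Classical


namespace Cfsg.Agent.S4435

/-- Let N be a normal subgroup of the finite group G, b a block of N (relative to a maximal ideal M of the algebraic integers containing p), and T the stabilizer of b in G (the elements g such that conjugating any member of b by g gives a member of b); N ≤ T. Say that a block of T (or of G) covers b when some member has a constituent in b on restriction to N. Then: (i) every block B′ of T covering b induces a block B of G, B covers b, every ψ ∈ B′ induces to an irreducible character of G, and B consists exactly of the characters induced from members of B′; (ii) distinct blocks of T covering b induce distinct blocks of G; (iii) every block of G covering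 b is induced by some block of T covering b. -/
theorem result {G : Type*} [Group G] [Fintype G] (p : ℕ) [Fact p.Prime] (M : Ideal Cfsg.AlgInt) (hM : Cfsg.IsPModular p M) (N : Subgroup G) [hN : N.Normal] [Fintype N] (b : Set (Cfsg.IrrCharacter N)) (hb : Cfsg.IsPBlock M b) (T : Subgroup G) [Fintype T] (hT : ∀ g : G, g ∈ T ↔ ∀ θ ∈ b, ∀ θ' : Cfsg.IrrCharacter N, (∀ n : N, (θ' : N → ℂ) n = (θ : N → ℂ) ⟨g * n * g⁻¹, hN.conj_mem n n.2 g⟩) → θ' ∈ b) (hNT : N ≤ T) : (∀ B' : Set (Cfsg.IrrCharacter T), Cfsg.IsPBlock M B' → (∃ ψ ∈ B', ∃ θ ∈ b, Cfsg.classInner (fun n : N => (ψ : T → ℂ) ⟨(n : G), hNT n.2⟩) (θ : N → ℂ) ≠ 0) → ∃ B : Set (Cfsg.IrrCharacter G), Cfsg.IsInducedBlock M T B' B ∧ (∃ χ ∈ B, ∃ θ ∈ b, Cfsg.classInner (fun n : N => (χ : G → ℂ) n) (θ : N → ℂ) ≠ 0) ∧ (∀ ψ ∈ B', Cfsg.IsIrrCharacter G (Cfsg.indFun T (ψ : T → ℂ))) ∧ ∀ χ : Cfsg.IrrCharacter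 G, χ ∈ B ↔ ∃ ψ ∈ B', (χ : G → ℂ) = Cfsg.indFun T (ψ : T → ℂ)) ∧ (∀ B'₁ B'₂ : Set (Cfsg.IrrCharacter T), Cfsg.IsPBlock M B'₁ → Cfsg.IsPBlock M B'₂ → (∃ ψ ∈ B'₁, ∃ θ ∈ b, Cfsg.classInner (fun n : N => (ψ : T → ℂ) ⟨(n : G), hNT n.2⟩) (θ : N → ℂ) ≠ 0) → (∃ ψ ∈ B'₂, ∃ θ ∈ b, Cfsg.classInner (fun n : N => (ψ : T → ℂ) ⟨(n : G), hNT n.2⟩) (θ : N → ℂ) ≠ 0) → ∀ B : Set (Cfsg.IrrCharacter G), Cfsg.IsInducedBlock M T B'₁ B → Cfsg.IsInducedBlock M T B'₂ B → B'₁ = B'₂) ∧ (∀ B : Set (Cfsg.IrrCharacter G), Cfsg.IsPBlock M B → (∃ χ ∈ B, ∃ θ ∈ b, Cfsg.classInner (fun n : N => (χ : G → ℂ) n) (θ : N → ℂ) ≠ 0) → ∃ B' : Set (Cfsg.IrrCharacter T), Cfsg.IsPBlock M B' ∧ (∃ ψ ∈ B', ∃ θ ∈ b, Cfsg.classInner (fun n : N => (ψ : T → ℂ) ⟨(n : G), hNT n.2⟩) (θ : N → ℂ) ≠ 0) ∧ Cfsg.IsInducedBlock M T B' B) := by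
  haveI : Fintype (N.subgroupOf T) := Fintype.ofFinite _
  have hT' : IsStab b T := hT
  refine ⟨fun B' hB' hcov => ?_, fun B₁ B₂ hB₁ hB₂ hc₁ hc₂ B hi₁ hi₂ => ?_, fun B hB hcov => ?_⟩
  · obtain ⟨B, F, hind, himg, hF, -⟩ := fr_block hNT hM hb hT' hB' hcov
    obtain ⟨ψ₀, hψ₀⟩ := isPBlock_nonempty hM hB'
    refine ⟨B, hind, ?_, fun ψ hψ => (hF ψ hψ).1 ▸ (F ψ).2, fun χ => ⟨fun hχ => ?_, ?_⟩⟩
    · exact ⟨F ψ₀, himg ▸ Set.mem_image_of_mem F hψ₀, (hF ψ₀ hψ₀).2⟩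
    · rw [← himg] at hχ
      obtain ⟨ψ, hψ, rfl⟩ := hχ
      exact ⟨ψ, hψ, (hF ψ hψ).1⟩
    · rintro ⟨ψ, hψ, hχ⟩
      rw [← himg]
      exact ⟨ψ, hψ, Subtype.ext ((hF ψ hψ).1.trans hχ.symm)⟩
  · obtain ⟨C₁, F₁, hind₁, himg₁, hF₁, hu₁⟩ := fr_block hNT hM hb hT' hB₁ hc₁
    obtain ⟨C₂, F₂, hind₂, himg₂, hF₂, hu₂⟩ := fr_block hNT hM hb hT' hB₂ hc₂
    have e₁ := isInducedBlock_unique hM T hind₁ hi₁
    have e₂ := isInducedBlock_unique hM T hind₂ hi₂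
    obtain ⟨ψ₂, hψ₂, θ₂, hθ₂, hov₂⟩ := hc₂
    have hmem : F₂ ψ₂ ∈ F₁ '' B₁ := by
      rw [himg₁, e₁, ← e₂, ← himg₂]
      exact Set.mem_image_of_mem F₂ hψ₂
    obtain ⟨ψ₁, hψ₁, he⟩ := hmem
    have e := hu₁ ψ₁ hψ₁ ψ₂ θ₂ hθ₂ hov₂ (by rw [he]; exact (hF₂ ψ₂ hψ₂).1)
    exact isPBlock_eq_of_mem hM hB₁ hB₂ hψ₁ (e ▸ hψ₂)
  · obtain ⟨χ, hχ, θ, hθ, hcon⟩ := hcov
    rw [mult_eq_sum χ.2 T hNT] at hcon
    obtain ⟨ξ, -, hξ⟩ := Finset.exists_ne_zero_of_sum_ne_zero hcon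
    have hov : OverT hNT ξ θ := right_ne_zero_of_mul hξ
    have hB' := isPBlock_blockOf (M := M) ξ
    obtain ⟨C, F, hind, himg, hF, -⟩ := fr_block hNT hM hb hT' hB' ⟨ξ, mem_blockOf_self hM ξ, θ, hθ, hov⟩
    refine ⟨_, hB', ⟨ξ, mem_blockOf_self hM ξ, θ, hθ, hov⟩, ?_⟩
    have hξC : F ξ ∈ C := himg ▸ Set.mem_image_of_mem F (mem_blockOf_self hM ξ)
    have e : F ξ = χ := by
      by_contra hne
      refine left_ne_zero_of_mul hξ ?_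
      rw [← frobenius_right (ξ : T → ℂ) (χ : G → ℂ) (irr_classFunction χ),
        ← (hF ξ (mem_blockOf_self hM ξ)).1]
      exact irr_inner_ne χ.2 (F ξ).2 fun h => hne (Subtype.ext h.symm)
    rwa [← isPBlock_eq_of_mem hM hind.2.1 hB (e ▸ hξC) hχ]

end Cfsg.Agent.S4435
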