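import Cfsg.Statements.S4436
import Cfsg.Agent.Lib.BlockFongReynolds

set_option autoImplicit false
open Cfsg
open CfsgLib.Block CfsgLib.Char
open scoped Classical


namespace Cfsg.Agent.S4436

/-- Let N be a normal subgroup of the finite group G, b a block of N (relative to a maximal ideal M of the algebraic integers containing p), T the stabilizer of b in G, N ≤ T, and B′ a block of T covering b (some member of B′ has a constituent in b on restriction to N) that induces the block B of G. Then every defect group of B′ is a defect group of B, and for every ψ ∈ B′ the induced character ψ^G is an irreducible character of G lying in B with the same height as ψ. -/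
theorem result {G : Type*} [Group G] [Fintype G] (p : ℕ) [Fact p.Prime] (M : Ideal Cfsg.AlgInt) (hM : Cfsg.IsPModular p M) (N : Subgroup G) [hN : N.Normal] [Fintype N] (b : Set (Cfsg.IrrCharacter N)) (hb : Cfsg.IsPBlock M b) (T : Subgroup G) [Fintype T] (hT : ∀ g : G, g ∈ T ↔ ∀ θ ∈ b, ∀ θ' : Cfsg.IrrCharacter N, (∀ n : N, (θ' : N → ℂ) n = (θ : N → ℂ) ⟨g * n * g⁻¹, hN.conj_mem n n.2 g⟩) → θ' ∈ b) (hNT : N ≤ T) (B' : Set (Cfsg.IrrCharacter T)) (hB' : Cfsg.IsPBlock M B') (hcov : (∃ ψ ∈ B', ∃ θ ∈ b, Cfsg.classInner (fun n : N => (ψ : T → ℂ) ⟨(n : G), hNT n.2⟩) (θ : N → ℂ) ≠ 0)) (B : Set (Cfsg.IrrCharacter G)) (hind : Cfsg.IsInducedBlock M T B' B) : (∀ D : Subgroup T, Cfsg.IsDefectGroup p M B' D → Cfsg.IsDefectGroup p M B (D.map T.subtype)) ∧ ∀ ψ ∈ B', ∃ χ ∈ B, (χ : G → ℂ) = Cfsg.indFun T (ψ : T → ℂ) ∧ Cfsg.blockHeight p B (χ : G → ℂ) = Cfsg.blockHeight p B' (ψ : T → ℂ) := by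
  haveI : Fintype (N.subgroupOf T) := Fintype.ofFinite _
  haveI : Fact p.Prime := ⟨hM.1⟩
  have hT' : IsStab b T := hT
  obtain ⟨C, F, hind', himg, hF, -⟩ := fr_block hNT hM hb hT' hB' hcov
  have hC := isInducedBlock_unique hM T hind' hind
  subst hC
  have hdeg : ∀ ψ ∈ B', (Cfsg.charDegree (F ψ : G → ℂ)).factorization p =
      T.index.factorization p + (Cfsg.charDegree (ψ : T → ℂ)).factorization p := by
    intro ψ hψ
    have e : Cfsg.charDegree (F ψ : G → ℂ) = T.index * Cfsg.charDegree (ψ : T → ℂ) := by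
      apply Nat.cast_injective (R := ℂ)
      rw [Nat.cast_mul, charDegree_cast (F ψ).2.isCharacter', charDegree_cast ψ.2.isCharacter',
        (hF ψ hψ).1, indFun_one_apply]
    rw [e, Nat.factorization_mul Subgroup.index_ne_zero_of_finite (charDegree_pos ψ).ne', Finsupp.add_apply]
  have hmin : blockMin p C = T.index.factorization p + blockMin p B' := by
    obtain ⟨ψ, hψ, e⟩ := exists_eq_blockMin hM hB'
    obtain ⟨χ, hχ, e'⟩ := exists_eq_blockMin hM hind.2.1
    have h1 := blockMin_le (p := p) (himg ▸ Set.mem_image_of_mem F hψ : F ψ ∈ C)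
    obtain ⟨ψ', hψ', rfl⟩ := (himg.symm ▸ hχ : χ ∈ F '' B')
    have h2 := blockMin_le (p := p) hψ'
    rw [hdeg ψ hψ] at h1
    rw [hdeg ψ' hψ'] at e'
    omega
  refine ⟨fun D hD => ?_, fun ψ hψ => ⟨F ψ, himg ▸ Set.mem_image_of_mem F hψ, (hF ψ hψ).1, ?_⟩⟩
  · obtain ⟨E, hE, hle⟩ := exists_defectGroup_ge_induced hM hind hD
    have hcard : Nat.card E ≤ Nat.card (D.map T.subtype) := by
      rw [Subgroup.card_subtype, card_defectGroup hM hind.2.1 hE, card_defectGroup hM hB' hD,
        blockDefect_eq, blockDefect_eq, hmin, ← T.card_mul_index,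
        Nat.factorization_mul Nat.card_pos.ne' Subgroup.index_ne_zero_of_finite, Finsupp.add_apply]
      refine Nat.pow_le_pow_right hM.1.pos ?_
      omega
    rwa [Subgroup.eq_of_le_of_card_ge hle hcard]
  · rw [blockHeight_eq, blockHeight_eq, hdeg ψ hψ, hmin]
    omega

end Cfsg.Agent.S4436
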