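import Cfsg.Statements.S4437
import Cfsg.Agent.Lib.BlockFullDefect

set_option autoImplicit false
open Cfsg
open CfsgLib.Block CfsgLib.Char
open scoped Classical


namespace Cfsg.Agent.S4437

/-- Let P be a p-subgroup of the finite group G, H = P·C_G(P), and b a block of H (relative to a maximal ideal M of the algebraic integers containing p) having P as a defect group; let B be the block of G induced by b. Let T be the stabilizer of b in N_G(P): the elements g of N_G(P) such that the g-conjugate of every member of b is again a member of b. Then B has defect group P if and only if p does not divide the index of H in T. -/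
theorem result {G : Type*} [Group G] [Fintype G] (p : ℕ) [Fact p.Prime] (M : Ideal Cfsg.AlgInt) (hM : Cfsg.IsPModular p M) (P : Subgroup G) (hP : IsPGroup p P) (H : Subgroup G) [Fintype H] (hH : H = P ⊔ Subgroup.centralizer (P : Set G)) (b : Set (Cfsg.IrrCharacter H)) (hb : Cfsg.IsPBlock M b) (hbP : Cfsg.IsDefectGroup p M b (P.subgroupOf H)) (B : Set (Cfsg.IrrCharacter G)) (hind : Cfsg.IsInducedBlock M H b B) (T : Subgroup G) (hT : ∀ g : G, g ∈ T ↔ (g ∈ Subgroup.normalizer (P : Set G) ∧ ∀ θ ∈ b, ∀ θ' : Cfsg.IrrCharacter H, (∀ h h' : H, (h' : G) = g * h * g⁻¹ → (θ' : H → ℂ) h' = (θ : H → ℂ) h) → θ' ∈ b)) : Cfsg.IsDefectGroup p M B P ↔ ¬ p ∣ H.relIndex T := by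
  have hPH : P ≤ H := hH ▸ le_sup_left
  have hCH : Subgroup.centralizer (P : Set G) ≤ H := hH ▸ le_sup_right
  have hHN : H ≤ Subgroup.normalizer (P : Set G) :=
    hH ▸ sup_le Subgroup.le_normalizer (Subgroup.centralizer_le_normalizer (P : Set G))
  have hHn : ∀ x ∈ Subgroup.normalizer (P : Set G), ∀ g ∈ H, x * g * x⁻¹ ∈ H := by
    intro x hx g hg
    have hle : H ≤ H.comap (MulAut.conj x).toMonoidHom := hH.trans_le (sup_le
      (fun z hz => hPH ((Subgroup.mem_normalizer_iff.1 hx z).1 hz))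
      fun z hz => hCH ((conj_mem_centralizer_iff hx z).2 hz))
    exact hle hg
  have hmem : ∀ x ∈ Subgroup.normalizer (P : Set G), ∀ g, g ∈ H ↔ x⁻¹ * g * x ∈ H := fun x hx g => by
    refine ⟨fun hg => by simpa using hHn x⁻¹ (inv_mem hx) g hg, fun hg => ?_⟩
    have := hHn x hx _ hg
    rwa [show x * (x⁻¹ * g * x) * x⁻¹ = g by group] at this
  haveI : (P.subgroupOf H).Normal := (Subgroup.normal_subgroupOf_iff_le_normalizer hPH).2 hHN
  have hTN : T ≤ Subgroup.normalizer (P : Set G) := fun x hx => ((hT x).1 hx).1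
  have hHT : H ≤ T := by
    intro l hl
    refine (hT l).2 ⟨hHN hl, fun θ hθ θ' h => ?_⟩
    have e : θ' = θ := Subtype.ext (funext fun k => by
      have h1 := h k (⟨l, hl⟩ * k * ⟨l, hl⟩⁻¹) rfl
      rwa [irr_classFunction θ' k ⟨l, hl⟩] at h1)
    exact e ▸ hθ
  have hbd : p ^ Cfsg.blockDefect p b = Nat.card P := by
    rw [← Nat.card_congr (Subgroup.subgroupOfEquivOfLe hPH).toEquiv]
    exact (card_defectGroup hM hb hbP).symm
  refine ⟨fun hD => not_dvd_of_defectGroup hM hP hCH hHN hPH hHT hTN hHn hind hD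
    fun x hx θ hθ θ' h => ((hT x).1 hx).2 θ hθ θ' h, fun hidx =>
    defectGroup_of_index hM hP hCH hHN hPH hTN hHn hb hbd hind (fun x hx hfix => (hT x).2 ⟨hx, fun θ hθ θ' h => ?_⟩) hidx⟩
  obtain ⟨hcb, hcfn⟩ := conjSet_data hM (e := b) x (hmem x hx) hb
  rw [← bFn_injOn hM H hcb hb (hcfn.trans hfix)]
  exact ⟨θ, hθ, h⟩

end Cfsg.Agent.S4437
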