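import Cfsg.Statements.S4444
import Cfsg.Agent.Lib.BlockGlaubermanSub

set_option autoImplicit false
open Cfsg
open CfsgLib.Block CfsgLib.Char CfsgLib.Glauberman
open scoped Classical


namespace Cfsg.Agent.S4444

/-- The Glauberman correspondence for a p-group of operators. Inside a finite group Γ let S normalise G with the orders of G and S coprime, S a p-group, and let C = G ⊓ C(S) be the fixed points. Call an irreducible character χ of G S-invariant when χ(s g s⁻¹) = χ(g) for s ∈ S, g ∈ G. Then: (i) for every S-invariant χ there is exactly one irreducible character β of C whose multiplicity [χ_C, β] in the restriction of χ is not divisible by p; (ii) that multiplicity is ≡ 1 or ≡ −1 (mod p); (iii) distinct S-invariant χ give distinct β; (iv) every irreducible character of C arises in this way. So χ ↦ β is a bijection from the S-invariant irreducible characters of G onto the irreducible characters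 of C. -/
theorem result {Γ : Type*} [Group Γ] [Fintype Γ] (G S : Subgroup Γ) [Fintype G] (hnorm : ∀ s ∈ S, ∀ g ∈ G, s * g * s⁻¹ ∈ G) (hcop : (Nat.card G).Coprime (Nat.card S)) (p : ℕ) (hp : p.Prime) (hS : IsPGroup p S) (C : Subgroup Γ) [Fintype C] (hC : C = G ⊓ Subgroup.centralizer (S : Set Γ)) (hCG : C ≤ G) : (∀ χ : Cfsg.IrrCharacter G, (∀ s ∈ S, ∀ g g' : G, (g' : Γ) = s * g * s⁻¹ → (χ : G → ℂ) g' = (χ : G → ℂ) g) → ∃! β : Cfsg.IrrCharacter C, ∃ m : ℕ, Cfsg.classInner (fun c : C => (χ : G → ℂ) ⟨c, hCG c.2⟩) (β : C → ℂ) = (m : ℂ) ∧ ¬ p ∣ m) ∧ (∀ χ : Cfsg.IrrCharacter G, (∀ s ∈ S, ∀ g g' : G, (g' : Γ) = s * g * s⁻¹ → (χ : G → ℂ) g' = (χ : G → ℂ) g) → ∀ β : Cfsg.IrrCharacter C, ∀ m : ℕ, Cfsg.classInner (fun c : C => (χ : G → ℂ) ⟨c, hCG c.2⟩) (β : C → ℂ) = (m : ℂ) → ¬ p ∣ m → ((m : ℤ) ≡ 1 [ZMOD p] ∨ (m : ℤ) ≡ -1 [ZMOD p])) ∧ (∀ χ χ' : Cfsg.IrrCharacter G, (∀ s ∈ S, ∀ g g' : G, (g' : Γ) = s * g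 * s⁻¹ → (χ : G → ℂ) g' = (χ : G → ℂ) g) → (∀ s ∈ S, ∀ g g' : G, (g' : Γ) = s * g * s⁻¹ → (χ' : G → ℂ) g' = (χ' : G → ℂ) g) → ∀ β : Cfsg.IrrCharacter C, ∀ m m' : ℕ, Cfsg.classInner (fun c : C => (χ : G → ℂ) ⟨c, hCG c.2⟩) (β : C → ℂ) = (m : ℂ) → ¬ p ∣ m → Cfsg.classInner (fun c : C => (χ' : G → ℂ) ⟨c, hCG c.2⟩) (β : C → ℂ) = (m' : ℂ) → ¬ p ∣ m' → χ = χ') ∧ (∀ β : Cfsg.IrrCharacter C, ∃ χ : Cfsg.IrrCharacter G, (∀ s ∈ S, ∀ g g' : G, (g' : Γ) = s * g * s⁻¹ → (χ : G → ℂ) g' = (χ : G → ℂ) g) ∧ ∃ m : ℕ, Cfsg.classInner (fun c : C => (χ : G → ℂ) ⟨c, hCG c.2⟩) (β : C → ℂ) = (m : ℂ) ∧ ¬ p ∣ m) := by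
  haveI : Fact p.Prime := ⟨hp⟩
  let e := fixEquiv G S hnorm C hC
  let tr : Cfsg.IrrCharacter C → Cfsg.IrrCharacter ↥(fix (conjOn G S hnorm)) := fun β =>
    ⟨(β : C → ℂ) ∘ e, isIrrCharacter_comp_equiv β.2 e⟩
  have htr : Function.Bijective tr := ⟨fun a b h => Subtype.ext (funext fun c => by
      simpa [tr] using congrFun (congrArg Subtype.val h) (e.symm c)),
    fun β => ⟨⟨(β : _ → ℂ) ∘ e.symm, isIrrCharacter_comp_equiv β.2 e.symm⟩,
      Subtype.ext (funext fun c => by simp [tr])⟩⟩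
  have hm : ∀ (χ : Cfsg.IrrCharacter G) (β : Cfsg.IrrCharacter C),
      Cfsg.classInner (fun c : C => (χ : G → ℂ) ⟨c, hCG c.2⟩) (β : C → ℂ) = (mult χ (tr β) : ℂ) := by
    intro χ β
    rw [← mult_spec, ← inner_comp_equiv e]
    congr 1
  -- a correspondence
  obtain ⟨F, hFinj, hFinv, hFsurj, hFiff, hFmod⟩ : ∃ F : Cfsg.IrrCharacter ↥(fix (conjOn G S hnorm)) → Cfsg.IrrCharacter G,
      Function.Injective F ∧ (∀ β, Inv (conjOn G S hnorm) (F β : G → ℂ)) ∧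
      (∀ χ : Cfsg.IrrCharacter G, Inv (conjOn G S hnorm) (χ : G → ℂ) → ∃ β, F β = χ) ∧
      (∀ (χ : Cfsg.IrrCharacter G) β, Inv (conjOn G S hnorm) (χ : G → ℂ) → (¬ p ∣ mult χ β ↔ χ = F β)) ∧
      (∀ β, (mult (F β) β : ℤ) ≡ 1 [ZMOD p] ∨ (mult (F β) β : ℤ) ≡ -1 [ZMOD p]) := by
    by_cases hpG : p ∣ Nat.card G
    · have hS1 : S = ⊥ := by
        rcases (hS.card_eq_or_dvd) with h | h
        · exact Subgroup.eq_bot_of_card_eq S h
        · exact absurd (hcop.gcd_eq_one ▸ Nat.dvd_gcd hpG h) hp.not_dvd_one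
      have htriv : ∀ g : G, g ∈ fix (conjOn G S hnorm) := fun g => (mem_fix_conjOn G S hnorm g).2
        ⟨g.2, Subgroup.mem_centralizer_iff.2 fun s hs => by
          rw [hS1] at hs
          rw [Subgroup.mem_bot.1 (SetLike.mem_coe.1 hs), one_mul, mul_one]⟩
      have hinvAll : ∀ f : G → ℂ, Inv (conjOn G S hnorm) f := fun f s g =>
        congrArg f (mem_fix.1 (htriv g) s)
      let e₀ : ↥(fix (conjOn G S hnorm)) ≃* G := MulEquiv.ofBijective (fix (conjOn G S hnorm)).subtype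
        ⟨Subtype.val_injective, fun g => ⟨⟨g, htriv g⟩, rfl⟩⟩
      let F : Cfsg.IrrCharacter ↥(fix (conjOn G S hnorm)) → Cfsg.IrrCharacter G := fun β =>
        ⟨(β : _ → ℂ) ∘ e₀.symm, isIrrCharacter_comp_equiv β.2 e₀.symm⟩
      have hmult : ∀ (χ : Cfsg.IrrCharacter G) β, mult χ β = if χ = F β then 1 else 0 := by
        intro χ β
        apply Nat.cast_injective (R := ℂ)
        rw [← mult_spec]
        have e1 : (β : _ → ℂ) = (F β : G → ℂ) ∘ e₀ := funext fun c => by simp [F]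
        rw [e1]
        refine (inner_comp_equiv e₀ (χ : G → ℂ) (F β : G → ℂ)).trans ?_
        rw [irr_classInner]
        split_ifs <;> simp
      refine ⟨F, fun a b h => Subtype.ext (funext fun c => ?_), fun β => hinvAll _, fun χ _ =>
        ⟨⟨(χ : G → ℂ) ∘ e₀, isIrrCharacter_comp_equiv χ.2 e₀⟩, Subtype.ext (funext fun c => by simp [F])⟩,
        fun χ β _ => ?_, fun β => Or.inl ?_⟩
      · simpa [F] using congrFun (congrArg Subtype.val h) (e₀ c)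
      · rw [hmult]
        split_ifs with h
        · exact ⟨fun _ => h, fun _ => hp.not_dvd_one⟩
        · exact ⟨fun h' => absurd (dvd_zero p) h', fun h' => absurd h' h⟩
      · rw [hmult, if_pos rfl]; rfl
    · obtain ⟨M, hM⟩ := exists_isPModular hp
      exact ⟨corr hS hpG hM, corr_injective hS hpG hM, corr_inv hS hpG hM,
        fun χ hχ => corr_surjective hS hpG hM hχ, fun χ β hχ => not_dvd_mult_iff hS hpG hM hχ β,
        mult_modEq hS hpG hM⟩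
  refine ⟨fun χ hχ => ?_, fun χ hχ β m he hnd => ?_, fun χ χ' hχ hχ' β m m' he hnd he' hnd' => ?_, fun β => ?_⟩
  · have hχ' := (inv_conjOn_iff G S hnorm _).2 hχ
    obtain ⟨β', hβ'⟩ := hFsurj χ hχ'
    obtain ⟨β, rfl⟩ := htr.2 β'
    refine ⟨β, ⟨mult χ (tr β), hm χ β, (hFiff χ _ hχ').2 hβ'.symm⟩, ?_⟩
    rintro γ ⟨m, hγ, hnd⟩
    rw [hm, Nat.cast_inj] at hγ
    subst hγ
    exact htr.1 (hFinj (((hFiff χ _ hχ').1 hnd).symm.trans hβ'.symm))
  · rw [hm, Nat.cast_inj] at he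
    subst he
    rw [(hFiff χ _ ((inv_conjOn_iff G S hnorm _).2 hχ)).1 hnd]
    exact hFmod _
  · rw [hm, Nat.cast_inj] at he he'
    subst he he'
    exact ((hFiff χ _ ((inv_conjOn_iff G S hnorm _).2 hχ)).1 hnd).trans
      ((hFiff χ' _ ((inv_conjOn_iff G S hnorm _).2 hχ')).1 hnd').symm
  · exact ⟨F (tr β), (inv_conjOn_iff G S hnorm _).1 (hFinv _), mult (F (tr β)) (tr β), hm _ β,
      (hFiff _ _ (hFinv _)).2 rfl⟩

end Cfsg.Agent.S4444
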