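import Cfsg.Statements.S4446
import Cfsg.Agent.Lib.BlockCanonExt

set_option autoImplicit false
open Cfsg
open CfsgLib.Block CfsgLib.Char CfsgLib.Glauberman
open scoped Classical


namespace Cfsg.Agent.S4446

/-- Let the finite group Γ be generated by a normal subgroup G and a cyclic subgroup S of coprime orders, C = G ⊓ C(S), and let χ be an S-invariant irreducible character of G with canonical extension χ̂ to Γ (the extension whose determinantal order is coprime to the order of S). Then there are exactly one irreducible character β of C and one sign ε such that χ̂(c s) = ε β(c) for every c ∈ C and every generator s of S; this β is a constituent of the restriction of χ to C; distinct S-invariant χ give distinct β; and every irreducible character of C arises in this way. -/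
theorem result {Γ : Type*} [Group Γ] [Fintype Γ] (G S : Subgroup Γ) [Fintype G] (hnorm : ∀ s ∈ S, ∀ g ∈ G, s * g * s⁻¹ ∈ G) (hcop : (Nat.card G).Coprime (Nat.card S)) (htop : G ⊔ S = ⊤) (hcyc : IsCyclic S) (C : Subgroup Γ) [Fintype C] (hC : C = G ⊓ Subgroup.centralizer (S : Set Γ)) (hCG : C ≤ G) : (∀ (χ : Cfsg.IrrCharacter G) (χh : Cfsg.IrrCharacter Γ), (∀ s ∈ S, ∀ g g' : G, (g' : Γ) = s * g * s⁻¹ → (χ : G → ℂ) g' = (χ : G → ℂ) g) → (∀ g : G, (χh : Γ → ℂ) g = (χ : G → ℂ) g) → (Cfsg.detOrder (χh : Γ → ℂ)).Coprime (Nat.card S) → (∃! βε : Cfsg.IrrCharacter C × ℤ, (βε.2 = 1 ∨ βε.2 = -1) ∧ ∀ c : C, ∀ s : Γ, Subgroup.zpowers s = S → (χh : Γ → ℂ) ((c : Γ) * s) = (βε.2 : ℂ) * (βε.1 : C → ℂ) c) ∧ ∀ β : Cfsg.IrrCharacter C, ∀ ε : ℤ, (ε = 1 ∨ ε = -1) → (∀ c : C, ∀ s : Γ, Subgroup.zpowers s = S → (χh : Γ → ℂ) ((c : Γ) * s) = (ε : ℂ) * (β : C → ℂ) c) → Cfsg.classInner (fun c : C => (χ : G → ℂ) ⟨c,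 hCG c.2⟩) (β : C → ℂ) ≠ 0) ∧ (∀ (χ χ' : Cfsg.IrrCharacter G) (χh χh' : Cfsg.IrrCharacter Γ), (∀ s ∈ S, ∀ g g' : G, (g' : Γ) = s * g * s⁻¹ → (χ : G → ℂ) g' = (χ : G → ℂ) g) → (∀ s ∈ S, ∀ g g' : G, (g' : Γ) = s * g * s⁻¹ → (χ' : G → ℂ) g' = (χ' : G → ℂ) g) → (∀ g : G, (χh : Γ → ℂ) g = (χ : G → ℂ) g) → (∀ g : G, (χh' : Γ → ℂ) g = (χ' : G → ℂ) g) → (Cfsg.detOrder (χh : Γ → ℂ)).Coprime (Nat.card S) → (Cfsg.detOrder (χh' : Γ → ℂ)).Coprime (Nat.card S) → ∀ β : Cfsg.IrrCharacter C, ∀ ε ε' : ℤ, (ε = 1 ∨ ε = -1) → (ε' = 1 ∨ ε' = -1) → (∀ c : C, ∀ s : Γ, Subgroup.zpowers s = S → (χh : Γ → ℂ) ((c : Γ) * s) = (ε : ℂ) * (β : C → ℂ) c) → (∀ c : C, ∀ s : Γ, Subgroup.zpowers s = S → (χh' : Γ → ℂ) ((c : Γ) * s) = (ε' : ℂ) * (β : C → ℂ) c) → χ = χ') ∧ (∀ β : Cfsg.IrrCharacter C, ∃ (χ : Cfsg.IrrCharacter G) (χh : Cfsg.IrrCharacter Γ) (ε : ℤ), (∀ s ∈ S, ∀ g g' : G, (g' : Γ) = s * g * s⁻¹ → (χ : G → ℂ) g'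 = (χ : G → ℂ) g) ∧ (∀ g : G, (χh : Γ → ℂ) g = (χ : G → ℂ) g) ∧ (Cfsg.detOrder (χh : Γ → ℂ)).Coprime (Nat.card S) ∧ (ε = 1 ∨ ε = -1) ∧ ∀ c : C, ∀ s : Γ, Subgroup.zpowers s = S → (χh : Γ → ℂ) ((c : Γ) * s) = (ε : ℂ) * (β : C → ℂ) c) := by
  have hGn : G.Normal := by
    refine Subgroup.normalizer_eq_top_iff.1 (top_le_iff.1 ?_)
    rw [← htop]
    refine sup_le Subgroup.le_normalizer fun s hs => Subgroup.mem_normalizer_iff.2 fun g =>
      ⟨fun hg => hnorm s hs g hg, fun hg => ?_⟩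
    have h := hnorm s⁻¹ (inv_mem hs) _ hg
    rwa [show s⁻¹ * (s * g * s⁻¹) * s⁻¹⁻¹ = g by group] at h
  have hinf : ∀ x, x ∈ G → x ∈ S → x = 1 := fun x hx hx' => by
    have : x ∈ G ⊓ S := Subgroup.mem_inf.2 ⟨hx, hx'⟩
    rwa [CfsgLib.Core.inf_eq_bot_of_coprime hcop, Subgroup.mem_bot] at this
  have hdec : ∀ g : Γ, ∃ k ∈ G, ∃ s ∈ S, k * s = g := fun g => by
    have hg : g ∈ ((G ⊔ S : Subgroup Γ) : Set Γ) := by rw [htop]; exact Subgroup.mem_top g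
    rw [Subgroup.normal_mul] at hg
    exact Set.mem_mul.1 hg
  have hidx : G.index = Nat.card S := by
    rw [Subgroup.index_eq_card]
    refine (Nat.card_eq_of_bijective ((QuotientGroup.mk' G).comp S.subtype) ⟨?_, fun q => ?_⟩).symm
    · exact (injective_iff_map_eq_one _).2 fun x hx =>
        Subtype.ext (hinf _ ((QuotientGroup.eq_one_iff _).1 hx) x.2)
    · obtain ⟨g, rfl⟩ := QuotientGroup.mk'_surjective G q
      obtain ⟨k, hk, s, hs, rfl⟩ := hdec g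
      refine ⟨⟨s, hs⟩, ?_⟩
      show (QuotientGroup.mk' G) s = (QuotientGroup.mk' G) (k * s)
      rw [map_mul, show (QuotientGroup.mk' G) k = 1 from (QuotientGroup.eq_one_iff k).2 hk, one_mul]
  obtain ⟨s₀, hs₀⟩ : ∃ s₀ : Γ, Subgroup.zpowers s₀ = S :=
    (Subgroup.isCyclic_iff_exists_zpowers_eq_top S).1 hcyc
  have hinvN : ∀ χ : Cfsg.IrrCharacter G, (∀ s ∈ S, ∀ g g' : G, (g' : Γ) = s * g * s⁻¹ →
      (χ : G → ℂ) g' = (χ : G → ℂ) g) → InvNormal G (χ : G → ℂ) := by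
    intro χ h x k
    obtain ⟨c, hc, s, hs, rfl⟩ := hdec x
    rw [← h s hs k ⟨s * k * s⁻¹, hnorm s hs k k.2⟩ rfl,
      ← irr_classFunction χ ⟨s * k * s⁻¹, hnorm s hs k k.2⟩ ⟨c, hc⟩]
    refine congrArg (χ : G → ℂ) ?_
    apply Subtype.ext
    show c * s * (k : Γ) * (c * s)⁻¹ = c * (s * (k : Γ) * s⁻¹) * c⁻¹
    group
  have hcen : ∀ c ∈ C, ∀ y ∈ S, c * y = y * c := fun c hc y hy => by
    rw [hC] at hc
    exact (Subgroup.mem_centralizer_iff.1 hc.2 y hy).symm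
  have key : ∀ (χ : Cfsg.IrrCharacter G) (χh : Cfsg.IrrCharacter Γ), InvNormal G (χ : G → ℂ) →
      (∀ g : G, (χh : Γ → ℂ) g = (χ : G → ℂ) g) →
      (Cfsg.detOrder (χh : Γ → ℂ)).Coprime (Nat.card S) →
      ∃ (β : Cfsg.IrrCharacter C) (ε : ℤ), (ε = 1 ∨ ε = -1) ∧
        (∀ s, Subgroup.zpowers s = S → sectionFun C (χh : Γ → ℂ) s = (ε : ℂ) • (β : C → ℂ)) := by
    intro χ χh hinv hext hdet
    have hsec := fun y (hy : Subgroup.zpowers y = S) =>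
      section_eq_of_gen htop hcop hC hidx hinv hext hdet hs₀ hy
    have hgen : Cfsg.IsGeneralizedCharacter C (sectionFun C (χh : Γ → ℂ) s₀) := by
      refine isGenChar_iff_int.2 ⟨fun c x => ?_, fun η hη =>
        (exists_int_inner_section hcen χh.2.isCharacter' hs₀ hsec ⟨η, hη⟩).1⟩
      show (χh : Γ → ℂ) ((x : Γ) * c * (x : Γ)⁻¹ * s₀) = (χh : Γ → ℂ) ((c : Γ) * s₀)
      rw [← irr_classFunction χh ((c : Γ) * s₀) (x : Γ)]
      congr 1
      have h := hcen _ (inv_mem x.2) s₀ (hs₀ ▸ Subgroup.mem_zpowers s₀)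
      simp only [mul_assoc, h]
    rcases genChar_norm_one hgen (inner_section hcop hs₀ hC hext hext).2 with h | h
    · exact ⟨⟨_, h⟩, 1, Or.inl rfl, fun s hs => by rw [hsec s hs]; simp⟩
    · exact ⟨⟨_, h⟩, -1, Or.inr rfl, fun s hs => by rw [hsec s hs]; simp⟩
  have hconv : ∀ (χh : Cfsg.IrrCharacter Γ) (β : Cfsg.IrrCharacter C) (ε : ℤ),
      (∀ c : C, ∀ s : Γ, Subgroup.zpowers s = S → (χh : Γ → ℂ) ((c : Γ) * s) = (ε : ℂ) * (β : C → ℂ) c) ↔
      (∀ s, Subgroup.zpowers s = S → sectionFun C (χh : Γ → ℂ) s = (ε : ℂ) • (β : C → ℂ)) :=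
    fun χh β ε => ⟨fun h s hs => funext fun c => h c s hs, fun h c s hs => congrFun (h s hs) c⟩
  have hunit : ∀ ε : ℤ, (ε = 1 ∨ ε = -1) → (ε : ℂ) ≠ 0 := fun ε h => by
    rcases h with rfl | rfl <;> norm_num
  have huniq : ∀ (β β' : Cfsg.IrrCharacter C) (ε ε' : ℤ), (ε = 1 ∨ ε = -1) → (ε' = 1 ∨ ε' = -1) →
      (ε : ℂ) • (β : C → ℂ) = (ε' : ℂ) • (β' : C → ℂ) → β = β' ∧ ε = ε' := by
    intro β β' ε ε' hε hε' h
    have h1 := congrFun h 1
    simp only [Pi.smul_apply, smul_eq_mul, ← charDegree_cast β.2.isCharacter',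
      ← charDegree_cast β'.2.isCharacter'] at h1
    have h2 : ε * (Cfsg.charDegree (β : C → ℂ) : ℤ) = ε' * (Cfsg.charDegree (β' : C → ℂ) : ℤ) := by
      exact_mod_cast h1
    have hp := charDegree_pos β
    have hp' := charDegree_pos β'
    have he : ε = ε' := by rcases hε with rfl | rfl <;> rcases hε' with rfl | rfl <;> omega
    subst he
    exact ⟨Subtype.ext (funext fun c => mul_left_cancel₀ (hunit ε hε) (congrFun h c)), rfl⟩
  have hinjCore : ∀ (χ χ' : Cfsg.IrrCharacter G) (χh χh' : Cfsg.IrrCharacter Γ),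
      (∀ g : G, (χh : Γ → ℂ) g = (χ : G → ℂ) g) → (∀ g : G, (χh' : Γ → ℂ) g = (χ' : G → ℂ) g) →
      ∀ (β : Cfsg.IrrCharacter C) (ε ε' : ℤ), (ε = 1 ∨ ε = -1) → (ε' = 1 ∨ ε' = -1) →
      (∀ s, Subgroup.zpowers s = S → sectionFun C (χh : Γ → ℂ) s = (ε : ℂ) • (β : C → ℂ)) →
      (∀ s, Subgroup.zpowers s = S → sectionFun C (χh' : Γ → ℂ) s = (ε' : ℂ) • (β : C → ℂ)) →
      χ = χ' := by
    intro χ χ' χh χh' hext hext' β ε ε' hε hε' h h'
    by_contra hne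
    have h0 := (inner_section hcop hs₀ hC hext hext').1 hne
    rw [h _ hs₀, h' _ hs₀, CfsgLib.Char.inner_smul_left, CfsgLib.Char.inner_smul_right,
      CfsgLib.Char.irr_inner_self β.2, mul_one, map_intCast] at h0
    exact mul_ne_zero (hunit ε hε) (hunit ε' hε') h0
  have hcanon : ∀ χ : Cfsg.IrrCharacter G, InvNormal G (χ : G → ℂ) →
      ∃ χh : Cfsg.IrrCharacter Γ, (∀ g : G, (χh : Γ → ℂ) g = (χ : G → ℂ) g) ∧
        (Cfsg.detOrder (χh : Γ → ℂ)).Coprime (Nat.card S) := by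
    intro χ hinv
    have hco : Nat.Coprime G.index (Cfsg.detOrder (χ : G → ℂ) * Cfsg.charDegree (χ : G → ℂ)) := by
      rw [hidx]
      exact Nat.Coprime.mul_right (hcop.symm.coprime_dvd_right (detOrder_dvd_card χ.2.isCharacter'))
        (hcop.symm.coprime_dvd_right (charDegree_dvd_card χ))
    obtain ⟨x, ⟨hirr, hres, hord⟩, -⟩ :=
      canonical_extension G χ.2 hinv (charDegree_cast χ.2.isCharacter').symm hco
    exact ⟨⟨x, hirr⟩, hres, by
      show (Cfsg.detOrder x).Coprime _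
      rw [hord]
      exact hcop.coprime_dvd_left (detOrder_dvd_card χ.2.isCharacter')⟩
  refine ⟨fun χ χh hinv hext hdet => ?_, fun χ χ' χh χh' _ _ hext hext' _ _ β ε ε' hε hε' h h' =>
    hinjCore χ χ' χh χh' hext hext' β ε ε' hε hε' ((hconv _ _ _).1 h) ((hconv _ _ _).1 h'), fun β₀ => ?_⟩
  · obtain ⟨β, ε, hε, h⟩ := key χ χh (hinvN χ hinv) hext hdet
    refine ⟨⟨(β, ε), ⟨hε, (hconv _ _ _).2 h⟩, ?_⟩, fun β' ε' hε' h' => ?_⟩
    · rintro ⟨β', ε'⟩ ⟨hε', h'⟩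
      obtain ⟨h1, h2⟩ := huniq β' β ε' ε hε' hε (((hconv _ _ _).1 h' s₀ hs₀).symm.trans (h s₀ hs₀))
      subst h1 h2
      rfl
    · have hne : Cfsg.classInner (sectionFun C (χh : Γ → ℂ) s₀) (β' : C → ℂ) ≠ 0 := by
        rw [(hconv _ _ _).1 h' s₀ hs₀, CfsgLib.Char.inner_smul_left,
          CfsgLib.Char.irr_inner_self β'.2, mul_one]
        exact hunit ε' hε'
      have h2 := (exists_int_inner_section hcen χh.2.isCharacter' hs₀
        (fun y hy => section_eq_of_gen htop hcop hC hidx (hinvN χ hinv) hext hdet hs₀ hy) β').2 hne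
      convert h2 using 3 with c
      exact (hext ⟨c, hCG c.2⟩).symm
  · have hsolv : Group.IsSolvable S := by
      letI := @IsCyclic.commGroup S _ hcyc
      exact Group.isSolvable_of_comm fun a b => mul_comm a b
    have hgood := good (conjOn G S hnorm) hsolv hcop
    let e := fixEquiv G S hnorm C hC
    have hinvI : ∀ χ : {χ : Cfsg.IrrCharacter G // Inv (conjOn G S hnorm) (χ : G → ℂ)},
        InvNormal G (χ.1 : G → ℂ) := fun χ => hinvN χ.1 ((inv_conjOn_iff G S hnorm _).1 χ.2)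
    choose xh hxh using fun χ : {χ : Cfsg.IrrCharacter G // Inv (conjOn G S hnorm) (χ : G → ℂ)} =>
      hcanon χ.1 (hinvI χ)
    choose B E hE hB using fun χ => key χ.1 (xh χ) (hinvI χ) (hxh χ).1 (hxh χ).2
    have hBinj : Function.Injective B := fun a b hab => Subtype.ext
      (hinjCore a.1 b.1 (xh a) (xh b) (hxh a).1 (hxh b).1 (B a) (E a) (E b) (hE a) (hE b) (hB a)
        (hab ▸ hB b))
    have hcard : Nat.card {χ : Cfsg.IrrCharacter G // Inv (conjOn G S hnorm) (χ : G → ℂ)} =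
        Nat.card (Cfsg.IrrCharacter C) := hgood.count.trans (Nat.card_congr
      { toFun := fun η => ⟨(η : _ → ℂ) ∘ e.symm, isIrrCharacter_comp_equiv η.2 e.symm⟩
        invFun := fun η => ⟨(η : C → ℂ) ∘ e, isIrrCharacter_comp_equiv η.2 e⟩
        left_inv := fun η => Subtype.ext (funext fun c => by simp)
        right_inv := fun η => Subtype.ext (funext fun c => by simp) })
    obtain ⟨χ, rfl⟩ := ((Nat.bijective_iff_injective_and_card B).2 ⟨hBinj, hcard⟩).2 β₀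
    exact ⟨χ.1, xh χ, E χ, (inv_conjOn_iff G S hnorm _).1 χ.2, (hxh χ).1, (hxh χ).2, hE χ,
      (hconv _ _ _).2 (hB χ)⟩

end Cfsg.Agent.S4446
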