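import Cfsg.Statements.S4447
import Cfsg.Agent.Lib.CharClifford
import Cfsg.Agent.Lib.CoreSZ

set_option autoImplicit false
open Cfsg

namespace Cfsg.Agent.S4447

/-- Inside a finite group Γ let S normalise G and also normalise a normal subgroup N of G, with the order of S coprime to the index of N in G and S or G/N solvable. Then for every S-invariant irreducible character χ of G, the restriction of χ to N has an S-invariant irreducible constituent. -/
theorem result {Γ : Type*} [Group Γ] [Fintype Γ] (G S N : Subgroup Γ) [Fintype G] [Fintype N] (hnorm : ∀ s ∈ S, ∀ g ∈ G, s * g * s⁻¹ ∈ G) (hNG : N ≤ G) [hNn : (N.subgroupOf G).Normal] (hNS : ∀ s ∈ S, ∀ n ∈ N, s * n * s⁻¹ ∈ N) (hcop : (N.relIndex G).Coprime (Nat.card S)) (hsolv : Group.IsSolvable S ∨ Group.IsSolvable (G ⧸ N.subgroupOf G)) (χ : Cfsg.IrrCharacter G) (hinv : (∀ s ∈ S, ∀ g g' : G, (g' : Γ) = s * g * s⁻¹ → (χ : G → ℂ) g' = (χ : G → ℂ) g)) : ∃ θ : Cfsg.IrrCharacter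 N, Cfsg.classInner (fun n : N => (χ : G → ℂ) ⟨n, hNG n.2⟩) (θ : N → ℂ) ≠ 0 ∧ (∀ s ∈ S, ∀ g g' : N, (g' : Γ) = s * g * s⁻¹ → (θ : N → ℂ) g' = (θ : N → ℂ) g) := by
  classical
  let Ng := N.subgroupOf G
  let L : Subgroup Γ := Subgroup.normalizer (N : Set Γ) ⊓ Subgroup.normalizer (G : Set Γ)
  have hnl : ∀ (H : Subgroup Γ), (∀ s ∈ S, ∀ n ∈ H, s * n * s⁻¹ ∈ H) →
      S ≤ Subgroup.normalizer (H : Set Γ) := by
    intro H hH s hs
    rw [Subgroup.mem_normalizer_iff]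
    intro n
    refine ⟨hH s hs n, fun h => ?_⟩
    have := hH s⁻¹ (S.inv_mem hs) _ h
    simpa [mul_assoc] using this
  have hSL : S ≤ L := le_inf (hnl N hNS) (hnl G hnorm)
  have hGL : G ≤ L := le_inf ((Subgroup.normal_subgroupOf_iff_le_normalizer hNG).1 hNn)
    Subgroup.le_normalizer
  let NL := N.subgroupOf L
  haveI hNLn : NL.Normal := Subgroup.normal_subgroupOf_of_le_normalizer inf_le_left
  have hLN : ∀ (l : L) (n : Ng), (l : Γ) * (n : G) * (l : Γ)⁻¹ ∈ N := fun l n =>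
    (Subgroup.mem_normalizer_iff.1 l.2.1 _).1 (Subgroup.mem_subgroupOf.1 n.2)
  let c : L →* MulAut Ng :=
    { toFun := fun l =>
        { toFun := fun n => ⟨⟨_, hNG (hLN l n)⟩, Subgroup.mem_subgroupOf.2 (hLN l n)⟩
          invFun := fun n => ⟨⟨_, hNG (hLN l⁻¹ n)⟩, Subgroup.mem_subgroupOf.2 (hLN l⁻¹ n)⟩
          left_inv := fun n => by ext; simp [mul_assoc]
          right_inv := fun n => by ext; simp [mul_assoc]
          map_mul' := fun a b => by ext; simp [mul_assoc] }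
      map_one' := by ext; simp
      map_mul' := fun a b => by ext; simp [mul_assoc] }
  have hc : ∀ (l : L) (n : Ng), (((c l n : Ng) : G) : Γ) = l * ((n : G) : Γ) * (l : Γ)⁻¹ :=
    fun l n => rfl
  let χN : Ng → ℂ := fun n => (χ : G → ℂ) n
  let X : Set (Ng → ℂ) := {η | IsIrrCharacter Ng η ∧ classInner χN η ≠ 0}
  let T : Subgroup L :=
    { carrier := {l | ∀ n, χN (c l n) = χN n}
      one_mem' := fun n => by rw [map_one]; rfl
      mul_mem' := fun {a b} ha hb n => by rw [map_mul, MulAut.mul_apply, ha, hb]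
      inv_mem' := fun {a} ha n => by
        rw [← ha (c a⁻¹ n), ← MulAut.mul_apply, ← map_mul, mul_inv_cancel, map_one]; rfl }
  have hGT : ∀ l : L, (l : Γ) ∈ G → l ∈ T := fun l hl n => by
    show χN (c l n) = χN n
    exact (congrArg (χ : G → ℂ) (Subtype.ext (hc l n))).trans
      (CfsgLib.Char.isCharacter_classFunction χ.2.isCharacter' (n : G) ⟨(l : Γ), hl⟩)
  have hST : ∀ l : L, (l : Γ) ∈ S → l ∈ T := fun l hl n => hinv _ hl _ _ (hc l n)
  have hχT : ∀ l ∈ T, ∀ n : Ng, χN (c l n) = χN n := fun l hl => hl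
  have hXT : ∀ l ∈ T, ∀ η ∈ X, η ∘ c l⁻¹ ∈ X := by
    rintro l hl η ⟨hη, hη0⟩
    refine ⟨CfsgLib.Char.isIrrCharacter_comp_equiv hη _, ?_⟩
    rw [show χN = χN ∘ c l⁻¹ from funext fun n => (hχT _ (inv_mem hl) n).symm,
      CfsgLib.Char.inner_comp_equiv]
    exact hη0
  let Ω : Set (Ng → ℂ) := {η | IsClassFunction Ng η}
  have hΩ : ∀ (l : L), ∀ η ∈ Ω, η ∘ c l ∈ Ω := fun l η hη a b => by
    show η (c l _) = η (c l a)
    rw [map_mul, map_mul, map_inv]
    exact hη _ _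
  let actΩ : L →* Equiv.Perm Ω :=
    { toFun := fun l =>
        { toFun := fun η => ⟨η.1 ∘ c l⁻¹, hΩ _ _ η.2⟩
          invFun := fun η => ⟨η.1 ∘ c l, hΩ _ _ η.2⟩
          left_inv := fun η => Subtype.ext (funext fun n => by
            show η.1 (c l⁻¹ (c l n)) = η.1 n
            rw [← MulAut.mul_apply, ← map_mul, inv_mul_cancel, map_one]; rfl)
          right_inv := fun η => Subtype.ext (funext fun n => by
            show η.1 (c l (c l⁻¹ n)) = η.1 n
            rw [← MulAut.mul_apply, ← map_mul, mul_inv_cancel, map_one]; rfl) }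
      map_one' := Equiv.ext fun η => Subtype.ext (by
        show η.1 ∘ c 1⁻¹ = η.1
        rw [inv_one, map_one]; rfl)
      map_mul' := fun a b => Equiv.ext fun η => Subtype.ext (by
        show η.1 ∘ c (a * b)⁻¹ = (η.1 ∘ c b⁻¹) ∘ c a⁻¹
        rw [mul_inv_rev, map_mul]; rfl) }
  have hker : NL ≤ actΩ.ker := fun l hl => by
    rw [MonoidHom.mem_ker]
    refine Equiv.ext fun η => Subtype.ext (funext fun n => ?_)
    show η.1 (c l⁻¹ n) = η.1 n
    have hl' : (⟨⟨((l⁻¹ : L) : Γ), hNG (NL.inv_mem hl)⟩, NL.inv_mem hl⟩ : Ng) *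
        n * (⟨⟨((l⁻¹ : L) : Γ), hNG (NL.inv_mem hl)⟩, NL.inv_mem hl⟩ : Ng)⁻¹ = c l⁻¹ n := by
      ext; rw [hc]; rfl
    rw [← hl']
    exact η.2 _ _
  letI : MulAction (L ⧸ NL) Ω := MulAction.compHom Ω (QuotientGroup.lift NL actΩ hker)
  have hsmul : ∀ (l : L) (η : Ω), (QuotientGroup.mk l : L ⧸ NL) • η = actΩ l η := fun l η => rfl
  let fG : G →* L ⧸ NL := (QuotientGroup.mk' NL).comp (Subgroup.inclusion hGL)
  let fS : S →* L ⧸ NL := (QuotientGroup.mk' NL).comp (Subgroup.inclusion hSL)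
  have hkerG : fG.ker = Ng := by
    ext g
    rw [MonoidHom.mem_ker]
    exact (QuotientGroup.eq_one_iff _).trans Iff.rfl
  have hcop' : (Nat.card fS.range).Coprime (Nat.card fG.range) := by
    rw [← Subgroup.index_ker fG, hkerG]
    exact hcop.symm.coprime_dvd_left (Subgroup.card_range_dvd fS)
  have hs' : Group.IsSolvable fS.range ∨ Group.IsSolvable fG.range := by
    rcases hsolv with h | h
    · haveI := h
      exact Or.inl (solvable_of_surjective fS.rangeRestrict_surjective)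
    · haveI := h
      exact Or.inr (solvable_of_surjective
        (f := ((QuotientGroup.quotientKerEquivRange fG).toMonoidHom).comp
          (QuotientGroup.quotientMulEquivOfEq hkerG.symm).toMonoidHom)
        ((QuotientGroup.quotientKerEquivRange fG).surjective.comp
          (QuotientGroup.quotientMulEquivOfEq hkerG.symm).surjective))
  have hAK : fS.range ≤ Subgroup.normalizer (fG.range : Set (L ⧸ NL)) := by
    rintro _ ⟨s, rfl⟩
    rw [Subgroup.mem_normalizer_iff]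
    have key : ∀ (t : S) (x : L ⧸ NL), x ∈ fG.range → fS t * x * (fS t)⁻¹ ∈ fG.range := by
      rintro t _ ⟨g, rfl⟩
      refine ⟨⟨_, hnorm t t.2 g g.2⟩, ?_⟩
      show QuotientGroup.mk' NL _ = QuotientGroup.mk' NL _ * QuotientGroup.mk' NL _ *
        (QuotientGroup.mk' NL _)⁻¹
      rw [← map_inv, ← map_mul, ← map_mul]
      rfl
    refine fun x => ⟨key s x, fun h => ?_⟩
    have := key s⁻¹ _ h
    simpa [mul_assoc] using this
  obtain ⟨θ₀, hθ₀, h0⟩ := CfsgLib.Char.exists_irr_under (H := Ng) χ.2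
  have hcl : ∀ η ∈ X, η ∈ Ω := fun η hη =>
    CfsgLib.Char.isCharacter_classFunction hη.1.isCharacter'
  obtain ⟨⟨⟨η, hηΩ⟩, hηX, hfix⟩, -⟩ := CfsgLib.Core.glauberman (A := fS.range) (K := fG.range)
    hAK hcop' hs' {η : Ω | (η : Ng → ℂ) ∈ X} ⟨⟨θ₀, hcl _ ⟨hθ₀, h0⟩⟩, hθ₀, h0⟩
    (by
      rintro _ ⟨s, rfl⟩ η hη
      exact hXT _ (hST _ s.2) _ hη)
    (by
      rintro η hη _ ⟨g, rfl⟩
      exact hXT _ (hGT _ g.2) _ hη)
    (by
      rintro ⟨x, hx'⟩ hx ⟨y, hy'⟩ hy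
      obtain ⟨g, hg⟩ := CfsgLib.Char.constituent_conj χ.2 hx.1 hy.1 hx.2 hy.2
      refine ⟨fG g⁻¹, ⟨g⁻¹, rfl⟩, Subtype.ext ?_⟩
      show x ∘ c (Subgroup.inclusion hGL g⁻¹)⁻¹ = y
      refine Eq.trans ?_ hg.symm
      rw [show (Subgroup.inclusion hGL g⁻¹)⁻¹ = Subgroup.inclusion hGL g by
        rw [map_inv, inv_inv]]
      funext n
      exact congrArg x (Subtype.ext (Subtype.ext (hc _ n))))
  let e : N ≃* Ng := (Subgroup.subgroupOfEquivOfLe hNG).symm
  refine ⟨⟨η ∘ e, CfsgLib.Char.isIrrCharacter_comp_equiv hηX.1 e⟩, ?_, ?_⟩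
  · rw [show (fun n : N => (χ : G → ℂ) ⟨n, hNG n.2⟩) = χN ∘ e from rfl]
    show classInner (χN ∘ e) (η ∘ e) ≠ 0
    rw [CfsgLib.Char.inner_comp_equiv]
    exact hηX.2
  · intro s hs n n' h
    have h1 : η ∘ c (Subgroup.inclusion hSL ⟨s, hs⟩)⁻¹ = η :=
      congrArg Subtype.val (hfix (fS ⟨s, hs⟩) ⟨_, rfl⟩)
    show η (e n') = η (e n)
    rw [← congrFun h1 (e n')]
    refine congrArg η (Subtype.ext (Subtype.ext ?_))
    rw [hc]
    show s⁻¹ * (n' : Γ) * s⁻¹⁻¹ = (n : Γ)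
    rw [h]
    group

end Cfsg.Agent.S4447
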