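import Cfsg.Statements.S4451
import Cfsg.Agent.Lib.BlockCanonExt
import Cfsg.Agent.Lib.CharGalois
import Cfsg.Agent.Lib.CharGallagher
import Cfsg.Agent.Lib.BlockRegular
import Cfsg.Agent.Lib.CharInt
import Mathlib.RingTheory.RootsOfUnity.Complex

set_option autoImplicit false
set_option maxHeartbeats 600000
open Cfsg

namespace Cfsg.Agent.S4451

universe w

open CfsgLib.Char CfsgLib.Block Polynomial
open scoped ComplexConjugate Classical

/-- a nonzero root sum of modulus at most one at all conjugates has modulus one -/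
theorem norm_one_of_le {s n : ℕ} (hs : 0 < s) {ζ : ℂ} (hζ : IsPrimitiveRoot ζ s) (e : Fin n → ℕ)
    (hle : ∀ k : ℕ, k.Coprime s → ‖∑ l, (ζ ^ e l) ^ k‖ ≤ 1) (hne : ∑ l, ζ ^ e l ≠ 0) :
    ‖∑ l, ζ ^ e l‖ = 1 := by
  haveI : NeZero s := ⟨hs.ne'⟩
  have hne' : ∀ k : ℕ, k.Coprime s → ∑ l, (ζ ^ e l) ^ k ≠ 0 := by
    intro k hk h
    apply hne
    let R : ℚ[X] := ∑ l, X ^ e l
    obtain ⟨k', hk'⟩ : ∃ k' : ℕ, k * k' ≡ 1 [MOD s] := by
      refine ⟨((k : ZMod s)⁻¹).val, (ZMod.natCast_eq_natCast_iff _ _ _).1 ?_⟩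
      rw [Nat.cast_mul, ZMod.natCast_zmod_val, ZMod.coe_mul_inv_eq_one k hk, Nat.cast_one]
    have hc : k'.Coprime s := by
      have h1 := hk'.gcd_eq
      rw [Nat.gcd_one_left] at h1
      exact Nat.Coprime.coprime_mul_left (h1 : (k * k').Coprime s)
    have h0 : aeval (ζ ^ k) R = ((0 : ℚ) : ℂ) := by
      simp only [R, map_sum, aeval_X_pow, Rat.cast_zero]
      rw [← h]
      exact Finset.sum_congr rfl fun l _ => by rw [← pow_mul, ← pow_mul, mul_comm]
    have h1 := aeval_pow_eq_rat hs (hζ.pow_of_coprime k hk) R 0 h0 hc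
    have h2 : (ζ ^ k) ^ k' = ζ := by
      rw [← pow_mul]
      conv_rhs => rw [← pow_one ζ]
      rw [(hζ.isOfFinOrder hs.ne').pow_eq_pow_iff_modEq, ← hζ.eq_orderOf]
      exact hk'
    rw [h2] at h1
    simpa [R] using h1
  let F : (ZMod s)ˣ → ℂ := fun u => ∑ l, (ζ ^ e l) ^ (u : ZMod s).val
  have hint : IsIntegral ℤ (∏ u, F u) := by
    refine IsIntegral.prod _ fun u _ => IsIntegral.sum _ fun l _ => ?_
    exact ((hζ.isIntegral hs).pow _).pow _
  let Q : ℚ[X] := ∏ u : (ZMod s)ˣ, ∑ l, X ^ (e l * (u : ZMod s).val)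
  obtain ⟨q, hq⟩ := rat_of_invariant hs hζ Q (∏ u, F u) (fun k hk => by
    simp only [Q, map_prod, map_sum, aeval_X_pow]
    refine Fintype.prod_equiv (Equiv.mulLeft (ZMod.unitOfCoprime k hk)) _ _ fun u => ?_
    simp only [F]
    refine Finset.sum_congr rfl fun l _ => ?_
    rw [Equiv.coe_mulLeft, Units.val_mul, ZMod.coe_unitOfCoprime, ← pow_mul, ← pow_mul,
      (hζ.isOfFinOrder hs.ne').pow_eq_pow_iff_modEq, ← hζ.eq_orderOf, ZMod.val_mul, ZMod.val_natCast]
    rw [mul_left_comm]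
    exact ((Nat.mod_modEq k s).symm.mul_right _ |>.trans (Nat.mod_modEq _ _).symm).mul_left _)
  obtain ⟨z, hz⟩ := int_of_isIntegral_rat q (hq ▸ hint)
  have hcop : ∀ u : (ZMod s)ˣ, (u : ZMod s).val.Coprime s := fun u => ZMod.val_coe_unit_coprime u
  have hz0 : z ≠ 0 := fun h => by
    rw [← hz, h, Int.cast_zero, Rat.cast_zero] at hq
    exact Finset.prod_ne_zero_iff.2 (fun u _ => hne' _ (hcop u)) hq
  have hge : (1 : ℝ) ≤ ∏ u, ‖F u‖ := by
    rw [← norm_prod, hq, ← hz, Rat.cast_intCast, Complex.norm_intCast]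
    exact_mod_cast Int.one_le_abs hz0
  have h1 : ‖F 1‖ = ‖∑ l, ζ ^ e l‖ := by
    congr 1
    refine Finset.sum_congr rfl fun l _ => ?_
    rw [Units.val_one]
    conv_rhs => rw [← pow_one (ζ ^ e l)]
    rw [← pow_mul, ← pow_mul, (hζ.isOfFinOrder hs.ne').pow_eq_pow_iff_modEq, ← hζ.eq_orderOf, ZMod.val_one_eq_one_mod]
    exact (Nat.mod_modEq 1 s).mul_left _
  refine le_antisymm ?_ ?_
  · simpa using hle 1 (Nat.coprime_one_left s)
  · rw [← h1]
    refine hge.trans ?_
    rw [← Finset.mul_prod_erase Finset.univ _ (Finset.mem_univ (1 : (ZMod s)ˣ))]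
    exact mul_le_of_le_one_right (norm_nonneg _) (Finset.prod_le_one (fun u _ => norm_nonneg _) fun u _ => hle _ (hcop u))

/-- a root sum of modulus one away from the identity -/
theorem shape {s n : ℕ} (hs : 2 ≤ s) {ζ : ℂ} (hζ : IsPrimitiveRoot ζ s) (ν : Fin n → ℂ) (hν : ∀ l, ν l ^ s = 1)
    (hn : ∀ i : ℕ, i < s → i ≠ 0 → (∑ l, ν l ^ i) * conj (∑ l, ν l ^ i) = 1) :
    ∃ (ε : ℤ) (θ : ℂ) (c : ℕ), (ε = 1 ∨ ε = -1) ∧ θ ^ s = 1 ∧ (n : ℤ) = (s : ℤ) * c + ε ∧
      ∀ i : ℕ, ¬ s ∣ i → ∑ l, ν l ^ i = (ε : ℂ) * θ ^ i := by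
  haveI : NeZero s := ⟨by omega⟩
  let R := (Finset.range s).image fun i => ζ ^ i
  have hR : R.card = s := by
    rw [Finset.card_image_of_injOn, Finset.card_range]
    intro i hi j hj h
    exact hζ.pow_inj (Finset.mem_range.1 hi) (Finset.mem_range.1 hj) h
  have hRs : ∀ η ∈ R, η ^ s = 1 := fun η hη => by
    obtain ⟨i, -, rfl⟩ := Finset.mem_image.1 hη
    rw [← pow_mul, mul_comm, pow_mul, hζ.pow_eq_one, one_pow]
  have hmem : ∀ l, ν l ∈ R := fun l => by
    obtain ⟨i, hi, h⟩ := hζ.eq_pow_of_pow_eq_one (hν l)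
    exact Finset.mem_image.2 ⟨i, Finset.mem_range.2 hi, h⟩
  let a : ℂ → ℕ := fun η => (Finset.univ.filter fun l => ν l = η).card
  have h1 : ∑ η ∈ R, a η = n := by
    rw [← Finset.card_eq_sum_card_fiberwise (fun l _ => hmem l), Finset.card_univ, Fintype.card_fin]
  have hgeo : ∀ l l', ∑ i ∈ Finset.range s, (ν l * conj (ν l')) ^ i = if ν l = ν l' then (s : ℂ) else 0 := by
    intro l l'
    have hu : ν l' * conj (ν l') = 1 := by
      rw [Complex.mul_conj', Complex.norm_eq_one_of_pow_eq_one (hν l') (by omega)]; simp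
    split_ifs with h
    · rw [h, hu]; simp
    · have hne : ν l * conj (ν l') ≠ 1 := fun h2 => h (by
        calc ν l = ν l * (ν l' * conj (ν l')) := by rw [hu, mul_one]
          _ = ν l * conj (ν l') * ν l' := by ring
          _ = ν l' := by rw [h2, one_mul])
      rw [geom_sum_eq hne, mul_pow, ← map_pow, hν, hν, map_one, one_mul, sub_self, zero_div]
  have e1 : ∑ i ∈ Finset.range s, (∑ l, ν l ^ i) * conj (∑ l, ν l ^ i) = ((s * ∑ η ∈ R, a η * a η : ℕ) : ℂ) := by
    calc ∑ i ∈ Finset.range s, (∑ l, ν l ^ i) * conj (∑ l, ν l ^ i)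
        = ∑ l, ∑ l', ∑ i ∈ Finset.range s, (ν l * conj (ν l')) ^ i := by
          simp only [map_sum, map_pow, Finset.sum_mul_sum, mul_pow]
          rw [Finset.sum_comm]
          exact Finset.sum_congr rfl fun l _ => Finset.sum_comm
      _ = ∑ l, ((s * a (ν l) : ℕ) : ℂ) := by
          refine Finset.sum_congr rfl fun l _ => ?_
          rw [Finset.sum_congr rfl fun l' _ => hgeo l l', ← Finset.sum_filter, Finset.sum_const, nsmul_eq_mul]
          simp only [a, eq_comm]
          push_cast; ring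
      _ = _ := by
          rw [← Nat.cast_sum]
          congr 1
          rw [← Finset.sum_fiberwise_of_maps_to (fun l _ => hmem l) (fun l => s * a (ν l)), Finset.mul_sum]
          refine Finset.sum_congr rfl fun η _ => ?_
          rw [Finset.sum_congr rfl fun l hl => by rw [(Finset.mem_filter.1 hl).2], Finset.sum_const, smul_eq_mul]
          simp only [a]; ring
  have h2 : ((s * ∑ η ∈ R, a η * a η : ℕ) : ℂ) = ((n * n + (s - 1) : ℕ) : ℂ) := by
    rw [← e1, Finset.range_eq_Ico, Finset.sum_eq_sum_Ico_succ_bot (by omega : 0 < s),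
      Finset.sum_congr rfl fun i hi => hn i (Finset.mem_Ico.1 hi).2 (by have := (Finset.mem_Ico.1 hi).1; omega)]
    simp
  have h2' : s * (∑ η ∈ R, a η * a η) = n * n + (s - 1) := by exact_mod_cast h2
  have hd : (n : ℤ) = (s : ℤ) * ((n / s : ℕ) : ℤ) + ((n % s : ℕ) : ℤ) := by exact_mod_cast (Nat.div_add_mod n s).symm
  have hlt : n % s < s := Nat.mod_lt _ (by omega)
  generalize hc : n / s = c at hd
  generalize hr : n % s = r at hd hlt
  let T : ℂ → ℤ := fun η => ((a η : ℤ) - c) * ((a η : ℤ) - c - 1)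
  have hnn : ∀ η, 0 ≤ T η := fun η => by
    rcases le_or_gt (a η : ℤ) c with h | h
    · exact mul_nonneg_of_nonpos_of_nonpos (by omega) (by omega)
    · exact mul_nonneg (by omega) (by omega)
  have hexp : (s : ℤ) * ∑ η ∈ R, T η = ((n * n + (s - 1) : ℕ) : ℤ) - (s : ℤ) * (2 * c + 1) * (n : ℤ) + (s : ℤ) * (s : ℤ) * (c * (c + 1)) := by
    rw [← h2', ← h1]
    push_cast
    have e3 : ∀ η, T η = (a η : ℤ) * a η - (2 * c + 1) * a η + c * (c + 1) := fun η => by simp only [T]; ring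
    rw [Finset.sum_congr rfl fun η _ => e3 η, Finset.sum_add_distrib, Finset.sum_sub_distrib, ← Finset.mul_sum,
      Finset.sum_const, nsmul_eq_mul, hR]
    ring
  have hkey : (s : ℤ) * ∑ η ∈ R, T η = (s : ℤ) - 1 - (r : ℤ) * ((s : ℤ) - r) := by
    rw [hexp, Nat.cast_add, Nat.cast_mul, Nat.cast_sub (by omega), hd]; push_cast; ring
  have hT0 : 0 ≤ ∑ η ∈ R, T η := Finset.sum_nonneg fun η _ => hnn η
  have hr1 : r = 1 ∨ r + 1 = s := by
    by_contra hne
    push Not at hne
    rcases r.eq_zero_or_pos with h | h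
    · subst h
      have h5 : (s : ℤ) ∣ (s : ℤ) - 1 := ⟨_, by simpa using hkey.symm⟩
      have := Int.le_of_dvd (by omega) h5
      omega
    · have h1' : (2 : ℤ) ≤ r := by omega
      have h2'' : (r : ℤ) + 2 ≤ s := by omega
      nlinarith [mul_nonneg (show (0 : ℤ) ≤ r - 2 by omega) (show (0 : ℤ) ≤ (s : ℤ) - r - 2 by omega)]
  have hTz : ∀ η ∈ R, a η = c ∨ a η = c + 1 := by
    have hsum : ∑ η ∈ R, T η = 0 := by
      have h3 : (s : ℤ) * ∑ η ∈ R, T η = 0 := by
        rw [hkey]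
        rcases hr1 with h | h
        · subst h; push_cast; ring
        · rw [← h]; push_cast; ring
      exact (mul_eq_zero.1 h3).resolve_left (by omega)
    intro η hη
    have h4 := (Finset.sum_eq_zero_iff_of_nonneg fun η _ => hnn η).1 hsum η hη
    rcases mul_eq_zero.1 h4 with h | h <;> omega
  let U := R.filter fun η => a η = c + 1
  have hval : ∀ i : ℕ, ¬ s ∣ i → ∑ l, ν l ^ i = ∑ η ∈ U, η ^ i := by
    intro i hi
    have h0 : ∑ η ∈ R, η ^ i = 0 := by
      rw [Finset.sum_image fun x hx y hy h => hζ.pow_inj (Finset.mem_range.1 hx) (Finset.mem_range.1 hy) h]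
      have hne : ζ ^ i ≠ 1 := fun h => hi ((hζ.pow_eq_one_iff_dvd i).1 h)
      calc ∑ x ∈ Finset.range s, (ζ ^ x) ^ i = ∑ x ∈ Finset.range s, (ζ ^ i) ^ x :=
            Finset.sum_congr rfl fun x _ => by rw [← pow_mul, ← pow_mul, mul_comm]
        _ = 0 := by rw [geom_sum_eq hne, ← pow_mul, mul_comm, pow_mul, hζ.pow_eq_one, one_pow, sub_self, zero_div]
    calc ∑ l, ν l ^ i = ∑ η ∈ R, (a η : ℂ) * η ^ i := by
          rw [← Finset.sum_fiberwise_of_maps_to (fun l _ => hmem l)]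
          refine Finset.sum_congr rfl fun η _ => ?_
          rw [Finset.sum_congr rfl fun l hl => by rw [(Finset.mem_filter.1 hl).2], Finset.sum_const, nsmul_eq_mul]
      _ = ∑ η ∈ R, ((c : ℂ) * η ^ i + if a η = c + 1 then η ^ i else 0) := by
          refine Finset.sum_congr rfl fun η hη => ?_
          rcases hTz η hη with h | h <;> rw [h] <;> simp [add_mul]
      _ = ∑ η ∈ U, η ^ i := by rw [Finset.sum_add_distrib, ← Finset.mul_sum, h0, mul_zero, zero_add, Finset.sum_filter]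
  have hU : U.card = r := by
    have h3 : ∑ η ∈ R, a η = s * c + U.card := by
      calc ∑ η ∈ R, a η = ∑ η ∈ R, (c + if a η = c + 1 then 1 else 0) := by
            refine Finset.sum_congr rfl fun η hη => ?_
            rcases hTz η hη with h | h <;> simp [h]
        _ = s * c + U.card := by rw [Finset.sum_add_distrib, Finset.sum_const, hR, smul_eq_mul, ← Finset.card_filter]
    rw [h1] at h3
    have h4 : (n : ℤ) = (s : ℤ) * c + (U.card : ℤ) := by exact_mod_cast h3
    omega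
  rcases hr1 with h | h
  · obtain ⟨θ, hθ⟩ := Finset.card_eq_one.1 (hU.trans h)
    have hθR : θ ∈ R := (Finset.mem_filter.1 (show θ ∈ U by rw [hθ]; simp)).1
    refine ⟨1, θ, c, Or.inl rfl, hRs θ hθR, by rw [hd, h]; rfl, fun i hi => ?_⟩
    rw [hval i hi, hθ]; simp
  · have hcU : (R \ U).card = 1 := by
      rw [Finset.card_sdiff_of_subset (Finset.filter_subset _ _), hR, hU]; omega
    obtain ⟨θ, hθ⟩ := Finset.card_eq_one.1 hcU
    have hθR : θ ∈ R := (Finset.mem_sdiff.1 (show θ ∈ R \ U by rw [hθ]; simp)).1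
    refine ⟨-1, θ, c + 1, Or.inr rfl, hRs θ hθR, by rw [hd, ← h]; push_cast; ring, fun i hi => ?_⟩
    have h0 : ∑ η ∈ R, η ^ i = 0 := by
      rw [Finset.sum_image fun x hx y hy h => hζ.pow_inj (Finset.mem_range.1 hx) (Finset.mem_range.1 hy) h]
      have hne : ζ ^ i ≠ 1 := fun h => hi ((hζ.pow_eq_one_iff_dvd i).1 h)
      calc ∑ x ∈ Finset.range s, (ζ ^ x) ^ i = ∑ x ∈ Finset.range s, (ζ ^ i) ^ x :=
            Finset.sum_congr rfl fun x _ => by rw [← pow_mul, ← pow_mul, mul_comm]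
        _ = 0 := by rw [geom_sum_eq hne, ← pow_mul, mul_comm, pow_mul, hζ.pow_eq_one, one_pow, sub_self, zero_div]
    rw [← Finset.sum_sdiff (Finset.filter_subset (fun η => a η = c + 1) R)] at h0
    change ∑ x ∈ R \ U, x ^ i + ∑ x ∈ U, x ^ i = 0 at h0
    rw [hθ, Finset.sum_singleton] at h0
    rw [hval i hi]
    push_cast
    linear_combination h0

/-- Let the finite group Γ be generated by a normal subgroup G and a cyclic subgroup S of coprime orders such that every non-identity element of S has the same centraliser C = G ⊓ C(S) in G. Let χ be an S-invariant irreducible character of G, χ̂ its canonical extension to Γ (determinantal order coprime to the order of S), and β the irreducible character of C with χ̂(c s) = ε₀ β(c) for c ∈ C and generators s of S (ε₀ = ±1). Then there are a sign ε = ±1, which may differ from ε₀, and a linear character μ of S with μ² = 1, such that: (a) χ̂(c x) = ε β(c) μ(x) for all c ∈ C and all x ∈ S other than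 1; (b) the restriction of χ to C equals |S|·ϑ + ε β for some character ϑ of C or ϑ = 0; (c) |S| divides χ(1) − ε β(1). -/
theorem result {Γ : Type*} [Group Γ] [Fintype Γ] (G S : Subgroup Γ) [Fintype G] (hnorm : ∀ s ∈ S, ∀ g ∈ G, s * g * s⁻¹ ∈ G) (hcop : (Nat.card G).Coprime (Nat.card S)) (htop : G ⊔ S = ⊤) (hcyc : IsCyclic S) (C : Subgroup Γ) [Fintype C] (hC : C = G ⊓ Subgroup.centralizer (S : Set Γ)) (hCG : C ≤ G) (hfpf : ∀ x ∈ S, x ≠ 1 → G ⊓ Subgroup.centralizer ({x} : Set Γ) = C) (χ : Cfsg.IrrCharacter G) (hinv : (∀ s ∈ S, ∀ g g' : G, (g' : Γ) = s * g * s⁻¹ → (χ : G → ℂ) g' = (χ : G → ℂ) g)) (χh : Cfsg.IrrCharacter Γ) (hext : (∀ g : G, (χh : Γ → ℂ) g = (χ : G → ℂ) g)) (hdet : (Cfsg.detOrder (χh : Γ → ℂ)).Coprime (Nat.card S)) (β : Cfsg.IrrCharacter C) (ε₀ : ℤ) (hε₀ : ε₀ = 1 ∨ ε₀ = -1) (hβ : ∀ c : C, ∀ s : Γ, Subgroup.zpowers s = S → (χh : Γ → ℂ) ((c : Γ) * s) = (ε₀ : ℂ) * (β : C → ℂ) c) : ∃ ε : ℤ, (ε = 1 ∨ ε = -1) ∧ (∃ μ : S → ℂ, Cfsg.IsCharacter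 S μ ∧ μ 1 = 1 ∧ (∀ x : S, μ x * μ x = 1) ∧ ∀ c : C, ∀ x : S, x ≠ 1 → (χh : Γ → ℂ) ((c : Γ) * x) = (ε : ℂ) * (β : C → ℂ) c * μ x) ∧ (∃ ϑ : C → ℂ, Cfsg.IsCharacter C ϑ ∧ (fun c : C => (χ : G → ℂ) ⟨c, hCG c.2⟩) = fun c => (Nat.card S : ℂ) * ϑ c + (ε : ℂ) * (β : C → ℂ) c) ∧ (Nat.card S : ℤ) ∣ (Cfsg.charDegree (χ : G → ℂ) : ℤ) - ε * (Cfsg.charDegree (β : C → ℂ) : ℤ) := by
  classical
  haveI : G.Normal := by
    refine Subgroup.normalizer_eq_top_iff.1 (top_le_iff.1 ?_)
    rw [← htop]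
    refine sup_le Subgroup.le_normalizer fun x hx => ?_
    rw [Subgroup.mem_normalizer_iff]
    intro g
    refine ⟨fun hg => hnorm x hx g hg, fun hg => ?_⟩
    have := hnorm x⁻¹ (S.inv_mem hx) _ hg
    simpa [mul_assoc] using this
  obtain ⟨gS, hgS⟩ := hcyc.exists_generator
  obtain ⟨s, hs⟩ : ∃ s, Nat.card S = s := ⟨_, rfl⟩
  have hord : orderOf gS = s := (orderOf_eq_card_of_forall_mem_zpowers hgS).trans hs
  have hgz : Subgroup.zpowers (gS : Γ) = S := by
    ext x
    constructor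
    · rintro ⟨i, rfl⟩; exact S.zpow_mem gS.2 i
    · intro hx
      obtain ⟨i, hi⟩ := hgS ⟨x, hx⟩
      exact ⟨i, by simpa using congrArg Subtype.val hi⟩
  haveI := Fintype.ofFinite S
  let β1 : C → ℂ := (β : C → ℂ)
  rcases Nat.lt_or_ge s 2 with hs2 | hs2
  · -- the trivial case
    have hs1 : s = 1 := by have := Nat.card_pos (α := S); omega
    have hSb : ∀ x : S, x = 1 := fun x => by
      haveI := (Nat.card_eq_one_iff_unique.1 (hs.trans hs1)).1
      exact Subsingleton.elim _ _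
    have hres : (fun c : C => (χ : G → ℂ) ⟨c, hCG c.2⟩) = fun c => (ε₀ : ℂ) * (β : C → ℂ) c := funext fun c => by
      have h := hβ c (gS : Γ) hgz
      rw [hSb gS, OneMemClass.coe_one, mul_one] at h
      rw [← h, ← hext ⟨(c : Γ), hCG c.2⟩]
    have hε : ε₀ = 1 := by
      rcases hε₀ with h | h
      · exact h
      · exfalso
        have h1 := congrFun hres 1
        rw [h] at h1
        have h2 : ((charDegree (χ : G → ℂ) + charDegree (β : C → ℂ) : ℕ) : ℂ) = 0 := by
          push_cast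
          rw [charDegree_cast χ.2.isCharacter', charDegree_cast β.2.isCharacter']
          have e : (⟨((1 : C) : Γ), hCG (1 : C).2⟩ : G) = 1 := Subtype.ext rfl
          simp only [e] at h1
          rw [h1]; push_cast; ring
        have := Nat.cast_eq_zero.1 h2
        have := charDegree_pos χ
        omega
    refine ⟨1, Or.inl rfl, ⟨fun _ => 1, isCharacter_one, rfl, fun _ => one_mul 1, fun c x hx => absurd (hSb x) hx⟩,
      ⟨fun _ => 0, ?_, ?_⟩, by rw [hs, hs1]; exact one_dvd _⟩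
    · exact isCharacter_iff_nat.mpr ⟨fun _ _ => rfl, fun η _ => ⟨0, by simp [classInner]⟩⟩
    · rw [hres, hε]; funext c; simp
  haveI : NeZero s := ⟨by omega⟩
  -- the coefficient characters
  let m : C × S →* Γ :=
    { toFun := fun x => (x.1 : Γ) * (x.2 : Γ)
      map_one' := by simp
      map_mul' := fun x y => by
        have h : (y.1 : Γ) * (x.2 : Γ) = (x.2 : Γ) * (y.1 : Γ) := by
          have hm : (y.1 : Γ) ∈ G ⊓ Subgroup.centralizer (S : Set Γ) := hC ▸ y.1.2
          exact ((Subgroup.mem_centralizer_iff.1 hm.2) _ x.2.2).symm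
        simp only [Prod.fst_mul, Prod.snd_mul, Subgroup.coe_mul]
        calc (x.1 : Γ) * y.1 * ((x.2 : Γ) * y.2) = (x.1 : Γ) * ((y.1 : Γ) * x.2) * y.2 := by group
          _ = _ := by rw [h]; group }
  let N : Subgroup (C × S) := (MonoidHom.snd C S).ker
  haveI := Fintype.ofFinite N
  let f : IrrCharacter C → S → ℂ := fun η x => (Nat.card C : ℂ)⁻¹ * ∑ c : C, (χh : Γ → ℂ) ((c : Γ) * x) * conj ((η : C → ℂ) c)
  have hfchar : ∀ η, IsCharacter S (f η) := by
    intro η
    have hψ : IsCharacter (C × S) (fun x => (χh : Γ → ℂ) (m x)) := isCharacter_comp χh.2.isCharacter' m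
    have hη : IsCharacter (C × S) (fun x : C × S => (η : C → ℂ) x.1) := isCharacter_comp η.2.isCharacter' (MonoidHom.fst C S)
    have h := isCharacter_comp (cosetAvg_isCharacter N hψ hη) (MonoidHom.inr C S)
    convert h using 1
    funext x
    show _ = cosetAvg N _ _ ((1 : C), x)
    rw [cosetAvg_eq]
    let e : C ≃ N :=
      { toFun := fun c => ⟨(c, 1), rfl⟩
        invFun := fun n => (n : C × S).1
        left_inv := fun c => rfl
        right_inv := fun n => Subtype.ext (Prod.ext rfl (n.2 : (n : C × S).2 = 1).symm) }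
    show (Nat.card C : ℂ)⁻¹ * _ = _
    rw [Nat.card_congr e]
    congr 1
    refine Fintype.sum_equiv e _ _ fun c => ?_
    simp [e, m]
  have isCharacter_classFunction_translate : ∀ x : S, IsClassFunction C (fun c : C => (χh : Γ → ℂ) ((c : Γ) * x)) := by
    intro x c d
    have hψ : IsClassFunction (C × S) (fun y => (χh : Γ → ℂ) (m y)) := isCharacter_classFunction (isCharacter_comp χh.2.isCharacter' m)
    simpa [m] using hψ (c, x) (d, (1 : S))
  -- norms
  have hnorm1 : ∀ x : S, x ≠ 1 → ∑ η, ‖f η x‖ ^ 2 = 1 := by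
    intro x hx
    have hx' : (x : Γ) ≠ 1 := fun h => hx (Subtype.ext h)
    have hSle : Subgroup.zpowers (x : Γ) ≤ S := Subgroup.zpowers_le.2 x.2
    have hcop' : (Nat.card G).Coprime (Nat.card (Subgroup.zpowers (x : Γ))) := hcop.coprime_dvd_right (Subgroup.card_dvd_of_le hSle)
    have hC' : C = G ⊓ Subgroup.centralizer ((Subgroup.zpowers (x : Γ) : Subgroup Γ) : Set Γ) := by
      exact (hfpf x x.2 hx').symm.trans (by rw [Subgroup.zpowers_eq_closure, Subgroup.centralizer_closure])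
    have hF : ∀ g ∈ G, ∀ y, (fun y => (χh : Γ → ℂ) y * conj ((χh : Γ → ℂ) y)) (g * y * g⁻¹) = (fun y => (χh : Γ → ℂ) y * conj ((χh : Γ → ℂ) y)) y := fun g _ y => by
      simp only [classFun_isConj (irr_classFunction χh) (isConj_iff.2 ⟨g, rfl⟩ : IsConj y (g * y * g⁻¹))]
    have hsc := CfsgLib.Glauberman.sum_coset hcop' rfl hC' (fun y => (χh : Γ → ℂ) y * conj ((χh : Γ → ℂ) y)) hF
    have hresG : IsIrrCharacter G (fun g : G => (χh : Γ → ℂ) g) := by rw [funext hext]; exact χ.2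
    have hG1 := congrFun (cosetAvg_self G χh.2 hresG) (x : Γ)
    rw [cosetAvg_eq, inv_mul_eq_one₀ (Nat.cast_ne_zero.2 Nat.card_pos.ne')] at hG1
    rw [← hG1, mul_comm (Nat.card C : ℂ)] at hsc
    have hCsum : ∑ c : C, (χh : Γ → ℂ) ((c : Γ) * x) * conj ((χh : Γ → ℂ) ((c : Γ) * x)) = (Nat.card C : ℂ) :=
      (mul_left_cancel₀ (Nat.cast_ne_zero.2 Nat.card_pos.ne') hsc).symm
    let F : C → ℂ := fun c => (χh : Γ → ℂ) ((c : Γ) * x)
    have hFc : IsClassFunction C F := isCharacter_classFunction_translate x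
    have hexp := classFunction_eq_sum F hFc
    have h1 : classInner F F = 1 := by
      rw [classInner, hCsum, inv_mul_cancel₀ (Nat.cast_ne_zero.2 Nat.card_pos.ne')]
    conv_lhs at h1 => arg 1; rw [hexp]
    rw [inner_sum_left] at h1
    have h2 : ∀ η : IrrCharacter C, classInner (classInner F (η : C → ℂ) • (η : C → ℂ)) F = ((‖f η x‖ ^ 2 : ℝ) : ℂ) := fun η => by
      rw [CfsgLib.Char.inner_smul_left, ← CfsgLib.Char.inner_conj_symm F (η : C → ℂ), Complex.mul_conj']
      push_cast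
      rfl
    rw [Finset.sum_congr rfl fun η _ => h2 η, ← Complex.ofReal_sum, Complex.ofReal_eq_one] at h1
    exact h1
  have hle : ∀ η (x : S), x ≠ 1 → ‖f η x‖ ≤ 1 := fun η x hx => by
    have h := Finset.single_le_sum (f := fun η => ‖f η x‖ ^ 2) (fun η _ => sq_nonneg _) (Finset.mem_univ η)
    rw [hnorm1 x hx] at h
    exact (sq_le_one_iff₀ (norm_nonneg _)).1 h
  -- eigenvalues at the generator
  choose d ρ hρ using hfchar
  choose bb ν hb hν hk using fun η => exists_rep_eigenbasis (ρ η) gS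
  have hνs : ∀ η l, ν η l ^ s = 1 := fun η l => hord ▸ hν η l
  have hfi : ∀ η (i : ℕ), f η (gS ^ i) = ∑ l, ν η l ^ i := fun η i => by rw [← hρ η, hk η i]
  have hgi : ∀ i : ℕ, gS ^ i = 1 ↔ s ∣ i := fun i => by rw [← hord]; exact orderOf_dvd_iff_pow_eq_one.symm
  have hzeta := Complex.isPrimitiveRoot_exp s (by omega)
  generalize Complex.exp (2 * Real.pi * Complex.I / s) = ζ at hzeta
  choose ex hex hex' using fun η l => hzeta.eq_pow_of_pow_eq_one (hνs η l)
  have hunit : ∀ η (i : ℕ), ¬ s ∣ i → f η (gS ^ i) ≠ 0 → ‖f η (gS ^ i)‖ = 1 := by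
    intro η i hi hne
    have e : ∀ k : ℕ, ∑ l, (ζ ^ (ex η l * i)) ^ k = f η (gS ^ (i * k)) := fun k => by
      rw [hfi]
      exact Finset.sum_congr rfl fun l _ => by rw [← hex' η l, ← pow_mul, ← pow_mul, mul_assoc]
    have e1 : ∑ l, ζ ^ (ex η l * i) = f η (gS ^ i) := by
      rw [← Nat.mul_one i, ← e 1]
      simp
    rw [← e1]
    refine norm_one_of_le (by omega) hzeta (fun l => ex η l * i) (fun k hk => ?_) (e1 ▸ hne)
    rw [e k]
    refine hle η _ fun h => hi ?_
    exact (Nat.Coprime.symm hk).dvd_of_dvd_mul_right ((hgi _).1 h)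
  -- congruences
  have hstep : ∀ (q : ℕ), q.Prime → ∀ η (i j v : ℕ), ¬ s ∣ i → ¬ s ∣ j → gS ^ ((i : ℤ) - (j : ℤ)) ∈ {y : S | y ^ q ^ v = 1} → f η (gS ^ i) ≠ 0 → f η (gS ^ j) ≠ 0 := by
    intro q hq η i j v hi hj hdiff hne h0
    obtain ⟨M, hM⟩ := exists_isPModular hq
    letI : Field (ResField M) := @Ideal.Quotient.field _ _ M hM.2.1
    haveI := charP_resField hM
    haveI : Fact q.Prime := ⟨hq⟩
    let R := locRing hM
    have hm : ∀ l, ν η l ∈ R := fun l => isIntegral_mem hM (IsIntegral.of_pow (by omega : 0 < s) ((hνs η l).symm ▸ isIntegral_one))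
    have hd1 : gS ^ (i * q ^ v) = gS ^ (j * q ^ v) := by
      have h : (gS ^ ((i : ℤ) - (j : ℤ))) ^ q ^ v = 1 := hdiff
      rw [zpow_sub, zpow_natCast, zpow_natCast] at h
      rw [((Commute.pow_pow_self gS i j).inv_right).mul_pow, inv_pow, mul_inv_eq_one, ← pow_mul, ← pow_mul] at h
      exact h
    have hmod : i * q ^ v ≡ j * q ^ v [MOD s] := hord ▸ pow_eq_pow_iff_modEq.1 hd1
    have heq : ∀ l, res hM ⟨_, R.pow_mem (hm l) i⟩ = res hM ⟨_, R.pow_mem (hm l) j⟩ := by
      intro l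
      have h1 : (ν η l ^ i) ^ q ^ v = (ν η l ^ j) ^ q ^ v := by
        rw [← pow_mul, ← pow_mul, ← Nat.mod_add_div (i * q ^ v) s, ← Nat.mod_add_div (j * q ^ v) s, hmod, pow_add, pow_add, pow_mul, pow_mul, hνs, one_pow, one_pow]
      have h2 : (⟨_, R.pow_mem (hm l) i⟩ : R) ^ q ^ v = (⟨_, R.pow_mem (hm l) j⟩ : R) ^ q ^ v := Subtype.ext (by simpa using h1)
      have h3 := congrArg (res hM) h2
      rw [map_pow, map_pow] at h3
      exact iterateFrobenius_inj (ResField M) q v (by simpa [iterateFrobenius_def] using h3)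
    have hs1 : ∀ i : ℕ, f η (gS ^ i) ∈ R := fun i => by rw [hfi]; exact Subring.sum_mem R fun l _ => R.pow_mem (hm l) i
    have h4 : res hM ⟨_, hs1 i⟩ = res hM ⟨_, hs1 j⟩ := by
      have e : ∀ i, (⟨_, hs1 i⟩ : R) = ∑ l, (⟨_, R.pow_mem (hm l) i⟩ : R) := fun i => Subtype.ext (by simp [hfi])
      rw [e, e, map_sum, map_sum]
      exact Finset.sum_congr rfl fun l _ => heq l
    have hc : conj (f η (gS ^ i)) ∈ R := by
      rw [hfi, map_sum]
      exact Subring.sum_mem R fun l _ => isIntegral_mem hM (map_isIntegral_int (starRingEnd ℂ) ((IsIntegral.of_pow (by omega : 0 < s) ((hνs η l).symm ▸ isIntegral_one)).pow i))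
    have h5 : (⟨_, hs1 i⟩ : R) * ⟨_, hc⟩ = 1 := Subtype.ext (by
      show f η (gS ^ i) * conj (f η (gS ^ i)) = 1
      rw [Complex.mul_conj', hunit η i hi hne]; simp)
    have h6 := congrArg (res hM) h5
    rw [map_mul, h4, show (⟨_, hs1 j⟩ : R) = 0 from Subtype.ext h0, map_zero, zero_mul, map_one] at h6
    exact zero_ne_one h6
  have hgen1 : f β (gS ^ 1) = (ε₀ : ℂ) := by
    show (Nat.card C : ℂ)⁻¹ * _ = _
    have h := irr_inner_self β.2
    rw [classInner] at h
    rw [pow_one, Finset.sum_congr rfl fun c _ => by rw [hβ c _ hgz, mul_assoc], ← Finset.mul_sum, mul_left_comm, h, mul_one]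
  have hall : ∀ i : ℕ, ¬ s ∣ i → f β (gS ^ i) ≠ 0 := by
    have hrec : ∀ d : ℕ, ∀ a b : ℕ, d ∣ s → a ≡ b [MOD s / d] → (∀ c : ℕ, c ≡ a [MOD s / d] → ¬ s ∣ c) → f β (gS ^ a) ≠ 0 → f β (gS ^ b) ≠ 0 := by
      intro d
      induction d using Nat.strong_induction_on with
      | _ d ih =>
        intro a b hd hab hnd ha
        rcases Nat.eq_or_lt_of_le (Nat.one_le_iff_ne_zero.2 (fun h => by subst h; rw [zero_dvd_iff] at hd; omega) : 1 ≤ d) with h1 | h1
        · subst h1
          rw [Nat.div_one] at hab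
          rwa [pow_eq_pow_iff_modEq.2 (hord.symm ▸ hab.symm)]
        · obtain ⟨q, hq, hqd⟩ := Nat.exists_prime_and_dvd h1.ne'
          haveI : Fact q.Prime := ⟨hq⟩
          obtain ⟨d', rfl⟩ := hqd
          -- split off the full power of `q`
          obtain ⟨v, t', ht', hs'⟩ := Nat.exists_eq_pow_mul_and_not_dvd (show s ≠ 0 by omega) q hq.ne_one
          have hcop' : (q ^ v).Coprime t' := (hq.coprime_iff_not_dvd.2 ht').pow_left v
          obtain ⟨c, hc1, hc2⟩ := Nat.chineseRemainder hcop' b a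
          have hd0 : 0 < d' := Nat.pos_of_ne_zero fun h => by subst h; omega
          have hsd : s / (q * d') ∣ s := Nat.div_dvd_of_dvd hd
          have hca : c ≡ a [MOD s / (q * d')] := by
            have h1' := (hc1.of_dvd (Nat.gcd_dvd_right (s / (q * d')) (q ^ v))).trans
              ((hab.of_dvd (Nat.gcd_dvd_left (s / (q * d')) (q ^ v))).symm)
            have h2' := hc2.of_dvd (Nat.gcd_dvd_right (s / (q * d')) t')
            have h3 := (Nat.modEq_and_modEq_iff_modEq_mul ((hcop'.coprime_dvd_left (Nat.gcd_dvd_right _ _)).coprime_dvd_right (Nat.gcd_dvd_right _ _))).1 ⟨h1', h2'⟩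
            rwa [← Nat.Coprime.gcd_mul (s / (q * d')) hcop', Nat.gcd_eq_left (hs' ▸ hsd)] at h3
          have hcn : f β (gS ^ c) ≠ 0 := by
            refine hstep q hq β a c v (hnd a rfl) (hnd c hca) ?_ ha
            show (gS ^ ((a : ℤ) - (c : ℤ))) ^ q ^ v = 1
            rw [zpow_sub, zpow_natCast, zpow_natCast, ((Commute.pow_pow_self gS a c).inv_right).mul_pow, inv_pow,
              mul_inv_eq_one, ← pow_mul, ← pow_mul, pow_eq_pow_iff_modEq, hord, hs', mul_comm a, mul_comm c]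
            exact (hc2.symm).mul_left' (q ^ v)
          refine ih d' (lt_mul_of_one_lt_left hd0 hq.one_lt) c b (dvd_trans (dvd_mul_left _ _) hd) ?_ ?_ hcn
          · have hb1 : c ≡ b [MOD s / (q * d')] := hca.trans hab
            have h1' := hc1.of_dvd (Nat.gcd_dvd_right (s / d') (q ^ v))
            have h2' : c ≡ b [MOD Nat.gcd (s / d') t'] := by
              refine hb1.of_dvd ?_
              have hcp : (Nat.gcd (s / d') t').Coprime q := (hq.coprime_iff_not_dvd.2 ht').symm.coprime_dvd_left (Nat.gcd_dvd_right _ _)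
              refine hcp.dvd_of_dvd_mul_left ?_
              have e : q * (s / (q * d')) = s / d' := by
                rw [← Nat.mul_div_assoc q hd, Nat.mul_div_mul_left _ _ hq.pos]
              rw [e]; exact Nat.gcd_dvd_left _ _
            have h3 := (Nat.modEq_and_modEq_iff_modEq_mul ((hcop'.coprime_dvd_left (Nat.gcd_dvd_right _ _)).coprime_dvd_right (Nat.gcd_dvd_right _ _))).1 ⟨h1', h2'⟩
            rwa [← Nat.Coprime.gcd_mul (s / d') hcop', Nat.gcd_eq_left (hs' ▸ Nat.div_dvd_of_dvd (dvd_trans (dvd_mul_left _ _) hd))] at h3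
          · intro c' hc'
            refine hnd c' ((hc'.of_dvd ?_).trans hca)
            exact Nat.div_dvd_div_left hd (dvd_mul_left _ _)
    intro i hi
    obtain ⟨q, hq, v, hqv, hqi⟩ : ∃ q : ℕ, q.Prime ∧ ∃ v : ℕ, q ^ v ∣ s ∧ ¬ q ^ v ∣ i := by
      by_contra hno
      push Not at hno
      apply hi
      rcases Nat.eq_zero_or_pos i with h | h
      · subst h; exact dvd_zero s
      exact (Nat.factorization_le_iff_dvd (by omega) h.ne').1 fun q => by
        by_cases hq : q.Prime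
        · exact (hq.pow_dvd_iff_le_factorization h.ne').1 (hno q hq _ (Nat.ordProj_dvd s q))
        · simp [Nat.factorization_eq_zero_of_not_prime _ hq]
    obtain ⟨V, t, ht, hst⟩ := Nat.exists_eq_pow_mul_and_not_dvd (show s ≠ 0 by omega) q hq.ne_one
    have hvV : q ^ v ∣ q ^ V := (((hq.coprime_iff_not_dvd.2 ht).pow_left v)).dvd_of_dvd_mul_right (hst ▸ hqv)
    have hcop' : (q ^ V).Coprime t := (hq.coprime_iff_not_dvd.2 ht).pow_left V
    obtain ⟨j, hj1, hj2⟩ := Nat.chineseRemainder hcop' i 1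
    have hs1 : ¬ s ∣ 1 := fun h => by have := Nat.le_of_dvd one_pos h; omega
    have hnj : ∀ c : ℕ, c ≡ i [MOD q ^ V] → ¬ s ∣ c := fun c hc hsc => hqi (hvV.trans ((hc.dvd_iff dvd_rfl).1 ((hst ▸ dvd_mul_right (q ^ V) t).trans hsc)))
    have hj : f β (gS ^ j) ≠ 0 := by
      refine hstep q hq β 1 j V hs1 (hnj j hj1) ?_ (by rw [hgen1]; rcases hε₀ with h | h <;> simp [h])
      show (gS ^ (((1 : ℕ) : ℤ) - (j : ℤ))) ^ q ^ V = 1
      rw [zpow_sub, zpow_natCast, zpow_natCast, ((Commute.pow_pow_self gS 1 j).inv_right).mul_pow, inv_pow,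
        mul_inv_eq_one, ← pow_mul, ← pow_mul, pow_eq_pow_iff_modEq, hord, hst, mul_comm 1, mul_comm j]
      exact (hj2.symm).mul_left' (q ^ V)
    have hdiv : s / t = q ^ V := by rw [hst, Nat.mul_div_cancel _ (Nat.pos_of_ne_zero fun h => ht (by rw [h]; exact dvd_zero q))]
    refine hrec t j i (hst ▸ dvd_mul_left t (q ^ V)) (by rw [hdiv]; exact hj1) ?_ hj
    rw [hdiv]
    exact fun c hc => hnj c (hc.trans hj1)
  have hpow : ∀ x : S, ∃ i : ℕ, gS ^ i = x := fun x => by
    obtain ⟨i, hi⟩ := (mem_powers_iff_mem_zpowers.2 (hgS x))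
    exact ⟨i, hi⟩
  -- only `β` occurs away from the identity
  have hzero : ∀ η, η ≠ β → ∀ x : S, x ≠ 1 → f η x = 0 := by
    intro η hne x hx
    obtain ⟨i, rfl⟩ := hpow x
    have hi : ¬ s ∣ i := fun h => hx ((hgi i).2 h)
    have h := hnorm1 _ hx
    rw [← Finset.add_sum_erase _ _ (Finset.mem_univ β), hunit β i hi (hall i hi), one_pow, add_eq_left] at h
    have h1 := (Finset.sum_eq_zero_iff_of_nonneg fun _ _ => sq_nonneg _).1 h η (Finset.mem_erase.2 ⟨hne, Finset.mem_univ _⟩)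
    exact norm_eq_zero.1 (pow_eq_zero_iff two_ne_zero |>.1 h1)
  obtain ⟨ε, θ, c0, hε, hθ, hn0, hsh⟩ := shape hs2 hzeta (ν β) (hνs β) (fun i hi hi0 => by
    have hns : ¬ s ∣ i := fun h => by have := Nat.le_of_dvd (Nat.pos_of_ne_zero hi0) h; omega
    rw [← hfi, Complex.mul_conj', hunit β i hns (hall i hns)]; simp)
  have hθ2 : θ * θ = 1 := by
    have hns : ¬ s ∣ 1 := fun h => by have := Nat.le_of_dvd one_pos h; omega
    have h := hsh 1 hns
    rw [← hfi, hgen1, pow_one] at h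
    rcases hε₀ with h0 | h0 <;> rcases hε with h1 | h1 <;> rw [h0, h1] at h <;> push_cast at h
    · rw [one_mul] at h; rw [← h, one_mul]
    · have : θ = -1 := by linear_combination h
      rw [this]; ring
    · have : θ = -1 := by linear_combination -h
      rw [this]; ring
    · have : θ = 1 := by linear_combination h
      rw [this]; ring
  have hsum : ∀ (c : C) (x : S), (χh : Γ → ℂ) ((c : Γ) * x) = ∑ η, f η x * (η : C → ℂ) c := by
    intro c x
    let F : C → ℂ := fun c => (χh : Γ → ℂ) ((c : Γ) * x)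
    have hFc : IsClassFunction C F := isCharacter_classFunction_translate x
    have h := congrFun (classFunction_eq_sum F hFc) c
    simp only [Finset.sum_apply, Pi.smul_apply, smul_eq_mul] at h
    exact h
  -- the linear character
  let lu : ℂˣ := ⟨θ, θ, hθ2, hθ2⟩
  have hmu : ∃ L : S →* ℂˣ, ∀ i : ℕ, L (gS ^ i) = lu ^ i := by
    choose idx hidx using hpow
    have key : ∀ a b : ℕ, gS ^ a = gS ^ b → lu ^ a = lu ^ b := fun a b h => by
      have h1 : lu ^ s = 1 := Units.ext (by rw [Units.val_pow_eq_pow_val]; exact hθ)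
      have hm : a ≡ b [MOD s] := hord ▸ pow_eq_pow_iff_modEq.1 h
      rw [← Nat.mod_add_div a s, ← Nat.mod_add_div b s, hm, pow_add, pow_add, pow_mul, pow_mul, h1, one_pow, one_pow]
    exact ⟨MonoidHom.mk' (fun x => lu ^ idx x) (fun x y => by
      rw [← pow_add]; exact key _ _ (by rw [hidx, pow_add, hidx, hidx])), fun i => key _ _ (hidx _)⟩
  obtain ⟨L, hL⟩ := hmu
  have hsq : ∀ x : S, ((L x : ℂˣ) : ℂ) * (L x : ℂ) = 1 := fun x => by
    obtain ⟨i, rfl⟩ := hpow x
    rw [hL, Units.val_pow_eq_pow_val, ← mul_pow, show ((lu : ℂˣ) : ℂ) * (lu : ℂ) = 1 from hθ2, one_pow]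
  -- multiplicities at the identity
  choose nn hnn using fun η => exists_degree (⟨d η, ρ η, hρ η⟩ : IsCharacter S (f η))
  have hdiv : ∀ η, η ≠ β → s ∣ nn η := by
    intro η hne
    obtain ⟨k, hk'⟩ := inner_character_nat (⟨d η, ρ η, hρ η⟩ : IsCharacter S (f η)) (isCharacter_one (G := S))
    rw [classInner, Finset.sum_eq_single (1 : S) (fun x _ hx => by rw [hzero η hne x hx, zero_mul]) (fun h => absurd (Finset.mem_univ _) h), hnn, hs] at hk'
    simp only [map_one, mul_one] at hk'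
    rw [inv_mul_eq_iff_eq_mul₀ (Nat.cast_ne_zero.2 (by omega))] at hk'
    exact ⟨k, by exact_mod_cast hk'⟩
  choose q hq using hdiv
  have hnβ : (nn β : ℤ) = (s : ℤ) * c0 + ε := by
    rw [← hn0]
    have h := hnn β
    rw [← hρ β, (ρ β).char_one] at h
    exact_mod_cast h.symm
  refine ⟨ε, hε, ⟨fun x => (L x : ℂ), (isIrrCharacter_hom L).isCharacter', by simp, hsq, fun c x hx => ?_⟩,
    ⟨fun c => ∑ η : IrrCharacter C, (if h : η ≠ β then (q η h : ℂ) else (c0 : ℂ)) * (η : C → ℂ) c, ?_, ?_⟩, ?_⟩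
  · rw [hsum, Finset.sum_eq_single β (fun η _ hne => by rw [hzero η hne x hx, zero_mul]) (fun h => absurd (Finset.mem_univ _) h)]
    obtain ⟨i, rfl⟩ := hpow x
    rw [hfi, hsh i (fun h => hx ((hgi i).2 h))]
    show _ = (ε : ℂ) * _ * ((L (gS ^ i) : ℂˣ) : ℂ)
    rw [hL, Units.val_pow_eq_pow_val]
    show _ = (ε : ℂ) * _ * θ ^ i
    ring
  · refine isCharacter_iff_nat.mpr ⟨fun g x => ?_, fun η hη => ⟨if h : (⟨η, hη⟩ : IrrCharacter C) ≠ β then q _ h else c0, ?_⟩⟩
    · exact Finset.sum_congr rfl fun η' _ => by rw [irr_classFunction η' g x]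
    · rw [show (fun c : C => ∑ η' : IrrCharacter C, (if h : η' ≠ β then (q η' h : ℂ) else (c0 : ℂ)) * (η' : C → ℂ) c) = ∑ η' : IrrCharacter C, (if h : η' ≠ β then (q η' h : ℂ) else (c0 : ℂ)) • (η' : C → ℂ) from funext fun c => by simp only [Finset.sum_apply, Pi.smul_apply, smul_eq_mul],
        inner_sum_left]
      simp only [CfsgLib.Char.inner_smul_left]
      rw [Finset.sum_eq_single (⟨η, hη⟩ : IrrCharacter C)]
      · rw [irr_inner_self hη, mul_one]; split_ifs <;> rfl
      · intro η' _ hne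
        rw [irr_inner_ne η'.2 hη (fun h => hne (Subtype.ext h)), mul_zero]
      · intro h; exact absurd (Finset.mem_univ _) h
  · funext c
    have h := hsum c 1
    rw [OneMemClass.coe_one, mul_one] at h
    rw [← hext ⟨(c : Γ), hCG c.2⟩]
    show (χh : Γ → ℂ) (c : Γ) = _
    rw [h, hs, Finset.mul_sum]
    rw [← Finset.add_sum_erase _ _ (Finset.mem_univ β), ← Finset.add_sum_erase _ (fun η => (s : ℂ) * ((if h : η ≠ β then (q η h : ℂ) else (c0 : ℂ)) * (η : C → ℂ) c)) (Finset.mem_univ β)]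
    have hb : f β 1 = (s : ℂ) * c0 + ε := by rw [hnn]; exact_mod_cast congrArg (fun z : ℤ => (z : ℂ)) hnβ
    rw [hb, dif_neg (not_not.2 rfl), Finset.sum_congr rfl fun η hη => show f η 1 * (η : C → ℂ) c = (s : ℂ) * ((if h : η ≠ β then (q η h : ℂ) else (c0 : ℂ)) * (η : C → ℂ) c) by
      have hne := (Finset.mem_erase.1 hη).1
      rw [dif_pos hne, hnn, hq η hne]; push_cast; ring]
    ring
  · choose dC hdC using fun η : IrrCharacter C => exists_degree η.2.isCharacter'
    have h := hsum 1 1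
    rw [OneMemClass.coe_one, OneMemClass.coe_one, mul_one, show (χh : Γ → ℂ) 1 = (χ : G → ℂ) 1 from hext 1, ← charDegree_cast χ.2.isCharacter'] at h
    simp only [hnn, hdC] at h
    have h' : (charDegree (χ : G → ℂ) : ℤ) = ∑ η : IrrCharacter C, (nn η : ℤ) * (dC η : ℤ) := by exact_mod_cast h
    have hdβ : (charDegree (β : C → ℂ) : ℤ) = (dC β : ℤ) := by
      have h9 := (charDegree_cast β.2.isCharacter').trans (hdC β)
      exact_mod_cast h9
    rw [h', hs, hdβ, ← Finset.add_sum_erase _ _ (Finset.mem_univ β), hnβ]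
    have e : ((s : ℤ) * c0 + ε) * (dC β : ℤ) + ∑ η ∈ Finset.univ.erase β, (nn η : ℤ) * (dC η : ℤ) - ε * (dC β : ℤ)
        = (s : ℤ) * (c0 * dC β) + ∑ η ∈ Finset.univ.erase β, (nn η : ℤ) * (dC η : ℤ) := by ring
    rw [e]
    refine dvd_add (dvd_mul_right _ _) (Finset.dvd_sum fun η hη => ?_)
    rw [hq η (Finset.mem_erase.1 hη).1]
    exact Dvd.dvd.mul_right (by push_cast; exact dvd_mul_right _ _) _


end Cfsg.Agent.S4451
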