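import Cfsg.Statements.S4452
import Cfsg.Agent.Lib.BlockGlaubermanSub
import Cfsg.Agent.Lib.BlockCoprimeExt

set_option autoImplicit false
open Cfsg
open CfsgLib.Block CfsgLib.Char CfsgLib.Glauberman
open scoped Classical


namespace Cfsg.Agent.S4452

/-- Let the finite group G be the product of a normal subgroup K and a solvable subgroup H of coprime orders, and let N = N_G(H). Then the number of irreducible characters of G of degree coprime to the order of H equals the number of irreducible characters of N of degree coprime to the order of H. (The two sets are in fact in a canonical bijection; only the equality of their sizes is stated here.) -/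
theorem result {G : Type*} [Group G] [Finite G] (K H : Subgroup G) [K.Normal] (hKH : K ⊔ H = ⊤) (hcop : (Nat.card K).Coprime (Nat.card H)) (hsolv : Group.IsSolvable H) : Nat.card {χ : Cfsg.IrrCharacter G // (Cfsg.charDegree (χ : G → ℂ)).Coprime (Nat.card H)} = Nat.card {η : Cfsg.IrrCharacter (Subgroup.normalizer (H : Set G)) // (Cfsg.charDegree (η : Subgroup.normalizer (H : Set G) → ℂ)).Coprime (Nat.card H)} := by
  haveI := Fintype.ofFinite G
  obtain ⟨N, hN⟩ : ∃ N : Subgroup G, N = Subgroup.normalizer (H : Set G) := ⟨_, rfl⟩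
  rw [← hN]
  have hKn : K.Normal := inferInstance
  have hHN : H ≤ N := hN ▸ Subgroup.le_normalizer
  have hinf : ∀ x, x ∈ K → x ∈ H → x = 1 := fun x hx hx' =>
    Subgroup.mem_bot.1 ((Subgroup.disjoint_def.1 (disjoint_iff.2 (CfsgLib.Core.inf_eq_bot_of_coprime hcop)) hx hx').symm ▸ Subgroup.mem_bot.2 rfl)
  have hdec : ∀ g : G, ∃ k ∈ K, ∃ h ∈ H, k * h = g := fun g => by
    have hg : g ∈ ((K ⊔ H : Subgroup G) : Set G) := by rw [hKH]; exact Subgroup.mem_top g
    rw [Subgroup.normal_mul] at hg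
    exact Set.mem_mul.1 hg
  have hnorm : ∀ s ∈ H, ∀ g ∈ K, s * g * s⁻¹ ∈ K := fun s _ g hg => hKn.conj_mem g hg s
  let f : H →* G ⧸ K := (QuotientGroup.mk' K).comp H.subtype
  have hf : Function.Bijective f := by
    refine ⟨(injective_iff_map_eq_one f).2 fun x hx =>
      Subtype.ext (hinf _ ((QuotientGroup.eq_one_iff _).1 hx) x.2), fun q => ?_⟩
    obtain ⟨g, rfl⟩ := QuotientGroup.mk'_surjective K q
    obtain ⟨k, hk, h, hh, rfl⟩ := hdec g
    refine ⟨⟨h, hh⟩, ?_⟩
    show (QuotientGroup.mk' K) h = (QuotientGroup.mk' K) (k * h)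
    rw [map_mul, show (QuotientGroup.mk' K) k = 1 from (QuotientGroup.eq_one_iff k).2 hk, one_mul]
  have hidx : K.index = Nat.card H := by
    rw [Subgroup.index_eq_card]
    exact (Nat.card_eq_of_bijective f hf).symm
  set K' := K.subgroupOf N with hK'
  have hgood := good (conjOn K H hnorm) hsolv hcop
  have hcomm : ∀ c ∈ K, c ∈ N → ∀ h ∈ H, h * c = c * h := by
    intro c hc hcN h hh
    rw [hN] at hcN
    have h1 : c * h * c⁻¹ * h⁻¹ ∈ H := mul_mem ((Subgroup.mem_normalizer_iff.1 hcN h).1 hh) (inv_mem hh)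
    have h2 : c * h * c⁻¹ * h⁻¹ ∈ K := by
      have e : c * h * c⁻¹ * h⁻¹ = c * (h * c⁻¹ * h⁻¹) := by group
      rw [e]
      exact mul_mem hc (hKn.conj_mem _ (inv_mem hc) h)
    have h3 := hinf _ h2 h1
    calc h * c = (c * h * c⁻¹ * h⁻¹)⁻¹ * (c * h) := by group
      _ = c * h := by rw [h3, inv_one, one_mul]
  have hdecN : ∀ n : N, ∃ k : K', ∃ h : G, h ∈ H ∧ ((k : N) : G) * h = (n : G) := by
    intro n
    obtain ⟨k, hk, h, hh, e⟩ := hdec n
    have hkN : k ∈ N := by
      rw [show k = (n : G) * h⁻¹ by rw [← e]; group]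
      exact mul_mem n.2 (inv_mem (hHN hh))
    exact ⟨⟨⟨k, hkN⟩, Subgroup.mem_subgroupOf.2 hk⟩, h, hh, e⟩
  let f' : H →* ↥N ⧸ K' := (QuotientGroup.mk' K').comp (Subgroup.inclusion hHN)
  have hf' : Function.Bijective f' := by
    refine ⟨(injective_iff_map_eq_one f').2 fun x hx => Subtype.ext
      (hinf _ (Subgroup.mem_subgroupOf.1 ((QuotientGroup.eq_one_iff (Subgroup.inclusion hHN x)).1 hx)) x.2), fun q => ?_⟩
    obtain ⟨g, rfl⟩ := QuotientGroup.mk'_surjective K' q
    obtain ⟨k, h, hh, e⟩ := hdecN g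
    refine ⟨⟨h, hh⟩, ?_⟩
    show (QuotientGroup.mk' K') (Subgroup.inclusion hHN ⟨h, hh⟩) = (QuotientGroup.mk' K') g
    have e' : (k : N) * Subgroup.inclusion hHN ⟨h, hh⟩ = g := Subtype.ext e
    rw [← e', map_mul, show (QuotientGroup.mk' K') (k : N) = 1 from (QuotientGroup.eq_one_iff _).2 k.2, one_mul]
  have hidx' : K'.index = Nat.card H := by
    rw [Subgroup.index_eq_card]
    exact (Nat.card_eq_of_bijective f' hf').symm
  have hcard' : Nat.card K' ∣ Nat.card K := by
    have h := Subgroup.card_subgroup_dvd_card ((K.subgroupOf N).map N.subtype |>.subgroupOf K)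
    rw [Nat.card_congr (Subgroup.subgroupOfEquivOfLe (show (K.subgroupOf N).map N.subtype ≤ K by
      rintro _ ⟨x, hx, rfl⟩; exact Subgroup.mem_subgroupOf.1 hx)).toEquiv,
      Subgroup.card_subtype] at h
    exact h
  let e : fix (conjOn K H hnorm) ≃* K' :=
    { toFun := fun c => ⟨⟨((c : K) : G), by
          rw [hN]
          refine Subgroup.centralizer_le_normalizer (H : Set G) ?_
          exact ((mem_fix_conjOn K H hnorm c).1 c.2).2⟩, Subgroup.mem_subgroupOf.2 (c : K).2⟩
      invFun := fun c => ⟨⟨((c : N) : G), Subgroup.mem_subgroupOf.1 c.2⟩, (mem_fix_conjOn K H hnorm _).2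
        ⟨Subgroup.mem_subgroupOf.1 c.2, Subgroup.mem_centralizer_iff.2 fun h hh =>
          hcomm _ (Subgroup.mem_subgroupOf.1 c.2) (c : N).2 h hh⟩⟩
      left_inv := fun c => rfl
      right_inv := fun c => rfl
      map_mul' := fun a b => rfl }
  have hallinv : ∀ θ : Cfsg.IrrCharacter K', InvNormal K' (θ : K' → ℂ) := by
    intro θ g k
    obtain ⟨c, h, hh, hg⟩ := hdecN g
    rw [← irr_classFunction θ k c]
    refine congrArg (θ : K' → ℂ) ?_
    apply Subtype.ext
    apply Subtype.ext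
    show (g : G) * ((k : N) : G) * (g : G)⁻¹ = ((c : N) : G) * ((k : N) : G) * ((c : N) : G)⁻¹
    rw [← hg]
    have := hcomm _ (Subgroup.mem_subgroupOf.1 k.2) (k : N).2 h hh
    rw [mul_inv_rev, mul_assoc ((c : N) : G) h, this]
    group
  have hl : Nat.card (G ⧸ K →* ℂˣ) = Nat.card (↥N ⧸ K' →* ℂˣ) :=
    (Nat.card_congr (MulEquiv.monoidHomCongrLeftEquiv (MulEquiv.ofBijective f hf))).symm.trans
      (Nat.card_congr (MulEquiv.monoidHomCongrLeftEquiv (MulEquiv.ofBijective f' hf')))
  have h1 := card_coprime_degree K (by rw [hidx]; exact hcop)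
  have h2 := card_coprime_degree K' (by rw [hidx']; exact hcop.coprime_dvd_left hcard')
  rw [hidx] at h1
  rw [hidx'] at h2
  rw [h1, h2, hl]
  congr 1
  rw [Nat.card_congr (Equiv.subtypeUnivEquiv hallinv)]
  have hinvK : ∀ θ : Cfsg.IrrCharacter K, InvNormal K (θ : K → ℂ) ↔ Inv (conjOn K H hnorm) (θ : K → ℂ) := by
    intro θ
    refine ⟨fun h s k => h s k, fun h g k => ?_⟩
    obtain ⟨c, hc, s, hs, rfl⟩ := hdec g
    rw [← h ⟨s, hs⟩ k, ← irr_classFunction θ (conjOn K H hnorm ⟨s, hs⟩ k) ⟨c, hc⟩]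
    refine congrArg (θ : K → ℂ) ?_
    apply Subtype.ext
    show c * s * (k : G) * (c * s)⁻¹ = c * (s * (k : G) * s⁻¹) * c⁻¹
    group
  rw [Nat.card_congr (Equiv.subtypeEquivRight hinvK), hgood.count]
  exact Nat.card_congr
    { toFun := fun β => ⟨(β : fix (conjOn K H hnorm) → ℂ) ∘ e.symm, isIrrCharacter_comp_equiv β.2 e.symm⟩
      invFun := fun β => ⟨(β : K' → ℂ) ∘ e, isIrrCharacter_comp_equiv β.2 e⟩
      left_inv := fun β => Subtype.ext (funext fun c => by simp)
      right_inv := fun β => Subtype.ext (funext fun c => by simp) }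

end Cfsg.Agent.S4452
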