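import Cfsg.Statements.S4454
import Cfsg.Agent.Lib.CharGallagher
import Cfsg.Agent.Lib.CharClifford
import Cfsg.Agent.Lib.CharLinear
import Cfsg.Agent.Lib.BlockRegular
import Mathlib.RingTheory.RootsOfUnity.Complex

set_option autoImplicit false
set_option maxHeartbeats 400000
open Cfsg

namespace Cfsg.Agent.S4454

open CfsgLib.Char CfsgLib.Block
open scoped ComplexConjugate

/-- a multiset of `e` roots of unity with prescribed second moment -/
theorem pm_one {s e : ℕ} (hs : 2 ≤ s) (μ : Fin e → ℂ) (hμ : ∀ l, μ l ^ s = 1)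
    (hn : ∀ i : ℕ, i < s → i ≠ 0 → (∑ l, μ l ^ i) * conj (∑ l, μ l ^ i) = 1) :
    (s : ℤ) ∣ (e : ℤ) - 1 ∨ (s : ℤ) ∣ (e : ℤ) + 1 := by
  classical
  have hs0 : s ≠ 0 := by omega
  haveI : NeZero s := ⟨hs0⟩
  let R := (Finset.range s).image fun i => Complex.exp (2 * Real.pi * Complex.I / s) ^ i
  have hζ := Complex.isPrimitiveRoot_exp s hs0
  have hR : R.card = s := by
    rw [Finset.card_image_of_injOn, Finset.card_range]
    intro i hi j hj h
    exact hζ.pow_inj (Finset.mem_range.1 hi) (Finset.mem_range.1 hj) h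
  have hmem : ∀ l, μ l ∈ R := fun l => by
    obtain ⟨i, hi, h⟩ := hζ.eq_pow_of_pow_eq_one (hμ l)
    exact Finset.mem_image.2 ⟨i, Finset.mem_range.2 hi, h⟩
  let a : ℂ → ℕ := fun η => (Finset.univ.filter fun l => μ l = η).card
  have h1 : ∑ η ∈ R, a η = e := by
    rw [← Finset.card_eq_sum_card_fiberwise (fun l _ => hmem l), Finset.card_univ, Fintype.card_fin]
  have hgeo : ∀ l l', ∑ i ∈ Finset.range s, (μ l * conj (μ l')) ^ i = if μ l = μ l' then (s : ℂ) else 0 := by
    intro l l'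
    have hu : μ l' * conj (μ l') = 1 := by
      rw [Complex.mul_conj', Complex.norm_eq_one_of_pow_eq_one (hμ l') hs0]; simp
    split_ifs with h
    · rw [h, hu]; simp
    · have hne : μ l * conj (μ l') ≠ 1 := fun h2 => h (by
        calc μ l = μ l * (μ l' * conj (μ l')) := by rw [hu, mul_one]
          _ = μ l * conj (μ l') * μ l' := by ring
          _ = μ l' := by rw [h2, one_mul])
      rw [geom_sum_eq hne, mul_pow, ← map_pow, hμ, hμ, map_one, one_mul, sub_self, zero_div]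
  have h2 : ((s * ∑ η ∈ R, a η * a η : ℕ) : ℂ) = ((e * e + (s - 1) : ℕ) : ℂ) := by
    have e1 : ∑ i ∈ Finset.range s, (∑ l, μ l ^ i) * conj (∑ l, μ l ^ i) = ((s * ∑ η ∈ R, a η * a η : ℕ) : ℂ) := by
      calc ∑ i ∈ Finset.range s, (∑ l, μ l ^ i) * conj (∑ l, μ l ^ i)
          = ∑ l, ∑ l', ∑ i ∈ Finset.range s, (μ l * conj (μ l')) ^ i := by
            simp only [map_sum, map_pow, Finset.sum_mul_sum, mul_pow]
            rw [Finset.sum_comm]
            exact Finset.sum_congr rfl fun l _ => Finset.sum_comm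
        _ = ∑ l, ((s * a (μ l) : ℕ) : ℂ) := by
            refine Finset.sum_congr rfl fun l _ => ?_
            rw [Finset.sum_congr rfl fun l' _ => hgeo l l', ← Finset.sum_filter, Finset.sum_const, nsmul_eq_mul]
            simp only [a, eq_comm]
            push_cast; ring
        _ = _ := by
            rw [← Nat.cast_sum]
            congr 1
            rw [← Finset.sum_fiberwise_of_maps_to (fun l _ => hmem l) (fun l => s * a (μ l)), Finset.mul_sum]
            refine Finset.sum_congr rfl fun η _ => ?_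
            rw [Finset.sum_congr rfl fun l hl => by rw [(Finset.mem_filter.1 hl).2], Finset.sum_const, smul_eq_mul]
            simp only [a]; ring
    rw [← e1, Finset.range_eq_Ico, Finset.sum_eq_sum_Ico_succ_bot (Nat.pos_of_ne_zero hs0),
      Finset.sum_congr rfl fun i hi => hn i (Finset.mem_Ico.1 hi).2 (by have := (Finset.mem_Ico.1 hi).1; omega)]
    simp
  have h2' : s * (∑ η ∈ R, a η * a η) = e * e + (s - 1) := by exact_mod_cast h2
  have hd : (e : ℤ) = (s : ℤ) * ((e / s : ℕ) : ℤ) + ((e % s : ℕ) : ℤ) := by exact_mod_cast (Nat.div_add_mod e s).symm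
  have hlt : e % s < s := Nat.mod_lt _ (by omega)
  generalize hc : ((e / s : ℕ) : ℤ) = c at hd
  generalize hr : e % s = r at hd hlt
  have hpos : 0 ≤ ∑ η ∈ R, ((a η : ℤ) - c) * ((a η : ℤ) - c - 1) := by
    refine Finset.sum_nonneg fun η _ => ?_
    rcases le_or_gt (a η : ℤ) c with h | h
    · exact mul_nonneg_of_nonpos_of_nonpos (by omega) (by omega)
    · exact mul_nonneg (by omega) (by omega)
  have hexp : (s : ℤ) * ∑ η ∈ R, ((a η : ℤ) - c) * ((a η : ℤ) - c - 1) =
      ((e * e + (s - 1) : ℕ) : ℤ) - (s : ℤ) * (2 * c + 1) * (e : ℤ) + (s : ℤ) * (s : ℤ) * (c * (c + 1)) := by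
    rw [← h2', ← h1]
    push_cast
    have e3 : ∀ η, ((a η : ℤ) - c) * ((a η : ℤ) - c - 1) = (a η : ℤ) * a η - (2 * c + 1) * a η + c * (c + 1) := fun η => by ring
    rw [Finset.sum_congr rfl fun η _ => e3 η, Finset.sum_add_distrib, Finset.sum_sub_distrib, ← Finset.mul_sum,
      Finset.sum_const, nsmul_eq_mul, hR]
    ring
  have hkey : (r : ℤ) * ((s : ℤ) - r) ≤ (s : ℤ) - 1 := by
    have h3 : (0 : ℤ) ≤ (s : ℤ) * ∑ η ∈ R, ((a η : ℤ) - c) * ((a η : ℤ) - c - 1) := mul_nonneg (Int.natCast_nonneg _) hpos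
    rw [hexp, Nat.cast_add, Nat.cast_mul, Nat.cast_sub (by omega), hd] at h3
    push_cast at h3
    nlinarith
  have hr0 : r ≠ 0 := by
    intro h
    subst h
    have hse : (s : ℤ) ∣ (e : ℤ) := ⟨c, by simpa using hd⟩
    have hse' : s ∣ e := Int.natCast_dvd_natCast.1 hse
    have h4 : s ∣ e * e + (s - 1) := ⟨_, h2'.symm⟩
    have h5 : s ∣ s - 1 := (Nat.dvd_add_right (hse'.mul_right e)).1 h4
    have := Nat.le_of_dvd (by omega) h5
    omega
  have hcases : r = 1 ∨ r + 1 = s := by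
    by_contra hne
    push Not at hne
    have h1' : (2 : ℤ) ≤ r := by omega
    have h2'' : (r : ℤ) + 2 ≤ s := by omega
    nlinarith [mul_nonneg (show (0 : ℤ) ≤ r - 2 by omega) (show (0 : ℤ) ≤ (s : ℤ) - r - 2 by omega)]
  rcases hcases with h | h
  · exact Or.inl ⟨c, by rw [hd, h]; push_cast; ring⟩
  · exact Or.inr ⟨c + 1, by rw [hd, ← h]; push_cast; ring⟩

/-- Let N ≤ G be normal subgroups of the finite group Γ with Γ/G cyclic and Γ/N a Frobenius group with kernel G/N: G ≠ Γ, N ≠ G, and no element of Γ outside G fixes a non-identity coset of N in G under conjugation. Let ϑ be an irreducible character of N invariant under conjugation by Γ and suppose ϑ is fully ramified in G: the character of G induced from ϑ equals e·χ for an irreducible character χ of G and a natural number e. Then the index of G in Γ divides e − 1 or e + 1. -/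
theorem result {Γ : Type*} [Group Γ] [Fintype Γ] (G N : Subgroup Γ) [hG : G.Normal] [hN : N.Normal] [Fintype G] [Fintype N] (hNG : N ≤ G) (hGlt : G ≠ ⊤) (hNlt : N ≠ G) (hcyc : IsCyclic (Γ ⧸ G)) (hfrob : ∀ x : Γ, x ∉ G → ∀ g : Γ, g ∈ G → x * g * x⁻¹ * g⁻¹ ∈ N → g ∈ N) (θ : Cfsg.IrrCharacter N) (hinv : ∀ (x : Γ) (n : N), (θ : N → ℂ) ⟨x * n * x⁻¹, hN.conj_mem n n.2 x⟩ = (θ : N → ℂ) n) (χ : Cfsg.IrrCharacter G) (e : ℕ) (hram : Cfsg.indFun (N.subgroupOf G) (fun n : N.subgroupOf G => (θ : N → ℂ) ⟨(n : G), n.2⟩) = fun g => (e : ℂ) * (χ : G → ℂ) g) : (G.index : ℤ) ∣ (e : ℤ) - 1 ∨ (G.index : ℤ) ∣ (e : ℤ) + 1 := by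
  classical
  have hθc := irr_classFunction θ
  have hmk : ∀ (a : G), (a : Γ) ∈ N → (a : G) ∈ N.subgroupOf G := fun a h => h
  haveI : (N.subgroupOf G).Normal := hN.subgroupOf G
  haveI := Fintype.ofFinite ↥(N.subgroupOf G)
  let θG : N.subgroupOf G → ℂ := fun n => (θ : N → ℂ) ⟨(n : G), n.2⟩
  let eqv : N.subgroupOf G ≃* N := Subgroup.subgroupOfEquivOfLe hNG
  have hθG : IsIrrCharacter (N.subgroupOf G) θG := isIrrCharacter_comp_equiv θ.2 eqv
  -- restriction of `χ` to `N`
  have hconjN : ∀ (g : G) (n : N.subgroupOf G), θG ⟨g * n * g⁻¹, (inferInstance : (N.subgroupOf G).Normal).conj_mem _ n.2 g⟩ = θG n := by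
    intro g n
    exact hinv (g : Γ) ⟨((n : G) : Γ), n.2⟩
  have hind : ∀ n : N.subgroupOf G, indFun (N.subgroupOf G) θG (n : G) = ((N.subgroupOf G).index : ℂ) * θG n := by
    intro n
    rw [indFun_normal_mem, Finset.sum_congr rfl fun g _ => hconjN g n, Finset.sum_const, Finset.card_univ,
      nsmul_eq_mul, ← Nat.card_eq_fintype_card, ← (N.subgroupOf G).index_mul_card]
    push_cast
    field_simp
  have hram' : indFun (N.subgroupOf G) θG = fun g => (e : ℂ) * (χ : G → ℂ) g := hram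
  have hmult : classInner θG (fun n : N.subgroupOf G => (χ : G → ℂ) n) = (e : ℂ) := by
    rw [← frobenius θG _ (irr_classFunction χ), hram']
    have h := irr_classInner χ χ
    rw [if_pos rfl] at h
    rw [show (fun g => (e : ℂ) * (χ : G → ℂ) g) = (e : ℂ) • (χ : G → ℂ) from rfl, CfsgLib.Char.inner_smul_left, h, mul_one]
  obtain ⟨ee, hee⟩ : ∃ k, (N.subgroupOf G).index = k := ⟨_, rfl⟩
  have he0 : (e : ℂ) ≠ 0 := by
    intro h
    have h1 := congrFun hram' ((1 : N.subgroupOf G) : G)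
    rw [hind, h, zero_mul] at h1
    rcases mul_eq_zero.1 h1 with h2 | h2
    · exact Subgroup.index_ne_zero_of_finite (Nat.cast_eq_zero.1 h2)
    · exact irr_one_ne_zero ⟨θG, hθG⟩ h2
  have hval : ∀ n : N.subgroupOf G, (χ : G → ℂ) n = (e : ℂ) * θG n := by
    have h1 : ∀ n : N.subgroupOf G, (χ : G → ℂ) n = ((ee : ℂ) / e) * θG n := fun n => by
      have h := hind n
      rw [congrFun hram' (n : G), hee] at h
      field_simp
      linear_combination h
    have h2 := hmult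
    rw [funext h1, ← CfsgLib.Char.inner_conj_symm, show (fun n => ((ee : ℂ) / e) * θG n) = ((ee : ℂ) / e) • θG from rfl,
      CfsgLib.Char.inner_smul_left, irr_inner_self hθG, mul_one, map_div₀, Complex.conj_natCast, Complex.conj_natCast] at h2
    intro n
    rw [h1 n, h2]
  -- `χ` is invariant and extends
  have hχinv : ∀ (x : Γ) (g : G), (χ : G → ℂ) (MulAut.conjNormal x g) = (χ : G → ℂ) g := by
    intro x g
    apply mul_left_cancel₀ he0
    have h1 : ∀ y : G, (e : ℂ) * (χ : G → ℂ) y = indFun (N.subgroupOf G) θG y := fun y => (congrFun hram' y).symm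
    rw [h1, h1, indFun_apply, indFun_apply]
    congr 1
    symm
    refine Fintype.sum_equiv (MulAut.conjNormal x : MulAut G).toEquiv _ _ fun y => ?_
    show extendByZero (N.subgroupOf G) θG _ = extendByZero (N.subgroupOf G) θG _
    have hc : ((MulAut.conjNormal x y)⁻¹ * MulAut.conjNormal x g * MulAut.conjNormal x y : G) = MulAut.conjNormal x (y⁻¹ * g * y) := by
      rw [map_mul, map_mul, map_inv]
    show _ = extendByZero (N.subgroupOf G) θG ((MulAut.conjNormal x y)⁻¹ * MulAut.conjNormal x g * MulAut.conjNormal x y)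
    rw [hc]
    generalize y⁻¹ * g * y = z
    by_cases hz : z ∈ N.subgroupOf G
    · have hz' : MulAut.conjNormal x z ∈ N.subgroupOf G := by
        rw [Subgroup.mem_subgroupOf, MulAut.conjNormal_apply]
        exact hN.conj_mem _ hz x
      rw [extendByZero_mem _ hz, extendByZero_mem _ hz']
      exact (hinv x ⟨(z : Γ), hz⟩).symm.trans (congrArg (θ : N → ℂ) (Subtype.ext (MulAut.conjNormal_apply x z).symm))
    · have hz' : MulAut.conjNormal x z ∉ N.subgroupOf G := fun h => hz (by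
        rw [Subgroup.mem_subgroupOf, MulAut.conjNormal_apply] at h
        have := hN.conj_mem _ h x⁻¹
        simpa [Subgroup.mem_subgroupOf, mul_assoc] using this)
      rw [extendByZero_not_mem _ hz, extendByZero_not_mem _ hz']
  obtain ⟨q, hq⟩ := hcyc.exists_generator
  obtain ⟨x, rfl⟩ := QuotientGroup.mk'_surjective G q
  have hgen : ∀ γ : Γ, ∃ k : ℤ, x ^ k * γ⁻¹ ∈ G := fun γ => by
    obtain ⟨k, hk⟩ := hq (QuotientGroup.mk' G γ)
    refine ⟨k, (QuotientGroup.eq_one_iff _).1 ?_⟩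
    show QuotientGroup.mk' G (x ^ k * γ⁻¹) = 1
    rw [map_mul, map_zpow, map_inv]
    exact mul_inv_eq_one.2 hk
  obtain ⟨χh, hχh, hext⟩ := exists_extension_of_cyclic χ.2 hχinv x hgen
  -- the order of `x` modulo `G`
  obtain ⟨s, hs⟩ : ∃ s, G.index = s := ⟨_, rfl⟩
  have hxs : x ^ s ∈ G := hs ▸ G.pow_index_mem x
  have hord : ∀ i : ℕ, x ^ i ∈ G → s ∣ i := by
    intro i hi
    have h1 : orderOf (QuotientGroup.mk' G x) = s := by
      rw [← hs, orderOf_eq_card_of_forall_mem_zpowers hq]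
      rfl
    rw [← h1]
    exact orderOf_dvd_of_pow_eq_one (by rw [← map_pow]; exact (QuotientGroup.eq_one_iff _).2 hi)
  have hs2 : 2 ≤ s := by
    have h1 : s ≠ 0 := hs ▸ Subgroup.index_ne_zero_of_finite
    have h2 : s ≠ 1 := fun h => hGlt (Subgroup.index_eq_one.1 (hs.trans h))
    omega
  have hxN : x ^ s ∈ N := by
    have hx1 : x ∉ G := fun h => by
      have := Nat.le_of_dvd one_pos (hord 1 (by rwa [pow_one]))
      omega
    refine hfrob x hx1 _ hxs ?_
    rw [← pow_succ', pow_succ, mul_inv_cancel_right, mul_inv_cancel]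
    exact N.one_mem
  -- the subgroup `K`
  let K : Subgroup Γ := N ⊔ Subgroup.zpowers x
  have hxK : x ∈ K := Subgroup.mem_sup_right (Subgroup.mem_zpowers x)
  have hNK : N ≤ K := le_sup_left
  haveI := Fintype.ofFinite ↥K
  haveI : (N.subgroupOf K).Normal := hN.subgroupOf K
  haveI := Fintype.ofFinite ↥(N.subgroupOf K)
  let θK : N.subgroupOf K → ℂ := fun n => (θ : N → ℂ) ⟨(n : K), n.2⟩
  have hθK : IsIrrCharacter (N.subgroupOf K) θK := isIrrCharacter_comp_equiv θ.2 (Subgroup.subgroupOfEquivOfLe hNK)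
  have hKgen : ∀ k : K, ∃ i : ℤ, (⟨x, hxK⟩ : K) ^ i * k⁻¹ ∈ N.subgroupOf K := by
    intro k
    have hk : (k : Γ) ∈ ((N ⊔ Subgroup.zpowers x : Subgroup Γ) : Set Γ) := k.2
    rw [Subgroup.normal_mul] at hk
    obtain ⟨n, hn, z, ⟨i, rfl⟩, hk⟩ := hk
    refine ⟨i, ?_⟩
    rw [Subgroup.mem_subgroupOf]
    push_cast
    rw [← hk]
    show x ^ i * (n * x ^ i)⁻¹ ∈ N
    rw [mul_inv_rev, mul_inv_cancel_left]
    exact N.inv_mem hn
  obtain ⟨θh, hθh, hθext⟩ := exists_extension_of_cyclic hθK (fun k n => by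
    exact (congrArg (θ : N → ℂ) (Subtype.ext (by simp [MulAut.conjNormal_apply]))).trans (hinv (k : Γ) ⟨((n : K) : Γ), n.2⟩)) ⟨x, hxK⟩ hKgen
  have hθh' : IsIrrCharacter (N.subgroupOf K) (fun n : N.subgroupOf K => θh n) := by rw [funext hθext]; exact hθK
  let ψ : K → ℂ := fun k => χh (k : Γ)
  have hψ : IsCharacter K ψ := isCharacter_restrict hχh.isCharacter' K
  have hψN : ∀ n : N.subgroupOf K, ψ n = (e : ℂ) * θK n := by
    intro n
    show χh ((n : K) : Γ) = _
    rw [show ((n : K) : Γ) = ((⟨((n : K) : Γ), hNG n.2⟩ : G) : Γ) from rfl, hext]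
    exact hval ⟨⟨((n : K) : Γ), hNG n.2⟩, n.2⟩
  let β : K → ℂ := cosetAvg (N.subgroupOf K) ψ θh
  have hβ : IsCharacter K β := cosetAvg_isCharacter _ hψ hθh.isCharacter'
  have hdec : ∀ k, ψ k = β k * θh k := by
    intro k
    have hexp := classFunction_eq_sum ψ (isCharacter_classFunction hψ)
    have hβs : β k = ∑ ξ : IrrCharacter K, classInner ψ (ξ : K → ℂ) * cosetAvg (N.subgroupOf K) (ξ : K → ℂ) θh k := by
      show cosetAvg (N.subgroupOf K) ψ θh k = _
      rw [cosetAvg_eq]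
      conv_lhs => rw [hexp]
      simp only [cosetAvg_eq, Finset.sum_apply, Pi.smul_apply, smul_eq_mul, Finset.sum_mul, Finset.mul_sum]
      rw [Finset.sum_comm]
      exact Finset.sum_congr rfl fun ξ _ => Finset.sum_congr rfl fun n _ => by ring
    rw [hβs, Finset.sum_mul]
    conv_lhs => rw [hexp]
    simp only [Finset.sum_apply, Pi.smul_apply, smul_eq_mul]
    refine Finset.sum_congr rfl fun ξ _ => ?_
    by_cases hm : classInner ψ (ξ : K → ℂ) = 0
    · rw [hm]; simp
    have hcon : classInner (fun n : N.subgroupOf K => (ξ : K → ℂ) n) (fun n : N.subgroupOf K => θh n) ≠ 0 := by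
      intro h0
      rw [funext hθext] at h0
      have hres := isCharacter_restrict ξ.2.isCharacter' (N.subgroupOf K)
      -- a constituent of the restriction
      obtain ⟨η, hη, hne⟩ := exists_constituent hres (fun h => irr_one_ne_zero ξ (by simpa using congrFun h 1))
      have hne' : η ≠ θK := fun h => hne (h ▸ h0)
      have hsum : classInner (fun n : N.subgroupOf K => ψ n) η = ∑ ξ' : IrrCharacter K, classInner ψ (ξ' : K → ℂ) * classInner (fun n : N.subgroupOf K => (ξ' : K → ℂ) n) η := by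
        conv_lhs => rw [show (fun n : N.subgroupOf K => ψ n) = ∑ ξ' : IrrCharacter K, classInner ψ (ξ' : K → ℂ) • (fun n : N.subgroupOf K => (ξ' : K → ℂ) n) from funext fun n => by
          have h := congrFun hexp (n : K)
          simp only [Finset.sum_apply, Pi.smul_apply] at h ⊢
          exact h]
        rw [inner_sum_left]
        simp only [CfsgLib.Char.inner_smul_left]
      rw [show (fun n : N.subgroupOf K => ψ n) = (e : ℂ) • θK from funext hψN, CfsgLib.Char.inner_smul_left,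
        irr_inner_ne hθK hη (Ne.symm hne'), mul_zero] at hsum
      choose A hA using fun ξ' : IrrCharacter K => inner_character_nat hψ ξ'.2.isCharacter'
      choose B hB using fun ξ' : IrrCharacter K => inner_character_nat (isCharacter_restrict ξ'.2.isCharacter' (N.subgroupOf K)) hη.isCharacter'
      simp only [hA, hB, ← Nat.cast_mul] at hsum
      rw [← Nat.cast_sum] at hsum
      have h3 := Finset.sum_eq_zero_iff.1 (Nat.cast_eq_zero.1 hsum.symm) ξ (Finset.mem_univ _)
      rcases mul_eq_zero.1 h3 with h4 | h4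
      · exact hm (by rw [hA, h4, Nat.cast_zero])
      · exact hne (by rw [hB, h4, Nat.cast_zero])
    rw [mul_assoc, show cosetAvg (N.subgroupOf K) (ξ : K → ℂ) θh k * θh k = (ξ : K → ℂ) k from congrFun ((gallagher (N.subgroupOf K) hθh hθh' ξ.2).1 hcon).2 k]
  -- values of `β` on the powers of `x`
  let X : K := ⟨x, hxK⟩
  have hβN : ∀ (n : N.subgroupOf K) (k : K), β ((n : K) * k) = β k := fun n k => cosetAvg_mul_coset _ _ _ n k
  have hβ1 : β 1 = (e : ℂ) := by
    show cosetAvg (N.subgroupOf K) ψ θh 1 = _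
    rw [cosetAvg_one, funext hθext, show (fun n : N.subgroupOf K => ψ n) = (e : ℂ) • θK from funext hψN,
      CfsgLib.Char.inner_smul_left, irr_inner_self hθK, mul_one]
  have hβs : β (X ^ s) = β 1 := by
    have := hβN ⟨X ^ s, by rw [Subgroup.mem_subgroupOf]; simpa [X] using hxN⟩ 1
    rwa [mul_one] at this
  have hΔ : ∀ i : ℕ, i < s → i ≠ 0 → β (X ^ i) * conj (β (X ^ i)) = 1 := by
    intro i hi hi0
    have hy : x ^ i ∉ G := fun h => by
      have := Nat.le_of_dvd (Nat.pos_of_ne_zero hi0) (hord i h)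
      omega
    have hresG : IsIrrCharacter G (fun g : G => χh g) := by rw [funext hext]; exact χ.2
    haveI := Fintype.ofFinite ↥G
    have hG1 := congrFun (cosetAvg_self G hχh hresG) (x ^ i)
    rw [cosetAvg_eq] at hG1
    let F : Γ → ℂ := fun γ => ∑ n : N, χh ((n : Γ) * γ) * conj (χh ((n : Γ) * γ))
    have hFN : ∀ (m : N) (γ : Γ), F ((m : Γ) * γ) = F γ := fun m γ =>
      Fintype.sum_equiv (Equiv.mulRight m) _ _ fun n => by
        show _ = χh (((n * m : N) : Γ) * γ) * conj (χh (((n * m : N) : Γ) * γ))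
        rw [Subgroup.coe_mul, mul_assoc]
    have hFc : ∀ (h γ : Γ), F (h * γ * h⁻¹) = F γ := fun h γ => by
      refine Fintype.sum_equiv (MulAut.conjNormal h⁻¹ : MulAut N).toEquiv _ _ fun n => ?_
      show _ = χh (((MulAut.conjNormal h⁻¹ n : N) : Γ) * γ) * conj (χh (((MulAut.conjNormal h⁻¹ n : N) : Γ) * γ))
      rw [MulAut.conjNormal_apply]
      have e2 : (n : Γ) * (h * γ * h⁻¹) = h * ((h⁻¹ * (n : Γ) * h⁻¹⁻¹) * γ) * h⁻¹ := by group
      rw [e2, classFun_isConj (isCharacter_classFunction hχh.isCharacter') (isConj_iff.2 ⟨h, rfl⟩)]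
    -- the coset of `x ^ i` is fused modulo `N`
    haveI : (N.subgroupOf G).Normal := hN.subgroupOf G
    let φ : G → G := fun h => ⟨(h : Γ) * x ^ i * (h : Γ)⁻¹ * (x ^ i)⁻¹, by
      rw [show (h : Γ) * x ^ i * (h : Γ)⁻¹ * (x ^ i)⁻¹ = (h : Γ) * (x ^ i * (h : Γ)⁻¹ * (x ^ i)⁻¹) by group]
      exact G.mul_mem h.2 (hG.conj_mem _ (G.inv_mem h.2) _)⟩
    have hφ : Function.Surjective fun h : G ⧸ N.subgroupOf G => Quotient.liftOn' h (fun h => (QuotientGroup.mk (φ h) : G ⧸ N.subgroupOf G)) (fun a b hab => by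
        rw [QuotientGroup.eq]
        have hm : (a : Γ)⁻¹ * (b : Γ) ∈ N := by
          have := QuotientGroup.leftRel_apply.1 hab
          simpa [Subgroup.mem_subgroupOf] using this
        rw [Subgroup.mem_subgroupOf]
        push_cast
        show ((a : Γ) * x ^ i * (a : Γ)⁻¹ * (x ^ i)⁻¹)⁻¹ * ((b : Γ) * x ^ i * (b : Γ)⁻¹ * (x ^ i)⁻¹) ∈ N
        have e3 : ((a : Γ) * x ^ i * (a : Γ)⁻¹ * (x ^ i)⁻¹)⁻¹ * ((b : Γ) * x ^ i * (b : Γ)⁻¹ * (x ^ i)⁻¹) =
            (x ^ i * (a : Γ)) * ((x ^ i)⁻¹ * ((a : Γ)⁻¹ * (b : Γ)) * (x ^ i)⁻¹⁻¹ * ((a : Γ)⁻¹ * (b : Γ))⁻¹) * (x ^ i * (a : Γ))⁻¹ := by group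
        rw [e3]
        exact hN.conj_mem _ (N.mul_mem (hN.conj_mem _ hm _) (N.inv_mem hm)) _) := by
      refine Finite.surjective_of_injective ?_
      intro a b
      refine Quotient.inductionOn₂' a b fun a b hab => ?_
      have hab' := QuotientGroup.eq.1 (hab : (QuotientGroup.mk (φ a) : G ⧸ N.subgroupOf G) = QuotientGroup.mk (φ b))
      rw [Subgroup.mem_subgroupOf] at hab'
      push_cast at hab'
      refine Quotient.sound' (QuotientGroup.leftRel_apply.2 ?_)
      rw [Subgroup.mem_subgroupOf]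
      push_cast
      refine hfrob (x ^ i)⁻¹ (fun h => hy ((G.inv_mem_iff).1 h)) _ (G.mul_mem (G.inv_mem a.2) b.2) ?_
      have h1 : ((a : Γ) * x ^ i * (a : Γ)⁻¹ * (x ^ i)⁻¹)⁻¹ * ((b : Γ) * x ^ i * (b : Γ)⁻¹ * (x ^ i)⁻¹) ∈ N := hab'
      have := hN.conj_mem _ h1 (x ^ i * (a : Γ))⁻¹
      convert this using 1
      group
    have hFconst : ∀ g : G, F ((g : Γ) * x ^ i) = F (x ^ i) := by
      intro g
      obtain ⟨h, hh⟩ := hφ (QuotientGroup.mk g)
      induction h using Quotient.inductionOn' with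
      | h h =>
        have h1 := QuotientGroup.eq.1 (hh : (QuotientGroup.mk (φ h) : G ⧸ N.subgroupOf G) = QuotientGroup.mk g)
        rw [Subgroup.mem_subgroupOf] at h1
        push_cast at h1
        have h1' : ((h : Γ) * x ^ i * (h : Γ)⁻¹ * (x ^ i)⁻¹)⁻¹ * (g : Γ) ∈ N := h1
        have hm := hN.conj_mem _ h1' ((h : Γ) * x ^ i * (h : Γ)⁻¹ * (x ^ i)⁻¹)
        have e4 : (g : Γ) * x ^ i = ((⟨_, hm⟩ : N) : Γ) * ((h : Γ) * x ^ i * (h : Γ)⁻¹) := by
          show _ = ((h : Γ) * x ^ i * (h : Γ)⁻¹ * (x ^ i)⁻¹) * (((h : Γ) * x ^ i * (h : Γ)⁻¹ * (x ^ i)⁻¹)⁻¹ * (g : Γ)) * ((h : Γ) * x ^ i * (h : Γ)⁻¹ * (x ^ i)⁻¹)⁻¹ * ((h : Γ) * x ^ i * (h : Γ)⁻¹)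
          group
        rw [e4, hFN, hFc]
    have hsumF : (Nat.card G : ℂ) * F (x ^ i) = (Nat.card N : ℂ) * ∑ g : G, χh ((g : Γ) * x ^ i) * conj (χh ((g : Γ) * x ^ i)) := by
      rw [show (Nat.card G : ℂ) * F (x ^ i) = ∑ g : G, F ((g : Γ) * x ^ i) by
        rw [Finset.sum_congr rfl fun g _ => hFconst g, Finset.sum_const, Finset.card_univ, nsmul_eq_mul, Nat.card_eq_fintype_card]]
      simp only [F]
      rw [Finset.sum_comm, Nat.card_eq_fintype_card, ← nsmul_eq_mul, ← Finset.card_univ, ← Finset.sum_const]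
      refine Finset.sum_congr rfl fun n _ => Fintype.sum_equiv (Equiv.mulLeft (⟨(n : Γ), hNG n.2⟩ : G)) _ _ fun g => ?_
      show _ = χh (((n : Γ) * (g : Γ)) * x ^ i) * conj (χh (((n : Γ) * (g : Γ)) * x ^ i))
      rw [mul_assoc]
    have hF : F (x ^ i) = (Nat.card N : ℂ) := by
      rw [inv_mul_eq_one₀ (Nat.cast_ne_zero.2 Nat.card_pos.ne')] at hG1
      rw [← hG1, mul_comm (Nat.card N : ℂ)] at hsumF
      exact mul_left_cancel₀ (Nat.cast_ne_zero.2 Nat.card_pos.ne') hsumF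
    have hK1 := congrFun (cosetAvg_self (N.subgroupOf K) hθh hθh') (X ^ i)
    rw [cosetAvg_eq] at hK1
    have hFβ : F (x ^ i) = β (X ^ i) * conj (β (X ^ i)) * ∑ n : N.subgroupOf K, θh ((n : K) * X ^ i) * conj (θh ((n : K) * X ^ i)) := by
      rw [Finset.mul_sum]
      refine Fintype.sum_equiv (Subgroup.subgroupOfEquivOfLe hNK).symm.toEquiv _ _ fun n => ?_
      have h2 : χh ((n : Γ) * x ^ i) = ψ ((((Subgroup.subgroupOfEquivOfLe hNK).symm n : N.subgroupOf K) : K) * X ^ i) := by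
        show χh _ = χh _
        congr 1
      show _ = β (X ^ i) * conj (β (X ^ i)) * (θh ((((Subgroup.subgroupOfEquivOfLe hNK).symm n : N.subgroupOf K) : K) * X ^ i) * conj (θh ((((Subgroup.subgroupOfEquivOfLe hNK).symm n : N.subgroupOf K) : K) * X ^ i)))
      rw [h2, hdec, hβN, map_mul]
      ring
    rw [inv_mul_eq_one₀ (Nat.cast_ne_zero.2 Nat.card_pos.ne')] at hK1
    rw [hF, ← hK1, Nat.card_congr (Subgroup.subgroupOfEquivOfLe hNK).toEquiv] at hFβ
    exact (mul_eq_right₀ (Nat.cast_ne_zero.2 Nat.card_pos.ne' : (Nat.card N : ℂ) ≠ 0)).1 hFβ.symm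
  obtain ⟨d, ρ, hρ⟩ := hβ
  obtain ⟨b, μ, hbμ, hμo, hk⟩ := exists_rep_eigenbasis ρ X
  have hXs : ρ (X ^ s) = 1 := (char_eq_one_iff ρ _).1 (by rw [hρ]; exact hβs)
  have hμs : ∀ l, μ l ^ s = 1 := by
    intro l
    have h1 : ∀ j : ℕ, ρ (X ^ j) (b l) = μ l ^ j • b l := by
      intro j
      induction j with
      | zero => simp
      | succ j ih => rw [pow_succ, map_mul, Module.End.mul_apply, hbμ, map_smul, ih, smul_smul, pow_succ']
    have h2 := h1 s
    rw [hXs, Module.End.one_apply] at h2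
    have h3 : ((1 : ℂ) - μ l ^ s) • b l = 0 := by rw [sub_smul, one_smul, ← h2, sub_self]
    exact (sub_eq_zero.1 ((smul_eq_zero.1 h3).resolve_right (b.ne_zero l))).symm
  have hd : Module.finrank ℂ (Fin d → ℂ) = e := by
    have h1 := hβ1
    rw [← hρ, ρ.char_one] at h1
    exact_mod_cast h1
  rw [← hd, hs]
  refine pm_one hs2 μ hμs fun i hi hi0 => ?_
  rw [← hk i, hρ]
  exact hΔ i hi hi0


end Cfsg.Agent.S4454
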