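import Cfsg.Statements.S4455
import Cfsg.Agent.Lib.CharDegree
import Cfsg.Agent.Lib.CharGallagher
import Cfsg.Agent.Lib.BlockCoprimeExt
import Cfsg.Agent.Lib.LocalChain

set_option autoImplicit false
open Cfsg

namespace Cfsg.Agent.S4455

/-- Fix a prime p and a finite group G. Let s be the sum of χ(1)² over the irreducible characters χ of G whose degree is not divisible by p and whose determinantal order o(χ) is not divisible by p. Then the order of O^p(G), the subgroup generated by the elements of order prime to p, is congruent to s modulo p. -/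
theorem result {G : Type*} [Group G] [Finite G] (p : ℕ) (hp : p.Prime) : (Nat.card (Cfsg.pResidual p G) : ℤ) ≡ (∑ᶠ χ ∈ {χ : Cfsg.IrrCharacter G | ¬ p ∣ Cfsg.charDegree (χ : G → ℂ) ∧ ¬ p ∣ Cfsg.detOrder (χ : G → ℂ)}, (Cfsg.charDegree (χ : G → ℂ) : ℤ) ^ 2) [ZMOD p] := by
  classical
  haveI := Fact.mk hp
  haveI := Fintype.ofFinite G
  have hUn : (pResidual p G).Normal := CfsgLib.Local.pResidual_normal' p G
  generalize hUdef : pResidual p G = U at hUn ⊢
  haveI := Fintype.ofFinite ↥U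
  set a := (Nat.card G).factorization p with ha
  set m := Nat.card G / p ^ a with hm
  have ham : p ^ a * m = Nat.card G := Nat.ordProj_mul_ordCompl_eq_self _ p
  have hmp : m.Coprime p := (Nat.coprime_ordCompl hp Nat.card_pos.ne').symm
  -- the index is a power of `p`
  obtain ⟨e, he⟩ : ∃ e, U.index = p ^ e := by
    have hP : IsPGroup p (G ⧸ U) := by
      intro q
      induction q using QuotientGroup.induction_on with
      | _ g =>
        refine ⟨a, ?_⟩
        rw [← QuotientGroup.mk_pow, QuotientGroup.eq_one_iff, ← hUdef]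
        refine Subgroup.subset_closure ?_
        refine Nat.Coprime.coprime_dvd_left (orderOf_dvd_of_pow_eq_one ?_) hmp
        rw [← pow_mul, ham, pow_card_eq_one']
    obtain ⟨e, he⟩ := hP.exists_card_eq
    exact ⟨e, by rw [Subgroup.index_eq_card, he]⟩
  have hdU : ∀ θ : IrrCharacter ↥U, ¬ p ∣ detOrder (θ : ↥U → ℂ) := by
    intro θ hd
    obtain ⟨f, hf⟩ := CfsgLib.Char.exists_hom_of_degree_one (CfsgLib.Char.detChar_isLinear θ.2.isCharacter').1
      (CfsgLib.Char.detChar_isLinear θ.2.isCharacter').2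
    rw [detOrder, hf, CfsgLib.Char.orderOf_homFn] at hd
    have hfm : f ^ m = 1 := by
      refine MonoidHom.ext fun u => ?_
      rw [CfsgLib.Char.homPow_apply, MonoidHom.one_apply]
      obtain ⟨u, hu⟩ := u
      have hu' : u ∈ Subgroup.closure {g : G | Nat.Coprime (orderOf g) p} := by
        rw [← hUdef] at hu; exact hu
      clear hd
      induction hu' using Subgroup.closure_induction with
      | mem g hg =>
        rw [← map_pow]
        have hgm : g ^ m = 1 := by
          rw [← orderOf_dvd_iff_pow_eq_one]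
          refine (Nat.Coprime.pow_right a hg).dvd_of_dvd_mul_left ?_
          rw [ham]; exact orderOf_dvd_natCard g
        rw [show (⟨g, hu⟩ : ↥U) ^ m = 1 from Subtype.ext hgm, map_one]
      | one => rw [show (⟨1, hu⟩ : ↥U) = 1 from rfl, map_one, one_pow]
      | mul x y hx hy ihx ihy =>
        have hxU : x ∈ U := by rw [← hUdef]; exact hx
        have hyU : y ∈ U := by rw [← hUdef]; exact hy
        rw [show (⟨x * y, hu⟩ : ↥U) = ⟨x, hxU⟩ * ⟨y, hyU⟩ from rfl, map_mul, mul_pow, ihx hxU, ihy hyU, one_mul]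
      | inv x hx ihx =>
        have hxU : x ∈ U := by rw [← hUdef]; exact hx
        rw [show (⟨x⁻¹, hu⟩ : ↥U) = (⟨x, hxU⟩ : ↥U)⁻¹ from rfl, map_inv, inv_pow, ihx hxU, inv_one]
    exact hp.one_lt.ne' (Nat.eq_one_of_dvd_coprimes hmp (hd.trans (orderOf_dvd_of_pow_eq_one hfm)) dvd_rfl)
  set A := Finset.univ.filter (fun χ : IrrCharacter G => ¬ p ∣ charDegree (χ : G → ℂ) ∧ ¬ p ∣ detOrder (χ : G → ℂ)) with hA
  set B := Finset.univ.filter (fun θ : IrrCharacter ↥U => ¬ p ∣ charDegree (θ : ↥U → ℂ) ∧ CfsgLib.Block.InvNormal U (θ : ↥U → ℂ)) with hB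
  have hco : ∀ n : ℕ, ¬ p ∣ n → U.index.Coprime n := fun n hn => by
    rw [he]; exact ((hp.coprime_iff_not_dvd).2 hn).pow_left e
  have hres : ∀ χ ∈ A, IsIrrCharacter ↥U (fun u : ↥U => (χ : G → ℂ) u) := by
    intro χ hχ
    simp only [hA, Finset.mem_filter, Finset.mem_univ, true_and] at hχ
    obtain ⟨θ, hθ, hcon⟩ := CfsgLib.Char.exists_irr_under (H := U) χ.2
    obtain ⟨k, hk, hkd⟩ := CfsgLib.Char.degree_ratio χ.2 hθ hcon
    rw [← CfsgLib.Block.charDegree_cast χ.2.isCharacter', ← CfsgLib.Block.charDegree_cast hθ.isCharacter',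
      ← Nat.cast_mul, Nat.cast_inj] at hk
    have hk1 : k = 1 := Nat.eq_one_of_dvd_coprimes (hco _ hχ.1) hkd (Dvd.intro _ hk.symm)
    obtain ⟨n, hn⟩ := CfsgLib.Char.inner_character_nat (CfsgLib.Char.isCharacter_restrict χ.2.isCharacter' U) hθ.isCharacter'
    have hd := CfsgLib.Char.clifford_degree χ.2 hθ hcon
    rw [hn, ← CfsgLib.Block.charDegree_cast χ.2.isCharacter', ← CfsgLib.Block.charDegree_cast hθ.isCharacter', hk, hk1] at hd
    have hd' : (1 * charDegree θ : ℕ) = n * (CfsgLib.Char.inertia θ).index * charDegree θ := by exact_mod_cast hd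
    have h1 : n * (CfsgLib.Char.inertia θ).index = 1 :=
      (Nat.eq_of_mul_eq_mul_right (CfsgLib.Block.charDegree_pos ⟨θ, hθ⟩) hd').symm
    obtain ⟨hn1, hi1⟩ := mul_eq_one.1 h1
    have hcl := CfsgLib.Char.clifford χ.2 hθ hcon
    have horb : CfsgLib.Char.conjOrbit (G := G) θ = {θ} := by
      obtain ⟨φ, hφ⟩ := Finset.card_eq_one.1 ((CfsgLib.Char.card_conjOrbit_eq_index θ).trans hi1)
      have hθφ : θ = φ := Finset.mem_singleton.1 (hφ ▸ CfsgLib.Char.self_mem_conjOrbit (G := G) θ)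
      rw [hφ, hθφ]
    rw [horb, Finset.sum_singleton, hn, hn1, Nat.cast_one, one_smul] at hcl
    rw [hcl]
    exact hθ
  have hbij : ∑ χ ∈ A, (charDegree (χ : G → ℂ) : ℤ) ^ 2 = ∑ θ ∈ B, (charDegree (θ : ↥U → ℂ) : ℤ) ^ 2 := by
    have hdeg : ∀ χ (h : χ ∈ A), charDegree (fun u : ↥U => (χ : G → ℂ) u) = charDegree (χ : G → ℂ) := fun χ h => by
      have := CfsgLib.Block.charDegree_cast (hres χ h).isCharacter'
      rw [show (χ : G → ℂ) ((1 : ↥U) : G) = (χ : G → ℂ) 1 from rfl, ← CfsgLib.Block.charDegree_cast χ.2.isCharacter'] at this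
      exact_mod_cast this
    refine Finset.sum_bij (fun χ h => (⟨_, hres χ h⟩ : IrrCharacter ↥U)) (fun χ h => ?_) (fun χ₁ h₁ χ₂ h₂ h => ?_) (fun θ hθ => ?_) (fun χ h => ?_)
    · refine Finset.mem_filter.2 ⟨Finset.mem_univ _, ?_, fun g u => ?_⟩
      · show ¬ p ∣ charDegree _
        rw [hdeg χ h]
        exact (Finset.mem_filter.1 h).2.1
      · exact CfsgLib.Char.isCharacter_classFunction χ.2.isCharacter' u g
    · have hA1 := (Finset.mem_filter.1 h₁).2
      have hA2 := (Finset.mem_filter.1 h₂).2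
      have h' : ∀ u : ↥U, (χ₁ : G → ℂ) u = (χ₂ : G → ℂ) u := fun u => congrFun (congrArg Subtype.val h) u
      set θ : IrrCharacter ↥U := ⟨_, hres χ₂ h₂⟩
      obtain ⟨χ, -, huniq⟩ := CfsgLib.Char.canonical_extension U θ.2
        (fun g u => CfsgLib.Char.isCharacter_classFunction χ₂.2.isCharacter' u g)
        (CfsgLib.Block.charDegree_cast θ.2.isCharacter').symm
        ((hco _ (hdU θ)).mul_right (hco _ (by show ¬ p ∣ charDegree _; rw [hdeg χ₂ h₂]; exact hA2.1)))
      exact Subtype.ext ((huniq _ χ₁.2 h' (hco _ hA1.2)).trans (huniq _ χ₂.2 (fun u => rfl) (hco _ hA2.2)).symm)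
    · obtain ⟨hd, hinv⟩ := (Finset.mem_filter.1 hθ).2
      obtain ⟨χ, ⟨hχ, hrestr, hdet⟩, -⟩ := CfsgLib.Char.canonical_extension U θ.2 hinv
        (CfsgLib.Block.charDegree_cast θ.2.isCharacter').symm ((hco _ (hdU θ)).mul_right (hco _ hd))
      have hd' : charDegree χ = charDegree (θ : ↥U → ℂ) := by
        have h1 : (charDegree χ : ℂ) = (charDegree (θ : ↥U → ℂ) : ℂ) := by
          rw [CfsgLib.Block.charDegree_cast hχ.isCharacter', CfsgLib.Block.charDegree_cast θ.2.isCharacter',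
            ← hrestr]; rfl
        exact_mod_cast h1
      refine ⟨⟨χ, hχ⟩, Finset.mem_filter.2 ⟨Finset.mem_univ _, by rw [hd']; exact hd, by rw [hdet]; exact hdU θ⟩, Subtype.ext (funext hrestr)⟩
    · rw [hdeg χ h]
  have hmod : (Nat.card ↥U : ZMod p) = ∑ θ ∈ B, (charDegree (θ : ↥U → ℂ) : ZMod p) ^ 2 := by
    have h0 : (Nat.card ↥U : ℕ) = ∑ θ : IrrCharacter ↥U, charDegree (θ : ↥U → ℂ) ^ 2 := by
      have := CfsgLib.Char.sum_degree_sq (G := ↥U)
      have hc : ∀ θ : IrrCharacter ↥U, (θ : ↥U → ℂ) 1 ^ 2 = ((charDegree (θ : ↥U → ℂ) ^ 2 : ℕ) : ℂ) := fun θ => by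
        rw [Nat.cast_pow, CfsgLib.Block.charDegree_cast θ.2.isCharacter']
      simp only [hc] at this
      rw [← Nat.cast_sum] at this
      exact_mod_cast this.symm
    rw [h0, Nat.cast_sum, ← Finset.sum_filter_add_sum_filter_not Finset.univ (fun θ : IrrCharacter ↥U => CfsgLib.Block.InvNormal U (θ : ↥U → ℂ))]
    simp only [Nat.cast_pow]
    have hz : ∑ θ ∈ Finset.univ.filter (fun θ : IrrCharacter ↥U => ¬ CfsgLib.Block.InvNormal U (θ : ↥U → ℂ)), (charDegree (θ : ↥U → ℂ) : ZMod p) ^ 2 = 0 := by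
      set o : IrrCharacter ↥U → Finset (↥U → ℂ) := fun θ => CfsgLib.Char.conjOrbit (G := G) (θ : ↥U → ℂ) with ho
      rw [← Finset.sum_fiberwise_of_maps_to (g := o) (fun θ hθ => Finset.mem_image_of_mem o hθ)]
      refine Finset.sum_eq_zero fun t ht => ?_
      obtain ⟨θ₀, hθ₀, rfl⟩ := Finset.mem_image.1 ht
      simp only [Finset.mem_filter, Finset.mem_univ, true_and] at hθ₀
      have horbit : ∀ θ : IrrCharacter ↥U, o θ = o θ₀ ↔ (θ : ↥U → ℂ) ∈ o θ₀ := by
        intro θ
        constructor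
        · intro h; rw [← h]; exact CfsgLib.Char.self_mem_conjOrbit _
        · intro h
          obtain ⟨g, hg⟩ := CfsgLib.Char.mem_conjOrbit.1 h
          ext φ
          simp only [ho, CfsgLib.Char.mem_conjOrbit, hg]
          constructor
          · rintro ⟨b, rfl⟩; exact ⟨g * b, (CfsgLib.Char.conjFn_mul g b _).symm⟩
          · rintro ⟨b, rfl⟩; exact ⟨g⁻¹ * b, by rw [← CfsgLib.Char.conjFn_mul, ← mul_assoc, mul_inv_cancel, one_mul]⟩
      have hconst : ∀ θ ∈ (Finset.univ.filter (fun θ : IrrCharacter ↥U => ¬ CfsgLib.Block.InvNormal U (θ : ↥U → ℂ))).filter (fun θ => o θ = o θ₀),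
          (charDegree (θ : ↥U → ℂ) : ZMod p) ^ 2 = (charDegree (θ₀ : ↥U → ℂ) : ZMod p) ^ 2 := by
        intro θ hθ
        obtain ⟨g, hg⟩ := CfsgLib.Char.mem_conjOrbit.1 ((horbit θ).1 (Finset.mem_filter.1 hθ).2)
        have h1 : ((charDegree (θ : ↥U → ℂ) : ℕ) : ℂ) = ((charDegree (θ₀ : ↥U → ℂ) : ℕ) : ℂ) := by
          rw [CfsgLib.Block.charDegree_cast θ.2.isCharacter', CfsgLib.Block.charDegree_cast θ₀.2.isCharacter', hg,
            CfsgLib.Char.conjFn_apply_one]
        rw [Nat.cast_inj.1 h1]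
      rw [Finset.sum_congr rfl hconst, Finset.sum_const, nsmul_eq_mul]
      have hcard : ((Finset.univ.filter (fun θ : IrrCharacter ↥U => ¬ CfsgLib.Block.InvNormal U (θ : ↥U → ℂ))).filter (fun θ => o θ = o θ₀)).card = (o θ₀).card := by
        refine Finset.card_bij (fun θ _ => (θ : ↥U → ℂ)) (fun θ hθ => (horbit θ).1 (Finset.mem_filter.1 hθ).2)
          (fun _ _ _ _ h => Subtype.ext h) (fun φ hφ => ?_)
        obtain ⟨g, hg⟩ := CfsgLib.Char.mem_conjOrbit.1 hφ
        have hφi : IsIrrCharacter ↥U φ := hg ▸ CfsgLib.Char.isIrrCharacter_conjFn θ₀.2 g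
        refine ⟨⟨φ, hφi⟩, Finset.mem_filter.2 ⟨Finset.mem_filter.2 ⟨Finset.mem_univ _, fun hinv => hθ₀ ?_⟩, (horbit _).2 hφ⟩, rfl⟩
        have hfix : CfsgLib.Char.conjFn g⁻¹ φ = φ := funext fun u => hinv g⁻¹ u
        have : (θ₀ : ↥U → ℂ) = φ := by
          rw [← hfix, hg, ← CfsgLib.Char.conjFn_mul, mul_inv_cancel, CfsgLib.Char.conjFn_one]
        intro b u
        rw [this]
        exact hinv b u
      rw [hcard, ho, CfsgLib.Char.card_conjOrbit_eq_index]
      have hidx : (CfsgLib.Char.inertia (G := G) (θ₀ : ↥U → ℂ)).index ∣ p ^ e :=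
        he ▸ Subgroup.index_dvd_of_le (CfsgLib.Char.le_inertia (CfsgLib.Char.isCharacter_classFunction θ₀.2.isCharacter'))
      obtain ⟨j, -, hj⟩ := (Nat.dvd_prime_pow hp).1 hidx
      rw [hj]
      rcases Nat.eq_zero_or_pos j with rfl | hj0
      · exfalso
        apply hθ₀
        intro g u
        have hg : g ∈ CfsgLib.Char.inertia (θ₀ : ↥U → ℂ) := by
          rw [Subgroup.index_eq_one.1 (hj.trans (pow_zero p))]; exact Subgroup.mem_top g
        exact congrFun (CfsgLib.Char.mem_inertia.1 hg) u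
      · rw [Nat.cast_pow, ZMod.natCast_self, zero_pow hj0.ne', zero_mul]
    rw [hz, add_zero, hB]
    refine (Finset.sum_subset (fun θ hθ => Finset.mem_filter.2 ⟨Finset.mem_univ _, (Finset.mem_filter.1 hθ).2.2⟩) (fun θ hθ hn => ?_)).symm
    simp only [Finset.mem_filter, Finset.mem_univ, true_and, not_and] at hθ hn
    have : p ∣ charDegree (θ : ↥U → ℂ) := by
      by_contra h; exact hn h hθ
    rw [(ZMod.natCast_eq_zero_iff _ _).2 this, zero_pow two_ne_zero]
  rw [finsum_mem_eq_toFinset_sum, show ({χ : IrrCharacter G | ¬ p ∣ charDegree (χ : G → ℂ) ∧ ¬ p ∣ detOrder (χ : G → ℂ)}.toFinset) = A by simp [hA],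
    hbij, ← ZMod.intCast_eq_intCast_iff]
  push_cast
  exact hmod

end Cfsg.Agent.S4455
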