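import Cfsg.Statements.S4456
import Cfsg.Agent.Lib.CharLinear
import Cfsg.Agent.Lib.CharDet
import Cfsg.Agent.S4455

set_option autoImplicit false
open Cfsg

namespace Cfsg.Agent.S4456

/-- Let p be a prime and G a finite group such that p divides the degree of every irreducible character of G of degree greater than one. Then G has a normal p-complement: a normal subgroup of order prime to p whose index is a power of p. -/
theorem result {G : Type*} [Group G] [Finite G] (p : ℕ) (hp : p.Prime) (hdeg : ∀ χ : Cfsg.IrrCharacter G, Cfsg.charDegree (χ : G → ℂ) ≠ 1 → p ∣ Cfsg.charDegree (χ : G → ℂ)) : ∃ N : Subgroup G, N.Normal ∧ (Nat.card N).Coprime p ∧ ∃ k : ℕ, N.index = p ^ k := by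
  classical
  haveI := Fact.mk hp
  haveI := Fintype.ofFinite G
  have hUn : (pResidual p G).Normal := CfsgLib.Local.pResidual_normal' p G
  refine ⟨pResidual p G, hUn, ?_, ?_⟩
  · refine (hp.coprime_iff_not_dvd.2 fun hdvd => ?_).symm
    have h := Cfsg.Agent.S4455.result (G := G) p hp
    rw [finsum_mem_eq_toFinset_sum, ← ZMod.intCast_eq_intCast_iff] at h
    push_cast at h
    rw [(ZMod.natCast_eq_zero_iff _ _).2 hdvd] at h
    -- only linear characters of order prime to `p` remain
    set T : Subgroup (G →* ℂˣ) := (powMonoidHom (Nat.card G / p ^ (Nat.card G).factorization p) : (G →* ℂˣ) →* (G →* ℂˣ)).ker with hT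
    haveI : Finite (G →* ℂˣ) := Finite.of_equiv _ CfsgLib.Char.linCharEquiv.symm
    set m := Nat.card G / p ^ (Nat.card G).factorization p with hm
    have hmp : ¬ p ∣ m := Nat.not_dvd_ordCompl hp Nat.card_pos.ne'
    have hTp : ¬ p ∣ Nat.card T := by
      intro hd
      obtain ⟨f, hf⟩ := exists_prime_orderOf_dvd_card' p hd
      refine hmp ?_
      rw [← hf]
      refine orderOf_dvd_of_pow_eq_one (Subtype.ext ?_)
      have := f.2
      simp only [hT, MonoidHom.mem_ker, powMonoidHom_apply] at this
      exact this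
    have hcount : ∑ χ ∈ {χ : IrrCharacter G | ¬ p ∣ charDegree (χ : G → ℂ) ∧ ¬ p ∣ detOrder (χ : G → ℂ)}.toFinset,
        (charDegree (χ : G → ℂ) : ZMod p) ^ 2 = (Nat.card T : ZMod p) := by
      have hone : ∀ χ : IrrCharacter G, ¬ p ∣ charDegree (χ : G → ℂ) → charDegree (χ : G → ℂ) = 1 := fun χ h => by
        by_contra hne; exact h (hdeg χ hne)
      have h1 : ∀ χ ∈ {χ : IrrCharacter G | ¬ p ∣ charDegree (χ : G → ℂ) ∧ ¬ p ∣ detOrder (χ : G → ℂ)}.toFinset,
          (charDegree (χ : G → ℂ) : ZMod p) ^ 2 = 1 := fun χ hχ => by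
        rw [hone χ (Set.mem_toFinset.1 hχ).1, Nat.cast_one, one_pow]
      rw [Finset.sum_congr rfl h1, Finset.sum_const, nsmul_one]
      congr 1
      rw [← Set.ncard_eq_toFinset_card', ← Nat.card_coe_set_eq]
      have hdet : ∀ f : G →* ℂˣ, detOrder (fun g => (f g : ℂ)) = orderOf f := by
        intro f
        have hc : IsCharacter G (fun g => (f g : ℂ)) := CfsgLib.Char.isCharacter_hom f
        obtain ⟨n, ρ, hρ⟩ := id hc
        have hn : n = 1 := by
          have h1 := congrFun hρ 1
          rw [ρ.char_one, Module.finrank_fin_fun, map_one, Units.val_one] at h1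
          exact_mod_cast h1
        subst hn
        rw [detOrder, ← CfsgLib.Char.orderOf_homFn f]
        congr 1
        funext g
        rw [← hρ, CfsgLib.Char.detChar_eq_det, CfsgLib.Char.end_scalar_of_finrank_one (Module.finrank_fin_fun ℂ) (ρ g),
          LinearMap.det_smul, Module.finrank_fin_fun, map_one, mul_one, pow_one]
        exact congrFun hρ g
      refine (Nat.card_eq_of_bijective (fun f : T => (⟨(CfsgLib.Char.linCharEquiv f.1).1, ?_, ?_⟩ :
        {χ : IrrCharacter G // ¬ p ∣ charDegree (χ : G → ℂ) ∧ ¬ p ∣ detOrder (χ : G → ℂ)})) ⟨?_, ?_⟩).symm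
      · intro hd
        have h1 : ((charDegree ((CfsgLib.Char.linCharEquiv f.1).1 : G → ℂ) : ℕ) : ℂ) = 1 := by
          rw [CfsgLib.Block.charDegree_cast (CfsgLib.Char.linCharEquiv f.1).1.2.isCharacter']
          exact (CfsgLib.Char.linCharEquiv f.1).2
        rw [Nat.cast_eq_one.1 h1] at hd
        exact hp.one_lt.ne' (Nat.dvd_one.1 hd)
      · intro hd
        have hf := f.2
        simp only [hT, MonoidHom.mem_ker, powMonoidHom_apply] at hf
        have he : ((CfsgLib.Char.linCharEquiv f.1).1 : G → ℂ) = fun g => (f.1 g : ℂ) := rfl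
        rw [he, hdet] at hd
        exact hmp (hd.trans (orderOf_dvd_of_pow_eq_one hf))
      · intro f f' hff
        exact Subtype.ext (CfsgLib.Char.linCharEquiv.injective (Subtype.ext (congrArg (fun x => x.1) hff)))
      · rintro ⟨χ, hd, ho⟩
        have h1 : (χ : G → ℂ) 1 = 1 := by
          rw [← CfsgLib.Block.charDegree_cast χ.2.isCharacter', hone χ hd, Nat.cast_one]
        obtain ⟨f, hf⟩ := CfsgLib.Char.linCharEquiv.surjective ⟨χ, h1⟩
        have hχ : (χ : G → ℂ) = fun g => (f g : ℂ) := by
          have := congrArg (fun x => ((x.1 : IrrCharacter G) : G → ℂ)) hf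
          exact this.symm
        rw [hχ, hdet] at ho
        refine ⟨⟨f, ?_⟩, Subtype.ext (congrArg (fun x => x.1) hf)⟩
        simp only [hT, MonoidHom.mem_ker, powMonoidHom_apply]
        rw [← orderOf_dvd_iff_pow_eq_one]
        have hG : orderOf f ∣ Nat.card G := orderOf_dvd_of_pow_eq_one (MonoidHom.ext fun g => by
          rw [CfsgLib.Char.homPow_apply, ← map_pow, pow_card_eq_one', map_one, MonoidHom.one_apply])
        refine ((((hp.coprime_iff_not_dvd).2 ho).pow_left ((Nat.card G).factorization p)).symm).dvd_of_dvd_mul_left ?_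
        rw [hm, Nat.ordProj_mul_ordCompl_eq_self]
        exact hG
    rw [hcount] at h
    exact hTp ((ZMod.natCast_eq_zero_iff _ _).1 h.symm)
  · have hP : IsPGroup p (G ⧸ pResidual p G) := by
      intro q
      induction q using QuotientGroup.induction_on with
      | _ g =>
        refine ⟨(Nat.card G).factorization p, ?_⟩
        rw [← QuotientGroup.mk_pow, QuotientGroup.eq_one_iff]
        refine Subgroup.subset_closure ?_
        refine Nat.Coprime.coprime_dvd_left (orderOf_dvd_of_pow_eq_one ?_) (Nat.coprime_ordCompl hp (Nat.card_pos (α := G)).ne').symm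
        rw [← pow_mul, Nat.ordProj_mul_ordCompl_eq_self, pow_card_eq_one']
    obtain ⟨e, he⟩ := hP.exists_card_eq
    exact ⟨e, by rw [Subgroup.index_eq_card, he]⟩

end Cfsg.Agent.S4456
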