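import Cfsg.Statements.S4465
import Cfsg.Agent.Lib.CharLinearHall

set_option autoImplicit false
open Cfsg

namespace Cfsg.Agent.S4465

/-- Let the finite group G have a faithful character χ of degree n (G is a linear group of degree n), and let π be the set of primes greater than n + 1. Then G has an abelian Hall π-subgroup: an abelian subgroup A whose order is divisible only by primes greater than n + 1 and whose index is divisible by no prime greater than n + 1. -/
theorem result {G : Type*} [Group G] [Finite G] (χ : G → ℂ) (hχ : Cfsg.IsCharacter G χ) (hfaith : ∀ g : G, χ g = χ 1 → g = 1) (n : ℕ) (hn : Cfsg.charDegree χ = n) : ∃ A : Subgroup G, (∀ x ∈ A, ∀ y ∈ A, x * y = y * x) ∧ (∀ q : ℕ, q.Prime → q ∣ Nat.card A → n + 1 < q) ∧ ∀ q : ℕ, q.Prime → q ∣ A.index → q ≤ n + 1 := by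
  obtain ⟨d, ρ, rfl⟩ := hχ
  obtain rfl : d = n := by
    rw [← hn, Cfsg.charDegree, ρ.char_one]
    simp
  have hinj : Function.Injective ρ := by
    intro a b hab
    have h : a * b⁻¹ = 1 := hfaith _ (by
      have : ρ (a * b⁻¹) = ρ 1 := by rw [map_mul, hab, ← map_mul, mul_inv_cancel]
      show LinearMap.trace ℂ _ (ρ (a * b⁻¹)) = LinearMap.trace ℂ _ (ρ 1)
      rw [this])
    exact mul_inv_eq_one.mp h
  obtain ⟨H, hab, h1, h2⟩ := CfsgLib.LinHall.exists_hall ρ hinj
  exact ⟨H, hab, h1, h2⟩

end Cfsg.Agent.S4465
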