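import Mathlib
import Cfsg.Statements.S4470
import Cfsg.Agent.Lib.CharBlichfeldt

set_option autoImplicit false
open Cfsg

namespace Cfsg.Agent.S4470

open scoped ComplexConjugate ComplexOrder MatrixOrder
open Matrix CfsgLib.Blich

theorem exists_unitary {G : Type*} [Group G] [Finite G] {n : ℕ}
    (M : G →* Matrix (Fin n) (Fin n) ℂ) (hM : Function.Injective M) :
    ∃ R : G →* Matrix (Fin n) (Fin n) ℂ, Function.Injective R ∧ ∀ g, (R g)ᴴ * R g = 1 := by
  classical
  haveI := Fintype.ofFinite G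
  set P : Matrix (Fin n) (Fin n) ℂ := ∑ g : G, (M g)ᴴ * M g with hP
  have hpd : P.PosDef := by
    have : P = 1 + ∑ g ∈ Finset.univ.erase (1 : G), (M g)ᴴ * M g := by
      rw [hP, ← Finset.add_sum_erase _ _ (Finset.mem_univ (1 : G))]
      simp
    rw [this]
    refine Matrix.PosDef.one.add_posSemidef ?_
    exact Matrix.posSemidef_sum _ fun g _ => Matrix.posSemidef_conjTranspose_mul_self _
  have hsd : P.PosSemidef := hpd.posSemidef
  obtain ⟨B, hB⟩ := CStarAlgebra.nonneg_iff_eq_star_mul_self.mp hsd.nonneg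
  rw [Matrix.star_eq_conjTranspose] at hB
  have hdet : IsUnit B.det := by
    have h1 := hpd.isUnit
    rw [Matrix.isUnit_iff_isUnit_det, hB, Matrix.det_mul] at h1
    exact isUnit_of_mul_isUnit_right h1
  have hinv : ∀ h : G, (M h)ᴴ * P * M h = P := by
    intro h
    rw [hP, Matrix.mul_sum, Matrix.sum_mul]
    refine Fintype.sum_equiv (Equiv.mulRight h) _ _ fun g => ?_
    rw [Equiv.coe_mulRight, map_mul, Matrix.conjTranspose_mul]
    simp only [Matrix.mul_assoc]
  let R : G →* Matrix (Fin n) (Fin n) ℂ :=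
    { toFun := fun g => B * M g * B⁻¹
      map_one' := by rw [map_one, Matrix.mul_one, Matrix.mul_nonsing_inv _ hdet]
      map_mul' := fun a b => by
        rw [map_mul, Matrix.mul_assoc (B * M a) B⁻¹, ← Matrix.mul_assoc B⁻¹ (B * M b),
          ← Matrix.mul_assoc B⁻¹ B, Matrix.nonsing_inv_mul _ hdet, Matrix.one_mul]
        simp only [Matrix.mul_assoc] }
  refine ⟨R, fun a b h => ?_, fun g => ?_⟩
  · apply hM
    have h1 : B⁻¹ * (B * M a * B⁻¹) * B = B⁻¹ * (B * M b * B⁻¹) * B :=
      congrArg (fun X => B⁻¹ * X * B) h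
    simpa only [← Matrix.mul_assoc, Matrix.nonsing_inv_mul _ hdet, Matrix.one_mul,
      Matrix.mul_assoc _ B⁻¹ B, Matrix.mul_one] using h1
  · show (B * M g * B⁻¹)ᴴ * (B * M g * B⁻¹) = 1
    have : (B * M g * B⁻¹)ᴴ * (B * M g * B⁻¹) = (B⁻¹)ᴴ * ((M g)ᴴ * (Bᴴ * B) * M g) * B⁻¹ := by
      simp only [Matrix.conjTranspose_mul, Matrix.mul_assoc]
    rw [this, ← hB, hinv, hB, ← Matrix.mul_assoc, Matrix.mul_assoc (B⁻¹ᴴ * Bᴴ),
      Matrix.mul_nonsing_inv _ hdet, Matrix.mul_one, ← Matrix.conjTranspose_mul,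
      Matrix.mul_nonsing_inv _ hdet, Matrix.conjTranspose_one]

/-- The colour of a complex number: the sector of width a sixth of `π` containing it. -/
noncomputable def colour (z : ℂ) : Fin 12 :=
  ⟨(⌊(Complex.arg z + Real.pi) / (Real.pi / 6)⌋ % 12).toNat, by omega⟩

theorem re_of_colour {a b : ℂ} (ha : ‖a‖ = 1) (hb : ‖b‖ = 1) (h : colour a = colour b) :
    Real.sqrt 3 / 2 < (a * conj b).re := by
  set x := (Complex.arg a + Real.pi) / (Real.pi / 6) with hx
  set y := (Complex.arg b + Real.pi) / (Real.pi / 6) with hy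
  have h' : ⌊x⌋ % 12 = ⌊y⌋ % 12 := by
    have := congrArg Fin.val h
    simp only [colour, ← hx, ← hy] at this
    omega
  obtain ⟨j, hj⟩ : ∃ j : ℤ, ⌊x⌋ = ⌊y⌋ + 12 * j := ⟨(⌊x⌋ - ⌊y⌋) / 12, by omega⟩
  have hj' : (⌊x⌋ : ℝ) = ⌊y⌋ + 12 * j := by exact_mod_cast hj
  set d := x - y - 12 * j with hd
  have hd1 : |d| < 1 := by
    have := Int.floor_le x; have := Int.lt_floor_add_one x
    have := Int.floor_le y; have := Int.lt_floor_add_one y
    rw [abs_lt]
    constructor <;> linarith
  have hre : (a * conj b).re = Real.cos (Complex.arg a - Complex.arg b) := by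
    have h1 := Complex.norm_mul_exp_arg_mul_I a
    have h2 := Complex.norm_mul_exp_arg_mul_I b
    rw [ha, Complex.ofReal_one, one_mul] at h1
    rw [hb, Complex.ofReal_one, one_mul] at h2
    rw [Real.cos_sub]
    conv_lhs => rw [← h1, ← h2]
    rw [Complex.mul_re, Complex.conj_re, Complex.conj_im, Complex.exp_ofReal_mul_I_re,
      Complex.exp_ofReal_mul_I_re, Complex.exp_ofReal_mul_I_im, Complex.exp_ofReal_mul_I_im]
    ring
  have hang : Complex.arg a - Complex.arg b = d * (Real.pi / 6) + j * (2 * Real.pi) := by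
    rw [hd, hx, hy]
    field_simp
    ring
  rw [hre, hang, Real.cos_add_int_mul_two_pi, ← Real.cos_abs, ← Real.cos_pi_div_six]
  refine Real.cos_lt_cos_of_nonneg_of_le_pi_div_two (abs_nonneg _) (by linarith [Real.pi_pos]) ?_
  rw [abs_mul, abs_of_pos (show (0 : ℝ) < Real.pi / 6 by positivity)]
  exact mul_lt_of_lt_one_left (by positivity) hd1

theorem index_bound {G : Type*} [Group G] [Finite G] {n : ℕ} (R : G →* Matrix (Fin n) (Fin n) ℂ)
    (hR : ∀ g, (R g)ᴴ * R g = 1) (A H : Subgroup G) (hA : ∀ g, Near (R g) → g ∈ A)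
    (hH : ∀ x ∈ H, ∀ y ∈ H, x * y = y * x) : (A.subgroupOf H).index ≤ 12 ^ n := by
  classical
  let f : ↥H → Module.End ℂ (Fin n → ℂ) := fun h => Matrix.mulVecLin (R (h : G))
  have hfap : ∀ (h : ↥H) v, f h v = R (h : G) *ᵥ v := fun h v => rfl
  have hmul : ∀ a b : ↥H, f (a * b) = f a * f b := by
    intro a b
    refine LinearMap.ext fun v => ?_
    simp [hfap, Matrix.mulVec_mulVec, ← map_mul]
  have hcomm : Pairwise fun i j => Commute (f i) (f j) := by
    intro a b _
    show f a * f b = f b * f a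
    rw [← hmul, ← hmul]
    congr 1
    exact Subtype.ext (hH _ a.2 _ b.2)
  have hpow : ∀ h : ↥H, f h ^ Nat.card ↥H = 1 := by
    intro h
    have : ∀ k : ℕ, f (h ^ k) = f h ^ k := by
      intro k
      induction k with
      | zero => refine LinearMap.ext fun v => ?_; simp [hfap]
      | succ k ih => rw [pow_succ, hmul, ih, pow_succ]
    rw [← this, pow_card_eq_one']
    refine LinearMap.ext fun v => ?_; simp [hfap]
  have hss : ∀ h, (f h).IsSemisimple := by
    intro h
    have hsep : (Polynomial.X ^ Nat.card ↥H - Polynomial.C (1 : ℂ)).Separable :=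
      Polynomial.separable_X_pow_sub_C _ (by exact_mod_cast Nat.card_pos.ne') one_ne_zero
    exact Module.End.isSemisimple_of_squarefree_aeval_eq_zero hsep.squarefree (by simp [hpow h])
  have hmax : ∀ h μ, (f h).maxGenEigenspace μ = (f h).eigenspace μ := fun h μ =>
    (hss h).isFinitelySemisimple.maxGenEigenspace_eq_eigenspace μ
  set J : (↥H → ℂ) → Submodule ℂ (Fin n → ℂ) :=
    fun (φ : ↥H → ℂ) => ⨅ h, (f h).maxGenEigenspace (φ h) with hJ
  have hind : iSupIndep J := Module.End.independent_iInf_maxGenEigenspace_of_forall_mapsTo f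
    fun i j φ => Module.End.mapsTo_maxGenEigenspace_of_comm
      (by rcases eq_or_ne j i with rfl | hij
          · exact Commute.refl _
          · exact hcomm hij) φ
  have htop : ⨆ φ, J φ = ⊤ :=
    Module.End.iSup_iInf_maxGenEigenspace_eq_top_of_iSup_maxGenEigenspace_eq_top_of_commute f hcomm
      fun h => Module.End.iSup_maxGenEigenspace_eq_top (f h)
  have hfin : Finite {φ // J φ ≠ ⊥} := hind.fintypeNeBotOfFiniteDimensional.finite
  haveI := Fintype.ofFinite {φ // J φ ≠ ⊥}
  have hcard : Fintype.card {φ // J φ ≠ ⊥} ≤ n :=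
    hind.subtype_ne_bot_le_finrank.trans (by simp)
  have hvec : ∀ φ : {φ // J φ ≠ ⊥}, ∃ v, v ≠ 0 ∧ ∀ h : ↥H, R (h : G) *ᵥ v = φ.1 h • v := by
    rintro ⟨φ, hφ⟩
    obtain ⟨v, hv, hv0⟩ := Submodule.exists_mem_ne_zero_of_ne_bot hφ
    refine ⟨v, hv0, fun h => ?_⟩
    simp only [hJ, Submodule.mem_iInf] at hv
    have := hv h
    rw [hmax, Module.End.mem_eigenspace_iff] at this
    exact this
  choose v hv0 hve using hvec
  have hnorm : ∀ (φ : {φ // J φ ≠ ⊥}) (h : ↥H), ‖φ.1 h‖ = 1 := by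
    intro φ h
    have := q_unitary (R (h : G)) (hR _) (v φ)
    rw [hve φ h] at this
    have h2 : Complex.normSq (φ.1 h) * q (v φ) = q (v φ) := by
      simpa [q_eq, Complex.normSq_mul, ← Finset.mul_sum] using this
    have hq : q (v φ) ≠ 0 := fun e => hv0 φ (q_eq_zero.1 e)
    have h3 := (mul_left_eq_self₀.1 h2).resolve_right hq
    rw [Complex.normSq_eq_norm_sq] at h3
    exact (sq_eq_one_iff.1 h3).resolve_right (by linarith [norm_nonneg (φ.1 h)])
  let col : ↥H → ({φ // J φ ≠ ⊥} → Fin 12) := fun h φ => colour (φ.1 h)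
  have hkey : ∀ a b : ↥H, col a = col b → ((a * b⁻¹ : ↥H) : G) ∈ A := by
    intro a b hab
    refine hA _ fun l w hw he => ?_
    obtain ⟨φ, hφ⟩ : ∃ φ : {φ // J φ ≠ ⊥}, φ.1 (a * b⁻¹) = l := by
      by_contra hc
      push Not at hc
      apply hw
      have hle : (⨆ φ, J φ) ≤ ⨆ (μ : ℂ) (_ : μ ≠ l), (f (a * b⁻¹)).eigenspace μ := by
        refine iSup_le fun φ => ?_
        by_cases hφ : J φ = ⊥
        · rw [hφ]; exact bot_le
        · refine le_iSup₂_of_le (φ (a * b⁻¹)) (hc ⟨φ, hφ⟩) ?_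
          rw [← hmax]
          exact iInf_le _ _
      rw [htop] at hle
      have hd := ((f (a * b⁻¹)).eigenspaces_iSupIndep l).le_bot
      have : w ∈ (⊥ : Submodule ℂ (Fin n → ℂ)) :=
        hd ⟨Module.End.mem_eigenspace_iff.2 he, hle Submodule.mem_top⟩
      simpa using this
    have hb0 : φ.1 b ≠ 0 := fun e => by simpa [e] using hnorm φ b
    have he2 : φ.1 (a * b⁻¹) * φ.1 b = φ.1 a := by
      have h1 := hve φ a
      have e : (a : G) = ((a * b⁻¹ : ↥H) : G) * (b : G) := by simp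
      rw [e, map_mul, ← Matrix.mulVec_mulVec, hve φ b, Matrix.mulVec_smul, hve φ (a * b⁻¹),
        smul_smul, mul_comm] at h1
      exact smul_left_injective ℂ (hv0 φ) h1
    have he3 : l = φ.1 a * conj (φ.1 b) := by
      rw [← hφ, ← he2, mul_assoc, Complex.mul_conj, Complex.normSq_eq_norm_sq, hnorm]
      simp
    rw [he3]
    exact re_of_colour (hnorm φ a) (hnorm φ b) (congrFun hab φ)
  have hinj : Function.Injective fun c : ↥H ⧸ A.subgroupOf H => col c.out := by
    intro c d hcd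
    rw [← QuotientGroup.out_eq' c, ← QuotientGroup.out_eq' d]
    refine (QuotientGroup.eq).2 ?_
    rw [Subgroup.mem_subgroupOf]
    have h1 := hkey d.out c.out hcd.symm
    have h2 : (((d.out : ↥H) * (c.out)⁻¹ : ↥H) : G) = ((c.out)⁻¹ * d.out : ↥H) := by
      push_cast
      exact hH _ d.out.2 _ (inv_mem c.out.2)
    rwa [h2] at h1
  calc (A.subgroupOf H).index = Nat.card (↥H ⧸ A.subgroupOf H) := rfl
    _ ≤ Nat.card ({φ // J φ ≠ ⊥} → Fin 12) := Nat.card_le_card_of_injective _ hinj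
    _ = 12 ^ Fintype.card {φ // J φ ≠ ⊥} := by simp
    _ ≤ 12 ^ n := Nat.pow_le_pow_right (by norm_num) hcard

/-- Let the finite group G have a faithful character of degree n. Then G has an abelian normal subgroup A such that every abelian subgroup H of G satisfies [H : H ⊓ A] ≤ 12^n. -/
theorem result {G : Type*} [Group G] [Finite G] (χ : G → ℂ) (hχ : Cfsg.IsCharacter G χ) (hfaith : ∀ g : G, χ g = χ 1 → g = 1) (n : ℕ) (hn : Cfsg.charDegree χ = n) : ∃ A : Subgroup G, A.Normal ∧ (∀ x ∈ A, ∀ y ∈ A, x * y = y * x) ∧ ∀ H : Subgroup G, (∀ x ∈ H, ∀ y ∈ H, x * y = y * x) → (A.subgroupOf H).index ≤ 12 ^ n := by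
  obtain ⟨d, ρ, rfl⟩ := hχ
  obtain rfl : d = n := by
    rw [← hn, Cfsg.charDegree, ρ.char_one]
    simp
  let M : G →* Matrix (Fin d) (Fin d) ℂ :=
    (LinearMap.toMatrixAlgEquiv' (R := ℂ) (n := Fin d)).toMonoidHom.comp ρ
  have hM : Function.Injective M := by
    rw [injective_iff_map_eq_one]
    intro g hg
    apply hfaith
    have : ρ g = ρ 1 := by
      apply (LinearMap.toMatrixAlgEquiv' (R := ℂ) (n := Fin d)).injective
      rw [map_one ρ, map_one]
      exact hg
    show LinearMap.trace ℂ _ (ρ g) = LinearMap.trace ℂ _ (ρ 1)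
    rw [this]
  obtain ⟨R, hinj, hR⟩ := exists_unitary M hM
  refine ⟨Subgroup.closure {g | Near (R g)}, ?_, ?_, fun H hH =>
    index_bound R hR _ H (fun g hg => Subgroup.subset_closure hg) hH⟩
  · refine ⟨fun x hx g => ?_⟩
    have hle : Subgroup.closure {g | Near (R g)} ≤
        (Subgroup.closure {g | Near (R g)}).comap (MulAut.conj g).toMonoidHom := by
      rw [Subgroup.closure_le]
      intro y hy
      exact Subgroup.subset_closure (near_conj R hy g)
    simpa using hle hx
  · have hle : Subgroup.closure {g | Near (R g)} ≤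
        Subgroup.centralizer (Subgroup.closure {g | Near (R g)} : Set G) := by
      rw [Subgroup.centralizer_closure, Subgroup.closure_le]
      intro a ha
      rw [SetLike.mem_coe, Subgroup.mem_centralizer_iff]
      exact fun b hb => near_commute R hR hinj hb ha
    intro x hx y hy
    exact (Subgroup.mem_centralizer_iff.1 (hle hx) y hy).symm

end Cfsg.Agent.S4470
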