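import Mathlib
import Cfsg.Statements.S4469
import Cfsg.Agent.S4470
import Cfsg.Agent.Lib.CharLinearHall
import Cfsg.Agent.Lib.CharBrauer2

set_option autoImplicit false
open Cfsg

namespace Cfsg.Agent.S4469

open CfsgLib.Char
open scoped Pointwise

universe u

theorem normalCore_index_dvd {P : Type u} [Group P] [Finite P] (U : Subgroup P) :
    U.normalCore.index ∣ Nat.factorial U.index := by
  classical
  haveI := Fintype.ofFinite (P ⧸ U)
  rw [Subgroup.normalCore_eq_ker, Subgroup.index_ker, Subgroup.index, ← Nat.card_perm]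
  exact Subgroup.card_subgroup_dvd_card _

/-- A nilpotent linear group of degree `n` has a normal abelian subgroup of index dividing `n!`. -/
theorem exists_abelian_dvd_factorial {P : Type u} [Group P] [Finite P] [Group.IsNilpotent P]
    {n : ℕ} (ρ : Representation ℂ P (Fin n → ℂ)) (hρ : Function.Injective ρ) :
    ∃ B : Subgroup P, (∀ a ∈ B, ∀ b ∈ B, a * b = b * a) ∧ B.index ∣ Nat.factorial n := by
  classical
  haveI := Fintype.ofFinite P
  have hf := isCharacter_rep ρ
  choose k hk using fun θ : IrrCharacter P => inner_character_nat hf θ.2.isCharacter'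
  choose e he using fun θ : IrrCharacter P => exists_degree_pos θ.2
  have hexp := classFunction_eq_sum ρ.character (isCharacter_classFunction hf)
  have hsum : n = ∑ θ : IrrCharacter P, k θ * e θ := by
    have h1 := congrFun hexp 1
    simp only [Finset.sum_apply, Pi.smul_apply, smul_eq_mul, hk, fun θ => (he θ).2] at h1
    rw [ρ.char_one, Module.finrank_fin_fun] at h1
    exact_mod_cast h1
  choose U f hUf using fun θ : IrrCharacter P =>
    nilpotent_monomial (Nat.card P) P rfl inferInstance θ θ.2
  have hUe : ∀ θ, (U θ).index = e θ := by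
    intro θ
    have h1 := congrFun (hUf θ) 1
    rw [(he θ).2, indFun_one_apply, map_one, Units.val_one, mul_one] at h1
    exact_mod_cast h1.symm
  set S : Finset (IrrCharacter P) := Finset.univ.filter fun θ => k θ ≠ 0 with hS
  refine ⟨S.inf fun θ => (U θ).normalCore, fun a ha b hb => ?_, ?_⟩
  · have hker : ρ.character (a * b * a⁻¹ * b⁻¹) = ρ.character 1 := by
      rw [hexp]
      simp only [Finset.sum_apply, Pi.smul_apply, smul_eq_mul]
      refine Finset.sum_congr rfl fun θ _ => ?_
      by_cases h0 : k θ = 0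
      · rw [hk, h0, Nat.cast_zero, zero_mul, zero_mul]
      congr 1
      have hθS : θ ∈ S := Finset.mem_filter.mpr ⟨Finset.mem_univ _, h0⟩
      have hN := (U θ).normalCore_normal
      have haN : a ∈ (U θ).normalCore := Finset.inf_le (f := fun θ => (U θ).normalCore) hθS ha
      have hbN : b ∈ (U θ).normalCore := Finset.inf_le (f := fun θ => (U θ).normalCore) hθS hb
      rw [hUf θ, indFun_apply, indFun_apply]
      congr 1
      refine Finset.sum_congr rfl fun x _ => ?_
      have hax : x⁻¹ * a * x ∈ U θ := (U θ).normalCore_le (by simpa using hN.conj_mem a haN x⁻¹)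
      have hbx : x⁻¹ * b * x ∈ U θ := (U θ).normalCore_le (by simpa using hN.conj_mem b hbN x⁻¹)
      have e2 : x⁻¹ * (a * b * a⁻¹ * b⁻¹) * x =
          (((⟨_, hax⟩ : U θ) * ⟨_, hbx⟩ * (⟨_, hax⟩ : U θ)⁻¹ * (⟨_, hbx⟩ : U θ)⁻¹ : U θ) : P) := by
        simp only [Subgroup.coe_mul, InvMemClass.coe_inv]
        group
      have e3 : x⁻¹ * 1 * x = ((1 : U θ) : P) := by simp
      rw [e2, e3, extendByZero_mem _ (SetLike.coe_mem _), extendByZero_mem _ (SetLike.coe_mem _)]
      simp only [Subtype.coe_eta, map_mul, map_inv, map_one]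
      rw [mul_inv_cancel_comm, mul_inv_cancel]
    have h2 := hρ (((char_eq_one_iff ρ _).mp hker).trans (map_one ρ).symm)
    rwa [mul_inv_eq_one, mul_inv_eq_iff_eq_mul] at h2
  · have key : ∀ T : Finset (IrrCharacter P),
        (T.inf fun θ => (U θ).normalCore).index ∣ ∏ θ ∈ T, Nat.factorial (e θ) := by
      intro T
      induction T using Finset.induction_on with
      | empty => simp
      | insert t T htT ihT =>
        rw [Finset.inf_insert, Finset.prod_insert htT]
        haveI := (U t).normalCore_normal
        rw [← Subgroup.relIndex_mul_index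
          (inf_le_right : (U t).normalCore ⊓ (T.inf fun θ => (U θ).normalCore) ≤ _),
          Subgroup.inf_relIndex_right]
        refine mul_dvd_mul (Dvd.dvd.trans (Subgroup.relIndex_dvd_index_of_normal _ _) ?_) ihT
        rw [← hUe t]
        exact normalCore_index_dvd (U t)
    refine (key S).trans ((Nat.prod_factorial_dvd_factorial_sum S e).trans (Nat.factorial_dvd_factorial ?_))
    rw [hsum]
    refine le_trans (Finset.sum_le_sum fun θ hθ => ?_)
      (Finset.sum_le_sum_of_subset (Finset.subset_univ S))
    exact Nat.le_mul_of_pos_left _ (Nat.pos_of_ne_zero (Finset.mem_filter.mp hθ).2)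

/-- The classical bound for finite linear groups, in explicit form. Let the finite group G have a faithful character of degree n. Then G has an abelian normal subgroup whose index is at most n! · 12^(n·(π(n+1)+1)), π(k) denoting the number of primes not exceeding k. -/
theorem result {G : Type*} [Group G] [Finite G] (χ : G → ℂ) (hχ : Cfsg.IsCharacter G χ) (hfaith : ∀ g : G, χ g = χ 1 → g = 1) (n : ℕ) (hn : Cfsg.charDegree χ = n) : ∃ A : Subgroup G, A.Normal ∧ (∀ x ∈ A, ∀ y ∈ A, x * y = y * x) ∧ A.index ≤ Nat.factorial n * 12 ^ (n * (Nat.primeCounting (n + 1) + 1)) := by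
  classical
  obtain ⟨A, hAn, hAab, hAbound⟩ := Cfsg.Agent.S4470.result χ hχ hfaith n hn
  obtain ⟨d, ρ, rfl⟩ := hχ
  obtain rfl : d = n := by
    rw [← hn, Cfsg.charDegree, ρ.char_one]
    simp
  have hinj : Function.Injective ρ := by
    intro a b hab
    have h : a * b⁻¹ = 1 := hfaith _ (by
      have : ρ (a * b⁻¹) = ρ 1 := by rw [map_mul, hab, ← map_mul, mul_inv_cancel]
      show LinearMap.trace ℂ _ (ρ (a * b⁻¹)) = LinearMap.trace ℂ _ (ρ 1)
      rw [this])
    exact mul_inv_eq_one.mp h
  obtain ⟨H, hHab, hHπ⟩ := CfsgLib.LinHall.exists_hall ρ hinj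
  refine ⟨A, hAn, hAab, ?_⟩
  set s : Finset ℕ := (d + 1 + 1).primesBelow with hs
  -- the bound at each small prime
  have hsmall : ∀ p ∈ s, ∃ r : ℕ, 0 < r ∧ r ≤ p ^ (Nat.factorial d).factorization p * 12 ^ d ∧
      p ^ A.index.factorization p ∣ r := by
    intro p hp
    have hpp : p.Prime := Nat.prime_of_mem_primesBelow hp
    haveI := Fact.mk hpp
    obtain ⟨P⟩ := (inferInstance : Nonempty (Sylow p G))
    haveI : Group.IsNilpotent (P : Subgroup G) := P.isPGroup'.isNilpotent
    obtain ⟨B, hBab, hBdvd⟩ := exists_abelian_dvd_factorial (ρ.comp (P : Subgroup G).subtype)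
      (hinj.comp (P : Subgroup G).subtype_injective)
    set B' := B.map (P : Subgroup G).subtype with hB'
    have hb := hAbound B' (by
      rintro _ ⟨a, ha, rfl⟩ _ ⟨b, hb, rfl⟩
      rw [← map_mul, ← map_mul, hBab a ha b hb])
    refine ⟨B.index * (A.subgroupOf B').index,
      Nat.mul_pos (Nat.pos_of_ne_zero Subgroup.index_ne_zero_of_finite)
        (Nat.pos_of_ne_zero Subgroup.index_ne_zero_of_finite), Nat.mul_le_mul ?_ hb, ?_⟩
    · obtain ⟨k, hk⟩ := IsPGroup.iff_card.mp P.2
      obtain ⟨i, -, hi⟩ := (Nat.dvd_prime_pow hpp).mp (hk ▸ B.index_dvd_card)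
      rw [hi]
      exact Nat.pow_le_pow_right hpp.pos
        ((hpp.pow_dvd_iff_le_factorization (Nat.factorial_ne_zero d)).mp (hi ▸ hBdvd))
    · -- `|P| ∣ r * |A|`
      have h1 : Nat.card P ∣ B.index * (A.subgroupOf B').index * Nat.card A := by
        rw [← B.card_mul_index, mul_comm (Nat.card B), mul_assoc]
        refine mul_dvd_mul_left _ ?_
        rw [← Subgroup.card_subtype (P : Subgroup G) B, ← hB', ← (A.subgroupOf B').card_mul_index,
          mul_comm]
        refine mul_dvd_mul_left _ ?_
        rw [← Subgroup.card_subtype B' (A.subgroupOf B')]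
        exact Subgroup.card_dvd_of_le ((Subgroup.subgroupOf_map_subtype A B').le.trans inf_le_left)
      have h2 := (hpp.pow_dvd_iff_le_factorization (Nat.mul_ne_zero (Nat.mul_ne_zero
        Subgroup.index_ne_zero_of_finite Subgroup.index_ne_zero_of_finite) Nat.card_pos.ne')).mp
        (P.card_eq_multiplicity ▸ h1)
      rw [← A.card_mul_index, Nat.factorization_mul Nat.card_pos.ne' Subgroup.index_ne_zero_of_finite,
        Nat.factorization_mul (Nat.mul_ne_zero Subgroup.index_ne_zero_of_finite
          Subgroup.index_ne_zero_of_finite) Nat.card_pos.ne', Finsupp.add_apply, Finsupp.add_apply] at h2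
      exact (hpp.pow_dvd_iff_le_factorization (Nat.mul_ne_zero Subgroup.index_ne_zero_of_finite
        Subgroup.index_ne_zero_of_finite)).mpr (by omega)
  choose r hr0 hrle hrdvd using hsmall
  set R := (A.subgroupOf H).index with hR
  have hRle : R ≤ 12 ^ d := hAbound H hHab
  have hR0 : 0 < R := Nat.pos_of_ne_zero Subgroup.index_ne_zero_of_finite
  let r' : ℕ → ℕ := fun p => if h : p ∈ s then r p h else 1
  have hprod0 : (∏ p ∈ s, r' p) ≠ 0 := Finset.prod_ne_zero_iff.mpr fun p hp => by
    simp only [r', dif_pos hp]; exact (hr0 p hp).ne'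
  have hdvd : A.index ∣ (∏ p ∈ s, r' p) * R := by
    refine (Nat.dvd_iff_prime_pow_dvd_dvd _ _).mpr fun q k hq hk => ?_
    have hk' : k ≤ A.index.factorization q :=
      (hq.pow_dvd_iff_le_factorization Subgroup.index_ne_zero_of_finite).mp hk
    refine (pow_dvd_pow q hk').trans ?_
    by_cases hqs : q ∈ s
    · refine Dvd.dvd.mul_right ((hrdvd q hqs).trans ?_) _
      have := Finset.dvd_prod_of_mem r' hqs
      simpa only [r', dif_pos hqs] using this
    · refine Dvd.dvd.mul_left ?_ _
      have hqn : d + 1 < q := by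
        by_contra hc
        exact hqs (Nat.mem_primesBelow.mpr ⟨by omega, hq⟩)
      -- `|H| ∣ R * |A|` and `|H|` has full `q`-order
      have h1 : Nat.card H ∣ R * Nat.card A := by
        rw [hR, ← (A.subgroupOf H).card_mul_index, mul_comm]
        refine mul_dvd_mul_left _ ?_
        rw [← Subgroup.card_subtype H (A.subgroupOf H)]
        exact Subgroup.card_dvd_of_le ((Subgroup.subgroupOf_map_subtype A H).le.trans inf_le_left)
      have h2 : (Nat.card G).factorization q ≤ (R * Nat.card A).factorization q := by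
        refine le_trans ?_ ((Nat.factorization_le_iff_dvd Nat.card_pos.ne'
          (Nat.mul_ne_zero hR0.ne' Nat.card_pos.ne')).mpr h1 q)
        rw [← H.card_mul_index, Nat.factorization_mul Nat.card_pos.ne' Subgroup.index_ne_zero_of_finite,
          Finsupp.add_apply, Nat.factorization_eq_zero_of_not_dvd (show ¬ q ∣ H.index from fun h => by
            have := hHπ.2 q hq h; omega), add_zero]
      rw [← A.card_mul_index, Nat.factorization_mul Nat.card_pos.ne' Subgroup.index_ne_zero_of_finite,
        Nat.factorization_mul hR0.ne' Nat.card_pos.ne', Finsupp.add_apply, Finsupp.add_apply] at h2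
      exact (hq.pow_dvd_iff_le_factorization hR0.ne').mpr (by omega)
  have hle : A.index ≤ (∏ p ∈ s, r' p) * R :=
    Nat.le_of_dvd (Nat.mul_pos (Nat.pos_of_ne_zero hprod0) hR0) hdvd
  refine hle.trans ?_
  have hcard : s.card = Nat.primeCounting (d + 1) := Nat.primesBelow_card_eq_primeCounting' _
  have hfac : (∏ p ∈ s, p ^ (Nat.factorial d).factorization p) ≤ Nat.factorial d := by
    refine Nat.le_of_dvd (Nat.factorial_pos d) ?_
    have key : ∀ T ⊆ s, (∏ p ∈ T, p ^ (Nat.factorial d).factorization p) ∣ Nat.factorial d := by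
      intro T
      induction T using Finset.induction_on with
      | empty => simp
      | insert t T htT ihT =>
        intro hT
        rw [Finset.prod_insert htT]
        refine Nat.Coprime.mul_dvd_of_dvd_of_dvd (Nat.Coprime.prod_right fun q hq => ?_)
          (Nat.ordProj_dvd _ _) (ihT fun x hx => hT (Finset.mem_insert_of_mem hx))
        exact Nat.Coprime.pow _ _ ((Nat.coprime_primes
          (Nat.prime_of_mem_primesBelow (hT (Finset.mem_insert_self t T)))
          (Nat.prime_of_mem_primesBelow (hT (Finset.mem_insert_of_mem hq)))).mpr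
            fun e => htT (e ▸ hq))
    exact key s subset_rfl
  calc (∏ p ∈ s, r' p) * R ≤ (∏ p ∈ s, p ^ (Nat.factorial d).factorization p * 12 ^ d) * 12 ^ d :=
        Nat.mul_le_mul (Finset.prod_le_prod' fun p hp => by
          simp only [r', dif_pos hp]; exact hrle p hp) hRle
    _ = (∏ p ∈ s, p ^ (Nat.factorial d).factorization p) * 12 ^ (d * (Nat.primeCounting (d + 1) + 1)) := by
        rw [Finset.prod_mul_distrib, Finset.prod_const, hcard, mul_assoc, ← pow_mul, ← pow_add, mul_add,
          mul_one]
    _ ≤ Nat.factorial d * 12 ^ (d * (Nat.primeCounting (d + 1) + 1)) := Nat.mul_le_mul_right _ hfac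

end Cfsg.Agent.S4469
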