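import Cfsg.Statements.S4473
import Cfsg.Agent.Lib.CharClifford
import Cfsg.Agent.Lib.CharLinear
import Cfsg.Agent.Lib.BlockRegular
import Mathlib.LinearAlgebra.Matrix.Charpoly.Coeff

set_option autoImplicit false
set_option maxHeartbeats 2000000
open Cfsg

namespace Cfsg.Agent.S4473

/-- The commutant of a nonscalar two by two matrix. -/
theorem commutant {M X : Matrix (Fin 2) (Fin 2) ℂ} (hM : ¬ ∃ c : ℂ, M = c • 1)
    (h : X * M = M * X) : ∃ u v : ℂ, X = u • 1 + v • M := by
  have e00 : X 0 0 * M 0 0 + X 0 1 * M 1 0 = M 0 0 * X 0 0 + M 0 1 * X 1 0 := by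
    simpa [Matrix.mul_apply, Fin.sum_univ_two] using congrFun (congrFun h 0) 0
  have e01 : X 0 0 * M 0 1 + X 0 1 * M 1 1 = M 0 0 * X 0 1 + M 0 1 * X 1 1 := by
    simpa [Matrix.mul_apply, Fin.sum_univ_two] using congrFun (congrFun h 0) 1
  have e10 : X 1 0 * M 0 0 + X 1 1 * M 1 0 = M 1 0 * X 0 0 + M 1 1 * X 1 0 := by
    simpa [Matrix.mul_apply, Fin.sum_univ_two] using congrFun (congrFun h 1) 0
  by_cases hb : M 0 1 = 0
  · by_cases hc : M 1 0 = 0
    · have hd : M 0 0 - M 1 1 ≠ 0 := fun hd => hM ⟨M 0 0, by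
        ext i j
        fin_cases i <;> fin_cases j <;> simp [hb, hc, sub_eq_zero.1 hd]⟩
      have x01 : X 0 1 = 0 := by
        have : X 0 1 * (M 0 0 - M 1 1) = 0 := by rw [hb] at e01; linear_combination -e01
        exact (mul_eq_zero.1 this).resolve_right hd
      have x10 : X 1 0 = 0 := by
        have : X 1 0 * (M 0 0 - M 1 1) = 0 := by rw [hc] at e10; linear_combination e10
        exact (mul_eq_zero.1 this).resolve_right hd
      refine ⟨X 0 0 - (X 0 0 - X 1 1) / (M 0 0 - M 1 1) * M 0 0,
        (X 0 0 - X 1 1) / (M 0 0 - M 1 1), ?_⟩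
      ext i j
      fin_cases i <;> fin_cases j <;> simp [hb, hc, x01, x10]
      field_simp
      ring
    · refine ⟨X 0 0 - X 1 0 / M 1 0 * M 0 0, X 1 0 / M 1 0, ?_⟩
      ext i j
      fin_cases i <;> fin_cases j <;> simp [hc] <;> field_simp <;>
        first
          | ring1
          | linear_combination e00
          | linear_combination -e00
          | linear_combination e10
          | linear_combination -e10
  · refine ⟨X 0 0 - X 0 1 / M 0 1 * M 0 0, X 0 1 / M 0 1, ?_⟩
    ext i j
    fin_cases i <;> fin_cases j <;> simp [hb] <;> field_simp <;>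
      first
        | ring1
        | linear_combination e00
        | linear_combination -e00
        | linear_combination e01
        | linear_combination -e01

/-- A nonscalar matrix of finite order is not a scalar plus nilpotent. -/
theorem disc_ne {M : Matrix (Fin 2) (Fin 2) ℂ} {k : ℕ} (hk : 0 < k) (hpow : M ^ k = 1)
    (hM : ¬ ∃ c : ℂ, M = c • 1) : M.det - M.trace ^ 2 / 4 ≠ 0 := by
  intro h
  set c := M.trace / 2 with hc
  set N := M - c • (1 : Matrix (Fin 2) (Fin 2) ℂ) with hN
  have htr : M.trace = M 0 0 + M 1 1 := Matrix.trace_fin_two M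
  rw [Matrix.det_fin_two] at h
  have hN2 : N * N = 0 := by
    ext i j
    fin_cases i <;> fin_cases j <;>
      simp [hN, hc, Matrix.mul_apply, Fin.sum_univ_two, htr] <;> rw [htr] at h <;>
      first
        | ring1
        | linear_combination -h
        | linear_combination h
  have hMe : M = c • 1 + N := by rw [hN]; abel
  have hp : ∀ m : ℕ, M ^ m = c ^ m • (1 : Matrix (Fin 2) (Fin 2) ℂ) + ((m : ℂ) * c ^ (m - 1)) • N := by
    intro m
    induction m with
    | zero => simp
    | succ m ih =>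
      rw [pow_succ, ih]
      conv_lhs => rw [hMe]
      simp only [add_mul, mul_add, smul_mul_assoc, mul_smul_comm, one_mul, mul_one, hN2,
        smul_add, smul_zero, add_zero, smul_smul]
      rcases m with _ | m
      · simp
      · simp only [Nat.add_sub_cancel]
        rw [add_assoc, ← add_smul]
        congr 1
        · rw [pow_succ c (m + 1)]; ring_nf
        · congr 1; push_cast; ring
  rw [hp] at hpow
  by_cases hc0 : c = 0
  · rcases k with _ | _ | k
    · omega
    · simp [hc0] at hpow
      exact hM ⟨1, by rw [hMe, hc0, hpow]; simp⟩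
    · simp [hc0] at hpow
  · have hne : (k : ℂ) * c ^ (k - 1) ≠ 0 :=
      mul_ne_zero (Nat.cast_ne_zero.2 hk.ne') (pow_ne_zero _ hc0)
    have hN' : N = (((k : ℂ) * c ^ (k - 1))⁻¹ * (1 - c ^ k)) • 1 := by
      rw [← smul_smul, sub_smul, one_smul, ← eq_sub_of_add_eq' hpow, smul_smul,
        inv_mul_cancel₀ hne, one_smul]
    exact hM ⟨c + ((k : ℂ) * c ^ (k - 1))⁻¹ * (1 - c ^ k), by rw [add_smul, ← hN', ← hMe]⟩

/-- Three orbits. -/
theorem three (N x y z : ℕ) (hx2 : 2 ≤ x) (hy2 : 2 ≤ y) (hz2 : 2 ≤ z) (hx : 4 * x = N)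
    (hy : 4 * y = N ∨ 6 * y = N ∨ 8 * y = N ∨ 10 * y = N ∨ 12 * y ≤ N)
    (hz : 4 * z = N ∨ 6 * z = N ∨ 8 * z = N ∨ 10 * z = N ∨ 12 * z ≤ N)
    (hs : 2 * (x + y + z) = N + 2) : N = 12 ∨ N = 24 ∨ N = 60 := by
  rcases hy with h | h | h | h | h <;> rcases hz with h' | h' | h' | h' | h' <;> omega

/-- The arithmetic of the class equation of a group with this partition. -/
theorem arith {ι : Type*} [Fintype ι] (N : ℕ) (k a e : ι → ℕ)
    (hk : ∀ i, 2 ≤ k i) (ha : ∀ i, 2 ≤ a i) (he : ∀ i, e i = 1 ∨ e i = 2)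
    (hN : ∀ i, k i * (a i * e i) = N) (hN1 : N ≠ 0 + 1) (hsum : ∑ i, k i * (a i - 1) + 1 = N) :
    N = 12 ∨ N = 24 ∨ N = 60 := by
  classical
  let w : ι → ℕ := fun i => k i * (a i - 1)
  have hw : ∀ i, w i + k i = k i * a i := fun i => by
    show k i * (a i - 1) + k i = k i * a i
    obtain ⟨b, hb⟩ : ∃ b, a i = b + 1 := ⟨a i - 1, by have := ha i; omega⟩
    rw [hb, Nat.add_sub_cancel]; ring
  have he' : ∀ i, k i * a i = N ∨ 2 * (k i * a i) = N := fun i => by
    rcases he i with h | h <;> have := hN i <;> rw [h] at this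
    · left; rw [← this]; ring
    · right; rw [← this]; ring
  have h2 : ∀ i, 2 * k i ≤ k i * a i := fun i => by
    rw [mul_comm 2]; exact Nat.mul_le_mul_left _ (ha i)
  have hcases : ∀ i, k i * a i = 2 * k i ∨ k i * a i = 3 * k i ∨ k i * a i = 4 * k i ∨
      k i * a i = 5 * k i ∨ 6 * k i ≤ k i * a i := fun i => by
    rcases (show a i = 2 ∨ a i = 3 ∨ a i = 4 ∨ a i = 5 ∨ 6 ≤ a i by have := ha i; omega) with
      h | h | h | h | h
    · exact Or.inl (by rw [h, mul_comm])
    · exact Or.inr (Or.inl (by rw [h, mul_comm]))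
    · exact Or.inr (Or.inr (Or.inl (by rw [h, mul_comm])))
    · exact Or.inr (Or.inr (Or.inr (Or.inl (by rw [h, mul_comm]))))
    · exact Or.inr (Or.inr (Or.inr (Or.inr (by rw [mul_comm 6]; exact Nat.mul_le_mul_left _ h))))
  rcases le_or_gt 4 (Fintype.card ι) with h4 | h4
  · exfalso
    obtain ⟨s, -, hs⟩ := Finset.exists_subset_card_eq (s := (Finset.univ : Finset ι)) h4
    have hle : ∑ i ∈ s, 4 * w i ≤ 4 * ∑ i, w i := by
      rw [Finset.mul_sum]; exact Finset.sum_le_sum_of_subset (Finset.subset_univ s)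
    have hge : ∑ i ∈ s, N ≤ ∑ i ∈ s, 4 * w i := Finset.sum_le_sum fun i _ => by
      have := he' i; have := hw i; have := h2 i; omega
    rw [Finset.sum_const, hs, smul_eq_mul] at hge
    change ∑ i, w i + 1 = N at hsum
    omega
  change ∑ i, w i + 1 = N at hsum
  have h4' : (Finset.univ : Finset ι).card < 4 := by rw [Finset.card_univ]; exact h4
  obtain h | h | h | h : (Finset.univ : Finset ι).card = 0 ∨ (Finset.univ : Finset ι).card = 1 ∨
      (Finset.univ : Finset ι).card = 2 ∨ (Finset.univ : Finset ι).card = 3 := by omega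
  · exact absurd h (fun h => by
      rw [Finset.card_eq_zero.1 h, Finset.sum_empty] at hsum
      exact hN1 hsum.symm)
  · obtain ⟨i, hi⟩ := Finset.card_eq_one.1 h
    rw [hi, Finset.sum_singleton] at hsum
    have := he' i; have := hw i; have := h2 i; have := hk i
    omega
  · obtain ⟨i, j, hij, hi⟩ := Finset.card_eq_two.1 h
    rw [hi, Finset.sum_pair hij] at hsum
    have := he' i; have := hw i; have := h2 i; have := hk i
    have := he' j; have := hw j; have := h2 j; have := hk j
    rcases hcases i with hi' | hi' | hi' | hi' | hi' <;>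
      rcases hcases j with hj' | hj' | hj' | hj' | hj' <;> omega
  · obtain ⟨i, j, l, hij, hil, hjl, hi⟩ := Finset.card_eq_three.1 h
    rw [hi, Finset.sum_insert (by simp [hij, hil]), Finset.sum_pair hjl] at hsum
    have h2i : 2 * (k i * a i) = N ∧ 2 * (k j * a j) = N ∧ 2 * (k l * a l) = N := by
      have := he' i; have := hw i; have := h2 i; have := hk i
      have := he' j; have := hw j; have := h2 j; have := hk j
      have := he' l; have := hw l; have := h2 l; have := hk l
      omega
    have := hw i; have := hk i; have := hw j; have := hk j; have := hw l; have := hk l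
    have := hcases i; have := hcases j; have := hcases l
    obtain h' | h' | h' : k i * a i = 2 * k i ∨ k j * a j = 2 * k j ∨ k l * a l = 2 * k l := by omega
    · exact three N (k i) (k j) (k l) (hk i) (hk j) (hk l) (by omega) (by omega) (by omega) (by omega)
    · exact three N (k j) (k i) (k l) (hk j) (hk i) (hk l) (by omega) (by omega) (by omega) (by omega)
    · exact three N (k l) (k i) (k j) (hk l) (hk i) (hk j) (by omega) (by omega) (by omega) (by omega)

/-- Let the finite group G have a faithful irreducible character χ of degree 2 that is primitive: χ is not induced from a character of any proper subgroup. Then the centre of G has index 12, 24 or 60. -/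
theorem result {G : Type*} [Group G] [Fintype G] (χ : Cfsg.IrrCharacter G) (hfaith : ∀ g : G, (χ : G → ℂ) g = (χ : G → ℂ) 1 → g = 1) (h2 : Cfsg.charDegree (χ : G → ℂ) = 2) (hprim : ∀ H : Subgroup G, H ≠ ⊤ → ∀ θ : H → ℂ, Cfsg.IsCharacter H θ → (χ : G → ℂ) ≠ Cfsg.indFun H θ) : (Subgroup.center G).index = 12 ∨ (Subgroup.center G).index = 24 ∨ (Subgroup.center G).index = 60 := by
  classical
  obtain ⟨n, ρ, hρ, hρc⟩ := χ.2
  have hn : n = 2 := by
    have h : (χ : G → ℂ) 1 = (n : ℂ) := by rw [← hρc, ρ.char_one, Module.finrank_fin_fun]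
    rw [← CfsgLib.Block.charDegree_cast χ.2.isCharacter', h2] at h
    exact_mod_cast h.symm
  subst hn
  let R : G →* Matrix (Fin 2) (Fin 2) ℂ :=
    (LinearMap.toMatrixAlgEquiv' (R := ℂ) (n := Fin 2)).toRingEquiv.toMonoidHom.comp ρ
  have htr : ∀ g, (R g).trace = (χ : G → ℂ) g := fun g => by
    rw [← hρc]
    show _ = LinearMap.trace ℂ _ (ρ g)
    rw [LinearMap.trace_eq_matrix_trace ℂ (Pi.basisFun ℂ (Fin 2)),
      LinearMap.toMatrix_eq_toMatrix']
    rfl
  have hinj : Function.Injective R := by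
    rw [← MonoidHom.ker_eq_bot_iff, Subgroup.eq_bot_iff_forall]
    intro g hg
    exact hfaith g (by rw [← htr, ← htr, MonoidHom.mem_ker.1 hg, map_one])
  have hne : ¬ ∀ a b : G, a * b = b * a := fun h => by
    have h1 := CfsgLib.Char.irr_degree_one_of_comm h χ.2
    rw [← CfsgLib.Block.charDegree_cast χ.2.isCharacter', h2] at h1
    norm_num at h1
  have hsc : ∀ g, (∃ c : ℂ, R g = c • 1) ↔ g ∈ Subgroup.center G := by
    intro g
    refine ⟨fun ⟨c, hc⟩ => Subgroup.mem_center_iff.2 fun x => hinj (by simp [hc]), fun hg => ?_⟩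
    by_contra hns
    refine hne fun a b => hinj ?_
    obtain ⟨u, v, hu⟩ := commutant hns (X := R a) (by
      rw [← map_mul, ← map_mul, Subgroup.mem_center_iff.1 hg a])
    obtain ⟨u', v', hu'⟩ := commutant hns (X := R b) (by
      rw [← map_mul, ← map_mul, Subgroup.mem_center_iff.1 hg b])
    rw [map_mul, map_mul, hu, hu']
    simp only [add_mul, mul_add, smul_mul_assoc, mul_smul_comm, one_mul, mul_one, smul_smul]
    module
  let Z := Subgroup.center G
  let C : G → Subgroup G := fun g => Subgroup.centralizer ({g} : Set G)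
  have hCmem : ∀ {g x : G}, x ∈ C g ↔ x * g = g * x := Subgroup.mem_centralizer_singleton_iff
  have hcomb : ∀ g, g ∉ Z → ∀ x ∈ C g, ∃ u v : ℂ, R x = u • 1 + v • R g := fun g hg x hx =>
    commutant (fun h => hg ((hsc g).1 h)) (by rw [← map_mul, ← map_mul, hCmem.1 hx])
  have hab : ∀ g, g ∉ Z → ∀ x ∈ C g, ∀ y ∈ C g, x * y = y * x := fun g hg x hx y hy => hinj (by
    obtain ⟨u, v, hu⟩ := hcomb g hg x hx
    obtain ⟨u', v', hu'⟩ := hcomb g hg y hy
    rw [map_mul, map_mul, hu, hu']
    simp only [add_mul, mul_add, smul_mul_assoc, mul_smul_comm, one_mul, mul_one, smul_smul]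
    module)
  have hZC : ∀ g, Z ≤ C g := fun g z hz => hCmem.2 ((Subgroup.mem_center_iff.1 hz g).symm)
  have heq : ∀ g, g ∉ Z → ∀ x ∈ C g, x ∉ Z → C x = C g := by
    intro g hg x hx hxZ
    refine le_antisymm (fun y hy => ?_) fun y hy => hCmem.2 (hab g hg y hy x hx)
    exact hCmem.2 (hab x hxZ y hy g (hCmem.2 (hCmem.1 hx).symm))
  -- the partition
  let 𝒜 := {A : Subgroup G // ∃ g, g ∉ Z ∧ C g = A}
  have hconj : ∀ (h g : G), (C g).map (MulAut.conj h).toMonoidHom = C (h * g * h⁻¹) := by
    intro h g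
    ext x
    constructor
    · rintro ⟨y, hy, rfl⟩
      have hy' := hCmem.1 hy
      refine hCmem.2 ?_
      show h * y * h⁻¹ * (h * g * h⁻¹) = h * g * h⁻¹ * (h * y * h⁻¹)
      calc h * y * h⁻¹ * (h * g * h⁻¹) = h * (y * g) * h⁻¹ := by group
        _ = _ := by rw [hy']; group
    · intro hx
      have hx' := hCmem.1 hx
      refine ⟨h⁻¹ * x * h, hCmem.2 ?_, by simp [mul_assoc]⟩
      calc h⁻¹ * x * h * g = h⁻¹ * (x * (h * g * h⁻¹)) * h := by group
        _ = _ := by rw [hx']; group
  have hZn : ∀ h g : G, g ∉ Z → h * g * h⁻¹ ∉ Z := fun h g hg hm => hg (by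
    have := (Subgroup.Normal.conj_mem (inferInstance : (Subgroup.center G).Normal) _ hm h⁻¹)
    simpa [mul_assoc] using this)
  letI : MulAction G 𝒜 :=
    { smul := fun h A => ⟨A.1.map (MulAut.conj h).toMonoidHom, by
        obtain ⟨g, hg, hA⟩ := A.2
        exact ⟨_, hZn h g hg, by rw [← hA, hconj]⟩⟩
      one_smul := fun A => Subtype.ext (by
        show A.1.map _ = A.1
        ext x; simp)
      mul_smul := fun h h' A => Subtype.ext (by
        show A.1.map _ = (A.1.map _).map _
        rw [Subgroup.map_map]; congr 1; ext x; simp) }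
  haveI : Fintype 𝒜 := Fintype.ofFinite _
  let z := Nat.card Z
  let N := Z.index
  -- local data
  have hloc : ∀ A : 𝒜, ∃ k a e : ℕ, 2 ≤ k ∧ 2 ≤ a ∧ (e = 1 ∨ e = 2) ∧ k * (a * e) = N ∧
      Nat.card (MulAction.orbit G A) = k ∧ Nat.card A.1 = z * a := by
    rintro ⟨A, g, hg, rfl⟩
    set A0 : 𝒜 := ⟨C g, g, hg, rfl⟩
    set S := MulAction.stabilizer G A0
    have hS : ∀ h : G, h ∈ S ↔ (C g).map (MulAut.conj h).toMonoidHom = C g := fun h =>
      ⟨fun e => congrArg Subtype.val e, fun e => Subtype.ext e⟩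
    have hCS : C g ≤ S := fun h hh => (hS h).2 (by
      rw [hconj, hCmem.1 hh, mul_inv_cancel_right])
    have hZlt : Z.relIndex (C g) ≠ 1 := fun h => hg
      (Subgroup.relIndex_eq_one.1 h (hCmem.2 rfl))
    have hd := disc_ne (k := orderOf g) (orderOf_pos g)
      (by rw [← map_pow, pow_orderOf_eq_one, map_one]) (fun h => hg ((hsc g).1 h))
    have hkey : ∀ h ∈ S, R (h * g * h⁻¹) = R g ∨
        R (h * g * h⁻¹) = (R g).trace • 1 - R g := by
      intro h hh
      have hy : h * g * h⁻¹ ∈ C g := by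
        rw [← (hS h).1 hh]; exact ⟨g, hCmem.2 rfl, rfl⟩
      obtain ⟨u, v, hu⟩ := hcomb g hg _ hy
      have t1 : (R (h * g * h⁻¹)).trace = (R g).trace := by
        rw [htr, htr, CfsgLib.Char.isCharacter_classFunction χ.2.isCharacter' g h]
      have d1 : (R (h * g * h⁻¹)).det = (R g).det := by
        rw [map_mul, map_mul, Matrix.det_mul, Matrix.det_mul, mul_right_comm, ← Matrix.det_mul,
          ← map_mul, mul_inv_cancel, map_one, Matrix.det_one, one_mul]
      rw [hu, Matrix.trace_fin_two, Matrix.trace_fin_two] at t1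
      rw [hu, Matrix.det_fin_two, Matrix.det_fin_two] at d1
      simp at t1 d1
      rw [Matrix.det_fin_two, Matrix.trace_fin_two] at hd
      have hu2 : u = (1 - v) * (R g 0 0 + R g 1 1) / 2 := by linear_combination t1 / 2
      subst hu2
      have hv : (v - 1) * (v + 1) = 0 := by
        refine (mul_eq_zero.1 (show ((v - 1) * (v + 1)) * (R g 0 0 * R g 1 1 - R g 0 1 * R g 1 0 -
          (R g 0 0 + R g 1 1) ^ 2 / 4) = 0 by linear_combination d1)).resolve_right hd
      rcases mul_eq_zero.1 hv with hv | hv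
      · left
        rw [hu, sub_eq_zero.1 hv]; simp
      · right
        rw [hu, eq_neg_of_add_eq_zero_left hv, Matrix.trace_fin_two]
        module
    have he : (C g).relIndex S ≤ 2 := by
      rw [Subgroup.relIndex, Subgroup.index_eq_card]
      let f : S ⧸ (C g).subgroupOf S → ({R g, (R g).trace • 1 - R g} : Set (Matrix (Fin 2) (Fin 2) ℂ)) :=
        Quotient.lift (fun h : S => ⟨R ((h : G) * g * (h : G)⁻¹), by
          rcases hkey h h.2 with e | e <;> rw [e] <;> simp⟩) (fun h h' hh => Subtype.ext (by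
          replace hh := Subgroup.mem_subgroupOf.1 (QuotientGroup.leftRel_apply.1 hh)
          show R ((h : G) * g * (h : G)⁻¹) = R ((h' : G) * g * (h' : G)⁻¹)
          congr 1
          have h3 := hCmem.1 hh
          rw [Subgroup.coe_mul, InvMemClass.coe_inv] at h3
          calc (h : G) * g * (h : G)⁻¹
              = (h : G) * (g * ((h : G)⁻¹ * h')) * (h' : G)⁻¹ := by group
            _ = (h' : G) * g * (h' : G)⁻¹ := by rw [← h3]; group))
      have hf : Function.Injective f := by
        intro q q'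
        induction q using QuotientGroup.induction_on with | H h => ?_
        induction q' using QuotientGroup.induction_on with | H h' => ?_
        intro e
        refine QuotientGroup.eq.2 (Subgroup.mem_subgroupOf.2 (hCmem.2 ?_))
        have e' := hinj (congrArg Subtype.val e)
        simp only [Subgroup.coe_mul, InvMemClass.coe_inv]
        calc (h : G)⁻¹ * h' * g = (h : G)⁻¹ * ((h' : G) * g * (h' : G)⁻¹) * h' := by group
          _ = g * ((h : G)⁻¹ * h') := by rw [← e']; group
      refine (Nat.card_le_card_of_injective f hf).trans ?_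
      rw [Nat.card_coe_set_eq]
      exact (Set.ncard_insert_le _ _).trans (by rw [Set.ncard_singleton])
    have he0 : (C g).relIndex S ≠ 0 := Subgroup.index_ne_zero_of_finite
    have hnn : S ≠ ⊤ := by
      intro hST
      have hCne : C g ≠ ⊤ := fun h => hne fun a b =>
        hab g hg a (h ▸ Subgroup.mem_top a) b (h ▸ Subgroup.mem_top b)
      have hi2 : (C g).index = 2 := by
        rw [← Subgroup.relIndex_top_right, ← hST]
        have : (C g).relIndex S ≠ 1 := fun h => hCne (by
          rw [hST, Subgroup.relIndex_top_right, Subgroup.index_eq_one] at h; exact h)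
        omega
      haveI := Fintype.ofFinite (C g)
      obtain ⟨θ, hθ, hcon⟩ := CfsgLib.Char.exists_irr_under (H := C g) χ.2
      have hθ1 : θ 1 = 1 := CfsgLib.Char.irr_degree_one_of_comm
        (fun a b => Subtype.ext (hab g hg a a.2 b b.2)) hθ
      refine hprim (C g) hCne θ hθ.isCharacter' (CfsgLib.Char.eq_of_constituent_of_degree
        (CfsgLib.Char.isCharacter_indFun hθ.isCharacter') χ.2 ?_ ?_).symm
      · rw [CfsgLib.Char.frobenius _ _ (CfsgLib.Char.isCharacter_classFunction χ.2.isCharacter'),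
          ← CfsgLib.Char.inner_conj_symm]
        simpa using hcon
      · rw [CfsgLib.Char.indFun_one_apply, hθ1, hi2, ← CfsgLib.Block.charDegree_cast
          χ.2.isCharacter', h2]
        simp
    refine ⟨S.index, Z.relIndex (C g), (C g).relIndex S, ?_, ?_, by omega, ?_, ?_, ?_⟩
    · have h1 : S.index ≠ 1 := fun h => hnn (Subgroup.index_eq_one.1 h)
      have := Subgroup.index_ne_zero_of_finite (H := S)
      omega
    · have : Z.relIndex (C g) ≠ 0 := Subgroup.index_ne_zero_of_finite
      omega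
    · rw [mul_comm, Subgroup.relIndex_mul_relIndex Z (C g) S (hZC g) hCS,
        Subgroup.relIndex_mul_index ((hZC g).trans hCS)]
    · rw [Nat.card_coe_set_eq, ← MulAction.index_stabilizer]
    · show Nat.card (C g) = z * _
      rw [Subgroup.relIndex, show z = Nat.card (Z.subgroupOf (C g)) from
        (Nat.card_congr (Subgroup.subgroupOfEquivOfLe (hZC g)).toEquiv).symm]
      exact (Subgroup.card_mul_index _).symm
  choose kf af ef hk2 ha2 he2 hN hko hca using hloc
  let Ω := MulAction.orbitRel.Quotient G 𝒜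
  haveI : Fintype Ω := Fintype.ofFinite _
  refine arith N (fun ω : Ω => kf ω.out) (fun ω => af ω.out) (fun ω => ef ω.out)
    (fun _ => hk2 _) (fun _ => ha2 _) (fun _ => he2 _) (fun _ => hN _) ?_ ?_
  · intro h
    refine hne fun a b => ?_
    have : Z = ⊤ := Subgroup.index_eq_one.1 (by simpa [N] using h)
    exact (Subgroup.mem_center_iff.1 (this ▸ Subgroup.mem_top b : b ∈ Z) a)
  -- counting the elements outside the centre
  have hsmall : ∀ A : 𝒜, Nat.card {x : G // x ∈ A.1 ∧ x ∉ Z} = z * (af A - 1) := by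
    intro A
    obtain ⟨g, hg, hA⟩ := A.2
    have hZA : (Z : Set G) ⊆ (A.1 : Set G) := fun x hx => hA ▸ hZC g hx
    show Nat.card ((A.1 : Set G) \ (Z : Set G) : Set G) = _
    rw [Nat.card_coe_set_eq, Set.ncard_diff hZA, ← Nat.card_coe_set_eq, ← Nat.card_coe_set_eq,
      Nat.mul_sub, mul_one]
    exact congrArg (· - z) (hca A)
  have hcount : Nat.card {x : G // x ∉ Z} = ∑ A : 𝒜, z * (af A - 1) := by
    rw [← Finset.sum_congr rfl fun A _ => hsmall A, ← Nat.card_sigma]
    refine Nat.card_congr
      { toFun := fun x => ⟨⟨C x.1, x.1, x.2, rfl⟩, x.1, hCmem.2 rfl, x.2⟩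
        invFun := fun x => ⟨x.2.1, x.2.2.2⟩
        left_inv := fun x => rfl
        right_inv := fun x => ?_ }
    obtain ⟨⟨A, g, hg, rfl⟩, x, hx, hxZ⟩ := x
    have e := heq g hg x hx hxZ
    exact Sigma.subtype_ext (Subtype.ext e) rfl
  have hG : Nat.card {x : G // x ∉ Z} + z = z * N := by
    rw [Subgroup.card_mul_index, add_comm]
    show Nat.card {x : G // x ∈ Z} + _ = _
    rw [← Nat.card_sum]
    exact Nat.card_congr (Equiv.sumCompl fun x : G => x ∈ Z)
  have horb : ∑ A : 𝒜, z * (af A - 1) = ∑ ω : Ω, z * (kf ω.out * (af ω.out - 1)) := by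
    rw [← Equiv.sum_comp (MulAction.selfEquivSigmaOrbits G 𝒜).symm, Fintype.sum_sigma]
    refine Finset.sum_congr rfl fun ω _ => ?_
    rw [Finset.sum_congr rfl (g := fun _ => z * (af ω.out - 1)) fun A _ => ?_,
      Finset.sum_const, Finset.card_univ, ← Nat.card_eq_fintype_card, smul_eq_mul,
      show Nat.card (MulAction.orbit G ω.out) = kf ω.out from hko _]
    · ring
    · obtain ⟨h, hh⟩ := A.2
      have hc : Nat.card (A : 𝒜).1 = Nat.card ω.out.1 := by
        rw [← hh]
        exact Nat.card_congr (Subgroup.equivMapOfInjective _ _ (MulAut.conj h).injective).toEquiv.symm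
      rw [hca, hca] at hc
      show z * (af (A : 𝒜) - 1) = _
      rw [Nat.eq_of_mul_eq_mul_left Nat.card_pos hc]
  rw [hcount, horb, ← Finset.mul_sum] at hG
  exact Nat.eq_of_mul_eq_mul_left (Nat.card_pos (α := Z)) (by rw [mul_add, mul_one]; exact hG)

end Cfsg.Agent.S4473
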