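import Cfsg.Statements.S4474
import Cfsg.Agent.Lib.BlockRealRep

set_option autoImplicit false
open Cfsg
open CfsgLib.Block CfsgLib.Char

namespace Cfsg.Agent.S4474

/-- Let χ be an irreducible character of the finite group G. Then the Frobenius–Schur indicator of χ (the average over s ∈ G of χ(s²)) equals 1 if and only if χ is afforded by a real representation: there is a representation of G on a real coordinate space whose trace function, viewed in ℂ, is χ. -/
theorem result {G : Type*} [Group G] [Fintype G] (χ : Cfsg.IrrCharacter G) : ((Nat.card G : ℂ)⁻¹ * ∑ s : G, (χ : G → ℂ) (s * s)) = 1 ↔ ∃ (n : ℕ) (ρ : Representation ℝ G (Fin n → ℝ)), ∀ g : G, ((LinearMap.trace ℝ (Fin n → ℝ) (ρ g) : ℝ) : ℂ) = (χ : G → ℂ) g := by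
  change sqIndicator (χ : G → ℂ) = 1 ↔ _
  constructor
  · intro h
    obtain ⟨n, ρ, hρ, hχ⟩ := χ.2
    haveI := hρ
    have hn : n ≠ 0 := by
      have := finrank_pos_of_irreducible ρ
      rw [Module.finrank_fin_fun] at this
      omega
    rw [← hχ] at h
    obtain ⟨τ, hτ⟩ := exists_real_form ρ hn (irr_inner_self (isIrrCharacter_rep ρ)) h
    exact ⟨n, τ, fun g => (hτ g).trans (congrFun hχ g)⟩
  · rintro ⟨n, τ, hτ⟩
    exact sqIndicator_of_real τ χ.2 hτ

end Cfsg.Agent.S4474
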