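import Cfsg.Statements.S4475
import Cfsg.Agent.Lib.CharIndicator

set_option autoImplicit false
open Cfsg
open scoped Matrix

namespace Cfsg.Agent.S4475

/-- Let ρ be an irreducible representation of the finite group G on the coordinate space Fin n → ℂ whose character χ is real-valued, and let ν be the Frobenius–Schur indicator of χ (the average of χ(s²)). Writing X(g) for the matrix of ρ(g), there is a nonzero matrix M with X(g)ᵀ M X(g) = M for all g ∈ G; and every such M (zero or not) satisfies Mᵀ = ν·M. -/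
theorem result {G : Type*} [Group G] [Fintype G] (n : ℕ) (ρ : Representation ℂ G (Fin n → ℂ)) (hirr : ρ.IsIrreducible) (hreal : ∀ g : G, (ρ.character g).im = 0) : (∃ M : Matrix (Fin n) (Fin n) ℂ, M ≠ 0 ∧ ∀ g : G, (LinearMap.toMatrix' (ρ g)).transpose * M * LinearMap.toMatrix' (ρ g) = M) ∧ ∀ M : Matrix (Fin n) (Fin n) ℂ, (∀ g : G, (LinearMap.toMatrix' (ρ g)).transpose * M * LinearMap.toMatrix' (ρ g) = M) → M.transpose = ((Nat.card G : ℂ)⁻¹ * ∑ s : G, ρ.character (s * s)) • M := by
  classical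
  haveI := hirr
  set X : G → Matrix (Fin n) (Fin n) ℂ := fun g => LinearMap.toMatrix' (ρ g) with hX
  have hXmul : ∀ a b : G, X (a * b) = X a * X b := fun a b => by
    simp only [hX, map_mul, LinearMap.toMatrix'_mul]
  have hX1 : X 1 = 1 := by simp only [hX, map_one]; exact LinearMap.toMatrix'_one
  have htr : ∀ g, (X g).trace = ρ.character g := fun g => by
    simp only [hX, Representation.character]
    rw [LinearMap.trace_eq_matrix_trace ℂ (Pi.basisFun ℂ (Fin n))]
    rfl
  let Φ : Matrix (Fin n) (Fin n) ℂ → Matrix (Fin n) (Fin n) ℂ := fun A => (Nat.card G : ℂ)⁻¹ • ∑ g : G, (X g)ᵀ * A * X g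
  have hΦ : ∀ A h, (X h)ᵀ * Φ A * X h = Φ A := by
    intro A h
    simp only [Φ, Matrix.mul_smul, Matrix.smul_mul, Finset.mul_sum, Finset.sum_mul]
    congr 1
    refine Fintype.sum_equiv (Equiv.mulRight h) _ _ fun g => ?_
    simp only [Equiv.coe_mulRight, hXmul, Matrix.transpose_mul, mul_assoc]
  -- entries of the averages
  have hentry : ∀ i j k l : Fin n, Φ (Matrix.single i j 1) k l = (Nat.card G : ℂ)⁻¹ * ∑ g : G, X g i k * X g j l := by
    intro i j k l
    simp only [Φ, Matrix.smul_apply, Matrix.sum_apply, smul_eq_mul]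
    congr 1
    refine Finset.sum_congr rfl fun g _ => ?_
    simp [Matrix.mul_apply, Matrix.transpose_apply, Matrix.single_apply, Finset.sum_ite_eq', Finset.sum_ite_eq, ite_and]
  have hone : ∑ i : Fin n, ∑ j : Fin n, Φ (Matrix.single i j 1) i j = 1 := by
    have hin : (Nat.card G : ℂ)⁻¹ * ∑ g : G, ρ.character g * ρ.character g = 1 := by
      rw [← CfsgLib.Char.irr_inner_self (χ := ρ.character) ⟨n, ρ, hirr, rfl⟩, classInner]
      congr 1
      refine Finset.sum_congr rfl fun g _ => ?_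
      rw [CfsgLib.Char.eq_conj_of_im.1 (hreal g)]
    refine Eq.trans ?_ hin
    simp only [hentry, ← Finset.mul_sum]
    congr 1
    rw [Finset.sum_congr rfl fun i _ => Finset.sum_comm, Finset.sum_comm]
    refine Finset.sum_congr rfl fun g _ => ?_
    rw [← htr, Matrix.trace, Finset.sum_mul_sum]
    rfl
  have hflip : ∑ i : Fin n, ∑ j : Fin n, Φ (Matrix.single i j 1) j i = (Nat.card G : ℂ)⁻¹ * ∑ s : G, ρ.character (s * s) := by
    simp only [hentry, ← Finset.mul_sum]
    congr 1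
    rw [Finset.sum_congr rfl fun i _ => Finset.sum_comm, Finset.sum_comm]
    refine Finset.sum_congr rfl fun g _ => ?_
    rw [← htr, hXmul, Matrix.trace]
    simp only [Matrix.diag_apply, Matrix.mul_apply]
  obtain ⟨M₀, hM₀0, hM₀⟩ : ∃ M : Matrix (Fin n) (Fin n) ℂ, M ≠ 0 ∧ ∀ g : G, (X g)ᵀ * M * X g = M := by
    by_contra h
    push Not at h
    have hall : ∀ A, Φ A = 0 := fun A => by
      by_contra hne
      obtain ⟨g, hg⟩ := h _ hne
      exact hg (hΦ A g)
    simp only [hall, Matrix.zero_apply, Finset.sum_const_zero] at hone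
    exact zero_ne_one hone
  refine ⟨⟨M₀, hM₀0, hM₀⟩, ?_⟩
  -- an invariant form is determined by one invertible invariant form
  have hinter : ∀ M : Matrix (Fin n) (Fin n) ℂ, (∀ g : G, (X g)ᵀ * M * X g = M) → ∀ g, M * X g = (X g⁻¹)ᵀ * M := by
    intro M hM g
    calc M * X g = ((X g * X g⁻¹)ᵀ) * M * X g := by rw [← hXmul, mul_inv_cancel, hX1]; simp
      _ = (X g⁻¹)ᵀ * ((X g)ᵀ * M * X g) := by rw [Matrix.transpose_mul]; simp only [mul_assoc]
      _ = (X g⁻¹)ᵀ * M := by rw [hM]
  have hstab : ∀ M : Matrix (Fin n) (Fin n) ℂ, (∀ g : G, (X g)ᵀ * M * X g = M) → M ≠ 0 → M.det ≠ 0 := by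
    intro M hM hM0
    have hst : ∀ g : G, ∀ v ∈ LinearMap.ker M.mulVecLin, ρ g v ∈ LinearMap.ker M.mulVecLin := by
      intro g v hv
      rw [LinearMap.mem_ker, Matrix.mulVecLin_apply] at hv ⊢
      rw [← LinearMap.toMatrix'_mulVec (ρ g) v, Matrix.mulVec_mulVec]
      show (M * X g).mulVec v = 0
      rw [hinter M hM, ← Matrix.mulVec_mulVec, hv, Matrix.mulVec_zero]
    rcases CfsgLib.Char.subrep_eq_bot_or_eq_top ρ _ hst with h | h
    · rw [← isUnit_iff_ne_zero, ← Matrix.isUnit_iff_isUnit_det, ← Matrix.mulVec_injective_iff_isUnit]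
      exact LinearMap.ker_eq_bot.1 h
    · rw [LinearMap.ker_eq_top] at h
      exact absurd (Matrix.toLin'.injective (h.trans (map_zero _).symm)) hM0
  have hscal : ∀ M : Matrix (Fin n) (Fin n) ℂ, (∀ g : G, (X g)ᵀ * M * X g = M) → ∃ c : ℂ, M = c • M₀ := by
    intro M hM
    by_cases hn : n = 0
    · exact ⟨0, by ext i; exact absurd i.2 (by omega)⟩
    haveI : Nontrivial (Fin n → ℂ) := by
      haveI : Nonempty (Fin n) := ⟨⟨0, Nat.pos_of_ne_zero hn⟩⟩
      infer_instance
    obtain ⟨c, hc⟩ := Module.End.exists_eigenvalue (Matrix.toLin' (M₀⁻¹ * M))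
    obtain ⟨v, hv, hv0⟩ := Submodule.exists_mem_ne_zero_of_ne_bot hc
    refine ⟨c, ?_⟩
    by_contra hne
    have hM' : ∀ g : G, (X g)ᵀ * (M - c • M₀) * X g = M - c • M₀ := fun g => by
      rw [Matrix.mul_sub, Matrix.sub_mul, hM, Matrix.mul_smul, Matrix.smul_mul, hM₀]
    have hdet := hstab _ hM' (sub_ne_zero.2 hne)
    have hu : IsUnit M₀.det := isUnit_iff_ne_zero.2 (hstab M₀ hM₀ hM₀0)
    have hv' : (M₀⁻¹ * M).mulVec v = c • v := by
      have := Module.End.mem_eigenspace_iff.1 hv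
      rwa [Matrix.toLin'_apply] at this
    have h0 : (M - c • M₀).mulVec v = 0 := by
      have e : M.mulVec v = c • M₀.mulVec v := by
        rw [← Matrix.mulVec_smul, ← hv', Matrix.mulVec_mulVec, ← mul_assoc, Matrix.mul_nonsing_inv _ hu, one_mul]
      rw [Matrix.sub_mulVec, Matrix.smul_mulVec, e, sub_self]
    exact hv0 (Matrix.mulVec_injective_of_isUnit ((Matrix.isUnit_iff_isUnit_det _).2 (isUnit_iff_ne_zero.2 hdet))
      (h0.trans (Matrix.mulVec_zero _).symm))
  obtain ⟨ε, hε⟩ := hscal M₀ᵀ (fun g => by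
    conv_rhs => rw [← hM₀ g]
    rw [Matrix.transpose_mul, Matrix.transpose_mul, Matrix.transpose_transpose, mul_assoc])
  have hεall : ∀ M : Matrix (Fin n) (Fin n) ℂ, (∀ g : G, (X g)ᵀ * M * X g = M) → Mᵀ = ε • M := by
    intro M hM
    obtain ⟨c, rfl⟩ := hscal M hM
    rw [Matrix.transpose_smul, hε, smul_comm]
  have hval : (Nat.card G : ℂ)⁻¹ * ∑ s : G, ρ.character (s * s) = ε := by
    rw [← hflip]
    refine Eq.trans ?_ (mul_one ε)
    refine Eq.trans ?_ (congrArg (ε * ·) hone)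
    rw [Finset.mul_sum]
    refine Finset.sum_congr rfl fun i _ => ?_
    rw [Finset.mul_sum]
    refine Finset.sum_congr rfl fun j _ => ?_
    have h := congrFun (congrFun (hεall _ (hΦ (Matrix.single i j 1))) i) j
    rw [Matrix.transpose_apply, Matrix.smul_apply, smul_eq_mul] at h
    exact h
  intro M hM
  rw [hval]
  exact hεall M hM

end Cfsg.Agent.S4475
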