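import Cfsg.Statements.S4476
import Cfsg.Agent.Lib.CharIndicator
import Cfsg.Agent.Lib.BlockPrincipal
import Cfsg.Agent.Lib.BlockRegular
import Mathlib.Algebra.Order.Chebyshev

set_option autoImplicit false
open Cfsg

namespace Cfsg.Agent.S4476

/-- Let G be a finite group of even order g with exactly t involutions, and put α = (g − 1)/t (a rational number). Then (a) some non-identity element x of G has at most α² conjugates; and (b) some non-principal real-valued irreducible character of G has degree at most α. -/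
theorem result {G : Type*} [Group G] [Fintype G] (heven : Even (Nat.card G)) (t : ℕ) (ht : Nat.card {x : G // orderOf x = 2} = t) : (∃ x : G, x ≠ 1 ∧ ((Subgroup.centralizer ({x} : Set G)).index : ℚ) ≤ (((Nat.card G : ℚ) - 1) / t) ^ 2) ∧ ∃ χ : Cfsg.IrrCharacter G, (χ : G → ℂ) ≠ (fun _ => 1) ∧ (∀ g : G, ((χ : G → ℂ) g).im = 0) ∧ (Cfsg.charDegree (χ : G → ℂ) : ℚ) ≤ ((Nat.card G : ℚ) - 1) / t := by
  classical
  have hG0 := CfsgLib.Char.natCard_ne_zero G
  haveI : Fact (Nat.Prime 2) := ⟨Nat.prime_two⟩
  have ht0 : 0 < t := by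
    haveI : Nonempty {x : G // orderOf x = 2} :=
      let ⟨x, hx⟩ := exists_prime_orderOf_dvd_card' 2 heven.two_dvd; ⟨⟨x, hx⟩⟩
    rw [← ht]; exact Nat.card_pos
  set T := CfsgLib.Block.trivIrr G with hT
  set R := (Finset.univ.erase T).filter (fun χ : IrrCharacter G => ∀ g : G, ((χ : G → ℂ) g).im = 0) with hR
  -- the involution count
  have hcount : (t : ℝ) ≤ ∑ χ ∈ R, (charDegree (χ : G → ℂ) : ℝ) := by
    have hc := CfsgLib.Char.card_sq_eq_one (G := G)
    have hsplit : Nat.card {x : G // x ^ 2 = 1} = t + 1 := by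
      rw [← ht, Nat.card_eq_fintype_card, Nat.card_eq_fintype_card, Fintype.card_subtype, Fintype.card_subtype]
      rw [← Finset.card_erase_add_one (a := (1 : G)) (s := Finset.univ.filter (fun x : G => x ^ 2 = 1)) (by simp)]
      congr 2
      ext x
      simp only [Finset.mem_erase, Finset.mem_filter, Finset.mem_univ, true_and]
      rw [orderOf_eq_prime_iff]
      exact and_comm
    have hone : CfsgLib.Char.sqIndicator (T : G → ℂ) * (T : G → ℂ) 1 = 1 := by
      simp [CfsgLib.Char.sqIndicator, hT, CfsgLib.Block.trivIrr, hG0]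
    rw [hsplit, ← Finset.add_sum_erase _ _ (Finset.mem_univ T), hone, Nat.cast_add, Nat.cast_one] at hc
    have hc' := congrArg Complex.re hc
    simp only [Complex.add_re, Complex.natCast_re, Complex.one_re, Complex.re_sum] at hc'
    have hle : ∀ χ ∈ Finset.univ.erase T, (CfsgLib.Char.sqIndicator (χ : G → ℂ) * (χ : G → ℂ) 1).re ≤
        if (∀ g : G, ((χ : G → ℂ) g).im = 0) then (charDegree (χ : G → ℂ) : ℝ) else 0 := by
      intro χ _
      rw [← CfsgLib.Block.charDegree_cast χ.2.isCharacter']
      split_ifs with h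
      · rcases (CfsgLib.Char.sqIndicator_trichotomy χ.2).1 with e | e | e <;> rw [e] <;> simp
      · push Not at h
        rw [(CfsgLib.Char.sqIndicator_trichotomy χ.2).2.2 h]; simp
    have := Finset.sum_le_sum hle
    rw [← Finset.sum_filter] at this
    linarith
  have hsq : ∑ χ ∈ R, (charDegree (χ : G → ℂ) : ℝ) ^ 2 ≤ (Nat.card G : ℝ) - 1 := by
    have h := CfsgLib.Char.sum_degree_sq (G := G)
    have hc : ∀ χ : IrrCharacter G, (χ : G → ℂ) 1 ^ 2 = ((((charDegree (χ : G → ℂ) : ℝ)) ^ 2 : ℝ) : ℂ) := fun χ => by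
      rw [← CfsgLib.Block.charDegree_cast χ.2.isCharacter']; push_cast; rfl
    simp only [hc] at h
    rw [← Complex.ofReal_sum, ← Complex.ofReal_natCast] at h
    have h' := Complex.ofReal_injective h
    rw [← Finset.add_sum_erase _ _ (Finset.mem_univ T), hT, CfsgLib.Block.charDegree_triv, Nat.cast_one, one_pow] at h'
    have := Finset.sum_le_sum_of_subset_of_nonneg (f := fun χ : IrrCharacter G => (charDegree (χ : G → ℂ) : ℝ) ^ 2)
      (Finset.filter_subset (fun χ : IrrCharacter G => ∀ g : G, ((χ : G → ℂ) g).im = 0) (Finset.univ.erase T)) (fun _ _ _ => sq_nonneg _)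
    rw [hR, hT] at *
    linarith
  have htR : (0 : ℝ) < t := by exact_mod_cast ht0
  set α : ℚ := ((Nat.card G : ℚ) - 1) / t with hα
  constructor
  · by_contra hall
    push Not at hall
    have hcs : (t : ℝ) ^ 2 ≤ (R.card : ℝ) * ((Nat.card G : ℝ) - 1) := by
      calc (t : ℝ) ^ 2 ≤ (∑ χ ∈ R, (charDegree (χ : G → ℂ) : ℝ)) ^ 2 := pow_le_pow_left₀ htR.le hcount 2
        _ ≤ R.card * ∑ χ ∈ R, (charDegree (χ : G → ℂ) : ℝ) ^ 2 := sq_sum_le_card_mul_sum_sq
        _ ≤ _ := mul_le_mul_of_nonneg_left hsq (Nat.cast_nonneg _)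
    -- the classes other than the identity
    set D := (Finset.univ : Finset (ConjClasses G)).erase (ConjClasses.mk 1) with hD
    have hRD : R.card ≤ D.card := by
      have h1 : R.card ≤ (Finset.univ.erase T).card := Finset.card_filter_le _ _
      rw [Finset.card_erase_of_mem (Finset.mem_univ _), Finset.card_univ, ← Nat.card_eq_fintype_card,
        CfsgLib.Char.card_irrCharacter] at h1
      rwa [hD, Finset.card_erase_of_mem (Finset.mem_univ _), Finset.card_univ, ← Nat.card_eq_fintype_card]
    have hidx : (∑ C ∈ D, ((Subgroup.centralizer ({Quotient.out C} : Set G)).index : ℝ)) = (Nat.card G : ℝ) - 1 := by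
      have h := CfsgLib.Block.sum_eq_sum_classes (G := G) (f := fun _ => (1 : ℂ)) (fun _ _ => rfl)
      simp only [mul_one, Finset.sum_const, Finset.card_univ, nsmul_eq_mul, ← Nat.card_eq_fintype_card] at h
      rw [← Nat.cast_sum, Nat.cast_inj] at h
      have hone : (Subgroup.centralizer ({Quotient.out (ConjClasses.mk (1 : G))} : Set G)).index = 1 := by
        have e : Quotient.out (ConjClasses.mk (1 : G)) = 1 :=
          isConj_one_left.1 (CfsgLib.Char.isConj_out (1 : G))
        rw [e, Subgroup.index_eq_one, eq_top_iff]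
        intro g _
        rw [Subgroup.mem_centralizer_singleton_iff, one_mul, mul_one]
      rw [← Finset.add_sum_erase _ _ (Finset.mem_univ (ConjClasses.mk (1 : G))), hone] at h
      rw [h]; push_cast; ring
    have hbig : ∀ C ∈ D, ((((Nat.card G : ℝ) - 1) / t) ^ 2) < ((Subgroup.centralizer ({Quotient.out C} : Set G)).index : ℝ) := by
      intro C hC
      have hne : Quotient.out C ≠ 1 := fun e => Finset.ne_of_mem_erase hC (by
        rw [← Quotient.out_eq C, e]; rfl)
      have h := hall _ hne
      have h2 := (Rat.cast_lt (K := ℝ)).2 h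
      push_cast [hα] at h2
      exact h2
    have hpos : (0 : ℝ) < (Nat.card G : ℝ) - 1 := by
      have h2 : 2 ≤ Nat.card G := Nat.le_of_dvd Nat.card_pos heven.two_dvd
      have : (2 : ℝ) ≤ Nat.card G := by exact_mod_cast h2
      linarith
    have hDne : D.Nonempty := by
      by_contra hemp
      rw [Finset.not_nonempty_iff_eq_empty] at hemp
      rw [hemp, Finset.sum_empty] at hidx
      linarith
    have hlt := Finset.sum_lt_sum_of_nonempty hDne hbig
    rw [Finset.sum_const, nsmul_eq_mul, hidx] at hlt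
    have hRD' : (R.card : ℝ) ≤ D.card := by exact_mod_cast hRD
    have h5 : (R.card : ℝ) * (((Nat.card G : ℝ) - 1) / t) ^ 2 < (Nat.card G : ℝ) - 1 :=
      lt_of_le_of_lt (mul_le_mul_of_nonneg_right hRD' (sq_nonneg _)) hlt
    rw [div_pow, mul_div_assoc', div_lt_iff₀ (pow_pos htR 2)] at h5
    nlinarith
  · by_contra hall
    push Not at hall
    have hne : R.Nonempty := by
      by_contra hemp
      rw [Finset.not_nonempty_iff_eq_empty] at hemp
      rw [hemp, Finset.sum_empty] at hcount
      linarith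
    have hbig : ∀ χ ∈ R, (((Nat.card G : ℝ) - 1) / t) * (charDegree (χ : G → ℂ) : ℝ) < (charDegree (χ : G → ℂ) : ℝ) ^ 2 := by
      intro χ hχ
      obtain ⟨hχe, hreal⟩ := Finset.mem_filter.1 hχ
      have h := hall χ (fun e => Finset.ne_of_mem_erase hχe (Subtype.ext e)) hreal
      have h2 := (Rat.cast_lt (K := ℝ)).2 h
      push_cast [hα] at h2
      rw [pow_two]
      exact mul_lt_mul_of_pos_right h2 (by exact_mod_cast CfsgLib.Block.charDegree_pos χ)
    have hlt := Finset.sum_lt_sum_of_nonempty hne hbig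
    rw [← Finset.mul_sum] at hlt
    have hnn : (0 : ℝ) ≤ ((Nat.card G : ℝ) - 1) / t := by
      refine div_nonneg ?_ htR.le
      have : (1 : ℝ) ≤ Nat.card G := by exact_mod_cast Nat.card_pos
      linarith
    have h6 := mul_le_mul_of_nonneg_left hcount hnn
    rw [div_mul_cancel₀ _ htR.ne'] at h6
    linarith

end Cfsg.Agent.S4476
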