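import Cfsg.Statements.S4477
import Cfsg.Agent.Lib.CharIndicator
import Cfsg.Agent.Lib.CharLinear
import Cfsg.Agent.Lib.BlockRegular
import Mathlib.GroupTheory.FiniteAbelian.Duality
import Mathlib.GroupTheory.Nilpotent
import Mathlib.GroupTheory.Perm.Cycle.Type
import Mathlib.Algebra.Group.Hom.Instances

set_option autoImplicit false
open Cfsg

namespace Cfsg.Agent.S4477

/-- Let G be a finite 2-group whose number of involutions is congruent to 1 modulo 4. Then G is cyclic or its commutator subgroup has index 4. -/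
theorem result {G : Type*} [Group G] [Finite G] (hG : IsPGroup 2 G) (ht : Nat.card {x : G // orderOf x = 2} % 4 = 1) : IsCyclic G ∨ (commutator G).index = 4 := by
  classical
  haveI := Fintype.ofFinite G
  by_cases hcycl : IsCyclic G
  · exact Or.inl hcycl
  right
  have hG0 := CfsgLib.Char.natCard_ne_zero G
  haveI : Fact (Nat.Prime 2) := ⟨Nat.prime_two⟩
  haveI : Group.IsNilpotent G := hG.isNilpotent
  obtain ⟨n, hn⟩ := IsPGroup.iff_card.1 hG
  -- linear characters
  have hLmul : ∀ f f' : G →* ℂˣ, ∀ g, ((f * f') g : ℂ) = (f g : ℂ) * (f' g : ℂ) := fun f f' g => rfl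
  have hconj : ∀ (f : G →* ℂˣ) (g : G), (starRingEnd ℂ) (f g : ℂ) = ((f⁻¹ : G →* ℂˣ) g : ℂ) := fun f g => by
    rw [← CfsgLib.Char.isCharacter_inv_eq_conj (CfsgLib.Char.isCharacter_hom f) g]
    simp only [map_inv, MonoidHom.inv_apply]
  have hinvsq : ∀ f : G →* ℂˣ, f * f = 1 → f⁻¹ = f := fun f h => MonoidHom.ext fun g => inv_eq_of_mul_eq_one_right (DFunLike.congr_fun h g)
  have hunit : ∀ (f : G →* ℂˣ) (g : G), (f g : ℂ) * (starRingEnd ℂ) (f g : ℂ) = 1 := fun f g => by
    rw [hconj, MonoidHom.inv_apply, ← Units.val_mul, mul_inv_cancel, Units.val_one]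
  have hmulirr : ∀ (f : G →* ℂˣ) (χ : IrrCharacter G), IsIrrCharacter G (fun g => (f g : ℂ) * (χ : G → ℂ) g) := by
    intro f χ
    refine CfsgLib.Char.isIrrCharacter_iff.2 ⟨CfsgLib.Char.isCharacter_mul (CfsgLib.Char.isCharacter_hom f) χ.2.isCharacter', ?_⟩
    refine Eq.trans ?_ (CfsgLib.Char.irr_inner_self χ.2)
    rw [classInner, classInner]
    congr 1
    refine Finset.sum_congr rfl fun g _ => ?_
    rw [map_mul, mul_mul_mul_comm, hunit, one_mul]
  let act : (G →* ℂˣ) → IrrCharacter G → IrrCharacter G := fun f χ => ⟨fun g => (f g : ℂ) * (χ : G → ℂ) g, hmulirr f χ⟩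
  have hact1 : ∀ χ, act 1 χ = χ := fun χ => Subtype.ext (funext fun g => by simp [act])
  have hactm : ∀ f f' χ, act (f * f') χ = act f (act f' χ) := fun f f' χ => Subtype.ext (funext fun g => by
    simp only [act, hLmul, mul_assoc])
  -- the count
  have hν : ∀ χ : IrrCharacter G, ∃ z : ℤ, CfsgLib.Char.sqIndicator (χ : G → ℂ) = z := fun χ =>
    CfsgLib.Char.exists_sqIndicator_int χ.2.isCharacter'
  choose z hz using hν
  let d : IrrCharacter G → ℕ := fun χ => charDegree (χ : G → ℂ)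
  have hd : ∀ χ, (d χ : ℂ) = (χ : G → ℂ) 1 := fun χ => CfsgLib.Block.charDegree_cast χ.2.isCharacter'
  have hd2 : ∀ χ, d χ = 1 ∨ d χ = 2 ∨ 4 ∣ d χ := by
    intro χ
    obtain ⟨i, -, hi⟩ := (Nat.dvd_prime_pow Nat.prime_two).1 (hn ▸ CfsgLib.Block.charDegree_dvd_card χ)
    match i, hi with
    | 0, hi => left; exact hi
    | 1, hi => right; left; exact hi
    | (k + 2), hi => right; right; exact ⟨2 ^ k, by show charDegree _ = _; rw [hi]; ring⟩
  set t := Nat.card {x : G // orderOf x = 2}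
  have hsplit : Nat.card {x : G // x ^ 2 = 1} = t + 1 := by
    rw [Nat.card_eq_fintype_card, Fintype.card_subtype, ← Finset.card_erase_add_one (a := (1 : G)) (by simp)]
    congr 1
    show _ = Nat.card _
    rw [Nat.card_eq_fintype_card, Fintype.card_subtype]
    congr 1
    ext x
    simp only [Finset.mem_erase, Finset.mem_filter, Finset.mem_univ, true_and]
    rw [orderOf_eq_prime_iff]
    exact and_comm
  have hcount : ((t + 1 : ℕ) : ℤ) = ∑ χ, z χ * (d χ : ℤ) := by
    have h := CfsgLib.Char.card_sq_eq_one (G := G)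
    simp only [hsplit, hz, ← hd] at h
    exact_mod_cast h
  let Lin := Finset.univ.filter (fun χ : IrrCharacter G => d χ = 1 ∧ z χ ≠ 0)
  let R := Finset.univ.filter (fun χ : IrrCharacter G => d χ = 2 ∧ z χ ≠ 0)
  have hzval : ∀ χ, z χ ≠ 0 → (z χ = 1 ∨ z χ = -1) := by
    intro χ h
    rcases (CfsgLib.Char.sqIndicator_trichotomy χ.2).1 with e | e | e <;> rw [hz] at e
    · exact absurd (by exact_mod_cast e) h
    · exact Or.inl (by exact_mod_cast e)
    · exact Or.inr (by exact_mod_cast e)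
  have hreal : ∀ χ, z χ ≠ 0 ↔ ∀ g : G, ((χ : G → ℂ) g).im = 0 := by
    intro χ
    rw [← not_iff_not, not_not, not_forall, ← (CfsgLib.Char.sqIndicator_trichotomy χ.2).2, hz, Int.cast_eq_zero]
  have hlin1 : ∀ χ, d χ = 1 → z χ ≠ 0 → z χ = 1 := by
    intro χ h1 h2
    have h := CfsgLib.Char.sqIndicator_odd_degree χ.2 ((hreal χ).1 h2) (d := 1) (by rw [← hd, h1]) odd_one
    rw [hz] at h
    exact_mod_cast h
  have hmod : ((Lin.card : ℤ) + 2 * R.card) % 4 = 2 := by
    have hterm : ∀ χ, (z χ * (d χ : ℤ)) % 4 = ((if d χ = 1 ∧ z χ ≠ 0 then 1 else 0 : ℤ) + (if d χ = 2 ∧ z χ ≠ 0 then 2 else 0)) % 4 := by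
      intro χ
      by_cases h0 : z χ = 0
      · simp [h0]
      rcases hd2 χ with e | e | e
      · simp [e, h0, hlin1 χ e h0]
      · rcases hzval χ h0 with e' | e' <;> simp [e, e']
      · obtain ⟨k, hk⟩ := e
        have h1 : d χ ≠ 1 := by omega
        have h2 : d χ ≠ 2 := by omega
        simp only [h1, h2, false_and, if_false, add_zero, hk, Nat.cast_mul, Nat.cast_ofNat]
        rw [mul_left_comm]; omega
    have e : (∑ χ, ((if d χ = 1 ∧ z χ ≠ 0 then 1 else 0 : ℤ) + (if d χ = 2 ∧ z χ ≠ 0 then 2 else 0))) = (Lin.card : ℤ) + 2 * R.card := by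
      rw [Finset.sum_add_distrib, ← Finset.sum_filter, ← Finset.sum_filter, Finset.sum_const, Finset.sum_const, nsmul_eq_mul, nsmul_eq_mul, mul_one, mul_comm (2 : ℤ)]
    rw [← e, Finset.sum_int_mod, ← Finset.sum_congr rfl fun χ _ => hterm χ, ← Finset.sum_int_mod, ← hcount]
    omega
  -- the elementary abelian group of real linear characters
  let S : Subgroup (G →* ℂˣ) :=
    { carrier := {f | f * f = 1}
      one_mem' := one_mul 1
      mul_mem' := fun {a b} (ha : a * a = 1) (hb : b * b = 1) => show a * b * (a * b) = 1 from MonoidHom.ext fun g => by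
        show a g * b g * (a g * b g) = 1
        rw [mul_mul_mul_comm, show a g * a g = 1 from DFunLike.congr_fun ha g, show b g * b g = 1 from DFunLike.congr_fun hb g, one_mul]
      inv_mem' := fun {a} (ha : a * a = 1) => show a⁻¹ * a⁻¹ = 1 from MonoidHom.ext fun g => by
        show (a g)⁻¹ * (a g)⁻¹ = 1
        rw [← mul_inv_rev, show a g * a g = 1 from DFunLike.congr_fun ha g, inv_one] }
  haveI : Finite (G →* ℂˣ) := Finite.of_equiv _ (CfsgLib.Char.linCharEquiv (G := G)).symm
  haveI := Fintype.ofFinite S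
  have hSp : IsPGroup 2 S := fun f => ⟨1, Subtype.ext (by rw [pow_one, pow_two]; exact f.2)⟩
  have hlinS : Lin.card = Nat.card S := by
    rw [Nat.card_eq_fintype_card, ← Finset.card_univ]
    symm
    refine Finset.card_bij (fun f _ => (⟨fun g => ((f : G →* ℂˣ) g : ℂ), CfsgLib.Char.isIrrCharacter_hom _⟩ : IrrCharacter G)) (fun f _ => ?_) (fun a _ b _ h => ?_) (fun χ hχ => ?_)
    · refine Finset.mem_filter.2 ⟨Finset.mem_univ _, ?_, (hreal _).2 fun g => CfsgLib.Char.eq_conj_of_im.2 ?_⟩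
      · have h : (d ⟨fun g => ((f : G →* ℂˣ) g : ℂ), CfsgLib.Char.isIrrCharacter_hom _⟩ : ℂ) = 1 := by
          rw [hd]; show ((f : G →* ℂˣ) 1 : ℂ) = 1
          rw [map_one, Units.val_one]
        exact_mod_cast h
      · show (starRingEnd ℂ) ((f : G →* ℂˣ) g : ℂ) = _
        rw [hconj, hinvsq _ f.2]
    · refine Subtype.ext (MonoidHom.ext fun g => Units.ext ?_)
      exact congrFun (congrArg Subtype.val h) g
    · obtain ⟨h1, h2⟩ := (Finset.mem_filter.1 hχ).2
      obtain ⟨f, hf⟩ := CfsgLib.Char.exists_hom_of_degree_one χ.2.isCharacter' (by rw [← hd, h1, Nat.cast_one])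
      refine ⟨⟨f, MonoidHom.ext fun g => Units.ext ?_⟩, Finset.mem_univ _, Subtype.ext hf.symm⟩
      have him := CfsgLib.Char.eq_conj_of_im.1 ((hreal χ).1 h2 g)
      have hfg : (χ : G → ℂ) g = (f g : ℂ) := congrFun hf g
      rw [hfg] at him
      show (f g : ℂ) * (f g : ℂ) = 1
      nth_rewrite 2 [← him]
      exact hunit f g
  -- two maximal subgroups
  have hS3 : 3 ≤ Nat.card S := by
    haveI : Nontrivial G := by
      rw [← not_subsingleton_iff_nontrivial]
      intro hs
      exact hcycl inferInstance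
    have hsign : ∀ Mx : Subgroup G, IsCoatom Mx → ∃ f ∈ S, ∀ g : G, f g = 1 ↔ g ∈ Mx := by
      intro Mx hMx
      haveI := Group.normalizerCondition_of_isNilpotent (G := G)
      haveI hMn : Mx.Normal := Subgroup.NormalizerCondition.normal_of_coatom Mx (Group.normalizerCondition_of_isNilpotent (G := G)) hMx
      obtain ⟨i, -, hi⟩ := (Nat.dvd_prime_pow Nat.prime_two).1 (hn ▸ Mx.index_dvd_card)
      have hi2 : Mx.index = 2 := by
        haveI : Nontrivial (G ⧸ Mx) := by
          rw [← Finite.one_lt_card_iff_nontrivial]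
          exact Subgroup.one_lt_index_of_ne_top hMx.1
        obtain ⟨y, hy⟩ := exists_prime_orderOf_dvd_card' (G := G ⧸ Mx) 2 (by
          show 2 ∣ Mx.index
          rw [hi]; refine dvd_pow_self 2 fun h => ?_
          rw [h, pow_zero] at hi; exact hMx.1 (Subgroup.index_eq_one.1 hi))
        have hlt : Mx < (Subgroup.zpowers y).comap (QuotientGroup.mk' Mx) := by
          refine lt_of_le_of_ne (fun g hg => ?_) fun e => ?_
          · rw [Subgroup.mem_comap, show QuotientGroup.mk' Mx g = 1 from (QuotientGroup.eq_one_iff g).2 hg]; exact Subgroup.one_mem _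
          · obtain ⟨g, rfl⟩ := QuotientGroup.mk'_surjective Mx y
            have hg : g ∈ Mx := by rw [e]; exact Subgroup.mem_zpowers _
            rw [show QuotientGroup.mk' Mx g = 1 from (QuotientGroup.eq_one_iff g).2 hg, orderOf_one] at hy
            omega
        have htop := hMx.2 _ hlt
        have : Subgroup.zpowers y = ⊤ := by
          rw [← Subgroup.map_comap_eq_self_of_surjective (QuotientGroup.mk'_surjective Mx) (Subgroup.zpowers y), htop,
            Subgroup.map_top_of_surjective _ (QuotientGroup.mk'_surjective Mx)]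
        show Nat.card (G ⧸ Mx) = 2
        rw [← Subgroup.card_top (G := G ⧸ Mx), ← this, Nat.card_zpowers, hy]
      have hmul : ∀ a b : G, a * b ∈ Mx ↔ (a ∈ Mx ↔ b ∈ Mx) := fun a b => Subgroup.mul_mem_iff_of_index_two hi2
      let f : G →* ℂˣ :=
        { toFun := fun g => if g ∈ Mx then 1 else -1
          map_one' := if_pos Mx.one_mem
          map_mul' := fun a b => by
            by_cases ha : a ∈ Mx <;> by_cases hb : b ∈ Mx <;> simp [ha, hb, hmul] }
      refine ⟨f, MonoidHom.ext fun g => ?_, fun g => ?_⟩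
      · show (if g ∈ Mx then (1 : ℂˣ) else -1) * (if g ∈ Mx then (1 : ℂˣ) else -1) = 1
        split_ifs <;> simp
      · show (if g ∈ Mx then (1 : ℂˣ) else -1) = 1 ↔ _
        split_ifs with h
        · simp [h]
        · refine ⟨fun e => absurd (congrArg Units.val e) (by norm_num), fun e => absurd e h⟩
    obtain ⟨M₁, hM₁, -⟩ := (eq_top_or_exists_le_coatom (⊥ : Subgroup G)).resolve_left bot_ne_top
    obtain ⟨g, hg⟩ : ∃ g, g ∉ M₁ := by
      by_contra h
      push Not at h
      exact hM₁.1 (eq_top_iff.2 fun x _ => h x)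
    obtain ⟨M₂, hM₂, hgM₂⟩ := (eq_top_or_exists_le_coatom (Subgroup.zpowers g)).resolve_left fun h =>
      hcycl (isCyclic_iff_exists_zpowers_eq_top.2 ⟨g, h⟩)
    obtain ⟨f₁, hf₁, hk₁⟩ := hsign M₁ hM₁
    obtain ⟨f₂, hf₂, hk₂⟩ := hsign M₂ hM₂
    obtain ⟨y, hy⟩ : ∃ y, y ∉ M₂ := by
      by_contra h
      push Not at h
      exact hM₂.1 (eq_top_iff.2 fun x _ => h x)
    have h12 : f₁ ≠ f₂ := fun e => hg ((hk₁ g).1 (by rw [e]; exact (hk₂ g).2 (hgM₂ (Subgroup.mem_zpowers g))))
    have h10 : f₁ ≠ 1 := fun e => hg ((hk₁ g).1 (by rw [e]; rfl))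
    have h20 : f₂ ≠ 1 := fun e => hy ((hk₂ y).1 (by rw [e]; rfl))
    have hsub : ({⟨f₁, hf₁⟩, ⟨f₂, hf₂⟩, 1} : Finset S).card = 3 :=
      Finset.card_eq_three.2 ⟨_, _, _, fun e => h12 (congrArg Subtype.val e), fun e => h10 (congrArg Subtype.val e),
        fun e => h20 (congrArg Subtype.val e), rfl⟩
    rw [Nat.card_eq_fintype_card, ← hsub]
    exact Finset.card_le_univ _
  obtain ⟨r, hr⟩ := IsPGroup.iff_card.1 hSp
  have hr2 : 2 ≤ r := by
    by_contra h
    rw [hr] at hS3
    interval_cases r <;> norm_num at hS3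
  have h4S : 4 ∣ Nat.card S := by rw [hr]; exact (Nat.pow_dvd_pow 2 hr2)
  have hRodd : Odd R.card := by
    obtain ⟨k, hk⟩ := h4S
    rw [Nat.odd_iff]
    rw [hlinS, hk] at hmod
    push_cast at hmod
    omega
  -- the action of `S` on `R`
  have hRmem : ∀ f : G →* ℂˣ, f * f = 1 → ∀ χ ∈ R, act f χ ∈ R := by
    intro f hf χ hχ
    obtain ⟨h1, h2⟩ := (Finset.mem_filter.1 hχ).2
    refine Finset.mem_filter.2 ⟨Finset.mem_univ _, ?_, (hreal _).2 fun g => CfsgLib.Char.eq_conj_of_im.2 ?_⟩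
    · have h : (d (act f χ) : ℂ) = 2 := by
        rw [hd]; show (f 1 : ℂ) * (χ : G → ℂ) 1 = 2
        rw [map_one, Units.val_one, one_mul, ← hd, h1, Nat.cast_ofNat]
      exact_mod_cast h
    · show (starRingEnd ℂ) ((f g : ℂ) * (χ : G → ℂ) g) = (f g : ℂ) * (χ : G → ℂ) g
      rw [map_mul, hconj, hinvsq f hf, CfsgLib.Char.eq_conj_of_im.1 ((hreal χ).1 h2 g)]
  letI : MulAction S R :=
    { smul := fun f χ => ⟨act f χ, hRmem f f.2 χ χ.2⟩
      one_smul := fun χ => Subtype.ext (hact1 χ.1)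
      mul_smul := fun f f' χ => Subtype.ext (hactm f f' χ.1) }
  set X := R.filter (fun χ => ∀ f : S, act f χ = χ) with hX
  have hXodd : Odd X.card := by
    have h := hSp.card_modEq_card_fixedPoints R
    have e : Nat.card (MulAction.fixedPoints S R) = X.card := by
      rw [← Fintype.card_coe X, ← Nat.card_eq_fintype_card]
      exact Nat.card_congr
        { toFun := fun χ => ⟨χ.1.1, Finset.mem_filter.2 ⟨χ.1.2, fun f => congrArg Subtype.val (χ.2 f)⟩⟩
          invFun := fun χ => ⟨⟨χ.1, (Finset.mem_filter.1 χ.2).1⟩, fun f => Subtype.ext ((Finset.mem_filter.1 χ.2).2 f)⟩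
          left_inv := fun _ => rfl
          right_inv := fun _ => rfl }
    rw [e, Nat.card_eq_fintype_card, Fintype.card_coe] at h
    rw [Nat.odd_iff] at hRodd ⊢
    rw [← h]; exact hRodd
  -- at most four linear characters fix a member
  have hfix : ∀ χ ∈ X, ∀ s : Finset (G →* ℂˣ), (∀ f ∈ s, act f χ = χ) → s.card ≤ 4 := by
    intro χ hχ s hs
    have hd2' : (χ : G → ℂ) 1 = 2 := by
      rw [← hd, ((Finset.mem_filter.1 (Finset.mem_filter.1 hχ).1).2).1, Nat.cast_ofNat]
    set ψ : G → ℂ := fun g => (χ : G → ℂ) g * (starRingEnd ℂ) ((χ : G → ℂ) g)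
    have hψ : IsCharacter G ψ := CfsgLib.Char.isCharacter_mul χ.2.isCharacter' (CfsgLib.Char.isCharacter_conj χ.2.isCharacter')
    have hn' : ∀ ξ : IrrCharacter G, ∃ m : ℕ, classInner ψ (ξ : G → ℂ) = m := fun ξ =>
      CfsgLib.Char.inner_character_nat hψ ξ.2.isCharacter'
    choose m hm using hn'
    let ι : (G →* ℂˣ) → IrrCharacter G := fun f => ⟨fun g => (f g : ℂ), CfsgLib.Char.isIrrCharacter_hom f⟩
    have hι : Function.Injective ι := fun a b h => MonoidHom.ext fun g => Units.ext (congrFun (congrArg Subtype.val h) g)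
    have hm1 : ∀ f ∈ s, m (ι f) = 1 := by
      intro f hf
      have h : classInner ψ (fun g => (f g : ℂ)) = 1 := by
        refine Eq.trans ?_ (CfsgLib.Char.irr_inner_self χ.2)
        rw [classInner, classInner]
        congr 1
        refine Finset.sum_congr rfl fun g _ => ?_
        conv_rhs => arg 2; rw [← hs f hf]
        show _ = _ * (starRingEnd ℂ) ((f g : ℂ) * (χ : G → ℂ) g)
        rw [map_mul]; ring
      have := (hm (ι f)).symm.trans h
      exact_mod_cast this
    have hsum := congrFun (CfsgLib.Char.classFunction_eq_sum ψ (CfsgLib.Char.isCharacter_classFunction hψ)) 1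
    rw [Finset.sum_apply] at hsum
    simp only [Pi.smul_apply, smul_eq_mul, hm, ← hd] at hsum
    have hψ1 : ψ 1 = ((4 : ℕ) : ℂ) := by
      show (χ : G → ℂ) 1 * (starRingEnd ℂ) ((χ : G → ℂ) 1) = _
      rw [hd2', map_ofNat]; norm_num
    rw [hψ1] at hsum
    have hsum' : 4 = ∑ ξ, m ξ * d ξ := by exact_mod_cast hsum
    calc s.card = ∑ ξ ∈ s.image ι, m ξ * d ξ := by
          rw [Finset.sum_image fun a _ b _ h => hι h, Finset.card_eq_sum_ones]
          refine Finset.sum_congr rfl fun f hf => ?_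
          rw [hm1 f hf, one_mul]
          have h : (d (ι f) : ℂ) = 1 := by
            rw [hd]; show (f 1 : ℂ) = 1
            rw [map_one, Units.val_one]
          exact_mod_cast h.symm
      _ ≤ ∑ ξ, m ξ * d ξ := Finset.sum_le_sum_of_subset (Finset.subset_univ _)
      _ = 4 := hsum'.symm
  set SF : Finset (G →* ℂˣ) := Finset.univ.map ⟨fun f : S => (f : G →* ℂˣ), Subtype.val_injective⟩
  have hS4 : Nat.card S = 4 ∧ ∀ χ ∈ X, ∀ f, act f χ = χ → f ∈ S := by
    obtain ⟨χ₀, hχ₀⟩ := Finset.card_pos.1 hXodd.pos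
    have hall : ∀ χ ∈ X, ∀ f ∈ SF, act f χ = χ := by
      intro χ hχ f hf
      obtain ⟨f', -, rfl⟩ := Finset.mem_map.1 hf
      exact (Finset.mem_filter.1 hχ).2 f'
    have h1 := hfix χ₀ hχ₀ SF (hall χ₀ hχ₀)
    have hSF : SF.card = Nat.card S := by rw [Finset.card_map, Finset.card_univ, Nat.card_eq_fintype_card]
    have h4 : Nat.card S = 4 := by
      obtain ⟨k, hk⟩ := h4S
      omega
    refine ⟨h4, fun χ hχ f hf => ?_⟩
    by_contra hfS
    have hnot : f ∉ SF := fun h => by
      obtain ⟨f', -, rfl⟩ := Finset.mem_map.1 h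
      exact hfS f'.2
    have h2 := hfix χ hχ (insert f SF) (fun g hg => by
      rcases Finset.mem_insert.1 hg with rfl | hg
      · exact hf
      · exact hall χ hχ g hg)
    rw [Finset.card_insert_of_notMem hnot, hSF, h4] at h2
    omega
  -- every linear character is real
  have hLS : S = ⊤ := by
    by_contra hne
    have hL : Nat.card (G →* ℂˣ) = (commutator G).index :=
      (Nat.card_congr CfsgLib.Char.linCharEquiv).trans CfsgLib.Char.card_linear_chars
    have hLp : IsPGroup 2 (G →* ℂˣ) := by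
      obtain ⟨i, -, hi⟩ := (Nat.dvd_prime_pow Nat.prime_two).1 (hn ▸ (commutator G).index_dvd_card)
      exact IsPGroup.of_card (hL.trans hi)
    obtain ⟨f, hfS, hff⟩ : ∃ f : G →* ℂˣ, f ∉ S ∧ f * f ∈ S := by
      obtain ⟨f₀, hf₀⟩ : ∃ f, f ∉ S := by
        by_contra h
        push Not at h
        exact hne (eq_top_iff.2 fun x _ => h x)
      obtain ⟨k, hk⟩ := hLp f₀
      clear hne hL
      induction k generalizing f₀ with
      | zero => rw [pow_zero, pow_one] at hk; exact absurd (hk ▸ S.one_mem) hf₀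
      | succ k ih =>
        by_cases h : f₀ * f₀ ∈ S
        · exact ⟨f₀, hf₀, h⟩
        · exact ih _ h (MonoidHom.ext fun g => by
            show (f₀ g * f₀ g) ^ 2 ^ k = 1
            rw [← pow_two, ← pow_mul, ← pow_succ']
            exact DFunLike.congr_fun hk g)
    have hfX : ∀ χ ∈ X, act f χ ∈ X ∧ act f (act f χ) = χ := by
      intro χ hχ
      obtain ⟨hχR, hχf⟩ := Finset.mem_filter.1 hχ
      have h2 : act (f * f) χ = χ := hχf ⟨f * f, hff⟩
      refine ⟨Finset.mem_filter.2 ⟨?_, fun s => ?_⟩, by rw [← hactm]; exact h2⟩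
      · obtain ⟨h1, h3⟩ := (Finset.mem_filter.1 hχR).2
        refine Finset.mem_filter.2 ⟨Finset.mem_univ _, ?_, (hreal _).2 fun g => CfsgLib.Char.eq_conj_of_im.2 ?_⟩
        · have h : (d (act f χ) : ℂ) = 2 := by
            rw [hd]; show (f 1 : ℂ) * (χ : G → ℂ) 1 = 2
            rw [map_one, Units.val_one, one_mul, ← hd, h1, Nat.cast_ofNat]
          exact_mod_cast h
        · show (starRingEnd ℂ) ((f g : ℂ) * (χ : G → ℂ) g) = (f g : ℂ) * (χ : G → ℂ) g
          rw [map_mul, hconj, CfsgLib.Char.eq_conj_of_im.1 ((hreal χ).1 h3 g)]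
          have h4 := congrFun (congrArg Subtype.val h2) g
          calc ((f⁻¹ : G →* ℂˣ) g : ℂ) * (χ : G → ℂ) g = ((f⁻¹ : G →* ℂˣ) g : ℂ) * (((f * f) g : ℂ) * (χ : G → ℂ) g) := by
                rw [show ((f * f) g : ℂ) * (χ : G → ℂ) g = (χ : G → ℂ) g from h4]
            _ = (((f⁻¹ : G →* ℂˣ) g : ℂ) * (f g : ℂ)) * ((f g : ℂ) * (χ : G → ℂ) g) := by rw [hLmul]; ring
            _ = (f g : ℂ) * (χ : G → ℂ) g := by rw [MonoidHom.inv_apply, ← Units.val_mul, inv_mul_cancel, Units.val_one, one_mul]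
      · rw [← hactm, show (s : G →* ℂˣ) * f = f * (s : G →* ℂˣ) from MonoidHom.ext fun g => mul_comm _ _, hactm, hχf s]
    let σ : Equiv.Perm X :=
      ⟨fun χ => ⟨act f χ, (hfX χ χ.2).1⟩, fun χ => ⟨act f χ, (hfX χ χ.2).1⟩,
        fun χ => Subtype.ext (hfX χ χ.2).2, fun χ => Subtype.ext (hfX χ χ.2).2⟩
    have hσ : σ ^ 2 = 1 := Equiv.ext fun χ => by
      rw [pow_two, Equiv.Perm.mul_apply]; exact Subtype.ext (hfX χ χ.2).2
    have h := Equiv.Perm.two_dvd_card_support hσ
    rw [Finset.eq_univ_of_forall (s := σ.support) fun χ => Equiv.Perm.mem_support.2 fun e =>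
      hfS (hS4.2 χ χ.2 f (congrArg Subtype.val e)), Finset.card_univ, Fintype.card_coe] at h
    exact Nat.not_even_iff_odd.2 hXodd (even_iff_two_dvd.2 h)
  have e := hS4.1
  rw [hLS, Subgroup.card_top] at e
  rw [← e, ← CfsgLib.Char.card_linear_chars]
  exact (Nat.card_congr CfsgLib.Char.linCharEquiv).symm

end Cfsg.Agent.S4477
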