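import Cfsg.Statements.S4478
import Cfsg.Agent.Lib.CharIndicator
import Cfsg.Agent.Lib.BlockCodegree

set_option autoImplicit false
open Cfsg

namespace Cfsg.Agent.S4478

/-- Let G be a finite group of even order and χ an irreducible character of G whose degree x is divisible by the full power of 2 dividing the order of G and, for every odd prime p such that G has an element of order 2p, by the full power of p dividing the order of G. Then all involutions of G are conjugate, the centralizer of every involution has order exactly x with x coprime to its index, and the Frobenius–Schur indicator of χ equals 1. -/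
theorem result {G : Type*} [Group G] [Fintype G] (heven : Even (Nat.card G)) (χ : Cfsg.IrrCharacter G) (h2 : 2 ^ (Nat.card G).factorization 2 ∣ Cfsg.charDegree (χ : G → ℂ)) (hp : ∀ p : ℕ, p.Prime → p ≠ 2 → (∃ g : G, orderOf g = 2 * p) → p ^ (Nat.card G).factorization p ∣ Cfsg.charDegree (χ : G → ℂ)) : (∀ s t : G, orderOf s = 2 → orderOf t = 2 → IsConj s t) ∧ (∀ s : G, orderOf s = 2 → Nat.card (Subgroup.centralizer ({s} : Set G)) = Cfsg.charDegree (χ : G → ℂ) ∧ (Nat.card (Subgroup.centralizer ({s} : Set G))).Coprime (Subgroup.centralizer ({s} : Set G)).index) ∧ (Nat.card G : ℂ)⁻¹ * ∑ g : G, (χ : G → ℂ) (g * g) = 1 := by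
  classical
  have hG0 := CfsgLib.Char.natCard_ne_zero G
  haveI : Fact (Nat.Prime 2) := ⟨Nat.prime_two⟩
  have h2G : 2 ∣ Nat.card G := heven.two_dvd
  have hpart : ∀ q : ℕ, q.Prime → q ^ (Nat.card G).factorization q ∣ charDegree (χ : G → ℂ) →
      ∀ x : G, q ∣ orderOf x → (χ : G → ℂ) x = 0 := fun q hq h x hx =>
    CfsgLib.Block.vanish_of_full_part χ hq ((hq.pow_dvd_iff_le_factorization (CfsgLib.Block.charDegree_pos χ).ne').1 h) hx
  have hs0 : ∀ x : G, 2 ∣ orderOf x → (χ : G → ℂ) x = 0 := hpart 2 Nat.prime_two h2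
  have hne1 : χ ≠ CfsgLib.Block.trivIrr G := by
    intro e
    obtain ⟨x, hx⟩ := exists_prime_orderOf_dvd_card' 2 h2G
    have := hs0 x (by rw [hx])
    rw [e] at this
    exact one_ne_zero this
  have hall : ∑ g : G, (χ : G → ℂ) g = 0 := by
    have h := CfsgLib.Char.irr_classInner χ (CfsgLib.Block.trivIrr G)
    rw [if_neg hne1, classInner, mul_eq_zero, or_iff_right (inv_ne_zero hG0)] at h
    simpa [CfsgLib.Block.trivIrr] using h
  have hsq : ∑ g : G, (χ : G → ℂ) (g * g) = (Nat.card {x : G // orderOf x = 2} : ℂ) * (χ : G → ℂ) 1 := by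
    rw [← Finset.sum_filter_add_sum_filter_not Finset.univ (fun g : G => Odd (orderOf g))]
    have hodd : ∑ g ∈ Finset.univ.filter (fun g : G => Odd (orderOf g)), (χ : G → ℂ) (g * g) = 0 := by
      have h1 : ∑ g ∈ Finset.univ.filter (fun g : G => Odd (orderOf g)), (χ : G → ℂ) g = 0 := by
        refine (Finset.sum_subset (Finset.subset_univ _) fun g _ hg => hs0 g ?_).trans hall
        simp only [Finset.mem_filter, Finset.mem_univ, true_and, Nat.not_odd_iff_even] at hg
        exact hg.two_dvd
      rw [← h1]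
      refine Finset.sum_bij (fun g _ => g * g) (fun g hg => ?_) (fun a ha b hb h => ?_) (fun b hb => ?_) (fun _ _ => rfl)
      · simp only [Finset.mem_filter, Finset.mem_univ, true_and] at hg ⊢
        exact hg.of_dvd_nat (by rw [← pow_two]; exact orderOf_pow_dvd 2)
      · simp only [Finset.mem_filter, Finset.mem_univ, true_and] at ha hb
        have key : ∀ c : G, Odd (orderOf c) → ∀ l : ℕ, orderOf c ∣ l → Odd l → c = (c * c) ^ ((l + 1) / 2) := by
          intro c _ l hl hlo
          obtain ⟨i, rfl⟩ := hlo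
          rw [← pow_two, ← pow_mul, show 2 * ((2 * i + 1 + 1) / 2) = 2 * i + 1 + 1 by omega, pow_succ,
            orderOf_dvd_iff_pow_eq_one.1 hl, one_mul]
        have h' : a * a = b * b := h
        calc a = (a * a) ^ ((orderOf a * orderOf b + 1) / 2) := key a ha _ (dvd_mul_right _ _) (ha.mul hb)
          _ = (b * b) ^ ((orderOf a * orderOf b + 1) / 2) := by rw [h']
          _ = b := (key b hb _ (dvd_mul_left _ _) (ha.mul hb)).symm
      · simp only [Finset.mem_filter, Finset.mem_univ, true_and] at hb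
        obtain ⟨i, hi⟩ := id hb
        refine ⟨b ^ (i + 1), Finset.mem_filter.2 ⟨Finset.mem_univ _, hb.of_dvd_nat (orderOf_pow_dvd _)⟩, ?_⟩
        rw [← pow_add, show i + 1 + (i + 1) = orderOf b + 1 by omega, pow_succ, pow_orderOf_eq_one, one_mul]
    rw [hodd, zero_add]
    rw [← Finset.sum_filter_add_sum_filter_not (Finset.univ.filter fun g : G => ¬ Odd (orderOf g)) (fun g : G => orderOf g = 2)]
    have hzero : ∑ g ∈ (Finset.univ.filter fun g : G => ¬ Odd (orderOf g)).filter (fun g : G => ¬ orderOf g = 2), (χ : G → ℂ) (g * g) = 0 := by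
      refine Finset.sum_eq_zero fun g hg => ?_
      simp only [Finset.mem_filter, Finset.mem_univ, true_and, Nat.not_odd_iff_even] at hg
      obtain ⟨heve, hne2⟩ := hg
      obtain ⟨m, hm⟩ := heve.two_dvd
      have hog : orderOf (g * g) = m := by
        rw [← pow_two, orderOf_pow, hm, Nat.gcd_mul_right_left, Nat.mul_div_cancel_left _ two_pos]
      by_cases hm2 : 2 ∣ m
      · exact hs0 _ (hog ▸ hm2)
      · have hm1 : m ≠ 1 := fun e => hne2 (by rw [hm, e, mul_one])
        obtain ⟨q, hq, hqm⟩ := Nat.exists_prime_and_dvd hm1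
        have hq2 : q ≠ 2 := fun e => hm2 (e ▸ hqm)
        refine hpart q hq (hp q hq hq2 ⟨g ^ (m / q), ?_⟩) _ (hog ▸ hqm)
        rw [orderOf_pow, hm]
        have hmq : m / q ∣ 2 * m := (Nat.div_dvd_of_dvd hqm).trans (dvd_mul_left m 2)
        rw [Nat.gcd_eq_right hmq]
        obtain ⟨j, rfl⟩ := hqm
        have hm0 : 0 < q * j := Nat.pos_of_ne_zero fun e => by
          rw [e, mul_zero] at hm; exact (orderOf_pos g).ne' hm
        rw [Nat.mul_div_cancel_left j hq.pos, ← mul_assoc, Nat.mul_div_cancel _ (Nat.pos_of_mul_pos_left hm0)]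
    rw [hzero, add_zero]
    rw [Finset.sum_congr rfl (g := fun _ => (χ : G → ℂ) 1) fun g hg => by
      simp only [Finset.mem_filter] at hg
      rw [← pow_two, ← hg.2, pow_orderOf_eq_one],
      Finset.sum_const, nsmul_eq_mul]
    congr 2
    rw [Nat.card_eq_fintype_card, Fintype.card_subtype, Finset.filter_filter]
    congr 1
    refine Finset.filter_congr fun g _ => ⟨fun h => h.2, fun h => ⟨?_, h⟩⟩
    rw [h]; decide
  set t := Nat.card {x : G // orderOf x = 2} with ht
  have ht0 : 0 < t := by
    haveI : Nonempty {x : G // orderOf x = 2} :=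
      let ⟨x, hx⟩ := exists_prime_orderOf_dvd_card' 2 h2G; ⟨⟨x, hx⟩⟩
    exact Nat.card_pos
  have hν : CfsgLib.Char.sqIndicator (χ : G → ℂ) = 1 := by
    have hv : CfsgLib.Char.sqIndicator (χ : G → ℂ) = ((t * charDegree (χ : G → ℂ) : ℕ) : ℂ) / (Nat.card G : ℂ) := by
      rw [CfsgLib.Char.sqIndicator, hsq, Nat.cast_mul, CfsgLib.Block.charDegree_cast χ.2.isCharacter']
      ring
    have hpos : ((t * charDegree (χ : G → ℂ) : ℕ) : ℂ) ≠ 0 :=
      Nat.cast_ne_zero.2 (Nat.mul_pos ht0 (CfsgLib.Block.charDegree_pos χ)).ne'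
    rcases (CfsgLib.Char.sqIndicator_trichotomy χ.2).1 with h | h | h
    · rw [hv, div_eq_zero_iff] at h
      exact absurd h (not_or.2 ⟨hpos, hG0⟩)
    · exact h
    · rw [hv, div_eq_iff hG0] at h
      have h' := congrArg Complex.re h
      simp at h'
      have : (0 : ℝ) < t * charDegree (χ : G → ℂ) := by exact_mod_cast Nat.mul_pos ht0 (CfsgLib.Block.charDegree_pos χ)
      have : (0 : ℝ) < Nat.card G := by exact_mod_cast Nat.card_pos
      simp at *
      nlinarith
  have htx : t * charDegree (χ : G → ℂ) = Nat.card G := by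
    have h := hν
    rw [CfsgLib.Char.sqIndicator, hsq, inv_mul_eq_one₀ hG0, ← CfsgLib.Block.charDegree_cast χ.2.isCharacter'] at h
    exact_mod_cast h.symm
  -- centralizers of involutions
  have hC : ∀ s : G, orderOf s = 2 → ∀ q : ℕ, q.Prime → q ∣ Nat.card (Subgroup.centralizer ({s} : Set G)) →
      (Nat.card G).factorization q ≤ (charDegree (χ : G → ℂ)).factorization q := by
    intro s hs q hq hdvd
    refine (hq.pow_dvd_iff_le_factorization (CfsgLib.Block.charDegree_pos χ).ne').1 ?_
    by_cases hq2 : q = 2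
    · exact hq2 ▸ h2
    · refine hp q hq hq2 ?_
      haveI := Fact.mk hq
      obtain ⟨x, hx⟩ := exists_prime_orderOf_dvd_card' q hdvd
      refine ⟨s * (x : G), ?_⟩
      have hc : Commute s (x : G) := (Subgroup.mem_centralizer_singleton_iff.1 x.2).symm
      rw [hc.orderOf_mul_eq_mul_orderOf_of_coprime (by
        rw [hs, Subgroup.orderOf_coe, hx]; exact (Nat.coprime_primes Nat.prime_two hq).2 (Ne.symm hq2)), hs,
        Subgroup.orderOf_coe, hx]
  have hdvd : ∀ s : G, orderOf s = 2 → Nat.card (Subgroup.centralizer ({s} : Set G)) ∣ charDegree (χ : G → ℂ) := by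
    intro s hs
    rw [← Nat.factorization_le_iff_dvd Nat.card_pos.ne' (CfsgLib.Block.charDegree_pos χ).ne']
    intro q
    by_cases hqd : q.Prime ∧ q ∣ Nat.card (Subgroup.centralizer ({s} : Set G))
    · exact le_trans ((Nat.factorization_le_iff_dvd Nat.card_pos.ne' Nat.card_pos.ne').2 (Subgroup.card_subgroup_dvd_card _) q) (hC s hs q hqd.1 hqd.2)
    · by_cases hqp : q.Prime
      · rw [Nat.factorization_eq_zero_of_not_dvd fun h => hqd ⟨hqp, h⟩]; exact Nat.zero_le _
      · rw [Nat.factorization_eq_zero_of_not_prime _ hqp]; exact Nat.zero_le _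
  have hclass : ∀ s : G, orderOf s = 2 → Finset.univ.filter (fun g : G => IsConj s g) = Finset.univ.filter (fun g : G => orderOf g = 2) ∧
      Nat.card (Subgroup.centralizer ({s} : Set G)) = charDegree (χ : G → ℂ) := by
    intro s hs
    set C := Subgroup.centralizer ({s} : Set G) with hCdef
    have hsub : Finset.univ.filter (fun g : G => IsConj s g) ⊆ Finset.univ.filter (fun g : G => orderOf g = 2) := by
      intro g hg
      simp only [Finset.mem_filter, Finset.mem_univ, true_and] at hg ⊢
      obtain ⟨c, rfl⟩ := isConj_iff.1 hg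
      rw [← hs]; exact (MulAut.conj c).orderOf_eq s
    have hsum : (Finset.univ.filter (fun g : G => IsConj s g)).card = C.index := by
      have h := CfsgLib.Block.sum_classInd_mul (G := G) (f := fun _ => (1 : ℂ)) (fun _ _ => rfl) s
      simp only [CfsgLib.Block.classInd, mul_one] at h
      refine Nat.cast_injective (R := ℂ) (Eq.trans ?_ h)
      rw [Finset.card_filter, Nat.cast_sum]
      exact Finset.sum_congr rfl fun g _ => by split_ifs <;> simp
    have htf : (Finset.univ.filter (fun g : G => orderOf g = 2)).card = t := by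
      rw [ht, Nat.card_eq_fintype_card, Fintype.card_subtype]
    have h1 : C.index ≤ t := by rw [← hsum, ← htf]; exact Finset.card_le_card hsub
    have h2' : Nat.card C ≤ charDegree (χ : G → ℂ) := Nat.le_of_dvd (CfsgLib.Block.charDegree_pos χ) (hdvd s hs)
    have h3 : C.index * Nat.card C = t * charDegree (χ : G → ℂ) := by rw [htx]; exact C.index_mul_card
    have h4 : C.index = t := by
      by_contra hne
      have : C.index * Nat.card C < t * charDegree (χ : G → ℂ) :=
        Nat.mul_lt_mul_of_lt_of_le (lt_of_le_of_ne h1 hne) h2' (CfsgLib.Block.charDegree_pos χ)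
      omega
    refine ⟨Finset.eq_of_subset_of_card_le hsub (by rw [hsum, htf, h4]), ?_⟩
    rw [h4] at h3
    exact Nat.eq_of_mul_eq_mul_left ht0 h3
  refine ⟨fun s t' hs ht' => ?_, fun s hs => ⟨(hclass s hs).2, ?_⟩, hν⟩
  · have hm : t' ∈ Finset.univ.filter (fun g : G => IsConj s g) := by
      rw [(hclass s hs).1]; simp [ht']
    simpa using hm
  · refine Nat.coprime_of_dvd fun q hq hqC hqi => ?_
    have h1 := hC s hs q hq hqC
    rw [← (hclass s hs).2] at h1
    have h3 := congrArg (fun n : ℕ => n.factorization q) (Subgroup.centralizer ({s} : Set G)).card_mul_index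
    simp only [Nat.factorization_mul Nat.card_pos.ne' Subgroup.index_ne_zero_of_finite, Finsupp.add_apply] at h3
    have h4 := (hq.dvd_iff_one_le_factorization Subgroup.index_ne_zero_of_finite).1 hqi
    omega

end Cfsg.Agent.S4478
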