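import Cfsg.Statements.S4479
import Cfsg.Agent.Lib.BlockKleinPrincipal
import Cfsg.Agent.Lib.BlockCoverUnique
import Cfsg.Agent.Lib.CharMult
-- import your own Cfsg.Agent.* helpers here

set_option autoImplicit false
open Cfsg

namespace Cfsg.Agent.S4479

open CfsgLib.Block CfsgLib.Char
open scoped Classical ComplexConjugate

universe u

variable {G : Type u} [Group G] [Fintype G]

/-- Conjugating one element `J·y` to another fixes the two-part. -/
theorem fix_two_part {J y y' x : G} {m : ℕ} (hm : Odd m) (hJ2 : J ^ 2 = 1) (hy : y ^ m = 1)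
    (hy' : y' ^ m = 1) (hc : Commute J y) (hc' : Commute J y')
    (h : x * (J * y) * x⁻¹ = J * y') : x * J * x⁻¹ = J := by
  obtain ⟨t, rfl⟩ := hm
  have hJm : J ^ (2 * t + 1) = J := by rw [pow_succ, pow_mul, hJ2, one_pow, one_mul]
  have h2 := congrArg (· ^ (2 * t + 1)) h
  simp only [conj_pow, hc.mul_pow, hc'.mul_pow, hJm, hy, hy', mul_one] at h2
  exact h2

/-- An element whose square is one in a coset of an odd normal subgroup is conjugate to the
chosen involution of that coset. -/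
theorem exists_conj_in_coset {C : Type u} [Group C] [Finite C] {K : Subgroup C} (m : ℕ)
    (hm : Odd m) (hK : ∀ k ∈ K, k ^ m = 1) {x w : C} (hx : x ^ 2 = 1) (hw : w ^ 2 = 1)
    (hmem : x⁻¹ * w ∈ K) : ∃ c : C, c * x * c⁻¹ = w := by
  obtain ⟨t, rfl⟩ := hm
  set k := x⁻¹ * w with hk
  have hxi : x⁻¹ = x := inv_eq_of_mul_eq_one_left (by rw [← sq, hx])
  have hwk : w = x * k := by rw [hk, mul_inv_cancel_left]
  have hinv : x * k * x⁻¹ = k⁻¹ := by
    refine (inv_eq_of_mul_eq_one_left ?_).symm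
    rw [hxi]
    have h1 : x * k * (x * k) = 1 := by rw [← hwk, ← sq, hw]
    rw [← h1]; group
  set l := k ^ (t + 1) with hl
  have hll : l * l = k := by
    rw [hl, ← pow_add, show t + 1 + (t + 1) = (2 * t + 1) + 1 by omega, pow_succ, hK k hmem,
      one_mul]
  have hxl : x * l = l⁻¹ * x := by
    have h1 : x * l * x⁻¹ = l⁻¹ := by rw [hl, ← conj_pow, hinv, inv_pow]
    rw [← h1, inv_mul_cancel_right]
  refine ⟨l⁻¹, ?_⟩
  rw [inv_inv, hwk, ← hll, ← mul_assoc x l l, hxl]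

/-- The number of elements conjugating an involution into a given class of its centralizer. -/
theorem card_conj_into (J x : G) (g₀ : G) (hg₀ : g₀ * J * g₀⁻¹ = x) :
    Nat.card {a : G // ∃ c ∈ Subgroup.centralizer ({J} : Set G), a * J * a⁻¹ = c * x * c⁻¹} *
      Nat.card ↥(Subgroup.centralizer ({J} : Set G) ⊓ Subgroup.centralizer ({x} : Set G)) =
    Nat.card (Subgroup.centralizer ({J} : Set G)) * Nat.card (Subgroup.centralizer ({J} : Set G)) := by
  set C := Subgroup.centralizer ({J} : Set G) with hC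
  rw [← Nat.card_prod, ← Nat.card_prod]
  have hfix : ∀ d : C, (d : G) * J * (d : G)⁻¹ = J := fun d => by
    rw [Subgroup.mem_centralizer_singleton_iff.1 d.2, mul_inv_cancel_right]
  let f : C × C → {a : G // ∃ c ∈ C, a * J * a⁻¹ = c * x * c⁻¹} := fun q =>
    ⟨(q.1 : G) * g₀ * (q.2 : G), q.1, q.1.2, by
      calc (q.1 : G) * g₀ * (q.2 : G) * J * ((q.1 : G) * g₀ * (q.2 : G))⁻¹
          = (q.1 : G) * (g₀ * ((q.2 : G) * J * (q.2 : G)⁻¹) * g₀⁻¹) * (q.1 : G)⁻¹ := by group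
        _ = _ := by rw [hfix, hg₀]⟩
  have hc : ∀ a : {a : G // ∃ c ∈ C, a * J * a⁻¹ = c * x * c⁻¹}, ∃ c : C,
      a.1 * J * a.1⁻¹ = (c : G) * x * (c : G)⁻¹ := fun a => by
    obtain ⟨c, hc, h⟩ := a.2; exact ⟨⟨c, hc⟩, h⟩
  choose c0 hc0 using hc
  have hgx : g₀⁻¹ * x * g₀ = J := by rw [← hg₀]; group
  refine (Nat.card_congr ?_).symm
  refine
    { toFun := fun q => (f q, ⟨(c0 (f q) : G)⁻¹ * (q.1 : G), Subgroup.mem_inf.2
        ⟨mul_mem (inv_mem (c0 (f q)).2) q.1.2, ?_⟩⟩)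
      invFun := fun r => (⟨(c0 r.1 : G) * (r.2 : G), mul_mem (c0 r.1).2 (Subgroup.mem_inf.1 r.2.2).1⟩,
        ⟨((c0 r.1 : G) * (r.2 : G) * g₀)⁻¹ * r.1.1, ?_⟩)
      left_inv := ?_
      right_inv := ?_ }
  · have h := hc0 (f q)
    rw [Subgroup.mem_centralizer_singleton_iff, ← mul_inv_eq_iff_eq_mul]
    have h2 : (q.1 : G) * x * (q.1 : G)⁻¹ = (c0 (f q) : G) * x * (c0 (f q) : G)⁻¹ := by
      rw [← h]
      show _ = (q.1 : G) * g₀ * (q.2 : G) * J * ((q.1 : G) * g₀ * (q.2 : G))⁻¹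
      calc (q.1 : G) * x * (q.1 : G)⁻¹
          = (q.1 : G) * (g₀ * ((q.2 : G) * J * (q.2 : G)⁻¹) * g₀⁻¹) * (q.1 : G)⁻¹ := by
            rw [hfix, hg₀]
        _ = _ := by group
    calc (c0 (f q) : G)⁻¹ * (q.1 : G) * x * ((c0 (f q) : G)⁻¹ * (q.1 : G))⁻¹
        = (c0 (f q) : G)⁻¹ * ((q.1 : G) * x * (q.1 : G)⁻¹) * (c0 (f q) : G) := by group
      _ = x := by rw [h2]; group
  · have hx := Subgroup.mem_centralizer_singleton_iff.1 (Subgroup.mem_inf.1 r.2.2).2
    refine Subgroup.mem_centralizer_singleton_iff.2 ?_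
    rw [← mul_inv_eq_iff_eq_mul]
    calc ((c0 r.1 : G) * (r.2 : G) * g₀)⁻¹ * r.1.1 * J * (((c0 r.1 : G) * (r.2 : G) * g₀)⁻¹ * r.1.1)⁻¹
        = g₀⁻¹ * (r.2 : G)⁻¹ * (c0 r.1 : G)⁻¹ * (r.1.1 * J * r.1.1⁻¹) * (c0 r.1 : G) * (r.2 : G) * g₀ := by
          group
      _ = g₀⁻¹ * ((r.2 : G)⁻¹ * x * (r.2 : G)) * g₀ := by rw [hc0 r.1]; group
      _ = J := by
          rw [show (r.2 : G)⁻¹ * x * (r.2 : G) = x by rw [mul_assoc, ← hx, inv_mul_cancel_left],
            hgx]
  · intro q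
    refine Prod.ext (Subtype.ext ?_) (Subtype.ext ?_)
    · show (c0 (f q) : G) * ((c0 (f q) : G)⁻¹ * (q.1 : G)) = _
      rw [mul_inv_cancel_left]
    · show ((c0 (f q) : G) * ((c0 (f q) : G)⁻¹ * (q.1 : G)) * g₀)⁻¹ * ((q.1 : G) * g₀ * (q.2 : G)) = _
      group
  · intro r
    have hf : ∀ pr, f (⟨(c0 r.1 : G) * (r.2 : G), mul_mem (c0 r.1).2 (Subgroup.mem_inf.1 r.2.2).1⟩,
        ⟨((c0 r.1 : G) * (r.2 : G) * g₀)⁻¹ * r.1.1, pr⟩) = r.1 := fun pr => Subtype.ext (by
      show (c0 r.1 : G) * (r.2 : G) * g₀ * (((c0 r.1 : G) * (r.2 : G) * g₀)⁻¹ * r.1.1) = _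
      rw [mul_inv_cancel_left])
    refine Prod.ext (hf _) (Subtype.ext ?_)
    simp only [hf]
    rw [inv_mul_cancel_left]


/-- An order formula from the principal 2-block. Let G be a finite group of order 4·g₀ with g₀ odd having no normal 2-complement (no normal subgroup of order g₀); let P be a Sylow 2-subgroup, J an involution of P, and fix a maximal ideal M of the algebraic integers containing 2. Suppose the principal 2-block consists of the principal character and three further distinct characters χ₁, χ₂, χ₃ of degrees x₁, x₂, x₃, with χ_i(J) = ε_i = ±1. Then, writing c(J) and c(P) for the orders of the centralizers of J and of P, the order of G equals 8·α·c(J)³/c(P)² with α = x₁x₂x₃ / ((x₁ + ε₁)(x₂ + ε₂)(x₃ + ε₃)). -/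
theorem result {G : Type*} [Group G] [Finite G] (M : Ideal Cfsg.AlgInt) (hM : Cfsg.IsPModular 2 M) (g₀ : ℕ) (hg₀ : Odd g₀) (hG : Nat.card G = 4 * g₀) (hnc : ¬ ∃ N : Subgroup G, N.Normal ∧ Nat.card N = g₀) (P : Sylow 2 G) (J : G) (hJ : J ∈ (P : Subgroup G)) (hJ2 : orderOf J = 2) (χ₁ χ₂ χ₃ : Cfsg.IrrCharacter G) (ε₁ ε₂ ε₃ : ℤ) (hB : Cfsg.principalBlock M G = {χ : Cfsg.IrrCharacter G | (χ : G → ℂ) = (fun _ => 1) ∨ χ = χ₁ ∨ χ = χ₂ ∨ χ = χ₃}) (hdist : (χ₁ : G → ℂ) ≠ (fun _ => 1) ∧ (χ₂ : G → ℂ) ≠ (fun _ => 1) ∧ (χ₃ : G → ℂ) ≠ (fun _ => 1) ∧ χ₁ ≠ χ₂ ∧ χ₁ ≠ χ₃ ∧ χ₂ ≠ χ₃) (hε : (ε₁ = 1 ∨ ε₁ = -1) ∧ (ε₂ = 1 ∨ ε₂ = -1) ∧ (ε₃ = 1 ∨ ε₃ = -1)) (hval : (χ₁ : G → ℂ) J = ε₁ ∧ (χ₂ : G → ℂ) J = ε₂ ∧ (χ₃ : G → ℂ) J = ε₃) : (Nat.card G : ℚ) = 8 * (((Cfsg.charDegree (χ₁ : G → ℂ) : ℚ) * Cfsg.charDegree (χ₂ : G → ℂ) * Cfsg.charDegree (χ₃ : G → ℂ)) / ((Cfsg.charDegree (χ₁ : G → ℂ) + ε₁) * (Cfsg.charDegree (χ₂ : G → ℂ) + ε₂) * (Cfsg.charDegree (χ₃ : G → ℂ) + ε₃)))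 * (Nat.card (Subgroup.centralizer ({J} : Set G)) : ℚ) ^ 3 / (Nat.card (Subgroup.centralizer ((P : Subgroup G) : Set G)) : ℚ) ^ 2 := by
  classical
  have : Fintype G := Fintype.ofFinite G
  haveI : Fact (Nat.Prime 2) := ⟨Nat.prime_two⟩
  obtain ⟨hd1, hd2, hd3, h12, h13, h23⟩ := hdist
  obtain ⟨he1, he2, he3⟩ := hε
  obtain ⟨hv1, hv2, hv3⟩ := hval
  -- Sylow structure
  have hnd : ¬ 2 ∣ g₀ := fun h => Nat.not_even_iff_odd.2 hg₀ (even_iff_two_dvd.2 h)
  have hfacG : (Nat.card G).factorization 2 = 2 := by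
    rw [hG, Nat.factorization_mul (by norm_num) hg₀.pos.ne', Finsupp.add_apply,
      Nat.factorization_eq_zero_of_not_dvd hnd, show (4 : ℕ) = 2 ^ 2 by norm_num,
      Nat.prime_two.factorization_pow, Finsupp.single_eq_same]
  have hP4 : Nat.card P = 4 := by rw [P.card_eq_multiplicity, hfacG]; norm_num
  have hncomp : ¬ HasNormalPComplement 2 G := by
    rintro ⟨Q, N, hN, hNQ⟩
    have h := hNQ.card_mul
    rw [Q.card_eq_multiplicity, hfacG, hG] at h
    exact hnc ⟨N, hN, by omega⟩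
  have hK4 : IsKleinFour (P : Subgroup G) := by
    refine ⟨hP4, ?_⟩
    haveI : IsMulCommutative (P : Subgroup G) :=
      IsPGroup.isMulCommutative_of_card_eq_prime_sq (p := 2) (by rw [hP4]; norm_num)
    by_contra hexp
    have hdvd : Monoid.exponent (P : Subgroup G) ∣ 4 := hP4 ▸ Group.exponent_dvd_nat_card
    have h4 : Monoid.exponent (P : Subgroup G) = 4 := by
      have h1 : Monoid.exponent (P : Subgroup G) ≠ 1 := fun h => by
        haveI := Monoid.exp_eq_one_iff.1 h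
        rw [Nat.card_unique] at hP4
        omega
      rcases (Nat.dvd_prime_pow Nat.prime_two).1 (show Monoid.exponent (P : Subgroup G) ∣ 2 ^ 2 by
        simpa using hdvd) with ⟨i, hi, hi'⟩
      interval_cases i <;> simp_all
    haveI : IsCyclic (P : Subgroup G) := by
      letI : CommGroup (P : Subgroup G) :=
        { (inferInstance : Group (P : Subgroup G)) with mul_comm := fun a b => mul_comm' a b }
      exact IsCyclic.of_exponent_eq_card (by rw [h4, hP4])
    refine hncomp (CfsgLib.Transfer.burnside P ?_)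
    have hmin : (Nat.card G).minFac = 2 := (Nat.minFac_eq_two_iff _).2 ⟨2 * g₀, by rw [hG]; ring⟩
    exact IsCyclic.normalizer_le_centralizer hmin inferInstance
  have hone : ∀ s t : G, orderOf s = 2 → orderOf t = 2 → IsConj s t := by
    rcases CfsgLib.Invol.klein_fusion_dichotomy P hK4 with hall | hnone
    · have hto : ∀ s : G, orderOf s = 2 → ∃ a ∈ (P : Subgroup G), a ≠ 1 ∧ IsConj s a := by
        intro s hs
        obtain ⟨Q, hQ⟩ := (IsPGroup.of_card (p := 2) (G := Subgroup.zpowers s) (n := 1)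
          (by rw [Nat.card_zpowers, hs, pow_one])).exists_le_sylow
        obtain ⟨g, hg⟩ := MulAction.exists_smul_eq G Q P
        refine ⟨g * s * g⁻¹, ?_, fun h => ?_, isConj_iff.2 ⟨g, rfl⟩⟩
        · rw [← hg]
          exact Subgroup.smul_mem_pointwise_smul s (MulAut.conj g) _ (hQ (Subgroup.mem_zpowers s))
        · have h1 : s = 1 := by
            rw [mul_inv_eq_one, mul_eq_left] at h
            exact h
          rw [h1, orderOf_one] at hs
          omega
      intro s t hs ht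
      obtain ⟨a, ha, ha1, hsa⟩ := hto s hs
      obtain ⟨b, hb, hb1, htb⟩ := hto t ht
      exact (hsa.trans (hall a ha b hb ha1 hb1)).trans htb.symm
    · refine absurd (CfsgLib.Transfer.burnside P fun n hn => ?_) hncomp
      rw [Subgroup.mem_centralizer_iff]
      intro a ha
      have h1 := hnone a ha (n * a * n⁻¹) ((Subgroup.mem_normalizer_iff.1 hn a).1 ha)
        (isConj_iff.2 ⟨n, rfl⟩)
      conv_lhs => rw [h1]
      rw [inv_mul_cancel_right]
  have hPcomm : ∀ a ∈ (P : Subgroup G), ∀ b ∈ (P : Subgroup G), a * b = b * a := fun a ha b hb =>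
    congrArg Subtype.val ((IsKleinFour.isMulCommutative (G := (P : Subgroup G))).is_comm.comm
      ⟨a, ha⟩ ⟨b, hb⟩)
  have hPsq : ∀ a ∈ (P : Subgroup G), a ^ 2 = 1 := fun a ha => by
    rw [sq]; exact congrArg Subtype.val (IsKleinFour.mul_self (⟨a, ha⟩ : (P : Subgroup G)))
  obtain ⟨⟨k, hk⟩, hfacC⟩ := klein_centralizer_core P hK4 hJ hJ2
  set C := Subgroup.centralizer ({J} : Set G) with hC
  set K := pPrimeCore 2 C with hK
  haveI hKn : K.Normal := CfsgLib.Core.normal_pPrimeCore 2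
  have hKodd : Odd (Nat.card K) := Nat.not_even_iff_odd.1 fun h =>
    CfsgLib.Core.not_dvd_card_pPrimeCore (G := C) 2 (even_iff_two_dvd.1 h)
  have hKpow : ∀ y ∈ K, y ^ Nat.card K = 1 := fun y hy =>
    congrArg Subtype.val (pow_card_eq_one' (G := K) (x := ⟨y, hy⟩))
  have hcardC : Nat.card C = 4 * Nat.card K := by
    have hmul := K.card_mul_index
    have h1 := hfacC
    rw [← hmul, hk, Nat.factorization_mul Nat.card_pos.ne' (pow_ne_zero _ two_ne_zero),
      Finsupp.add_apply, Nat.prime_two.factorization_pow, Finsupp.single_eq_same,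
      Nat.factorization_eq_zero_of_not_dvd (CfsgLib.Core.not_dvd_card_pPrimeCore 2), zero_add] at h1
    rw [← hmul, hk, h1]; ring
  have hPC : ∀ a ∈ (P : Subgroup G), a ∈ C := fun a ha =>
    Subgroup.mem_centralizer_singleton_iff.2 (hPcomm a ha J hJ)
  let φ : (P : Subgroup G) →* C ⧸ K :=
    (QuotientGroup.mk' K).comp (Subgroup.inclusion hPC)
  have hφinj : Function.Injective φ := by
    rw [injective_iff_map_eq_one]
    intro a ha
    have ha' : Subgroup.inclusion hPC a ∈ K := (QuotientGroup.eq_one_iff _).1 ha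
    have h1 : orderOf (Subgroup.inclusion hPC a) ∣ Nat.card K :=
      Subgroup.orderOf_dvd_natCard K ha'
    have h2 : orderOf (Subgroup.inclusion hPC a) ∣ 2 :=
      orderOf_dvd_of_pow_eq_one (Subtype.ext (hPsq a a.2))
    have h3 := Nat.eq_one_of_dvd_coprimes (Nat.coprime_two_left.2 hKodd) h2 h1
    rw [orderOf_eq_one_iff] at h3
    exact Subgroup.inclusion_injective hPC (h3.trans (map_one _).symm)
  have hφbij : Function.Bijective φ := by
    haveI : Fintype (P : Subgroup G) := Fintype.ofFinite _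
    haveI : Fintype (C ⧸ K) := Fintype.ofFinite _
    rw [Fintype.bijective_iff_injective_and_card, ← Nat.card_eq_fintype_card,
      ← Nat.card_eq_fintype_card, hP4]
    refine ⟨hφinj, ?_⟩
    have := Subgroup.card_eq_card_quotient_mul_card_subgroup K
    rw [hcardC] at this
    exact Nat.eq_of_mul_eq_mul_right Nat.card_pos this
  have hJC : J ∈ C := hPC J hJ
  have hJne : J ≠ 1 := fun h => by rw [h, orderOf_one] at hJ2; omega
  have hJsq : J ^ 2 = 1 := hPsq J hJ
  have hJinv : J⁻¹ = J := inv_eq_of_mul_eq_one_left (by rw [← sq, hJsq])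
  have hcJ : ∀ y : C, Commute J (y : G) := fun y =>
    (Subgroup.mem_centralizer_singleton_iff.1 y.2).symm
  have hypow : ∀ y : K, (((y : C) : G)) ^ Nat.card K = 1 := fun y =>
    congrArg Subtype.val (hKpow y y.2)
  -- values on the block
  have hzk : ∃ i, orderOf J = 2 ^ i := ⟨1, by rw [hJ2, pow_one]⟩
  have hvalB : ∀ χ : IrrCharacter G, χ ∈ principalBlock M G → ∀ y : K,
      (χ : G → ℂ) (J * ((y : C) : G)) = (χ : G → ℂ) J := by
    intro χ hχ y
    have hy : ¬ 2 ∣ orderOf (y : C) := fun h =>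
      CfsgLib.Core.not_dvd_card_pPrimeCore (G := C) 2
        (h.trans (Subgroup.orderOf_dvd_natCard _ y.2))
    have h1r : ¬ 2 ∣ orderOf (1 : C) := by simp
    have e1 := apply_mul_eq_sum_secSet hM hzk (isPBlock_principal (G := G) M) hχ (y : C) hy
    have e2 := apply_mul_eq_sum_secSet hM hzk (isPBlock_principal (G := G) M) hχ 1 h1r
    rw [secSet_principal hM hzk] at e1 e2
    rw [OneMemClass.coe_one, mul_one] at e2
    rw [e1, e2]
    refine Finset.sum_congr rfl fun ξ _ => ?_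
    by_cases hξ : ξ ∈ principalBlock M (Subgroup.centralizer ({J} : Set G))
    · rw [apply_eq_of_principal hM (CfsgLib.Core.not_dvd_card_pPrimeCore 2) hξ y.2]
    · simp [indVal, hξ]
  set τ : IrrCharacter G := trivIrr G with hτ
  have hne : ∀ {χ : IrrCharacter G}, (χ : G → ℂ) ≠ (fun _ => 1) → τ ≠ χ := fun h e =>
    h (by rw [← e]; rfl)
  set Bf : Finset (IrrCharacter G) := {τ, χ₁, χ₂, χ₃} with hBf
  have hBfmem : ∀ χ, χ ∈ Bf ↔ χ ∈ principalBlock M G := by
    intro χ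
    rw [hB]
    simp only [hBf, Finset.mem_insert, Finset.mem_singleton, Set.mem_ofPred_eq]
    exact ⟨fun h => h.imp (fun e => by rw [e]; rfl) id,
      fun h => h.imp (fun e => Subtype.ext e) id⟩
  have hBsum : ∀ F : IrrCharacter G → ℂ, ∑ χ ∈ Bf, F χ = F τ + (F χ₁ + (F χ₂ + F χ₃)) := by
    intro F
    rw [hBf, Finset.sum_insert (by simp [hne hd1, hne hd2, hne hd3]),
      Finset.sum_insert (by simp [h12, h13]), Finset.sum_insert (by simp [h23]),
      Finset.sum_singleton]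
  -- characters outside the block sum to zero on the coset
  have hsq : ∀ e : ℤ, e = 1 ∨ e = -1 → (e : ℂ) * conj (e : ℂ) = 1 := by
    rintro e (rfl | rfl) <;> simp
  have hout : ∀ χ : IrrCharacter G, χ ∉ Bf →
      ∑ y : K, (χ : G → ℂ) (J * ((y : C) : G)) = 0 := by
    let T : IrrCharacter G → ℂ := fun χ => ∑ y : K, (χ : G → ℂ) (J * ((y : C) : G))
    have htot : ∑ χ, T χ * conj (T χ) = ((Nat.card K * Nat.card C : ℕ) : ℂ) := by
      simp only [T, map_sum, Finset.sum_mul, Finset.mul_sum]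
      rw [Finset.sum_comm, Finset.sum_congr rfl fun y _ => Finset.sum_comm,
        Finset.sum_congr rfl fun y _ => Finset.sum_congr rfl fun y' _ => sum_irr_mul_conj _ _,
        Finset.sum_comm]
      have hone' : ∀ y' : K, ∑ y : K, classDelta (J * ((y' : C) : G)) (J * ((y : C) : G)) =
          (Nat.card C : ℂ) := by
        intro y'
        simp only [classDelta, ← Nat.cast_sum]
        congr 1
        rw [← Nat.card_sigma]
        refine Nat.card_congr
          { toFun := fun q => ⟨q.2.1, Subgroup.mem_centralizer_singleton_iff.2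
              (mul_inv_eq_iff_eq_mul.1 (fix_two_part hKodd hJsq (hypow y') (hypow q.1)
                (hcJ _) (hcJ _) q.2.2))⟩
            invFun := fun x => ⟨⟨x * (y' : C) * x⁻¹, hKn.conj_mem _ y'.2 x⟩, (x : G), by
              show (x : G) * (J * ((y' : C) : G)) * (x : G)⁻¹ =
                J * ((x * (y' : C) * x⁻¹ : C) : G)
              have := (hcJ x).eq
              simp only [Subgroup.coe_mul, Subgroup.coe_inv]
              rw [← mul_assoc (x : G) J, ← this]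
              group⟩
            left_inv := ?_
            right_inv := fun x => rfl }
        rintro ⟨y, x, hx⟩
        refine Sigma.subtype_ext ?_ rfl
        refine Subtype.ext (Subtype.ext ?_)
        have h1 := fix_two_part hKodd hJsq (hypow y') (hypow y) (hcJ _) (hcJ _) hx
        show x * ((y' : C) : G) * x⁻¹ = ((y : C) : G)
        refine mul_left_cancel (a := J) ?_
        rw [← hx]
        conv_lhs => rw [← h1]
        group
      rw [Finset.sum_comm, Finset.sum_congr rfl fun y' _ => hone' y', Finset.sum_const, Finset.card_univ,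
        nsmul_eq_mul, Nat.cast_mul, ← Nat.card_eq_fintype_card]
    have hin : ∑ χ ∈ Bf, T χ * conj (T χ) = ((Nat.card K * Nat.card C : ℕ) : ℂ) := by
      have hTB : ∀ χ ∈ Bf, T χ = (Nat.card K : ℂ) * (χ : G → ℂ) J := fun χ hχ => by
        simp only [T, hvalB χ ((hBfmem χ).1 hχ), Finset.sum_const, Finset.card_univ,
          nsmul_eq_mul, Nat.card_eq_fintype_card]
      rw [Finset.sum_congr rfl fun χ hχ => by rw [hTB χ hχ, map_mul, Complex.conj_natCast],
        hBsum, hv1, hv2, hv3, show (τ : G → ℂ) J = 1 from rfl, map_one, hcardC]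
      push_cast
      linear_combination (Nat.card K : ℂ) ^ 2 * (hsq ε₁ he1 + hsq ε₂ he2 + hsq ε₃ he3)
    rw [← hin, ← Finset.sum_add_sum_compl Bf] at htot
    have h0 : ∑ χ ∈ Bfᶜ, T χ * conj (T χ) = 0 := by linear_combination htot
    intro χ hχ
    have h1 := congrArg Complex.re h0
    rw [Complex.re_sum, Complex.zero_re] at h1
    have h2 := (Finset.sum_eq_zero_iff_of_nonneg fun η _ => by
      rw [Complex.mul_conj, Complex.ofReal_re]; exact Complex.normSq_nonneg _).1 h1 χ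
      (Finset.mem_compl.2 hχ)
    rw [Complex.mul_conj, Complex.ofReal_re, Complex.normSq_eq_zero] at h2
    exact h2
  -- the two other involutions of P
  obtain ⟨x, hxP, hx1, hxJ⟩ : ∃ x ∈ (P : Subgroup G), x ≠ 1 ∧ x ≠ J := by
    by_contra hcon
    push Not at hcon
    haveI : Fintype (P : Subgroup G) := Fintype.ofFinite _
    have hle : (Finset.univ : Finset (P : Subgroup G)) ⊆ {1, ⟨J, hJ⟩} := fun a _ => by
      by_cases ha : (a : G) = 1
      · simp [show a = 1 from Subtype.ext ha]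
      · simp [show a = ⟨J, hJ⟩ from Subtype.ext (hcon a a.2 ha)]
    have := (Finset.card_le_card hle).trans Finset.card_le_two
    rw [Finset.card_univ, ← Nat.card_eq_fintype_card, hP4] at this
    omega
  set x' := J * x with hx'
  have hx'P : x' ∈ (P : Subgroup G) := mul_mem hJ hxP
  have hxx : x * x' = J := by
    rw [hx', ← mul_assoc, hPcomm x hxP J hJ, mul_assoc, ← sq, hPsq x hxP, mul_one]
  have hx'1 : x' ≠ 1 := fun h => hxJ (by rw [← hJinv]; exact (inv_eq_of_mul_eq_one_right h).symm)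
  have hcov : ∀ a ∈ (P : Subgroup G), a = 1 ∨ a = J ∨ a = x ∨ a = x' := by
    intro a ha
    by_contra hcon
    push Not at hcon
    haveI : Fintype (P : Subgroup G) := Fintype.ofFinite _
    let F : Finset (P : Subgroup G) := {1, ⟨J, hJ⟩, ⟨x, hxP⟩, ⟨x', hx'P⟩, ⟨a, ha⟩}
    have hFc : F.card = 5 := by
      have n1 : J ≠ x' := fun h => hx1 (mul_eq_left.1 h.symm)
      have n2 : x ≠ x' := fun h => hJne (mul_eq_right.1 h.symm)
      simp only [F]
      rw [Finset.card_insert_of_notMem, Finset.card_insert_of_notMem,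
        Finset.card_insert_of_notMem, Finset.card_insert_of_notMem, Finset.card_singleton]
      · simp [Ne.symm hcon.2.2.2]
      · simp [n2, Ne.symm hcon.2.2.1]
      · simp [Ne.symm hxJ, n1, Ne.symm hcon.2.1]
      · simp [← Subtype.coe_inj, Ne.symm hJne, Ne.symm hx1, Ne.symm hx'1, Ne.symm hcon.1]
    have := F.card_le_univ
    rw [hFc, ← Nat.card_eq_fintype_card, hP4] at this
    omega
  have hord : ∀ a ∈ (P : Subgroup G), a ≠ 1 → orderOf a = 2 := fun a ha h1 =>
    CfsgLib.Invol.klein_orderOf hK4 ha h1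
  let A : G → Set G := fun w => {a | ∃ c ∈ C, a * J * a⁻¹ = c * w * c⁻¹}
  have hCP : ∀ w ∈ (P : Subgroup G), w ≠ 1 → w ≠ J →
      C ⊓ Subgroup.centralizer ({w} : Set G) =
        Subgroup.centralizer ((P : Subgroup G) : Set G) := by
    intro w hw hw1 hwJ
    refine le_antisymm (fun g hg => ?_) (fun g hg => ?_)
    · obtain ⟨hgJ, hgw⟩ := Subgroup.mem_inf.1 hg
      rw [Subgroup.mem_centralizer_iff]
      intro a ha
      have e1 : J * g = g * J := (Subgroup.mem_centralizer_singleton_iff.1 hgJ).symm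
      have e2 : w * g = g * w := (Subgroup.mem_centralizer_singleton_iff.1 hgw).symm
      have e3 : x * g = g * x := by
        rcases hcov w hw with h | h | h | h
        · exact absurd h hw1
        · exact absurd h hwJ
        · rw [← h]; exact e2
        · rw [h, hx'] at e2
          refine mul_left_cancel (a := J) ?_
          rw [← mul_assoc, e2, ← mul_assoc, ← e1, mul_assoc]
      rcases hcov a ha with rfl | rfl | rfl | rfl
      · rw [one_mul, mul_one]
      · exact e1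
      · exact e3
      · rw [hx', mul_assoc, e3, ← mul_assoc, e1, mul_assoc]
    · refine Subgroup.mem_inf.2 ⟨?_, ?_⟩ <;> rw [Subgroup.mem_centralizer_singleton_iff]
      · exact (Subgroup.mem_centralizer_iff.1 hg J hJ).symm
      · exact (Subgroup.mem_centralizer_iff.1 hg w hw).symm
  have hA : ∀ w ∈ (P : Subgroup G), w ≠ 1 → w ≠ J → Nat.card (A w) *
      Nat.card (Subgroup.centralizer ((P : Subgroup G) : Set G)) = Nat.card C * Nat.card C := by
    intro w hw hw1 hwJ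
    obtain ⟨g₁, hg₁⟩ := isConj_iff.1 (hone J w hJ2 (hord w hw hw1))
    rw [← hCP w hw hw1 hwJ]
    exact card_conj_into J w g₁ hg₁
  -- the pairs
  let q : C →* C ⧸ K := QuotientGroup.mk' K
  have hqP : ∀ (w : G) (hw : w ∈ (P : Subgroup G)), q ⟨w, hPC w hw⟩ = φ ⟨w, hw⟩ := fun w hw => rfl
  have hAq : ∀ (w : G) (hw : w ∈ (P : Subgroup G)) (a : G), a ∈ A w →
      ∃ hs : a * J * a⁻¹ ∈ C, q ⟨_, hs⟩ = φ ⟨w, hw⟩ := by
    rintro w hw a ⟨c, hc, h⟩
    refine ⟨by rw [h]; exact mul_mem (mul_mem hc (hPC w hw)) (inv_mem hc), ?_⟩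
    have e : (⟨a * J * a⁻¹, by rw [h]; exact mul_mem (mul_mem hc (hPC w hw)) (inv_mem hc)⟩ : C) =
        ⟨c, hc⟩ * ⟨w, hPC w hw⟩ * ⟨c, hc⟩⁻¹ := Subtype.ext h
    rw [e, map_mul, map_mul, map_inv, hqP w hw]
    obtain ⟨⟨r, hr⟩, hr'⟩ := hφbij.2 (q ⟨c, hc⟩)
    rw [← hr', ← map_inv, ← map_mul, ← map_mul]
    congr 1
    exact Subtype.ext (show r * w * r⁻¹ = w by
      rw [hPcomm r hr w hw, mul_inv_cancel_right])
  have hAmem : ∀ (w : G) (hw : w ∈ (P : Subgroup G)) (a : G) (hs : a * J * a⁻¹ ∈ C),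
      q ⟨_, hs⟩ = φ ⟨w, hw⟩ → a ∈ A w := by
    intro w hw a hs h
    rw [← hqP, eq_comm, QuotientGroup.mk'_apply, QuotientGroup.mk'_apply, QuotientGroup.eq] at h
    obtain ⟨c, hc⟩ := exists_conj_in_coset (Nat.card K) hKodd hKpow
      (x := (⟨w, hPC w hw⟩ : C)) (w := ⟨_, hs⟩) (Subtype.ext (hPsq w hw)) (Subtype.ext (by
        show (a * J * a⁻¹) ^ 2 = 1
        rw [conj_pow, hJsq, mul_one, mul_inv_cancel])) h
    exact ⟨c, c.2, (congrArg Subtype.val hc).symm⟩
  have hmemK : ∀ w : C, w ∈ K ↔ q w = 1 := fun w => (QuotientGroup.eq_one_iff w).symm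
  have hpairs : ∀ ab : G × G, (∃ y : K, ab.1 * J * ab.1⁻¹ * (ab.2 * J * ab.2⁻¹) = J * ((y : C) : G))
      ↔ ab ∈ A x ×ˢ A x' ∪ A x' ×ˢ A x := by
    rintro ⟨a, b⟩
    simp only [Set.mem_union, Set.mem_prod]
    set s := a * J * a⁻¹ with hs
    set t := b * J * b⁻¹ with ht
    have hs2 : s * s = 1 := by rw [hs, ← sq, conj_pow, hJsq, mul_one, mul_inv_cancel]
    have ht2 : t * t = 1 := by rw [ht, ← sq, conj_pow, hJsq, mul_one, mul_inv_cancel]
    have hsi : s⁻¹ = s := inv_eq_of_mul_eq_one_left hs2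
    have hti : t⁻¹ = t := inv_eq_of_mul_eq_one_left ht2
    constructor
    · rintro ⟨y, hy⟩
      have hsC : s ∈ C := by
        refine Subgroup.mem_centralizer_singleton_iff.2 (mul_inv_eq_iff_eq_mul.1
          (fix_two_part (y := ((y : C) : G)) (y' := (((y⁻¹ : K) : C) : G)) hKodd hJsq (hypow y)
            (hypow y⁻¹) (hcJ _) (hcJ _) ?_))
        rw [← hy, hsi, ← mul_assoc s s t, hs2, one_mul]
        calc t * s = (s * t)⁻¹ := by rw [mul_inv_rev, hsi, hti]
          _ = _ := by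
            rw [hy, mul_inv_rev, hJinv, Subgroup.coe_inv, Subgroup.coe_inv]
            exact ((hcJ (y : C)).inv_right).eq.symm
      have hyC : s * (J * ((y : C) : G)) = t := by rw [← hy, ← mul_assoc, hs2, one_mul]
      have htC : t ∈ C := hyC ▸ mul_mem hsC (mul_mem hJC (y : C).2)
      have hqJ : q ⟨s, hsC⟩ * q ⟨t, htC⟩ = φ ⟨J, hJ⟩ := by
        rw [← map_mul, ← hqP J hJ, show (⟨s, hsC⟩ * ⟨t, htC⟩ : C) = ⟨J, hPC J hJ⟩ * (y : C) from
          Subtype.ext hy, map_mul, (hmemK (y : C)).1 y.2, mul_one]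
      have hns : ∀ (w : G) (hw : w ∈ C), w * w = 1 → w ≠ 1 → q ⟨w, hw⟩ ≠ 1 := by
        intro w hw hw2 hw1 hq
        have h1 := hKpow _ ((hmemK _).2 hq)
        have h2 : orderOf (⟨w, hw⟩ : C) = 1 := Nat.eq_one_of_dvd_coprimes
          (Nat.coprime_two_left.2 hKodd)
          (orderOf_dvd_of_pow_eq_one (Subtype.ext (by
            show w ^ 2 = 1
            rw [sq, hw2])))
          (orderOf_dvd_of_pow_eq_one h1)
        exact hw1 (congrArg Subtype.val (orderOf_eq_one_iff.1 h2))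
      have hs1 : s ≠ 1 := fun h => hJne (by
        rw [hs, mul_inv_eq_one, mul_eq_left] at h; exact h)
      have ht1 : t ≠ 1 := fun h => hJne (by
        rw [ht, mul_inv_eq_one, mul_eq_left] at h; exact h)
      obtain ⟨⟨r, hr⟩, hrs⟩ := hφbij.2 (q ⟨s, hsC⟩)
      have htr : q ⟨t, htC⟩ = φ ⟨r * J, mul_mem hr hJ⟩ := by
        rw [← hrs] at hqJ
        rw [← eq_inv_mul_iff_mul_eq] at hqJ
        rw [hqJ, ← map_inv, ← map_mul]
        congr 1
        exact Subtype.ext (show r⁻¹ * J = r * J by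
          rw [inv_eq_of_mul_eq_one_left (by rw [← sq, hPsq r hr])])
      rcases hcov r hr with h | h | h | h
      · exact absurd (by rw [← hrs, show (⟨r, hr⟩ : (P : Subgroup G)) = 1 from Subtype.ext h,
          map_one]) (hns s hsC hs2 hs1)
      · exact absurd (by rw [htr, show (⟨r * J, mul_mem hr hJ⟩ : (P : Subgroup G)) = 1 from
          Subtype.ext (show r * J = 1 by rw [h, ← sq, hJsq]), map_one]) (hns t htC ht2 ht1)
      · refine Or.inl ⟨hAmem x hxP a hsC ?_, hAmem x' hx'P b htC ?_⟩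
        · rw [← hrs]; congr 1; exact Subtype.ext h
        · rw [htr]; congr 1
          exact Subtype.ext (show r * J = x' by rw [h, hx', hPcomm x hxP J hJ])
      · refine Or.inr ⟨hAmem x' hx'P a hsC ?_, hAmem x hxP b htC ?_⟩
        · rw [← hrs]; congr 1; exact Subtype.ext h
        · rw [htr]; congr 1
          exact Subtype.ext (show r * J = x by
            rw [h, hx', hPcomm J hJ x hxP, mul_assoc, ← sq, hJsq, mul_one])
    · intro h
      have hprod : ∀ u v (hu : u ∈ (P : Subgroup G)) (hv : v ∈ (P : Subgroup G)), u * v = J →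
          a ∈ A u → b ∈ A v → ∃ y : K, s * t = J * ((y : C) : G) := by
        intro u v hu hv huv ha hb
        obtain ⟨hsC, hqs⟩ := hAq u hu a ha
        obtain ⟨htC, hqt⟩ := hAq v hv b hb
        have hq : q ((⟨J, hPC J hJ⟩ : C)⁻¹ * (⟨s, hsC⟩ * ⟨t, htC⟩)) = 1 := by
          rw [map_mul, map_mul, map_inv, hqs, hqt, hqP J hJ, ← map_mul, inv_mul_eq_one]
          congr 1
          exact Subtype.ext huv.symm
        exact ⟨⟨_, (hmemK _).2 hq⟩, by simp [mul_assoc]⟩
      rcases h with ⟨ha, hb⟩ | ⟨ha, hb⟩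
      · exact hprod x x' hxP hx'P hxx ha hb
      · exact hprod x' x hx'P hxP
          (by rw [hx', mul_assoc, ← sq, hPsq x hxP, mul_one]) ha hb
  have hdisj : Disjoint (A x ×ˢ A x') (A x' ×ˢ A x) := by
    rw [Set.disjoint_left]
    rintro ⟨a, b⟩ ⟨ha, -⟩ ⟨ha', -⟩
    obtain ⟨h1, h1'⟩ := hAq x hxP a ha
    obtain ⟨h2, h2'⟩ := hAq x' hx'P a ha'
    exact hJne (mul_eq_right.1 (congrArg Subtype.val (hφinj (h1'.symm.trans h2'))).symm)
  set S : ℂ := ∑ χ ∈ Bf, conj ((χ : G → ℂ) J) * conj ((χ : G → ℂ) J) * (χ : G → ℂ) J /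
    (χ : G → ℂ) 1 with hS
  have hcount : (Nat.card G : ℂ) * (Nat.card K : ℂ) * S =
      ((2 * (Nat.card (A x) * Nat.card (A x')) : ℕ) : ℂ) := by
    have h1 : Nat.card {ab : G × G // ∃ y : K, ab.1 * J * ab.1⁻¹ * (ab.2 * J * ab.2⁻¹) =
        J * ((y : C) : G)} = 2 * (Nat.card (A x) * Nat.card (A x')) := by
      rw [Nat.card_congr (Equiv.subtypeEquivRight hpairs)]
      show Nat.card ↥(A x ×ˢ A x' ∪ A x' ×ˢ A x) = _
      rw [Nat.card_coe_set_eq, Set.ncard_union_eq hdisj, Set.ncard_prod, Set.ncard_prod,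
        ← Nat.card_coe_set_eq, ← Nat.card_coe_set_eq]
      ring
    have h2 : Nat.card {ab : G × G // ∃ y : K, ab.1 * J * ab.1⁻¹ * (ab.2 * J * ab.2⁻¹) =
        J * ((y : C) : G)} = ∑ y : K, Nat.card {ab : G × G //
          ab.1 * J * ab.1⁻¹ * (ab.2 * J * ab.2⁻¹) = J * ((y : C) : G)} := by
      rw [← Nat.card_sigma]
      refine (Nat.card_congr (Equiv.ofBijective (fun q => ⟨q.2.1, q.1, q.2.2⟩) ⟨?_, ?_⟩)).symm
      · rintro ⟨y, ab, h⟩ ⟨y', ab', h'⟩ heq
        simp only [Subtype.mk.injEq] at heq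
        subst heq
        have : y = y' := Subtype.ext (Subtype.ext (mul_left_cancel (h.symm.trans h')))
        subst this
        rfl
      · rintro ⟨ab, y, h⟩
        exact ⟨⟨y, ab, h⟩, rfl⟩
    rw [← h1, h2, Nat.cast_sum, Finset.sum_congr rfl fun y _ => count_conj_mul J J _,
      ← Finset.mul_sum, Finset.sum_comm, ← Finset.sum_add_sum_compl Bf,
      Finset.sum_eq_zero (s := Bfᶜ) fun χ hχ => by
        rw [← Finset.sum_div, ← Finset.mul_sum, hout χ (Finset.mem_compl.1 hχ), mul_zero, zero_div],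
      add_zero, hS, Finset.mul_sum, Finset.mul_sum]
    refine Finset.sum_congr rfl fun χ hχ => ?_
    simp only [hvalB χ ((hBfmem χ).1 hχ), Finset.sum_const, Finset.card_univ, nsmul_eq_mul,
      ← Nat.card_eq_fintype_card]
    ring
  -- arithmetic
  set cP := Nat.card (Subgroup.centralizer ((P : Subgroup G) : Set G)) with hcP
  have hA1 := hA x hxP hx1 hxJ
  have hA2 := hA x' hx'P hx'1 (fun h => hx1 (mul_eq_left.1 h))
  have hrel : (1 : ℚ) + ε₁ * charDegree (χ₁ : G → ℂ) + ε₂ * charDegree (χ₂ : G → ℂ) +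
      ε₃ * charDegree (χ₃ : G → ℂ) = 0 := by
    have hne : ¬ IsConj J (1 : G) := fun h => hJne (isConj_one_left.1 h)
    have h := block_sum_pElement_eq_zero hM (isPBlock_principal (G := G) M) (u := J) (v := 1)
      hzk ⟨0, by simp⟩ hne
    have h' : ∑ χ ∈ Bf, (χ : G → ℂ) 1 * conj ((χ : G → ℂ) J) = 0 := by
      rw [← h, ← Finset.sum_subset (Finset.subset_univ Bf) fun χ _ hχ => by
        simp [indVal, mt (hBfmem χ).2 hχ]]
      refine Finset.sum_congr rfl fun χ hχ => ?_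
      simp [indVal, (hBfmem χ).1 hχ]
    rw [hBsum, hv1, hv2, hv3, show (τ : G → ℂ) J = 1 from rfl, show (τ : G → ℂ) 1 = 1 from rfl,
      ← charDegree_cast χ₁.2.isCharacter', ← charDegree_cast χ₂.2.isCharacter',
      ← charDegree_cast χ₃.2.isCharacter'] at h'
    simp only [map_one, map_intCast, mul_one] at h'
    have h'' : ((((1 : ℚ) + ε₁ * charDegree (χ₁ : G → ℂ) + ε₂ * charDegree (χ₂ : G → ℂ) +
        ε₃ * charDegree (χ₃ : G → ℂ)) : ℚ) : ℂ) = ((0 : ℚ) : ℂ) := by
      push_cast; linear_combination h'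
    exact_mod_cast h''
  set d₁ : ℚ := (charDegree (χ₁ : G → ℂ) : ℚ)
  set d₂ : ℚ := (charDegree (χ₂ : G → ℂ) : ℚ)
  set d₃ : ℚ := (charDegree (χ₃ : G → ℂ) : ℚ)
  have hd1' : d₁ ≠ 0 := Nat.cast_ne_zero.2 (charDegree_pos χ₁).ne'
  have hd2' : d₂ ≠ 0 := Nat.cast_ne_zero.2 (charDegree_pos χ₂).ne'
  have hd3' : d₃ ≠ 0 := Nat.cast_ne_zero.2 (charDegree_pos χ₃).ne'
  set σ : ℚ := 1 + ε₁ / d₁ + ε₂ / d₂ + ε₃ / d₃ with hσ
  have hSσ : S = (σ : ℂ) := by
    rw [hS, hBsum, hv1, hv2, hv3, show (τ : G → ℂ) J = 1 from rfl,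
      show (τ : G → ℂ) 1 = 1 from rfl, ← charDegree_cast χ₁.2.isCharacter',
      ← charDegree_cast χ₂.2.isCharacter', ← charDegree_cast χ₃.2.isCharacter', hσ]
    simp only [map_one, map_intCast, mul_one, div_one, d₁, d₂, d₃]
    rcases he1 with rfl | rfl <;> rcases he2 with rfl | rfl <;> rcases he3 with rfl | rfl <;>
      push_cast <;> ring
  rw [hSσ] at hcount
  have hcountQ : (Nat.card G : ℚ) * Nat.card K * σ =
      2 * ((Nat.card (A x) : ℚ) * Nat.card (A x')) := by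
    have h : (((Nat.card G : ℚ) * Nat.card K * σ : ℚ) : ℂ) =
        ((2 * ((Nat.card (A x) : ℚ) * Nat.card (A x')) : ℚ) : ℂ) := by
      push_cast at hcount ⊢; exact hcount
    exact_mod_cast h
  have hA1Q : (Nat.card (A x) : ℚ) * cP = (Nat.card C : ℚ) ^ 2 := by
    rw [sq]; exact_mod_cast hA1
  have hA2Q : (Nat.card (A x') : ℚ) * cP = (Nat.card C : ℚ) ^ 2 := by
    rw [sq]; exact_mod_cast hA2
  have hCQ : (Nat.card C : ℚ) = 4 * Nat.card K := by exact_mod_cast hcardC
  have hC0 : (Nat.card C : ℚ) ≠ 0 := Nat.cast_ne_zero.2 Nat.card_pos.ne'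
  have hP0 : (cP : ℚ) ≠ 0 := Nat.cast_ne_zero.2 Nat.card_pos.ne'
  have hmain : (Nat.card G : ℚ) * σ * (cP : ℚ) ^ 2 = 8 * (Nat.card C : ℚ) ^ 3 := by
    refine mul_left_cancel₀ hC0 ?_
    linear_combination (4 * (cP : ℚ) ^ 2) * hcountQ +
      (Nat.card G : ℚ) * σ * (cP : ℚ) ^ 2 * hCQ +
      (8 * (Nat.card (A x') : ℚ) * cP) * hA1Q + 8 * (Nat.card C : ℚ) ^ 2 * hA2Q
  have hprod : σ * (d₁ * d₂ * d₃) = (d₁ + ε₁) * (d₂ + ε₂) * (d₃ + ε₃) := by
    rw [hσ]
    field_simp
    rcases he1 with rfl | rfl <;> rcases he2 with rfl | rfl <;> rcases he3 with rfl | rfl <;>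
      push_cast at hrel ⊢ <;>
      first
        | linear_combination hrel
        | linear_combination -hrel
  have hσ0 : σ ≠ 0 := fun h => by
    rw [h, mul_zero, zero_mul] at hmain
    exact mul_ne_zero (by norm_num) (pow_ne_zero 3 hC0) hmain.symm
  rw [← hprod, eq_div_iff (pow_ne_zero 2 hP0)]
  field_simp
  linear_combination hmain

end Cfsg.Agent.S4479
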