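import Cfsg.Statements.S4480
import Cfsg.Agent.S4479
import Cfsg.Agent.Lib.CharIndicator
import Cfsg.Agent.Lib.BlockPrinColumn

set_option autoImplicit false
open Cfsg
open CfsgLib.Block CfsgLib.Char
open scoped ComplexConjugate

namespace Cfsg.Agent.S4480

/-- Same setting as the Klein-four order formula: G of order 4·g₀ (g₀ odd) with no normal 2-complement, P a Sylow 2-subgroup, J an involution of P, M over 2, principal 2-block {1, χ₁, χ₂, χ₃} with χ_i(J) = ε_i = ±1. Suppose ε₁ε₂ε₃ = −1 and ε₃ = −1, and put q = x₃ = χ₃(1). Then there is a natural number m with 4·c(J) = m·c(P)·(q + 1), and the order of G equals (m³·c(P)/4)·(q³ − q)/2, that is 8·#G = m³·c(P)·(q³ − q). -/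
theorem result {G : Type*} [Group G] [Finite G] (M : Ideal Cfsg.AlgInt) (hM : Cfsg.IsPModular 2 M) (g₀ : ℕ) (hg₀ : Odd g₀) (hG : Nat.card G = 4 * g₀) (hnc : ¬ ∃ N : Subgroup G, N.Normal ∧ Nat.card N = g₀) (P : Sylow 2 G) (J : G) (hJ : J ∈ (P : Subgroup G)) (hJ2 : orderOf J = 2) (χ₁ χ₂ χ₃ : Cfsg.IrrCharacter G) (ε₁ ε₂ ε₃ : ℤ) (hB : Cfsg.principalBlock M G = {χ : Cfsg.IrrCharacter G | (χ : G → ℂ) = (fun _ => 1) ∨ χ = χ₁ ∨ χ = χ₂ ∨ χ = χ₃}) (hdist : (χ₁ : G → ℂ) ≠ (fun _ => 1) ∧ (χ₂ : G → ℂ) ≠ (fun _ => 1) ∧ (χ₃ : G → ℂ) ≠ (fun _ => 1) ∧ χ₁ ≠ χ₂ ∧ χ₁ ≠ χ₃ ∧ χ₂ ≠ χ₃) (hε : (ε₁ = 1 ∨ ε₁ = -1) ∧ (ε₂ = 1 ∨ ε₂ = -1) ∧ (ε₃ = 1 ∨ ε₃ = -1)) (hval : (χ₁ : G → ℂ) J = ε₁ ∧ (χ₂ : G → ℂ) J = ε₂ ∧ (χ₃ : G → ℂ) J = ε₃) (hprod : ε₁ * ε₂ * ε₃ = -1) (hε₃ : ε₃ = -1) : ∃ m : ℕ, 4 * Nat.card (Subgroup.centralizer ({J} : Set G)) = m * Nat.card (Subgroup.centralizer ((P : Subgroup G) : Set G)) * (Cfsg.charDegree (χ₃ : G → ℂ) + 1) ∧ 8 * Nat.card G = m ^ 3 * Nat.card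 (Subgroup.centralizer ((P : Subgroup G) : Set G)) * (Cfsg.charDegree (χ₃ : G → ℂ) ^ 3 - Cfsg.charDegree (χ₃ : G → ℂ)) := by
  classical
  have : Fintype G := Fintype.ofFinite G
  haveI : Fact (Nat.Prime 2) := ⟨Nat.prime_two⟩
  -- Sylow structure
  have hnd : ¬ 2 ∣ g₀ := fun h => Nat.not_even_iff_odd.2 hg₀ (even_iff_two_dvd.2 h)
  have hfacG : (Nat.card G).factorization 2 = 2 := by
    rw [hG, Nat.factorization_mul (by norm_num) hg₀.pos.ne', Finsupp.add_apply,
      Nat.factorization_eq_zero_of_not_dvd hnd, show (4 : ℕ) = 2 ^ 2 by norm_num,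
      Nat.prime_two.factorization_pow, Finsupp.single_eq_same]
  have hP4 : Nat.card P = 4 := by rw [P.card_eq_multiplicity, hfacG]; norm_num
  have hncomp : ¬ HasNormalPComplement 2 G := by
    rintro ⟨Q, N, hN, hNQ⟩
    have h := hNQ.card_mul
    rw [Q.card_eq_multiplicity, hfacG, hG] at h
    exact hnc ⟨N, hN, by omega⟩
  have hK4 : IsKleinFour (P : Subgroup G) := by
    refine ⟨hP4, ?_⟩
    haveI : IsMulCommutative (P : Subgroup G) :=
      IsPGroup.isMulCommutative_of_card_eq_prime_sq (p := 2) (by rw [hP4]; norm_num)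
    by_contra hexp
    have hdvd : Monoid.exponent (P : Subgroup G) ∣ 4 := hP4 ▸ Group.exponent_dvd_nat_card
    have h4 : Monoid.exponent (P : Subgroup G) = 4 := by
      have h1 : Monoid.exponent (P : Subgroup G) ≠ 1 := fun h => by
        haveI := Monoid.exp_eq_one_iff.1 h
        rw [Nat.card_unique] at hP4
        omega
      rcases (Nat.dvd_prime_pow Nat.prime_two).1 (show Monoid.exponent (P : Subgroup G) ∣ 2 ^ 2 by
        simpa using hdvd) with ⟨i, hi, hi'⟩
      interval_cases i <;> simp_all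
    haveI : IsCyclic (P : Subgroup G) := by
      letI : CommGroup (P : Subgroup G) :=
        { (inferInstance : Group (P : Subgroup G)) with mul_comm := fun a b => mul_comm' a b }
      exact IsCyclic.of_exponent_eq_card (by rw [h4, hP4])
    refine hncomp (CfsgLib.Transfer.burnside P ?_)
    have hmin : (Nat.card G).minFac = 2 := (Nat.minFac_eq_two_iff _).2 ⟨2 * g₀, by rw [hG]; ring⟩
    exact IsCyclic.normalizer_le_centralizer hmin inferInstance
  have hone : ∀ s t : G, orderOf s = 2 → orderOf t = 2 → IsConj s t := by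
    rcases CfsgLib.Invol.klein_fusion_dichotomy P hK4 with hall | hnone
    · have hto : ∀ s : G, orderOf s = 2 → ∃ a ∈ (P : Subgroup G), a ≠ 1 ∧ IsConj s a := by
        intro s hs
        obtain ⟨Q, hQ⟩ := (IsPGroup.of_card (p := 2) (G := Subgroup.zpowers s) (n := 1)
          (by rw [Nat.card_zpowers, hs, pow_one])).exists_le_sylow
        obtain ⟨g, hg⟩ := MulAction.exists_smul_eq G Q P
        refine ⟨g * s * g⁻¹, ?_, fun h => ?_, isConj_iff.2 ⟨g, rfl⟩⟩
        · rw [← hg]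
          exact Subgroup.smul_mem_pointwise_smul s (MulAut.conj g) _ (hQ (Subgroup.mem_zpowers s))
        · have h1 : s = 1 := by
            rw [mul_inv_eq_one, mul_eq_left] at h
            exact h
          rw [h1, orderOf_one] at hs
          omega
      intro s t hs ht
      obtain ⟨a, ha, ha1, hsa⟩ := hto s hs
      obtain ⟨b, hb, hb1, htb⟩ := hto t ht
      exact (hsa.trans (hall a ha b hb ha1 hb1)).trans htb.symm
    · refine absurd (CfsgLib.Transfer.burnside P fun n hn => ?_) hncomp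
      rw [Subgroup.mem_centralizer_iff]
      intro a ha
      have h1 := hnone a ha (n * a * n⁻¹) ((Subgroup.mem_normalizer_iff.1 hn a).1 ha)
        (isConj_iff.2 ⟨n, rfl⟩)
      conv_lhs => rw [h1]
      rw [inv_mul_cancel_right]
  have hform := Cfsg.Agent.S4479.result M hM g₀ hg₀ hG hnc P J hJ hJ2 χ₁ χ₂ χ₃ ε₁ ε₂ ε₃ hB hdist hε hval
  obtain ⟨hd1, hd2, hd3, h12, h13, h23⟩ := hdist
  obtain ⟨he1, he2, -⟩ := hε
  obtain ⟨hv1, hv2, hv3⟩ := hval
  subst hε₃
  obtain ⟨ζ₂, ζ₃, ζ₄, ε, hεc, hz2, hz3, h23', h24', h34', hBζ, hzv, h4₂, h4₃, h4₄, hrel⟩ :=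
    klein_principal_block M hM P hK4 hone
  have hmem : ∀ χ : IrrCharacter G, χ ∈ principalBlock M G → (χ : G → ℂ) ≠ (fun _ => 1) →
      χ = χ₁ ∨ χ = χ₂ ∨ χ = χ₃ := fun χ h h1 => by
    rw [hB] at h; exact Or.resolve_left h h1
  have hmemζ : ∀ χ : IrrCharacter G, χ ∈ principalBlock M G → (χ : G → ℂ) ≠ (fun _ => 1) →
      χ = ζ₂ ∨ χ = ζ₃ ∨ χ = ζ₄ := fun χ h h1 => by
    rw [hBζ] at h; exact Or.resolve_left h h1
  obtain ⟨hzJ2, hzJ3, hzJ4⟩ := hzv J hJ2
  -- both other values are one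
  have he12 : ε₁ = 1 ∧ ε₂ = 1 := by
    have h2m : ζ₂ ∈ principalBlock M G := by rw [hBζ]; exact Or.inr (Or.inl rfl)
    rcases hmem ζ₂ h2m hz2 with h | h | h
    · rw [h, hv1] at hzJ2
      have e1 : ε₁ = 1 := by exact_mod_cast hzJ2
      subst e1
      exact ⟨rfl, by linarith⟩
    · rw [h, hv2] at hzJ2
      have e1 : ε₂ = 1 := by exact_mod_cast hzJ2
      subst e1
      exact ⟨by linarith, rfl⟩
    · rw [h, hv3] at hzJ2
      norm_num at hzJ2
  obtain ⟨e1, e2⟩ := he12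
  subst e1 e2
  have hz4n : (ζ₄ : G → ℂ) ≠ (fun _ => 1) := fun h => by
    rw [h] at hzJ4; norm_num at hzJ4
  have h4 : ζ₄ = χ₃ := by
    have hm : ζ₄ ∈ principalBlock M G := by rw [hBζ]; exact Or.inr (Or.inr (Or.inr rfl))
    rcases hmem ζ₄ hm hz4n with h | h | h
    · rw [h, hv1] at hzJ4; norm_num at hzJ4
    · rw [h, hv2] at hzJ4; norm_num at hzJ4
    · exact h
  have hε1 : ε = 1 := by
    rcases hεc with h | h
    · exact h
    · exfalso
      have hm : ζ₃ ∈ principalBlock M G := by rw [hBζ]; exact Or.inr (Or.inr (Or.inl rfl))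
      subst h
      rcases hmem ζ₃ hm hz3 with h | h | h
      · rw [h, hv1] at hzJ3; norm_num at hzJ3
      · rw [h, hv2] at hzJ3; norm_num at hzJ3
      · exact h34' (h.trans h4.symm)
  subst hε1
  have hodd : ∀ χ : IrrCharacter G, χ ∈ principalBlock M G → (χ : G → ℂ) ≠ (fun _ => 1) →
      Odd (charDegree (χ : G → ℂ)) := by
    intro χ h h1
    rw [Nat.odd_iff]
    rcases hmemζ χ h h1 with rfl | rfl | rfl <;> omega
  have hm1 : χ₁ ∈ principalBlock M G := by rw [hB]; exact Or.inr (Or.inl rfl)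
  have hm2 : χ₂ ∈ principalBlock M G := by rw [hB]; exact Or.inr (Or.inr (Or.inl rfl))
  have hm3 : χ₃ ∈ principalBlock M G := by rw [hB]; exact Or.inr (Or.inr (Or.inr rfl))
  set τ : IrrCharacter G := trivIrr G with hτ
  have hne : ∀ {χ : IrrCharacter G}, (χ : G → ℂ) ≠ (fun _ => 1) → τ ≠ χ := fun h e =>
    h (by rw [← e]; rfl)
  have hsum : ∀ F : IrrCharacter G → ℂ, ∑ χ, indVal (principalBlock M G) χ * F χ =
      F τ + (F χ₁ + (F χ₂ + F χ₃)) := by
    intro F
    rw [← Finset.sum_subset (Finset.subset_univ ({τ, χ₁, χ₂, χ₃} : Finset (IrrCharacter G)))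
      fun χ _ hχ => ?_]
    · rw [Finset.sum_insert (by simp [hne hd1, hne hd2, hne hd3]),
        Finset.sum_insert (by simp [h12, h13]), Finset.sum_insert (by simp [h23]),
        Finset.sum_singleton]
      have hmτ : τ ∈ principalBlock M G := by rw [hB]; exact Or.inl rfl
      simp [indVal, hmτ, hm1, hm2, hm3]
    · simp only [Finset.mem_insert, Finset.mem_singleton, not_or] at hχ
      have : χ ∉ principalBlock M G := by
        rw [hB]
        rintro (h | h | h | h)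
        · exact hχ.1 (Subtype.ext h)
        · exact hχ.2.1 h
        · exact hχ.2.2.1 h
        · exact hχ.2.2.2 h
      simp [indVal, this]
  have hJne : J ≠ 1 := fun h => by rw [h, orderOf_one] at hJ2; omega
  -- no square lies in the section of `J`
  have hsq : ∀ g : G, ¬ 2 ∣ orderOf (g * g) := by
    intro g h
    have hdvd : 4 ∣ orderOf g := by
      have h1 : orderOf (g * g) ∣ orderOf g := by rw [← sq]; exact orderOf_pow_dvd 2
      have h2 : 2 ∣ orderOf g := h.trans h1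
      have h3 : orderOf (g ^ 2) = orderOf g / 2 := orderOf_pow_of_dvd two_ne_zero h2
      rw [sq] at h3
      rw [h3] at h
      obtain ⟨k, hk⟩ := h
      exact ⟨k, by omega⟩
    obtain ⟨k, hk⟩ := hdvd
    have h4 : orderOf (g ^ k) = 4 := by
      have hk0 : k ≠ 0 := fun h0 => (orderOf_pos g).ne' (by rw [hk, h0, mul_zero])
      rw [orderOf_pow_of_dvd hk0 ⟨4, by rw [hk]; ring⟩, hk, Nat.mul_div_cancel _ (Nat.pos_of_ne_zero hk0)]
    obtain ⟨Q, hQ⟩ := (IsPGroup.of_card (p := 2) (G := Subgroup.zpowers (g ^ k)) (n := 2)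
      (by rw [Nat.card_zpowers, h4]; norm_num)).exists_le_sylow
    obtain ⟨c, hc⟩ := MulAction.exists_smul_eq G Q P
    have hin : c * g ^ k * c⁻¹ ∈ (P : Subgroup G) := by
      rw [← hc]
      exact Subgroup.smul_mem_pointwise_smul _ (MulAut.conj c) _ (hQ (Subgroup.mem_zpowers _))
    by_cases h1 : c * g ^ k * c⁻¹ = 1
    · rw [mul_inv_eq_one, mul_eq_left] at h1
      rw [h1, orderOf_one] at h4
      omega
    · have := CfsgLib.Invol.klein_orderOf hK4 hin h1
      rw [orderOf_conj_eq, h4] at this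
      omega
  have hν : sqIndicator (τ : G → ℂ) + (sqIndicator (χ₁ : G → ℂ) + (sqIndicator (χ₂ : G → ℂ) +
      -sqIndicator (χ₃ : G → ℂ))) = 0 := by
    have key : ∀ g : G, ∑ χ : IrrCharacter G, indVal (principalBlock M G) χ *
        ((χ : G → ℂ) J * conj ((χ : G → ℂ) (g * g))) = 0 := by
      intro g
      have h := block_sum_eq_zero (isPBlock_principal (G := G) M) (u := J) (y := 1) (u' := 1)
        (y' := g * g) ⟨1, by rw [hJ2, pow_one]⟩ ⟨0, by simp⟩ (by simp) (hsq g) (Commute.one_right J)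
        (Commute.one_left _) (fun hcj => hJne (isConj_one_right.1 hcj)) hM
      simpa [mul_assoc] using h
    have h0 : ∑ χ : IrrCharacter G, indVal (principalBlock M G) χ *
        ((χ : G → ℂ) J * sqIndicator (χ : G → ℂ)) = 0 := by
      have h' : ∑ g : G, ∑ χ : IrrCharacter G, indVal (principalBlock M G) χ *
          ((χ : G → ℂ) J * conj ((χ : G → ℂ) (g * g))) = 0 := Finset.sum_eq_zero fun g _ => key g
      rw [Finset.sum_comm] at h'
      have e : ∀ χ : IrrCharacter G, ∑ g : G, conj ((χ : G → ℂ) (g * g)) =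
          ∑ g : G, (χ : G → ℂ) (g * g) := fun χ => by
        refine Fintype.sum_equiv (Equiv.inv G) _ _ fun g => ?_
        rw [← isCharacter_inv_eq_conj χ.2.isCharacter', Equiv.inv_apply, mul_inv_rev]
      simp only [← Finset.mul_sum, e] at h'
      unfold sqIndicator
      rw [Finset.sum_congr rfl fun χ _ => show indVal (principalBlock M G) χ * ((χ : G → ℂ) J *
        ((Nat.card G : ℂ)⁻¹ * ∑ g : G, (χ : G → ℂ) (g * g))) = (Nat.card G : ℂ)⁻¹ *
          (indVal (principalBlock M G) χ * ((χ : G → ℂ) J * ∑ g : G, (χ : G → ℂ) (g * g))) by ring,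
        ← Finset.mul_sum, h', mul_zero]
    rw [hsum, hv1, hv2, hv3, show (τ : G → ℂ) J = 1 from rfl] at h0
    linear_combination (norm := (push_cast; ring_nf)) h0
  have hντ : sqIndicator (τ : G → ℂ) = 1 := by
    unfold sqIndicator
    rw [show (τ : G → ℂ) = fun _ => (1 : ℂ) from rfl]
    simp [Nat.card_eq_fintype_card]
  have hcm : ∀ χ : IrrCharacter G, χ ∈ principalBlock M G → irrConj χ ∈ principalBlock M G := by
    intro χ h g
    have hi : (Subgroup.centralizer ({g} : Set G)).index =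
        (Subgroup.centralizer ({g⁻¹} : Set G)).index := by
      congr 1
      ext x
      simp only [Subgroup.mem_centralizer_singleton_iff]
      exact ⟨fun h => (Commute.inv_right h).eq, fun h => by simpa using (Commute.inv_right h).eq⟩
    have hc : centralChar (irrConj χ : G → ℂ) g = centralChar (χ : G → ℂ) g⁻¹ := by
      show ((Subgroup.centralizer ({g} : Set G)).index : ℂ) * conj ((χ : G → ℂ) g) /
        conj ((χ : G → ℂ) 1) = _
      rw [centralChar, ← hi, ← isCharacter_inv_eq_conj χ.2.isCharacter',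
        ← isCharacter_inv_eq_conj χ.2.isCharacter', inv_one]
    have ht : centralChar (fun _ : G => (1 : ℂ)) g = centralChar (fun _ : G => (1 : ℂ)) g⁻¹ := by
      rw [centralChar, centralChar, hi]
    have h' := h g⁻¹
    rwa [← hc, ← ht] at h'
  have hreal3 : sqIndicator (χ₃ : G → ℂ) = 1 := by
    refine sqIndicator_odd_degree χ₃.2 ((irrConj_eq_self_iff χ₃).1 ?_)
      (charDegree_cast χ₃.2.isCharacter').symm (hodd χ₃ hm3 hd3)
    have hn : (irrConj χ₃ : G → ℂ) ≠ (fun _ => 1) := fun h => hd3 (funext fun g => by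
      have := congrArg conj (congrFun h g)
      simpa [irrConj] using this)
    have hv : (irrConj χ₃ : G → ℂ) J = -1 := by
      show conj ((χ₃ : G → ℂ) J) = -1
      rw [hv3]; simp
    rcases hmem _ (hcm χ₃ hm3) hn with h | h | h
    · rw [h, hv1] at hv; norm_num at hv
    · rw [h, hv2] at hv; norm_num at hv
    · exact h
  -- the first two characters are conjugate
  have hnr : ∃ s : G, ((χ₁ : G → ℂ) s).im ≠ 0 := by
    rw [← (sqIndicator_trichotomy χ₁.2).2]
    rw [hντ, hreal3] at hν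
    by_contra h1
    have hr : ∀ g, ((χ₁ : G → ℂ) g).im = 0 := fun g => by
      by_contra hg
      exact h1 ((sqIndicator_trichotomy χ₁.2).2.2 ⟨g, hg⟩)
    rw [sqIndicator_odd_degree χ₁.2 hr (charDegree_cast χ₁.2.isCharacter').symm (hodd χ₁ hm1 hd1)] at hν
    by_cases hr2 : ∀ g, ((χ₂ : G → ℂ) g).im = 0
    · rw [sqIndicator_odd_degree χ₂.2 hr2 (charDegree_cast χ₂.2.isCharacter').symm
        (hodd χ₂ hm2 hd2)] at hν
      norm_num at hν
    · push Not at hr2
      rw [(sqIndicator_trichotomy χ₂.2).2.2 hr2] at hν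
      norm_num at hν
  have hx12 : charDegree (χ₁ : G → ℂ) = charDegree (χ₂ : G → ℂ) := by
    have hn : (irrConj χ₁ : G → ℂ) ≠ (fun _ => 1) := fun h => hd1 (funext fun g => by
      have := congrArg conj (congrFun h g)
      simpa [irrConj] using this)
    have h2 : irrConj χ₁ = χ₂ := by
      rcases hmem _ (hcm χ₁ hm1) hn with h | h | h
      · obtain ⟨s, hs⟩ := hnr
        exact absurd ((irrConj_eq_self_iff χ₁).1 h s) hs
      · exact h
      · exfalso
        have h' : (irrConj χ₁ : G → ℂ) J = 1 := by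
          show conj ((χ₁ : G → ℂ) J) = 1
          rw [hv1]; simp
        rw [h, hv3] at h'
        norm_num at h'
    have h' : (irrConj χ₁ : G → ℂ) 1 = (χ₂ : G → ℂ) 1 := by rw [h2]
    rw [show (irrConj χ₁ : G → ℂ) 1 = conj ((χ₁ : G → ℂ) 1) from rfl,
      ← charDegree_cast χ₁.2.isCharacter', ← charDegree_cast χ₂.2.isCharacter',
      Complex.conj_natCast] at h'
    exact_mod_cast h'
  -- degree relation
  have hdeg : 1 + charDegree (χ₁ : G → ℂ) + charDegree (χ₂ : G → ℂ) = charDegree (χ₃ : G → ℂ) := by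
    have h := block_sum_pElement_eq_zero hM (isPBlock_principal (G := G) M) (u := J) (v := 1)
      ⟨1, by rw [hJ2, pow_one]⟩ ⟨0, by simp⟩ (fun h => hJne (isConj_one_left.1 h))
    rw [hsum, hv1, hv2, hv3, show (τ : G → ℂ) J = 1 from rfl, show (τ : G → ℂ) 1 = 1 from rfl,
      ← charDegree_cast χ₁.2.isCharacter', ← charDegree_cast χ₂.2.isCharacter',
      ← charDegree_cast χ₃.2.isCharacter'] at h
    simp only [map_one, map_intCast, Int.cast_one, Int.cast_neg, mul_one, mul_neg] at h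
    have h' : (((1 + charDegree (χ₁ : G → ℂ) + charDegree (χ₂ : G → ℂ) : ℕ)) : ℂ) =
        ((charDegree (χ₃ : G → ℂ) : ℕ) : ℂ) := by
      push_cast; linear_combination (norm := (simp only [map_neg, map_one]; ring_nf)) h
    exact_mod_cast h'
  rw [h4] at h4₄
  set x := charDegree (χ₁ : G → ℂ) with hx
  set q := charDegree (χ₃ : G → ℂ) with hq
  have hxo : Odd x := hodd χ₁ hm1 hd1
  rw [← hx12] at hdeg hform
  have hqx : q = 2 * x + 1 := by omega
  have hxpos : 0 < x := hxo.pos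
  have hPC : Subgroup.centralizer ((P : Subgroup G) : Set G) ≤ Subgroup.centralizer ({J} : Set G) :=
    Subgroup.centralizer_le (Set.singleton_subset_iff.2 hJ)
  obtain ⟨r, hr⟩ := Subgroup.card_dvd_of_le hPC
  obtain ⟨i, hi⟩ := Subgroup.card_subgroup_dvd_card (Subgroup.centralizer ({J} : Set G))
  set cP := Nat.card (Subgroup.centralizer ((P : Subgroup G) : Set G)) with hcP
  set cJ := Nat.card (Subgroup.centralizer ({J} : Set G)) with hcJ
  have hcP0 : 0 < cP := Nat.card_pos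
  have hcJ0 : 0 < cJ := Nat.card_pos
  have hnat : Nat.card G * ((q + 1) ^ 2 * cP ^ 2) = 8 * cJ ^ 3 * (q * (2 * x)) := by
    have h : (Nat.card G : ℚ) * (((q : ℚ) + 1) ^ 2 * (cP : ℚ) ^ 2) =
        8 * (cJ : ℚ) ^ 3 * ((q : ℚ) * (2 * (x : ℚ))) := by
      rw [hform, show (q : ℚ) = 2 * (x : ℚ) + 1 by exact_mod_cast hqx]
      have hx0 : (0 : ℚ) < (x : ℚ) := by exact_mod_cast hxpos
      have : (cP : ℚ) ≠ 0 := by exact_mod_cast hcP0.ne'
      push_cast
      field_simp
      ring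
    exact_mod_cast h
  have hsq2 : (q + 1) ^ 2 * i = 8 * r ^ 2 * (q * (2 * x)) := by
    refine Nat.eq_of_mul_eq_mul_left (show 0 < cJ * cP ^ 2 by positivity) ?_
    calc cJ * cP ^ 2 * ((q + 1) ^ 2 * i) = Nat.card G * ((q + 1) ^ 2 * cP ^ 2) := by rw [hi]; ring
      _ = _ := by rw [hnat, hr]; ring
  have hdvd : q + 1 ∣ 4 * r := by
    rw [← Nat.pow_dvd_pow_iff two_ne_zero]
    have h1 : (q + 1) ^ 2 ∣ (4 * r) ^ 2 * (q * x) := ⟨i, by rw [hsq2]; ring⟩
    refine (Nat.Coprime.dvd_of_dvd_mul_right ?_ h1)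
    refine Nat.Coprime.pow_left 2 (Nat.Coprime.mul_right ?_ ?_)
    · simp
    · rw [show q + 1 = 2 + x * 2 by omega, Nat.coprime_add_mul_left_left]
      exact Nat.coprime_two_left.2 hxo
  obtain ⟨m, hm⟩ := hdvd
  refine ⟨m, by rw [hr, show 4 * (cP * r) = cP * (4 * r) by ring, hm]; ring, ?_⟩
  refine Nat.eq_of_mul_eq_mul_left (show 0 < (q + 1) ^ 2 * cP ^ 2 by positivity) ?_
  have hcube : q ^ 3 - q = q * (2 * x) * (q + 1) := by
    rw [Nat.sub_eq_iff_eq_add (Nat.le_self_pow (by norm_num) q), hqx]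
    ring
  calc (q + 1) ^ 2 * cP ^ 2 * (8 * Nat.card G) = 8 * (Nat.card G * ((q + 1) ^ 2 * cP ^ 2)) := by ring
    _ = cP ^ 3 * (q * (2 * x)) * (4 * r) ^ 3 := by rw [hnat, hr]; ring
    _ = _ := by rw [hm, hcube]; ring

end Cfsg.Agent.S4480
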