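import Cfsg.Statements.S4483
import Cfsg.Agent.Lib.BlockTwoReal

set_option autoImplicit false
open Cfsg
open CfsgLib.Block


namespace Cfsg.Agent.S4483

/-- Let G be a finite group of order 2^n·g₀ with g₀ odd, and M a maximal ideal of the algebraic integers containing 2. Every real-valued irreducible character of G of odd degree lies in the principal 2-block; consequently G has at most 2^(2n) real-valued irreducible characters of odd degree. -/
theorem result {G : Type*} [Group G] [Finite G] (M : Ideal Cfsg.AlgInt) (hM : Cfsg.IsPModular 2 M) : (∀ χ : Cfsg.IrrCharacter G, (∀ g : G, ((χ : G → ℂ) g).im = 0) → Odd (Cfsg.charDegree (χ : G → ℂ)) → χ ∈ Cfsg.principalBlock M G) ∧ Nat.card {χ : Cfsg.IrrCharacter G // (∀ g : G, ((χ : G → ℂ) g).im = 0) ∧ Odd (Cfsg.charDegree (χ : G → ℂ))} ≤ 2 ^ (2 * (Nat.card G).factorization 2) := by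
  haveI := Fintype.ofFinite G
  have h1 : ∀ χ : IrrCharacter G, (∀ g : G, ((χ : G → ℂ) g).im = 0) →
      Odd (charDegree (χ : G → ℂ)) → χ ∈ principalBlock M G := by
    intro χ hreal hodd
    have hB : IsPBlock M (blockOf M (χ : G → ℂ)) := ⟨χ, rfl⟩
    have hχ := mem_blockOf_self hM χ
    rw [← eq_principal_of_inv_stable hM hB
      (blockMin_eq_zero_of_odd hM hB hχ hodd.not_two_dvd_nat) (gFn_inv_of_real hM hB hχ hreal)]
    exact hχ
  refine ⟨h1, ?_⟩
  refine le_trans ?_ (le_trans (card_block_le hM (isPBlock_principal (G := G) M)) ?_)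
  · exact Nat.card_le_card_of_injective (fun χ => ⟨χ.1, h1 _ χ.2.1 χ.2.2⟩)
      fun a b h => Subtype.ext (Subtype.mk.inj h)
  · rw [blockDefect_principal hM]
    have : 1 ≤ 2 ^ (2 * (Nat.card G).factorization 2) := Nat.one_le_two_pow
    omega

end Cfsg.Agent.S4483
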