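import Mathlib
import Cfsg.Statements.S4486
import Cfsg.Agent.Lib.CharUniformSylow

set_option autoImplicit false
open Cfsg

namespace Cfsg.Agent.S4486

open CfsgLib.Char CfsgLib.Uniform

/-- Let G be a finite group and p a prime dividing its order such that every non-identity element of a Sylow p-subgroup P has the same centralizer as P; let p^n be the order of P. If G has a non-principal irreducible character χ of degree x with x² < p^n − 1, then either G has a proper normal subgroup containing P, or G has a normal subgroup of index p^n and x = 1. -/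
theorem result {G : Type*} [Group G] [Finite G] (p : ℕ) (hp : p.Prime) (hpG : p ∣ Nat.card G) (P : Sylow p G) (hstar : ∀ x ∈ (P : Subgroup G), x ≠ 1 → Subgroup.centralizer ({x} : Set G) = Subgroup.centralizer ((P : Subgroup G) : Set G)) (n : ℕ) (hn : Nat.card P = p ^ n) (χ : Cfsg.IrrCharacter G) (h1 : (χ : G → ℂ) ≠ fun _ => 1) (hdeg : Cfsg.charDegree (χ : G → ℂ) ^ 2 + 1 < p ^ n) : (∃ K : Subgroup G, K.Normal ∧ K ≠ ⊤ ∧ (P : Subgroup G) ≤ K) ∨ ((∃ N : Subgroup G, N.Normal ∧ N.index = p ^ n) ∧ Cfsg.charDegree (χ : G → ℂ) = 1) := by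
  classical
  haveI := Fact.mk hp
  haveI : Fintype G := Fintype.ofFinite G
  obtain ⟨d, hd0, hd⟩ := exists_degree_pos χ.2
  have he : Cfsg.charDegree (χ : G → ℂ) = d := by rw [Cfsg.charDegree, hd]; simp
  rw [he] at hdeg ⊢
  set R := charKer χ.2.isCharacter' with hR
  haveI hRn : R.Normal := charKer_normal χ.2.isCharacter'
  have hRtop : R ≠ ⊤ := by
    intro htop
    have hconst : ∀ g, (χ : G → ℂ) g = (d : ℂ) := fun g => by
      rw [← hd]
      exact (htop ▸ Subgroup.mem_top g : g ∈ R)
    have h2 := irr_inner_self χ.2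
    simp only [Cfsg.classInner, hconst, Complex.conj_natCast, Finset.sum_const, Finset.card_univ,
      ← Nat.card_eq_fintype_card, nsmul_eq_mul] at h2
    rw [inv_mul_cancel_left₀ (natCard_ne_zero G), ← Nat.cast_mul, ← Nat.cast_one, Nat.cast_inj] at h2
    refine h1 (funext fun g => ?_)
    rw [hconst g, Nat.eq_one_of_mul_eq_one_left h2, Nat.cast_one]
  by_cases hPR : (P : Subgroup G) ≤ R
  · exact Or.inl ⟨R, hRn, hRtop, hPR⟩
  set M := R ⊔ (P : Subgroup G) with hM
  have hMn : M.Normal := by
    by_cases hmeet : (P : Subgroup G) ⊓ R = ⊥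
    · obtain ⟨χ', hχ', hcomp, -⟩ := exists_deflate χ.2.isCharacter' (QuotientGroup.mk' R)
        (QuotientGroup.mk'_surjective R) fun k hk => by
          rw [QuotientGroup.ker_mk'] at hk; exact mem_charKer.mp hk
      have hfaith' : ∀ q : G ⧸ R, χ' q = χ' 1 → q = 1 := by
        intro q hq
        obtain ⟨g, rfl⟩ := QuotientGroup.mk'_surjective R q
        rw [QuotientGroup.mk'_apply, QuotientGroup.eq_one_iff]
        have h2 := congrFun hcomp g
        have h3 := congrFun hcomp 1
        simp only [Function.comp_apply, map_one] at h2 h3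
        exact mem_charKer.mpr (h2.symm.trans (hq.trans h3))
      have hcard : Nat.card (P.mapSurjective (QuotientGroup.mk'_surjective R) : Subgroup (G ⧸ R)) = p ^ n := by
        rw [← hn]
        let f : (P : Subgroup G) →* G ⧸ R := (QuotientGroup.mk' R).comp (P : Subgroup G).subtype
        have hinj : Function.Injective f := (injective_iff_map_eq_one f).mpr fun a ha => by
          have : (a : G) ∈ (P : Subgroup G) ⊓ R := ⟨a.2, (QuotientGroup.eq_one_iff (a : G)).mp ha⟩
          rw [hmeet, Subgroup.mem_bot] at this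
          exact Subtype.ext this
        rw [Sylow.coe_mapSurjective, Nat.card_congr (MonoidHom.ofInjective hinj).toEquiv,
          MonoidHom.range_comp, Subgroup.range_subtype]
      have h4 := normal_of_uniform (Nat.card (G ⧸ R)) (G ⧸ R) p _ (HStar.quotient (P := P) hstar R hmeet)
        χ' hχ' hfaith' d (by
          have h2 := congrFun hcomp 1
          simp only [Function.comp_apply, map_one] at h2
          rw [h2, hd]) (hcard.symm ▸ hdeg) le_rfl
      have hc := h4.comap (QuotientGroup.mk' R)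
      rwa [Sylow.coe_mapSurjective, Subgroup.comap_map_eq, QuotientGroup.ker_mk', sup_comm] at hc
    · exact sup_normal_of_meet hstar R hmeet
  by_cases hMtop : M = ⊤
  swap
  · exact Or.inl ⟨M, hMn, hMtop, le_sup_right⟩
  have hd1 : d = 1 := by
    have h2 := degree_one_of_sup χ.2 (P : Subgroup G) (HStar.comm hstar) hMtop
    rw [hd, Nat.cast_eq_one] at h2
    exact h2
  refine Or.inr ⟨?_, hd1⟩
  obtain ⟨l, hl⟩ := exists_hom_of_degree_one χ.2.isCharacter' (by rw [hd, hd1, Nat.cast_one])
  have hder : ∀ a b : G, a * b * a⁻¹ * b⁻¹ ∈ R := by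
    intro a b
    rw [hR, mem_charKer]
    simp only [hl]
    rw [show l (a * b * a⁻¹ * b⁻¹) = 1 by
      rw [map_mul, map_mul, map_mul, map_inv, map_inv, mul_inv_cancel_comm, mul_inv_cancel], map_one]
  have hNC : Subgroup.normalizer ((P : Subgroup G) : Set G) ≤
      Subgroup.centralizer ((P : Subgroup G) : Set G) := by
    intro g hg
    by_contra hgC
    let f : ↥(P : Subgroup G) → ↥(P : Subgroup G) := fun a =>
      ⟨g * (a : G) * g⁻¹ * (a : G)⁻¹,
        mul_mem ((Subgroup.mem_normalizer_iff.mp hg a).mp a.2) (inv_mem a.2)⟩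
    have hinj : Function.Injective f := by
      intro a b e
      by_contra hab
      refine hgC ?_
      have hne : (a : G) * (b : G)⁻¹ ≠ 1 := fun e2 => hab (Subtype.ext (mul_inv_eq_one.mp e2))
      rw [← hstar _ (mul_mem a.2 (inv_mem b.2)) hne, Subgroup.mem_centralizer_singleton_iff]
      have hA : g * (a : G) * g⁻¹ ∈ (P : Subgroup G) := (Subgroup.mem_normalizer_iff.mp hg a).mp a.2
      have hB : g * (b : G) * g⁻¹ ∈ (P : Subgroup G) := (Subgroup.mem_normalizer_iff.mp hg b).mp b.2
      have hc := HStar.comm hstar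
      have e' : g * (a : G) * g⁻¹ * (a : G)⁻¹ = g * (b : G) * g⁻¹ * (b : G)⁻¹ := congrArg Subtype.val e
      have e3 : g * (a : G) * g⁻¹ * (g * (b : G) * g⁻¹)⁻¹ = (a : G) * (b : G)⁻¹ := by
        calc g * (a : G) * g⁻¹ * (g * (b : G) * g⁻¹)⁻¹
            = (g * (a : G) * g⁻¹ * (a : G)⁻¹) * (a : G) * (g * (b : G) * g⁻¹)⁻¹ := by group
          _ = (g * (b : G) * g⁻¹) * ((b : G)⁻¹ * (a : G)) * (g * (b : G) * g⁻¹)⁻¹ := by rw [e']; group
          _ = (b : G)⁻¹ * (a : G) := by
              rw [hc _ hB _ (mul_mem (inv_mem b.2) a.2), mul_inv_cancel_right]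
          _ = (a : G) * (b : G)⁻¹ := hc _ (inv_mem b.2) _ a.2
      calc g * ((a : G) * (b : G)⁻¹) = g * (a : G) * g⁻¹ * (g * (b : G) * g⁻¹)⁻¹ * g := by group
        _ = (a : G) * (b : G)⁻¹ * g := by rw [e3]
    refine hPR fun a ha => ?_
    obtain ⟨b, hb⟩ := (Finite.injective_iff_surjective.mp hinj) ⟨a, ha⟩
    have : g * (b : G) * g⁻¹ * (b : G)⁻¹ = a := congrArg Subtype.val hb
    rw [← this]
    exact hder g b
  refine ⟨(MonoidHom.transferSylow P hNC).ker, inferInstance, ?_⟩
  rw [← hn]
  exact (MonoidHom.ker_transferSylow_isComplement' P hNC).symm.index_eq_card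

end Cfsg.Agent.S4486
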