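import Cfsg.Statements.S4488
import Cfsg.Agent.Lib.CharSchurBound

set_option autoImplicit false
open Cfsg

namespace Cfsg.Agent.S4488

/-- Let the finite group G have a faithful p-rational character χ of degree n (all values of χ lie in the field generated over ℚ by a root of unity of order prime to p), and let p^a be the order of a Sylow p-subgroup of G. Then a ≤ Σ_{i ≥ 0} ⌊n / ((p − 1)·p^i)⌋ (a finite sum; the terms vanish once (p − 1)p^i > n). -/
theorem result {G : Type*} [Group G] [Finite G] (p : ℕ) (hp : p.Prime) (χ : G → ℂ) (hχ : Cfsg.IsCharacter G χ) (hfaith : ∀ g : G, χ g = χ 1 → g = 1) (hrat : (∃ r : ℕ, 0 < r ∧ ¬ p ∣ r ∧ ∀ g : G, χ g ∈ IntermediateField.adjoin ℚ ({Complex.exp (2 * Real.pi * Complex.I / r)} : Set ℂ))) (n : ℕ) (hn : Cfsg.charDegree χ = n) : (Nat.card G).factorization p ≤ ∑ i ∈ Finset.range (n + 1), n / ((p - 1) * p ^ i) := by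
  classical
  obtain ⟨r, hr, hpr, hval⟩ := hrat
  haveI := Fact.mk hp
  obtain ⟨P⟩ : Nonempty (Sylow p G) := inferInstance
  obtain ⟨d, hd⟩ := CfsgLib.Char.exists_degree hχ
  obtain rfl : d = n := by rw [← hn, Cfsg.charDegree, hd, Complex.natCast_re, Nat.floor_natCast]
  refine CfsgLib.SchurBound.schur_bound hp P.card_eq_multiplicity
    (CfsgLib.Char.isCharacter_restrict hχ (P : Subgroup G)) (n := d) (by simpa using hd)
    (fun g hg => Subtype.ext (hfaith g (by simpa using hg))) fun g k hk => ?_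
  obtain ⟨e, he⟩ := IsPGroup.iff_orderOf.mp P.isPGroup' g
  have h := CfsgLib.SchurBound.pRational_pow hp hχ hr hpr hval
    (g := (g : G)) (by rw [Subgroup.orderOf_coe]; exact he) hk
  simpa using h

end Cfsg.Agent.S4488
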