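import Cfsg.Statements.S4490
import Cfsg.Agent.Lib.BlockClassDefect
import Cfsg.Agent.Lib.BlockBound
import Cfsg.Agent.Lib.BlockPrincipal
import Cfsg.Agent.Lib.BlockPairBridge
import Cfsg.Agent.Lib.CharPerm

set_option autoImplicit false
open Cfsg
open CfsgLib.Block CfsgLib.Char
open scoped Classical


namespace Cfsg.Agent.S4490

/-- Let G be a finite group and M a maximal ideal of the algebraic integers containing 2. Every 2-block B of G whose defect groups are the Sylow 2-subgroups of G (a block of full defect) and which is not the principal block is different from its complex-conjugate block, the block formed by the complex conjugates of the members of B. -/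
theorem result {G : Type*} [Group G] [Finite G] (M : Ideal Cfsg.AlgInt) (hM : Cfsg.IsPModular 2 M) (B : Set (Cfsg.IrrCharacter G)) (hB : Cfsg.IsPBlock M B) (P : Sylow 2 G) (hfull : Cfsg.IsDefectGroup 2 M B (P : Subgroup G)) (hnp : B ≠ Cfsg.principalBlock M G) : {ψ : Cfsg.IrrCharacter G | ∃ χ ∈ B, (ψ : G → ℂ) = fun g => (starRingEnd ℂ) ((χ : G → ℂ) g)} ≠ B := by
  haveI := Fintype.ofFinite G
  intro hreal
  haveI := charP_resField hM
  have h0 : ev hM (trivIrr G) (bIdem hM hB) = 0 := by
    rw [ev_bIdem, if_neg fun h => hnp (isPBlock_eq_of_mem hM hB (isPBlock_principal M) h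
      (trivIrr_mem_principal hM))]
  rw [ev_triv_eq_sum] at h0
  have hinv : ∀ g : G, cred hM (bIdem hM hB) g⁻¹ = cred hM (bIdem hM hB) g := by
    have hc : ∀ χ : IrrCharacter G, (indVal B (irrConj χ)) = indVal B χ := by
      intro χ
      have h1 : irrConj χ ∈ B ↔ χ ∈ B := by
        constructor
        · intro h
          have : χ ∈ {ψ : IrrCharacter G | ∃ χ ∈ B,
              (ψ : G → ℂ) = fun g => (starRingEnd ℂ) ((χ : G → ℂ) g)} :=
            ⟨irrConj χ, h, funext fun g => by simp [irrConj]⟩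
          exact hreal ▸ this
        · intro h
          have : irrConj χ ∈ {ψ : IrrCharacter G | ∃ χ ∈ B,
              (ψ : G → ℂ) = fun g => (starRingEnd ℂ) ((χ : G → ℂ) g)} := ⟨χ, h, rfl⟩
          exact hreal ▸ this
      simp only [indVal, h1]
    intro g
    refine congrArg (res hM) (Subtype.ext ?_)
    show coef (indVal B) g⁻¹ = coef (indVal B) g
    simp only [coef]
    congr 1
    refine Fintype.sum_bijective irrConj (Function.Involutive.bijective fun χ =>
      Subtype.ext (funext fun x => Complex.conj_conj _)) _ _ fun χ => ?_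
    rw [hc χ, isCharacter_inv_eq_conj χ.2.isCharacter']
    simp [irrConj, irr_conj_one]
  have hone : ∑ g, cred hM (bIdem hM hB) g = cred hM (bIdem hM hB) 1 := by
    rw [← Finset.add_sum_erase _ _ (Finset.mem_univ (1 : G)), add_eq_left]
    refine Finset.sum_involution (fun g _ => g⁻¹) ?_ ?_ ?_ (fun g _ => inv_inv g)
    · intro g _
      rw [hinv]
      exact CharTwo.add_self_eq_zero _
    · intro g hg hne heq
      refine hne (cred_bIdem_singular hM hB ?_)
      have h2 : g ^ 2 = 1 := by rw [sq, mul_eq_one_iff_eq_inv, heq]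
      rw [orderOf_eq_prime h2 (Finset.ne_of_mem_erase hg)]
    · intro g hg
      exact Finset.mem_erase.2 ⟨inv_ne_one.2 (Finset.ne_of_mem_erase hg), Finset.mem_univ _⟩
  rw [hone] at h0
  have hmin : blockMin 2 B = 0 := by
    have h1 := card_defectGroup hM hB hfull
    rw [P.card_eq_multiplicity] at h1
    have h2 := Nat.pow_right_injective le_rfl h1
    have h3 := defect_add_min hM hB
    omega
  have hsq := factorization_sum_sq hM hB
  rw [hmin, add_zero] at hsq
  set n := ∑ χ ∈ Finset.univ.filter (· ∈ B), charDegree (χ : G → ℂ) ^ 2 with hn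
  have hn0 : n ≠ 0 := by
    obtain ⟨χ, hχ⟩ := isPBlock_nonempty hM hB
    exact (Finset.sum_pos (fun θ _ => pow_pos (charDegree_pos θ) 2)
      ⟨χ, Finset.mem_filter.2 ⟨Finset.mem_univ _, hχ⟩⟩).ne'
  have hcoef : coef (indVal B) (1 : G) = (n : ℂ) / (Nat.card G : ℂ) := by
    rw [coef, hn, Finset.sum_filter]
    push_cast
    rw [div_eq_inv_mul]
    congr 1
    refine Finset.sum_congr rfl fun χ _ => ?_
    rw [indVal, irr_conj_one]
    split_ifs <;> simp [CfsgLib.Block.charDegree_cast χ.2.isCharacter', sq]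
  have hbad : MemLocalIdeal M (coef (indVal B) (1 : G)) :=
    (res_eq_zero_iff hM _).1 h0
  rw [hcoef, memLocalIdeal_iff_exists hM] at hbad
  obtain ⟨hmem, hz⟩ := hbad
  have e1 : (Nat.card G : ℂ) = (2 : ℂ) ^ (Nat.card G).factorization 2 *
      ((ordCompl[2] (Nat.card G) : ℕ) : ℂ) := by
    exact_mod_cast (Nat.ordProj_mul_ordCompl_eq_self (Nat.card G) 2).symm
  have e2 : (n : ℂ) = (2 : ℂ) ^ (Nat.card G).factorization 2 * ((ordCompl[2] n : ℕ) : ℂ) := by
    rw [← hsq]
    exact_mod_cast (Nat.ordProj_mul_ordCompl_eq_self n 2).symm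
  have e3 : ((ordCompl[2] (Nat.card G) : ℕ) : locRing hM) * ⟨_, hmem⟩ =
      ((ordCompl[2] n : ℕ) : locRing hM) := by
    apply Subtype.ext
    have hg0 : ((ordCompl[2] (Nat.card G) : ℕ) : ℂ) ≠ 0 :=
      Nat.cast_ne_zero.2 (Nat.ordCompl_pos 2 Nat.card_pos.ne').ne'
    show ((ordCompl[2] (Nat.card G) : ℕ) : ℂ) * ((n : ℂ) / (Nat.card G : ℂ)) =
      ((ordCompl[2] n : ℕ) : ℂ)
    rw [e1, e2]
    field_simp
  have h4 := congrArg (res hM) e3
  rw [map_mul, hz, mul_zero, map_natCast] at h4
  exact Nat.not_dvd_ordCompl Nat.prime_two hn0 ((CharP.cast_eq_zero_iff (ResField M) 2 _).1 h4.symm)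

end Cfsg.Agent.S4490
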