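import Cfsg.Statements.S4493
import Cfsg.Agent.Lib.BlockItoMichler
import Cfsg.Agent.Lib.LocalSolvable

set_option autoImplicit false
open Cfsg
open CfsgLib.Block CfsgLib.Char

namespace Cfsg.Agent.S4493

/-- Let G be a finite solvable group and p a prime. Then G has a normal abelian Sylow p-subgroup if and only if no irreducible character degree of G is divisible by p. -/
theorem result {G : Type*} [Group G] [Finite G] (hsolv : Group.IsSolvable G) (p : ℕ) (hp : p.Prime) : (∃ P : Subgroup G, P.Normal ∧ (∀ x ∈ P, ∀ y ∈ P, x * y = y * x) ∧ IsPGroup p P ∧ ¬ p ∣ P.index) ↔ ∀ χ : Cfsg.IrrCharacter G, ¬ p ∣ Cfsg.charDegree (χ : G → ℂ) := by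
  classical
  haveI := Fact.mk hp
  constructor
  · rintro ⟨P, hn, hc, -, hidx⟩ χ hd
    haveI := hn
    exact hidx (hd.trans (charDegree_dvd_index_abelian P hc χ))
  · intro h
    obtain ⟨P⟩ := (inferInstance : Nonempty (Sylow p G))
    obtain ⟨h1, h2⟩ := sylow_normal_abelian (Nat.card G) G le_rfl
      (CfsgLib.LocalFF.isPSolvable_of_solvable _ rfl hsolv) h P
    exact ⟨P, h1, h2, P.isPGroup', P.not_dvd_index⟩

end Cfsg.Agent.S4493
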