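import Cfsg.Statements.S4495
import Cfsg.Agent.Lib.BlockSelfCent

set_option autoImplicit false
open Cfsg
open scoped commutatorElement

namespace Cfsg.Agent.S4495

/-- Let the finite group G contain an element x of prime order p with C_G(x) = ⟨x⟩, and let t be the number of conjugacy classes of elements of order p. If t ≠ p − 1 then the commutator subgroup has index at most (p − 1)/t; if t = p − 1 it has index exactly p. -/
theorem result {G : Type*} [Group G] [Finite G] (p : ℕ) (hp : p.Prime) (x : G) (hx : orderOf x = p) (hC : Subgroup.centralizer ({x} : Set G) = Subgroup.zpowers x) (t : ℕ) (ht : Nat.card {C : ConjClasses G // ∃ g ∈ C.carrier, orderOf g = p} = t) : (t ≠ p - 1 → (commutator G).index * t ≤ p - 1) ∧ (t = p - 1 → (commutator G).index = p) := by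
  have : Fintype G := Fintype.ofFinite G
  have : Fact p.Prime := ⟨hp⟩
  obtain ⟨P, e, hPx, hP, hCP, he, ⟨D⟩, hepos, hte⟩ := CfsgLib.Block.selfcent_setup hx hC
  rw [ht] at hte
  have hp2 := hp.two_le
  have he1 : t = p - 1 ↔ e = 1 := by
    constructor
    · intro h
      rw [h] at hte
      exact Nat.eq_of_mul_eq_mul_left (by omega : 0 < p - 1) (by rw [mul_one]; exact hte)
    · intro h
      rw [h, mul_one] at hte
      exact hte
  rcases CfsgLib.Block.commutator_dichotomy hP hCP D he with ⟨hd, hne, hdvd⟩ | ⟨hd, he', hidx⟩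
  · refine ⟨fun _ => ?_, fun h => absurd (he1.1 h) hne⟩
    rw [← hte, mul_comm t]
    exact Nat.mul_le_mul (Nat.le_of_dvd hepos hdvd) le_rfl
  · exact ⟨fun h => absurd (he1.2 he') h, fun _ => hidx⟩

end Cfsg.Agent.S4495
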