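import Cfsg.Statements.S4496
import Cfsg.Agent.Lib.BlockSelfCent

set_option autoImplicit false
open Cfsg
open scoped commutatorElement

namespace Cfsg.Agent.S4496

/-- Let the finite group G contain an element x of prime order p with C_G(x) = ⟨x⟩. Then: (a) every normal subgroup of order divisible by p contains the commutator subgroup; (b) every normal subgroup S of order prime to p has order dividing the number of subgroups of order p of G and congruent to 1 modulo p, and in G/S the image of x again has prime order p and commutes only with its own powers. -/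
theorem result {G : Type*} [Group G] [Finite G] (p : ℕ) (hp : p.Prime) (x : G) (hx : orderOf x = p) (hC : Subgroup.centralizer ({x} : Set G) = Subgroup.zpowers x) (S : Subgroup G) [S.Normal] : (p ∣ Nat.card S → commutator G ≤ S) ∧ (¬ p ∣ Nat.card S → Nat.card S ∣ Nat.card {H : Subgroup G // Nat.card H = p} ∧ Nat.card S % p = 1 ∧ orderOf (QuotientGroup.mk x : G ⧸ S) = p ∧ Subgroup.centralizer ({(QuotientGroup.mk x : G ⧸ S)} : Set (G ⧸ S)) = Subgroup.zpowers (QuotientGroup.mk x : G ⧸ S)) := by
  have : Fintype G := Fintype.ofFinite G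
  have : Fact p.Prime := ⟨hp⟩
  obtain ⟨P, e, hPx, hP, hCP, he, ⟨D⟩, hepos, hte⟩ := CfsgLib.Block.selfcent_setup hx hC
  have hx1 : x ≠ 1 := fun h => by
    rw [h, orderOf_one] at hx
    exact hp.one_lt.ne hx
  have hxP : x ∈ (P : Subgroup G) := by rw [hPx]; exact Subgroup.mem_zpowers x
  refine ⟨fun h => CfsgLib.Block.commutator_le_of_dvd hP hCP h D, fun h => ?_⟩
  exact ⟨CfsgLib.Block.card_normal_dvd hP hCP h, CfsgLib.Block.card_normal_mod hP hCP h,
    CfsgLib.Block.quotient_selfcent hP hCP h hxP hx1⟩

end Cfsg.Agent.S4496
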