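import Cfsg.Statements.S4497
import Cfsg.Agent.Lib.BlockSelfCent

set_option autoImplicit false
open Cfsg
open scoped commutatorElement

namespace Cfsg.Agent.S4497

/-- Let the finite group G contain an element x of prime order p with C_G(x) = ⟨x⟩, let t be the number of conjugacy classes of elements of order p, and let S* = O_{p′}(G) be the largest normal subgroup of order prime to p. Then S* ≤ G′; if t ≠ p − 1 the quotient G′/S* is simple (in particular non-trivial); if t = p − 1 then G′ = S*. -/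
theorem result {G : Type*} [Group G] [Finite G] (p : ℕ) (hp : p.Prime) (x : G) (hx : orderOf x = p) (hC : Subgroup.centralizer ({x} : Set G) = Subgroup.zpowers x) (t : ℕ) (ht : Nat.card {C : ConjClasses G // ∃ g ∈ C.carrier, orderOf g = p} = t) : Cfsg.pPrimeCore p G ≤ commutator G ∧ (t ≠ p - 1 → ∀ h : ((Cfsg.pPrimeCore p G).subgroupOf (commutator G)).Normal, IsSimpleGroup (↥(commutator G) ⧸ (Cfsg.pPrimeCore p G).subgroupOf (commutator G))) ∧ (t = p - 1 → commutator G = Cfsg.pPrimeCore p G) := by
  have : Fintype G := Fintype.ofFinite G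
  have : Fact p.Prime := ⟨hp⟩
  obtain ⟨P, e, hPx, hP, hCP, he, ⟨D⟩, hepos, hte⟩ := CfsgLib.Block.selfcent_setup hx hC
  rw [ht] at hte
  have hp2 := hp.two_le
  have he1 : t = p - 1 ↔ e = 1 := by
    constructor
    · intro h
      rw [h] at hte
      exact Nat.eq_of_mul_eq_mul_left (by omega : 0 < p - 1) (by rw [mul_one]; exact hte)
    · intro h
      rw [h, mul_one] at hte
      exact hte
  set S := Cfsg.pPrimeCore p G
  haveI hSn : S.Normal := CfsgLib.Core.normal_pPrimeCore p
  have hSp : ¬ p ∣ Nat.card S := CfsgLib.Core.not_dvd_card_pPrimeCore p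
  have hSG : S ≤ commutator G := CfsgLib.Block.le_commutator_of_not_dvd hP hCP hSp
  refine ⟨hSG, fun hne h => ?_, fun h => ?_⟩
  swap
  · rcases CfsgLib.Block.commutator_dichotomy hP hCP D he with ⟨-, hne, -⟩ | ⟨hd, -, -⟩
    · exact absurd (he1.1 h) hne
    · refine le_antisymm (CfsgLib.Core.le_pPrimeCore inferInstance ?_) hSG
      exact (hp.coprime_iff_not_dvd.2 hd).symm
  rcases CfsgLib.Block.commutator_dichotomy hP hCP D he with ⟨hd, -, -⟩ | ⟨-, he', -⟩
  swap
  · exact absurd (he1.2 he') hne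
  set G1 := commutator G
  haveI : Fintype G1 := Fintype.ofFinite _
  have hPG1 : (P : Subgroup G) ≤ G1 := CfsgLib.Block.sylow_le_of_normal hP hd
  have hntop : S.subgroupOf G1 ≠ ⊤ := by
    rw [Ne, Subgroup.subgroupOf_eq_top]
    intro hle
    exact hSp (hd.trans (Subgroup.card_dvd_of_le hle))
  haveI : Nontrivial (↥G1 ⧸ S.subgroupOf G1) := QuotientGroup.nontrivial_iff.2 hntop
  refine IsSimpleGroup.mk fun R hR => ?_
  set R' := R.comap (QuotientGroup.mk' (S.subgroupOf G1))
  haveI hR' : R'.Normal := hR.comap _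
  have hsurj := QuotientGroup.mk'_surjective (S.subgroupOf G1)
  by_cases hRp : p ∣ Nat.card R'
  · refine Or.inr (Subgroup.comap_injective hsurj ?_)
    rw [Subgroup.comap_top]
    show R' = ⊤
    -- R' contains every Sylow subgroup, hence a normal subgroup of order divisible by p
    set U : Subgroup G := Subgroup.normalClosure ((P : Subgroup G) : Set G)
    have hU : G1 ≤ U := CfsgLib.Block.commutator_le_of_dvd hP hCP
      (Dvd.dvd.trans (by rw [hP]) (Subgroup.card_dvd_of_le Subgroup.subset_normalClosure)) D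
    suffices hUR : U ≤ R'.map G1.subtype by
      rw [eq_top_iff]
      rintro ⟨g, hg⟩ -
      obtain ⟨y, hy, hyg⟩ := hUR (hU hg)
      exact (Subtype.ext hyg : y = ⟨g, hg⟩) ▸ hy
    refine (Subgroup.closure_le _).2 fun w hw => ?_
    obtain ⟨y, hy, hconj⟩ := Group.mem_conjugatesOfSet_iff.1 hw
    have hwG : w ∈ G1 := by
      obtain ⟨g, rfl⟩ := isConj_iff.1 hconj
      exact (inferInstance : (commutator G).Normal).conj_mem _ (hPG1 hy) g
    have hwp : w ^ p = 1 := by
      obtain ⟨g, rfl⟩ := isConj_iff.1 hconj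
      have h1 : orderOf y ∣ p := by
        have := Subgroup.orderOf_dvd_natCard _ hy
        rwa [hP] at this
      rw [conj_pow, orderOf_dvd_iff_pow_eq_one.1 h1, mul_one, mul_inv_cancel]
    have hmult : ∀ Q : Sylow p G1, Nat.card Q = p := by
      intro Q
      have hQ' : Nat.card Q = Nat.card ((Q : Subgroup G1).map G1.subtype) :=
        (Subgroup.card_map_of_injective G1.subtype_injective).symm
      obtain ⟨Q2, hQ2⟩ := (Q.2.map G1.subtype).exists_le_sylow
      have h1 : Nat.card ((Q : Subgroup G1).map G1.subtype) ∣ Nat.card Q2 :=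
        Subgroup.card_dvd_of_le hQ2
      have h2 : Nat.card Q2 = p := by
        rw [Sylow.card_eq_multiplicity, ← Sylow.card_eq_multiplicity P, hP]
      rw [h2, ← hQ'] at h1
      have h3 : p ∣ Nat.card Q := Q.dvd_card_of_dvd_card hd
      exact Nat.dvd_antisymm h1 h3
    obtain ⟨Q, hQ⟩ : ∃ Q : Sylow p G1, (⟨w, hwG⟩ : G1) ∈ (Q : Subgroup G1) := by
      obtain ⟨Q, hQ⟩ := (show IsPGroup p (Subgroup.zpowers (⟨w, hwG⟩ : G1)) from fun z => by
        refine ⟨1, ?_⟩
        obtain ⟨i, hi⟩ := z.2
        refine Subtype.ext (Subtype.ext ?_)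
        have h4 : ((z : G1) : G) = w ^ i := by rw [← hi]; rfl
        simp only [pow_one, SubmonoidClass.coe_pow, OneMemClass.coe_one, h4]
        rw [← zpow_natCast, ← zpow_mul, mul_comm, zpow_mul, zpow_natCast, hwp, one_zpow]).exists_le_sylow
      exact ⟨Q, hQ (Subgroup.mem_zpowers _)⟩
    exact ⟨⟨w, hwG⟩, CfsgLib.Block.sylow_le_of_normal (hmult Q) hRp hQ, rfl⟩
  · refine Or.inl (Subgroup.comap_injective hsurj ?_)
    rw [MonoidHom.comap_bot, QuotientGroup.ker_mk']
    refine le_antisymm ?_ ?_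
    · intro r hr
      have h1 : R' ≤ Cfsg.pPrimeCore p G1 :=
        CfsgLib.Core.le_pPrimeCore hR' (hp.coprime_iff_not_dvd.2 hRp).symm
      exact CfsgLib.Core.pPrimeCore_map_subtype_le (inferInstance : (commutator G).Normal)
        ⟨r, h1 hr, rfl⟩
    · intro r hr
      show QuotientGroup.mk' (S.subgroupOf G1) r ∈ R
      rw [show QuotientGroup.mk' (S.subgroupOf G1) r = 1 from
        (QuotientGroup.eq_one_iff r).2 hr]
      exact one_mem R

end Cfsg.Agent.S4497
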