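import Cfsg.Statements.S4498
import Cfsg.Agent.Lib.BlockOrth
import Cfsg.Agent.Lib.BlockPPart
import Cfsg.Agent.Lib.BlockPrincipal

set_option autoImplicit false
open Cfsg
open CfsgLib.Block CfsgLib.Char
open scoped Classical


namespace Cfsg.Agent.S4498

/-- Let p and q be distinct primes dividing the order of the finite group G, and suppose G has no element of order p·q. Fix maximal ideals M_p over p and M_q over q of the algebraic integers. Then the principal p-block and the principal q-block of G have a non-principal irreducible character in common. -/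
theorem result {G : Type*} [Group G] [Finite G] (p q : ℕ) [Fact p.Prime] [Fact q.Prime] (hpq : p ≠ q) (hp : p ∣ Nat.card G) (hq : q ∣ Nat.card G) (hno : ∀ g : G, orderOf g ≠ p * q) (Mp Mq : Ideal Cfsg.AlgInt) (hMp : Cfsg.IsPModular p Mp) (hMq : Cfsg.IsPModular q Mq) : ∃ χ : Cfsg.IrrCharacter G, (χ : G → ℂ) ≠ (fun _ => 1) ∧ χ ∈ Cfsg.principalBlock Mp G ∧ χ ∈ Cfsg.principalBlock Mq G := by
  haveI := Fintype.ofFinite G
  by_contra hcon
  push Not at hcon
  obtain ⟨u, hu⟩ := exists_prime_orderOf_dvd_card' p hp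
  obtain ⟨v, hv⟩ := exists_prime_orderOf_dvd_card' q hq
  have hBp := isPBlock_principal (G := G) Mp
  have hBq := isPBlock_principal (G := G) Mq
  set a : IrrCharacter G → ℂ := fun χ => indVal (principalBlock Mp G) χ * (χ : G → ℂ) u with ha
  set b : IrrCharacter G → ℂ := fun χ => indVal (principalBlock Mq G) χ * starRingEnd ℂ ((χ : G → ℂ) v)
    with hb
  have hF : ∀ g : G, ¬ p ∣ orderOf g → ∑ χ, a χ * starRingEnd ℂ ((χ : G → ℂ) g) = 0 := fun g hg =>
    block_sum_singular_regular hMp hBp hg (dvd_of_eq hu.symm)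
  have hH : ∀ g : G, ¬ q ∣ orderOf g → ∑ χ, b χ * (χ : G → ℂ) g = 0 := by
    intro g hg
    rw [← block_sum_regular_singular hMq hBq hg (dvd_of_eq hv.symm)]
    exact Finset.sum_congr rfl fun χ _ => by simp only [hb]; ring
  have hzero : ∀ g : G,
      (∑ χ, a χ * starRingEnd ℂ ((χ : G → ℂ) g)) * ∑ χ, b χ * (χ : G → ℂ) g = 0 := by
    intro g
    by_cases h1 : p ∣ orderOf g
    · by_cases h2 : q ∣ orderOf g
      · exfalso
        have hd : p * q ∣ orderOf g :=
          Nat.Coprime.mul_dvd_of_dvd_of_dvd ((Nat.coprime_primes Fact.out Fact.out).2 hpq) h1 h2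
        exact hno _ (orderOf_pow_orderOf_div (orderOf_pos g).ne' hd)
      · rw [hH g h2, mul_zero]
    · rw [hF g h1, zero_mul]
  have horth : ∀ χ ψ : IrrCharacter G, ∑ g : G, (ψ : G → ℂ) g * starRingEnd ℂ ((χ : G → ℂ) g) =
      if χ = ψ then (Nat.card G : ℂ) else 0 := by
    intro χ ψ
    have hc : (Nat.card G : ℂ) ≠ 0 := Nat.cast_ne_zero.2 Nat.card_pos.ne'
    by_cases h : χ = ψ
    · subst h
      have := irr_inner_self χ.2
      rw [classInner, inv_mul_eq_iff_eq_mul₀ hc, mul_one] at this
      rw [if_pos rfl, this]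
    · have := irr_inner_ne ψ.2 χ.2 (fun e => h (Subtype.ext e.symm))
      rw [classInner, inv_mul_eq_iff_eq_mul₀ hc, mul_zero] at this
      rw [if_neg h, this]
  have hsum : (Nat.card G : ℂ) * ∑ χ, a χ * b χ = 0 := by
    rw [← Finset.sum_eq_zero (s := (Finset.univ : Finset G)) (fun g _ => hzero g)]
    simp only [Finset.sum_mul, Finset.mul_sum]
    rw [Finset.sum_comm]
    refine Finset.sum_congr rfl fun χ _ => ?_
    rw [Finset.sum_comm]
    calc (Nat.card G : ℂ) * (a χ * b χ)
        = ∑ ψ, a ψ * b χ * if ψ = χ then (Nat.card G : ℂ) else 0 := by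
          rw [Finset.sum_eq_single χ (fun ψ _ h => by rw [if_neg h, mul_zero])
            (fun h => absurd (Finset.mem_univ _) h), if_pos rfl]
          ring
      _ = _ := Finset.sum_congr rfl fun ψ _ => by
          rw [← horth ψ χ, Finset.mul_sum]
          exact Finset.sum_congr rfl fun g _ => by ring
  rw [mul_eq_zero, Finset.sum_eq_single (trivIrr G)] at hsum
  · rcases hsum with h | h
    · exact Nat.card_pos.ne' (Nat.cast_eq_zero.1 h)
    · simp only [ha, hb, indVal, if_pos (trivIrr_mem_principal hMp), if_pos (trivIrr_mem_principal hMq),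
        one_mul] at h
      have e : ∀ g : G, ((trivIrr G : IrrCharacter G) : G → ℂ) g = 1 := fun g => rfl
      rw [e, e, map_one, one_mul] at h
      exact one_ne_zero h
  · intro χ _ hχ
    by_cases h1 : χ ∈ principalBlock Mp G
    · have h2 := hcon χ (fun e => hχ (Subtype.ext e)) h1
      simp [hb, indVal, h2]
    · simp [ha, indVal, h1]
  · exact fun h => absurd (Finset.mem_univ _) h

end Cfsg.Agent.S4498
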