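import Cfsg.Statements.S4500
import Cfsg.Agent.Lib.BlockBound
import Cfsg.Agent.Lib.CharBurnside
import Cfsg.Agent.Lib.CharSmall
import Cfsg.Agent.Lib.BlockPrincipal
import Cfsg.Agent.Lib.BlockPrinInduce
import Cfsg.Agent.Lib.BlockOrth
import Cfsg.Agent.Lib.BlockRegular

set_option autoImplicit false
set_option maxHeartbeats 400000
open Cfsg CfsgLib.Block CfsgLib.Char

namespace Cfsg.Agent.S4500

universe u

/-- A nontrivial character of degree a power of `q`. -/
theorem one_side {G : Type u} [Group G] [Finite G] [Nontrivial G] (p q r a b c : ℕ) (hp : p.Prime)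
    (hq : q.Prime) (hr : r.Prime) (ha : a ≤ 2) (hpq : p ≠ q) (hpr : p ≠ r)
    (hG : Nat.card G = p ^ a * q ^ b * r ^ c) :
    ∃ χ : Cfsg.IrrCharacter G, (χ : G → ℂ) ≠ (fun _ => 1) ∧ ∃ k : ℕ, Cfsg.charDegree (χ : G → ℂ) = q ^ k := by
  classical
  haveI : Fintype G := Fintype.ofFinite G
  haveI := Fact.mk hp
  rcases Nat.eq_zero_or_pos a with rfl | ha0
  · haveI : Group.IsSolvable G := burnside_pq hq hr _ G b c rfl (by rw [hG, pow_zero, one_mul])
    have hlt : commutator G < ⊤ := Group.IsSolvable.commutator_lt_top_of_nontrivial G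
    have h2 : 1 < Nat.card {χ : Cfsg.IrrCharacter G // (χ : G → ℂ) 1 = 1} := by
      rw [card_linear_chars]
      refine lt_of_le_of_ne (Nat.one_le_iff_ne_zero.2 Subgroup.index_ne_zero_of_finite) (Ne.symm ?_)
      exact fun h => hlt.ne (Subgroup.index_eq_one.1 h)
    haveI : Nontrivial {χ : Cfsg.IrrCharacter G // (χ : G → ℂ) 1 = 1} :=
      Finite.one_lt_card_iff_nontrivial.1 h2
    obtain ⟨⟨χ, hχ⟩, hne⟩ := exists_ne (⟨trivIrr G, rfl⟩ : {χ : Cfsg.IrrCharacter G // (χ : G → ℂ) 1 = 1})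
    refine ⟨χ, fun h => hne (Subtype.ext (Subtype.ext h)), 0, ?_⟩
    have h := charDegree_cast χ.2.isCharacter'
    rw [hχ] at h
    rw [pow_zero]; exact_mod_cast h
  obtain ⟨M, hM⟩ := exists_isPModular hp
  have hB := isPBlock_principal (G := G) M
  have hfac : (Nat.card G).factorization p = a := by
    rw [hG, Nat.factorization_mul (mul_ne_zero (pow_ne_zero _ hp.ne_zero) (pow_ne_zero _ hq.ne_zero))
      (pow_ne_zero _ hr.ne_zero), Nat.factorization_mul (pow_ne_zero _ hp.ne_zero) (pow_ne_zero _ hq.ne_zero)]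
    simp [hp.factorization, hq.factorization, hr.factorization, Finsupp.single_apply, Ne.symm hpq,
      Ne.symm hpr]
  have hdeg : ∀ χ ∈ Cfsg.principalBlock M G, ¬ p ∣ Cfsg.charDegree (χ : G → ℂ) := by
    intro χ hχ
    rw [← blockHeight_principal_eq_zero_iff hM]
    by_contra hpos
    have h := (positive_height_data hM hB hχ hpos).1
    rw [blockDefect_principal hM, hfac] at h
    omega
  by_contra hnone
  push Not at hnone
  have hdiv : ∀ χ ∈ Cfsg.principalBlock M G, χ ≠ trivIrr G → r ∣ Cfsg.charDegree (χ : G → ℂ) := by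
    intro χ hχ hne
    by_contra hrd
    obtain ⟨d, hd, hdd⟩ := irr_degree_dvd χ.2
    have hd' : Cfsg.charDegree (χ : G → ℂ) = d := by
      have h := charDegree_cast χ.2.isCharacter'
      rw [hd] at h; exact_mod_cast h
    rw [← hd', hG] at hdd
    have hc1 : (Cfsg.charDegree (χ : G → ℂ)).Coprime (r ^ c) :=
      (((hr.coprime_iff_not_dvd).2 hrd).symm).pow_right c
    have hc2 : (Cfsg.charDegree (χ : G → ℂ)).Coprime (p ^ a) :=
      (((hp.coprime_iff_not_dvd).2 (hdeg χ hχ)).symm).pow_right a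
    have h1 := hc2.dvd_of_dvd_mul_left (hc1.dvd_of_dvd_mul_right hdd)
    obtain ⟨k, -, hk⟩ := (Nat.dvd_prime_pow hq).1 h1
    exact hnone χ (fun h => hne (Subtype.ext h)) k hk
  obtain ⟨x, hx⟩ := exists_prime_orderOf_dvd_card' (G := G) p (by
    rw [hG, mul_assoc]; exact Dvd.dvd.mul_right (dvd_pow_self p ha0.ne') _)
  have h0 := coef_indVal_singular hM hB (g := x) (hx ▸ dvd_rfl)
  rw [← blockCoeff_eq_coef, Cfsg.blockCoeff, mul_eq_zero] at h0
  have h0 := h0.resolve_left (inv_ne_zero (natCard_ne_zero G))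
  rw [finsum_mem_eq_toFinset_sum, ← Finset.add_sum_erase _ _
    (Set.mem_toFinset.2 (trivIrr_mem_principal (G := G) hM))] at h0
  have hint : IsIntegral ℤ (∑ χ ∈ (Cfsg.principalBlock M G).toFinset.erase (trivIrr G),
      ((χ : G → ℂ) 1 * (starRingEnd ℂ) ((χ : G → ℂ) x)) / (r : ℂ)) := by
    refine IsIntegral.sum _ fun χ hχ => ?_
    rw [Finset.mem_erase, Set.mem_toFinset] at hχ
    obtain ⟨t, ht⟩ := hdiv χ hχ.2 hχ.1
    have e : ((χ : G → ℂ) 1 * (starRingEnd ℂ) ((χ : G → ℂ) x)) / (r : ℂ)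
        = (t : ℂ) * (starRingEnd ℂ) ((χ : G → ℂ) x) := by
      rw [← charDegree_cast χ.2.isCharacter', ht]
      have hr0 : (r : ℂ) ≠ 0 := Nat.cast_ne_zero.2 hr.ne_zero
      push_cast; field_simp
    rw [e, ← isCharacter_inv_eq_conj χ.2.isCharacter']
    obtain ⟨n, ρ, -, hρ⟩ := χ.2
    rw [← hρ]
    exact (isIntegral_natCast t).mul (isIntegral_rep_char ρ x⁻¹)
  rw [← Finset.sum_div] at hint
  have hone : (trivIrr G : G → ℂ) 1 * (starRingEnd ℂ) ((trivIrr G : G → ℂ) x) = 1 := by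
    simp [trivIrr]
  rw [hone, add_eq_zero_iff_eq_neg'] at h0
  rw [h0, neg_div] at hint
  have h1 : IsIntegral ℤ ((1 : ℕ) : ℂ) → IsIntegral ℤ (((1 : ℕ) : ℂ) / (r : ℂ)) := fun _ => by
    simpa using hint.neg
  exact hr.not_dvd_one (natCast_dvd_of_isIntegral_div hr.pos (h1 (isIntegral_natCast 1)))


/-- Let G be a non-trivial finite group of order p^a · q^b · r^c with p, q, r distinct primes and a ≤ 2. Then G has a non-principal irreducible character whose degree is a power of q, and a non-principal irreducible character whose degree is a power of r; the power may be the zeroth, so a non-principal linear character serves for both. -/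
theorem result {G : Type*} [Group G] [Finite G] [Nontrivial G] (p q r a b c : ℕ) (hp : p.Prime) (hq : q.Prime) (hr : r.Prime) (hpq : p ≠ q) (hpr : p ≠ r) (hqr : q ≠ r) (ha : a ≤ 2) (hG : Nat.card G = p ^ a * q ^ b * r ^ c) : (∃ χ : Cfsg.IrrCharacter G, (χ : G → ℂ) ≠ (fun _ => 1) ∧ ∃ k : ℕ, Cfsg.charDegree (χ : G → ℂ) = q ^ k) ∧ ∃ χ : Cfsg.IrrCharacter G, (χ : G → ℂ) ≠ (fun _ => 1) ∧ ∃ k : ℕ, Cfsg.charDegree (χ : G → ℂ) = r ^ k := by
  exact ⟨one_side p q r a b c hp hq hr ha hpq hpr hG,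
    one_side p r q a c b hp hr hq ha hpr hpq (by rw [hG]; ring)⟩

end Cfsg.Agent.S4500
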