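import Cfsg.Statements.S4506
import Cfsg.Agent.Lib.BlockIndep
import Cfsg.Agent.Lib.BlockRegular
import Cfsg.Agent.Lib.CharGalois
import Cfsg.Agent.Lib.CharInt
import Mathlib.FieldTheory.IsAlgClosed.Classification
import Mathlib.FieldTheory.Minpoly.IsConjRoot
import Mathlib.FieldTheory.AlgebraicClosure
import Mathlib.RingTheory.Polynomial.Cyclotomic.Roots
import Mathlib.Algebra.MvPolynomial.Equiv

set_option autoImplicit false
set_option maxHeartbeats 400000
open Cfsg

namespace Cfsg.Agent.S4506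

universe w

open CfsgLib.Block CfsgLib.Char
open scoped ComplexConjugate Classical

/-- conjugation of primitive roots extends to the complex field -/
theorem exists_aut {n : ℕ} (hn : 0 < n) {ζ : ℂ} (hζ : IsPrimitiveRoot ζ n) {k : ℕ} (hk : k.Coprime n) :
    ∃ σ : ℂ ≃+* ℂ, σ ζ = ζ ^ k := by
  let L := algebraicClosure ℚ ℂ
  have hint : IsIntegral ℚ ζ := (hζ.isIntegral hn).tower_top
  let z : L := ⟨ζ, mem_algebraicClosure_iff.2 hint.isAlgebraic⟩
  have hz : IsPrimitiveRoot z n := IsPrimitiveRoot.of_map_of_injective (f := L.val) (show IsPrimitiveRoot (L.val z) n from hζ) Subtype.val_injective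
  have hm : minpoly ℚ z = minpoly ℚ (z ^ k) := by
    rw [← Polynomial.cyclotomic_eq_minpoly_rat hz hn, ← Polynomial.cyclotomic_eq_minpoly_rat (hz.pow_of_coprime k hk) hn]
  haveI : IsAlgClosure ℚ L := algebraicClosure.isAlgClosure ℚ ℂ
  haveI : Normal ℚ L := IsAlgClosure.normal ℚ L
  obtain ⟨τ, hτ⟩ := minpoly.exists_algEquiv_of_root' (K := ℚ) (L := L) (x := z) (y := z ^ k)
    (Algebra.IsAlgebraic.isAlgebraic (z ^ k)) (by rw [← hm]; exact minpoly.aeval _ _)
  obtain ⟨s, hs⟩ := exists_isTranscendenceBasis L ℂ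
  letI := IsAlgClosed.isAlgClosure_of_transcendence_basis (Subtype.val : s → ℂ) hs
  let e : Algebra.adjoin L (Set.range (Subtype.val : s → ℂ)) ≃+* Algebra.adjoin L (Set.range (Subtype.val : s → ℂ)) :=
    hs.1.aevalEquiv.symm.toRingEquiv.trans
      ((MvPolynomial.mapEquiv s τ.toRingEquiv).trans hs.1.aevalEquiv.toRingEquiv)
  have h1 : hs.1.aevalEquiv.symm (algebraMap L _ (z ^ k)) = MvPolynomial.C (z ^ k) := by
    rw [AlgEquiv.commutes]; rfl
  have he : e (algebraMap L _ (z ^ k)) = algebraMap L _ (τ (z ^ k)) := by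
    show hs.1.aevalEquiv (MvPolynomial.map _ (hs.1.aevalEquiv.symm (algebraMap L _ (z ^ k)))) = _
    rw [h1, MvPolynomial.map_C]
    exact hs.1.aevalEquiv.commutes _
  refine ⟨(IsAlgClosure.equivOfEquiv ℂ ℂ e).symm, ?_⟩
  rw [RingEquiv.symm_apply_eq]
  have h2 := IsAlgClosure.equivOfEquiv_algebraMap ℂ ℂ e (algebraMap L _ (z ^ k))
  rw [he, hτ] at h2
  exact h2.symm

theorem geom_root {n : ℕ} {η : ℂ} (h : η ^ n = 1) :
    ∑ j ∈ Finset.range n, η ^ j = if η = 1 then (n : ℂ) else 0 := by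
  split_ifs with h1
  · simp [h1]
  · rw [geom_sum_eq h1, h, sub_self, zero_div]

/-- Ramanujan sums of prime power conductor -/
theorem ramanujan {p a : ℕ} (hp : p.Prime) [NeZero (p ^ a)] {η : ℂ} (hη : η ^ p ^ a = 1) :
    ∃ z : ℤ, ∑ u : (ZMod (p ^ a))ˣ, η ^ (u : ZMod (p ^ a)).val = ((p ^ (a - 1) : ℕ) : ℂ) * z := by
  rcases a.eq_zero_or_pos with rfl | ha
  · refine ⟨(Fintype.card (ZMod (p ^ 0))ˣ : ℤ), ?_⟩
    rw [pow_zero, pow_one] at hη
    simp only [hη, one_pow, Finset.sum_const, Finset.card_univ, nsmul_eq_mul, mul_one, zero_tsub, pow_zero, Nat.cast_one, one_mul, Int.cast_natCast]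
  have hsum : ∑ u : (ZMod (p ^ a))ˣ, η ^ (u : ZMod (p ^ a)).val =
      ∑ j ∈ (Finset.range (p ^ a)).filter (fun j => ¬ p ∣ j), η ^ j := by
    refine Finset.sum_bij (fun u _ => (u : ZMod (p ^ a)).val) (fun u _ => ?_) (fun u _ v _ h => ?_) (fun j hj => ?_) (fun _ _ => rfl)
    · refine Finset.mem_filter.2 ⟨Finset.mem_range.2 (ZMod.val_lt _), fun hd => ?_⟩
      exact (hp.coprime_iff_not_dvd.1 ((Nat.coprime_pow_left_iff ha _ _).1 (ZMod.val_coe_unit_coprime u).symm)) hd
    · exact Units.ext (ZMod.val_injective _ h)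
    · obtain ⟨h1, h2⟩ := Finset.mem_filter.1 hj
      refine ⟨ZMod.unitOfCoprime j ((hp.coprime_iff_not_dvd.2 h2).pow_left a).symm, Finset.mem_univ _, ?_⟩
      rw [ZMod.coe_unitOfCoprime, ZMod.val_cast_of_lt (Finset.mem_range.1 h1)]
  have hpp : p ^ a = p * p ^ (a - 1) := by rw [← pow_succ', Nat.sub_add_cancel ha]
  have hdiv : ∑ j ∈ (Finset.range (p ^ a)).filter (fun j => p ∣ j), η ^ j =
      ∑ i ∈ Finset.range (p ^ (a - 1)), (η ^ p) ^ i := by
    refine Finset.sum_bij' (fun j _ => j / p) (fun i _ => p * i) (fun j hj => ?_) (fun i hi => ?_) (fun j hj => ?_) (fun i hi => ?_) (fun j hj => ?_)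
    · obtain ⟨h1, h2⟩ := Finset.mem_filter.1 hj
      rw [Finset.mem_range] at h1 ⊢
      rw [hpp] at h1
      exact Nat.div_lt_of_lt_mul h1
    · rw [Finset.mem_range] at hi
      refine Finset.mem_filter.2 ⟨Finset.mem_range.2 ?_, dvd_mul_right p i⟩
      rw [hpp]; exact Nat.mul_lt_mul_of_pos_left hi hp.pos
    · exact Nat.mul_div_cancel' (Finset.mem_filter.1 hj).2
    · exact Nat.mul_div_cancel_left i hp.pos
    · rw [← pow_mul, Nat.mul_div_cancel' (Finset.mem_filter.1 hj).2]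
  have htot := Finset.sum_filter_add_sum_filter_not (Finset.range (p ^ a)) (fun j => p ∣ j) (fun j => η ^ j)
  rw [hdiv, ← hsum, geom_root hη, geom_root (show (η ^ p) ^ p ^ (a - 1) = 1 by rw [← pow_mul, ← hpp, hη])] at htot
  refine ⟨(if η = 1 then (p : ℤ) else 0) - (if η ^ p = 1 then 1 else 0), ?_⟩
  rw [eq_sub_iff_add_eq'.2 htot, hpp]
  split_ifs <;> push_cast <;> ring

theorem pow_congr_mod {N : ℕ} {η : ℂ} (h : η ^ N = 1) {k l : ℕ} (hkl : k ≡ l [MOD N]) : η ^ k = η ^ l := by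
  rw [← Nat.mod_add_div k N, ← Nat.mod_add_div l N, pow_add, pow_add, pow_mul, pow_mul, h, one_pow, one_pow, hkl]

/-- Let G be a finite group, p a prime, p^a the p-part of the order of G and g′ its p′-part. Call two irreducible characters p-conjugate when one is obtained from the other by applying a field automorphism of ℂ that fixes the g′-th roots of unity, and let r be the number of characters p-conjugate to the irreducible character χ (χ included). Then the exponent of p in r·χ(1) is at most a; and if p^a divides r·χ(1) then p^a already divides χ(1). -/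
theorem result {G : Type*} [Group G] [Finite G] (p : ℕ) (hp : p.Prime) (χ : Cfsg.IrrCharacter G) (r : ℕ) (hr : Nat.card {ψ : Cfsg.IrrCharacter G // ∃ σ : ℂ ≃+* ℂ, σ (Complex.exp (2 * Real.pi * Complex.I / ((Nat.card G / p ^ (Nat.card G).factorization p) : ℕ))) = Complex.exp (2 * Real.pi * Complex.I / ((Nat.card G / p ^ (Nat.card G).factorization p) : ℕ)) ∧ (ψ : G → ℂ) = fun g => σ ((χ : G → ℂ) g)} = r) : (r * Cfsg.charDegree (χ : G → ℂ)).factorization p ≤ (Nat.card G).factorization p ∧ (p ^ (Nat.card G).factorization p ∣ r * Cfsg.charDegree (χ : G → ℂ) → p ^ (Nat.card G).factorization p ∣ Cfsg.charDegree (χ : G → ℂ)) := by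
  classical
  haveI := Fintype.ofFinite G
  have hN0 : Nat.card G ≠ 0 := Nat.card_pos.ne'
  generalize hN : Nat.card G = N at *
  generalize ha : N.factorization p = a at *
  generalize hgd : N / p ^ a = g' at *
  have hNeq : N = p ^ a * g' := by rw [← hgd, ← ha, Nat.mul_div_cancel' (Nat.ordProj_dvd N p)]
  have hcop : (p ^ a).Coprime g' := by
    rw [← hgd, ← ha]; exact (Nat.coprime_ordCompl hp hN0).pow_left _
  have hg0 : g' ≠ 0 := fun h => hN0 (by rw [hNeq, h, mul_zero])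
  haveI : NeZero (p ^ a) := ⟨pow_ne_zero _ hp.ne_zero⟩
  haveI : NeZero N := ⟨hN0⟩
  -- the lifts of the units
  choose m hm1 hm2 using fun u : (ZMod (p ^ a))ˣ =>
    (⟨(Nat.chineseRemainder hcop (u : ZMod (p ^ a)).val 1).1, (Nat.chineseRemainder hcop (u : ZMod (p ^ a)).val 1).2.1,
      (Nat.chineseRemainder hcop (u : ZMod (p ^ a)).val 1).2.2⟩ : ∃ m : ℕ, m ≡ (u : ZMod (p ^ a)).val [MOD p ^ a] ∧ m ≡ 1 [MOD g'])
  have hmc : ∀ u, (m u).Coprime N := fun u => by
    rw [hNeq]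
    refine Nat.Coprime.mul_right ?_ ?_
    · rw [Nat.Coprime, (hm1 u).gcd_eq]; exact ZMod.val_coe_unit_coprime u
    · rw [Nat.Coprime, (hm2 u).gcd_eq]; exact Nat.coprime_one_left g'
  have hmu : ∀ (u : (ZMod (p ^ a))ˣ) (k : ℕ), k ≡ (u : ZMod (p ^ a)).val [MOD p ^ a] → k ≡ 1 [MOD g'] → k ≡ m u [MOD N] := by
    intro u k h1 h2
    rw [hNeq]
    exact (Nat.modEq_and_modEq_iff_modEq_mul hcop).1 ⟨h1.trans (hm1 u).symm, h2.trans (hm2 u).symm⟩
  have hmod : ∀ (x : G) {k l : ℕ}, k ≡ l [MOD N] → x ^ k = x ^ l := fun x k l h =>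
    pow_eq_pow_iff_modEq.2 (h.of_dvd (hN ▸ orderOf_dvd_natCard x))
  let tw : (ZMod (p ^ a))ˣ → IrrCharacter G := fun u => ⟨powTwist (m u) (χ : G → ℂ), powTwist_irr (hN ▸ hmc u) χ.2⟩
  have htwa : ∀ u (x : G), (tw u : G → ℂ) x = (χ : G → ℂ) (x ^ m u) := fun u x => rfl
  generalize hz0 : Complex.exp (2 * Real.pi * Complex.I / (g' : ℕ)) = ξ at *
  have hξ : IsPrimitiveRoot ξ g' := hz0 ▸ Complex.isPrimitiveRoot_exp g' hg0
  obtain ⟨ζ, hζ, hζξ⟩ : ∃ ζ : ℂ, IsPrimitiveRoot ζ N ∧ ζ ^ p ^ a = ξ := by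
    refine ⟨Complex.exp (2 * Real.pi * Complex.I / N), Complex.isPrimitiveRoot_exp N hN0, ?_⟩
    rw [← hz0, ← Complex.exp_nat_mul]
    congr 1
    rw [hNeq]
    push_cast
    have h1 : (p : ℂ) ^ a ≠ 0 := pow_ne_zero _ (Nat.cast_ne_zero.2 hp.ne_zero)
    field_simp
  -- action of automorphisms on values
  have hval : ∀ (σ : ℂ ≃+* ℂ) (k : ℕ), σ ζ = ζ ^ k → ∀ x : G, σ ((χ : G → ℂ) x) = (χ : G → ℂ) (x ^ k) := by
    intro σ k hσ x
    obtain ⟨n, ρ, hρ⟩ := χ.2.isCharacter'
    obtain ⟨b, μ, -, hμ, hk⟩ := exists_rep_eigenbasis ρ x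
    have h1 := hk 1
    rw [pow_one] at h1
    rw [← hρ, h1, hk k, map_sum]
    refine Finset.sum_congr rfl fun i _ => ?_
    have h2 : μ i ^ N = 1 := by
      obtain ⟨c, hc⟩ := (hN ▸ orderOf_dvd_natCard x : orderOf x ∣ N)
      rw [hc, pow_mul, hμ, one_pow]
    haveI : NeZero N := ⟨hN0⟩
    obtain ⟨j, -, hj⟩ := hζ.eq_pow_of_pow_eq_one h2
    rw [pow_one, ← hj, map_pow, hσ, ← pow_mul, ← pow_mul, mul_comm]
  have horb : ∀ ψ : IrrCharacter G, (∃ σ : ℂ ≃+* ℂ, σ ξ = ξ ∧ (ψ : G → ℂ) = fun g => σ ((χ : G → ℂ) g)) ↔ ∃ u, tw u = ψ := by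
    intro ψ
    constructor
    · rintro ⟨σ, hσ, hψ⟩
      obtain ⟨k, -, hk, hk'⟩ := hζ.isPrimitiveRoot_iff.1 (hζ.map_of_injective σ.injective : IsPrimitiveRoot (σ ζ) N)
      have h1 : k ≡ 1 [MOD g'] := by
        have h2 : ξ ^ k = ξ ^ 1 := by
          rw [pow_one]
          conv_rhs => rw [← hσ, ← hζξ, map_pow, ← hk']
          rw [← hζξ, ← pow_mul, ← pow_mul, mul_comm]
        rwa [(hξ.isOfFinOrder hg0).pow_eq_pow_iff_modEq, ← hξ.eq_orderOf] at h2
      have h3 : k.Coprime (p ^ a) := (hNeq ▸ hk).coprime_dvd_right (dvd_mul_right _ _)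
      refine ⟨ZMod.unitOfCoprime k h3, Subtype.ext (funext fun x => ?_)⟩
      rw [htwa, hψ]
      show _ = σ _
      rw [hval σ k hk'.symm, hmod x (hmu (ZMod.unitOfCoprime k h3) k ?_ h1)]
      rw [ZMod.coe_unitOfCoprime, ZMod.val_natCast]
      exact (Nat.mod_modEq _ _).symm
    · rintro ⟨u, rfl⟩
      obtain ⟨σ, hσ⟩ := exists_aut (Nat.pos_of_ne_zero hN0) hζ (hmc u)
      refine ⟨σ, ?_, funext fun x => (hval σ _ hσ x).symm⟩
      rw [← hζξ, map_pow, hσ, ← pow_mul, mul_comm, pow_mul, hζξ]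
      conv_rhs => rw [← pow_one ξ]
      rw [(hξ.isOfFinOrder hg0).pow_eq_pow_iff_modEq, ← hξ.eq_orderOf]
      exact hm2 u
  let O : Finset (IrrCharacter G) := Finset.univ.image tw
  have hO : r = O.card := by
    rw [← hr, ← Nat.card_eq_finsetCard O]
    exact Nat.card_congr (Equiv.subtypeEquivRight fun ψ => by simp [O, horb ψ])
  have hχO : χ ∈ O := Finset.mem_image.2 ⟨1, Finset.mem_univ _, Subtype.ext (funext fun x => by
    rw [htwa, ← hmod x (hmu 1 1 ?_ rfl), pow_one]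
    rw [Units.val_one, ZMod.val_one_eq_one_mod]
    exact (Nat.mod_modEq _ _).symm)⟩
  have hr0 : r ≠ 0 := hO ▸ (Finset.card_pos.2 ⟨χ, hχO⟩).ne'
  have hmul : ∀ (u v : (ZMod (p ^ a))ˣ) (x : G), (x ^ m u) ^ m v = x ^ m (u * v) := by
    intro u v x
    rw [← pow_mul]
    refine hmod x (hmu (u * v) _ ?_ ((hm2 u).mul (hm2 v)))
    rw [Units.val_mul, ZMod.val_mul]
    exact ((hm1 u).mul (hm1 v)).trans (Nat.mod_modEq _ _).symm
  -- the orbit sum
  let θ : G → ℂ := fun x => ∑ ψ ∈ O, (ψ : G → ℂ) x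
  have hθinv : ∀ (v : (ZMod (p ^ a))ˣ) (x : G), θ (x ^ m v) = θ x := by
    intro v x
    let T : IrrCharacter G → IrrCharacter G := fun ψ => ⟨powTwist (m v) (ψ : G → ℂ), powTwist_irr (hN ▸ hmc v) ψ.2⟩
    have hT : ∀ ψ y, (T ψ : G → ℂ) y = (ψ : G → ℂ) (y ^ m v) := fun _ _ => rfl
    have hinj : Function.Injective T := by
      intro ψ φ h
      refine Subtype.ext (funext fun y => ?_)
      have h1 := congrFun (congrArg Subtype.val h) (y ^ m v⁻¹)
      rw [hT, hT, hmul, inv_mul_cancel, ← hmod y (hmu 1 1 ?_ rfl), pow_one] at h1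
      · exact h1
      · rw [Units.val_one, ZMod.val_one_eq_one_mod]
        exact (Nat.mod_modEq _ _).symm
    have himg : O.image T = O := by
      refine Finset.eq_of_subset_of_card_le (fun ψ hψ => ?_) (by rw [Finset.card_image_of_injective _ hinj])
      obtain ⟨φ, hφ, rfl⟩ := Finset.mem_image.1 hψ
      obtain ⟨u, -, rfl⟩ := Finset.mem_image.1 hφ
      exact Finset.mem_image.2 ⟨v * u, Finset.mem_univ _, Subtype.ext (funext fun y => by
        rw [htwa, hT, htwa, hmul])⟩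
    show ∑ ψ ∈ O, (T ψ : G → ℂ) x = ∑ ψ ∈ O, (ψ : G → ℂ) x
    conv_rhs => rw [← himg, Finset.sum_image hinj.injOn]
  have hθsum : ∀ x : G, (Fintype.card (ZMod (p ^ a))ˣ : ℂ) * θ x = (r : ℂ) * ∑ u, (χ : G → ℂ) (x ^ m u) := by
    intro x
    have h1 : (Fintype.card (ZMod (p ^ a))ˣ : ℂ) * θ x = ∑ v, θ (x ^ m v) := by
      rw [Finset.sum_congr rfl fun v _ => hθinv v x, Finset.sum_const, Finset.card_univ, nsmul_eq_mul]
    rw [h1]
    show ∑ v, ∑ ψ ∈ O, (ψ : G → ℂ) (x ^ m v) = _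
    rw [Finset.sum_comm, hO, ← nsmul_eq_mul, ← Finset.sum_const]
    refine Finset.sum_congr rfl fun ψ hψ => ?_
    obtain ⟨u, -, rfl⟩ := Finset.mem_image.1 hψ
    simp only [htwa, hmul]
    exact Fintype.sum_equiv (Equiv.mulRight u) _ _ fun v => rfl
  -- integrality
  let f : G → ℂ := fun x => ((p - 1 : ℕ) : ℂ) * θ x / (r : ℂ)
  have hf : ∀ x, IsIntegral ℤ (f x) := by
    intro x
    obtain ⟨n, ρ, hρ⟩ := χ.2.isCharacter'
    obtain ⟨b, μ, -, hμ, hk⟩ := exists_rep_eigenbasis ρ x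
    have hμN : ∀ i, μ i ^ N = 1 := fun i => by
      obtain ⟨c, hc⟩ := (hN ▸ orderOf_dvd_natCard x : orderOf x ∣ N)
      rw [hc, pow_mul, hμ, one_pow]
    obtain ⟨e₁, he₁, he₁'⟩ := Nat.chineseRemainder hcop 1 0
    obtain ⟨e₂, he₂, he₂'⟩ := Nat.chineseRemainder hcop 0 1
    have hterm : ∀ i, ∃ z : ℂ, IsIntegral ℤ z ∧ ∑ u, μ i ^ m u = ((p ^ (a - 1) : ℕ) : ℂ) * z := by
      intro i
      have hp1 : (μ i ^ e₁) ^ p ^ a = 1 := by
        obtain ⟨c, hc⟩ := Nat.modEq_zero_iff_dvd.1 he₁'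
        rw [← pow_mul, hc, show g' * c * p ^ a = p ^ a * g' * c by ring, pow_mul, ← hNeq, hμN, one_pow]
      have hp2 : (μ i ^ e₂) ^ g' = 1 := by
        obtain ⟨c, hc⟩ := Nat.modEq_zero_iff_dvd.1 he₂
        rw [← pow_mul, hc, show p ^ a * c * g' = p ^ a * g' * c by ring, pow_mul, ← hNeq, hμN, one_pow]
      obtain ⟨z, hz⟩ := ramanujan hp hp1
      refine ⟨μ i ^ e₂ * z, ?_, ?_⟩
      · refine IsIntegral.mul ?_ (isIntegral_algebraMap (R := ℤ) (x := z))
        exact IsIntegral.of_pow (Nat.pos_of_ne_zero hg0) (hp2 ▸ isIntegral_one)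
      · rw [mul_left_comm, ← hz, Finset.mul_sum]
        refine Finset.sum_congr rfl fun u _ => ?_
        rw [← pow_mul, ← pow_add]
        refine pow_congr_mod (hμN i) ?_
        rw [hNeq]
        refine (Nat.modEq_and_modEq_iff_modEq_mul hcop).1 ⟨?_, ?_⟩
        · refine (hm1 u).trans ?_
          simpa using ((he₂.add (he₁.mul_right _))).symm
        · refine (hm2 u).trans ?_
          simpa using ((he₂'.add (he₁'.mul_right _))).symm
    choose z hz hzs using hterm
    have hsum : ∑ u, (χ : G → ℂ) (x ^ m u) = ((p ^ (a - 1) : ℕ) : ℂ) * ∑ i, z i := by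
      rw [Finset.mul_sum, ← Finset.sum_congr rfl fun i _ => hzs i, Finset.sum_comm]
      exact Finset.sum_congr rfl fun u _ => by rw [← hρ, hk]
    have hθx := hθsum x
    rw [hsum, ZMod.card_units_eq_totient] at hθx
    have hr' : (r : ℂ) ≠ 0 := Nat.cast_ne_zero.2 hr0
    rcases a.eq_zero_or_pos with h0 | ha0
    · subst h0
      simp only [pow_zero, Nat.totient_one, Nat.cast_one, one_mul, Nat.zero_sub] at hθx
      have : f x = ((p - 1 : ℕ) : ℂ) * ∑ i, z i := by
        show ((p - 1 : ℕ) : ℂ) * θ x / r = _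
        rw [hθx]; field_simp
      rw [this]
      exact (isIntegral_algebraMap (R := ℤ) (x := ((p - 1 : ℕ) : ℤ))).mul (IsIntegral.sum _ fun i _ => hz i) |> fun h => by simpa using h
    · rw [Nat.totient_prime_pow hp ha0, Nat.cast_mul] at hθx
      have h1 : ((p ^ (a - 1) : ℕ) : ℂ) ≠ 0 := Nat.cast_ne_zero.2 (pow_ne_zero _ hp.ne_zero)
      have : f x = ∑ i, z i := by
        show ((p - 1 : ℕ) : ℂ) * θ x / r = _
        rw [div_eq_iff hr']
        apply mul_left_cancel₀ h1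
        linear_combination hθx
      rw [this]
      exact IsIntegral.sum _ fun i _ => hz i
  have hd : (charDegree (χ : G → ℂ) : ℂ) = (χ : G → ℂ) 1 := charDegree_cast χ.2.isCharacter'
  have hd0 : 0 < charDegree (χ : G → ℂ) := charDegree_pos χ
  have hp1 : ¬ p ∣ (p - 1) * g' := by
    intro h
    rcases hp.dvd_mul.1 h with h | h
    · have := Nat.le_of_dvd (by have := hp.two_le; omega) h
      have := hp.two_le
      omega
    · rw [← hgd, ← ha] at h
      exact Nat.not_dvd_ordCompl hp hN0 h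
  constructor
  · let F : G → ℂ := fun x => conj (f x)
    have hfc : IsClassFunction G f := by
      intro x y
      show ((p - 1 : ℕ) : ℂ) * θ _ / r = ((p - 1 : ℕ) : ℂ) * θ _ / r
      simp only [θ]
      congr 2
      exact Finset.sum_congr rfl fun ψ _ => irr_classFunction ψ x y
    have hFc : IsClassFunction G F := fun x y => congrArg conj (hfc x y)
    have hom : IsIntegral ℤ (om (χ : G → ℂ) F) := by
      rw [om_eq_sum_centralChar hFc]
      refine IsIntegral.sum _ fun C _ => IsIntegral.mul ?_ (isIntegral_centralChar χ _)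
      exact map_isIntegral_int (starRingEnd ℂ) (hf _)
    have h1 : ∑ x, F x * (χ : G → ℂ) x = ((p - 1 : ℕ) : ℂ) / r * N := by
      have e : ∀ x, F x * (χ : G → ℂ) x = ∑ ψ ∈ O, ((p - 1 : ℕ) : ℂ) / r * ((χ : G → ℂ) x * conj ((ψ : G → ℂ) x)) := by
        intro x
        simp only [F, f, θ, map_mul, map_div₀, map_natCast, map_sum]
        rw [Finset.mul_sum, Finset.sum_div, Finset.sum_mul]
        exact Finset.sum_congr rfl fun ψ _ => by ring
      rw [Finset.sum_congr rfl fun x _ => e x, Finset.sum_comm, Finset.sum_eq_single_of_mem χ hχO]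
      · have h2 : ∑ x, (χ : G → ℂ) x * conj ((χ : G → ℂ) x) = (N : ℂ) := by
          have h3 := irr_classInner χ χ
          rw [if_pos rfl, classInner, hN, inv_mul_eq_iff_eq_mul₀ (Nat.cast_ne_zero.2 hN0), mul_one] at h3
          exact h3
        rw [← Finset.mul_sum, h2]
      · intro ψ _ hne
        have h3 := irr_classInner χ ψ
        rw [if_neg (fun h => hne h.symm), classInner, mul_eq_zero] at h3
        have h4 : ∑ x, (χ : G → ℂ) x * conj ((ψ : G → ℂ) x) = 0 := h3.resolve_left (inv_ne_zero (by rw [hN]; exact Nat.cast_ne_zero.2 hN0))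
        rw [← Finset.mul_sum, h4, mul_zero]
    rw [om, h1, ← hd] at hom
    have h5 : r * charDegree (χ : G → ℂ) ∣ (p - 1) * N := by
      refine natCast_dvd_of_isIntegral_div (Nat.mul_pos (Nat.pos_of_ne_zero hr0) hd0) ?_
      convert hom using 1
      push_cast; ring
    have h6 : p ^ (r * charDegree (χ : G → ℂ)).factorization p ∣ N := by
      refine ((hp.coprime_iff_not_dvd.2 fun h => ?_).pow_left _).dvd_of_dvd_mul_left ((Nat.ordProj_dvd _ p).trans h5)
      have := Nat.le_of_dvd (by have := hp.two_le; omega) h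
      have := hp.two_le
      omega
    rw [← ha]
    exact (hp.pow_dvd_iff_le_factorization hN0).1 h6
  · intro hdvd
    obtain ⟨M, hM⟩ := exists_isPModular hp
    obtain ⟨c, hc⟩ := hdvd
    have hcoef : ∀ x, coef (indVal (↑O : Set (IrrCharacter G))) x =
        (((p - 1) * g' : ℕ) : ℂ)⁻¹ * ((c : ℂ) * conj (f x)) := by
      intro x
      have e1 : ∑ ψ : IrrCharacter G, indVal (↑O : Set (IrrCharacter G)) ψ * (ψ : G → ℂ) 1 * conj ((ψ : G → ℂ) x)
          = (χ : G → ℂ) 1 * conj (θ x) := by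
        simp only [θ, map_sum, Finset.mul_sum]
        rw [← Finset.sum_subset (Finset.subset_univ O) (fun ψ _ h => by simp [indVal, h])]
        refine Finset.sum_congr rfl fun ψ hψ => ?_
        obtain ⟨u, -, hu⟩ := Finset.mem_image.1 hψ
        have h1 : (ψ : G → ℂ) 1 = (χ : G → ℂ) 1 := by rw [← hu, htwa, one_pow]
        simp [indVal, hψ, h1]
      rw [coef, e1, hN, hNeq, ← hd]
      simp only [f, map_div₀, map_mul, map_natCast]
      have hcC : (r : ℂ) * (charDegree (χ : G → ℂ) : ℂ) = ((p : ℂ) ^ a) * c := by exact_mod_cast hc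
      have h1 : ((p - 1 : ℕ) : ℂ) ≠ 0 := Nat.cast_ne_zero.2 (by have := hp.two_le; omega)
      have h2 : (g' : ℂ) ≠ 0 := Nat.cast_ne_zero.2 hg0
      have h3 : (p : ℂ) ^ a ≠ 0 := pow_ne_zero _ (Nat.cast_ne_zero.2 hp.ne_zero)
      have h4 : (r : ℂ) ≠ 0 := Nat.cast_ne_zero.2 hr0
      push_cast
      field_simp
      linear_combination (conj (θ x)) * hcC
    have hmem : indVal (↑O : Set (IrrCharacter G)) ∈ intRing hM := by
      rw [mem_intRing]
      intro x
      rw [hcoef]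
      refine (locRing hM).mul_mem ?_ ((locRing hM).mul_mem (natCast_mem _ c) (isIntegral_mem hM (map_isIntegral_int (starRingEnd ℂ) (hf x))))
      refine ⟨1, (((p - 1) * g' : ℕ) : AlgInt), ?_, ?_⟩
      · exact fun h => hp1 ((natCast_mem_iff hM _).1 h)
      · push_cast; rw [one_div]
    have hblk : ∀ ψ φ : IrrCharacter G, SameBlock M (ψ : G → ℂ) (φ : G → ℂ) → ψ ∈ O → φ ∈ O := by
      intro ψ φ hsame hψ
      have h1 := (sameBlock_iff_ev hM ψ φ).1 hsame ⟨_, hmem⟩
      by_contra hφ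
      have e1 : ev hM ψ ⟨_, hmem⟩ = 1 := by
        rw [← map_one (res hM)]
        exact congrArg (res hM) (Subtype.ext (by show indVal (↑O : Set (IrrCharacter G)) ψ = 1; simp [indVal, hψ]))
      have e2 : ev hM φ ⟨_, hmem⟩ = 0 := by
        rw [← map_zero (res hM)]
        exact congrArg (res hM) (Subtype.ext (by show indVal (↑O : Set (IrrCharacter G)) φ = 0; simp [indVal, hφ]))
      rw [e1, e2] at h1
      exact one_not_mem hM ((Ideal.Quotient.eq_zero_iff_mem (I := M)).1 (by simpa using h1))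
    have hvan : ∀ x : G, p ∣ orderOf x → θ x = 0 := by
      intro x hx
      have hx1 : x ≠ 1 := fun h => by rw [h, orderOf_one] at hx; exact hp.one_lt.ne' (Nat.dvd_one.1 hx)
      have h0 : ∀ z : G, p ∣ orderOf z → ∑ ψ : IrrCharacter G, (ψ : G → ℂ) 1 * (ψ : G → ℂ) z = 0 := by
        intro z hz
        rw [sum_degree_mul, if_neg]
        intro h; rw [h, orderOf_one] at hz; exact hp.one_lt.ne' (Nat.dvd_one.1 hz)
      have h1 : ∑ ψ ∈ O, (ψ : G → ℂ) 1 * (ψ : G → ℂ) x = 0 := by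
        rw [← Finset.sum_fiberwise_of_maps_to (g := fun ψ : IrrCharacter G => blockOf M (ψ : G → ℂ))
          (t := O.image fun ψ : IrrCharacter G => blockOf M (ψ : G → ℂ)) (fun ψ h => Finset.mem_image_of_mem _ h)]
        refine Finset.sum_eq_zero fun B hB => ?_
        obtain ⟨φ, hφ, rfl⟩ := Finset.mem_image.1 hB
        have h2 := block_part_singular_eq_zero hM (isPBlock_blockOf (M := M) φ) (fun ψ => (ψ : G → ℂ) 1) h0 hx
        rw [← h2, Finset.sum_filter]
        rw [← Finset.sum_subset (Finset.subset_univ O) (f := fun ψ : IrrCharacter G => indVal (blockOf M (φ : G → ℂ)) ψ * (ψ : G → ℂ) 1 * (ψ : G → ℂ) x)]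
        · refine Finset.sum_congr rfl fun ψ hψ => ?_
          by_cases h : ψ ∈ blockOf M (φ : G → ℂ)
          · rw [if_pos (blockOf_eq_of_mem hM h)]; simp [indVal, h]
          · rw [if_neg (fun (e : blockOf M (ψ : G → ℂ) = blockOf M (φ : G → ℂ)) => h (e ▸ mem_blockOf_self hM ψ))]; simp [indVal, h]
        · intro ψ _ hψ
          have : ψ ∉ blockOf M (φ : G → ℂ) := fun h => hψ (hblk φ ψ h hφ)
          simp [indVal, this]
      have h3 : ∀ ψ ∈ O, (ψ : G → ℂ) 1 = (χ : G → ℂ) 1 := by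
        intro ψ hψ
        obtain ⟨u, -, rfl⟩ := Finset.mem_image.1 hψ
        rw [htwa, one_pow]
      rw [Finset.sum_congr rfl fun ψ hψ => by rw [h3 ψ hψ], ← Finset.mul_sum, mul_eq_zero] at h1
      exact h1.resolve_left (irr_one_ne_zero χ)
    haveI : Fact p.Prime := ⟨hp⟩
    obtain ⟨P, hP⟩ : ∃ P : Subgroup G, Nat.card P = p ^ a := by
      refine Sylow.exists_subgroup_card_pow_prime p ?_
      rw [hN, hNeq]; exact dvd_mul_right _ _
    obtain ⟨k, hk⟩ := inner_character_nat (isCharacter_restrict χ.2.isCharacter' P) isCharacter_one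
    have hkS : ∑ x : P, (χ : G → ℂ) x = ((p ^ a : ℕ) : ℂ) * k := by
      have h := hk
      simp only [classInner, map_one, mul_one] at h
      rw [← h, hP, mul_inv_cancel_left₀ (Nat.cast_ne_zero.2 (pow_ne_zero _ hp.ne_zero))]
    have hA : ∑ x : P, θ (x : G) = (r : ℂ) * (χ : G → ℂ) 1 := by
      rw [Finset.sum_eq_single (1 : P)]
      · show ∑ ψ ∈ O, (ψ : G → ℂ) ((1 : P) : G) = _
        rw [hO, ← nsmul_eq_mul, ← Finset.sum_const]
        refine Finset.sum_congr rfl fun ψ hψ => ?_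
        obtain ⟨u, -, rfl⟩ := Finset.mem_image.1 hψ
        rw [htwa, OneMemClass.coe_one, one_pow]
      · intro x _ hx
        refine hvan _ ?_
        obtain ⟨j, -, hj⟩ := (Nat.dvd_prime_pow hp).1 (hP ▸ orderOf_dvd_natCard x)
        rw [Subgroup.orderOf_coe, hj]
        refine dvd_pow_self p fun h => hx (orderOf_eq_one_iff.1 ?_)
        rw [hj, h, pow_zero]
      · intro h; exact absurd (Finset.mem_univ _) h
    have hB : ∑ x : P, θ (x : G) = (r : ℂ) * (((p ^ a : ℕ) : ℂ) * k) := by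
      show ∑ x : P, ∑ ψ ∈ O, (ψ : G → ℂ) (x : G) = _
      rw [Finset.sum_comm, hO, ← nsmul_eq_mul, ← Finset.sum_const]
      refine Finset.sum_congr rfl fun ψ hψ => ?_
      obtain ⟨u, -, rfl⟩ := Finset.mem_image.1 hψ
      rw [← hkS]
      have hc' : (Nat.card P).Coprime (m u) := by
        rw [hP, Nat.coprime_comm]
        exact (hmc u).coprime_dvd_right (by rw [hNeq]; exact dvd_mul_right _ _)
      refine Fintype.sum_equiv (powCoprime hc') _ _ fun x => ?_
      rw [htwa]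
      rfl
    rw [hA, ← hd] at hB
    have := mul_left_cancel₀ (Nat.cast_ne_zero.2 hr0) hB
    exact ⟨k, by exact_mod_cast this⟩


end Cfsg.Agent.S4506
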