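import Cfsg.Statements.S4509
import Cfsg.Agent.Lib.BlockSelfCent

set_option autoImplicit false
open Cfsg
open scoped commutatorElement

namespace Cfsg.Agent.S4509

/-- Let the finite group G contain an element x of prime order p with C_G(x) = ⟨x⟩; let t be the number of conjugacy classes of elements of order p and 1 + n·p the number of subgroups of order p. Then G has a normal subgroup of order 1 + n·p if and only if either t = p − 1, or t < p − 1 and G″ ≠ G′. Moreover, if t = p − 1 then G′ has order 1 + n·p and G/G′ is cyclic of order p; and if t < p − 1 and G″ ≠ G′ then G″ has order 1 + n·p and G′ has order p·(1 + n·p). -/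
theorem result {G : Type*} [Group G] [Finite G] (p : ℕ) (hp : p.Prime) (x : G) (hx : orderOf x = p) (hC : Subgroup.centralizer ({x} : Set G) = Subgroup.zpowers x) (t : ℕ) (ht : Nat.card {C : ConjClasses G // ∃ g ∈ C.carrier, orderOf g = p} = t) (n : ℕ) (hn : Nat.card {H : Subgroup G // Nat.card H = p} = 1 + n * p) : ((∃ S : Subgroup G, S.Normal ∧ Nat.card S = 1 + n * p) ↔ (t = p - 1 ∨ (t < p - 1 ∧ derivedSeries G 2 ≠ derivedSeries G 1))) ∧ (t = p - 1 → Nat.card (commutator G) = 1 + n * p ∧ IsCyclic (G ⧸ commutator G) ∧ (commutator G).index = p) ∧ (t < p - 1 → derivedSeries G 2 ≠ derivedSeries G 1 → Nat.card (derivedSeries G 2) = 1 + n * p ∧ Nat.card (commutator G) = p * (1 + n * p)) := by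
  have : Fintype G := Fintype.ofFinite G
  have : Fact p.Prime := ⟨hp⟩
  obtain ⟨P, e, hPx, hP, hCP, he, ⟨D⟩, hepos, hte⟩ := CfsgLib.Block.selfcent_setup hx hC
  rw [ht] at hte
  have hp2 := hp.two_le
  have he1 : t = p - 1 ↔ e = 1 := by
    constructor
    · intro h
      rw [h] at hte
      exact Nat.eq_of_mul_eq_mul_left (by omega : 0 < p - 1) (by rw [mul_one]; exact hte)
    · intro h
      rw [h, mul_one] at hte
      exact hte
  have hsub : Nat.card {H : Subgroup G // Nat.card H = p} = 1 + n * p := hn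
  have htle : t ≤ p - 1 := by
    rw [← hte]; exact Nat.le_mul_of_pos_right t hepos
  have hA : t = p - 1 → Nat.card (commutator G) = 1 + n * p ∧
      IsCyclic (G ⧸ commutator G) ∧ (commutator G).index = p := by
    intro h
    obtain ⟨h1, h2⟩ := CfsgLib.Block.commutator_card_of_index hP hCP D he (he1.1 h)
    refine ⟨h1.trans hsub, ?_, h2⟩
    exact isCyclic_of_prime_card (p := p) h2
  have hB : t < p - 1 → derivedSeries G 2 ≠ derivedSeries G 1 →
      Nat.card (derivedSeries G 2) = 1 + n * p ∧
        Nat.card (commutator G) = p * (1 + n * p) := by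
    intro h hne
    rcases CfsgLib.Block.commutator_dichotomy hP hCP D he with ⟨hd, -, -⟩ | ⟨-, he', -⟩
    · rw [← hsub]
      exact CfsgLib.Block.second_derived_card hP hCP D he hd hne
    · exact absurd (he1.2 he') (by omega)
  refine ⟨⟨fun hS => ?_, fun h => ?_⟩, hA, hB⟩
  · obtain ⟨S, hSn, hScard⟩ := hS
    rcases htle.eq_or_lt with h | h
    · exact Or.inl h
    refine Or.inr ⟨h, fun heq => ?_⟩
    haveI := hSn
    have hSp : ¬ p ∣ Nat.card S := by
      rw [hScard, Nat.dvd_add_left (dvd_mul_left p n)]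
      exact hp.not_dvd_one
    rcases CfsgLib.Block.commutator_dichotomy hP hCP D he with ⟨hd, -, -⟩ | ⟨-, he', -⟩
    swap
    · exact absurd (he1.2 he') (by omega)
    -- the join of S and P is normal and contains the derived subgroup
    set N := Subgroup.normalizer ((P : Subgroup G) : Set G)
    have hle : ∀ A : Subgroup G, A ≤ Subgroup.normalizer (S : Set G) := fun A x _ => by
      rw [Subgroup.normalizer_eq_top_iff.2 hSn]; exact Subgroup.mem_top _
    have hdisj : ∀ A : Subgroup G, A ≤ N → A ⊓ S = ⊥ := by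
      intro A hA'
      rw [eq_bot_iff]
      intro y hy
      obtain ⟨h1, h2⟩ := Subgroup.mem_inf.1 hy
      exact CfsgLib.Block.eq_one_of_mem_normal_normalizer hP hCP hSp h2 (hA' h1)
    have htop : N ⊔ S = ⊤ := by
      refine CfsgLib.Core.eq_top_of_card_ge (le_of_eq ?_)
      rw [CfsgLib.Core.card_sup_of_disjoint (hle N) (hdisj N le_rfl), hScard, ← hsub,
        CfsgLib.Block.card_order_p_subgroups hP hCP, mul_comm, Subgroup.index_mul_card]
    haveI hHn : ((P : Subgroup G) ⊔ S).Normal := by
      refine ⟨fun y hy g => ?_⟩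
      obtain ⟨a, ha, s, hs, rfl⟩ :=
        (CfsgLib.Core.mem_sup_iff_of_le_normalizer (hle N) (x := g)).1
          (htop ▸ Subgroup.mem_top g)
      obtain ⟨b, hb, r, hr, rfl⟩ :=
        (CfsgLib.Core.mem_sup_iff_of_le_normalizer (hle (P : Subgroup G))).1 hy
      have h1 : a * s * (b * r) * (a * s)⁻¹ =
          (a * b * a⁻¹) * (a * ((b⁻¹ * s * b) * r * s⁻¹) * a⁻¹) := by group
      rw [h1]
      refine Subgroup.mul_mem_sup ((Subgroup.mem_normalizer_iff.1 ha b).1 hb) ?_
      refine hSn.conj_mem _ (mul_mem (mul_mem ?_ hr) (inv_mem hs)) a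
      have := hSn.conj_mem s hs b⁻¹
      rwa [inv_inv] at this
    have hcH : commutator G ≤ (P : Subgroup G) ⊔ S :=
      CfsgLib.Block.commutator_le_of_dvd hP hCP
        (Dvd.dvd.trans (by rw [hP]) (Subgroup.card_dvd_of_le le_sup_left)) D
    have h2S : derivedSeries G 2 ≤ S := by
      rw [show derivedSeries G 2 = ⁅derivedSeries G 1, derivedSeries G 1⁆ from rfl,
        derivedSeries_one, Subgroup.commutator_le]
      intro g hg k hk
      obtain ⟨a, ha, s, hs, rfl⟩ :=
        (CfsgLib.Core.mem_sup_iff_of_le_normalizer (hle (P : Subgroup G))).1 (hcH hg)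
      obtain ⟨b, hb, r, hr, rfl⟩ :=
        (CfsgLib.Core.mem_sup_iff_of_le_normalizer (hle (P : Subgroup G))).1 (hcH hk)
      rw [← QuotientGroup.eq_one_iff]
      rw [show ((⁅a * s, b * r⁆ : G) : G ⧸ S) = ⁅((a * s : G) : G ⧸ S), ((b * r : G) : G ⧸ S)⁆ from
        map_commutatorElement (QuotientGroup.mk' S) _ _, commutatorElement_eq_one_iff_mul_comm]
      rw [QuotientGroup.mk_mul, QuotientGroup.mk_mul, (QuotientGroup.eq_one_iff s).2 hs,
        (QuotientGroup.eq_one_iff r).2 hr, mul_one, mul_one, ← QuotientGroup.mk_mul,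
        ← QuotientGroup.mk_mul]
      have hab : a * b = b * a := by
        rw [← hCP] at ha
        exact (Subgroup.mem_centralizer_iff.1 ha b hb).symm
      rw [hab]
    rw [heq, derivedSeries_one] at h2S
    exact hSp (hd.trans (Subgroup.card_dvd_of_le h2S))
  · rcases h with h | ⟨h, hne⟩
    · exact ⟨commutator G, inferInstance, (hA h).1⟩
    · exact ⟨derivedSeries G 2, derivedSeries_normal G 2, (hB h hne).1⟩

end Cfsg.Agent.S4509
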