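import Cfsg.Statements.S4510
import Cfsg.Agent.Lib.BlockClassDefect

set_option autoImplicit false
open Cfsg
open CfsgLib.Block CfsgLib.Char
open scoped Classical


namespace Cfsg.Agent.S4510

/-- Let G be a finite group, p a prime, M a maximal ideal of the algebraic integers containing p, and call the defect of a conjugacy class the exponent of p in the order of the centralizer of its elements. Two irreducible characters lying in p-blocks of defect exactly d lie in the same block if and only if their central characters (class size times χ(x)/χ(1)) agree modulo the local ideal at M at every p-regular element x whose class has defect exactly d. -/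
theorem result {G : Type*} [Group G] [Finite G] (p : ℕ) [Fact p.Prime] (M : Ideal Cfsg.AlgInt) (hM : Cfsg.IsPModular p M) (d : ℕ) (χ ψ : Cfsg.IrrCharacter G) (hχ : Cfsg.blockDefect p (Cfsg.blockOf M (χ : G → ℂ)) = d) (hψ : Cfsg.blockDefect p (Cfsg.blockOf M (ψ : G → ℂ)) = d) : Cfsg.SameBlock M (χ : G → ℂ) (ψ : G → ℂ) ↔ ∀ x : G, ¬ p ∣ orderOf x → (Nat.card (Subgroup.centralizer ({x} : Set G))).factorization p = d → Cfsg.MemLocalIdeal M (Cfsg.centralChar (χ : G → ℂ) x - Cfsg.centralChar (ψ : G → ℂ) x) := by
  haveI := Fintype.ofFinite G
  constructor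
  · exact fun h x _ _ => h x
  intro h
  have hB := isPBlock_blockOf (M := M) χ
  have key : ev hM ψ (bIdem hM hB) = ev hM χ (bIdem hM hB) := by
    rw [ev_eq_sum, ev_eq_sum]
    refine Finset.sum_congr rfl fun C _ => ?_
    by_cases he : cred hM (bIdem hM hB) (Quotient.out C) = 0
    · rw [he, zero_mul, zero_mul]
    congr 1
    have h1 : classDefect p (Quotient.out C) ≤ d := hχ ▸ classDefect_le_blockDefect hM hB he
    by_cases heq : classDefect p (Quotient.out C) = d
    · rw [eq_comm, ev_cl, ev_cl, res_eq_res_iff]
      have h2 := h _ (fun h' => he (cred_bIdem_singular hM hB h')) heq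
      exact h2
    · have hz : ∀ θ : IrrCharacter G, blockDefect p (blockOf M (θ : G → ℂ)) = d →
          ev hM θ (cl hM (Quotient.out C)) = 0 := fun θ hθ => by
        by_contra hne
        have := blockDefect_le_classDefect hM (isPBlock_blockOf θ) (mem_blockOf_self hM θ) hne
        omega
      rw [hz χ hχ, hz ψ hψ]
  have hmem : ψ ∈ blockOf M (χ : G → ℂ) := by
    haveI := nontrivial_resField hM
    by_contra hn
    rw [ev_bIdem, ev_bIdem, if_neg hn, if_pos (mem_blockOf_self hM χ)] at key
    exact zero_ne_one key
  exact hmem

end Cfsg.Agent.S4510
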