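import Cfsg.Statements.S4512
import Cfsg.Agent.Lib.BlockKleinPrincipal
import Cfsg.Agent.Lib.BlockCoverUnique
import Cfsg.Agent.Lib.BlockRank
-- import your own Cfsg.Agent.* helpers here

set_option autoImplicit false
open Cfsg

namespace Cfsg.Agent.S4512

open CfsgLib.Block CfsgLib.Char
open scoped Classical

universe u

variable {G : Type u} [Group G] [Fintype G]

/-- A singular element takes the value of its involution on the principal block. -/
theorem apply_singular (M : Ideal AlgInt) (hM : IsPModular 2 M) (P : Sylow 2 G)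
    (hK : IsKleinFour (P : Subgroup G))
    (hone : ∀ s t : G, orderOf s = 2 → orderOf t = 2 → IsConj s t)
    {χ : IrrCharacter G} (hχ : χ ∈ principalBlock M G) {g : G} (hg : 2 ∣ orderOf g) :
    ∃ z : G, orderOf z = 2 ∧ (χ : G → ℂ) g = (χ : G → ℂ) z := by
  haveI : Fact (Nat.Prime 2) := ⟨Nat.prime_two⟩
  -- the order of g is twice an odd number
  obtain ⟨a, m, hm, hn⟩ := Nat.exists_eq_two_pow_mul_odd (n := orderOf g) (orderOf_pos g).ne'
  have hm0 : m ≠ 0 := hm.pos.ne'
  have hom : orderOf (g ^ m) = 2 ^ a := by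
    rw [orderOf_pow_of_dvd hm0 ⟨2 ^ a, by rw [hn, mul_comm]⟩, hn, Nat.mul_div_cancel _ hm.pos]
  have ha : a = 1 := by
    have ha0 : a ≠ 0 := by
      rintro rfl
      rw [pow_zero, one_mul] at hn
      rw [hn] at hg
      exact Nat.not_even_iff_odd.2 hm (even_iff_two_dvd.2 hg)
    obtain ⟨Q, hQ⟩ := (IsPGroup.of_card (p := 2) (G := Subgroup.zpowers (g ^ m))
      (by rw [Nat.card_zpowers]; exact hom)).exists_le_sylow
    have hiso := P.equiv Q
    have h2 : orderOf (g ^ m) ∣ 2 := by
      rw [← Subgroup.orderOf_mk _ (hQ (Subgroup.mem_zpowers (g ^ m))),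
        ← MulEquiv.orderOf_eq hiso.symm]
      exact orderOf_dvd_of_pow_eq_one (by rw [pow_two]; exact IsKleinFour.mul_self _)
    rw [hom] at h2
    have h3 := Nat.le_of_dvd two_pos h2
    have h4 : a < 2 := by
      by_contra h
      have := Nat.pow_le_pow_right two_pos (not_lt.1 h)
      omega
    omega
  rw [ha, pow_one] at hom hn
  -- move the involution into P
  obtain ⟨z, hzP, hz1⟩ : ∃ z ∈ (P : Subgroup G), z ≠ 1 := by
    by_contra h
    push Not at h
    have := hK.card_four
    rw [(Subgroup.eq_bot_iff_forall _).2 h, Subgroup.card_bot] at this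
    omega
  have hz2 : orderOf z = 2 := CfsgLib.Invol.klein_orderOf hK hzP hz1
  obtain ⟨c, hc⟩ := isConj_iff.1 (hone (g ^ m) z hom hz2)
  set g' := c * g * c⁻¹
  have hgm : g' ^ m = z := by rw [← hc, conj_pow]
  have hgo : orderOf g' = 2 * m := hn ▸ orderOf_injective (MulAut.conj c).toMonoidHom
    (MulAut.conj c).injective g
  refine ⟨z, hz2, ?_⟩
  rw [← isCharacter_classFunction χ.2.isCharacter' g c]
  show (χ : G → ℂ) g' = _
  have hs : g' ^ (m + 1) ∈ Subgroup.centralizer ({z} : Set G) := by
    rw [Subgroup.mem_centralizer_singleton_iff, ← hgm, ← pow_add, ← pow_add, add_comm]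
  set y : Subgroup.centralizer ({z} : Set G) := ⟨g' ^ (m + 1), hs⟩
  have hprod : z * (y : G) = g' := by
    show z * g' ^ (m + 1) = g'
    rw [← hgm, ← pow_add, show m + (m + 1) = 2 * m + 1 by omega, pow_succ, ← hgo,
      pow_orderOf_eq_one, one_mul]
  have hy : ¬ 2 ∣ orderOf y := by
    intro h2
    have hym : y ^ m = 1 := Subtype.ext (by
      show (g' ^ (m + 1)) ^ m = 1
      rw [← pow_mul]
      refine orderOf_dvd_iff_pow_eq_one.1 ?_
      rw [hgo]
      obtain ⟨t, ht⟩ := hm
      exact ⟨t + 1, by subst ht; ring⟩)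
    exact Nat.not_even_iff_odd.2 hm
      (even_iff_two_dvd.2 (h2.trans (orderOf_dvd_of_pow_eq_one hym)))
  have hzk : ∃ k, orderOf z = 2 ^ k := ⟨1, by rw [hz2, pow_one]⟩
  obtain ⟨⟨k, hk⟩, -⟩ := klein_centralizer_core P hK hzP hz2
  haveI hKn : (pPrimeCore 2 (Subgroup.centralizer ({z} : Set G))).Normal := CfsgLib.Core.normal_pPrimeCore 2
  have hyK : y ∈ pPrimeCore 2 (Subgroup.centralizer ({z} : Set G)) := by
    have h1 : orderOf (QuotientGroup.mk' (pPrimeCore 2 (Subgroup.centralizer ({z} : Set G))) y) ∣ 2 ^ k := by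
      rw [← hk, Subgroup.index_eq_card]
      exact orderOf_dvd_natCard _
    have h3 : Nat.Coprime (2 ^ k) (orderOf y) :=
      (Nat.prime_two.coprime_iff_not_dvd.2 hy).pow_left k
    exact (QuotientGroup.eq_one_iff y).1
      (orderOf_eq_one_iff.1 (Nat.eq_one_of_dvd_coprimes h3 h1 (orderOf_map_dvd (QuotientGroup.mk' (pPrimeCore 2 (Subgroup.centralizer ({z} : Set G)))) y)))
  have h1r : ¬ 2 ∣ orderOf (1 : (Subgroup.centralizer ({z} : Set G))) := by simp
  have e1 := apply_mul_eq_sum_secSet hM hzk (isPBlock_principal (G := G) M) hχ y hy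
  have e2 := apply_mul_eq_sum_secSet hM hzk (isPBlock_principal (G := G) M) hχ 1 h1r
  rw [secSet_principal hM hzk] at e1 e2
  rw [OneMemClass.coe_one, mul_one] at e2
  rw [hprod] at e1
  rw [e1, e2]
  refine Finset.sum_congr rfl fun ξ _ => ?_
  by_cases hξ : ξ ∈ principalBlock M (Subgroup.centralizer ({z} : Set G))
  · rw [apply_eq_of_principal hM (CfsgLib.Core.not_dvd_card_pPrimeCore 2) hξ hyK]
  · simp [indVal, hξ]

/-- The rank of a four element principal block with one relation. -/
theorem rank_three (M : Ideal AlgInt) (hM : IsPModular 2 M) (P : Sylow 2 G)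
    (hK : IsKleinFour (P : Subgroup G))
    (hone : ∀ s t : G, orderOf s = 2 → orderOf t = 2 → IsConj s t) :
    blockRank 2 (principalBlock M G) = 3 := by
  obtain ⟨ζ₂, ζ₃, ζ₄, ε, hε, h2, h3, h23, h24, h34, hB, hval, -, -, h4d, hrel⟩ :=
    klein_principal_block M hM P hK hone
  have h4 : (ζ₄ : G → ℂ) ≠ fun _ => 1 := by
    intro h
    have := charDegree_triv (G := G)
    rw [show ((trivIrr G : IrrCharacter G) : G → ℂ) = ζ₄ from h.symm] at this
    rw [this] at h4d
    omega
  let v : Fin 4 → IrrCharacter G := ![trivIrr G, ζ₂, ζ₃, ζ₄]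
  have hne : ∀ {ζ : IrrCharacter G}, (ζ : G → ℂ) ≠ (fun _ => 1) → ζ ≠ trivIrr G := fun h e =>
    h (by rw [e]; rfl)
  have hinj : Function.Injective v := by
    intro i j hij
    fin_cases i <;> fin_cases j <;>
      simp [v, hne h2, hne h3, hne h4, (hne h2).symm, (hne h3).symm, (hne h4).symm, h23, h24, h34,
        h23.symm, h24.symm, h34.symm] at hij ⊢
  have hrange : principalBlock M G = Set.range v := by
    rw [hB]
    ext χ
    constructor
    · rintro (h | rfl | rfl | rfl)
      · exact ⟨0, (Subtype.ext h).symm⟩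
      exacts [⟨1, rfl⟩, ⟨2, rfl⟩, ⟨3, rfl⟩]
    · rintro ⟨i, rfl⟩
      fin_cases i
      · exact Or.inl rfl
      all_goals simp [v]
  have hmem : ∀ i, v i ∈ principalBlock M G := fun i => hrange ▸ Set.mem_range_self i
  let L : (Fin 4 → ℂ) →ₗ[ℂ] (G → ℂ) :=
    Fintype.linearCombination ℂ (fun i => pRegularPart 2 (v i : G → ℂ))
  have hblock : blockRank 2 (principalBlock M G) = Module.finrank ℂ (LinearMap.range L) := by
    rw [blockRank, Fintype.range_linearCombination, hrange, ← Set.range_comp]
    rfl
  obtain ⟨z, hzP, hz1⟩ : ∃ z ∈ (P : Subgroup G), z ≠ 1 := by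
    by_contra h
    push Not at h
    have := hK.card_four
    rw [(Subgroup.eq_bot_iff_forall _).2 h, Subgroup.card_bot] at this
    omega
  have hz2 : orderOf z = 2 := CfsgLib.Invol.klein_orderOf hK hzP hz1
  let c : (Fin 4 → ℂ) →ₗ[ℂ] ℂ := Fintype.linearCombination ℂ (fun i => (v i : G → ℂ) z)
  have hker : Module.finrank ℂ (LinearMap.ker L) = 1 := by
    refine le_antisymm ?_ ?_
    · have hinjc : Function.Injective (c.comp (LinearMap.ker L).subtype) := by
        rw [injective_iff_map_eq_zero]
        rintro ⟨a, ha⟩ hca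
        simp only [LinearMap.comp_apply, Submodule.subtype_apply, c,
          Fintype.linearCombination_apply, smul_eq_mul] at hca
        have hzero : ∀ g : G, ∑ i, a i * (v i : G → ℂ) g = 0 := by
          intro g
          by_cases hg : 2 ∣ orderOf g
          · refine Eq.trans (Finset.sum_congr rfl fun i _ => ?_) hca
            obtain ⟨w, hw, he⟩ := apply_singular M hM P hK hone (hmem i) hg
            obtain ⟨d, hd⟩ := isConj_iff.1 (hone z w hz2 hw)
            rw [he, ← hd, isCharacter_classFunction (v i).2.isCharacter' z d]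
          · have h := congrFun ha g
            simp only [L, Fintype.linearCombination_apply, Finset.sum_apply, Pi.smul_apply,
              smul_eq_mul, pRegularPart, IsPRegular, Pi.zero_apply] at h
            simpa [hg] using h
        have hli := (irr_linearIndependent (G := G)).comp v hinj
        rw [Fintype.linearIndependent_iff] at hli
        refine Subtype.ext (funext fun i => hli a ?_ i)
        exact funext fun g => by simpa [Finset.sum_apply] using hzero g
      have := LinearMap.finrank_le_finrank_of_injective hinjc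
      rwa [Module.finrank_self] at this
    · have hmemk : (![1, 1, (ε : ℂ), -1] : Fin 4 → ℂ) ∈ LinearMap.ker L := by
        rw [LinearMap.mem_ker]
        funext g
        simp only [L, Fintype.linearCombination_apply, Finset.sum_apply, Pi.smul_apply,
          smul_eq_mul, pRegularPart, IsPRegular, Pi.zero_apply, Fin.sum_univ_four, v]
        by_cases hg : 2 ∣ orderOf g
        · simp [hg]
        · have h := hrel g (Nat.not_even_iff_odd.1 fun h => hg (even_iff_two_dvd.1 h))
          simp [hg, trivIrr]
          linear_combination h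
      haveI : Nontrivial (LinearMap.ker L) :=
        ⟨⟨_, hmemk⟩, 0, fun h => one_ne_zero (α := ℂ)
          (congrFun (congrArg Subtype.val h) 0)⟩
      exact Module.finrank_pos
  have := LinearMap.finrank_range_add_finrank_ker L
  rw [hker, Module.finrank_fin_fun, ← hblock] at this
  omega


/-- If G is a finite group with a Sylow 2-subgroup that is a Klein four-group and a single conjugacy class of involutions, then its principal 2-block (relative to a maximal ideal M of the algebraic integers containing 2) has 2-regular rank 3: the restrictions of its irreducible characters to the elements of odd order span a space of dimension 3 (it has three irreducible Brauer characters). -/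
theorem result {G : Type*} [Group G] [Finite G] (M : Ideal Cfsg.AlgInt) (hM : Cfsg.IsPModular 2 M) (P : Sylow 2 G)
    (hP : Nat.card P = 4) (hexp : ∀ x : P, x * x = 1)
    (hone : ∀ s t : G, orderOf s = 2 → orderOf t = 2 → IsConj s t) :
    Cfsg.blockRank 2 (Cfsg.principalBlock M G) = 3 := by
  have : Fintype G := Fintype.ofFinite G
  haveI : Fact (Nat.Prime 2) := ⟨Nat.prime_two⟩
  haveI : Nontrivial P := Finite.one_lt_card_iff_nontrivial.1 (by rw [hP]; norm_num)
  refine rank_three M hM P ⟨hP, ?_⟩ hone
  exact Monoid.exponent_eq_prime_iff Nat.prime_two |>.2 fun g hg1 =>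
    orderOf_eq_prime (by rw [pow_two]; exact hexp g) hg1

end Cfsg.Agent.S4512
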