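import Cfsg.Statements.S4513
import Cfsg.Agent.Lib.BlockDefectTwo
import Cfsg.Agent.Lib.BlockQuadForm
import Cfsg.Agent.Lib.BlockSectionVal

set_option autoImplicit false
open Cfsg
open CfsgLib.Block CfsgLib.Char
open scoped Classical


namespace Cfsg.Agent.S4513

/-- Blocks of defect one for p = 2. Let M be a maximal ideal of the algebraic integers containing 2, B a 2-block of the finite group G whose defect group is the subgroup generated by an involution x, C = C_G(x), b a block of C inducing B and θ a member of b taking the same value at x as at 1 (there is exactly one). Then B consists of exactly two irreducible characters, which agree on every element of odd order, and they can be labelled χ₁, χ₂ with signs ε₁, ε₂ = ±1, ε₁ε₂ = −1, such that χᵢ(x y) = εᵢ θ(y) for every element y of C of odd order. -/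
theorem result {G : Type*} [Group G] [Finite G] (M : Ideal Cfsg.AlgInt) (hM : Cfsg.IsPModular 2 M) (x : G) (hx : orderOf x = 2)
    (B : Set (Cfsg.IrrCharacter G)) (hB : Cfsg.IsPBlock M B) (hBD : Cfsg.IsDefectGroup 2 M B (Subgroup.zpowers x))
    (b : Set (Cfsg.IrrCharacter ↥(Subgroup.centralizer ({x} : Set G)))) (hb : Cfsg.IsInducedBlock M (Subgroup.centralizer ({x} : Set G)) b B)
    (θ : Cfsg.IrrCharacter ↥(Subgroup.centralizer ({x} : Set G))) (hθ : θ ∈ b)
    (hθx : ∀ z : ↥(Subgroup.centralizer ({x} : Set G)), (z : G) = x → (θ : ↥(Subgroup.centralizer ({x} : Set G)) → ℂ) z = (θ : ↥(Subgroup.centralizer ({x} : Set G)) → ℂ) 1) :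
    Nat.card B = 2 ∧ (∀ χ ∈ B, ∀ ψ ∈ B, ∀ g : G, ¬ 2 ∣ orderOf g → (χ : G → ℂ) g = (ψ : G → ℂ) g) ∧
      ∃ χ₁ ∈ B, ∃ χ₂ ∈ B, χ₁ ≠ χ₂ ∧ ∃ ε₁ ε₂ : ℤ, (ε₁ = 1 ∨ ε₁ = -1) ∧ (ε₂ = 1 ∨ ε₂ = -1) ∧ ε₁ * ε₂ = -1 ∧
        ∀ y : ↥(Subgroup.centralizer ({x} : Set G)), ¬ 2 ∣ orderOf y →
          (χ₁ : G → ℂ) (x * y) = (ε₁ : ℂ) * (θ : ↥(Subgroup.centralizer ({x} : Set G)) → ℂ) y ∧ (χ₂ : G → ℂ) (x * y) = (ε₂ : ℂ) * (θ : ↥(Subgroup.centralizer ({x} : Set G)) → ℂ) y := by
  haveI := Fintype.ofFinite G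
  haveI : Fact (Nat.Prime 2) := ⟨Nat.prime_two⟩
  have hzc : Nat.card (Subgroup.zpowers x) = 2 := by rw [Nat.card_zpowers, hx]
  have hu : ∃ k, orderOf x = 2 ^ k := ⟨1, by rw [hx, pow_one]⟩
  obtain ⟨hk, hreg⟩ := two_block hM hB hBD hzc
  -- the inducing block has the same defect group
  have hbD : ∃ E : Subgroup (Subgroup.centralizer ({x} : Set G)), IsDefectGroup 2 M b E ∧ Nat.card E = 2 := by
    obtain ⟨E, hE⟩ := exists_defectGroup hM hb.1
    refine ⟨E, hE, ?_⟩
    obtain ⟨R, hR, hle⟩ := exists_defectGroup_ge_induced hM hb hE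
    have h1 : Nat.card E ≤ 2 := by
      have := Subgroup.card_le_of_le hle
      rw [Subgroup.card_subtype, card_defectGroup hM hB hR, ← card_defectGroup hM hB hBD, hzc] at this
      exact this
    haveI : ((Subgroup.zpowers x).subgroupOf (Subgroup.centralizer ({x} : Set G))).Normal := by
      constructor
      rintro n hn c
      rw [Subgroup.mem_subgroupOf] at hn ⊢
      obtain ⟨k, hk⟩ := Subgroup.mem_zpowers_iff.1 hn
      have hcx : Commute (c : G) x := Subgroup.mem_centralizer_singleton_iff.1 c.2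
      rw [Subgroup.coe_mul, Subgroup.coe_mul, Subgroup.coe_inv, ← hk, (hcx.zpow_right k).eq,
        mul_inv_cancel_right]
      exact Subgroup.zpow_mem_zpowers x k
    have hcard : Nat.card ((Subgroup.zpowers x).subgroupOf (Subgroup.centralizer ({x} : Set G))) = 2 :=
      (Nat.card_congr (Subgroup.subgroupOfEquivOfLe (zpowers_le_centralizer x)).toEquiv).trans hzc
    have h2 := Subgroup.card_le_of_le (normal_pGroup_le_defectGroup hM _
      (IsPGroup.of_card (n := 1) (by rw [hcard, pow_one])) hb.1 hE)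
    exact le_antisymm h1 (le_trans hcard.ge h2)
  obtain ⟨E, hE, hE2⟩ := hbD
  obtain ⟨hkb, hregb⟩ := two_block hM hb.1 hE hE2
  -- it is the only one
  have huniq : indBlocks M x B = {b} := by
    ext b'
    simp only [indBlocks, Finset.mem_filter, mem_allBlocks, Finset.mem_singleton]
    constructor
    · rintro ⟨hb', hind'⟩
      have hp1 := pairIn_of_induced hM hu hb
      have hp2 := pairIn_of_induced hM hu hind'
      obtain ⟨y, hy, he⟩ := (maxPair_of_defectGroup hp1 hBD).exists_conj_eq hp2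
      have hyC : y ∈ Subgroup.centralizer ({x} : Set G) := by
        rw [Subgroup.mem_centralizer_singleton_iff]
        have h := (Subgroup.mem_normalizer_iff.1 hy x).1 (Subgroup.mem_zpowers x)
        have hne : y * x * y⁻¹ ≠ 1 := fun h1 => by
          have : x = 1 := by
            have := mul_inv_eq_one.1 h1
            simpa using this
          rw [this, orderOf_one] at hx
          omega
        haveI : Fintype (Subgroup.zpowers x) := Fintype.ofFinite _
        obtain ⟨k, hk', hk⟩ : ∃ k < orderOf x, x ^ k = y * x * y⁻¹ := by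
          obtain ⟨n, hn⟩ := (mem_powers_iff_mem_zpowers (x := x)).2 h
          exact ⟨n % orderOf x, Nat.mod_lt _ (by omega), by rw [pow_mod_orderOf]; exact hn⟩
        rw [hx] at hk'
        interval_cases k
        · rw [pow_zero] at hk; exact absurd hk.symm hne
        · rw [pow_one] at hk; exact (mul_inv_eq_iff_eq_mul.1 hk.symm)
      rw [cnj_eq_self_of_invBy (IsBlockFn.invBy (hM := hM) (H := (Subgroup.centralizer ({x} : Set G))) ⟨b, hb.1, rfl⟩) hyC] at he
      exact (bFn_injOn hM (Subgroup.centralizer ({x} : Set G)) hb.1 hb' he).symm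
    · rintro rfl
      exact ⟨hb.1, hb⟩
  have hx1 : ∀ z : IrrCharacter (Subgroup.centralizer ({x} : Set G)), ∃ c : ℤ, centVal z (qElt x) = c := fun z => by
    have h := (centVal_spec z (qElt_center x)).1
    rw [show orderOf (qElt x) = 2 by rw [← Subgroup.orderOf_coe]; exact hx] at h
    rcases sq_eq_one_iff.1 h with e | e
    · exact ⟨1, by rw [e]; norm_num⟩
    · exact ⟨-1, by rw [e]; norm_num⟩
  choose c hc using hx1
  set a : IrrCharacter G → ℤ := fun χ => ∑ z ∈ blkFin b, c z * (qMult x χ z : ℤ) with ha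
  have hval : ∀ χ ∈ B, ∀ y : (Subgroup.centralizer ({x} : Set G)), ¬ 2 ∣ orderOf y →
      (χ : G → ℂ) (x * y) = (a χ : ℂ) * (θ : (Subgroup.centralizer ({x} : Set G)) → ℂ) y := by
    intro χ hχ y hy
    rw [apply_mul_eq_sum_parts hM hB hχ hu hy, huniq, Finset.sum_singleton, secPart_apply, ← sum_blkFin,
      ha, Int.cast_sum, Finset.sum_mul]
    refine Finset.sum_congr rfl fun z hz => ?_
    rw [hc z, hregb z (mem_blkFin.1 hz) θ hθ y hy]
    push_cast
    ring
  have hone : ¬ 2 ∣ orderOf (1 : (Subgroup.centralizer ({x} : Set G))) := by rw [orderOf_one]; norm_num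
  have hθ1 : (θ : (Subgroup.centralizer ({x} : Set G)) → ℂ) 1 ≠ 0 := irr_one_ne_zero θ
  have hs : ∑ χ ∈ blkFin B, a χ ^ 2 = 2 := by
    have h := qCoef_col (B := B) hM hB hb hu hone hone
    rw [← sum_blkFin] at h
    have hL : ∀ χ ∈ blkFin B, secPart x b χ 1 * starRingEnd ℂ (secPart x b χ 1) =
        ((a χ ^ 2 : ℤ) : ℂ) * ((θ : (Subgroup.centralizer ({x} : Set G)) → ℂ) 1 * (θ : (Subgroup.centralizer ({x} : Set G)) → ℂ) 1) := by
      intro χ hχ
      have e := hval χ (mem_blkFin.1 hχ) 1 hone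
      rw [apply_mul_eq_sum_parts hM hB (mem_blkFin.1 hχ) hu hone, huniq, Finset.sum_singleton] at e
      rw [e, map_mul, irr_conj_one, map_intCast]
      push_cast
      ring
    rw [Finset.sum_congr rfl hL, ← Finset.sum_mul,
      Finset.sum_congr rfl (fun z hz => by
        rw [hregb z (mem_blkFin.1 hz) θ hθ 1 hone, irr_conj_one] :
        ∀ z ∈ blkFin b, (z : (Subgroup.centralizer ({x} : Set G)) → ℂ) 1 * starRingEnd ℂ ((z : (Subgroup.centralizer ({x} : Set G)) → ℂ) 1) = (θ : (Subgroup.centralizer ({x} : Set G)) → ℂ) 1 * (θ : (Subgroup.centralizer ({x} : Set G)) → ℂ) 1),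
      Finset.sum_const, nsmul_eq_mul,
      show (blkFin b).card = 2 by
        rw [blkFin, ← Fintype.card_subtype, ← Nat.card_eq_fintype_card]; exact hkb] at h
    have h2 := mul_right_cancel₀ (mul_ne_zero hθ1 hθ1) h
    exact_mod_cast h2
  obtain ⟨χ₁, χ₂, hne, hBe⟩ : ∃ χ₁ χ₂, χ₁ ≠ χ₂ ∧ blkFin B = {χ₁, χ₂} :=
    Finset.card_eq_two.1 (by rw [blkFin, ← Fintype.card_subtype, ← Nat.card_eq_fintype_card]; exact hk)
  have h1 : χ₁ ∈ B := mem_blkFin.1 (by rw [hBe]; simp)
  have h2 : χ₂ ∈ B := mem_blkFin.1 (by rw [hBe]; simp)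
  rw [hBe, Finset.sum_pair hne] at hs
  have hsum : a χ₁ + a χ₂ = 0 := by
    have hz := block_sum_regular_singular hM hB (x := (1 : G)) (y := x)
      (by rw [orderOf_one]; norm_num) (by rw [hx])
    simp only [mul_assoc] at hz
    rw [← sum_blkFin, hBe, Finset.sum_pair hne] at hz
    have e1 := hval χ₁ h1 1 hone
    have e2 := hval χ₂ h2 1 hone
    simp only [OneMemClass.coe_one, mul_one] at e1 e2
    rw [e1, e2, hreg χ₁ h1 χ₂ h2 1 (by rw [orderOf_one]; norm_num), map_mul, map_mul, irr_conj_one,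
      map_intCast, map_intCast] at hz
    have : ((a χ₁ + a χ₂ : ℤ) : ℂ) * ((χ₂ : G → ℂ) 1 * (θ : (Subgroup.centralizer ({x} : Set G)) → ℂ) 1) = 0 := by
      push_cast
      linear_combination hz
    exact_mod_cast (mul_eq_zero.1 this).resolve_right (mul_ne_zero (irr_one_ne_zero χ₂) hθ1)
  have ha2 : a χ₁ ^ 2 = 1 := by
    have : a χ₂ = - a χ₁ := by omega
    rw [this] at hs
    linarith
  refine ⟨hk, hreg, χ₁, h1, χ₂, h2, hne, a χ₁, a χ₂, sq_eq_one_iff.1 ha2, ?_, ?_,
    fun y hy => ⟨hval χ₁ h1 y hy, hval χ₂ h2 y hy⟩⟩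
  · rcases sq_eq_one_iff.1 ha2 with e | e
    · exact Or.inr (by omega)
    · exact Or.inl (by omega)
  · rw [show a χ₂ = - a χ₁ by omega]; linarith

end Cfsg.Agent.S4513
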