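import Cfsg.Statements.S4633
import Cfsg.Agent.Lib.BlockPairLocal
import Cfsg.Agent.Lib.BlockInducedDefect
import Mathlib.GroupTheory.SpecificGroups.Cyclic
import Mathlib.RingTheory.IntegralDomain

set_option autoImplicit false
open Cfsg
open CfsgLib.Block CfsgLib.Char

namespace Cfsg.Agent.S4633

/-- Let B be a block of the finite group G relative to a maximal ideal M of the algebraic integers containing the prime p, with a nontrivial cyclic defect group P. Let c be a block of C_G(P) inducing B and T the stabilizer of c in N_G(P) (the elements of N_G(P) conjugating c to itself); T contains C_G(P). Then T/C_G(P) is cyclic of order dividing p − 1, and it acts freely on the non-identity elements of P: an element of T fixing some non-identity element of P under conjugation lies in C_G(P). -/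
theorem result {G : Type*} [Group G] [Finite G] (p : ℕ) [Fact p.Prime] (M : Ideal Cfsg.AlgInt) (hM : Cfsg.IsPModular p M) (B : Set (Cfsg.IrrCharacter G)) (hB : Cfsg.IsPBlock M B) (P : Subgroup G) (hPD : Cfsg.IsDefectGroup p M B P) (hP1 : P ≠ ⊥) (hcyc : IsCyclic P) (c : Set (Cfsg.IrrCharacter (Subgroup.centralizer (P : Set G)))) (hc : Cfsg.IsInducedBlock M (Subgroup.centralizer (P : Set G)) c B) (T : Subgroup G) (hT : ∀ g : G, g ∈ T ↔ (g ∈ Subgroup.normalizer (P : Set G) ∧ Cfsg.StabilizesBlock (Subgroup.centralizer (P : Set G)) c g)) [hn : ((Subgroup.centralizer (P : Set G)).subgroupOf T).Normal] : IsCyclic (T ⧸ (Subgroup.centralizer (P : Set G)).subgroupOf T) ∧ (Subgroup.centralizer (P : Set G)).relIndex T ∣ p - 1 ∧ ∀ g ∈ T, ∀ x ∈ P, x ≠ 1 → g * x * g⁻¹ = x → g ∈ Subgroup.centralizer (P : Set G) := by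
  classical
  haveI := Fintype.ofFinite G
  haveI := Fintype.ofFinite ↥(Subgroup.centralizer (P : Set G))
  have hPp : IsPGroup p P := isPGroup_defectGroup hM hB hPD
  haveI := hcyc
  obtain ⟨⟨u, huP⟩, hu⟩ := IsCyclic.exists_generator (α := P)
  have hgen : ∀ x ∈ P, ∃ i : ℤ, u ^ i = x := fun x hx => by
    obtain ⟨i, hi⟩ := hu ⟨x, hx⟩
    exact ⟨i, congrArg Subtype.val hi⟩
  have hPC : P ≤ Subgroup.centralizer (P : Set G) := fun x hx =>
    Subgroup.mem_centralizer_iff.2 fun y hy => by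
      obtain ⟨i, rfl⟩ := hgen x hx
      obtain ⟨j, rfl⟩ := hgen y hy
      rw [← zpow_add, ← zpow_add, add_comm]
  set ψ := bFn hM (Subgroup.centralizer (P : Set G)) c with hψ
  have hblk : IsBlockFn hM (Subgroup.centralizer (P : Set G)) ψ := ⟨c, hc.1, rfl⟩
  have hpf : PairFn hM P ψ := ⟨hPp, hblk⟩
  have hpair : PairIn hM B P ψ := ⟨hpf, hB, gconv_trc_of_induced hM hc hPC le_rfl hpf (by
    rw [trc_self_of_blockFn hblk, hblk.mul_self])⟩
  have hmax : MaxPair hM B P ψ := maxPair_of_defectGroup hpair hPD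
  obtain ⟨n, hn⟩ := hPp.exists_card_eq
  have hn0 : n ≠ 0 := fun e => hP1 (Subgroup.card_eq_one.1 (by rw [hn, e, pow_zero]))
  have huo : orderOf u = p ^ n := by
    rw [← hn, ← orderOf_eq_card_of_forall_mem_zpowers hu, Subgroup.orderOf_mk]
  -- fixing one element of `P` forces centralizing `P`
  have hfree : ∀ g ∈ T, ∀ x ∈ P, x ≠ 1 → g * x * g⁻¹ = x →
      g ∈ Subgroup.centralizer (P : Set G) := by
    intro g hg x hx hx1 hfix
    obtain ⟨hgN, hgS⟩ := (hT g).1 hg
    have hcnj : cnj g ψ = ψ := ((stabilizesBlock_iff hM hc.1 g).1 hgS).2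
    set a := (orderOf g).factorization p with ha
    set r := orderOf g / p ^ a with hr
    have hgo : p ^ a * r = orderOf g := Nat.ordProj_mul_ordCompl_eq_self _ _
    have hpr : ¬ p ∣ r := Nat.not_dvd_ordCompl (Fact.out : p.Prime) (orderOf_pos g).ne'
    have h1 : g ^ r ∈ Subgroup.centralizer (P : Set G) := by
      have hfixr : cnj (g ^ r) ψ = ψ := by
        induction r with
        | zero => rw [pow_zero, cnj_one]
        | succ j ih => rw [pow_succ, ← cnj_cnj, hcnj, ih]
      have := pElement_stab_mem hmax (u := g ^ r)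
        (let ⟨k, _, hk⟩ := (Nat.dvd_prime_pow (Fact.out : p.Prime)).1
          (orderOf_dvd_of_pow_eq_one (x := g ^ r) (n := p ^ a) (by
            rw [← pow_mul, mul_comm, hgo, pow_orderOf_eq_one]))
         ⟨k, hk⟩)
        (pow_mem hgN r) hfixr
      rwa [sup_eq_right.2 hPC] at this
    set h := g ^ (p ^ a) with hh
    have hhN : h ∈ Subgroup.normalizer (P : Set G) := pow_mem hgN _
    have hhr : h ^ r = 1 := by rw [hh, ← pow_mul, hgo, pow_orderOf_eq_one]
    have hhx : Commute h x := (Commute.pow_left (mul_inv_eq_iff_eq_mul.1 hfix) _)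
    obtain ⟨b, hb⟩ := hgen _ ((Subgroup.mem_normalizer_iff.1 hhN u).1 huP)
    -- the element of order `p`
    obtain ⟨i, hi⟩ := hgen x hx
    have hxo : ∃ j, j < n ∧ orderOf x = p ^ (j + 1) := by
      obtain ⟨j, hj⟩ := (Nat.dvd_prime_pow (Fact.out : p.Prime)).1
        (huo ▸ (hi ▸ orderOf_dvd_of_mem_zpowers (Subgroup.zpow_mem_zpowers u i)) :
          orderOf x ∣ p ^ n)
      rcases j with _ | j
      · exact absurd (orderOf_eq_one_iff.1 (by simpa using hj.2)) hx1
      · exact ⟨j, by omega, hj.2⟩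
    obtain ⟨j, hj, hxj⟩ := hxo
    have hz : orderOf (x ^ p ^ j) = p := by
      rw [orderOf_pow, hxj, pow_succ, Nat.gcd_mul_right_left, Nat.mul_div_cancel_left _
        (pow_pos (Fact.out : p.Prime).pos j)]
    have hb1 : (p : ℤ) ∣ b - 1 := by
      have e1 : h * x ^ p ^ j * h⁻¹ = x ^ p ^ j := by
        rw [(Commute.pow_right hhx _).eq]; group
      have e2 : h * x * h⁻¹ = x ^ b := by
        rw [← hi, ← conj_zpow, ← hb, ← zpow_mul, ← zpow_mul, mul_comm]
      have e3 : (x ^ p ^ j) ^ b = x ^ p ^ j := by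
        conv_rhs => rw [← e1, ← conj_pow, e2]
        rw [← zpow_natCast, ← zpow_natCast, ← zpow_mul, ← zpow_mul, mul_comm]
      have e4 : (x ^ p ^ j) ^ (b - 1) = 1 := by rw [zpow_sub_one, e3, mul_inv_cancel]
      have e5 := orderOf_dvd_iff_zpow_eq_one.2 e4
      rwa [hz] at e5
    have hpowh : ∀ i : ℕ, h ^ i * u * (h ^ i)⁻¹ = u ^ (b ^ i) := by
      intro i
      induction i with
      | zero => simp
      | succ i ih =>
        calc h ^ (i + 1) * u * (h ^ (i + 1))⁻¹ = h * (h ^ i * u * (h ^ i)⁻¹) * h⁻¹ := by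
              rw [pow_succ']; group
          _ = (h * u * h⁻¹) ^ (b ^ i) := by rw [ih, conj_zpow]
          _ = _ := by rw [← hb, ← zpow_mul, pow_succ']
    have hpn : Commute (h ^ p ^ (n - 1)) u := by
      have e0 : (p : ℤ) ^ ((n - 1) + 1) ∣ b ^ p ^ (n - 1) - 1 ^ p ^ (n - 1) :=
        dvd_sub_pow_of_dvd_sub hb1 (n - 1)
      rw [one_pow, Nat.sub_add_cancel (Nat.one_le_iff_ne_zero.2 hn0)] at e0
      have e1 := hpowh (p ^ (n - 1))
      have e2 : u ^ (b ^ p ^ (n - 1) - 1) = 1 :=
        orderOf_dvd_iff_zpow_eq_one.1 (by rw [huo]; exact_mod_cast e0)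
      rw [zpow_sub_one, mul_inv_eq_one] at e2
      rw [e2] at e1
      exact mul_inv_eq_iff_eq_mul.1 e1
    have hhu : Commute h u := by
      obtain ⟨m, hm⟩ := exists_pow_eq_self_of_coprime (n := p ^ (n - 1)) (x := h)
        (Nat.Coprime.pow_left _ (((Fact.out : p.Prime).coprime_iff_not_dvd).2 fun hd =>
          hpr (hd.trans (orderOf_dvd_of_pow_eq_one hhr))))
      rw [← hm]
      exact hpn.pow_left m
    have h2 : h ∈ Subgroup.centralizer (P : Set G) := Subgroup.mem_centralizer_iff.2 fun y hy => by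
      obtain ⟨i, rfl⟩ := hgen y hy
      exact (hhu.zpow_right i).eq.symm
    have hcop : Nat.Coprime (p ^ a) r :=
      Nat.Coprime.pow_left a (((Fact.out : p.Prime).coprime_iff_not_dvd).2 hpr)
    have hbez := Nat.gcd_eq_gcd_ab (p ^ a) r
    rw [hcop.gcd_eq_one] at hbez
    have e : g = (g ^ (p ^ a)) ^ Nat.gcdA (p ^ a) r * (g ^ r) ^ Nat.gcdB (p ^ a) r := by
      rw [← zpow_natCast g (p ^ a), ← zpow_natCast g r, ← zpow_mul, ← zpow_mul, ← zpow_add, ← hbez,
        Nat.cast_one, zpow_one]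
    rw [e]
    exact mul_mem (zpow_mem h2 _) (zpow_mem h1 _)
  have hCT : Subgroup.centralizer (P : Set G) ≤ T := fun g hg => (hT g).2
    ⟨Subgroup.centralizer_le_normalizer _ hg, (stabilizesBlock_iff hM hc.1 g).2
      ⟨Subgroup.le_normalizer hg, cnj_eq_self_of_invBy hblk.invBy hg⟩⟩
  let Z : Subgroup G :=
    { carrier := {x | x ∈ P ∧ x ^ p = 1}
      one_mem' := ⟨one_mem _, one_pow _⟩
      mul_mem' := fun {x y} hx hy => ⟨mul_mem hx.1 hy.1, by
        have hxy : Commute x y := Subgroup.mem_centralizer_iff.1 (hPC hy.1) x hx.1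
        rw [hxy.mul_pow, hx.2, hy.2, one_mul]⟩
      inv_mem' := fun {x} hx => ⟨inv_mem hx.1, by rw [inv_pow, hx.2, inv_one]⟩ }
  have hZP : Z ≤ P := fun x hx => hx.1
  have hz0 : u ^ p ^ (n - 1) ∈ Z := ⟨pow_mem huP _, by
    rw [← pow_mul, ← pow_succ, Nat.sub_add_cancel (Nat.one_le_iff_ne_zero.2 hn0), ← huo,
      pow_orderOf_eq_one]⟩
  have hzo : orderOf (u ^ p ^ (n - 1)) = p := by
    refine orderOf_eq_prime hz0.2 fun e => ?_
    have := orderOf_dvd_of_pow_eq_one e
    rw [huo] at this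
    have := (Nat.pow_dvd_pow_iff_le_right (Fact.out : p.Prime).one_lt).1 this
    omega
  haveI hZc : IsCyclic Z := isCyclic_of_injective (Subgroup.inclusion hZP) (Subgroup.inclusion_injective _)
  have hZcard : Nat.card Z = p := by
    refine Nat.dvd_antisymm ?_ (hzo ▸ Subgroup.orderOf_dvd_natCard Z hz0)
    obtain ⟨w, hw⟩ := IsCyclic.exists_generator (α := Z)
    rw [← orderOf_eq_card_of_forall_mem_zpowers hw]
    exact orderOf_dvd_of_pow_eq_one (Subtype.ext w.2.2)
  have hZT : Z ≤ T := hZP.trans (hPC.trans hCT)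
  haveI hZn : (Z.subgroupOf T).Normal :=
    (Subgroup.normal_subgroupOf_iff_le_normalizer hZT).2 fun g hg => by
      refine Subgroup.mem_normalizer_iff.2 fun x => ?_
      show (x ∈ P ∧ x ^ p = 1) ↔ (g * x * g⁻¹ ∈ P ∧ (g * x * g⁻¹) ^ p = 1)
      rw [conj_pow, conj_eq_one_iff, ← Subgroup.mem_normalizer_iff.1 ((hT g).1 hg).1 x]
  let act : T →* MulAut (Z.subgroupOf T) := MulAut.conjNormal
  have hker : act.ker = (Subgroup.centralizer (P : Set G)).subgroupOf T := by
    ext g
    rw [MonoidHom.mem_ker, Subgroup.mem_subgroupOf]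
    constructor
    · intro hg
      have := congrArg (fun f : MulAut (Z.subgroupOf T) =>
        ((f ⟨⟨_, hZT hz0⟩, Subgroup.mem_subgroupOf.2 hz0⟩ : T) : G)) hg
      simp only [act, MulAut.conjNormal_apply, MulAut.one_apply, Subgroup.coe_mul,
        Subgroup.coe_inv] at this
      refine hfree g g.2 _ hz0.1 (fun e => ?_) this
      rw [e, orderOf_one] at hzo
      exact (Fact.out : p.Prime).one_lt.ne hzo
    · intro hg
      refine MulEquiv.ext fun z => Subtype.ext (Subtype.ext ?_)
      simp only [act, MulAut.conjNormal_apply, MulAut.one_apply, Subgroup.coe_mul,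
        Subgroup.coe_inv]
      rw [← Subgroup.mem_centralizer_iff.1 hg _ (hZP (Subgroup.mem_subgroupOf.1 z.2))]
      group
  haveI : IsCyclic (Z.subgroupOf T) :=
    isCyclic_of_surjective (Subgroup.subgroupOfEquivOfLe hZT).symm
      (Subgroup.subgroupOfEquivOfLe hZT).symm.surjective
  have hcard' : Nat.card (Z.subgroupOf T) = p := by
    rw [Nat.card_congr (Subgroup.subgroupOfEquivOfLe hZT).toEquiv, hZcard]
  let eA : MulAut (Z.subgroupOf T) ≃* (ZMod (Nat.card (Z.subgroupOf T)))ˣ :=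
    (IsCyclic.mulAutMulEquiv _)
  have hcycA : IsCyclic (MulAut (Z.subgroupOf T)) := by
    haveI : IsCyclic (ZMod (Nat.card (Z.subgroupOf T)))ˣ := by rw [hcard']; infer_instance
    exact isCyclic_of_surjective eA.symm eA.symm.surjective
  have hcardA : Nat.card (MulAut (Z.subgroupOf T)) = p - 1 := by
    rw [Nat.card_congr eA.toEquiv, hcard', Nat.card_eq_fintype_card, ZMod.card_units]
  let q : T ⧸ (Subgroup.centralizer (P : Set G)).subgroupOf T →* MulAut (Z.subgroupOf T) :=
    QuotientGroup.lift _ act hker.ge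
  have hq : Function.Injective q := by
    rw [← MonoidHom.ker_eq_bot_iff, QuotientGroup.ker_lift, hker, QuotientGroup.map_mk'_self]
  refine ⟨?_, ?_, hfree⟩
  · exact isCyclic_of_injective q hq
  · rw [Subgroup.relIndex, ← hcardA]
    exact Subgroup.card_dvd_of_injective q hq

end Cfsg.Agent.S4633
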