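import Cfsg.Statements.S4636
import Cfsg.Agent.Lib.BlockRegular

set_option autoImplicit false
open scoped Pointwise
open Cfsg

namespace Cfsg.Agent.S4636

/-- Let P be a nontrivial cyclic p-subgroup of the finite group G and Z its subgroup of order p. For every x outside N_G(Z), P meets its conjugate xPx⁻¹ trivially; consequently N_G(Q) ≤ N_G(Z) for every nontrivial subgroup Q of P. -/
theorem result {G : Type*} [Group G] [Finite G] (p : ℕ) [Fact p.Prime] (P : Subgroup G) (hP : IsPGroup p P) (hP1 : P ≠ ⊥) (hcyc : IsCyclic P) (Z : Subgroup G) (hZ : Z ≤ P) (hZcard : Nat.card Z = p) : (∀ x : G, x ∉ Subgroup.normalizer (Z : Set G) → P ⊓ MulAut.conj x • P = ⊥) ∧ ∀ Q : Subgroup G, Q ≤ P → Q ≠ ⊥ → Subgroup.normalizer (Q : Set G) ≤ Subgroup.normalizer (Z : Set G) := by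
  classical
  have huniq : ∀ Y : Subgroup G, Y ≤ P → Nat.card Y = p → Y = Z := by
    intro Y hY hYc
    haveI := hcyc
    haveI : Fintype ↥P := Fintype.ofFinite _
    have hp := (Fact.out : p.Prime)
    set S : Finset ↥P := Finset.univ.filter (fun a : ↥P => a ^ p = 1) with hS
    have hSc : S.card ≤ p := IsCyclic.card_pow_eq_one_le hp.pos
    have key : ∀ W : Subgroup G, W ≤ P → Nat.card W = p →
        Finset.univ.filter (fun a : ↥P => (a : G) ∈ W) = S := by
      intro W hW hWc
      refine Finset.eq_of_subset_of_card_le (fun a ha => ?_) (hSc.trans (le_of_eq ?_))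
      · simp only [Finset.mem_filter, Finset.mem_univ, true_and, hS] at ha ⊢
        apply Subtype.ext
        have h := pow_card_eq_one' (x := (⟨(a : G), ha⟩ : W))
        rw [hWc] at h
        simpa using congrArg Subtype.val h
      · rw [← Fintype.card_subtype, ← Nat.card_eq_fintype_card, ← hWc]
        exact Nat.card_congr (Subgroup.subgroupOfEquivOfLe hW).toEquiv.symm
    ext a
    constructor
    · intro ha
      have h := Finset.ext_iff.mp ((key Y hY hYc).trans (key Z hZ hZcard).symm) ⟨a, hY ha⟩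
      simp only [Finset.mem_filter, Finset.mem_univ, true_and] at h
      exact h.mp ha
    · intro ha
      have h := Finset.ext_iff.mp ((key Y hY hYc).trans (key Z hZ hZcard).symm) ⟨a, hZ ha⟩
      simp only [Finset.mem_filter, Finset.mem_univ, true_and] at h
      exact h.mpr ha
  have hcont : ∀ Q : Subgroup G, Q ≤ P → Q ≠ ⊥ → Z ≤ Q := by
    intro Q hQ hQ1
    haveI : Nontrivial ↥Q := Q.nontrivial_iff_ne_bot.mpr hQ1
    obtain ⟨a, ha⟩ := exists_prime_orderOf_dvd_card' p
      ((hP.to_le hQ).card_eq_or_dvd.resolve_left Finite.one_lt_card.ne')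
    have h1 : Subgroup.zpowers (a : G) ≤ Q := Subgroup.zpowers_le.mpr a.2
    rw [← huniq _ (h1.trans hQ) (by rw [Nat.card_zpowers, Subgroup.orderOf_coe, ha])]
    exact h1
  have hnorm : ∀ (Q : Subgroup G) (x : G), Q ≤ P → Z ≤ Q → MulAut.conj x • Z ≤ Q →
      x ∈ Subgroup.normalizer (Z : Set G) := by
    intro Q x hQ _ hxQ
    have hc : Nat.card ↥(MulAut.conj x • Z) = p := by
      rw [← hZcard]
      exact (Nat.card_congr (Subgroup.equivSMul (MulAut.conj x) Z).toEquiv).symm
    have he := huniq _ (hxQ.trans hQ) hc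
    rw [Subgroup.mem_normalizer_iff]
    intro h
    constructor
    · intro hh
      rw [← he]
      exact Subgroup.smul_mem_pointwise_smul _ _ _ hh
    · intro hh
      rw [← he] at hh
      obtain ⟨z, hz, hzh⟩ := hh
      rwa [← show z = h from mul_left_cancel (mul_right_cancel hzh)]
  refine ⟨fun x hx => ?_, fun Q hQ hQ1 n hn => ?_⟩
  · by_contra hne
    have hZle := hcont _ inf_le_left hne
    have hx' : x⁻¹ ∈ Subgroup.normalizer (Z : Set G) := by
      refine hnorm P x⁻¹ le_rfl hZ ?_
      rw [map_inv, Subgroup.pointwise_smul_subset_iff, inv_inv]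
      exact hZle.trans inf_le_right
    exact hx (by simpa using inv_mem hx')
  · refine hnorm Q n hQ (hcont Q hQ hQ1) ?_
    intro y hy
    obtain ⟨z, hz, rfl⟩ := hy
    exact (Subgroup.mem_normalizer_iff.mp hn z).mp (hcont Q hQ hQ1 hz)

end Cfsg.Agent.S4636
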