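import Cfsg.Statements.S4637
import Cfsg.Agent.Lib.BlockKleinDefect
import Cfsg.Agent.Lib.BlockExtendedMain

set_option autoImplicit false
open Cfsg
open CfsgLib.Block CfsgLib.Char

namespace Cfsg.Agent.S4637

/-- Let B be a block of the finite group G relative to a maximal ideal M of the algebraic integers containing 2, with a Klein four defect group P. Let c be a block of C_G(P) inducing B, T the stabilizer of c in N_G(P) and e the index of C_G(P) in T (the inertial index). Then e is 1 or 3, B contains exactly four irreducible characters, and the 2-regular rank of B (its number of irreducible Brauer characters) equals e. -/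
theorem result {G : Type*} [Group G] [Finite G] (M : Ideal Cfsg.AlgInt) (hM : Cfsg.IsPModular 2 M) (B : Set (Cfsg.IrrCharacter G)) (hB : Cfsg.IsPBlock M B) (P : Subgroup G) (hPD : Cfsg.IsDefectGroup 2 M B P) (hV : IsKleinFour P) (c : Set (Cfsg.IrrCharacter (Subgroup.centralizer (P : Set G)))) (hc : Cfsg.IsInducedBlock M (Subgroup.centralizer (P : Set G)) c B) (T : Subgroup G) (hT : ∀ g : G, g ∈ T ↔ (g ∈ Subgroup.normalizer (P : Set G) ∧ Cfsg.StabilizesBlock (Subgroup.centralizer (P : Set G)) c g)) (e : ℕ) (he : (Subgroup.centralizer (P : Set G)).relIndex T = e) : (e = 1 ∨ e = 3) ∧ Nat.card B = 4 ∧ Cfsg.blockRank 2 B = e := by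
  haveI := Fintype.ofFinite G
  haveI : Fact (Nat.Prime 2) := ⟨Nat.prime_two⟩
  haveI := Fintype.ofFinite (Subgroup.centralizer (P : Set G))
  have hab : ∀ x ∈ P, ∀ y ∈ P, x * y = y * x := fun x hx y hy =>
    congrArg Subtype.val (IsKleinFour.isMulCommutative.is_comm.comm (⟨x, hx⟩ : P) ⟨y, hy⟩)
  have hPp := isPGroup_defectGroup hM hB hPD
  have hPCP : P ≤ Subgroup.centralizer (P : Set G) := fun x hx =>
    Subgroup.mem_centralizer_iff.2 fun u hu => hab u hu x hx
  have hψfn : PairFn hM P (pFn hM P c) := ⟨hPp, c, hc.1, rfl⟩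
  have hψ := maxPair_of_defectGroup (⟨hψfn, hB,
    trc_gFn_gconv_bFn hM hPp le_rfl (Subgroup.centralizer_le_normalizer _) hPCP hc⟩ :
    PairIn hM B P (pFn hM P c)) hPD
  have hd : blockDefect 2 B = 2 := by
    have h := card_defectGroup hM hB hPD
    rw [hV.card_four] at h
    exact (Nat.pow_right_injective le_rfl (show 2 ^ 2 = 2 ^ blockDefect 2 B from h)).symm
  have hk := card_eq_four_of_defect_two hM hB hd
  have hTeq : T = pairStab P (pFn hM P c) := by
    ext g
    rw [hT, mem_pairStab]
    exact and_congr_right fun hg => stabilizes_iff_cnj hc.1 hg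
  rw [hTeq] at he
  rcases klein_relIndex hψ hV with h | h
  · rw [h] at he
    subst he
    exact ⟨Or.inl rfl, hk, blockRank_eq_one hM (nilData hM _ le_rfl B
      (klein_nilpotent hψ hV (Subgroup.relIndex_eq_one.1 h)))⟩
  · rw [h] at he
    subst he
    exact ⟨Or.inr rfl, hk, klein_rank_three hψ hV h hk⟩

end Cfsg.Agent.S4637
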