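import Cfsg.Statements.S4645
import Cfsg.Agent.Lib.BlockAbelianLocal
import Cfsg.Agent.Lib.BlockNilBij
import Cfsg.Agent.Lib.BlockNilpotent
import Cfsg.Agent.Lib.FgsTIHall

set_option autoImplicit false
open Cfsg
open CfsgLib.Block CfsgLib.Char
open scoped Classical


namespace Cfsg.Agent.S4645

/-- Let B be a block of the finite group G relative to a maximal ideal M of the algebraic integers containing the prime p, with a nontrivial cyclic defect group P; let c be a block of C_G(P) inducing B and T the stabilizer of c in N_G(P). Let Q be a nontrivial subgroup of P (so C_G(P) ≤ C_G(Q)), f the block of C_G(Q) induced by c inside C_G(Q), and T' the stabilizer of f in N_G(Q). Then T' = T·C_G(Q), the index of C_G(Q) in T' equals the index of C_G(P) in T, f has p-regular rank 1, and f is a nilpotent block of C_G(Q). -/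
theorem result {G : Type*} [Group G] [Finite G] (p : ℕ) [Fact p.Prime] (M : Ideal Cfsg.AlgInt) (hM : Cfsg.IsPModular p M) (B : Set (Cfsg.IrrCharacter G)) (hB : Cfsg.IsPBlock M B) (P : Subgroup G) (hPD : Cfsg.IsDefectGroup p M B P) (hP1 : P ≠ ⊥) (hcyc : IsCyclic P) (c : Set (Cfsg.IrrCharacter (Subgroup.centralizer (P : Set G)))) (hc : Cfsg.IsInducedBlock M (Subgroup.centralizer (P : Set G)) c B) (T : Subgroup G) (hT : ∀ g : G, g ∈ T ↔ (g ∈ Subgroup.normalizer (P : Set G) ∧ Cfsg.StabilizesBlock (Subgroup.centralizer (P : Set G)) c g)) (Q : Subgroup G) (hQP : Q ≤ P) (hQ1 : Q ≠ ⊥) (f : Set (Cfsg.IrrCharacter (Subgroup.centralizer (Q : Set G)))) (hf : Cfsg.IsInducedBlockIn M (Subgroup.centralizer (Q : Set G)) (Subgroup.centralizer (P : Set G)) c f) (T' : Subgroup G) (hT' : ∀ g : G, g ∈ T' ↔ (g ∈ Subgroup.normalizer (Q : Set G) ∧ Cfsg.StabilizesBlock (Subgroup.centralizer (Q : Set G)) f g)) : T' = T ⊔ Subgroup.centralizer (Q : Set G) ∧ (Subgroup.centralizer (Q : Set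 G)).relIndex T' = (Subgroup.centralizer (P : Set G)).relIndex T ∧ Cfsg.blockRank p f = 1 ∧ Cfsg.IsNilpotentBlock p M f := by
  haveI := Fintype.ofFinite G
  haveI := Fintype.ofFinite (Subgroup.centralizer (P : Set G))
  have hPp := isPGroup_defectGroup hM hB hPD
  have hab : ∀ x ∈ P, ∀ y ∈ P, x * y = y * x := fun x hx y hy => by
    letI := hcyc.commGroup
    exact congrArg Subtype.val (mul_comm (⟨x, hx⟩ : P) ⟨y, hy⟩)
  have hPCP : P ≤ Subgroup.centralizer (P : Set G) := fun x hx =>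
    Subgroup.mem_centralizer_iff.2 fun u hu => hab u hu x hx
  have hPC : P ≤ Subgroup.centralizer (Q : Set G) := fun x hx =>
    Subgroup.mem_centralizer_iff.2 fun u hu => hab u (hQP hu) x hx
  have hCPQ : Subgroup.centralizer (P : Set G) ≤ Subgroup.centralizer (Q : Set G) :=
    Subgroup.centralizer_le hQP
  have hψfn : PairFn hM P (pFn hM P c) := ⟨hPp, c, hc.1, rfl⟩
  have hψin : PairIn hM B P (pFn hM P c) := ⟨hψfn, hB,
    trc_gFn_gconv_bFn hM hPp le_rfl (Subgroup.centralizer_le_normalizer _) hPCP hc⟩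
  have hψ := maxPair_of_defectGroup hψin hPD
  have hφfn : PairFn hM Q (pFn hM Q f) := ⟨hPp.to_le hQP, f, hf.2.1, rfl⟩
  have hch : Chain hM (Q, pFn hM Q f) (P, pFn hM P c) :=
    Relation.ReflTransGen.single ⟨hφfn, hψfn, hQP,
      hPC.trans (Subgroup.centralizer_le_normalizer _), invBy_mono hφfn.2.invBy hPC,
      gconv_of_inducedIn hM hPp hCPQ hPCP le_rfl (Subgroup.centralizer_le_normalizer _) hf⟩
  have hTiff : ∀ g : G, g ∈ T ↔
      g ∈ Subgroup.normalizer (P : Set G) ∧ cnj g (pFn hM P c) = pFn hM P c := fun g => by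
    rw [hT]
    exact and_congr_right fun hg => stabilizes_iff_cnj hc.1 hg
  have hT'iff : ∀ g : G, g ∈ T' ↔
      g ∈ Subgroup.normalizer (Q : Set G) ∧ cnj g (pFn hM Q f) = pFn hM Q f := fun g => by
    rw [hT']
    exact and_congr_right fun hg => stabilizes_iff_cnj hf.2.1 hg
  -- subgroups of a cyclic group are characteristic
  have hchar : ∀ g ∈ Subgroup.normalizer (P : Set G),
      Q.map (MulAut.conj g).toMonoidHom = Q := by
    intro g hg
    have hle : Q.map (MulAut.conj g).toMonoidHom ≤ P := by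
      rintro _ ⟨u, hu, rfl⟩
      exact (Subgroup.mem_normalizer_iff.1 hg u).1 (hQP hu)
    haveI := hcyc
    have e2 : (Q.map (MulAut.conj g).toMonoidHom).subgroupOf P = Q.subgroupOf P :=
      CfsgLib.TIHall.cyclic_eq_of_card (by
        rw [Nat.card_congr (Subgroup.subgroupOfEquivOfLe hle).toEquiv,
          Nat.card_congr (Subgroup.subgroupOfEquivOfLe hQP).toEquiv, card_map_conj])
    have e3 := congrArg (Subgroup.map P.subtype) e2
    rwa [Subgroup.map_subgroupOf_eq_of_le hle, Subgroup.map_subgroupOf_eq_of_le hQP] at e3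
  have hfree : ∀ g ∈ T, g ∈ Subgroup.centralizer (Q : Set G) →
      g ∈ Subgroup.centralizer (P : Set G) := by
    intro g hgT hgQ
    obtain ⟨hgN, hgψ⟩ := (hTiff g).1 hgT
    obtain ⟨y, hy⟩ := hcyc.exists_generator
    obtain ⟨a, ha⟩ := IsPGroup.iff_card.1 hPp
    obtain ⟨b, hb⟩ := (Nat.dvd_prime_pow (Fact.out : p.Prime)).1
      (ha ▸ orderOf_dvd_natCard y)
    have hgy : g * (y : G) * g⁻¹ ∈ P := (Subgroup.mem_normalizer_iff.1 hgN y).1 y.2
    obtain ⟨m, hm⟩ := Subgroup.mem_zpowers_iff.1 (hy ⟨_, hgy⟩)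
    have hm' : g * (y : G) * g⁻¹ = (y : G) ^ m := by
      have := congrArg Subtype.val hm
      simpa using this.symm
    obtain ⟨u, hu, hu1⟩ : ∃ u ∈ Q, u ≠ 1 := by
      by_contra hne
      push Not at hne
      exact hQ1 ((Subgroup.eq_bot_iff_forall Q).2 hne)
    obtain ⟨i, hi⟩ := Subgroup.mem_zpowers_iff.1 (hy ⟨u, hQP hu⟩)
    have hi' : (y : G) ^ i = u := by simpa using congrArg Subtype.val hi
    have hfixu : (y : G) ^ (m * i) = (y : G) ^ i := by
      rw [zpow_mul, ← hm', conj_zpow, hi']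
      have := Subgroup.mem_centralizer_iff.1 hgQ u hu
      rw [← this, mul_inv_cancel_right]
    have hyord : orderOf (y : G) = p ^ b := by rw [Subgroup.orderOf_coe, hb.2]
    have hdiv : ((p ^ b : ℕ) : ℤ) ∣ (m - 1) * i := by
      rw [← hyord, orderOf_dvd_iff_zpow_eq_one, sub_mul, one_mul, zpow_sub, hfixu, mul_inv_cancel]
    have hpm : (p : ℤ) ∣ m - 1 := by
      by_contra hnd
      have hco : IsCoprime ((p ^ b : ℕ) : ℤ) (m - 1) := by
        push_cast
        exact IsCoprime.pow_left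
          ((Nat.prime_iff_prime_int.1 (Fact.out : p.Prime)).coprime_iff_not_dvd.2 hnd)
      have h := hco.dvd_of_dvd_mul_left hdiv
      rw [← hyord, orderOf_dvd_iff_zpow_eq_one, hi'] at h
      exact hu1 h
    have hpow : ∀ n : ℕ, g ^ n * (y : G) * (g ^ n)⁻¹ = (y : G) ^ (m ^ n) := by
      intro n
      induction n with
      | zero => simp
      | succ n ih =>
        calc g ^ (n + 1) * (y : G) * (g ^ (n + 1))⁻¹
            = g * (g ^ n * (y : G) * (g ^ n)⁻¹) * g⁻¹ := by rw [pow_succ']; group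
          _ = (y : G) ^ (m ^ (n + 1)) := by
            rw [ih, ← conj_zpow, hm', ← zpow_mul, pow_succ']
    have hgb : g ^ p ^ b ∈ Subgroup.centralizer (P : Set G) := by
      have hmod : ((p ^ b : ℕ) : ℤ) ∣ m ^ p ^ b - 1 := by
        have := dvd_sub_pow_of_dvd_sub (R := ℤ) (p := p) (a := m) (b := 1) hpm b
        rw [one_pow] at this
        push_cast
        exact (pow_dvd_pow _ (Nat.le_succ b)).trans this
      have hfy : g ^ p ^ b * (y : G) = (y : G) * g ^ p ^ b := by
        rw [← mul_inv_eq_iff_eq_mul, hpow, ← sub_add_cancel (m ^ p ^ b) 1, zpow_add, zpow_one,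
          orderOf_dvd_iff_zpow_eq_one.1 (hyord ▸ hmod), one_mul]
      refine Subgroup.mem_centralizer_iff.2 fun x hx => ?_
      obtain ⟨j, hj⟩ := Subgroup.mem_zpowers_iff.1 (hy ⟨x, hx⟩)
      have hj' : (y : G) ^ j = x := by simpa using congrArg Subtype.val hj
      rw [← hj']
      exact ((Commute.zpow_left (show Commute (y : G) (g ^ p ^ b) from hfy.symm)) j)
    obtain ⟨k, n', hn', hord⟩ := Nat.exists_eq_pow_mul_and_not_dvd (orderOf_pos g).ne' p
      (Fact.out : p.Prime).ne_one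
    have hgn : g ^ n' ∈ Subgroup.centralizer (P : Set G) := by
      have hpel : ∃ j, orderOf (g ^ n') = p ^ j := by
        obtain ⟨j, -, hj⟩ := (Nat.dvd_prime_pow (Fact.out : p.Prime) (i := orderOf (g ^ n'))
          (m := k)).1 (orderOf_dvd_of_pow_eq_one (by
            rw [← pow_mul, mul_comm, ← hord, pow_orderOf_eq_one]))
        exact ⟨j, hj⟩
      have hfix : cnj (g ^ n') (pFn hM P c) = pFn hM P c :=
        ((hTiff (g ^ n')).1 (pow_mem hgT n')).2
      have := pElement_stab_mem hψ hpel (pow_mem hgN n') hfix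
      rwa [sup_eq_right.2 hPCP] at this
    have hco : Nat.Coprime (p ^ b) n' :=
      Nat.Coprime.pow_left _ ((Fact.out : p.Prime).coprime_iff_not_dvd.2 hn')
    have e : g = (g ^ p ^ b) ^ Nat.gcdA (p ^ b) n' * (g ^ n') ^ Nat.gcdB (p ^ b) n' := by
      rw [← zpow_natCast g (p ^ b), ← zpow_natCast g n', ← zpow_mul, ← zpow_mul, ← zpow_add,
        ← Nat.gcd_eq_gcd_ab, hco.gcd_eq_one, Nat.cast_one, zpow_one]
    rw [e]
    exact mul_mem (zpow_mem hgb _) (zpow_mem hgn _)
  have hCQN : Subgroup.centralizer (Q : Set G) ≤ Subgroup.normalizer (Q : Set G) :=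
    Subgroup.centralizer_le_normalizer _
  have heq : T' = T ⊔ Subgroup.centralizer (Q : Set G) := by
    refine le_antisymm (fun g hg => ?_) (sup_le (fun g hg => ?_) fun g hg => ?_)
    · obtain ⟨hgN, hgf⟩ := (hT'iff g).1 hg
      obtain ⟨h, hh, hN, hfix⟩ := stab_decomposition hψ hab hch hgN hgf
      rw [show g = h⁻¹ * (h * g) by group]
      exact mul_mem (Subgroup.mem_sup_right (inv_mem hh))
        (Subgroup.mem_sup_left ((hTiff _).2 ⟨hN, hfix⟩))
    · obtain ⟨hgN, hgψ⟩ := (hTiff g).1 hg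
      have hQg := hchar g hgN
      have h1 := hch.cnj g
      simp only [hQg, map_conj_eq_self hgN, hgψ] at h1
      refine (hT'iff g).2 ⟨?_, Chain.unique hψfn h1 hch⟩
      refine Subgroup.mem_normalizer_iff.2 fun u => ⟨fun hu => hQg ▸ ⟨u, hu, rfl⟩, fun hu => ?_⟩
      rw [← hQg] at hu
      obtain ⟨v, hv, hve⟩ := hu
      rwa [← MulEquiv.injective (MulAut.conj g) hve]
    · exact (hT'iff g).2 ⟨hCQN hg, cnj_eq_self_of_invBy hφfn.2.invBy hg⟩
  refine ⟨heq, ?_, ?_⟩
  · have hTN : T ≤ Subgroup.normalizer (Q : Set G) := fun g hg =>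
      ((hT'iff g).1 (heq ▸ Subgroup.mem_sup_left hg)).1
    haveI : ((Subgroup.centralizer (Q : Set G)).subgroupOf
        (Subgroup.normalizer (Q : Set G))).Normal :=
      (Subgroup.normal_subgroupOf_iff_le_normalizer hCQN).2 fun x hx =>
        mem_normalizer_centralizer hx
    rw [heq, ← Subgroup.relIndex_subgroupOf (sup_le hTN hCQN), Subgroup.subgroupOf_sup hTN hCQN,
      Subgroup.relIndex_sup_right, Subgroup.relIndex_subgroupOf hTN, ← Subgroup.inf_relIndex_right]
    congr 1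
    refine le_antisymm (fun g hg => hfree g hg.2 hg.1) fun g hg => ⟨hCPQ hg, ?_⟩
    exact (hTiff g).2 ⟨Subgroup.centralizer_le_normalizer _ hg,
      cnj_eq_self_of_invBy hψfn.2.invBy hg⟩
  · have hnil := nilpotent_local hψ hab hf.2.1 hch fun g hgN hgψ hgQ =>
      hfree g ((hTiff g).2 ⟨hgN, hgψ⟩) hgQ
    exact ⟨blockRank_eq_one hM (nilData_sub hM _ f hnil), hnil⟩

end Cfsg.Agent.S4645
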