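import Cfsg.Statements.S4646
import Cfsg.Agent.Lib.BlockNilBij
import Cfsg.Agent.Lib.CoreTransfer
import Cfsg.Agent.S4691
import Cfsg.Agent.Lib.CharLinear

set_option autoImplicit false
open Cfsg
open CfsgLib.Block CfsgLib.Char
open scoped Classical


namespace Cfsg.Agent.S4646

/-- For a finite group G, a prime p and a maximal ideal M of the algebraic integers containing p: the principal block of G is nilpotent if and only if its p-regular rank is 1 (the trivial Brauer character is its only irreducible Brauer character). -/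
theorem result {G : Type*} [Group G] [Finite G] (p : ℕ) [Fact p.Prime] (M : Ideal Cfsg.AlgInt) (hM : Cfsg.IsPModular p M) : Cfsg.IsNilpotentBlock p M (Cfsg.principalBlock M G) ↔ Cfsg.blockRank p (Cfsg.principalBlock M G) = 1 := by
  haveI := Fintype.ofFinite G
  refine ⟨fun h => blockRank_eq_one hM (nilData hM (Nat.card G) le_rfl _ h), fun hl => ?_⟩
  refine (Cfsg.Agent.S4691.result p M hM).1 (CfsgLib.Core.hasNormalPComplement_iff.2 ?_)
  set B := Cfsg.principalBlock M G with hBdef
  have hB : Cfsg.IsPBlock M B := isPBlock_principal M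
  have ht : trivIrr G ∈ B := trivIrr_mem_principal hM
  have h1r : ¬ p ∣ orderOf (1 : G) := by simpa using hM.1.not_dvd_one
  set t : G → ℂ := pRegularPart p ((trivIrr G : IrrCharacter G) : G → ℂ) with htdef
  have htne : t ≠ 0 := fun h => by
    have h1 := congrFun h 1
    rw [htdef, pRegularPart_eq, regPart_apply_regular h1r] at h1
    exact one_ne_zero h1
  have hsp : Submodule.span ℂ {t} =
      Submodule.span ℂ ((fun χ : IrrCharacter G => pRegularPart p (χ : G → ℂ)) '' B) := by
    refine Submodule.eq_of_le_of_finrank_eq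
      (Submodule.span_mono (Set.singleton_subset_iff.2 ⟨trivIrr G, ht, rfl⟩)) ?_
    rw [finrank_span_singleton htne]
    exact hl.symm
  have hval : ∀ ξ ∈ B, ∀ y : G, ¬ p ∣ orderOf y → (ξ : G → ℂ) y = (ξ : G → ℂ) 1 := by
    intro ξ hξ y hy
    have hm : pRegularPart p (ξ : G → ℂ) ∈ Submodule.span ℂ {t} := by
      rw [hsp]
      exact Submodule.subset_span ⟨ξ, hξ, rfl⟩
    obtain ⟨c, hc⟩ := Submodule.mem_span_singleton.1 hm
    rw [htdef, pRegularPart_eq, pRegularPart_eq] at hc
    have e : ∀ z : G, ¬ p ∣ orderOf z → (ξ : G → ℂ) z = c := fun z hz => by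
      rw [eq_mul_of_regPart_eq hc.symm hz]
      show c * 1 = c
      rw [mul_one]
    rw [e y hy, e 1 h1r]
  set K : Set G := {g | ∀ ξ ∈ B, (ξ : G → ℂ) g = (ξ : G → ℂ) 1} with hK
  have hreg : ∀ g ∈ K, ¬ p ∣ orderOf g := by
    intro g hg hd
    have h := block_sum_singular_regular hM hB h1r hd
    have hpos : (0 : ℝ) < ∑ ξ : IrrCharacter G,
        (if ξ ∈ B then ((charDegree (ξ : G → ℂ) : ℝ)) ^ 2 else 0) := by
      refine Finset.sum_pos' (fun ξ _ => by split <;> positivity) ⟨trivIrr G, Finset.mem_univ _, ?_⟩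
      rw [if_pos ht]
      have := charDegree_pos (trivIrr G)
      positivity
    refine hpos.ne' (Complex.ofReal_injective ?_)
    rw [Complex.ofReal_zero, ← h, Complex.ofReal_sum]
    refine Finset.sum_congr rfl fun ξ _ => ?_
    by_cases hξ : ξ ∈ B
    · rw [if_pos hξ, hg ξ hξ, show indVal B ξ = 1 from if_pos hξ, irr_conj_one,
        ← CfsgLib.Block.charDegree_cast ξ.2.isCharacter']
      push_cast
      ring
    · rw [if_neg hξ, show indVal B ξ = 0 from if_neg hξ]
      simp
  have hiff : ∀ g, g ∈ K ↔ ¬ p ∣ orderOf g := fun g => ⟨hreg g, fun h ξ hξ => hval ξ hξ g h⟩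
  let N : Subgroup G :=
    { carrier := K
      one_mem' := fun ξ _ => rfl
      mul_mem' := fun {a b} ha hb ξ hξ =>
        (CfsgLib.Char.charKer ξ.2.isCharacter').mul_mem (ha ξ hξ) (hb ξ hξ)
      inv_mem' := fun {a} ha => (hiff _).2 (by rw [orderOf_inv]; exact (hiff a).1 ha) }
  have hmem : ∀ g, g ∈ N ↔ ¬ p ∣ orderOf g := hiff
  haveI hN : N.Normal := ⟨fun n hn g => (hmem _).2 (by
    rw [orderOf_conj_eq]; exact (hmem n).1 hn)⟩
  have hcop : (Nat.card N).Coprime p := by
    rw [Nat.coprime_comm, Nat.Prime.coprime_iff_not_dvd hM.1]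
    intro hd
    obtain ⟨x, hx⟩ := exists_prime_orderOf_dvd_card' (G := N) p hd
    exact (hmem (x : G)).1 x.2 (by rw [Subgroup.orderOf_coe, hx])
  have hQ : IsPGroup p (G ⧸ N) := by
    intro q
    obtain ⟨g, rfl⟩ := QuotientGroup.mk_surjective q
    refine ⟨(orderOf g).factorization p, ?_⟩
    rw [← QuotientGroup.mk_pow, QuotientGroup.eq_one_iff, hmem]
    rw [orderOf_pow' g (pow_ne_zero _ hM.1.ne_zero),
      Nat.gcd_eq_right (Nat.ordProj_dvd _ _)]
    exact Nat.not_dvd_ordCompl hM.1 (orderOf_pos g).ne'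
  obtain ⟨k, hk⟩ := IsPGroup.iff_card.1 hQ
  exact ⟨N, hN, hcop, k, by rw [Subgroup.index_eq_card]; exact hk⟩

end Cfsg.Agent.S4646
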