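import Cfsg.Statements.S4650
import Cfsg.Agent.Lib.BlockAbelianLocal
import Cfsg.Agent.Lib.BlockNilBij
import Cfsg.Agent.Lib.BlockNilpotent

set_option autoImplicit false
open Cfsg
open CfsgLib.Block CfsgLib.Char
open scoped Classical


namespace Cfsg.Agent.S4650

/-- Let B be a block of the finite group G relative to a maximal ideal M of the algebraic integers containing the prime p, with a nontrivial commutative defect group P; let c be a block of C_G(P) inducing B and T the stabilizer of c in N_G(P). Then T/C_G(P) acts freely on the non-identity elements of P (an element of T fixing a non-identity element of P under conjugation lies in C_G(P)) if and only if, for every nontrivial subgroup Q of P, the block of C_G(Q) induced by c inside C_G(Q) is a nilpotent block of C_G(Q). -/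
theorem result {G : Type*} [Group G] [Finite G] (p : ℕ) [Fact p.Prime] (M : Ideal Cfsg.AlgInt) (hM : Cfsg.IsPModular p M) (B : Set (Cfsg.IrrCharacter G)) (hB : Cfsg.IsPBlock M B) (P : Subgroup G) (hPD : Cfsg.IsDefectGroup p M B P) (hPab : ∀ x ∈ P, ∀ y ∈ P, x * y = y * x) (hP1 : P ≠ ⊥) (c : Set (Cfsg.IrrCharacter (Subgroup.centralizer (P : Set G)))) (hc : Cfsg.IsInducedBlock M (Subgroup.centralizer (P : Set G)) c B) (T : Subgroup G) (hT : ∀ g : G, g ∈ T ↔ (g ∈ Subgroup.normalizer (P : Set G) ∧ Cfsg.StabilizesBlock (Subgroup.centralizer (P : Set G)) c g)) : (∀ g ∈ T, ∀ x ∈ P, x ≠ 1 → g * x * g⁻¹ = x → g ∈ Subgroup.centralizer (P : Set G)) ↔ ∀ Q : Subgroup G, Q ≤ P → Q ≠ ⊥ → ∀ f : Set (Cfsg.IrrCharacter (Subgroup.centralizer (Q : Set G))), Cfsg.IsInducedBlockIn M (Subgroup.centralizer (Q : Set G)) (Subgroup.centralizer (P : Set G)) c f → Cfsg.IsNilpotentBlock p M f := by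
  haveI := Fintype.ofFinite G
  haveI := Fintype.ofFinite (Subgroup.centralizer (P : Set G))
  have hPp := isPGroup_defectGroup hM hB hPD
  have hPCP : P ≤ Subgroup.centralizer (P : Set G) := fun x hx =>
    Subgroup.mem_centralizer_iff.2 fun u hu => hPab u hu x hx
  have hψfn : PairFn hM P (pFn hM P c) := ⟨hPp, c, hc.1, rfl⟩
  have hψin : PairIn hM B P (pFn hM P c) := ⟨hψfn, hB,
    trc_gFn_gconv_bFn hM hPp le_rfl (Subgroup.centralizer_le_normalizer _) hPCP hc⟩
  have hψ := maxPair_of_defectGroup hψin hPD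
  have hchain : ∀ Q : Subgroup G, Q ≤ P → ∀ f, Cfsg.IsInducedBlockIn M
      (Subgroup.centralizer (Q : Set G)) (Subgroup.centralizer (P : Set G)) c f →
      Chain hM (Q, pFn hM Q f) (P, pFn hM P c) := fun Q hQP f hf => by
    have hPC : P ≤ Subgroup.centralizer (Q : Set G) := fun x hx =>
      Subgroup.mem_centralizer_iff.2 fun u hu => hPab u (hQP hu) x hx
    have hφfn : PairFn hM Q (pFn hM Q f) := ⟨hPp.to_le hQP, f, hf.2.1, rfl⟩
    exact Relation.ReflTransGen.single ⟨hφfn, hψfn, hQP,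
      hPC.trans (Subgroup.centralizer_le_normalizer _), invBy_mono hφfn.2.invBy hPC,
      gconv_of_inducedIn hM hPp (Subgroup.centralizer_le hQP) hPCP le_rfl
        (Subgroup.centralizer_le_normalizer _) hf⟩
  constructor
  · intro hfree Q hQP hQ1 f hf
    obtain ⟨x, hx, hx1⟩ : ∃ x ∈ Q, x ≠ 1 := by
      by_contra hne
      push Not at hne
      exact hQ1 ((Subgroup.eq_bot_iff_forall Q).2 hne)
    refine nilpotent_local hψ hPab hf.2.1 (hchain Q hQP f hf) fun g hgN hgψ hgQ => ?_
    refine hfree g ((hT g).2 ⟨hgN, (stabilizes_iff_cnj hc.1 hgN).2 hgψ⟩) x (hQP hx) hx1 ?_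
    rw [← Subgroup.mem_centralizer_iff.1 hgQ x hx, mul_inv_cancel_right]
  · intro hloc g hg x hx hx1 hgx
    obtain ⟨Q, hQ⟩ : ∃ Q : Subgroup G, Q = Subgroup.zpowers x := ⟨_, rfl⟩
    have hQP : Q ≤ P := hQ ▸ Subgroup.zpowers_le.2 hx
    have hQ1 : Q ≠ ⊥ := by
      rw [hQ]; exact fun h => hx1 (Subgroup.zpowers_eq_bot.1 h)
    obtain ⟨f, hf⟩ := exists_inducedIn hM hPp hPab hQP hc.1
    have hnil := hloc Q hQP hQ1 f hf
    have hmax := maxPair_local hψ hPab hf.2.1 (hchain Q hQP f hf)
    have hPH : P ≤ Subgroup.centralizer (Q : Set G) := fun y hy =>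
      Subgroup.mem_centralizer_iff.2 fun u hu => hPab u (hQP hu) y hy
    have hgH : g ∈ Subgroup.centralizer (Q : Set G) := by
      rw [hQ, Subgroup.zpowers_eq_closure, Subgroup.centralizer_closure]
      exact Subgroup.mem_centralizer_singleton_iff.2 (mul_inv_eq_iff_eq_mul.1 hgx)
    obtain ⟨hgN, hgst⟩ := (hT g).1 hg
    -- the p-regular elements of the stabiliser act trivially
    have hreg : ∀ y : G, y ∈ T → y ∈ Subgroup.centralizer (Q : Set G) → ¬ p ∣ orderOf y →
        y ∈ Subgroup.centralizer (P : Set G) := by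
      intro y hyT hyH hyr
      obtain ⟨hyN, hyst⟩ := (hT y).1 hyT
      have hyψ := (stabilizes_iff_cnj (hM := hM) hc.1 hyN).1 hyst
      have h1 := nilpotent_pair_regular hnil hmax.1 (x := ⟨y, hyH⟩)
        (Subgroup.mem_normalizer_iff.2 fun u => by
          simp only [Subgroup.mem_subgroupOf, Subgroup.coe_mul, Subgroup.coe_inv]
          exact Subgroup.mem_normalizer_iff.1 hyN (u : G))
        (funext fun k => congrFun hyψ (k : G))
        (show ¬ p ∣ orderOf (⟨y, hyH⟩ : Subgroup.centralizer (Q : Set G)) by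
          rwa [Subgroup.orderOf_mk])
      exact (mem_centralizer_subgroupOf hPH ⟨y, hyH⟩).1 h1
    obtain ⟨k, n', hn', hord⟩ := Nat.exists_eq_pow_mul_and_not_dvd (orderOf_pos g).ne' p
      (Fact.out : p.Prime).ne_one
    have h1 : g ^ p ^ k ∈ Subgroup.centralizer (P : Set G) := by
      refine hreg _ (pow_mem hg _) (pow_mem hgH _) ?_
      intro hd
      refine hn' (hd.trans (orderOf_dvd_of_pow_eq_one ?_))
      rw [← pow_mul, ← hord, pow_orderOf_eq_one]
    have h2 : g ^ n' ∈ Subgroup.centralizer (P : Set G) := by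
      have hpel : ∃ j, orderOf (g ^ n') = p ^ j := by
        obtain ⟨j, -, hj⟩ := (Nat.dvd_prime_pow (Fact.out : p.Prime) (i := orderOf (g ^ n'))
          (m := k)).1 (orderOf_dvd_of_pow_eq_one (by
            rw [← pow_mul, mul_comm, ← hord, pow_orderOf_eq_one]))
        exact ⟨j, hj⟩
      obtain ⟨hN, hst⟩ := (hT _).1 (pow_mem hg n')
      have := pElement_stab_mem hψ hpel hN ((stabilizes_iff_cnj hc.1 hN).1 hst)
      rwa [sup_eq_right.2 hPCP] at this
    have hco : Nat.Coprime (p ^ k) n' :=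
      Nat.Coprime.pow_left _ ((Fact.out : p.Prime).coprime_iff_not_dvd.2 hn')
    have e : g = (g ^ p ^ k) ^ Nat.gcdA (p ^ k) n' * (g ^ n') ^ Nat.gcdB (p ^ k) n' := by
      rw [← zpow_natCast g (p ^ k), ← zpow_natCast g n', ← zpow_mul, ← zpow_mul, ← zpow_add,
        ← Nat.gcd_eq_gcd_ab, hco.gcd_eq_one, Nat.cast_one, zpow_one]
    rw [e]
    exact mul_mem (zpow_mem h1 _) (zpow_mem h2 _)

end Cfsg.Agent.S4650
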