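import Cfsg.Statements.S4654
import Cfsg.Agent.Lib.BlockPairStab

set_option autoImplicit false
open Cfsg
open CfsgLib.Block
open scoped Classical


namespace Cfsg.Agent.S4654

/-- Fix a prime p and a maximal ideal M of the algebraic integers containing p. Let P be a normal p-subgroup of the finite group G, B a p-block of G and e a p-block of C_G(P) such that (P, e) is a Brauer pair of B (as P is normal, this says that e occurs in the idempotent of B, which is supported on C_G(P)). Let T be the stabilizer of e in G under conjugation. Then the idempotent of e is a block idempotent of T: some block E of T has, at every element of T, the same idempotent coefficient as e (zero off C_G(P)); and the idempotent of B is the sum of the distinct G-conjugates of the idempotent of e: its coefficient at g is the sum over all x in G of the coefficient of e at x⁻¹ g x, divided by the order of T. -/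
theorem result {G : Type*} [Group G] [Fintype G] (p : ℕ) [Fact p.Prime] (M : Ideal Cfsg.AlgInt) (hM : Cfsg.IsPModular p M) (P : Subgroup G) [P.Normal] (hP : IsPGroup p P) (B : Set (Cfsg.IrrCharacter G)) (e : Set (Cfsg.IrrCharacter (Subgroup.centralizer (P : Set G)))) (hBe : Cfsg.IsBrauerPairOf p M B P e) (T : Subgroup G) (hT : ∀ x : G, x ∈ T ↔ Cfsg.StabilizesBlock (Subgroup.centralizer (P : Set G)) e x) : (∃ E : Set (Cfsg.IrrCharacter T), Cfsg.IsPBlock M E ∧ ∀ t : T, Cfsg.blockCoeff E t = Cfsg.subgroupBlockCoeff (Subgroup.centralizer (P : Set G)) e (t : G)) ∧ ∀ g : G, Cfsg.blockCoeff B g = (Nat.card T : ℂ)⁻¹ * ∑ x : G, Cfsg.subgroupBlockCoeff (Subgroup.centralizer (P : Set G)) e (x⁻¹ * g * x) := by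
  haveI := Fintype.ofFinite T
  haveI := Fintype.ofFinite (Subgroup.centralizer (P : Set G))
  obtain ⟨he, hPe⟩ := (isBrauerPairOf_iff hM).1 hBe
  have htop : ∀ x : G, x ∈ Subgroup.normalizer (P : Set G) := fun x => by
    rw [Subgroup.normalizer_eq_top]; trivial
  have hT' : ∀ y : G, y ∈ T ↔ y ∈ Subgroup.normalizer (P : Set G) ∧
      Cfsg.StabilizesBlock (Subgroup.centralizer (P : Set G)) e y :=
    fun y => ⟨fun h => ⟨htop y, (hT y).1 h⟩, fun h => (hT y).2 h.2⟩
  obtain ⟨hCT, hPT, hTN, -⟩ := stab_facts hM he hT'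
  obtain ⟨E, hE, hEe⟩ := exists_stab_block hM hP hPT hCT hTN he fun t ht => (hT t).1 ht
  refine ⟨⟨E, hE, hEe⟩, ?_⟩
  have hnorm : ∀ (x : G) (g : G), g ∈ (Subgroup.centralizer (P : Set G)) ↔ x⁻¹ * g * x ∈ (Subgroup.centralizer (P : Set G)) := fun x =>
    centralizer_conj_iff (htop x)
  set F : G → ℂ := fun g => (Nat.card T : ℂ)⁻¹ *
    ∑ x : G, Cfsg.subgroupBlockCoeff (Subgroup.centralizer (P : Set G)) e (x⁻¹ * g * x) with hFdef
  set S : Finset (Set (Cfsg.IrrCharacter (Subgroup.centralizer (P : Set G)))) :=
    Finset.univ.image fun x : G => conjSet (Subgroup.centralizer (P : Set G)) (Subgroup.centralizer (P : Set G)) x e with hS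
  have hSb : ∀ f ∈ S, Cfsg.IsPBlock M f := by
    intro f hf
    obtain ⟨x, -, rfl⟩ := Finset.mem_image.1 hf
    exact (conjSet_data hM x (hnorm x) he).1
  have hsame : ∀ x y : G, conjSet (Subgroup.centralizer (P : Set G)) (Subgroup.centralizer (P : Set G)) x e = conjSet (Subgroup.centralizer (P : Set G)) (Subgroup.centralizer (P : Set G)) y e ↔ x⁻¹ * y ∈ T := by
    intro x y
    have hx := conjSet_data hM (e := e) x (hnorm x) he
    have hy := conjSet_data hM (e := e) y (hnorm y) he
    rw [hT, stabilizesBlock_iff hM he]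
    constructor
    · intro h
      refine ⟨mem_normalizer_centralizer (htop _), ?_⟩
      have h1 := hy.2
      rw [← h, hx.2] at h1
      have h2 := congrArg (cnj x⁻¹) h1
      simp only [cnj_cnj, inv_mul_cancel, cnj_one] at h2
      exact h2.symm
    · rintro ⟨-, h⟩
      refine bFn_injOn hM (Subgroup.centralizer (P : Set G)) hx.1 hy.1 (hx.2.trans (Eq.trans ?_ hy.2.symm))
      conv_lhs => rw [← h]
      rw [cnj_cnj, mul_inv_cancel_left]
  have hFsum : F = ∑ f ∈ S, Cfsg.subgroupBlockCoeff (Subgroup.centralizer (P : Set G)) f := by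
    funext g
    have hfib : ∀ f ∈ S, ∑ x ∈ Finset.univ.filter (fun x : G => conjSet (Subgroup.centralizer (P : Set G)) (Subgroup.centralizer (P : Set G)) x e = f),
        Cfsg.subgroupBlockCoeff (Subgroup.centralizer (P : Set G)) e (x⁻¹ * g * x) =
        (Nat.card T : ℂ) * Cfsg.subgroupBlockCoeff (Subgroup.centralizer (P : Set G)) f g := by
      intro f hf
      rw [Finset.sum_congr rfl fun x hx => by
        rw [← subgroupBlockCoeff_conjSet x (hnorm x) e g, (Finset.mem_filter.1 hx).2],
        Finset.sum_const, nsmul_eq_mul]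
      obtain ⟨y, -, rfl⟩ := Finset.mem_image.1 hf
      congr 2
      rw [Nat.card_eq_fintype_card, ← Finset.card_univ]
      refine Finset.card_nbij' (fun x => (⟨if h : x⁻¹ * y ∈ T then x⁻¹ * y else 1, by
          split_ifs with h
          · exact h
          · exact one_mem _⟩ : T)) (fun t : T => y * (t : G)⁻¹) ?_ ?_ ?_ ?_
      · intro x _; exact Finset.mem_univ _
      · intro t _
        simp [hsame]
      · intro x hx
        have hxT := (hsame x y).1 (Finset.mem_filter.1 hx).2
        simp [hxT]
      · intro t _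
        apply Subtype.ext
        simp
    simp only [hFdef, Finset.sum_apply]
    rw [← Finset.sum_fiberwise_of_maps_to (g := fun x : G => conjSet (Subgroup.centralizer (P : Set G)) (Subgroup.centralizer (P : Set G)) x e)
      (t := S) (fun x _ => Finset.mem_image_of_mem _ (Finset.mem_univ x)),
      Finset.sum_congr rfl hfib, Finset.mul_sum]
    refine Finset.sum_congr rfl fun f _ => ?_
    rw [inv_mul_cancel_left₀ (Nat.cast_ne_zero.2 Nat.card_pos.ne')]
  have hmul : ∀ f₁ ∈ S, ∀ f₂ ∈ S, gconv (Cfsg.subgroupBlockCoeff (Subgroup.centralizer (P : Set G)) f₁)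
      (Cfsg.subgroupBlockCoeff (Subgroup.centralizer (P : Set G)) f₂) = if f₁ = f₂ then Cfsg.subgroupBlockCoeff (Subgroup.centralizer (P : Set G)) f₁ else 0 := by
    intro f₁ h₁ f₂ h₂
    split_ifs with h
    · subst h
      rw [subgroupBlockCoeff_eq_ext0, ← ext0_gconv, gconv_blockCoeff]
    · rw [subgroupBlockCoeff_eq_ext0, subgroupBlockCoeff_eq_ext0, ← ext0_gconv, ← ext0_zero (Subgroup.centralizer (P : Set G))]
      congr 1
      funext k
      have e0 : indVal f₁ * indVal f₂ = 0 := by
        funext χ
        show indVal f₁ χ * indVal f₂ χ = 0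
        by_cases h3 : χ ∈ f₁
        · by_cases h4 : χ ∈ f₂
          · exact absurd (isPBlock_eq_of_mem hM (hSb _ h₁) (hSb _ h₂) h3 h4) h
          · simp [indVal, h4]
        · simp [indVal, h3]
      simp only [blockCoeff_eq_coef]
      exact (congrFun (coef_mul (indVal f₁) (indVal f₂)) k).symm.trans
        (by rw [e0, coef_zero])
  have hFF : gconv F F = F := by
    rw [hFsum, gconv_sum]
    refine Finset.sum_congr rfl fun f hf => ?_
    rw [sum_gconv, Finset.sum_eq_single f]
    · rw [hmul f hf f hf, if_pos rfl]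
    · intro f' hf' hne
      rw [hmul f' hf' f hf, if_neg hne]
    · exact fun h => absurd hf h
  have hFcl : IsClassFunction G F := by
    intro g a
    simp only [hFdef]
    congr 1
    refine Fintype.sum_equiv (Equiv.mulLeft a⁻¹) _ _ fun x => ?_
    simp [mul_assoc]
  have hFint : ∀ g, F g ∈ locRing hM := fun g => by
    rw [hFsum, Finset.sum_apply]
    exact sum_mem fun f hf => subgroupBlockCoeff_mem hM (hSb f hf) g
  set v := ofFun hM F hFcl hFint with hv
  have hcoef : coef (v : IrrCharacter G → ℂ) = F := coef_ofFun hM _ _ _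
  have hvv : v * v = v := intRing_ext fun g => by
    rw [Subring.coe_mul, coef_mul, hcoef]
    exact congrFun hFF g
  haveI : Fact p.Prime := ⟨hM.1⟩
  haveI := charP_resField hM
  have hB := hPe.2.1
  have hres : cred hM v = ∑ f ∈ S, bFn hM (Subgroup.centralizer (P : Set G)) f := by
    funext g
    rw [Finset.sum_apply, hv]
    refine (cred_ofFun hM F hFcl hFint g).trans ?_
    have hbf : ∀ f : {f // f ∈ S}, bFn hM (Subgroup.centralizer (P : Set G)) f.1 g =
        res hM ⟨_, subgroupBlockCoeff_mem hM (hSb f.1 f.2) g⟩ := fun f => dif_pos _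
    rw [← Finset.sum_attach, Finset.sum_congr rfl fun f _ => hbf f, ← map_sum]
    refine congrArg (res hM) (Subtype.ext ?_)
    rw [AddSubmonoidClass.coe_finsetSum]
    show F g = _
    rw [hFsum, Finset.sum_apply, Finset.sum_attach S (fun f => Cfsg.subgroupBlockCoeff (Subgroup.centralizer (P : Set G)) f g)]
  have hsupp : trc P (gFn hM B) = gFn hM B := by
    funext g
    simp only [trc]
    split_ifs with hg
    · rfl
    · rw [gFn_block hM hB]
      refine ((cred_eq_zero_iff hM _ _).2 ?_).symm
      show Cfsg.MemLocalIdeal M (coef (indVal B) g)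
      rw [coef_bIdem_eq_zero_of_not_mem hM P hP hB hg]
      exact (memLocalIdeal_iff_exists hM).2 ⟨zero_mem _, map_zero _⟩
  have hocc : gconv (gFn hM B) (cred hM v) = cred hM v := by
    rw [hres, gconv_sum]
    refine Finset.sum_congr rfl fun f hf => ?_
    obtain ⟨x, -, rfl⟩ := Finset.mem_image.1 hf
    rw [(conjSet_data hM x (hnorm x) he).2]
    show _ = cnj x (pFn hM P e)
    conv_rhs => rw [← hPe.2.2]
    rw [hsupp, cnj_gconv, cnj_eq_self_of_invBy (invBy_gFn hM B ⊤) (Subgroup.mem_top x)]
  obtain ⟨χ, hχ⟩ := isPBlock_nonempty hM hB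
  have hsq : gconv (cred hM v) (cred hM v) = cred hM v := by rw [← cred_mul_eq_gconv, hvv]
  have hcred : cred hM v = gFn hM B := by
    have hc : gconv (cred hM v) (gFn hM B) = cred hM v := by
      rw [gFn_block hM hB, ← cred_mul_eq_gconv, mul_comm, cred_mul_eq_gconv, ← gFn_block hM hB,
        hocc]
    rcases (ev_idem_iff hM v hsq hB hχ).2 with h | h
    · rw [← h, hc]
    · exfalso
      rw [hc] at h
      have hmem : conjSet (Subgroup.centralizer (P : Set G)) (Subgroup.centralizer (P : Set G)) 1 e ∈ S := Finset.mem_image_of_mem _ (Finset.mem_univ 1)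
      have hb : IsBlockFn hM (Subgroup.centralizer (P : Set G)) (bFn hM (Subgroup.centralizer (P : Set G)) (conjSet (Subgroup.centralizer (P : Set G)) (Subgroup.centralizer (P : Set G)) 1 e)) := ⟨_, hSb _ hmem, rfl⟩
      refine hb.ne_zero ?_
      rw [← hb.mul_self]
      have h2 : gconv (cred hM v) (bFn hM (Subgroup.centralizer (P : Set G)) (conjSet (Subgroup.centralizer (P : Set G)) (Subgroup.centralizer (P : Set G)) 1 e)) =
          gconv (bFn hM (Subgroup.centralizer (P : Set G)) (conjSet (Subgroup.centralizer (P : Set G)) (Subgroup.centralizer (P : Set G)) 1 e)) (bFn hM (Subgroup.centralizer (P : Set G)) (conjSet (Subgroup.centralizer (P : Set G)) (Subgroup.centralizer (P : Set G)) 1 e)) := by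
        rw [hres, sum_gconv, Finset.sum_eq_single (conjSet (Subgroup.centralizer (P : Set G)) (Subgroup.centralizer (P : Set G)) 1 e)]
        · intro f hf hne
          exact IsBlockFn.mul_ne ⟨f, hSb f hf, rfl⟩ hb fun h3 =>
            hne (bFn_injOn hM (Subgroup.centralizer (P : Set G)) (hSb f hf) (hSb _ hmem) h3)
        · exact fun h3 => absurd hmem h3
      rw [← h2, h, zero_gconv]
  have hvb : bIdem hM hB = v := eq_of_idem_of_cred_eq hM (bIdem_sq hM hB) hvv fun g => by
    rw [← gFn_block hM hB, hcred]
  intro g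
  rw [blockCoeff_eq_coef]
  exact (congrFun (congrArg coef (congrArg Subtype.val hvb)) g).trans (congrFun hcoef g)

end Cfsg.Agent.S4654
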