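import Cfsg.Statements.S4664
import Cfsg.Agent.Lib.BlockIndep

set_option autoImplicit false
open Cfsg
open CfsgLib.Block CfsgLib.Char
open scoped Classical
open scoped ComplexConjugate


namespace Cfsg.Agent.S4664

/-- Fix a prime p and a maximal ideal M of the algebraic integers containing p, and let B be a p-block of the finite group G. Let m be the p'-part of the order of G and η = exp(2πi/m). Then every coefficient of the idempotent of B lies in the cyclotomic field ℚ(η). -/
theorem result {G : Type*} [Group G] [Fintype G] (p : ℕ) [Fact p.Prime] (M : Ideal Cfsg.AlgInt) (hM : Cfsg.IsPModular p M) (B : Set (Cfsg.IrrCharacter G)) (hB : Cfsg.IsPBlock M B) (g : G) : Cfsg.blockCoeff B g ∈ IntermediateField.adjoin ℚ ({Complex.exp (2 * Real.pi * Complex.I / ((Nat.card G / p ^ (Nat.card G).factorization p : ℕ) : ℂ))} : Set ℂ) := by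
  by_cases hg : p ∣ orderOf g
  · rw [blockCoeff_eq_coef, coef_indVal_singular hM hB hg]
    exact zero_mem _
  rw [Cfsg.blockCoeff, finsum_mem_eq_indVal]
  refine mul_mem (inv_mem (natCast_mem _ _)) (sum_mem fun χ _ => mul_mem ?_ (mul_mem ?_ ?_))
  · unfold indVal
    split_ifs
    exacts [one_mem _, zero_mem _]
  · obtain ⟨d, hd⟩ := exists_degree χ.2.isCharacter'
    rw [hd]
    exact natCast_mem _ _
  · rw [← isCharacter_inv_eq_conj χ.2.isCharacter']
    exact irr_regular_mem_adjoin (Fact.out : p.Prime) χ (by rwa [orderOf_inv])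

end Cfsg.Agent.S4664
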