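import Cfsg.Statements.S4665
import Cfsg.Agent.Lib.BlockDefect
import Cfsg.Agent.Lib.BlockOrth

set_option autoImplicit false
open Cfsg
open CfsgLib.Block CfsgLib.Char
open scoped Classical


namespace Cfsg.Agent.S4665

/-- Fix a prime p, a maximal ideal M of the algebraic integers containing p, and a p-block B of the finite group G, and let p^a be the p-part of the order of G. Let χ be an integer combination of the irreducible characters in B. If the function that agrees with χ on p-regular elements and vanishes on p-singular elements is again an integer combination of the irreducible characters in B, then p^a divides χ(1). -/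
theorem result {G : Type*} [Group G] [Fintype G] (p : ℕ) [Fact p.Prime] (M : Ideal Cfsg.AlgInt) (hM : Cfsg.IsPModular p M) (B : Set (Cfsg.IrrCharacter G)) (hB : Cfsg.IsPBlock M B) (χ : G → ℂ) (hχ : (∃ n : Cfsg.IrrCharacter G → ℤ, ∀ g : G, χ g = ∑ᶠ ψ ∈ B, (n ψ : ℂ) * (ψ : G → ℂ) g)) (h0 : (∃ n : Cfsg.IrrCharacter G → ℤ, ∀ g : G, Cfsg.pRegularPart p χ g = ∑ᶠ ψ ∈ B, (n ψ : ℂ) * (ψ : G → ℂ) g)) : ∃ k : ℤ, χ 1 = (p ^ (Nat.card G).factorization p : ℂ) * k := by
  obtain ⟨m, hm⟩ := h0
  obtain ⟨t, ht⟩ := exists_block_degree_eq hM.1 (fun ψ : Cfsg.IrrCharacter G => indVal B ψ * (m ψ : ℂ))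
    fun g hg => by
      have h := hm g
      rw [finsum_mem_eq_indVal] at h
      simp only [mul_assoc]
      rw [← h]
      unfold Cfsg.pRegularPart Cfsg.IsPRegular
      simp [hg]
  refine ⟨∑ ψ : Cfsg.IrrCharacter G, if ψ ∈ B then m ψ * (t ψ : ℤ) else 0, ?_⟩
  have h1 := hm 1
  rw [finsum_mem_eq_indVal] at h1
  unfold Cfsg.pRegularPart Cfsg.IsPRegular at h1
  rw [if_pos (by rw [orderOf_one]; exact hM.1.not_dvd_one)] at h1
  simp only [mul_assoc] at ht
  rw [h1, ht]
  congr 1
  rw [Int.cast_sum]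
  refine Finset.sum_congr rfl fun ψ _ => ?_
  by_cases h : ψ ∈ B <;> simp [indVal, h]

end Cfsg.Agent.S4665
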