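import Cfsg.Statements.S4666
import Cfsg.Agent.Lib.BlockBound

set_option autoImplicit false
open Cfsg
open CfsgLib.Block CfsgLib.Char
open scoped Classical


namespace Cfsg.Agent.S4666

/-- Fix a prime p and a maximal ideal M of the algebraic integers containing p, and a p-block B of the finite group G of defect d. For every integer combination χ of the irreducible characters in B, p^d times the function that agrees with χ on p-regular elements and vanishes elsewhere is again an integer combination of the irreducible characters in B. -/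
theorem result {G : Type*} [Group G] [Fintype G] (p : ℕ) [Fact p.Prime] (M : Ideal Cfsg.AlgInt) (hM : Cfsg.IsPModular p M) (B : Set (Cfsg.IrrCharacter G)) (hB : Cfsg.IsPBlock M B) (χ : G → ℂ) (hχ : (∃ n : Cfsg.IrrCharacter G → ℤ, ∀ g : G, χ g = ∑ᶠ ψ ∈ B, (n ψ : ℂ) * (ψ : G → ℂ) g)) : (∃ n : Cfsg.IrrCharacter G → ℤ, ∀ g : G, (p ^ Cfsg.blockDefect p B : ℂ) * Cfsg.pRegularPart p χ g = ∑ᶠ ψ ∈ B, (n ψ : ℂ) * (ψ : G → ℂ) g) := by
  obtain ⟨n, hn⟩ := hχ
  choose a ha using fun (ψ : Cfsg.IrrCharacter G) (hψ : ψ ∈ B) => exists_int_blockMat hM hB hψ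
  refine ⟨fun φ => ∑ ψ : Cfsg.IrrCharacter G, if hψ : ψ ∈ B then n ψ * a ψ hψ φ else 0, fun g => ?_⟩
  have e1 : Cfsg.pRegularPart p χ g =
      ∑ ψ : Cfsg.IrrCharacter G, indVal B ψ * ((n ψ : ℂ) * regPart p (ψ : G → ℂ) g) := by
    unfold Cfsg.pRegularPart Cfsg.IsPRegular regPart
    by_cases h : p ∣ orderOf g
    · simp [h]
    · simp only [h, not_false_eq_true, if_true, if_false, hn, finsum_mem_eq_indVal]
  rw [e1, finsum_mem_eq_indVal, Finset.mul_sum]
  calc ∑ ψ : Cfsg.IrrCharacter G, (p : ℂ) ^ Cfsg.blockDefect p B *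
        (indVal B ψ * ((n ψ : ℂ) * regPart p (ψ : G → ℂ) g))
      = ∑ ψ : Cfsg.IrrCharacter G, ∑ φ : Cfsg.IrrCharacter G, indVal B φ *
          (((if hψ : ψ ∈ B then n ψ * a ψ hψ φ else 0 : ℤ) : ℂ) * (φ : G → ℂ) g) := by
        refine Finset.sum_congr rfl fun ψ _ => ?_
        by_cases hψ : ψ ∈ B
        · rw [regPart_eq_sum_block hM hB hψ, Finset.sum_apply, Finset.mul_sum, Finset.mul_sum,
            Finset.mul_sum]
          refine Finset.sum_congr rfl fun φ _ => ?_
          rw [dif_pos hψ, Int.cast_mul, ← ha ψ hψ φ, blockMat,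
            CfsgLib.Char.inner_smul_left, indVal, if_pos hψ, Pi.smul_apply, smul_eq_mul]
          ring
        · simp [indVal, hψ]
    _ = _ := by
        rw [Finset.sum_comm]
        refine Finset.sum_congr rfl fun φ _ => ?_
        rw [Int.cast_sum, Finset.sum_mul, Finset.mul_sum]

end Cfsg.Agent.S4666
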