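import Cfsg.Statements.S4668
import Cfsg.Agent.Lib.BlockPair
import Cfsg.Agent.Lib.BlockPrincipal
import Cfsg.Agent.Lib.BlockOrth

set_option autoImplicit false
open Cfsg
open CfsgLib.Block


namespace Cfsg.Agent.S4668

/-- Fix a prime p and a maximal ideal M of the algebraic integers containing p. Let Q₀ < Q₁ < ⋯ < Q_m be a strictly increasing chain of p-subgroups of the finite group G and N the intersection of their normalizers. Then every block idempotent of N is supported on C_G(Q_m): for every p-block E of N, the idempotent coefficient of E vanishes at every element of N outside C_G(Q_m). -/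
theorem result {G : Type*} [Group G] [Fintype G] (p : ℕ) [Fact p.Prime] (M : Ideal Cfsg.AlgInt) (hM : Cfsg.IsPModular p M) (m : ℕ) (Q : Fin (m + 1) → Subgroup G) (hQ : StrictMono Q) (hQp : ∀ i, IsPGroup p (Q i)) (N : Subgroup G) (hN : ∀ g : G, g ∈ N ↔ ∀ i, g ∈ Subgroup.normalizer (Q i : Set G)) (E : Set (Cfsg.IrrCharacter N)) (hE : Cfsg.IsPBlock M E) (n : N) (hn : (n : G) ∉ Subgroup.centralizer (Q (Fin.last m) : Set G)) : Cfsg.blockCoeff E n = 0 := by
  haveI := Fintype.ofFinite N
  rw [blockCoeff_eq_coef]
  by_cases hn' : p ∣ orderOf n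
  · exact coef_indVal_singular hM hE hn'
  by_contra hne
  have hx : ¬ p ∣ orderOf (n : G) := by rwa [Subgroup.orderOf_coe]
  -- `n` centralises the part of each `Q i` inside `N`
  have hpart : ∀ i, ∀ u ∈ Q i, u ∈ N → u * (n : G) = (n : G) * u := by
    intro i u hu huN
    haveI : ((Q i).subgroupOf N).Normal := ⟨fun a ha g => Subgroup.mem_subgroupOf.2 (by
      push_cast
      exact (Subgroup.mem_normalizer_iff.1 ((hN g).1 g.2 i) a).1 (Subgroup.mem_subgroupOf.1 ha))⟩
    have hmem : n ∈ Subgroup.centralizer (((Q i).subgroupOf N : Subgroup N) : Set N) := by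
      by_contra hc
      exact hne (coef_bIdem_eq_zero_of_not_mem hM ((Q i).subgroupOf N)
        ((hQp i).comap_of_injective _ (Subgroup.subtype_injective N)) hE hc)
    exact congrArg Subtype.val
      (Subgroup.mem_centralizer_iff.1 hmem ⟨u, huN⟩ (Subgroup.mem_subgroupOf.2 hu))
  -- induction along the chain
  suffices key : ∀ k, ∀ i : Fin (m + 1), i.val = k →
      (n : G) ∈ Subgroup.centralizer (Q i : Set G) from hn (key _ (Fin.last m) rfl)
  intro k
  induction k with
  | zero =>
    intro i hi
    refine Subgroup.mem_centralizer_iff.2 fun u hu => hpart i u hu ((hN u).2 fun j => ?_)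
    exact Subgroup.le_normalizer (hQ.monotone (by simp [Fin.le_def, hi]) hu)
  | succ k ih =>
    intro i hi
    set j : Fin (m + 1) := ⟨k, by omega⟩ with hj
    have hjc := ih j rfl
    have hji : Q j ≤ Q i := hQ.monotone (by simp [Fin.le_def, hj, hi])
    -- `C_{Q i}(Q j)` lies in `N`
    have hCN : ∀ u ∈ Q i, u ∈ Subgroup.centralizer (Q j : Set G) → u ∈ N := by
      intro u hu hc
      refine (hN u).2 fun l => ?_
      rcases le_total l j with hl | hl
      · exact Subgroup.centralizer_le_normalizer _ (Subgroup.centralizer_le (hQ.monotone hl) hc)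
      · by_cases hli : i ≤ l
        · exact Subgroup.le_normalizer (hQ.monotone hli hu)
        · have : l = j := by
            apply Fin.ext
            simp only [Fin.le_def, hj, hi, not_le] at hl hli
            simp only [hj]
            omega
          subst this
          exact Subgroup.centralizer_le_normalizer _ hc
    set H := Q i ⊓ Subgroup.centralizer ({(n : G)} : Set G) with hH
    suffices hQH : Q i ≤ H by
      exact Subgroup.mem_centralizer_iff.2 fun u hu =>
        Subgroup.mem_centralizer_singleton_iff.1 (hQH hu).2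
    by_contra hlt
    have hT := lt_inf_normalizer_of_pGroup (hQp i)
      (lt_of_le_not_ge (inf_le_left : H ≤ Q i) hlt)
    obtain ⟨q, hq, hqH⟩ := SetLike.exists_of_lt hT
    have hxN := (hN n).1 n.2 i
    set c := q⁻¹ * ((n : G) * q * (n : G)⁻¹) with hc
    have hcQ : c ∈ Q i := mul_mem (inv_mem hq.1) ((Subgroup.mem_normalizer_iff.1 hxN q).1 hq.1)
    have hcC : c ∈ Subgroup.centralizer (Q j : Set G) := by
      refine Subgroup.mem_centralizer_iff.2 fun h hh => ?_
      have hhH : h ∈ H := ⟨hji hh, Subgroup.mem_centralizer_singleton_iff.2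
        (Subgroup.mem_centralizer_iff.1 hjc h hh)⟩
      have h1 := Subgroup.mem_centralizer_singleton_iff.1 hhH.2
      have h2 := Subgroup.mem_centralizer_singleton_iff.1
        ((Subgroup.mem_normalizer_iff.1 hq.2 h).1 hhH).2
      have e1 : (n : G)⁻¹ * h * (n : G) = h := by
        rw [mul_assoc, h1, inv_mul_cancel_left]
      have e2 : (n : G) * (q * h * q⁻¹) * (n : G)⁻¹ = q * h * q⁻¹ := by
        rw [← h2, mul_inv_cancel_right]
      have e3 : c * h * c⁻¹ = h := by
        calc c * h * c⁻¹ = q⁻¹ * ((n : G) * (q * ((n : G)⁻¹ * h * (n : G)) * q⁻¹) * (n : G)⁻¹) * q := by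
              rw [hc]; group
          _ = q⁻¹ * (q * h * q⁻¹) * q := by rw [e1, e2]
          _ = h := by group
      exact (mul_inv_eq_iff_eq_mul.1 e3).symm
    have hcn : c * (n : G) = (n : G) * c := hpart i c hcQ (hCN c hcQ hcC)
    have hpow : ∀ r : ℕ, (n : G) ^ r * q = q * c ^ r * (n : G) ^ r := by
      intro r
      induction r with
      | zero => simp
      | succ r ihr =>
        have hcr : (n : G) * c ^ r = c ^ r * (n : G) := (Commute.pow_right hcn.symm r).eq
        calc (n : G) ^ (r + 1) * q = (n : G) * ((n : G) ^ r * q) := by rw [pow_succ', mul_assoc]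
          _ = ((n : G) * q * (n : G)⁻¹) * ((n : G) * c ^ r) * (n : G) ^ r := by
              rw [ihr]; group
          _ = q * c * (c ^ r * (n : G)) * (n : G) ^ r := by
              rw [hcr, show (n : G) * q * (n : G)⁻¹ = q * c by rw [hc]; group]
          _ = q * c ^ (r + 1) * (n : G) ^ (r + 1) := by
              rw [pow_succ' c r, pow_succ' (n : G) r]; group
    have h1 := hpow (orderOf (n : G))
    rw [pow_orderOf_eq_one, one_mul, mul_one] at h1
    have h2 : c ^ orderOf (n : G) = 1 := mul_eq_left.1 h1.symm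
    obtain ⟨l, hl⟩ := IsPGroup.iff_orderOf.1 (hQp i) ⟨c, hcQ⟩
    rw [Subgroup.orderOf_mk] at hl
    have hc1 : c = 1 := orderOf_eq_one_iff.1 (Nat.eq_one_of_dvd_coprimes
      (Nat.Coprime.pow_left l ((Fact.out : p.Prime).coprime_iff_not_dvd.2 hx))
      (dvd_of_eq hl) (orderOf_dvd_of_pow_eq_one h2))
    refine hqH ⟨hq.1, Subgroup.mem_centralizer_singleton_iff.2 ?_⟩
    have h3 : (n : G) * q * (n : G)⁻¹ = q := by
      calc (n : G) * q * (n : G)⁻¹ = q * c := by rw [hc]; group
        _ = q := by rw [hc1, mul_one]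
    exact (mul_inv_eq_iff_eq_mul.1 h3).symm

end Cfsg.Agent.S4668
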