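import Cfsg.Statements.S4670
import Cfsg.Agent.Lib.BlockBrauerCorr

set_option autoImplicit false
open Cfsg
open CfsgLib.Block CfsgLib.Char
open scoped Classical


namespace Cfsg.Agent.S4670

/-- Fix a prime p and a maximal ideal M of the algebraic integers containing p. Let P be a p-subgroup of the finite group G and H a subgroup containing N_G(P). For every p-block B of G with defect group P there is exactly one p-block c of H with defect group P whose idempotent agrees with that of B, modulo the local ideal at M, at every element of C_G(P) (their Brauer-map images at P coincide); and every p-block c of H with defect group P arises in this way from exactly one such B. This is the Brauer correspondence over H. -/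
theorem result {G : Type*} [Group G] [Fintype G] (p : ℕ) [Fact p.Prime] (M : Ideal Cfsg.AlgInt) (hM : Cfsg.IsPModular p M) (P H : Subgroup G) (hP : IsPGroup p P) (hH : Subgroup.normalizer (P : Set G) ≤ H) : (∀ B : Set (Cfsg.IrrCharacter G), Cfsg.IsPBlock M B → Cfsg.IsDefectGroup p M B P → ∃! c : Set (Cfsg.IrrCharacter H), Cfsg.IsPBlock M c ∧ Cfsg.IsDefectGroup p M c (P.subgroupOf H) ∧ ∀ x : G, x ∈ Subgroup.centralizer (P : Set G) → Cfsg.MemLocalIdeal M (Cfsg.blockCoeff B x - Cfsg.subgroupBlockCoeff H c x)) ∧ (∀ c : Set (Cfsg.IrrCharacter H), Cfsg.IsPBlock M c → Cfsg.IsDefectGroup p M c (P.subgroupOf H) → ∃! B : Set (Cfsg.IrrCharacter G), Cfsg.IsPBlock M B ∧ Cfsg.IsDefectGroup p M B P ∧ ∀ x : G, x ∈ Subgroup.centralizer (P : Set G) → Cfsg.MemLocalIdeal M (Cfsg.blockCoeff B x - Cfsg.subgroupBlockCoeff H c x)) := by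
  obtain ⟨N, hN⟩ : ∃ N : Subgroup G, N = Subgroup.normalizer (P : Set G) := ⟨_, rfl⟩
  obtain ⟨N', hN'⟩ : ∃ N' : Subgroup H, N' = Subgroup.normalizer ((P.subgroupOf H : Subgroup H) : Set H) := ⟨_, rfl⟩
  have hPH : P ≤ H := Subgroup.le_normalizer.trans hH
  have hPN : P ≤ N := hN ▸ Subgroup.le_normalizer
  have hPN' : P.subgroupOf H ≤ N' := hN' ▸ Subgroup.le_normalizer
  have hC : Subgroup.centralizer (P : Set G) ≤ N := hN ▸ Subgroup.centralizer_le_normalizer (P : Set G)
  have hC' : Subgroup.centralizer ((P.subgroupOf H : Subgroup H) : Set H) ≤ N' :=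
    hN' ▸ Subgroup.centralizer_le_normalizer _
  have hP' : IsPGroup p (P.subgroupOf H) := hP.of_equiv (Subgroup.subgroupOfEquivOfLe hPH).symm
  have hCH : Subgroup.centralizer (P : Set G) ≤ H := hC.trans (hN ▸ hH)
  have hmem : ∀ h : H, h ∈ N' ↔ (h : G) ∈ N := by
    intro h
    rw [hN', hN, Subgroup.mem_normalizer_iff, Subgroup.mem_normalizer_iff]
    refine ⟨fun hh z => ?_, fun hh z => by
      simp only [Subgroup.mem_subgroupOf, Subgroup.coe_mul, Subgroup.coe_inv]
      exact hh z⟩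
    by_cases hz : z ∈ H
    · have := hh ⟨z, hz⟩
      simpa [Subgroup.mem_subgroupOf] using this
    · refine ⟨fun hzP => absurd (hPH hzP) hz, fun hzP => absurd ?_ hz⟩
      have := mul_mem (mul_mem (inv_mem h.2) (hPH hzP)) h.2
      rwa [show (h : G)⁻¹ * ((h : G) * z * (h : G)⁻¹) * h = z by group] at this
  let e : N ≃* N' :=
    { toFun := fun n => ⟨⟨n, hH (hN ▸ n.2)⟩, (hmem _).2 n.2⟩
      invFun := fun n => ⟨((n : H) : G), (hmem _).1 n.2⟩
      left_inv := fun n => rfl
      right_inv := fun n => rfl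
      map_mul' := fun a b => rfl }
  have hcH : Nat.card (P.subgroupOf H) = Nat.card P := Nat.card_congr (Subgroup.subgroupOfEquivOfLe hPH).toEquiv
  haveI : (P.subgroupOf N).Normal := (Subgroup.normal_subgroupOf_iff_le_normalizer hPN).2 hN.le
  have hconv : ∀ {B : Set (Cfsg.IrrCharacter G)} {c : Set (Cfsg.IrrCharacter H)}, Cfsg.IsPBlock M B → Cfsg.IsPBlock M c →
      ((∀ x : G, x ∈ Subgroup.centralizer (P : Set G) → Cfsg.MemLocalIdeal M (Cfsg.blockCoeff B x - Cfsg.subgroupBlockCoeff H c x)) ↔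
      ∀ x : H, (x : G) ∈ Subgroup.centralizer (P : Set G) → gFn hM B x = gFn hM c x) := by
    intro B c hB hc
    refine ⟨fun h x hx => (gFn_eq_gFn_iff hM hB hc _ _).2 (by simpa only [subgroupBlockCoeff_coe] using h x hx),
      fun h x hx => ?_⟩
    have h2 := (gFn_eq_gFn_iff hM hB hc _ _).1 (h ⟨x, hCH hx⟩ hx)
    rwa [← subgroupBlockCoeff_coe] at h2
  have down := fun {c : Set (Cfsg.IrrCharacter H)} (hc : Cfsg.IsPBlock M c)
    (hD : Cfsg.IsDefectGroup p M c (P.subgroupOf H)) =>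
      brauer_corr_down hM hP' hC' hN'.le hPN' hN' hc hD
  have up := fun {b : Set (Cfsg.IrrCharacter N')} (hb : Cfsg.IsPBlock M b)
    (hd : p ^ Cfsg.blockDefect p b = Nat.card (P.subgroupOf H)) =>
      brauer_corr_up hM hP' hC' hN'.le hPN' hN' hb hd
  -- a block of `H` and one of `G` correspond when their local blocks do
  have link : ∀ {B : Set (Cfsg.IrrCharacter G)} {c : Set (Cfsg.IrrCharacter H)} {b : Set (Cfsg.IrrCharacter N)},
      (∀ n : N, (n : G) ∈ Subgroup.centralizer (P : Set G) → gFn hM B n = gFn hM b n) →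
      ((∀ x : H, (x : G) ∈ Subgroup.centralizer (P : Set G) → gFn hM B x = gFn hM c x) ↔
      ∀ n : N', (n : H) ∈ Subgroup.centralizer ((P.subgroupOf H : Subgroup H) : Set H) →
        gFn hM c n = gFn hM (irrMap e '' b) n) := by
    intro B c b hb
    refine ⟨fun h n hn => ?_, fun h x hx => ?_⟩
    · obtain ⟨m, rfl⟩ := e.surjective n
      have hm := (mem_centralizer_subgroupOf hPH _).1 hn
      rw [gFn_irrMap, ← hb m hm]
      exact (h _ hm).symm
    · have h1 := h (e ⟨x, hC hx⟩) ((mem_centralizer_subgroupOf hPH _).2 hx)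
      rw [gFn_irrMap, ← hb ⟨x, hC hx⟩ hx] at h1
      exact h1.symm
  refine ⟨fun B hB hBD => ?_, fun c hc hcD => ?_⟩
  · obtain ⟨b, ⟨hb, hbd, hbag⟩, hbu⟩ := brauer_corr_down hM hP hC hN.le hPN hN hB hBD
    obtain ⟨c, ⟨hc, hcD, hcag⟩, hcu⟩ := up (isPBlock_irrMap e hb)
      (by rw [blockDefect_irrMap, hbd, hcH])
    refine ⟨c, ⟨hc, hcD, (hconv hB hc).2 ((link hbag).2 hcag)⟩, fun c' hc' => ?_⟩
    exact hcu c' ⟨hc'.1, hc'.2.1, (link hbag).1 ((hconv hB hc'.1).1 hc'.2.2)⟩
  · obtain ⟨b', ⟨hb', hbd', hbag'⟩, hbu'⟩ := down hc hcD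
    obtain ⟨B, ⟨hB, hBD, hBag⟩, hBu⟩ := brauer_corr_up hM hP hC hN.le hPN hN (isPBlock_irrMap e.symm hb')
      (by rw [blockDefect_irrMap, hbd', hcH])
    have himg : irrMap e '' (irrMap e.symm '' b') = b' := by
      rw [Set.image_image]
      simp only [irrMap_symm, Set.image_id']
    refine ⟨B, ⟨hB, hBD, (hconv hB hc).2 ((link hBag).2 (by rw [himg]; exact hbag'))⟩, fun B' hB' => ?_⟩
    obtain ⟨b, ⟨hb, hbd, hbag⟩, -⟩ := brauer_corr_down hM hP hC hN.le hPN hN hB'.1 hB'.2.1
    have heq := hbu' (irrMap e '' b) ⟨isPBlock_irrMap e hb, by rw [blockDefect_irrMap, hbd, hcH],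
      (link hbag).1 ((hconv hB'.1 hc).1 hB'.2.2)⟩
    refine hBu B' ⟨hB'.1, hB'.2.1, ?_⟩
    rw [← heq, Set.image_image]
    intro n hn
    have h3 := irrMap_symm e.symm
    simp only [MulEquiv.symm_symm] at h3
    simp only [h3, Set.image_id']
    exact hbag n hn

end Cfsg.Agent.S4670
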