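import Cfsg.Statements.S4671
import Cfsg.Agent.S4435
import Cfsg.Agent.S4436
import Cfsg.Agent.Lib.BlockEquiv
import Cfsg.Agent.Lib.BlockFongReynolds
import Cfsg.Agent.Lib.BlockCoveringDefect

set_option autoImplicit false
open Cfsg
open CfsgLib.Block CfsgLib.Char
open scoped Classical


namespace Cfsg.Agent.S4671

/-- Fix a prime p and a maximal ideal M of the algebraic integers containing p. Let N be a normal subgroup of the finite group G, B a p-block of G and P a defect group of B. Then there is a p-block c of N, stable under conjugation by P and covered by B (some member of B has a constituent in c on restriction to N), such that P ∩ N is a defect group of c. -/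
theorem result {G : Type*} [Group G] [Fintype G] (p : ℕ) [Fact p.Prime] (M : Ideal Cfsg.AlgInt) (hM : Cfsg.IsPModular p M) (N : Subgroup G) [N.Normal] [Fintype N] (B : Set (Cfsg.IrrCharacter G)) (hB : Cfsg.IsPBlock M B) (P : Subgroup G) (hP : Cfsg.IsDefectGroup p M B P) : ∃ c : Set (Cfsg.IrrCharacter N), Cfsg.IsPBlock M c ∧ (∀ x ∈ P, Cfsg.StabilizesBlock N c x) ∧ (∃ χ ∈ B, ∃ θ ∈ c, Cfsg.classInner (fun n : N => (χ : G → ℂ) n) (θ : N → ℂ) ≠ 0) ∧ Cfsg.IsDefectGroup p M c ((P ⊓ N).subgroupOf N) := by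
  obtain ⟨χ, hχ⟩ := isPBlock_nonempty hM hB
  obtain ⟨θ, hθ⟩ := exists_over (N := N) χ
  set b := blockOf M (θ : N → ℂ) with hbdef
  have hb : IsPBlock M b := isPBlock_blockOf θ
  set β := bFn hM N b with hβ
  set T : Subgroup G := stabSub β with hTdef
  have hstab : ∀ g : G, g ∈ T ↔ StabilizesBlock N b g := fun g => by
    rw [stabilizesBlock_iff hM hb g, Subgroup.normalizer_eq_top]
    exact ⟨fun h => ⟨trivial, h⟩, fun h => h.2⟩
  have hcl : ∀ {g : G}, g ∈ T → ∀ θ ∈ b, ∀ θ' : IrrCharacter N,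
      (θ' : N → ℂ) = conjFn g (θ : N → ℂ) → θ' ∈ b := by
    intro g hg θ hθ θ' hθ'
    obtain ⟨χ', hχ', h⟩ := ((hstab g⁻¹).1 (inv_mem hg)).2 θ hθ
    have e : θ' = χ' := Subtype.ext (funext fun n => by
      rw [hθ']
      refine (h ⟨g * n * g⁻¹, ‹N.Normal›.conj_mem n n.2 g⟩ n ?_).symm
      show (n : G) = g⁻¹ * (g * n * g⁻¹) * g⁻¹⁻¹
      group)
    rwa [e]
  have hT' : IsStab b T := by
    intro g
    refine ⟨fun hg θ hθ θ' hθ' => hcl hg θ hθ θ' (funext hθ'), fun h => ?_⟩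
    rw [← inv_inv g]
    refine inv_mem ((hstab g⁻¹).2 ⟨?_, fun θ hθ => ?_⟩)
    · rw [Subgroup.normalizer_eq_top]; trivial
    · refine ⟨⟨conjFn g (θ : N → ℂ), isIrrCharacter_conjFn θ.2 g⟩, h θ hθ _ (fun n => rfl), ?_⟩
      intro k k' hk
      refine congrArg (θ : N → ℂ) (Subtype.ext ?_)
      show g * (k' : G) * g⁻¹ = k
      rw [hk]; group
  have hNT : N ≤ T := fun n hn => cnj_eq_self_of_invBy
    (IsBlockFn.invBy (hM := hM) (H := N) ⟨b, hb, rfl⟩) hn
  haveI : Fintype T := Fintype.ofFinite _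
  haveI : Fintype (N.subgroupOf T) := Fintype.ofFinite _
  obtain ⟨B', hB', ⟨ψ, hψ, θ₁, hθ₁, hov⟩, hind⟩ :=
    (S4435.result p M hM N b hb T hT' hNT).2.2 B hB ⟨χ, hχ, θ, mem_blockOf_self hM θ, hθ⟩
  obtain ⟨Q', hQ'⟩ := exists_defectGroup hM (isPBlock_irrMap (Subgroup.subgroupOfEquivOfLe hNT).symm hb)
  obtain ⟨P', hP', hPQ⟩ := exists_defectGroup_inf_eq hM
    (isPBlock_irrMap (Subgroup.subgroupOfEquivOfLe hNT).symm hb) hB' hψ
    (Set.mem_image_of_mem (inT hNT) hθ₁) ((over_inT hNT ψ θ₁).2 hov)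
    (Q := Q'.map (N.subgroupOf T).subtype) (Subgroup.map_subtype_le _)
    (by convert hQ' using 1; exact Subgroup.comap_map_eq_self_of_injective (Subgroup.subtype_injective _) _)
  have hdef := (S4436.result p M hM N b hb T hT' hNT B' hB' ⟨ψ, hψ, θ₁, hθ₁, hov⟩ B hind).1 P' hP'
  obtain ⟨x, hx⟩ := defectGroup_eq_conj hM hB hdef hP
  -- back from the stabiliser, then conjugate
  have hQN := isDefectGroup_irrMap hM (Subgroup.subgroupOfEquivOfLe hNT)
    (isPBlock_irrMap (Subgroup.subgroupOfEquivOfLe hNT).symm hb) hQ'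
  rw [Set.image_image, show (fun ξ => irrMap (Subgroup.subgroupOfEquivOfLe hNT)
      (irrMap (Subgroup.subgroupOfEquivOfLe hNT).symm ξ)) = (fun ξ => ξ) from
    funext fun ξ => irrMap_symm _ ξ, Set.image_id'] at hQN
  have hfin := isDefectGroup_irrMap hM (MulAut.conjNormal x : MulAut N) hb hQN
  have hfwd : ∀ g, g ∈ N ↔ x⁻¹ * g * x ∈ N := fun g =>
    ⟨fun h => by simpa using ‹N.Normal›.conj_mem g h x⁻¹, fun h => by
      have := ‹N.Normal›.conj_mem _ h x
      rwa [show x * (x⁻¹ * g * x) * x⁻¹ = g by group] at this⟩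
  obtain ⟨hcblock, hcfn⟩ := conjSet_data hM x hfwd hb
  have hceq : conjSet N N x b = irrMap (MulAut.conjNormal x : MulAut N) '' b := by
    ext ξ'
    constructor
    · rintro ⟨ξ, hξ, h⟩
      refine ⟨ξ, hξ, Subtype.ext (funext fun c' => ?_)⟩
      obtain ⟨c, rfl⟩ := (MulAut.conjNormal x : MulAut N).surjective c'
      rw [irrMap_apply, h c _ (MulAut.conjNormal_apply x c)]
    · rintro ⟨ξ, hξ, rfl⟩
      refine ⟨ξ, hξ, fun c c' hc => ?_⟩
      rw [show c' = (MulAut.conjNormal x : MulAut N) c from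
        Subtype.ext (hc.trans (MulAut.conjNormal_apply x c).symm), irrMap_apply]
  refine ⟨conjSet N N x b, hcblock, fun z hz => ?_, ?_, ?_⟩
  · rw [stabilizesBlock_iff hM hcblock z, hcfn]
    refine ⟨by rw [Subgroup.normalizer_eq_top]; trivial, ?_⟩
    rw [← hx] at hz
    obtain ⟨t, ⟨s, hs, rfl⟩, rfl⟩ := hz
    have hst : cnj (T.subtype s) β = β := s.2
    show cnj (x * T.subtype s * x⁻¹) (cnj x β) = cnj x β
    rw [cnj_cnj, inv_mul_cancel_right, ← cnj_cnj, hst]
  · refine ⟨χ, hχ, irrMap (MulAut.conjNormal x : MulAut N) θ,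
      hceq ▸ Set.mem_image_of_mem _ (mem_blockOf_self hM θ), ?_⟩
    refine (over_conj x⁻¹ ?_).2 hθ
    funext n
    obtain ⟨c, rfl⟩ := (MulAut.conjNormal x : MulAut N).surjective n
    rw [irrMap_apply]
    refine congrArg (θ : N → ℂ) (Subtype.ext ?_)
    show (c : G) = x⁻¹ * ((MulAut.conjNormal x : MulAut N) c : G) * x⁻¹⁻¹
    rw [MulAut.conjNormal_apply]; group
  · rw [hceq]
    convert hfin using 1
    ext n
    obtain ⟨c, rfl⟩ := (MulAut.conjNormal x : MulAut N).surjective n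
    rw [← hx]
    constructor
    · intro h
      have h' := Subgroup.mem_subgroupOf.1 h
      obtain ⟨⟨s, ⟨t, ht, rfl⟩, hts⟩, -⟩ := h'
      have hct : T.subtype t = (c : G) := by
        have e : x * T.subtype t * x⁻¹ = x * (c : G) * x⁻¹ := hts.trans (MulAut.conjNormal_apply x c)
        exact mul_left_cancel (mul_right_cancel e)
      have hmem : t ∈ P' ⊓ N.subgroupOf T := ⟨ht, Subgroup.mem_subgroupOf.2 (by rw [show ((t : T) : G) = (c : G) from hct]; exact c.2)⟩
      rw [hPQ] at hmem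
      obtain ⟨q, hq, hqt⟩ := hmem
      refine Subgroup.mem_map_of_mem _ ⟨q, hq, Subtype.ext ?_⟩
      show ((q : T) : G) = c
      rw [show (q : T) = t from hqt]
      exact hct
    · rintro ⟨_, ⟨q, hq, rfl⟩, hqc⟩
      have hqc' := (MulAut.conjNormal x : MulAut N).injective hqc
      have hmem : (q : T) ∈ P' ⊓ N.subgroupOf T := hPQ ▸ Subgroup.mem_map_of_mem _ hq
      refine Subgroup.mem_subgroupOf.2 ⟨⟨((q : T) : G), Subgroup.mem_map_of_mem T.subtype hmem.1, ?_⟩,
        ((MulAut.conjNormal x : MulAut N) c).2⟩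
      rw [MulAut.conjNormal_apply, ← hqc']
      rfl

end Cfsg.Agent.S4671
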