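import Cfsg.Statements.S4672
import Cfsg.Agent.Lib.BlockCoverApps

set_option autoImplicit false
open Cfsg
open CfsgLib.Block CfsgLib.Char
open scoped Classical


namespace Cfsg.Agent.S4672

/-- Fix a prime p and a maximal ideal M of the algebraic integers containing p. Let N be a normal subgroup of the finite group G of p-power index and c a p-block of N stable under conjugation by G. Then the idempotent of c is a block idempotent of G: there is a p-block B of G whose idempotent coefficients agree with those of c on N and vanish off N; and for every defect group P of such a block B, G = NP and P ∩ N is a defect group of c. -/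
theorem result {G : Type*} [Group G] [Fintype G] (p : ℕ) [Fact p.Prime] (M : Ideal Cfsg.AlgInt) (hM : Cfsg.IsPModular p M) (N : Subgroup G) [N.Normal] (hN : ∃ k : ℕ, N.index = p ^ k) (c : Set (Cfsg.IrrCharacter N)) (hc : Cfsg.IsPBlock M c) (hst : ∀ x : G, Cfsg.StabilizesBlock N c x) : (∃ B : Set (Cfsg.IrrCharacter G), Cfsg.IsPBlock M B ∧ ∀ g : G, Cfsg.blockCoeff B g = Cfsg.subgroupBlockCoeff N c g) ∧ ∀ B : Set (Cfsg.IrrCharacter G), Cfsg.IsPBlock M B → (∀ g : G, Cfsg.blockCoeff B g = Cfsg.subgroupBlockCoeff N c g) → ∀ P : Subgroup G, Cfsg.IsDefectGroup p M B P → N ⊔ P = ⊤ ∧ Cfsg.IsDefectGroup p M c ((P ⊓ N).subgroupOf N) := by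
  haveI := Fintype.ofFinite N
  obtain ⟨B₀, hB₀, -, hg, hcoef, hdef⟩ :=
    block_of_pPower_index hM hN hc (cnj_eq_of_stabilizes hM hc hst)
  refine ⟨⟨B₀, hB₀, hcoef⟩, fun B hB hBc P hP => ?_⟩
  have e' : blockCoeff B = blockCoeff B₀ := funext fun g => (hBc g).trans (hcoef g).symm
  have key : ∀ f f' : G → ℂ, f = f' → (fun g => if h : f g ∈ locRing hM then res hM ⟨_, h⟩ else 0)
      = (fun g => if h : f' g ∈ locRing hM then res hM ⟨_, h⟩ else 0) := by
    rintro f _ rfl; rfl
  have e : B = B₀ := gFn_injOn hM hB hB₀ (key _ _ e')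
  rw [e] at hP
  exact ⟨(hdef P hP).1, (hdef P hP).2.1⟩

end Cfsg.Agent.S4672
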