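import Cfsg.Statements.S4673
import Cfsg.Agent.S4435
import Cfsg.Agent.S4436
import Cfsg.Agent.Lib.BlockFongReynolds
import Cfsg.Agent.Lib.BlockCoverApps
import Cfsg.Agent.Lib.BlockCoveringDefect
import Cfsg.Agent.Lib.BlockPairLocal

set_option autoImplicit false
open Cfsg
open CfsgLib.Block CfsgLib.Char
open scoped Classical


namespace Cfsg.Agent.S4673

universe u

variable {G : Type u} [Group G] [Fintype G] {p : ℕ} [Fact p.Prime] {M : Ideal AlgInt}

/-- A set closed under conjugation by a subgroup gives a closed set of that subgroup. -/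
theorem orbit_inT {N T : Subgroup G} [N.Normal] [Fintype N] [Fintype T] (hNT : N ≤ T)
    [Fintype (N.subgroupOf T)] {c : Set (IrrCharacter N)}
    (h : ∀ t : G, t ∈ T → ∀ θ ∈ c, ∀ φ : IrrCharacter N, (φ : N → ℂ) = conjFn t (θ : N → ℂ) → φ ∈ c) :
    orbitSet (G := T) (inT hNT '' c) ⊆ inT hNT '' c := by
  rintro ψ ⟨t, _, ⟨θ, hθ, rfl⟩, hψ⟩
  obtain ⟨φ, rfl⟩ : ∃ φ, inT hNT φ = ψ := ⟨_, irrMap_symm _ ψ⟩
  exact ⟨φ, h t t.2 θ hθ φ ((conjFn_inT hNT t).1 hψ), rfl⟩

/-- Above a stable block, a normal subgroup of prime power index raises the defect. -/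
theorem defect_add_le (hM : IsPModular p M) {N K : Subgroup G} [N.Normal] [K.Normal] [Fintype N]
    (hNK : N ≤ K) {k : ℕ} (hidx : N.relIndex K = p ^ k) {c : Set (IrrCharacter N)}
    (hc : IsPBlock M c) (horb : orbitSet (G := G) c ⊆ c) {B : Set (IrrCharacter G)}
    (hB : IsPBlock M B) {χ : IrrCharacter G} (hχ : χ ∈ B) {θ : IrrCharacter N} (hθ : θ ∈ c)
    (hover : Over N χ θ) : blockDefect p c + k ≤ blockDefect p B := by
  haveI : Fintype K := Fintype.ofFinite _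
  haveI : Fintype (N.subgroupOf K) := Fintype.ofFinite _
  set c' : Set (IrrCharacter (N.subgroupOf K)) := inT hNK '' c
  have hc' : IsPBlock M c' := isPBlock_irrMap _ hc
  have horb' : orbitSet (G := K) c' ⊆ c' := orbit_inT hNK fun t _ θ hθ φ h => horb ⟨t, θ, hθ, h⟩
  have hst : ∀ x : K, StabilizesBlock (N.subgroupOf K) c' x := by
    refine fun x => ⟨by rw [Subgroup.normalizer_eq_top]; trivial, fun η hη => ?_⟩
    refine ⟨⟨conjFn x⁻¹ (η : N.subgroupOf K → ℂ), isIrrCharacter_conjFn η.2 x⁻¹⟩,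
      horb' ⟨x⁻¹, η, hη, rfl⟩, fun a a' ha => congrArg (η : N.subgroupOf K → ℂ) (Subtype.ext ?_)⟩
    show x⁻¹ * (a' : K) * x⁻¹⁻¹ = a
    rw [ha]; group
  obtain ⟨bK, hbK, hset, -, -, hdef⟩ :=
    block_of_pPower_index hM ⟨k, hidx⟩ hc' (cnj_eq_of_stabilizes hM hc' hst)
  rw [Over, mult_eq_sum χ.2 K hNK] at hover
  obtain ⟨φ, -, hφ⟩ := Finset.exists_ne_zero_of_sum_ne_zero hover
  have hφK : φ ∈ bK := by
    rw [hset]
    intro η hη
    obtain ⟨g, hg⟩ := exists_conj_of_over ((over_inT hNK φ θ).2 (right_ne_zero_of_mul hφ)) hη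
    exact horb' ⟨g, _, Set.mem_image_of_mem _ hθ, hg⟩
  obtain ⟨Q, hQ⟩ := exists_defectGroup hM hbK
  obtain ⟨P, hP, hPQ⟩ := exists_defectGroup_inf_eq hM hbK hB hχ hφK
    (left_ne_zero_of_mul hφ : Over K χ φ) (Q := Q.map K.subtype) (Subgroup.map_subtype_le _)
    (by rwa [Subgroup.subgroupOf, Subgroup.comap_map_eq_self_of_injective K.subtype_injective])
  have h := Subgroup.card_le_of_le (hPQ ▸ (inf_le_left : P ⊓ K ≤ P))
  rw [Subgroup.card_subtype, card_defectGroup hM hbK hQ, card_defectGroup hM hB hP,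
    (hdef Q hQ).2.2] at h
  have h' := (Nat.pow_le_pow_iff_right hM.1.one_lt).1 h
  rw [show (N.subgroupOf K).index = p ^ k from hidx, hM.1.factorization_pow] at h'
  simp only [Finsupp.single_eq_same] at h'
  have e : blockDefect p c' = blockDefect p c := blockDefect_irrMap _ c
  omega

/-- Fix a prime p and a maximal ideal M of the algebraic integers containing p. Let N ≤ L be normal subgroups of the finite group G with L/N a p-group, let B be a p-block of G covering the p-block c of N (some member of B has a constituent in c on restriction to N), and suppose that N contains a defect group of B. Then the stabilizer T of c in G satisfies T ∩ L = N. -/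
theorem result {G : Type*} [Group G] [Fintype G] (p : ℕ) [Fact p.Prime] (M : Ideal Cfsg.AlgInt) (hM : Cfsg.IsPModular p M) (N L : Subgroup G) [N.Normal] [L.Normal] [Fintype N] (hNL : N ≤ L) (hLN : ∃ k : ℕ, (N.subgroupOf L).index = p ^ k) (B : Set (Cfsg.IrrCharacter G)) (hB : Cfsg.IsPBlock M B) (c : Set (Cfsg.IrrCharacter N)) (hc : Cfsg.IsPBlock M c) (hcov : (∃ χ ∈ B, ∃ θ ∈ c, Cfsg.classInner (fun n : N => (χ : G → ℂ) n) (θ : N → ℂ) ≠ 0)) (hD : ∃ D : Subgroup G, Cfsg.IsDefectGroup p M B D ∧ D ≤ N) (T : Subgroup G) (hT : ∀ x : G, x ∈ T ↔ Cfsg.StabilizesBlock N c x) : T ⊓ L = N := by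
  have hp := hM.1
  have hcl : ∀ {g : G}, g ∈ T → ∀ θ ∈ c, ∀ θ' : IrrCharacter N,
      (θ' : N → ℂ) = conjFn g (θ : N → ℂ) → θ' ∈ c := by
    intro g hg θ hθ θ' hθ'
    obtain ⟨χ', hχ', h⟩ := ((hT g⁻¹).1 (inv_mem hg)).2 θ hθ
    have e : θ' = χ' := Subtype.ext (funext fun n => by
      rw [hθ']
      refine (h ⟨g * n * g⁻¹, ‹N.Normal›.conj_mem n n.2 g⟩ n ?_).symm
      show (n : G) = g⁻¹ * (g * n * g⁻¹) * g⁻¹⁻¹
      group)
    rwa [e]
  have hT' : IsStab c T := by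
    intro g
    refine ⟨fun hg θ hθ θ' hθ' => hcl hg θ hθ θ' (funext hθ'), fun h => ?_⟩
    rw [← inv_inv g]
    refine inv_mem ((hT g⁻¹).2 ⟨?_, fun θ hθ => ?_⟩)
    · rw [Subgroup.normalizer_eq_top]; trivial
    · refine ⟨⟨conjFn g (θ : N → ℂ), isIrrCharacter_conjFn θ.2 g⟩, h θ hθ _ (fun n => rfl), ?_⟩
      intro k k' hk
      refine congrArg (θ : N → ℂ) (Subtype.ext ?_)
      show g * (k' : G) * g⁻¹ = k
      rw [hk]; group
  have hNT : N ≤ T := fun n hn => (hT n).2 ⟨Subgroup.le_normalizer hn, fun θ hθ =>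
    ⟨θ, hθ, fun k k' hk => by
      have e : k' = MulAut.conj (⟨n, hn⟩ : N) k := Subtype.ext hk
      rw [e]
      exact irr_classFunction θ k ⟨n, hn⟩⟩⟩
  haveI : Fintype T := Fintype.ofFinite _
  haveI : Fintype (N.subgroupOf T) := Fintype.ofFinite _
  obtain ⟨χ, hχ, θ, hθ, hcon⟩ := hcov
  obtain ⟨B', hB', hcov', hind⟩ := (S4435.result p M hM N c hc T hT' hNT).2.2 B hB ⟨χ, hχ, θ, hθ, hcon⟩
  obtain ⟨D', hD'⟩ := exists_defectGroup hM hB'
  obtain ⟨hdef, -⟩ := S4436.result p M hM N c hc T hT' hNT B' hB' hcov' B hind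
  obtain ⟨D, hD, hDN⟩ := hD
  have hE := hdef D' hD'
  obtain ⟨x, hx⟩ := conjLE_defectGroup_of_brauerNonzero hM hB hD (isPGroup_defectGroup hM hB hE)
    (brauerNonzero_defectGroup hM hB hE)
  have hD'N : D' ≤ N.subgroupOf T := by
    intro d hd
    rw [Subgroup.mem_subgroupOf]
    have h : x * (d : G) * x⁻¹ ∈ D :=
      hx (Subgroup.mem_map_of_mem _ (Subgroup.mem_map_of_mem T.subtype hd))
    have := ‹N.Normal›.conj_mem _ (hDN h) x⁻¹
    rwa [show x⁻¹ * (x * (d : G) * x⁻¹) * x⁻¹⁻¹ = d by group] at this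
  -- the block of the stabilizer over the moved block
  obtain ⟨ψ, hψ, θ₁, hθ₁, hov⟩ := hcov'
  set c' : Set (IrrCharacter (N.subgroupOf T)) := inT hNT '' c with hc'
  have hc'B : IsPBlock M c' := isPBlock_irrMap _ hc
  have hc'orb : orbitSet (G := T) c' ⊆ c' := orbit_inT hNT fun t ht => hcl ht
  have h1 := card_inf_le hM hc'B hB' hψ (Set.mem_image_of_mem _ hθ₁) ((over_inT hNT ψ θ₁).2 hov) hD'
  rw [inf_of_le_left hD'N, card_defectGroup hM hB' hD'] at h1
  have h1' := (Nat.pow_le_pow_iff_right hp.one_lt).1 h1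
  obtain ⟨k, hk⟩ := hLN
  have hKL : N ≤ T ⊓ L := le_inf hNT hNL
  obtain ⟨k', -, hk'⟩ := (Nat.dvd_prime_pow hp).1
    (hk ▸ dvd_of_mul_right_eq _ (Subgroup.relIndex_mul_relIndex N (T ⊓ L) L hKL inf_le_right) :
      N.relIndex (T ⊓ L) ∣ p ^ k)
  have hidx : (N.subgroupOf T).relIndex ((T ⊓ L).subgroupOf T) = p ^ k' := by
    rw [Subgroup.relIndex_subgroupOf inf_le_left, hk']
  haveI : ((T ⊓ L).subgroupOf T).Normal := by
    rw [Subgroup.inf_subgroupOf_left]; infer_instance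
  have h2 := defect_add_le hM (N := N.subgroupOf T) (K := (T ⊓ L).subgroupOf T)
    (fun z hz => Subgroup.mem_subgroupOf.2 (hKL (Subgroup.mem_subgroupOf.1 hz))) hidx hc'B hc'orb
    hB' hψ (Set.mem_image_of_mem _ hθ₁) ((over_inT hNT ψ θ₁).2 hov)
  have hk0 : k' = 0 := by omega
  rw [hk0, pow_zero, Subgroup.relIndex_eq_one] at hk'
  exact le_antisymm hk' hKL

end Cfsg.Agent.S4673
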