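import Cfsg.Statements.S4675
import Cfsg.Agent.Lib.BlockBound
import Cfsg.Agent.Lib.BlockRank
import Cfsg.Agent.Lib.BlockDefect

set_option autoImplicit false
open Cfsg

namespace Cfsg.Agent.S4675

/-- Fix a prime p and a maximal ideal M of the algebraic integers containing p. Let B be a p-block of the finite group G with defect group P and p-regular rank one (a single irreducible Brauer character). Then there are a function φ on G that is, on the p-regular elements, an integer combination of the members of B, and natural numbers d_χ (χ ∈ B), such that every χ ∈ B agrees with d_χ·φ on the p-regular elements and Σ_{χ ∈ B} d_χ² equals the order of P (the single Cartan invariant of B is the order of P). -/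
theorem result {G : Type*} [Group G] [Fintype G] (p : ℕ) [Fact p.Prime] (M : Ideal Cfsg.AlgInt) (hM : Cfsg.IsPModular p M) (B : Set (Cfsg.IrrCharacter G)) (hB : Cfsg.IsPBlock M B) (P : Subgroup G) (hP : Cfsg.IsDefectGroup p M B P) (hl : Cfsg.blockRank p B = 1) : ∃ φ : G → ℂ, ∃ d : Cfsg.IrrCharacter G → ℕ, (∃ n : Cfsg.IrrCharacter G → ℤ, ∀ x : G, Cfsg.IsPRegular p x → φ x = ∑ᶠ ψ ∈ B, (n ψ : ℂ) * (ψ : G → ℂ) x) ∧ (∀ χ ∈ B, ∀ x : G, Cfsg.IsPRegular p x → (χ : G → ℂ) x = (d χ : ℂ) * φ x) ∧ ∑ᶠ χ ∈ B, d χ ^ 2 = Nat.card P := by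
  classical
  have hp : p.Prime := Fact.out
  obtain ⟨χ₀, hχ₀, hh0⟩ := CfsgLib.Block.exists_height_zero hM hB
  -- all members are proportional on the regular elements
  have hprop : ∀ χ ∈ B, ∀ x : G, IsPRegular p x → (χ : G → ℂ) x = (χ : G → ℂ) 1 / (χ₀ : G → ℂ) 1 * (χ₀ : G → ℂ) x := by
    intro χ hχ
    set v : G → ℂ := pRegularPart p (χ₀ : G → ℂ) with hv
    have h1reg : IsPRegular p (1 : G) := by
      show ¬ p ∣ orderOf (1 : G)
      rw [orderOf_one]; exact hp.not_dvd_one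
    have hv0 : v ≠ 0 := fun h => CfsgLib.Block.irr_one_ne_zero χ₀ (by
      have := congrFun h 1
      simpa [hv, pRegularPart, h1reg] using this)
    have hle : Submodule.span ℂ {v} ≤ Submodule.span ℂ ((fun χ : IrrCharacter G => pRegularPart p (χ : G → ℂ)) '' B) :=
      Submodule.span_mono (Set.singleton_subset_iff.2 ⟨χ₀, hχ₀, rfl⟩)
    have heq := Submodule.eq_of_le_of_finrank_eq hle (by rw [finrank_span_singleton hv0]; exact hl.symm)
    have hmem : pRegularPart p (χ : G → ℂ) ∈ Submodule.span ℂ {v} :=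
      heq ▸ Submodule.subset_span ⟨χ, hχ, rfl⟩
    obtain ⟨c, hc⟩ := Submodule.mem_span_singleton.1 hmem
    have hc1 := congrFun hc 1
    simp only [hv, pRegularPart, Pi.smul_apply, if_pos h1reg, smul_eq_mul] at hc1
    intro x hx
    have hcx := congrFun hc x
    simp only [hv, pRegularPart, Pi.smul_apply, if_pos hx, smul_eq_mul] at hcx
    rw [← hcx, ← hc1, mul_div_assoc, div_self (CfsgLib.Block.irr_one_ne_zero χ₀), mul_one]
  -- the common divisor of the degrees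
  set Bf := Finset.univ.filter (· ∈ B) with hBf
  have hmemB : ∀ χ, χ ∈ Bf ↔ χ ∈ B := fun χ => by simp [hBf]
  obtain ⟨f, hf⟩ := Finset.gcd_eq_sum_mul Bf (fun χ : IrrCharacter G => (charDegree (χ : G → ℂ) : ℤ))
  set g : ℤ := Bf.gcd (fun χ : IrrCharacter G => (charDegree (χ : G → ℂ) : ℤ)) with hg
  have hgd : ∀ χ ∈ B, g ∣ (charDegree (χ : G → ℂ) : ℤ) := fun χ hχ => Finset.gcd_dvd ((hmemB χ).2 hχ)
  have hg0 : g ≠ 0 := fun h => by
    have := hgd χ₀ hχ₀
    rw [h, zero_dvd_iff] at this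
    exact (CfsgLib.Block.charDegree_pos χ₀).ne' (by exact_mod_cast this)
  have hgpos : 0 < g := lt_of_le_of_ne (Int.nonneg_of_normalize_eq_self Finset.normalize_gcd) (Ne.symm hg0)
  let d : IrrCharacter G → ℕ := fun χ => ((charDegree (χ : G → ℂ) : ℤ) / g).toNat
  have hd : ∀ χ ∈ B, (d χ : ℤ) * g = charDegree (χ : G → ℂ) := by
    intro χ hχ
    simp only [d]
    rw [Int.toNat_of_nonneg (Int.ediv_nonneg (by positivity) hgpos.le), Int.ediv_mul_cancel (hgd χ hχ)]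
  have hdC : ∀ χ ∈ B, (d χ : ℂ) * (g : ℂ) = (χ : G → ℂ) 1 := by
    intro χ hχ
    rw [← CfsgLib.Block.charDegree_cast χ.2.isCharacter']
    exact_mod_cast hd χ hχ
  have hbez : ∑ χ ∈ Bf, f χ * (d χ : ℤ) = 1 := by
    refine mul_right_cancel₀ hg0 ?_
    rw [Finset.sum_mul, one_mul]
    conv_rhs => rw [hf]
    refine Finset.sum_congr rfl fun χ hχ => ?_
    rw [mul_assoc, hd χ ((hmemB χ).1 hχ)]; ring
  let φ : G → ℂ := fun x => ∑ χ ∈ Bf, (f χ : ℂ) * (χ : G → ℂ) x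
  have hφ : ∀ χ ∈ B, ∀ x : G, IsPRegular p x → (χ : G → ℂ) x = (d χ : ℂ) * φ x := by
    intro χ hχ x hx
    simp only [φ]
    rw [Finset.sum_congr rfl fun ψ hψ => show (f ψ : ℂ) * (ψ : G → ℂ) x = ((f ψ * (d ψ : ℤ) : ℤ) : ℂ) * ((g : ℂ) / (χ₀ : G → ℂ) 1 * (χ₀ : G → ℂ) x) by
      rw [hprop ψ ((hmemB ψ).1 hψ) x hx, ← hdC ψ ((hmemB ψ).1 hψ)]; push_cast; ring]
    rw [← Finset.sum_mul, ← Int.cast_sum, hbez, hprop χ hχ x hx, ← hdC χ hχ]
    push_cast; ring
  refine ⟨φ, d, ⟨f, fun x _ => ?_⟩, hφ, ?_⟩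
  · simp only [φ]
    rw [finsum_mem_eq_toFinset_sum]
    exact Finset.sum_congr (by ext; simp [hBf]) fun _ _ => rfl
  · obtain ⟨A, hA, -, hsq⟩ := CfsgLib.Block.exists_intMat hM hB
    set D := blockDefect p B with hD
    set c : ℂ := (p : ℂ) ^ D * classInner (CfsgLib.Block.regPart p φ) (CfsgLib.Block.regPart p φ) with hc
    have hreg : ∀ χ ∈ B, CfsgLib.Block.regPart p (χ : G → ℂ) = (d χ : ℂ) • CfsgLib.Block.regPart p φ := by
      intro χ hχ
      funext x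
      simp only [CfsgLib.Block.regPart, Pi.smul_apply, smul_eq_mul]
      split_ifs with h
      · simp
      · exact hφ χ hχ x h
    have hAc : ∀ χ ∈ B, ∀ ψ ∈ B, (A χ ψ : ℂ) = c * (d χ : ℂ) * (d ψ : ℂ) := by
      intro χ hχ ψ hψ
      rw [← hA χ hχ ψ, CfsgLib.Block.blockMat, CfsgLib.Char.inner_smul_left, ← CfsgLib.Block.regPart_inner_self,
        hreg χ hχ, hreg ψ hψ, CfsgLib.Char.inner_smul_left, CfsgLib.Char.inner_smul_right, Complex.conj_natCast, hc]
      ring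
    set cz : ℤ := ∑ χ ∈ Bf, ∑ ψ ∈ Bf, f χ * f ψ * A χ ψ with hcz
    have hczc : (cz : ℂ) = c := by
      rw [hcz]
      push_cast
      rw [Finset.sum_congr rfl fun χ hχ => Finset.sum_congr rfl fun ψ hψ =>
        show (f χ : ℂ) * (f ψ : ℂ) * (A χ ψ : ℂ) = c * (((f χ * (d χ : ℤ) : ℤ) : ℂ) * ((f ψ * (d ψ : ℤ) : ℤ) : ℂ)) by
          rw [hAc χ ((hmemB χ).1 hχ) ψ ((hmemB ψ).1 hψ)]; push_cast; ring]
      simp only [← Finset.mul_sum, ← Finset.sum_mul]
      rw [← Int.cast_sum, hbez]; push_cast; ring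
    have hAz : ∀ χ ∈ B, ∀ ψ ∈ B, A χ ψ = cz * (d χ : ℤ) * (d ψ : ℤ) := by
      intro χ hχ ψ hψ
      have h := hAc χ hχ ψ hψ
      rw [← hczc] at h
      exact_mod_cast h
    obtain ⟨-, h2, -⟩ := CfsgLib.Block.intMat_divisibility hM hB hχ₀ hχ₀ (hA χ₀ hχ₀ χ₀)
    obtain ⟨hne, hval⟩ := h2 hh0
    rw [hh0] at hval
    have hpA : ¬ (p : ℤ) ∣ A χ₀ χ₀ := by
      intro hdvd
      rcases padicValInt.eq_zero_iff.1 hval with h | h | h
      · exact hp.ne_one h
      · exact hne h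
      · exact h hdvd
    have hpc : ¬ (p : ℤ) ∣ cz := fun h => hpA (by rw [hAz χ₀ hχ₀ χ₀ hχ₀, mul_assoc]; exact h.mul_right _)
    set S := ∑ χ ∈ Bf, d χ ^ 2 with hS
    have hcS : cz * (S : ℤ) = (p : ℤ) ^ D := by
      have h := hsq χ₀ hχ₀ χ₀ hχ₀
      rw [Finset.sum_congr rfl fun φ' hφ' => show A χ₀ φ' * A φ' χ₀ = cz ^ 2 * (d χ₀ : ℤ) ^ 2 * (d φ' : ℤ) ^ 2 by
        rw [hAz χ₀ hχ₀ φ' ((hmemB φ').1 hφ'), hAz φ' ((hmemB φ').1 hφ') χ₀ hχ₀]; ring, ← Finset.mul_sum] at h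
      refine mul_left_cancel₀ hne ?_
      rw [hAz χ₀ hχ₀ χ₀ hχ₀] at h ⊢
      rw [hS]; push_cast
      linear_combination h
    have habs : cz.natAbs * S = p ^ D := by
      have h := congrArg Int.natAbs hcS
      rwa [Int.natAbs_mul, Int.natAbs_natCast, Int.natAbs_pow, Int.natAbs_natCast] at h
    have hone : cz.natAbs = 1 := by
      obtain ⟨j, -, hj⟩ := (Nat.dvd_prime_pow hp).1 (Dvd.intro S habs)
      rcases Nat.eq_zero_or_pos j with rfl | hj0
      · simpa using hj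
      · exact absurd (Int.natCast_dvd.2 (hj ▸ dvd_pow_self p hj0.ne')) hpc
    rw [hone, one_mul] at habs
    rw [CfsgLib.Block.card_defectGroup hM hB hP, finsum_mem_eq_toFinset_sum, ← habs]
    exact Finset.sum_congr (by ext; simp [hBf]) fun _ _ => rfl

end Cfsg.Agent.S4675
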