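import Cfsg.Statements.S4678
import Cfsg.Agent.Lib.BlockPairFusion

set_option autoImplicit false
open Cfsg
open CfsgLib.Block


namespace Cfsg.Agent.S4678

/-- Fix a prime p and a maximal ideal M of the algebraic integers containing p, a p-block B of the finite group G with maximal Brauer pair (P, e), its fusion system F on P, and a Brauer pair (Q, f) ≤ (P, e). Then Q is fully centralized in F if and only if C_P(Q) is a defect group of f as a block of C_G(Q). -/
theorem result {G : Type*} [Group G] [Fintype G] (p : ℕ) [Fact p.Prime] (M : Ideal Cfsg.AlgInt) (hM : Cfsg.IsPModular p M) (B : Set (Cfsg.IrrCharacter G)) (P : Subgroup G) (e : Set (Cfsg.IrrCharacter (Subgroup.centralizer (P : Set G)))) (hmax : Cfsg.IsMaximalBrauerPair p M B P e) (F : Cfsg.FusionSystem P) (hF : Cfsg.IsBlockFusionSystemOn p M B P e F) (Q : Subgroup G) (f : Set (Cfsg.IrrCharacter (Subgroup.centralizer (Q : Set G)))) (hQP : Q ≤ P) (hf : Cfsg.IsPBlock M f) (hle : Cfsg.SubpairLE p M Q f P e) : F.IsFullyCentralized Q ↔ Cfsg.IsDefectGroup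 p M f ((P ⊓ Subgroup.centralizer (Q : Set G)).subgroupOf (Subgroup.centralizer (Q : Set G))) := by
  obtain ⟨he, hP⟩ := maxPair_of_isMaximal hM hmax
  have hc := chain_of_subpairLE hM hle
  haveI := Fintype.ofFinite (Subgroup.centralizer (Q : Set G))
  constructor
  · intro hfc
    obtain ⟨x, hx, hcard⟩ := exists_conj_centralizer_defect hP hf ((hc.pairIn_iff B).1 hP.1)
    exact isDefectGroup_centralizer hP.1.1 hf hc
      (hcard.trans (hfc.2 _ ((blockFusion_isConj_iff hM hF hf hle _).2 ⟨x, rfl, hx⟩)))
  · intro hD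
    refine ⟨hc.le, fun R hR => ?_⟩
    obtain ⟨g, rfl, hg⟩ := (blockFusion_isConj_iff hM hF hf hle R).1 hR
    obtain ⟨hb, hfn⟩ := conjBlock_data hM g hf
    rw [← hfn] at hg
    have hle' := card_centralizer_le_defect hP.1.1 hb hg
    rw [conjBlock_eq_conjSet, blockDefect_conjSet g (fun z => mem_centralizer_map_conj g z) f,
      ← card_defectGroup hM hf hD, Nat.card_congr (Subgroup.subgroupOfEquivOfLe
      (inf_le_right : P ⊓ Subgroup.centralizer (Q : Set G) ≤ _)).toEquiv] at hle'
    exact hle'

end Cfsg.Agent.S4678
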