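import Cfsg.Statements.S4679
import Cfsg.Agent.Lib.BlockPairStab
import Cfsg.Agent.Lib.BlockPairFusion

set_option autoImplicit false
open Cfsg
open CfsgLib.Block


namespace Cfsg.Agent.S4679

/-- Fix a prime p and a maximal ideal M of the algebraic integers containing p, a p-block B of the finite group G with maximal Brauer pair (P, e), its fusion system F on P, a Brauer pair (Q, f) ≤ (P, e), and let T be the stabilizer of f in N_G(Q). Then Q is fully normalized in F if and only if N_P(Q) is a defect group of the block of T whose idempotent is that of f. -/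
theorem result {G : Type*} [Group G] [Fintype G] (p : ℕ) [Fact p.Prime] (M : Ideal Cfsg.AlgInt) (hM : Cfsg.IsPModular p M) (B : Set (Cfsg.IrrCharacter G)) (P : Subgroup G) (e : Set (Cfsg.IrrCharacter (Subgroup.centralizer (P : Set G)))) (hmax : Cfsg.IsMaximalBrauerPair p M B P e) (F : Cfsg.FusionSystem P) (hF : Cfsg.IsBlockFusionSystemOn p M B P e F) (Q : Subgroup G) (f : Set (Cfsg.IrrCharacter (Subgroup.centralizer (Q : Set G)))) (hQP : Q ≤ P) (hf : Cfsg.IsPBlock M f) (hle : Cfsg.SubpairLE p M Q f P e) (T : Subgroup G) (hT : ∀ y : G, y ∈ T ↔ y ∈ Subgroup.normalizer (Q : Set G) ∧ Cfsg.StabilizesBlock (Subgroup.centralizer (Q : Set G)) f y) : F.IsFullyNormalized Q ↔ ∃ F' : Set (Cfsg.IrrCharacter T), Cfsg.IsPBlock M F' ∧ (∀ t : T, Cfsg.blockCoeff F' t = Cfsg.subgroupBlockCoeff (Subgroup.centralizer (Q : Set G)) f (t : G)) ∧ Cfsg.IsDefectGroup p M F' ((P ⊓ Subgroup.normalizer (Q : Set G)).subgroupOf T) := by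
  haveI := Fintype.ofFinite T
  obtain ⟨he, hP⟩ := maxPair_of_isMaximal hM hmax
  have hc := chain_of_subpairLE hM hle
  have hQ := (hc.pairIn_iff B).1 hP.1
  obtain ⟨hCT, hQT, hTN, -⟩ := stab_facts hM hf hT
  obtain ⟨F', hF', hFf⟩ := exists_stab_block hM hQ.1.1 hQT hCT hTN hf fun t ht => ((hT t).1 ht).2
  have hbF := bFn_stab (hM := hM) hCT hFf
  constructor
  · intro hfn
    obtain ⟨x, hx, hcard⟩ := exists_conj_normalizer_defect hP hf hQ hT hF' hbF
    have h := hcard.trans (hfn.2 _ ((blockFusion_isConj_iff hM hF hf hle _).2 ⟨x, rfl, hx⟩))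
    obtain ⟨hRT, D, hD, hle'⟩ := exists_defectGroup_ge_normalizer hP.1.1 hf hc hT hF' hbF
    refine ⟨F', hF', hFf, ?_⟩
    rw [Subgroup.eq_of_le_of_card_ge hle']
    · exact hD
    · rw [card_defectGroup hM hF' hD, Nat.card_congr (Subgroup.subgroupOfEquivOfLe hRT).toEquiv]
      exact h
  · rintro ⟨F₁, hF₁, hFf₁, hD⟩
    have hbF₁ := bFn_stab (hM := hM) hCT hFf₁
    obtain rfl : F₁ = F' := bFn_injOn hM T hF₁ hF' (hbF₁.trans hbF.symm)
    obtain ⟨hRT, -⟩ := exists_defectGroup_ge_normalizer hP.1.1 hf hc hT hF₁ hbF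
    refine ⟨hc.le, fun R hR => ?_⟩
    obtain ⟨g, rfl, hg⟩ := (blockFusion_isConj_iff hM hF hf hle R).1 hR
    obtain ⟨hcb, hfn⟩ := conjBlock_data hM g hf
    rw [← hfn] at hg
    obtain ⟨F₀, hF₀, hd₀, hb₀, hT₀⟩ := blockDefect_stab_conj hf hT hF₁ hbF g
    haveI := Fintype.ofFinite (T.map (MulAut.conj g).toMonoidHom : Subgroup G)
    obtain ⟨hRT', D', hD', hle'⟩ := exists_defectGroup_ge_normalizer hP.1.1 hcb hg hT₀ hF₀ hb₀
    have h1 := Subgroup.card_le_of_le hle'
    rw [card_defectGroup hM hF₀ hD', hd₀, ← card_defectGroup hM hF₁ hD,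
      Nat.card_congr (Subgroup.subgroupOfEquivOfLe hRT).toEquiv,
      Nat.card_congr (Subgroup.subgroupOfEquivOfLe hRT').toEquiv] at h1
    exact h1

end Cfsg.Agent.S4679
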