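import Cfsg.Statements.S4681
import Cfsg.Agent.Lib.BlockPairFusion

set_option autoImplicit false
open Cfsg
open CfsgLib.Block


namespace Cfsg.Agent.S4681

/-- Fix a prime p and a maximal ideal M of the algebraic integers containing p. Let B₀ be the principal p-block of the finite group G, P a Sylow p-subgroup and e₀ the principal p-block of C_G(P). Then (P, e₀) is a maximal Brauer pair of B₀, and the fusion system of B₀ on (P, e₀) is the fusion system of G on P: its maps from each subgroup of P are exactly the conjugation maps into P by elements of G. -/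
theorem result {G : Type*} [Group G] [Fintype G] (p : ℕ) [Fact p.Prime] (M : Ideal Cfsg.AlgInt) (hM : Cfsg.IsPModular p M) (S : Sylow p G) : Cfsg.IsMaximalBrauerPair p M (Cfsg.principalBlock M G) (S : Subgroup G) (Cfsg.principalBlock M (Subgroup.centralizer ((S : Subgroup G) : Set G))) ∧ ∀ F : Cfsg.FusionSystem (S : Subgroup G), Cfsg.IsBlockFusionSystemOn p M (Cfsg.principalBlock M G) (S : Subgroup G) (Cfsg.principalBlock M (Subgroup.centralizer ((S : Subgroup G) : Set G))) F → ∀ Q : Subgroup G, F.Hom Q = (Cfsg.groupFusionSystem (S : Subgroup G)).Hom Q := by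
  have hmax := maxPair_principal hM S
  refine ⟨isMaximal_of_maxPair hM (isPBlock_principal M) hmax, fun F hF Q => ?_⟩
  ext φ
  rw [hF.2 Q φ]
  constructor
  · rintro ⟨hQ, g, hg, himg, -⟩
    exact ⟨hQ, fun u => himg ⟨u, u.2, (hg u).symm⟩, g, hg⟩
  · rintro ⟨hQ, himg, g, hg⟩
    have hle : Q.map (MulAut.conj g).toMonoidHom ≤ (S : Subgroup G) := by
      rintro _ ⟨u, hu, rfl⟩
      have := himg ⟨u, hu⟩
      rwa [hg] at this
    have hc := fun (R : Subgroup G) (hR : R ≤ (S : Subgroup G)) =>
      chain_principal hM _ S.isPGroup' hR le_rfl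
    refine ⟨hQ, g, hg, hle, _, subpairLE_of_chain hM (isPBlock_principal M) (isPBlock_principal M)
      (hc Q hQ), ?_⟩
    obtain ⟨hb, hfn⟩ := conjBlock_data hM g (Q := Q)
      (f := Cfsg.principalBlock M (Subgroup.centralizer (Q : Set G))) (isPBlock_principal M)
    refine subpairLE_of_chain hM hb (isPBlock_principal M) ?_
    rw [hfn]
    show CfsgLib.Block.Chain hM (_, cnj g (prinFn hM Q)) _
    rw [cnj_prinFn]
    exact hc _ hle

end Cfsg.Agent.S4681
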