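import Cfsg.Statements.S4682
import Cfsg.Agent.Lib.BlockPairLocal

set_option autoImplicit false
open Cfsg
open CfsgLib.Block


namespace Cfsg.Agent.S4682

/-- Fix a prime p and a maximal ideal M of the algebraic integers containing p, a p-block B of the finite group G with maximal Brauer pair (P, e), P abelian, and a Brauer pair (Q, f) ≤ (P, e). Let T_Q be the stabilizer of f in N_G(Q) and T_P the stabilizer of e in N_G(P). Then every element of T_Q is a product of an element of T_P and an element of C_G(Q); and the index of C_G(Q) in T_Q equals the index of T_P ∩ C_G(Q) in T_P ∩ N_G(Q). -/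
theorem result {G : Type*} [Group G] [Fintype G] (p : ℕ) [Fact p.Prime] (M : Ideal Cfsg.AlgInt) (hM : Cfsg.IsPModular p M) (B : Set (Cfsg.IrrCharacter G)) (P : Subgroup G) (e : Set (Cfsg.IrrCharacter (Subgroup.centralizer (P : Set G)))) (hmax : Cfsg.IsMaximalBrauerPair p M B P e) (hab : ∀ x ∈ P, ∀ y ∈ P, x * y = y * x) (Q : Subgroup G) (f : Set (Cfsg.IrrCharacter (Subgroup.centralizer (Q : Set G)))) (hQP : Q ≤ P) (hf : Cfsg.IsPBlock M f) (hle : Cfsg.SubpairLE p M Q f P e) (TQ : Subgroup G) (hTQ : ∀ y : G, y ∈ TQ ↔ y ∈ Subgroup.normalizer (Q : Set G) ∧ Cfsg.StabilizesBlock (Subgroup.centralizer (Q : Set G)) f y) (TP : Subgroup G) (hTP : ∀ y : G, y ∈ TP ↔ y ∈ Subgroup.normalizer (P : Set G) ∧ Cfsg.StabilizesBlock (Subgroup.centralizer (P : Set G)) e y) : (∀ x ∈ TQ, ∃ y ∈ TP, ∃ c ∈ Subgroup.centralizer (Q : Set G), x = y * c) ∧ ((Subgroup.centralizer (Q : Set G)).subgroupOf TQ).index = ((TP ⊓ Subgroup.centralizer (Q : Set G)).subgroupOf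 (TP ⊓ Subgroup.normalizer (Q : Set G))).index := by
  obtain ⟨he, hP⟩ := maxPair_of_isMaximal hM hmax
  have hc := chain_of_subpairLE hM hle
  have hdec : ∀ x ∈ TQ, ∃ y ∈ TP, ∃ c ∈ Subgroup.centralizer (Q : Set G), x = y * c := by
    intro x hx
    obtain ⟨hxN, hst⟩ := (hTQ x).1 hx
    obtain ⟨h, hh, hN, hfix⟩ := stab_decomposition hP hab hc hxN
      ((stabilizesBlock_iff hM hf x).1 hst).2
    refine ⟨h * x, (hTP _).2 ⟨hN, (stabilizesBlock_iff hM he _).2
      ⟨mem_normalizer_centralizer hN, hfix⟩⟩, x⁻¹ * h⁻¹ * x, ?_, by group⟩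
    simpa using (conj_mem_centralizer_iff (inv_mem hxN) h⁻¹).2 (inv_mem hh)
  refine ⟨hdec, ?_⟩
  have hCT : Subgroup.centralizer (Q : Set G) ≤ TQ := fun c hcc =>
    (hTQ c).2 ⟨Subgroup.centralizer_le_normalizer _ hcc, (stabilizesBlock_iff hM hf c).2
      ⟨Subgroup.le_normalizer hcc,
        cnj_eq_self_of_invBy (IsBlockFn.invBy ⟨f, hf, rfl⟩) hcc⟩⟩
  have hTT : TP ⊓ Subgroup.normalizer (Q : Set G) ≤ TQ := by
    rintro y ⟨hy, hyQ⟩
    obtain ⟨hyP, hst⟩ := (hTP y).1 hy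
    refine (hTQ y).2 ⟨hyQ, (stabilizesBlock_iff hM hf y).2 ⟨mem_normalizer_centralizer hyQ, ?_⟩⟩
    have h1 := hc.cnj y
    simp only [map_conj_eq_self hyP, map_conj_eq_self hyQ,
      ((stabilizesBlock_iff hM he y).1 hst).2] at h1
    exact Chain.unique hP.1.1 h1 hc
  set C := Subgroup.centralizer (Q : Set G)
  haveI : (C.subgroupOf TQ).Normal := (Subgroup.normal_subgroupOf_iff_le_normalizer hCT).2
    fun y hy => mem_normalizer_centralizer ((hTQ y).1 hy).1
  set K := TP ⊓ Subgroup.normalizer (Q : Set G)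
  have hsub : (TP ⊓ C).subgroupOf K =
      ((QuotientGroup.mk' (C.subgroupOf TQ)).comp (Subgroup.inclusion hTT)).ker := by
    ext y
    rw [MonoidHom.mem_ker, MonoidHom.comp_apply, QuotientGroup.mk'_apply, QuotientGroup.eq_one_iff,
      Subgroup.mem_subgroupOf, Subgroup.mem_subgroupOf, Subgroup.coe_inclusion]
    exact ⟨fun h => h.2, fun h => ⟨y.2.1, h⟩⟩
  rw [hsub, Subgroup.index_ker, Subgroup.index_eq_card, MonoidHom.range_eq_top.2 ?_,
    Subgroup.card_top]
  intro z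
  obtain ⟨⟨x, hx⟩, rfl⟩ := QuotientGroup.mk'_surjective _ z
  obtain ⟨y, hy, c, hcc, rfl⟩ := hdec x hx
  have hyN : y ∈ Subgroup.normalizer (Q : Set G) := by
    have := mul_mem ((hTQ _).1 hx).1 (inv_mem (Subgroup.centralizer_le_normalizer _ hcc))
    simpa using this
  refine ⟨⟨y, hy, hyN⟩, ?_⟩
  rw [MonoidHom.comp_apply, QuotientGroup.mk'_apply, QuotientGroup.mk'_apply, QuotientGroup.eq,
    Subgroup.mem_subgroupOf]
  simpa using hcc

end Cfsg.Agent.S4682
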