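import Cfsg.Statements.S4687
import Cfsg.Agent.Lib.BlockPairLocal

set_option autoImplicit false
open Cfsg
open CfsgLib.Block


namespace Cfsg.Agent.S4687

/-- Fix a prime p and a maximal ideal M of the algebraic integers containing p, and a p-block B of the finite group G with maximal Brauer pair (P, e), P abelian. Then B is nilpotent if and only if its inertial quotient is trivial: every element of N_G(P) stabilizing e centralizes P. -/
theorem result {G : Type*} [Group G] [Fintype G] (p : ℕ) [Fact p.Prime] (M : Ideal Cfsg.AlgInt) (hM : Cfsg.IsPModular p M) (B : Set (Cfsg.IrrCharacter G)) (P : Subgroup G) (e : Set (Cfsg.IrrCharacter (Subgroup.centralizer (P : Set G)))) (hmax : Cfsg.IsMaximalBrauerPair p M B P e) (hab : ∀ x ∈ P, ∀ y ∈ P, x * y = y * x) : Cfsg.IsNilpotentBlock p M B ↔ ∀ x : G, x ∈ Subgroup.normalizer (P : Set G) → Cfsg.StabilizesBlock (Subgroup.centralizer (P : Set G)) e x → x ∈ Subgroup.centralizer (P : Set G) := by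
  obtain ⟨he, hP⟩ := maxPair_of_isMaximal hM hmax
  constructor
  · intro hnil x hx hst
    obtain ⟨u, v, huv, hcomm, hu, hv⟩ : ∃ u v : G, u * v = x ∧ Commute u v ∧
        (∃ k : ℕ, orderOf u = p ^ k) ∧ ¬ p ∣ orderOf v := by
      obtain ⟨u, v, h1, h2, h3, h4⟩ := exists_isPPart hM.1 x
      exact ⟨u, v, h1, h2, h3, h4⟩
    have hPC : P ⊔ Subgroup.centralizer (P : Set G) ≤ Subgroup.centralizer (P : Set G) :=
      sup_le (fun a ha => Subgroup.mem_centralizer_iff.2 fun b hb => hab b hb a ha) le_rfl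
    have hxS := ((stabilizesBlock_iff hM he x).1 hst).2
    have hKS : Subgroup.zpowers x ≤ stabSub (pFn hM P e) ⊓ Subgroup.normalizer (P : Set G) :=
      Subgroup.zpowers_le.2 ⟨hxS, hx⟩
    have hupart : Cfsg.IsPPart p x u := ⟨v, huv, hcomm, hu, hv⟩
    obtain ⟨huS, huN⟩ := hKS (isPPart_mem_zpowers hM.1 hupart)
    have hv' : v ∈ stabSub (pFn hM P e) ⊓ Subgroup.normalizer (P : Set G) := by
      have := mul_mem (inv_mem (hKS (isPPart_mem_zpowers hM.1 hupart)))
        (hKS (Subgroup.mem_zpowers x))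
      rwa [← huv, inv_mul_cancel_left] at this
    obtain ⟨hvS, hvN⟩ := hv'
    rw [← huv]
    refine mul_mem (hPC (pElement_stab_mem hP hu huN huS)) (hnil.2 P e hmax.1 v hvN
      ((stabilizesBlock_iff hM he v).2 ⟨mem_normalizer_centralizer hvN, hvS⟩) hv)
  · intro hin
    refine ⟨hP.1.2.1, fun Q f hpair y hy hst hreg => ?_⟩
    obtain ⟨hf, hQ⟩ := (isBrauerPairOf_iff hM).1 hpair
    obtain ⟨x, hx⟩ := hP.exists_conj_chain hQ
    have hy' : x * y * x⁻¹ ∈ Subgroup.normalizer
        ((Q.map (MulAut.conj x).toMonoidHom : Subgroup G) : Set G) := by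
      refine Subgroup.mem_normalizer_iff.2 fun g => ?_
      have key : ∀ g, g ∈ Q.map (MulAut.conj x).toMonoidHom ↔ x⁻¹ * g * x ∈ Q := fun g => by
        constructor
        · rintro ⟨q, hq, rfl⟩
          simpa [mul_assoc] using hq
        · exact fun h => ⟨_, h, by simp [mul_assoc]⟩
      rw [key, key, Subgroup.mem_normalizer_iff.1 hy]
      simp [mul_assoc]
    have hfix : cnj (x * y * x⁻¹) (cnj x (pFn hM Q f)) = cnj x (pFn hM Q f) := by
      rw [cnj_cnj, inv_mul_cancel_right, ← cnj_cnj, ((stabilizesBlock_iff hM hf y).1 hst).2]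
    obtain ⟨h, hh, hN, hψ⟩ := stab_decomposition hP hab hx hy' hfix
    have h1 := hin _ hN ((stabilizesBlock_iff hM he _).2 ⟨mem_normalizer_centralizer hN, hψ⟩)
    have h2 := Subgroup.centralizer_le hx.le h1
    have h3 := mul_mem (inv_mem hh) h2
    rw [inv_mul_cancel_left, mem_centralizer_map_conj] at h3
    simpa [mul_assoc] using h3

end Cfsg.Agent.S4687
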