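import Cfsg.Statements.S4689
import Cfsg.Agent.Lib.BlockNilStruct
import Cfsg.Agent.Lib.BlockRank

set_option autoImplicit false
open Cfsg
open CfsgLib.Block CfsgLib.Char


namespace Cfsg.Agent.S4689

/-- Fix a prime p and a maximal ideal M of the algebraic integers containing p, and a nilpotent p-block B of the finite group G. Then B has p-regular rank one (a single irreducible Brauer character), and some χ₀ ∈ B restricts to that Brauer character: every χ ∈ B agrees on the p-regular elements with a natural-number multiple of χ₀. -/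
theorem result {G : Type*} [Group G] [Fintype G] (p : ℕ) [Fact p.Prime] (M : Ideal Cfsg.AlgInt) (hM : Cfsg.IsPModular p M) (B : Set (Cfsg.IrrCharacter G)) (hnil : Cfsg.IsNilpotentBlock p M B) : Cfsg.blockRank p B = 1 ∧ ∃ χ₀ ∈ B, ∀ χ ∈ B, ∃ d : ℕ, ∀ x : G, Cfsg.pRegularPart p (χ : G → ℂ) x = (d : ℂ) * Cfsg.pRegularPart p (χ₀ : G → ℂ) x := by
  have hB : Cfsg.IsPBlock M B := hnil.1
  obtain ⟨χ₀, hχ₀, -, -, hreg⟩ := nilData hM (Nat.card G) le_rfl B hnil
  have hne : pRegularPart p (χ₀ : G → ℂ) ≠ 0 := fun h => by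
    have h1 := congrFun h 1
    rw [pRegularPart_eq, regPart_apply_regular (by simpa using hM.1.not_dvd_one)] at h1
    exact irr_one_ne_zero χ₀ h1
  refine ⟨?_, χ₀, hχ₀, fun χ hχ => ?_⟩
  · unfold Cfsg.blockRank
    rw [show Submodule.span ℂ ((fun χ : IrrCharacter G => pRegularPart p (χ : G → ℂ)) '' B) =
        Submodule.span ℂ {pRegularPart p (χ₀ : G → ℂ)} from ?_]
    · exact finrank_span_singleton hne
    refine le_antisymm (Submodule.span_le.2 ?_)
      (Submodule.span_mono (Set.singleton_subset_iff.2 ⟨χ₀, hχ₀, rfl⟩))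
    rintro _ ⟨χ, hχ, rfl⟩
    obtain ⟨n, hn⟩ := hreg χ hχ
    refine Submodule.mem_span_singleton.2 ⟨(n : ℂ), ?_⟩
    show _ = pRegularPart p (χ : G → ℂ)
    rw [pRegularPart_eq, pRegularPart_eq, hn]
  · obtain ⟨n, hn⟩ := hreg χ hχ
    have h1 : (χ : G → ℂ) 1 = (n : ℂ) * (χ₀ : G → ℂ) 1 :=
      eq_mul_of_regPart_eq hn (by simpa using hM.1.not_dvd_one)
    rw [← CfsgLib.Block.charDegree_cast χ.2.isCharacter',
      ← CfsgLib.Block.charDegree_cast χ₀.2.isCharacter'] at h1
    have h2 : (charDegree (χ : G → ℂ) : ℤ) = n * (charDegree (χ₀ : G → ℂ) : ℤ) := by exact_mod_cast h1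
    have hn0 : 0 ≤ n := by
      have a := charDegree_pos χ₀
      nlinarith [Int.natCast_nonneg (charDegree (χ : G → ℂ))]
    lift n to ℕ using hn0
    refine ⟨n, fun x => ?_⟩
    rw [pRegularPart_eq, pRegularPart_eq, hn]
    simp

end Cfsg.Agent.S4689
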