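import Cfsg.Statements.S4693
import Cfsg.Agent.Lib.BlockPairStab
import Cfsg.Agent.Lib.BlockFusionSat
import Cfsg.Agent.Lib.BlockPairBridge

set_option autoImplicit false
open Cfsg
open CfsgLib.Block
open scoped Pointwise


namespace Cfsg.Agent.S4693

/-- Fix a prime p and a maximal ideal M of the algebraic integers containing p, a p-block B of the finite group G with maximal Brauer pair (P, e) and fusion system F on P, and a Brauer pair (Q, f) ≤ (P, e) with Q centric in F. Suppose every element of G normalizes Q and stabilizes f. Then the idempotent of B agrees with that of f modulo M at every element of G, and f is the idempotent of a nilpotent block of Q·C_G(Q): some p-block of Q·C_G(Q) has the idempotent coefficients of f and is nilpotent. -/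
theorem result {G : Type*} [Group G] [Fintype G] (p : ℕ) [Fact p.Prime] (M : Ideal Cfsg.AlgInt) (hM : Cfsg.IsPModular p M) (B : Set (Cfsg.IrrCharacter G)) (P : Subgroup G) (e : Set (Cfsg.IrrCharacter (Subgroup.centralizer (P : Set G)))) (hmax : Cfsg.IsMaximalBrauerPair p M B P e) (F : Cfsg.FusionSystem P) (hF : Cfsg.IsBlockFusionSystemOn p M B P e F) (Q : Subgroup G) (f : Set (Cfsg.IrrCharacter (Subgroup.centralizer (Q : Set G)))) (hQP : Q ≤ P) (hf : Cfsg.IsPBlock M f) (hle : Cfsg.SubpairLE p M Q f P e) (hcen : F.IsCentric Q) (hG : ∀ x : G, x ∈ Subgroup.normalizer (Q : Set G) ∧ Cfsg.StabilizesBlock (Subgroup.centralizer (Q : Set G)) f x) : (∀ g : G, Cfsg.MemLocalIdeal M (Cfsg.blockCoeff B g - Cfsg.subgroupBlockCoeff (Subgroup.centralizer (Q : Set G)) f g)) ∧ ∃ F' : Set (Cfsg.IrrCharacter ↥(Q ⊔ Subgroup.centralizer (Q : Set G))), Cfsg.IsPBlock M F' ∧ (∀ t : ↥(Q ⊔ Subgroup.centralizer (Q : Set G)), Cfsg.blockCoeff F' t = Cfsg.subgroupBlockCoeff (Subgroup.centralizer (Q : Set G)) f (t :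 G)) ∧ Cfsg.IsNilpotentBlock p M F' := by
  have hcl : Chain hM (Q, pFn hM Q f) (P, pFn hM P e) := chain_of_subpairLE hM hle
  obtain ⟨he, hψ⟩ := maxPair_of_isMaximal hM hmax
  have hQ : PairIn hM B Q (pFn hM Q f) := (hcl.pairIn_iff B).1 hψ.1
  have hQp := hQ.1.1
  have hB := hψ.1.2.1
  haveI := nontrivial_resField hM
  refine ⟨fun g => ?_, ?_⟩
  · haveI := Fintype.ofFinite (⊤ : Subgroup G)
    obtain ⟨F0, hF0, hco⟩ := exists_stab_block (T := ⊤) hM hQp le_top le_top (fun x _ => (hG x).1)
      hf fun t _ => (hG t).2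
    let ι : (⊤ : Subgroup G) ≃* G := Subgroup.topEquiv
    have hB' := isPBlock_irrMap (M := M) ι hF0
    have hcoeff : ∀ g, blockCoeff (irrMap ι '' F0) g =
        subgroupBlockCoeff (Subgroup.centralizer (Q : Set G)) f g := fun g => by
      conv_lhs => rw [show g = ι ⟨g, Subgroup.mem_top g⟩ from rfl, blockCoeff_irrMap]
      exact hco _
    have hgfn : gFn hM (irrMap ι '' F0) = pFn hM Q f := by
      funext g
      simp only [gFn, pFn, bFn]
      rw [funext hcoeff]
    have hfb : IsBlockFn hM (Subgroup.centralizer (Q : Set G)) (pFn hM Q f) := ⟨f, hf, rfl⟩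
    have hin : PairIn hM (irrMap ι '' F0) Q (pFn hM Q f) := by
      refine ⟨hQ.1, hB', ?_⟩
      rw [hgfn, trc_self_of_blockFn hfb]
      exact hfb.mul_self
    have heq : B = irrMap ι '' F0 := (existsUnique_pairIn hQ.1).unique hQ hin
    rw [heq, hcoeff, sub_self]
    exact (memLocalIdeal_iff_exists hM).2 ⟨zero_mem _, map_zero _⟩
  · set T := Q ⊔ Subgroup.centralizer (Q : Set G) with hT
    haveI := Fintype.ofFinite T
    haveI := Fintype.ofFinite (Subgroup.centralizer (Q : Set G))
    have hQT : Q ≤ T := le_sup_left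
    have hCT : Subgroup.centralizer (Q : Set G) ≤ T := le_sup_right
    have hTN : T ≤ Subgroup.normalizer (Q : Set G) := fun x _ => (hG x).1
    obtain ⟨F', hF', hco⟩ := exists_stab_block hM hQp hQT hCT hTN hf fun t _ => (hG t).2
    haveI : (Q.subgroupOf T).Normal := (Subgroup.normal_subgroupOf_iff_le_normalizer hQT).2 hTN
    obtain ⟨D, hD⟩ := exists_defectGroup hM hF'
    have hQD : Q.subgroupOf T ≤ D := normal_pGroup_le_defectGroup hM (Q.subgroupOf T)
      (hQp.of_equiv (Subgroup.subgroupOfEquivOfLe hQT).symm) hF' hD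
    -- the centric condition
    have hconj : F.IsConj Q Q := by
      refine ⟨conjHom Q 1, F.conj_mem hQP P.one_mem, ?_⟩
      rw [range_conjHom Q 1 _ (fun _ => rfl)]
      exact map_conj_eq_self (one_mem _)
    have hcq : P ⊓ Subgroup.centralizer (Q : Set G) ≤ Q := hcen.2 Q hconj
    have hdef : p ^ blockDefect p f ≤ Nat.card (Q ⊓ Subgroup.centralizer (Q : Set G) : Subgroup G) := by
      obtain ⟨x, -, hx⟩ := exists_conj_centralizer_defect hψ hf hQ
      rw [map_conj_eq_self (hG x).1] at hx
      exact hx.trans (Subgroup.card_le_of_le (le_inf hcq inf_le_right))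
    have hbF : bFn hM T F' = pFn hM Q f := bFn_stab hCT hco
    have hDC : ∀ d ∈ D, (d : G) ∈ Subgroup.centralizer (Q : Set G) → (d : G) ∈ Q := by
      obtain ⟨g, hg, hne⟩ := brauerNonzero_defectGroup hM hF' hD
      rw [blockFn_eq_of_coe hF' hbF] at hne
      have hfb : IsBlockFn hM (Subgroup.centralizer (Q : Set G)) (pFn hM Q f) := ⟨f, hf, rfl⟩
      have hgC : (g : G) ∈ Subgroup.centralizer (Q : Set G) := by
        by_contra h
        exact hne (hfb.supp h)
      set D0 : Subgroup (Subgroup.centralizer (Q : Set G)) :=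
        (D.map T.subtype).subgroupOf (Subgroup.centralizer (Q : Set G)) with hD0
      have hD0p : IsPGroup p D0 :=
        (IsPGroup.map (isPGroup_defectGroup hM hF' hD) T.subtype).comap_of_injective _
          (Subgroup.subtype_injective _)
      obtain ⟨Df, hDf⟩ := exists_defectGroup hM hf
      obtain ⟨y, hy⟩ := conjLE_defectGroup_of_brauerNonzero hM hf hDf hD0p
        ⟨⟨(g : G), hgC⟩, Subgroup.mem_centralizer_iff.2 fun d hd => by
          obtain ⟨t, ht, hte⟩ := Subgroup.mem_subgroupOf.1 hd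
          apply Subtype.ext
          show (d : G) * (g : G) = (g : G) * d
          rw [← hte]
          exact congrArg Subtype.val (Subgroup.mem_centralizer_iff.1 hg t ht),
        by rwa [← gFn_block hM hf, ← ext0_coe (Subgroup.centralizer (Q : Set G)) (gFn hM f),
          ← bFn_eq_ext0]⟩
      have hle' : Q ⊓ Subgroup.centralizer (Q : Set G) ≤
          D.map T.subtype ⊓ Subgroup.centralizer (Q : Set G) :=
        le_inf (fun u hu => ⟨⟨u, hQT hu.1⟩, hQD hu.1, rfl⟩) inf_le_right
      have heq := Subgroup.eq_of_le_of_card_ge hle' (by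
        refine le_trans ?_ hdef
        rw [← card_defectGroup hM hf hDf, ← Nat.card_congr (Subgroup.subgroupOfEquivOfLe
          (inf_le_right : D.map T.subtype ⊓ Subgroup.centralizer (Q : Set G) ≤ _)).toEquiv,
          Subgroup.inf_subgroupOf_right, ← hD0, ← card_map_conj D0 y]
        exact Subgroup.card_le_of_le hy)
      intro d hd hdC
      have : (d : G) ∈ D.map T.subtype ⊓ Subgroup.centralizer (Q : Set G) := ⟨⟨d, hd, rfl⟩, hdC⟩
      rw [← heq] at this
      exact this.1
    have hdec : ∀ t : T, ∃ q ∈ Q, ∃ c ∈ Subgroup.centralizer (Q : Set G), (t : G) = q * c := by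
      intro t
      obtain ⟨q, hq, c, hc, h⟩ := Set.mem_mul.1
        (show (t : G) ∈ (Q : Set G) * (Subgroup.centralizer (Q : Set G) : Set G) by
          rw [← Subgroup.coe_mul_of_right_le_normalizer_left Q _
            (Subgroup.centralizer_le_normalizer _)]
          exact t.2)
      exact ⟨q, hq, c, hc, h.symm⟩
    have hDQ : D ≤ Q.subgroupOf T := by
      intro d hd
      obtain ⟨q, hq, c, hc, h⟩ := hdec d
      have hcD : (⟨c, hCT hc⟩ : T) ∈ D := by
        rw [show (⟨c, hCT hc⟩ : T) = ⟨q, hQT hq⟩⁻¹ * d from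
          Subtype.ext (show c = q⁻¹ * (d : G) by rw [h]; group)]
        exact mul_mem (inv_mem (hQD (Subgroup.mem_subgroupOf.2 hq))) hd
      exact Subgroup.mem_subgroupOf.2 (h ▸ mul_mem hq (hDC _ hcD hc))
    refine ⟨F', hF', hco, hF', fun R γ hR x hx _ hreg => ?_⟩
    obtain ⟨-, hR'⟩ := (isBrauerPairOf_iff hM).1 hR
    obtain ⟨y, hy⟩ := conjLE_defectGroup_of_brauerNonzero hM hF' hD hR'.1.1
      hR'.brauerNonzero
    have hRQ : ∀ r ∈ R, (r : G) ∈ Q := fun r hr => by
      have h1 : y * r * y⁻¹ ∈ Q.subgroupOf T := hDQ (hy ⟨r, hr, rfl⟩)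
      have h2 := (‹(Q.subgroupOf T).Normal›).conj_mem _ h1 y⁻¹
      rw [← Subgroup.mem_subgroupOf]
      simpa [mul_assoc] using h2
    obtain ⟨q, hq, c, hc, hqc⟩ := hdec x
    obtain ⟨k, hk⟩ := hQp ⟨q, hq⟩
    have hk' : q ^ p ^ k = 1 := by simpa using congrArg Subtype.val hk
    have hcop : Nat.Coprime (p ^ k) (orderOf x) :=
      Nat.Coprime.pow_left _ ((Fact.out : p.Prime).coprime_iff_not_dvd.2 hreg)
    obtain ⟨n, hn0, hn1⟩ := Nat.chineseRemainder hcop 0 1
    have hxn : (x : G) ^ n = x := by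
      have : x ^ n = x ^ 1 := pow_eq_pow_iff_modEq.2 hn1
      rw [pow_one] at this
      exact_mod_cast congrArg Subtype.val this
    have hqn : q ^ n = 1 := by
      obtain ⟨m, rfl⟩ := Nat.modEq_zero_iff_dvd.1 hn0
      rw [pow_mul, hk', one_pow]
    have hqcc : Commute q c := Subgroup.mem_centralizer_iff.1 hc q hq
    have hxC : (x : G) ∈ Subgroup.centralizer (Q : Set G) := by
      rw [← hxn, hqc, hqcc.mul_pow, hqn, one_mul]
      exact pow_mem hc n
    exact Subgroup.mem_centralizer_iff.2 fun r hr =>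
      Subtype.ext (Subgroup.mem_centralizer_iff.1 hxC _ (hRQ r hr))

end Cfsg.Agent.S4693
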