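import Cfsg.Statements.S4694
import Cfsg.Agent.Lib.BlockMaxPairCrit
import Cfsg.Agent.Lib.CharDegree
import Cfsg.Agent.Lib.CharSmall
import Cfsg.Agent.Lib.CharNormal
import Cfsg.Agent.Lib.BlockDefect
import Cfsg.Agent.Lib.BlockRegular

set_option autoImplicit false
set_option maxHeartbeats 400000
open Cfsg CfsgLib.Block CfsgLib.Char

namespace Cfsg.Agent.S4694

universe u v

/-- Restriction along a map whose translates by the kernel-like factor cover the group. -/
theorem isIrr_restrict_of_values {H : Type u} [Group H] [Fintype H] {C : Type v} [Group C] [Fintype C]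
    {ψ : H → ℂ} (hψ : IsIrrCharacter H ψ) (ι : C →* H) (hι : Function.Injective ι)
    (hval : ∀ u : H, ∃ (q : H) (c : C), u = q * ι c ∧ ∀ v, ψ (q * v) = ψ v) :
    IsIrrCharacter C (ψ ∘ ι) := by
  classical
  refine isIrr_of_inner_self_one (isCharacter_comp hψ.isCharacter' ι) ?_
  have h := irr_inner_self hψ
  have hrow : ∀ u : H, ∑ c : C, ψ (u * ι c) * (starRingEnd ℂ) (ψ (u * ι c))
      = ∑ c : C, ψ (ι c) * (starRingEnd ℂ) (ψ (ι c)) := by
    intro u
    obtain ⟨q, c₀, hu, hq⟩ := hval u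
    exact Fintype.sum_equiv (Equiv.mulLeft c₀) _ _ fun c => by
      rw [Equiv.coe_mulLeft, hu, mul_assoc, hq, ← map_mul]
  have hsplit : (Nat.card C : ℂ) * ∑ u : H, ψ u * (starRingEnd ℂ) (ψ u)
      = (Nat.card H : ℂ) * ∑ c : C, ψ (ι c) * (starRingEnd ℂ) (ψ (ι c)) := by
    calc (Nat.card C : ℂ) * ∑ u : H, ψ u * (starRingEnd ℂ) (ψ u)
        = ∑ c : C, ∑ u : H, ψ (u * ι c) * (starRingEnd ℂ) (ψ (u * ι c)) := by
          have hsh : ∀ c : C, ∑ u : H, ψ (u * ι c) * (starRingEnd ℂ) (ψ (u * ι c))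
              = ∑ u : H, ψ u * (starRingEnd ℂ) (ψ u) := fun c =>
            Equiv.sum_comp (Equiv.mulRight (ι c)) (fun u => ψ u * (starRingEnd ℂ) (ψ u))
          simp only [hsh, Finset.sum_const, Finset.card_univ, nsmul_eq_mul, Nat.card_eq_fintype_card]
      _ = ∑ u : H, ∑ c : C, ψ (u * ι c) * (starRingEnd ℂ) (ψ (u * ι c)) := Finset.sum_comm
      _ = _ := by
          rw [Finset.sum_congr rfl fun u _ => hrow u, Finset.sum_const, Finset.card_univ,
            nsmul_eq_mul, Nat.card_eq_fintype_card]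
  rw [Cfsg.classInner, inv_mul_eq_iff_eq_mul₀ (natCard_ne_zero H), mul_one] at h
  rw [h, mul_comm (Nat.card C : ℂ)] at hsplit
  rw [Cfsg.classInner, inv_mul_eq_iff_eq_mul₀ (natCard_ne_zero C), mul_one]
  exact (mul_left_cancel₀ (natCard_ne_zero H) hsplit).symm

/-- An irreducible character trivial on a normal subgroup has squared degree at most the index. -/
theorem sq_le {H : Type u} [Group H] [Fintype H] (Q : Subgroup H) (η : Cfsg.IrrCharacter H)
    (hker : ∀ q ∈ Q, (η : H → ℂ) q = (η : H → ℂ) 1) :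
    Cfsg.charDegree (η : H → ℂ) ^ 2 * Nat.card Q ≤ Nat.card H := by
  classical
  have h := irr_inner_self η.2
  rw [CfsgLib.Char.inner_self_eq_norm_sq, ← Complex.ofReal_one, Complex.ofReal_inj,
    inv_mul_eq_iff_eq_mul₀ (Nat.cast_ne_zero.2 Nat.card_pos.ne'), mul_one] at h
  have hd : ∀ q ∈ Q, ‖(η : H → ℂ) q‖ ^ 2 = ((Cfsg.charDegree (η : H → ℂ) : ℝ)) ^ 2 := fun q hq => by
    rw [hker q hq, ← charDegree_cast η.2.isCharacter', Complex.norm_natCast]
  have h2 : ∑ q ∈ Finset.univ.filter (· ∈ Q), ‖(η : H → ℂ) q‖ ^ 2 ≤ ∑ g, ‖(η : H → ℂ) g‖ ^ 2 :=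
    Finset.sum_le_sum_of_subset_of_nonneg (Finset.subset_univ _) fun _ _ _ => sq_nonneg _
  rw [Finset.sum_congr rfl (fun q hq => hd q (Finset.mem_filter.1 hq).2), Finset.sum_const, nsmul_eq_mul,
    ← Fintype.card_subtype, ← Nat.card_eq_fintype_card, h] at h2
  have h3 : ((Cfsg.charDegree (η : H → ℂ) ^ 2 * Nat.card Q : ℕ) : ℝ) ≤ (Nat.card H : ℝ) := by
    push_cast; rw [mul_comm]; exact h2
  exact_mod_cast h3


/-- Fix a prime p and a maximal ideal M of the algebraic integers containing p, a p-block B of the finite group G and a Brauer pair (Q, e) of B. Let T be the stabilizer of e in N_G(Q) and suppose that (Q, e) carries a weight: the block of T whose idempotent is that of e contains an irreducible character χ that is constant on the cosets of Q and whose degree has p-part equal to the p-part of the index of Q in T. Then Z(Q) is a defect group of e as a block of C_G(Q), and Q is the largest normal p-subgroup of T: every p-subgroup of T normalized by T lies in Q. -/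
theorem result {G : Type*} [Group G] [Fintype G] (p : ℕ) [Fact p.Prime] (M : Ideal Cfsg.AlgInt) (hM : Cfsg.IsPModular p M) (B : Set (Cfsg.IrrCharacter G)) (Q : Subgroup G) (e : Set (Cfsg.IrrCharacter (Subgroup.centralizer (Q : Set G)))) (hQe : Cfsg.IsBrauerPairOf p M B Q e) (T : Subgroup G) (hT : ∀ y : G, y ∈ T ↔ y ∈ Subgroup.normalizer (Q : Set G) ∧ Cfsg.StabilizesBlock (Subgroup.centralizer (Q : Set G)) e y) (F' : Set (Cfsg.IrrCharacter T)) (hF' : Cfsg.IsPBlock M F') (hF'e : ∀ t : T, Cfsg.blockCoeff F' t = Cfsg.subgroupBlockCoeff (Subgroup.centralizer (Q : Set G)) e (t : G)) (χ : Cfsg.IrrCharacter T) (hχ : χ ∈ F') (hχQ : ∀ q : G, q ∈ Q → ∀ t : T, ∀ t' : T, (t' : G) = q * (t : G) → (χ : T → ℂ) t' = (χ : T → ℂ) t) (hdeg : (Cfsg.charDegree (χ : T → ℂ)).factorization p + (Nat.card Q).factorization p = (Nat.card T).factorization p) : Cfsg.IsDefectGroup p M e ((Q ⊓ Subgroup.centralizer (Q : Set G)).subgroupOf (Subgroup.centralizer (Q : Set G))) ∧ ∀ R : Subgroup G, R ≤ T → IsPGroup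 p R → (∀ t ∈ T, t ∈ Subgroup.normalizer (R : Set G)) → R ≤ Q := by
  classical
  have hp := (Fact.out : p.Prime)
  obtain ⟨⟨hQp, he⟩, -, -⟩ := hQe
  have hTN : ∀ t ∈ T, t ∈ Subgroup.normalizer (Q : Set G) := fun t ht => ((hT t).1 ht).1
  have hTC : ∀ t ∈ T, t ∈ Subgroup.normalizer ((Subgroup.centralizer (Q : Set G)) : Set G) :=
    fun t ht => ((hT t).1 ht).2.1
  have hnC : ∀ c ∈ Subgroup.centralizer (Q : Set G), c ∈ T := by
    intro c hc
    refine (hT c).2 ⟨?_, Subgroup.le_normalizer hc, fun η hη => ⟨η, hη, fun k k' h => ?_⟩⟩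
    · rw [Subgroup.mem_normalizer_iff]
      intro x
      constructor
      · intro hx
        rw [← Subgroup.mem_centralizer_iff.1 hc x hx, mul_inv_cancel_right]; exact hx
      · intro hx
        have h1 := Subgroup.mem_centralizer_iff.1 hc _ hx
        have h2 : c * x * c⁻¹ = x := by
          have h3 : c⁻¹ * (c * x * c⁻¹ * c) = c⁻¹ * (c * (c * x * c⁻¹)) := by rw [h1]
          simp only [mul_assoc, inv_mul_cancel, mul_one, inv_mul_cancel_left] at h3 ⊢
          exact h3.symm
        rwa [h2] at hx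
    · rw [show k' = ⟨c, hc⟩ * k * ⟨c, hc⟩⁻¹ from Subtype.ext h]
      exact irr_classFunction η k ⟨c, hc⟩
  have hQT : Q ≤ T := by
    intro q hq
    have hcomm : ∀ k ∈ Subgroup.centralizer (Q : Set G), q * k * q⁻¹ = k := fun k hk => by
      rw [Subgroup.mem_centralizer_iff.1 hk q hq, mul_inv_cancel_right]
    refine (hT q).2 ⟨Subgroup.le_normalizer hq, ?_, fun η hη => ⟨η, hη, fun k k' h => ?_⟩⟩
    · rw [Subgroup.mem_normalizer_iff]
      intro x
      constructor
      · intro hx; rw [hcomm x hx]; exact hx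
      · intro hx
        have h1 := hcomm _ hx
        have h2 : q * x * q⁻¹ = x := mul_left_cancel (mul_right_cancel h1)
        rwa [h2] at hx
    · rw [hcomm k k.2] at h
      exact congrArg (η : Subgroup.centralizer (Q : Set G) → ℂ) (Subtype.ext h)
  haveI hQn : (Q.subgroupOf T).Normal := ⟨fun x hx t => by
    rw [Subgroup.mem_subgroupOf] at hx ⊢
    exact (Subgroup.mem_normalizer_iff.1 (hTN t t.2) x).1 hx⟩
  have hχker : ∀ q : T, (q : G) ∈ Q → ∀ t : T, (χ : T → ℂ) (q * t) = (χ : T → ℂ) t := fun q hq t =>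
    hχQ q hq t (q * t) rfl
  have hvT : (Cfsg.charDegree (χ : T → ℂ)).factorization p + (Nat.card (Q.subgroupOf T)).factorization p
      = (Nat.card T).factorization p := by
    rw [Nat.card_congr (Subgroup.subgroupOfEquivOfLe hQT).toEquiv]; exact hdeg
  -- lower bound on the constituents of normal subgroups
  have hlow : ∀ (U : Subgroup T) [U.Normal] [Fintype U] (η : Cfsg.IrrCharacter U),
      Cfsg.classInner (fun n : U => (χ : T → ℂ) n) (η : U → ℂ) ≠ 0 →
      (Nat.card U).factorization p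
        ≤ (Cfsg.charDegree (η : U → ℂ)).factorization p + (Nat.card (Q.subgroupOf T)).factorization p := by
    intro U _ _ η hne
    obtain ⟨k, hk, hkd⟩ := degree_ratio χ.2 η.2 hne
    rw [← charDegree_cast χ.2.isCharacter', ← charDegree_cast η.2.isCharacter'] at hk
    have hk' : Cfsg.charDegree (χ : T → ℂ) = k * Cfsg.charDegree (η : U → ℂ) := by exact_mod_cast hk
    have hk0 : k ≠ 0 := fun h => (charDegree_pos χ).ne' (by rw [hk', h, zero_mul])
    have h1 := Nat.factorization_le_iff_dvd hk0 Subgroup.index_ne_zero_of_finite |>.2 hkd p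
    have h2 : (Nat.card T).factorization p = (Nat.card U).factorization p + U.index.factorization p := by
      rw [← Subgroup.card_mul_index U, Nat.factorization_mul Nat.card_pos.ne'
        Subgroup.index_ne_zero_of_finite, Finsupp.add_apply]
    rw [hk', Nat.factorization_mul hk0 (charDegree_pos η).ne', Finsupp.add_apply] at hvT
    omega
  refine ⟨?_, ?_⟩
  · obtain ⟨N1, hN1⟩ : ∃ N1 : Subgroup T,
        N1 = Q.subgroupOf T ⊔ (Subgroup.centralizer (Q : Set G)).subgroupOf T := ⟨_, rfl⟩
    haveI hCn : ((Subgroup.centralizer (Q : Set G)).subgroupOf T).Normal := ⟨fun x hx t => by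
      rw [Subgroup.mem_subgroupOf] at hx ⊢
      exact (Subgroup.mem_normalizer_iff.1 (hTC t t.2) x).1 hx⟩
    haveI : N1.Normal := hN1 ▸ Subgroup.sup_normal _ _
    haveI : Fintype N1 := Fintype.ofFinite _
    let ι : Subgroup.centralizer (Q : Set G) →* N1 :=
      { toFun := fun c => ⟨⟨c, hnC c c.2⟩, hN1 ▸ Subgroup.mem_sup_right (Subgroup.mem_subgroupOf.2 c.2)⟩
        map_one' := rfl
        map_mul' := fun _ _ => rfl }
    have hfac : ∀ u : N1, ∃ q : T, (q : G) ∈ Q ∧ ∃ c : Subgroup.centralizer (Q : Set G),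
        (u : T) = q * (ι c : T) := by
      intro u
      have hu : (u : T) ∈ Q.subgroupOf T ⊔ (Subgroup.centralizer (Q : Set G)).subgroupOf T :=
        hN1 ▸ u.2
      obtain ⟨q, hq, c, hc, hqc⟩ := Subgroup.mem_sup_of_normal_right.1 hu
      exact ⟨q, Subgroup.mem_subgroupOf.1 hq, ⟨c, Subgroup.mem_subgroupOf.1 hc⟩, hqc.symm⟩
    -- a constituent on Q C(Q) restricting into e
    obtain ⟨ψ, hψ, θ, hθe, hcon⟩ : ∃ ψ : Cfsg.IrrCharacter N1,
        Cfsg.classInner (fun n : N1 => (χ : T → ℂ) n) (ψ : N1 → ℂ) ≠ 0 ∧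
        ∃ θ ∈ e, Cfsg.classInner ((ψ : N1 → ℂ) ∘ ι) (θ : Subgroup.centralizer (Q : Set G) → ℂ) ≠ 0 := by
      by_contra hnone
      push Not at hnone
      have hcoef : ∀ t : T, coef (indVal F') t
          = if h : (t : G) ∈ Subgroup.centralizer (Q : Set G) then coef (indVal e) ⟨t, h⟩ else 0 := by
        intro t
        rw [← blockCoeff_eq_coef, hF'e, Cfsg.subgroupBlockCoeff]
        by_cases h : (t : G) ∈ Subgroup.centralizer (Q : Set G)
        · simp only [dif_pos h, blockCoeff_eq_coef]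
        · simp only [dif_neg h]
      have h1 : indVal F' χ = 1 := by rw [indVal, if_pos hχ]
      rw [← om_coef (indVal F') χ, om, div_eq_one_iff_eq (irr_one_ne_zero χ)] at h1
      apply irr_one_ne_zero χ
      rw [← h1]
      have h2 : ∑ t : T, coef (indVal F') t * (χ : T → ℂ) t
          = ∑ c : Subgroup.centralizer (Q : Set G), coef (indVal e) c * (χ : T → ℂ) ⟨c, hnC c c.2⟩ := by
        symm
        refine Finset.sum_of_injOn (fun c : Subgroup.centralizer (Q : Set G) => (⟨c, hnC c c.2⟩ : T))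
          (fun _ _ _ _ h => Subtype.ext (congrArg Subtype.val h :)) (fun _ _ => Finset.mem_univ _)
          (fun t _ ht => ?_) (fun c _ => ?_)
        · rw [hcoef, dif_neg (fun h => ht ⟨⟨t, h⟩, Finset.mem_univ _, Subtype.ext rfl⟩), zero_mul]
        · rw [hcoef, dif_pos c.2]
      rw [h2]
      have hexp : ∀ c : Subgroup.centralizer (Q : Set G), (χ : T → ℂ) ⟨c, hnC c c.2⟩ = ∑ ψ : Cfsg.IrrCharacter N1,
          Cfsg.classInner (fun n : N1 => (χ : T → ℂ) n) (ψ : N1 → ℂ) * (ψ : N1 → ℂ) (ι c) := fun c => by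
        have := congrFun (classFunction_eq_sum (fun n : N1 => (χ : T → ℂ) n)
          (isCharacter_classFunction (isCharacter_restrict χ.2.isCharacter' N1))) (ι c)
        simp only [Finset.sum_apply, Pi.smul_apply, smul_eq_mul] at this
        exact this
      simp only [hexp, Finset.mul_sum]
      rw [Finset.sum_comm]
      refine Finset.sum_eq_zero fun ψ _ => ?_
      by_cases hm : Cfsg.classInner (fun n : N1 => (χ : T → ℂ) n) (ψ : N1 → ℂ) = 0
      · simp [hm]
      have hz : ∑ c, coef (indVal e) c * ((ψ : N1 → ℂ) ∘ ι) c = 0 := by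
        rw [classFunction_eq_sum ((ψ : N1 → ℂ) ∘ ι)
          (isCharacter_classFunction (isCharacter_comp ψ.2.isCharacter' ι))]
        simp only [Finset.sum_apply, Pi.smul_apply, smul_eq_mul, Finset.mul_sum]
        rw [Finset.sum_comm]
        refine Finset.sum_eq_zero fun η _ => ?_
        by_cases hη : η ∈ e
        · simp [hnone ψ hm η hη]
        · have h3 : ∑ c, coef (indVal e) c * (η : Subgroup.centralizer (Q : Set G) → ℂ) c = 0 := by
            have := om_coef (indVal e) η
            rw [om, indVal, if_neg hη, div_eq_zero_iff] at this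
            exact this.resolve_right (irr_one_ne_zero η)
          rw [← mul_zero (Cfsg.classInner ((ψ : N1 → ℂ) ∘ ι) (η : Subgroup.centralizer (Q : Set G) → ℂ)),
            ← h3, Finset.mul_sum]
          exact Finset.sum_congr rfl fun c _ => by ring
      rw [← mul_zero (Cfsg.classInner (fun n : N1 => (χ : T → ℂ) n) (ψ : N1 → ℂ)), ← hz, Finset.mul_sum]
      exact Finset.sum_congr rfl fun c _ => by simp only [Function.comp_apply]; ring
    -- Q lies in the kernel, so the restriction to C(Q) is irreducible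
    have hψker : ∀ q : T, (q : G) ∈ Q → ∀ hq : q ∈ N1, ∀ u : N1,
        (ψ : N1 → ℂ) (⟨q, hq⟩ * u) = (ψ : N1 → ℂ) u := by
      intro q hq hqN u
      obtain ⟨d, ρ, -, hρ⟩ := ψ.2
      have hqker : ∀ w ∈ Q.subgroupOf T, (χ : T → ℂ) w = (χ : T → ℂ) 1 := fun w hw => by
        rw [← mul_one w]; exact hχker w (Subgroup.mem_subgroupOf.1 hw) 1
      have h1 : (ψ : N1 → ℂ) ⟨q, hqN⟩ = (ψ : N1 → ℂ) 1 :=
        constituent_ker (isCharacter_restrict χ.2.isCharacter' N1) ψ.2 hψ
          (hqker q (Subgroup.mem_subgroupOf.2 hq))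
      rw [← hρ] at h1 ⊢
      rw [ρ.char_one] at h1
      have h2 := (rep_char_eq_finrank_iff ρ ⟨q, hqN⟩).1 h1
      show LinearMap.trace ℂ _ (ρ (_ * u)) = LinearMap.trace ℂ _ (ρ u)
      rw [map_mul, h2]
      rfl
    have hψι : ∀ u : N1, ∃ c, (ψ : N1 → ℂ) u = (ψ : N1 → ℂ) (ι c) := by
      intro u
      obtain ⟨q, hq, c, huc⟩ := hfac u
      have hqN : q ∈ N1 := hN1 ▸ Subgroup.mem_sup_left (Subgroup.mem_subgroupOf.2 hq)
      refine ⟨c, ?_⟩
      rw [show u = ⟨q, hqN⟩ * ι c from Subtype.ext huc]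
      exact hψker q hq hqN _
    have hθψ : (θ : Subgroup.centralizer (Q : Set G) → ℂ) 1 = (ψ : N1 → ℂ) 1 ∧
        ∀ z : Subgroup.centralizer (Q : Set G), (z : G) ∈ Q →
          (θ : Subgroup.centralizer (Q : Set G) → ℂ) z = (θ : Subgroup.centralizer (Q : Set G) → ℂ) 1 := by
      have hirr : IsIrrCharacter _ ((ψ : N1 → ℂ) ∘ ι) := by
        refine isIrr_restrict_of_values (ψ := (ψ : N1 → ℂ)) ψ.2 ι
          (fun a b h => Subtype.ext (congrArg (fun w : N1 => ((w : T) : G)) h)) ?_
        exact fun u => by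
          obtain ⟨q, hq, c, huc⟩ := hfac u
          have hqN : q ∈ N1 := hN1 ▸ Subgroup.mem_sup_left (Subgroup.mem_subgroupOf.2 hq)
          exact ⟨⟨q, hqN⟩, c, Subtype.ext huc, hψker q hq hqN⟩
      have heq : (θ : Subgroup.centralizer (Q : Set G) → ℂ) = (ψ : N1 → ℂ) ∘ ι := by
        by_contra hne
        exact hcon (irr_inner_ne hirr θ.2 (Ne.symm hne))
      refine ⟨by rw [heq]; simp, fun z hz => ?_⟩
      rw [heq]
      simp only [Function.comp_apply, map_one]
      have := hψker ⟨z, hQT hz⟩ hz (ι z).2 1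
      rw [mul_one] at this
      exact this
    obtain ⟨hdθ, hZker⟩ := hθψ
    obtain ⟨Z, hZ⟩ : ∃ Z : Subgroup (Subgroup.centralizer (Q : Set G)),
        Z = (Q ⊓ Subgroup.centralizer (Q : Set G)).subgroupOf (Subgroup.centralizer (Q : Set G)) :=
      ⟨_, rfl⟩
    have hZmem : ∀ z, z ∈ Z ↔ (z : G) ∈ Q := fun z => by
      rw [hZ, Subgroup.mem_subgroupOf, Subgroup.mem_inf]; exact ⟨fun h => h.1, fun h => ⟨h, z.2⟩⟩
    have hZp : IsPGroup p Z := (hQp.comap_of_injective _ (Subgroup.subtype_injective _)).to_le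
      fun z hz => (hZmem z).1 hz
    have hZc : Z ≤ Subgroup.center _ := fun z hz => Subgroup.mem_center_iff.2 fun c => Subtype.ext
      (Subgroup.mem_centralizer_iff.1 c.2 z ((hZmem z).1 hz)).symm
    have hlow1 := hlow N1 ψ hψ
    have hd : Cfsg.charDegree (ψ : N1 → ℂ)
        = Cfsg.charDegree (θ : Subgroup.centralizer (Q : Set G) → ℂ) := by
      simp only [Cfsg.charDegree, hdθ]
    have hcard : Nat.card N1 * Nat.card Z
        = Nat.card (Q.subgroupOf T) * Nat.card (Subgroup.centralizer (Q : Set G)) := by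
      rw [hN1, ← Nat.card_congr (Subgroup.subgroupOfEquivOfLe
        (show Subgroup.centralizer (Q : Set G) ≤ T from hnC)).toEquiv]
      have e1 := CfsgLib.Core.card_sup_mul_card_inf (A := Q.subgroupOf T) (K := (Subgroup.centralizer (Q : Set G)).subgroupOf T)
        (fun x _ => Subgroup.mem_normalizer_iff.2 fun y => ⟨fun hy => hCn.conj_mem y hy x, fun hy => by simpa [mul_assoc] using hCn.conj_mem _ hy x⁻¹⟩)
      rw [← e1]
      congr 1
      refine Nat.card_congr
        { toFun := fun z => ⟨⟨z.1.1, hnC _ z.1.2⟩, (hZmem z.1).1 z.2, z.1.2⟩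
          invFun := fun w => ⟨⟨w.1.1, w.2.2⟩, (hZmem _).2 w.2.1⟩
          left_inv := fun z => rfl
          right_inv := fun w => rfl }
    have hvcard : (Nat.card N1).factorization p + (Nat.card Z).factorization p
        = (Nat.card (Q.subgroupOf T)).factorization p
          + (Nat.card (Subgroup.centralizer (Q : Set G))).factorization p := by
      have := congrArg (fun m => m.factorization p) hcard
      simpa [Nat.factorization_mul, Nat.card_pos.ne'] using this
    have hdvd : Cfsg.charDegree (θ : Subgroup.centralizer (Q : Set G) → ℂ) ∣ Z.index := by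
      obtain ⟨d, ρ, hρ, hρe⟩ := θ.2
      haveI := hρ
      have hd' : Cfsg.charDegree (θ : Subgroup.centralizer (Q : Set G) → ℂ) = Module.finrank ℂ (Fin d → ℂ) := by
        have h := charDegree_cast θ.2.isCharacter'
        rw [← hρe, ρ.char_one] at h
        rw [← hρe]; exact_mod_cast h
      rw [hd']
      refine degree_dvd_index_of_scalar (ρ := ρ) Z fun z hz => ⟨1, ?_⟩
      rw [one_smul]
      apply (rep_char_eq_finrank_iff ρ z).1
      rw [← ρ.char_one, hρe]
      exact hZker z ((hZmem z).1 hz)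
    have hup := (Nat.factorization_le_iff_dvd (charDegree_pos θ).ne' Subgroup.index_ne_zero_of_finite).2 hdvd p
    have hZi : (Nat.card (Subgroup.centralizer (Q : Set G))).factorization p
        = (Nat.card Z).factorization p + Z.index.factorization p := by
      rw [← Subgroup.card_mul_index Z, Nat.factorization_mul Nat.card_pos.ne'
        Subgroup.index_ne_zero_of_finite, Finsupp.add_apply]
    have hpow : ∀ {X : Type _} [Group X] (U : Subgroup X) [Finite U], IsPGroup p U →
        Nat.card U = p ^ (Nat.card U).factorization p := by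
      intro X _ U _ hU
      obtain ⟨j, hj⟩ := IsPGroup.iff_card.1 hU
      rw [hj, hp.factorization_pow, Finsupp.single_eq_same]
    have hle := blockDefect_le_of_quotient_zero hM hZp hZc he hθe
      (fun z hz => hZker z ((hZmem z).1 hz)) (by
        rw [hd] at hlow1
        obtain ⟨j, hj⟩ := IsPGroup.iff_card.1 hZp
        have : Z.index.factorization p ≥ 0 := Nat.zero_le _
        omega)
    obtain ⟨D, hD⟩ := exists_defectGroup hM he
    haveI : Z.Normal := ⟨fun z hz g => by
      rw [Subgroup.mem_center_iff.1 (hZc hz) g, mul_inv_cancel_right]; exact hz⟩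
    have hZD := normal_pGroup_le_defectGroup hM Z hZp he hD
    rw [← hZ]
    have : Z = D := Subgroup.eq_of_le_of_card_ge hZD (by
      rw [card_defectGroup hM he hD, hpow Z hZp]
      exact Nat.pow_le_pow_right hp.pos hle)
    rw [this]; exact hD
  · intro R hRT hR hRn
    obtain ⟨U, hU⟩ : ∃ U : Subgroup T, U = Q.subgroupOf T ⊔ R.subgroupOf T := ⟨_, rfl⟩
    haveI : (R.subgroupOf T).Normal := ⟨fun x hx t => by
      rw [Subgroup.mem_subgroupOf] at hx ⊢
      exact (Subgroup.mem_normalizer_iff.1 (hRn t t.2) x).1 hx⟩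
    haveI : U.Normal := hU ▸ Subgroup.sup_normal _ _
    haveI : Fintype U := Fintype.ofFinite _
    have hUp : IsPGroup p U := hU ▸ IsPGroup.to_sup_of_normal_right
      (hQp.comap_of_injective _ (Subgroup.subtype_injective _))
      (hR.comap_of_injective _ (Subgroup.subtype_injective _))
    obtain ⟨η, hη, hne⟩ := exists_irr_under (H := U) χ.2
    have hker : ∀ q ∈ (Q.subgroupOf T).subgroupOf U, η q = η 1 := by
      intro q hq
      refine constituent_ker (isCharacter_restrict χ.2.isCharacter' U) hη hne ?_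
      show (χ : T → ℂ) q = (χ : T → ℂ) ((1 : U) : T)
      rw [← mul_one ((q : U) : T)]
      exact hχker _ (Subgroup.mem_subgroupOf.1 (Subgroup.mem_subgroupOf.1 hq)) 1
    have h1 := hlow U ⟨η, hη⟩ hne
    have h2 := sq_le _ (⟨η, hη⟩ : Cfsg.IrrCharacter U) hker
    have hQU : Q.subgroupOf T ≤ U := hU ▸ le_sup_left
    rw [Nat.card_congr (Subgroup.subgroupOfEquivOfLe hQU).toEquiv] at h2
    obtain ⟨i, hi⟩ := IsPGroup.iff_card.1 hUp
    obtain ⟨j, hj⟩ := IsPGroup.iff_card.1 (hUp.to_le hQU)
    obtain ⟨d, hd, hdd⟩ := irr_degree_dvd hη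
    have hdeq : Cfsg.charDegree (η : U → ℂ) = d := by
      have h := charDegree_cast hη.isCharacter'
      rw [hd] at h; exact_mod_cast h
    rw [hi] at hdd
    obtain ⟨l, -, hl⟩ := (Nat.dvd_prime_pow hp).1 hdd
    simp only [hdeq, hl, hi, hj, hp.factorization_pow, Finsupp.single_eq_same] at h1 h2
    rw [← pow_mul, ← pow_add] at h2
    have h3 := (Nat.pow_le_pow_iff_right hp.one_lt).1 h2
    have hji : j ≤ i := (Nat.pow_le_pow_iff_right hp.one_lt).1 (hi ▸ hj ▸ Subgroup.card_le_of_le hQU)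
    have heq : Q.subgroupOf T = U := Subgroup.eq_of_le_of_card_ge hQU (by
      rw [hi, hj]; exact Nat.pow_le_pow_right hp.pos (by omega))
    intro r hr
    have hrU : (⟨r, hRT hr⟩ : T) ∈ Q.subgroupOf T := by
      rw [heq, hU]; exact Subgroup.mem_sup_right (Subgroup.mem_subgroupOf.2 hr)
    exact Subgroup.mem_subgroupOf.1 hrU

end Cfsg.Agent.S4694
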