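import Cfsg.Statements.S4702
import Cfsg.Agent.Lib.PermNearField
import Cfsg.Agent.Lib.PermSharpPGL

set_option autoImplicit false
open Cfsg

namespace Cfsg.Agent.S4702

/-- Let G be a triply transitive permutation group on a finite set of odd size m ≥ 3 in which only the identity fixes three or more points. Then m = 2^a + 1 for some a ≥ 1 and G is isomorphic to SL(2, 2^a). -/
theorem result {α : Type*} [Fintype α] [DecidableEq α] (hm : 3 ≤ Fintype.card α) (hodd : Odd (Fintype.card α)) (G : Subgroup (Equiv.Perm α)) (h3 : MulAction.IsMultiplyPretransitive G α 3) (hfix : ∀ g : G, 3 ≤ Nat.card (MulAction.fixedBy α g) → g = 1) : ∃ a : ℕ, 1 ≤ a ∧ Fintype.card α = 2 ^ a + 1 ∧ ∃ (F : Type) (_ : Field F) (_ : Fintype F), Fintype.card F = 2 ^ a ∧ Nonempty (G ≃* Matrix.SpecialLinearGroup (Fin 2) F) := by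
  classical
  have inj : ∀ {u v w : α}, u ≠ v → u ≠ w → v ≠ w → Function.Injective ![u, v, w] := by
    intro u v w e1 e2 e3 i j e
    fin_cases i <;> fin_cases j <;> simp_all
  have h3' := MulAction.isMultiplyPretransitive_iff.mp h3
  have hto : ∀ {x y z x' y' z' : α}, x ≠ y → x ≠ z → y ≠ z → x' ≠ y' → x' ≠ z' → y' ≠ z' →
      ∃ g : G, g • x = x' ∧ g • y = y' ∧ g • z = z' := by
    intro x y z x' y' z' a1 a2 a3 b1 b2 b3
    obtain ⟨g, hg⟩ := h3' ⟨![x, y, z], inj a1 a2 a3⟩ ⟨![x', y', z'], inj b1 b2 b3⟩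
    exact ⟨g, by simpa using DFunLike.congr_fun hg 0, by simpa using DFunLike.congr_fun hg 1,
      by simpa using DFunLike.congr_fun hg 2⟩
  have hfix3 : ∀ (g : G) (u v w : α), u ≠ v → u ≠ w → v ≠ w → g • u = u → g • v = v → g • w = w → g = 1 := by
    intro g u v w e1 e2 e3 hu hv hw
    refine hfix g ?_
    have hsub : ({u, v, w} : Finset α) ⊆ Finset.univ.filter fun x => g • x = x := by
      intro x hx
      simp only [Finset.mem_insert, Finset.mem_singleton] at hx
      rcases hx with rfl | rfl | rfl <;> simp [hu, hv, hw]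
    have hc := Finset.card_le_card hsub
    rw [Finset.card_eq_three.mpr ⟨u, v, w, e1, e2, e3, rfl⟩] at hc
    rw [Nat.card_eq_fintype_card, Fintype.card_subtype]
    simpa using hc
  have hsharp : ∀ x : Fin 3 ↪ α, MulAction.stabilizer G x = ⊥ := by
    intro x
    rw [eq_bot_iff]
    intro g hg
    rw [Subgroup.mem_bot]
    rw [MulAction.mem_stabilizer_iff] at hg
    exact hfix3 g (x 0) (x 1) (x 2) (x.injective.ne (by decide)) (x.injective.ne (by decide))
      (x.injective.ne (by decide)) (DFunLike.congr_fun hg 0)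
      (DFunLike.congr_fun hg 1) (DFunLike.congr_fun hg 2)
  obtain ⟨a0⟩ : Nonempty α := Fintype.card_pos_iff.mp (by omega)
  set S := SubMulAction.ofStabilizer G a0 with hSdef
  have hne : ∀ x : S, (x : α) ≠ a0 := fun x => x.2
  have h2 : ∀ {b c d e : S}, b ≠ c → d ≠ e →
      ∃ g : MulAction.stabilizer G a0, g • b = d ∧ g • c = e := by
    intro b c d e hbc hde
    obtain ⟨g, ga, gb, gc⟩ := hto (hne b).symm (hne c).symm (fun h => hbc (Subtype.ext h))
      (hne d).symm (hne e).symm (fun h => hde (Subtype.ext h))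
    exact ⟨⟨g, ga⟩, Subtype.ext gb, Subtype.ext gc⟩
  have hs : ∀ (g : MulAction.stabilizer G a0) (b c : S), b ≠ c → g • b = b → g • c = c → g = 1 := by
    intro g b c hbc hb hc
    exact Subtype.ext (hfix3 g a0 b c (hne b).symm (hne c).symm (fun h => hbc (Subtype.ext h))
      g.2 (congrArg Subtype.val hb) (congrArg Subtype.val hc))
  have hcard : Nat.card S = Fintype.card α - 1 := by
    change Nat.card ({a0}ᶜ : Set α) = _
    rw [Nat.card_coe_set_eq, Set.ncard_compl, Set.ncard_singleton, Nat.card_eq_fintype_card]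
  obtain ⟨p, K, hp, -, -, hKp, hKt, hKs, -, -, -⟩ :=
    CfsgLib.Perm.sharp_structure h2 hs (by omega)
  haveI := Fact.mk hp
  have hK : IsPGroup p K := fun x => ⟨1, Subtype.ext (by rw [pow_one]; exact hKp x x.2)⟩
  obtain ⟨j, hj⟩ := hK.exists_card_eq
  have hKcard : Nat.card K = Nat.card S := by
    haveI : Nonempty S := by
      by_contra h
      rw [not_nonempty_iff] at h
      rw [Nat.card_of_isEmpty] at hcard
      omega
    haveI := hKt
    rw [← MulAction.index_stabilizer_of_transitive K (Classical.arbitrary S), hKs, Subgroup.index_bot]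
  rw [hKcard, hcard] at hj
  obtain ⟨r, hr⟩ := hodd
  have hj0 : j ≠ 0 := fun h => by rw [h, pow_zero] at hj; omega
  have hp2 : p = 2 := by
    have h2d : 2 ∣ p ^ j := ⟨r, by omega⟩
    exact ((Nat.prime_dvd_prime_iff_eq Nat.prime_two hp).mp (Nat.prime_two.dvd_of_dvd_pow h2d)).symm
  subst hp2
  obtain ⟨F, iF, iFF, hF, ⟨e⟩⟩ := CfsgLib.SharpPGL.sharp_three_pgl G Nat.prime_two hj0 (Or.inl rfl)
    (by omega) h3 hsharp
  refine ⟨j, Nat.one_le_iff_ne_zero.mpr hj0, by omega, F, iF, iFF, hF, ?_⟩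
  haveI : CharP F 2 := by
    obtain ⟨q, hq⟩ := CharP.exists F
    haveI := hq
    obtain ⟨n, hqp, hn⟩ := FiniteField.card F q
    have : q ∣ 2 ^ j := by rw [← hF, hn]; exact dvd_pow_self q n.pos.ne'
    have hq2 := (Nat.prime_dvd_prime_iff_eq hqp Nat.prime_two).mp (hqp.dvd_of_dvd_pow this)
    subst hq2
    exact hq
  have hbij : Function.Bijective (Matrix.SpecialLinearGroup.toPGL (n := Fin 2) (R := F)) := by
    constructor
    · rw [← MonoidHom.ker_eq_bot_iff, Matrix.SpecialLinearGroup.toPGL_ker, eq_bot_iff]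
      intro g hg
      rw [Matrix.SpecialLinearGroup.mem_center_iff] at hg
      obtain ⟨c, hc, hg⟩ := hg
      rw [Fintype.card_fin] at hc
      have hc1 : c = 1 := CharTwo.sq_inj.mp (by rw [hc, one_pow])
      rw [Subgroup.mem_bot]
      apply Subtype.ext
      rw [← hg, hc1]
      simp
    · intro g
      obtain ⟨h, hh⟩ := Matrix.ProjectiveSpecialLinearGroup.toPGL_surj_of_roots (n := Fin 2) (R := F)
        (fun r => by
          obtain ⟨k, hk⟩ := FiniteField.isSquare_of_char_two (ringChar.eq F 2) (r : F)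
          have hk0 : k ≠ 0 := fun h => r.ne_zero (by rw [hk, h, mul_zero])
          exact ⟨Units.mk0 k hk0, Units.ext (by rw [Fintype.card_fin]; simp [sq, hk])⟩) g
      induction h using QuotientGroup.induction_on with | H X => exact ⟨X, hh⟩
  exact ⟨e.trans (MulEquiv.ofBijective _ hbij).symm⟩

end Cfsg.Agent.S4702
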