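import Cfsg.Statements.S4715
import Cfsg.Agent.Lib.BlockCentralSection
import Cfsg.Agent.Lib.BlockPiKernel

set_option autoImplicit false
open Cfsg
open CfsgLib.Block CfsgLib.Char

namespace Cfsg.Agent.S4715

/-- Let p be a prime, M a maximal ideal of the algebraic integers containing p, B a p-block of the finite group G with defect group D of order p^d, H = D·C_G(D), b a block of H inducing B, T the stabilizer of b in N_G(D) and e = [T : H] the inertial index of B; let n be the integer with p^n ≤ e < p^(n+1) and p^c the order of the centre of D. Then every irreducible character in B has height h with h + c ≤ n + d. -/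
theorem result {G : Type*} [Group G] [Finite G] (p : ℕ) [Fact p.Prime] (M : Ideal Cfsg.AlgInt) (hM : Cfsg.IsPModular p M) (B : Set (Cfsg.IrrCharacter G)) (hB : Cfsg.IsPBlock M B) (D : Subgroup G) (hBD : Cfsg.IsDefectGroup p M B D) (d : ℕ) (hDd : Nat.card D = p ^ d) (H : Subgroup G) (hH : H = D ⊔ Subgroup.centralizer (D : Set G)) (b : Set (Cfsg.IrrCharacter H)) (hind : Cfsg.IsInducedBlock M H b B) (T : Subgroup G) (hT : ∀ g : G, g ∈ T ↔ (g ∈ Subgroup.normalizer (D : Set G) ∧ ∀ θ ∈ b, ∀ θ' : Cfsg.IrrCharacter H, (∀ h h' : H, (h' : G) = g * h * g⁻¹ → (θ' : H → ℂ) h' = (θ : H → ℂ) h) → θ' ∈ b)) (e : ℕ) (he : H.relIndex T = e) (n : ℕ) (hn : p ^ n ≤ e ∧ e < p ^ (n + 1)) (c : ℕ) (hc : Nat.card (Subgroup.center D) = p ^ c) : ∀ χ ∈ B, Cfsg.blockHeight p B (χ : G → ℂ) + c ≤ n + d := by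
  classical
  haveI := Fintype.ofFinite G
  haveI := CfsgLib.Block.charP_resField hM
  have hp : p.Prime := hM.1
  have hDp := isPGroup_defectGroup hM hB hBD
  have hC : Subgroup.centralizer (D : Set G) ≤ H := hH ▸ le_sup_right
  have hDH : D ≤ H := hH ▸ le_sup_left
  have hHN : H ≤ Subgroup.normalizer (D : Set G) :=
    hH ▸ sup_le Subgroup.le_normalizer (Subgroup.centralizer_le_normalizer _)
  haveI := Fintype.ofFinite ↥H
  have hb0 : IsBlockFn hM H (bFn hM H b) := ⟨b, hind.1, rfl⟩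
  obtain ⟨ψ, hψ, hψe⟩ := exists_occ (hM := hM) (H := Subgroup.centralizer (D : Set G))
    (fun g hg => bFn_supp hM hDp hC hHN hDH hind.1 hg) (invBy_mono hb0.invBy hC) hb0.mul_self
    hb0.ne_zero
  have hpair : PairIn hM B D ψ := ⟨⟨hDp, hψ⟩, hB, by
    rw [← hψe, ← gconv_assoc, trc_gFn_gconv_bFn hM hDp hC hHN hDH hind]⟩
  have hmax := maxPair_of_defectGroup hpair hBD
  have hTs : ∀ g : G, g ∈ Subgroup.normalizer (D : Set G) → cnj g ψ = ψ → g ∈ T := by
    intro g hg hgψ
    have hDg : ∀ w : G, w ∈ D ↔ g⁻¹ * w * g ∈ D := fun w => by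
      have h1 := Subgroup.mem_normalizer_iff''.1 hg w
      simpa using h1
    have hHg : ∀ w : G, w ∈ H ↔ g⁻¹ * w * g ∈ H := fun w => by
      have hmap : H.map (MulAut.conj g).toMonoidHom = H := by
        refine Subgroup.eq_of_le_of_card_ge ?_ (by rw [card_map_conj])
        rw [hH, Subgroup.map_sup]
        refine sup_le_sup ?_ ?_
        · rw [map_conj_eq_self hg]
        · rintro _ ⟨c, hc, rfl⟩
          exact (centralizer_conj_iff hg _).2 (by
            show g⁻¹ * (g * c * g⁻¹) * g ∈ _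
            simpa [mul_assoc] using hc)
      constructor
      · intro hw
        rw [← hmap] at hw
        obtain ⟨c, hc, rfl⟩ := hw
        show g⁻¹ * (g * c * g⁻¹) * g ∈ H
        simpa [mul_assoc] using hc
      · intro hw
        rw [← hmap]
        exact ⟨_, hw, by show g * (g⁻¹ * w * g) * g⁻¹ = w; group⟩
    obtain ⟨hb', hbE⟩ := conjSet_data (hM := hM) g hHg hind.1
    have heq : conjSet H H g b = b := by
      refine bFn_injOn hM _ hb' hind.1 ?_
      by_contra hne
      rw [hbE] at hne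
      have h0 := IsBlockFn.mul_ne (hbE ▸ (⟨_, hb', rfl⟩ : IsBlockFn hM H (bFn hM H (conjSet H H g b))))
        hb0 hne
      have h1 : gconv (cnj g (bFn hM H b)) ψ = ψ := by
        conv_lhs => rw [← hgψ, ← cnj_gconv, hψe, hgψ]
      have h2 : gconv (gconv (cnj g (bFn hM H b)) (bFn hM H b)) ψ = ψ := by
        rw [gconv_assoc, hψe, h1]
      rw [h0, zero_gconv] at h2
      exact hψ.ne_zero h2.symm
    refine (hT g).2 ⟨hg, fun θ hθ θ' hθ' => ?_⟩
    rw [← heq]
    exact ⟨θ, hθ, fun c c' h => hθ' c c' h⟩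
  intro χ hχ
  have hd : Cfsg.blockDefect p B = d :=
    Nat.pow_right_injective hp.two_le ((card_defectGroup hM hB hBD).symm.trans hDd)
  have h1 := card_center_mul_le hmax hχ
  have h2 := sum_major_le hmax hχ T H hTs hH.symm
  rw [hc, hd] at h1
  rw [he] at h2
  have h3 : ((p ^ (c + Cfsg.blockHeight p B (χ : G → ℂ)) : ℕ) : ℝ) ≤ ((p ^ d * e : ℕ) : ℝ) := by
    push_cast
    rw [pow_add]
    push_cast at h1
    exact h1.trans (mul_le_mul_of_nonneg_left h2 (by positivity))
  have h4 : p ^ (c + Cfsg.blockHeight p B (χ : G → ℂ)) < p ^ (d + (n + 1)) := by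
    rw [pow_add _ d]
    exact lt_of_le_of_lt (Nat.cast_le.1 h3) (Nat.mul_lt_mul_of_pos_left hn.2 (pow_pos hp.pos d))
  have h5 := (Nat.pow_lt_pow_iff_right hp.one_lt).1 h4
  omega

end Cfsg.Agent.S4715
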