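import Cfsg.Statements.S4716
import Cfsg.Agent.Lib.BlockGalSum
import Cfsg.Agent.Lib.BlockSectionVal
import Cfsg.Agent.Lib.BlockSectionRank
import Cfsg.Agent.Lib.BlockSubFacts
import Cfsg.Agent.Lib.BlockNilStruct
import Cfsg.Agent.Lib.BlockHeight
import Cfsg.Agent.Lib.BlockBound
import Cfsg.Agent.Lib.BlockRank

set_option autoImplicit false
open Cfsg
open CfsgLib.Block CfsgLib.Char
open scoped Classical


namespace Cfsg.Agent.S4716

/-- Let p be a prime, M a maximal ideal of the algebraic integers containing p, and B a p-block of defect d of the finite group G all of whose irreducible characters have height zero. Let y be a p-element, C = C_G(y), and b a block of C inducing B and having the same defect d (a major subsection). Then k(B)^2 ≤ p^(2d)·l(b), where k(B) is the number of irreducible characters in B and l(b) the p-regular rank of b (its number of irreducible Brauer characters); in particular (y = 1) k(B)^2 ≤ p^(2d)·l(B). -/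
theorem result {G : Type*} [Group G] [Finite G] (p : ℕ) [Fact p.Prime] (M : Ideal Cfsg.AlgInt) (hM : Cfsg.IsPModular p M) (B : Set (Cfsg.IrrCharacter G)) (hB : Cfsg.IsPBlock M B) (d : ℕ) (hd : Cfsg.blockDefect p B = d) (hh : ∀ χ ∈ B, Cfsg.blockHeight p B (χ : G → ℂ) = 0) (y : G) (hy : ∃ k : ℕ, orderOf y = p ^ k) (b : Set (Cfsg.IrrCharacter ↥(Subgroup.centralizer ({y} : Set G)))) (hind : Cfsg.IsInducedBlock M (Subgroup.centralizer ({y} : Set G)) b B) (hbd : Cfsg.blockDefect p b = d) : Nat.card B ^ 2 ≤ p ^ (2 * d) * Cfsg.blockRank p b := by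
  haveI := Fintype.ofFinite G
  revert hind hbd b
  set H := Subgroup.centralizer ({y} : Set G) with hH
  intro b hind hbd
  have hp : p.Prime := hM.1
  have hb : Cfsg.IsPBlock M b := hind.1
  have hBy : ∀ ξ ∈ b, ξ ∈ secSet M y B := fun ξ hξ => by
    show IsInducedBlock M _ _ B
    rw [← isPBlock_eq_blockOf hM hb hξ]
    exact hind
  set u' : H := ⟨y, Subgroup.mem_centralizer_singleton_iff.2 rfl⟩ with hu'
  have hu'c : u' ∈ Subgroup.center H := Subgroup.mem_center_iff.2 fun g =>
    Subtype.ext (Subgroup.mem_centralizer_singleton_iff.1 g.2)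
  obtain ⟨a, ha⟩ := hy
  set N := p ^ (a + 1) with hN
  have hNpos : 0 < N := pow_pos hp.pos _
  have hζ := Complex.isPrimitiveRoot_exp N hNpos.ne'
  set ζ₀ := Complex.exp (2 * Real.pi * Complex.I / (N : ℕ))
  have hroot : ∀ z : IrrCharacter H, centVal z u' ^ N = 1 := fun z => by
    have h1 : orderOf u' = p ^ a := by rw [← Subgroup.orderOf_coe]; exact ha
    have h2 := (centVal_spec z hu'c).1
    rw [h1] at h2
    rw [hN, pow_succ, pow_mul, h2, one_pow]
  choose n hn using fun (χ : IrrCharacter G) (z : IrrCharacter H) =>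
    inner_character_nat (CfsgLib.Char.isCharacter_restrict χ.2.isCharacter' H) z.2.isCharacter'
  choose A hA using fun (z : IrrCharacter H) (hz : z ∈ b) (z' : IrrCharacter H) =>
    exists_int_blockMat hM hb hz z'
  set A' : IrrCharacter H → IrrCharacter H → ℤ := fun z z' =>
    if hz : z ∈ b ∧ z' ∈ b then A z hz.1 z' else 0 with hA'
  have hAb : ∀ z z' : IrrCharacter H,
      indVal b z * indVal b z' * blockMat p b z z' = (A' z z' : ℂ) := fun z z' => by
    by_cases hz : z ∈ b ∧ z' ∈ b
    · rw [hA', indVal, indVal, if_pos hz.1, if_pos hz.2, hA z hz.1 z']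
      simp [hz]
    · rcases not_and_or.1 hz with h | h <;> simp [hA', indVal, h]
  set P : IrrCharacter G → IrrCharacter G → ℕ → ℂ := fun χ ψ k => ∑ z : IrrCharacter H,
    ∑ z' : IrrCharacter H, ((n χ z * n ψ z' : ℕ) : ℂ) * (A' z z' : ℂ) *
      (centVal z u' ^ k * (starRingEnd ℂ) (centVal z' u' ^ k)) with hP
  have hroot0 : ζ₀ ^ p ^ (a + 1) = 1 := hζ.pow_eq_one
  have hPG : ∀ χ ψ, GalVal p ζ₀ (P χ ψ) := fun χ ψ => by
    refine galVal_sum _ _ fun z _ => galVal_sum _ _ fun z' _ => ?_
    refine GalVal.congr (((galVal_const ((n χ z * n ψ z' : ℕ) : ℤ)).mul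
      (galVal_const (A' z z'))).mul ((galVal_of_root hNpos hζ (hroot z)).mul
      ((galVal_of_root hNpos hζ (hroot z')).conj hp hroot0))) fun k _ => ?_
    push_cast
    ring
  have hdec : ∀ (χ : IrrCharacter G) (z : IrrCharacter H),
      classInner (fun c : H => (χ : G → ℂ) (y * (c : G))) (z : H → ℂ) =
        centVal z u' * (n χ z : ℂ) := by
    intro χ z
    have hexp : (fun c : H => (χ : G → ℂ) (y * (c : G))) =
        ∑ w : IrrCharacter H, ((n χ w : ℂ) * centVal w u') • (w : H → ℂ) := by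
      funext c
      have := congrFun (classFunction_eq_sum (fun h : H => (χ : G → ℂ) h)
        (isCharacter_classFunction (CfsgLib.Char.isCharacter_restrict χ.2.isCharacter' H))) (u' * c)
      simp only [Finset.sum_apply, Pi.smul_apply, smul_eq_mul] at this ⊢
      rw [show y * (c : G) = ((u' * c : H) : G) from rfl, this]
      refine Finset.sum_congr rfl fun w _ => ?_
      rw [(centVal_spec w hu'c).2, hn χ w]
      ring
    rw [hexp, CfsgLib.Char.inner_sum_left, Finset.sum_eq_single z]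
    · rw [CfsgLib.Char.inner_smul_left, irr_inner_self z.2]
      ring
    · intro w _ hw
      rw [CfsgLib.Char.inner_smul_left, irr_classInner, if_neg hw, mul_zero]
    · simp
  set S : Finset H := Finset.univ.filter (fun s : H => ¬ p ∣ orderOf s) with hS
  have hP1 : ∀ χ ψ, P χ ψ 1 = (p : ℂ) ^ d * (Nat.card H : ℂ)⁻¹ *
      ∑ s ∈ S, secPart y b χ s * (starRingEnd ℂ) (secPart y b ψ s) := by
    intro χ ψ
    simp only [hP, secPart, blockPart_eq, hdec, map_sum, map_mul, conj_indVal, Finset.sum_mul_sum,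
      Complex.conj_natCast, pow_one]
    rw [Finset.sum_comm (s := S), Finset.mul_sum]
    refine Finset.sum_congr rfl fun z _ => ?_
    rw [Finset.sum_comm (s := S), Finset.mul_sum]
    refine Finset.sum_congr rfl fun z' _ => ?_
    rw [← hAb, blockMat_eq_sum, hbd, ← hS, Nat.cast_mul]
    simp only [Finset.mul_sum, Finset.sum_mul]
    refine Finset.sum_congr rfl fun s _ => ?_
    erw [hdec χ z, hdec ψ z']
    simp only [map_mul, Complex.conj_natCast]
    ring
  set Bs := Finset.univ.filter (fun χ : IrrCharacter G => χ ∈ B) with hBs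
  have hfilt : ∀ F : IrrCharacter G → ℂ, ∑ χ ∈ Bs, F χ = ∑ χ, indVal B χ * F χ := fun F => by
    rw [hBs, Finset.sum_filter]
    exact Finset.sum_congr rfl fun χ _ => by rw [indVal]; split_ifs <;> simp
  have hsum1 : ∑ χ ∈ Bs, ∑ ψ ∈ Bs, P χ ψ 1 * (starRingEnd ℂ) (P χ ψ 1) =
      (((p ^ (2 * d) * Cfsg.blockRank p b : ℕ) : ℤ) : ℂ) := by
    set c := (p : ℂ) ^ d * (Nat.card H : ℂ)⁻¹ with hc
    set K : H → H → ℂ := fun s t => ∑ z : IrrCharacter H,
      indVal b z * ((z : H → ℂ) s * (starRingEnd ℂ) ((z : H → ℂ) t)) with hK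
    have hcol : ∀ s ∈ S, ∀ t ∈ S,
        ∑ χ ∈ Bs, secPart y b χ s * (starRingEnd ℂ) (secPart y b χ t) = K s t := by
      intro s hs t ht
      rw [hfilt, sum_secPart_mul hM ⟨a, ha⟩ hB hb hb hBy (Finset.mem_filter.1 hs).2
        (Finset.mem_filter.1 ht).2]
      refine Finset.sum_congr rfl fun z _ => ?_
      rw [indVal]
      split_ifs <;> simp
    have e1 : ∑ χ ∈ Bs, ∑ ψ ∈ Bs, P χ ψ 1 * (starRingEnd ℂ) (P χ ψ 1) =
        c * c * ∑ s ∈ S, ∑ t ∈ S, K s t * K t s := by
      have hcc : (starRingEnd ℂ) c = c := by simp [hc]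
      simp only [hP1, map_mul, map_sum, Complex.conj_conj, hcc, Finset.sum_mul, Finset.mul_sum]
      calc ∑ χ ∈ Bs, ∑ ψ ∈ Bs, ∑ s ∈ S, ∑ t ∈ S, _
          = ∑ s ∈ S, ∑ t ∈ S, ∑ χ ∈ Bs, ∑ ψ ∈ Bs, c * c *
              ((secPart y b χ t * (starRingEnd ℂ) (secPart y b χ s)) *
                (secPart y b ψ s * (starRingEnd ℂ) (secPart y b ψ t))) := by
            rw [Finset.sum_congr rfl fun χ _ => Finset.sum_comm, Finset.sum_comm]
            refine Finset.sum_congr rfl fun s _ => ?_
            rw [Finset.sum_congr rfl fun χ _ => Finset.sum_comm, Finset.sum_comm]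
            exact Finset.sum_congr rfl fun t _ => Finset.sum_congr rfl fun χ _ =>
              Finset.sum_congr rfl fun ψ _ => by ring
        _ = _ := by
            refine Finset.sum_congr rfl fun s hs => Finset.sum_congr rfl fun t ht => ?_
            simp only [← Finset.mul_sum]
            rw [← Finset.sum_mul, hcol t ht s hs, hcol s hs t ht, mul_comm (K t s)]
    have e2 : c * c * ∑ s ∈ S, ∑ t ∈ S, K s t * K t s = ∑ z : IrrCharacter H, ∑ z' : IrrCharacter H,
        (indVal b z * indVal b z' * blockMat p b z z') *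
          (indVal b z' * indVal b z * blockMat p b z' z) := by
      have hid : ∀ z : IrrCharacter H, indVal b z = indVal b z * indVal b z := fun z => by
        rw [indVal]; split_ifs <;> simp
      simp only [hK, blockMat_eq_sum, hbd, ← hS, hc, Finset.sum_mul, Finset.mul_sum]
      rw [Finset.sum_congr rfl fun s _ => Finset.sum_comm, Finset.sum_comm]
      refine Finset.sum_congr rfl fun z _ => ?_
      rw [Finset.sum_congr rfl fun s _ => Finset.sum_comm, Finset.sum_comm]
      refine Finset.sum_congr rfl fun z' _ => ?_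
      refine Finset.sum_congr rfl fun s _ => Finset.sum_congr rfl fun t _ => ?_
      conv_lhs => rw [hid z, hid z']
      ring
    rw [e1, e2]
    have hsq := fun (χ : IrrCharacter H) (hz : χ ∈ b) => sum_blockMat_mul hM hb (χ := χ) (ψ := χ) hz
    calc _ = ∑ z : IrrCharacter H, indVal b z *
          ∑ z' ∈ Finset.univ.filter (· ∈ b), blockMat p b z z' * blockMat p b z' z := by
          refine Finset.sum_congr rfl fun z _ => ?_
          rw [Finset.sum_filter, Finset.mul_sum]
          refine Finset.sum_congr rfl fun z' _ => ?_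
          simp only [indVal]
          split_ifs <;> simp
      _ = ∑ z : IrrCharacter H, (p : ℂ) ^ (2 * d) * (indVal b z * regMat p z z) := by
          refine Finset.sum_congr rfl fun z _ => ?_
          by_cases hz : z ∈ b
          · rw [hsq z hz, hbd, blockMat, CfsgLib.Char.inner_smul_left, regMat, hbd,
              two_mul, pow_add]
            ring
          · simp [indVal, hz]
      _ = _ := by
          rw [← Finset.mul_sum, ← blockRank_cast hM hb]
          push_cast
          rfl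
  -- residues
  obtain ⟨ψ₀, hψ₀, hψ0⟩ := exists_height_zero hM hb
  set m := blockMin p b with hm
  have hqmem : ∀ z : IrrCharacter H, (((charDegree (z : H → ℂ) / p ^ m : ℕ)) : ℂ) ∈ locRing hM :=
    fun z => natCast_mem _ _
  set q : IrrCharacter H → ResField M := fun z => res hM ⟨_, hqmem z⟩ with hq
  set e : IrrCharacter H → ResField M := fun z => ev hM ψ₀ (regElt hM z) with he
  have hAe : ∀ z ∈ b, ∀ z' ∈ b,
      res hM ((A' z z' : ℤ) : locRing hM) = e z * q z' := by
    intro z hz z' hz'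
    rw [he]
    dsimp only
    rw [ev_eq_of_mem hM hb hψ₀ hz' (regElt hM z), ev_regElt, hq, ← map_mul]
    congr 1
    apply Subtype.ext
    show _ = _ * (((charDegree (z' : H → ℂ) / p ^ m : ℕ)) : ℂ)
    have hdvd : p ^ m ∣ charDegree (z' : H → ℂ) :=
      (pow_dvd_pow p (blockMin_le hz')).trans (Nat.ordProj_dvd _ _)
    show _ = classInner (scaledReg p (z : H → ℂ)) (z' : H → ℂ) / (z' : H → ℂ) 1 * _
    rw [blockMat_mul_pow hM hb, Nat.cast_div hdvd
      (by exact_mod_cast pow_ne_zero m hp.ne_zero), CfsgLib.Block.charDegree_cast z'.2.isCharacter']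
    have := hAb z z'
    rw [indVal, indVal, if_pos hz, if_pos hz', one_mul, one_mul] at this
    rw [this]
    push_cast
    have h1 := irr_one_ne_zero z'
    have h2 : (p : ℂ) ^ m ≠ 0 := pow_ne_zero _ (Nat.cast_ne_zero.2 hp.ne_zero)
    field_simp
    simp [hm]
  set n' : IrrCharacter G → IrrCharacter H → ResField M := fun χ z =>
    if z ∈ b then (n χ z : ResField M) else 0 with hn'
  have he0 : e ψ₀ ≠ 0 := (height_zero_iff_ev_regElt hM hb hψ₀ hψ₀).1 hψ0
  have hsymm : ∀ z ∈ b, e z * q ψ₀ = e ψ₀ * q z := by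
    intro z hz
    rw [← hAe z hz ψ₀ hψ₀, ← hAe ψ₀ hψ₀ z hz]
    congr 1
    have h1 := hAb z ψ₀
    have h2 := hAb ψ₀ z
    rw [indVal, indVal, if_pos hz, if_pos hψ₀, one_mul, one_mul] at h1
    rw [indVal, indVal, if_pos hz, if_pos hψ₀, one_mul, one_mul,
      (blockMat_real hM hb hz ψ₀).2, h1] at h2
    congr 1
    exact_mod_cast h2
  have hq0 : q ψ₀ ≠ 0 := by
    rw [hq]
    intro h
    rw [res_eq_zero_iff] at h
    change MemLocalIdeal M (((charDegree (ψ₀ : H → ℂ) / p ^ m : ℕ)) : ℂ) at h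
    rw [memLocalIdeal_natCast_iff hM] at h
    rw [blockHeight_zero_iff hψ₀] at hψ0
    rw [hm, ← hψ0] at h
    exact Nat.not_dvd_ordCompl hp (charDegree_pos ψ₀).ne' h
  have hne : ∀ χ ∈ B, ∑ z, n' χ z * e z ≠ 0 := by
    intro χ hχ hzero
    refine (restrict_regRatio_induced hM hind χ hψ₀).2 ⟨hχ, hh χ hχ⟩ ?_
    rw [memLocalIdeal_iff_exists hM]
    have hval : classInner (scaledReg p fun h : H => (χ : G → ℂ) h) (ψ₀ : H → ℂ) / (ψ₀ : H → ℂ) 1 =
        ∑ z : IrrCharacter H, (n χ z : ℂ) *
          (classInner (scaledReg p (z : H → ℂ)) (ψ₀ : H → ℂ) / (ψ₀ : H → ℂ) 1) := by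
      rw [scaledReg_inner_restrict, Finset.sum_div]
      exact Finset.sum_congr rfl fun z _ => by rw [hn χ z]; ring
    rw [hval]
    have hmem : ∀ z : IrrCharacter H, (n χ z : ℂ) *
          (classInner (scaledReg p (z : H → ℂ)) (ψ₀ : H → ℂ) / (ψ₀ : H → ℂ) 1) ∈ locRing hM :=
      fun z => mul_mem (natCast_mem _ _) (regRatio_mem hM z ψ₀)
    refine ⟨sum_mem fun z _ => hmem z, ?_⟩
    have e3 : (⟨_, sum_mem fun z (_ : z ∈ Finset.univ) => hmem z⟩ : locRing hM) =
        ∑ z : IrrCharacter H, (n χ z : locRing hM) * ⟨_, regRatio_mem hM z ψ₀⟩ := by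
      apply Subtype.ext
      simp
    rw [e3, map_sum, ← hzero]
    refine Finset.sum_congr rfl fun z _ => ?_
    rw [map_mul, map_natCast, ← ev_regElt, hn']
    dsimp only
    by_cases hz : z ∈ b
    · rw [if_pos hz]
    · rw [if_neg hz, zero_mul, ev_regElt_eq_zero_of_not_sameBlock hM, mul_zero]
      intro hsb
      apply hz
      rw [isPBlock_eq_blockOf hM hb hψ₀]
      exact sameBlock_symm hM hsb
  have hneq : ∀ χ ∈ B, ∑ z, n' χ z * q z ≠ 0 := by
    intro χ hχ hzero
    apply hne χ hχ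
    have h1 : (∑ z, n' χ z * e z) * q ψ₀ = e ψ₀ * ∑ z, n' χ z * q z := by
      rw [Finset.sum_mul, Finset.mul_sum]
      refine Finset.sum_congr rfl fun z _ => ?_
      by_cases hz : z ∈ b
      · rw [mul_assoc, hsymm z hz]; ring
      · simp [hn', hz]
    rw [hzero, mul_zero] at h1
    haveI : M.IsMaximal := hM.2.1
    letI := @Ideal.Quotient.field _ _ M hM.2.1
    exact (mul_eq_zero.1 h1).resolve_right hq0
  have hwmem : ∀ z : IrrCharacter H, centVal z u' ∈ locRing hM := fun z =>
    isIntegral_mem hM (IsIntegral.of_pow hNpos (by rw [hroot z]; exact isIntegral_one))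
  have hwcmem : ∀ z : IrrCharacter H, (starRingEnd ℂ) (centVal z u') ∈ locRing hM := fun z =>
    isIntegral_mem hM (IsIntegral.of_pow hNpos (by rw [← map_pow, hroot z, map_one]; exact isIntegral_one))
  have hPne : ∀ χ ∈ B, ∀ ψ ∈ B, ∀ k, P χ ψ k ≠ 0 := by
    intro χ hχ ψ hψ k hzero
    have hw1 : ∀ z : IrrCharacter H, res hM ⟨_, hwmem z⟩ = 1 := fun z =>
      res_eq_one_of_pow_prime_pow hM (n := a + 1) (Subtype.ext (by simpa [hN] using hroot z))
    have hw2 : ∀ z : IrrCharacter H, res hM ⟨_, hwcmem z⟩ = 1 := fun z =>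
      res_eq_one_of_pow_prime_pow hM (n := a + 1) (Subtype.ext (by
        have := congrArg (starRingEnd ℂ) (hroot z)
        simpa [hN] using this))
    have hloc : ((∑ z : IrrCharacter H, ∑ z' : IrrCharacter H,
        ((n χ z * n ψ z' : ℕ) : locRing hM) * ((A' z z' : ℤ) : locRing hM) *
          (⟨_, hwmem z⟩ ^ k * ⟨_, hwcmem z'⟩ ^ k)) : locRing hM) = 0 := by
      apply Subtype.ext
      rw [ZeroMemClass.coe_zero, ← hzero]
      simp [hP, map_pow]
    have h0 := congrArg (res hM) hloc
    simp only [map_sum, map_mul, map_pow, hw1, hw2, one_pow, mul_one, map_natCast, map_zero,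
      Nat.cast_mul] at h0
    have h1 : (∑ z, n' χ z * e z) * (∑ z, n' ψ z * q z) = 0 := by
      rw [← h0, Finset.sum_mul_sum]
      refine Finset.sum_congr rfl fun z _ => Finset.sum_congr rfl fun z' _ => ?_
      by_cases hz : z ∈ b ∧ z' ∈ b
      · rw [hAe z hz.1 z' hz.2]
        simp only [hn', if_pos hz.1, if_pos hz.2]
        ring
      · have hA0 : A' z z' = 0 := dif_neg hz
        rcases not_and_or.1 hz with h | h <;> simp [hn', h, hA0]
    letI := @Ideal.Quotient.field _ _ M hM.2.1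
    exact (mul_ne_zero (hne χ hχ) (hneq ψ hψ)) h1
  -- Galois averaging
  set J := (Finset.range N).filter (fun j => ¬ p ∣ j) with hJ
  have h1J : 1 ∈ J := Finset.mem_filter.2
    ⟨Finset.mem_range.2 (Nat.one_lt_pow (Nat.succ_ne_zero a) hp.one_lt), hp.not_dvd_one⟩
  set T := Bs ×ˢ Bs with hT
  set g : ℕ → IrrCharacter G × IrrCharacter G → ℂ := fun k w =>
    P w.1 w.2 k * (starRingEnd ℂ) (P w.1 w.2 k) with hg
  have hgG : ∀ w, GalVal p ζ₀ (fun k => g k w) := fun w =>
    (hPG w.1 w.2).mul ((hPG w.1 w.2).conj hp hroot0)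
  have hsumk : ∀ k ∈ J, ∑ w ∈ T, g k w = (((p ^ (2 * d) * Cfsg.blockRank p b : ℕ) : ℤ) : ℂ) := by
    intro k hk
    exact GalVal.eq_of_int hp hζ (galVal_sum T (fun w k => g k w) fun w _ => hgG w)
      (by rw [hT, Finset.sum_product]; exact hsum1) (Finset.mem_filter.1 hk).2
  set F : ℕ → ℂ := fun k => ∏ j ∈ J, ∏ w ∈ T, g (k * j % N) w with hF
  have hmod : ∀ k j, ¬ p ∣ k → ¬ p ∣ j → ¬ p ∣ k * j % N := by
    intro k j hk hj h
    rw [hN, Nat.dvd_mod_iff (dvd_pow_self p (Nat.succ_ne_zero a))] at h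
    exact (hp.dvd_mul.1 h).elim hk hj
  have hFG : GalVal p ζ₀ F := by
    refine galVal_prod J (fun j k => ∏ w ∈ T, g (k * j % N) w) fun j hj => ?_
    refine galVal_prod T (fun w k => g (k * j % N) w) fun w _ => ?_
    obtain ⟨Q, hQ⟩ := hgG w
    refine ⟨Q.comp (Polynomial.X ^ j), fun k hk => ?_⟩
    rw [Polynomial.aeval_comp, Polynomial.aeval_X_pow]
    show g (k * j % N) w = _
    rw [show g (k * j % N) w = _ from hQ _ (hmod k j hk (Finset.mem_filter.1 hj).2), ← pow_mul,
      pow_eq_pow_mod (k * j) hζ.pow_eq_one]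
  have hFc : ∀ k, ¬ p ∣ k → F k = F 1 := by
    intro k hk
    simp only [hF, one_mul]
    have hinj : Set.InjOn (fun j => k * j % N) (J : Set ℕ) := by
      intro i hi j hj hij
      have hcop : Nat.Coprime N k := by
        rw [hN]; exact Nat.Coprime.pow_left _ (hp.coprime_iff_not_dvd.2 hk)
      have hm : i ≡ j [MOD N] := Nat.ModEq.cancel_left_of_coprime hcop hij
      exact hm.eq_of_lt_of_lt (Finset.mem_range.1 (Finset.mem_filter.1 hi).1)
        (Finset.mem_range.1 (Finset.mem_filter.1 hj).1)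
    have himg : J.image (fun j => k * j % N) = J := by
      refine Finset.eq_of_subset_of_card_le ?_ (Finset.card_image_of_injOn hinj).ge
      intro x hx
      obtain ⟨j, hj, rfl⟩ := Finset.mem_image.1 hx
      exact Finset.mem_filter.2 ⟨Finset.mem_range.2 (Nat.mod_lt _ hNpos),
        hmod k j hk (Finset.mem_filter.1 hj).2⟩
    conv_rhs => rw [← himg, Finset.prod_image hinj]
    refine Finset.prod_congr rfl fun j hj => ?_
    rw [Nat.mod_mod]
  obtain ⟨z, hz⟩ := hFG.exists_int hp hroot0 hFc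
  set x : ℕ × (IrrCharacter G × IrrCharacter G) → ℝ := fun v =>
    Complex.normSq (P v.2.1 v.2.2 v.1) with hx
  have hxc : ∀ k w, ((x (k, w) : ℝ) : ℂ) = g k w := fun k w => by
    rw [hx, hg]; exact (Complex.mul_conj _).symm
  have hpos : ∀ v ∈ J ×ˢ T, 0 < x v := by
    intro v hv
    obtain ⟨-, hw⟩ := Finset.mem_product.1 hv
    obtain ⟨h1, h2⟩ := Finset.mem_product.1 hw
    exact Complex.normSq_pos.2 (hPne _ (Finset.mem_filter.1 h1).2 _ (Finset.mem_filter.1 h2).2 _)
  have hprod : (1 : ℝ) ≤ ∏ v ∈ J ×ˢ T, x v := by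
    have h2 : (∏ v ∈ J ×ˢ T, x v : ℝ) = (z : ℝ) := by
      apply Complex.ofReal_injective
      push_cast
      rw [← hz, Finset.prod_product]
      simp only [hF, one_mul]
      refine Finset.prod_congr rfl fun j hj => Finset.prod_congr rfl fun w _ => ?_
      rw [Nat.mod_eq_of_lt (Finset.mem_range.1 (Finset.mem_filter.1 hj).1)]
      exact hxc j w
    have := Finset.prod_pos hpos
    rw [h2] at this ⊢
    exact_mod_cast Int.add_one_le_iff.2 (Int.cast_pos.1 this)
  have hle := card_le_sum_of_prod_ge_one (J ×ˢ T) x hpos hprod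
  have hsumR : ∑ v ∈ J ×ˢ T, x v = (J.card : ℝ) * ((p ^ (2 * d) * Cfsg.blockRank p b : ℕ) : ℝ) := by
    apply Complex.ofReal_injective
    rw [Finset.sum_product, Complex.ofReal_sum]
    rw [Finset.sum_congr rfl fun k hk => show ((∑ w ∈ T, x (k, w) : ℝ) : ℂ) = _ by
      rw [Complex.ofReal_sum, Finset.sum_congr rfl fun w _ => hxc k w, hsumk k hk],
      Finset.sum_const, nsmul_eq_mul]
    push_cast
    rfl
  have hBcard : Bs.card = Nat.card B := by
    rw [Nat.card_eq_fintype_card, hBs]
    exact (Fintype.card_subtype _).symm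
  rw [hsumR, Finset.card_product, hT, Finset.card_product, hBcard] at hle
  have hJpos : (0 : ℝ) < J.card := by exact_mod_cast Finset.card_pos.2 ⟨1, h1J⟩
  push_cast at hle
  have hfin := le_of_mul_le_mul_left hle hJpos
  rw [sq]
  exact_mod_cast hfin

end Cfsg.Agent.S4716
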