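import Cfsg.Statements.S4717
import Cfsg.Agent.Lib.BlockPairLocal

set_option autoImplicit false
open Cfsg
open CfsgLib.Block


namespace Cfsg.Agent.S4717

/-- Let p be a prime, M a maximal ideal of the algebraic integers containing p, and r a natural number; say that a finite group X has deficiency class r when X has no non-principal p-block of defect ≥ r. If G has deficiency class r then so does the centralizer of every p-element of G; conversely, if r > 0 and the centralizer of every element of order p has deficiency class r, then G has deficiency class r. -/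
theorem result {G : Type*} [Group G] [Finite G] (p : ℕ) [Fact p.Prime] (M : Ideal Cfsg.AlgInt) (hM : Cfsg.IsPModular p M) (r : ℕ) : ((∀ B' : Set (Cfsg.IrrCharacter G), Cfsg.IsPBlock M B' → B' ≠ Cfsg.principalBlock M G → Cfsg.blockDefect p B' < r) → ∀ y : G, (∃ k : ℕ, orderOf y = p ^ k) → (∀ B' : Set (Cfsg.IrrCharacter ↥(Subgroup.centralizer ({y} : Set G))), Cfsg.IsPBlock M B' → B' ≠ Cfsg.principalBlock M ↥(Subgroup.centralizer ({y} : Set G)) → Cfsg.blockDefect p B' < r)) ∧ (0 < r → (∀ y : G, orderOf y = p → (∀ B' : Set (Cfsg.IrrCharacter ↥(Subgroup.centralizer ({y} : Set G))), Cfsg.IsPBlock M B' → B' ≠ Cfsg.principalBlock M ↥(Subgroup.centralizer ({y} : Set G)) → Cfsg.blockDefect p B' < r)) → (∀ B' : Set (Cfsg.IrrCharacter G), Cfsg.IsPBlock M B' → B' ≠ Cfsg.principalBlock M G → Cfsg.blockDefect p B' < r)) := by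
  haveI := Fintype.ofFinite G
  have hpair : ∀ (Q H : Subgroup G), H = Subgroup.centralizer (Q : Set G) → IsPGroup p Q →
      ∀ B' : Set (Cfsg.IrrCharacter H), Cfsg.IsPBlock M B' → B' ≠ Cfsg.principalBlock M H →
        ∃ (B : Set (Cfsg.IrrCharacter G)), Cfsg.IsPBlock M B ∧ B ≠ Cfsg.principalBlock M G ∧
          Cfsg.blockDefect p B' ≤ Cfsg.blockDefect p B := by
    rintro Q H rfl hQ B' hB' hne
    obtain ⟨B, hB, -⟩ := existsUnique_pairIn (⟨hQ, B', hB', rfl⟩ : PairFn hM Q (pFn hM Q B'))
    refine ⟨B, hB.2.1, fun he => ?_, ?_⟩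
    · subst he
      exact hne (bFn_injOn hM _ hB' (isPBlock_principal M) ((pairIn_principal_iff hM).1 hB).2)
    · obtain ⟨R, γ, hR, -⟩ := hB.exists_max
      obtain ⟨x, -, hx⟩ := exists_conj_centralizer_defect hR hB' hB
      have h := hx.trans (Subgroup.card_le_of_le inf_le_left)
      rw [card_defectGroup hM hB.2.1 hR.isDefectGroup] at h
      exact (Nat.pow_le_pow_iff_right hM.1.one_lt).1 h
  refine ⟨fun h y hy B' hB' hne => ?_, fun hr h B hB hne => ?_⟩
  · obtain ⟨B, hB, hBne, hle⟩ :=
      hpair (Subgroup.zpowers y) _ (centralizer_zpowers y).symm (isPGroup_zpowers hy) B' hB' hne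
    exact lt_of_le_of_lt hle (h B hB hBne)
  · by_contra hd
    rw [not_lt] at hd
    obtain ⟨D, hD⟩ := exists_defectGroup hM hB
    have hDp := isPGroup_defectGroup hM hB hD
    have hDne : trc D (gFn hM B) ≠ 0 := by
      obtain ⟨g, hg, he⟩ := brauerNonzero_defectGroup hM hB hD
      intro h0
      have h1 := congrFun h0 g
      rw [trc, if_pos hg, gFn_block hM hB] at h1
      exact he h1
    obtain ⟨t1, t2, t3⟩ := trc_props hM hDp (invBy_gFn hM B D) (invBy_gFn hM B _) (gFn_mul_self hB)
    obtain ⟨ψ, hψ, hψe⟩ := exists_occ (hM := hM) t1 t2 t3 hDne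
    have hmax := maxPair_of_defectGroup (⟨⟨hDp, hψ⟩, hB, hψe⟩ : PairIn hM B D ψ) hD
    have hcard := card_defectGroup hM hB hD
    haveI : Nontrivial D := by
      rw [← Finite.one_lt_card_iff_nontrivial, hcard]
      exact Nat.one_lt_pow (by omega) hM.1.one_lt
    haveI := IsPGroup.center_nontrivial hDp
    obtain ⟨k, hk, hk'⟩ := (hDp.to_subgroup (Subgroup.center D)).nontrivial_iff_card.1 inferInstance
    obtain ⟨z, hz⟩ := exists_prime_orderOf_dvd_card' p (G := Subgroup.center D) (by
      rw [hk']; exact dvd_pow_self p hk.ne')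
    rw [← Subgroup.orderOf_coe, ← Subgroup.orderOf_coe] at hz
    have hQD : Subgroup.zpowers ((z : D) : G) ≤ D := Subgroup.zpowers_le.2 (SetLike.coe_mem _)
    obtain ⟨φ, hφ⟩ := Chain.exists_below hmax.1.1 hQD
    obtain ⟨f, hf, rfl⟩ := (show PairFn hM (Subgroup.zpowers ((z : D) : G)) φ from hφ.pairFn hmax.1.1).exists_block hM
    have hle := card_centralizer_le_defect hmax.1.1 hf hφ
    rw [inf_eq_left.2 (?_ : D ≤ _), hcard, Nat.pow_le_pow_iff_right hM.1.one_lt] at hle
    swap
    · intro d hd
      rw [centralizer_zpowers, Subgroup.mem_centralizer_singleton_iff]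
      exact congrArg Subtype.val (Subgroup.mem_center_iff.1 z.2 ⟨d, hd⟩)
    have hkey : ∀ H : Subgroup G, H = Subgroup.centralizer ({((z : D) : G)} : Set G) →
        ∀ B' : Set (Cfsg.IrrCharacter H), Cfsg.IsPBlock M B' →
          B' ≠ Cfsg.principalBlock M H → Cfsg.blockDefect p B' < r := by
      rintro H rfl
      exact h _ hz
    by_cases hfp : f = Cfsg.principalBlock M _
    · subst hfp
      refine hne ((existsUnique_pairIn (hφ.pairFn hmax.1.1)).unique
        ((hφ.pairIn_iff B).1 hmax.1) ?_)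
      exact pairIn_principal hM ((hφ.pairFn hmax.1.1).1)
    · exact absurd (hkey _ (centralizer_zpowers _) f hf hfp) (by omega)

end Cfsg.Agent.S4717
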