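import Cfsg.Statements.S4718
import Cfsg.Agent.Lib.BlockBound
import Cfsg.Agent.Lib.BlockPrincipal

set_option autoImplicit false
universe u
open Cfsg
open CfsgLib.Block CfsgLib.Char
open scoped Classical


namespace Cfsg.Agent.S4718

/-- Let p be a prime and a a natural number. There is a bound N such that every finite group whose Sylow p-subgroups have order p^a and whose only p-block (relative to a maximal ideal of the algebraic integers containing p) is the principal block has order at most N. -/
theorem result (p : ℕ) [Fact p.Prime] (a : ℕ) : ∃ N : ℕ, ∀ (G : Type u) [Group G] [Finite G] (M : Ideal Cfsg.AlgInt), Cfsg.IsPModular p M → (Nat.card G).factorization p = a → (∀ B : Set (Cfsg.IrrCharacter G), Cfsg.IsPBlock M B → B = Cfsg.principalBlock M G) → Nat.card G ≤ N := by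
  have landau : ∀ (k : ℕ) (q : ℚ), ∃ N : ℕ, ∀ s : Multiset ℕ, Multiset.card s = k →
      (∀ n ∈ s, 0 < n) → (s.map fun n : ℕ => (1 : ℚ) / n).sum = q → ∀ n ∈ s, n ≤ N := by
    intro k
    induction k with
    | zero => exact fun q => ⟨0, fun s hs _ _ n hn => by simp [Multiset.card_eq_zero.1 hs] at hn⟩
    | succ k ih =>
      intro q
      choose N hN using ih
      obtain ⟨L, hL⟩ : ∃ L : ℕ, ((k + 1 : ℕ) : ℚ) / q ≤ L := exists_nat_ge _
      refine ⟨L + ∑ m ∈ Finset.range (L + 1), N (q - 1 / (m : ℚ)), fun s hs hpos hsum n hn => ?_⟩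
      obtain ⟨m, hm, hmin⟩ : ∃ m ∈ s, ∀ b ∈ s, m ≤ b := by
        have hne : s.toFinset.Nonempty := ⟨n, Multiset.mem_toFinset.2 hn⟩
        exact ⟨s.toFinset.min' hne, Multiset.mem_toFinset.1 (Finset.min'_mem _ hne),
          fun b hb => Finset.min'_le _ _ (Multiset.mem_toFinset.2 hb)⟩
      have hm0 : (0 : ℚ) < m := by exact_mod_cast hpos m hm
      have hq : q ≤ ((k + 1 : ℕ) : ℚ) / m := by
        rw [← hsum]
        refine (Multiset.sum_le_card_nsmul _ ((1 : ℚ) / m) ?_).trans (le_of_eq ?_)
        · intro x hx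
          obtain ⟨b, hb, rfl⟩ := Multiset.mem_map.1 hx
          exact one_div_le_one_div_of_le hm0 (by exact_mod_cast hmin b hb)
        · rw [Multiset.card_map, hs, nsmul_eq_mul, mul_one_div]
      have hqpos : 0 < q := by
        rw [← hsum, ← Multiset.cons_erase hm, Multiset.map_cons, Multiset.sum_cons]
        refine add_pos_of_pos_of_nonneg (one_div_pos.2 hm0) (Multiset.sum_nonneg fun x hx => ?_)
        obtain ⟨b, -, rfl⟩ := Multiset.mem_map.1 hx
        positivity
      have hmL : m ≤ L := by
        have h1 : (m : ℚ) ≤ ((k + 1 : ℕ) : ℚ) / q := by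
          rw [le_div_iff₀ hqpos]
          rw [le_div_iff₀ hm0] at hq
          linarith
        exact_mod_cast h1.trans hL
      by_cases hnm : n = m
      · subst hnm
        exact hmL.trans (Nat.le_add_right _ _)
      · have h := hN (q - 1 / (m : ℚ)) (s.erase m) (by rw [Multiset.card_erase_of_mem hm, hs]; rfl)
          (fun b hb => hpos b (Multiset.mem_of_mem_erase hb))
          (by rw [← hsum]; conv_rhs => rw [← Multiset.cons_erase hm, Multiset.map_cons, Multiset.sum_cons]
              ring)
          n ((Multiset.mem_erase_of_ne hnm).2 hn)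
        refine h.trans (le_trans ?_ (Nat.le_add_left _ _))
        exact Finset.single_le_sum (f := fun j : ℕ => N (q - 1 / (j : ℚ))) (fun j _ => Nat.zero_le _)
          (Finset.mem_range.2 (Nat.lt_succ_of_le hmL))
  choose L hL using fun k => landau k 1
  refine ⟨∑ k ∈ Finset.range (p ^ (2 * a) / 4 + 2), L k, ?_⟩
  intro G _ _ M hM ha hone
  haveI := Fintype.ofFinite G
  have hall : ∀ χ : Cfsg.IrrCharacter G, χ ∈ Cfsg.principalBlock M G := fun χ => by
    rw [← hone _ (isPBlock_blockOf χ)]
    exact mem_blockOf_self hM χ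
  have hk : Nat.card (ConjClasses G) ≤ p ^ (2 * a) / 4 + 1 := by
    have h := card_block_le hM (isPBlock_principal (G := G) M)
    rw [blockDefect_principal hM, ha] at h
    rw [← card_irrCharacter]
    exact le_trans (le_of_eq (Nat.card_congr (Equiv.subtypeUnivEquiv hall)).symm) h
  obtain ⟨r, hr⟩ : ∃ r : ConjClasses G → G, ∀ K, ConjClasses.mk (r K) = K :=
    ⟨fun K => Classical.choose K.exists_rep, fun K => Classical.choose_spec K.exists_rep⟩
  have hidx : ∀ K : ConjClasses G, (Subgroup.centralizer ({Quotient.out K} : Set G)).index =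
      (Subgroup.centralizer ({r K} : Set G)).index := by
    intro K
    have hc := ConjClasses.mk_eq_mk_iff_isConj.1 ((hr K).trans (Quotient.out_eq K).symm)
    have h1 := column_orth_conj hc
    have h2 := column_orth_conj (IsConj.refl (Quotient.out K : G))
    rw [Finset.sum_congr rfl (fun χ _ => by rw [classFun_isConj (irr_classFunction χ) hc])] at h2
    rw [Finset.sum_congr rfl (fun χ _ => by rw [classFun_isConj (irr_classFunction χ) hc])] at h1
    have h3 : Nat.card ↥(Subgroup.centralizer ({Quotient.out K} : Set G)) =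
        Nat.card ↥(Subgroup.centralizer ({r K} : Set G)) := by exact_mod_cast h2.symm.trans h1
    exact Nat.eq_of_mul_eq_mul_right Nat.card_pos ((Subgroup.index_mul_card _).trans
      (by rw [h3, Subgroup.index_mul_card]))
  obtain ⟨f, hf⟩ : ∃ f : ConjClasses G → ℕ, ∀ K, f K = Nat.card ↥(Subgroup.centralizer ({r K} : Set G)) :=
    ⟨_, fun _ => rfl⟩
  obtain ⟨s, hs⟩ : ∃ s : Multiset ℕ, s = (Finset.univ : Finset (ConjClasses G)).val.map f := ⟨_, rfl⟩
  have hc : Multiset.card s = Nat.card (ConjClasses G) := by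
    rw [hs, Multiset.card_map, Nat.card_eq_fintype_card]
    rfl
  have hsum : (s.map fun n : ℕ => (1 : ℚ) / n).sum = 1 := by
    have h1 : ∑ K : ConjClasses G, (Subgroup.centralizer ({r K} : Set G)).index = Nat.card G := by
      have h := sum_eq_sum_classes (f := fun _ : G => (1 : ℂ)) (fun _ _ => rfl)
      simp only [Finset.sum_const, Finset.card_univ, nsmul_eq_mul, mul_one] at h
      rw [Nat.card_eq_fintype_card, ← Finset.sum_congr rfl fun K _ => hidx K]
      exact_mod_cast h.symm
    rw [hs, Multiset.map_map]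
    show ∑ K : ConjClasses G, (1 : ℚ) / (f K : ℚ) = 1
    have hG : (Nat.card G : ℚ) ≠ 0 := by exact_mod_cast Nat.card_pos.ne'
    rw [Finset.sum_congr (g := fun K : ConjClasses G =>
      ((Subgroup.centralizer ({r K} : Set G)).index : ℚ) / (Nat.card G : ℚ)) rfl fun K _ => ?_,
      ← Finset.sum_div, ← Nat.cast_sum, h1, div_self hG]
    rw [hf, div_eq_div_iff (by exact_mod_cast Nat.card_pos.ne') hG, one_mul]
    exact_mod_cast (Subgroup.index_mul_card _).symm
  have hmem : Nat.card G ∈ s := by
    rw [hs, Multiset.mem_map]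
    refine ⟨ConjClasses.mk 1, Finset.mem_univ _, ?_⟩
    have ho : r (ConjClasses.mk (1 : G)) = 1 :=
      isConj_one_left.1 (ConjClasses.mk_eq_mk_iff_isConj.1 (hr (ConjClasses.mk 1)))
    rw [hf, ho, show Subgroup.centralizer ({(1 : G)} : Set G) = ⊤ from
      eq_top_iff.2 fun x _ => Subgroup.mem_centralizer_singleton_iff.2 (by simp), Subgroup.card_top]
  refine (hL (Nat.card (ConjClasses G)) s hc (fun n hn => ?_) hsum _ hmem).trans ?_
  · rw [hs, Multiset.mem_map] at hn
    obtain ⟨K, -, rfl⟩ := hn
    rw [hf]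
    exact Nat.card_pos
  · exact Finset.single_le_sum (f := L) (fun j _ => Nat.zero_le _) (Finset.mem_range.2 (by omega))

end Cfsg.Agent.S4718
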