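import Cfsg.Statements.S4720
import Cfsg.Agent.Lib.BlockPrinColumn

set_option autoImplicit false
open Cfsg
open CfsgLib.Block CfsgLib.Char
open scoped Classical ComplexConjugate


namespace Cfsg.Agent.S4720

/-- Let p be a prime, M a maximal ideal of the algebraic integers containing p, P a p-subgroup of the finite group G, N a subgroup with P ≤ N ≤ N_G(P), and U a nonempty subset of P normalized by N such that an element of U and an element of P that are conjugate in G are already conjugate in N, and such that λ(C_G(y)) = w·#C_N(y) for every y ∈ U with one rational number w, where λ(X) denotes the sum of the squares of the degrees of the irreducible characters in the principal p-block of X. For a complex function θ on P and χ in the principal block of G put a_χ(θ) = #P⁻¹ Σ_{y ∈ P} χ(y) θ(y⁻¹). Then for generalized characters θ, η of P with θ vanishing outside U, Σ_χ a_χ(θ)·conj(a_χ(η)) = (w/#P²)·Σ_{y ∈ P} θ(y)·conj(Σ_{x ∈ N} η(x y x⁻¹))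 (η extended by zero off P; the conjugates lie in P), the first sum over the principal p-block of G. -/
theorem result {G : Type*} [Group G] [Finite G] (p : ℕ) [Fact p.Prime] (M : Ideal Cfsg.AlgInt) (hM : Cfsg.IsPModular p M) (P : Subgroup G) (hP : IsPGroup p P) (N : Subgroup G) (hPN : P ≤ N) (hNN : N ≤ Subgroup.normalizer (P : Set G)) (U : Set G) (hUne : U.Nonempty) (hUP : U ⊆ (P : Set G)) (hUN : ∀ n ∈ N, ∀ u ∈ U, n * u * n⁻¹ ∈ U) (hfus : ∀ u ∈ U, ∀ g : G, g * u * g⁻¹ ∈ (P : Set G) → ∃ n ∈ N, n * u * n⁻¹ = g * u * g⁻¹) (w : ℚ) (hw : ∀ y ∈ U, ((∑ᶠ ψ ∈ Cfsg.principalBlock M ↥(Subgroup.centralizer ({y} : Set G)), Cfsg.charDegree (ψ : ↥(Subgroup.centralizer ({y} : Set G)) → ℂ) ^ 2) : ℚ) = w * Nat.card ↥(N ⊓ Subgroup.centralizer ({y} : Set G))) (θ η : ↥P → ℂ) (hθ : Cfsg.IsGeneralizedCharacter ↥P θ) (hη : Cfsg.IsGeneralizedCharacter ↥P η) (hθU : ∀ y : ↥P, (y : G) ∉ U → θ y = 0) : ∑ᶠ χ ∈ Cfsg.principalBlock M G, ((Nat.card ↥P : ℂ)⁻¹ * ∑ᶠ y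 : ↥P, (χ : G → ℂ) (y : G) * θ y⁻¹) * (starRingEnd ℂ) ((Nat.card ↥P : ℂ)⁻¹ * ∑ᶠ y : ↥P, (χ : G → ℂ) (y : G) * η y⁻¹) = ((w : ℂ) / ((Nat.card ↥P : ℂ) ^ 2)) * ∑ᶠ y : ↥P, θ y * (starRingEnd ℂ) (∑ᶠ x : ↥N, Cfsg.extendByZero P η ((x : G) * (y : G) * (x : G)⁻¹)) := by
  haveI := Fintype.ofFinite G
  have hnorm := hNN
  set B := Cfsg.principalBlock M G with hB
  have hPel : ∀ y : ↥P, ∃ k, orderOf (y : G) = p ^ k := fun y => by
    obtain ⟨k, hk⟩ := IsPGroup.iff_orderOf.1 hP y
    exact ⟨k, by rw [Subgroup.orderOf_coe, hk]⟩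
  obtain ⟨C, hCdef⟩ : ∃ C : G → G → ℂ, ∀ a b, C a b = ∑ χ : Cfsg.IrrCharacter G,
      indVal B χ * ((χ : G → ℂ) b * conj ((χ : G → ℂ) a)) := ⟨_, fun _ _ => rfl⟩
  have hC : ∀ y : ↥P, (y : G) ∈ U → ∀ x : ↥P, C y x =
      if IsConj (y : G) (x : G) then (w : ℂ) * (Nat.card ↥(N ⊓ Subgroup.centralizer ({(y : G)} : Set G)) : ℂ) else 0 := by
    intro y hy x
    rw [hCdef]
    split_ifs with h
    · rw [Finset.sum_congr rfl (fun χ _ => by
        rw [classFun_isConj (irr_classFunction χ) h]), hB, principal_col_sum hM (hPel y)]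
      have e : ((∑ᶠ ψ ∈ Cfsg.principalBlock M ↥(Subgroup.centralizer ({(y : G)} : Set G)),
          Cfsg.charDegree (ψ : ↥(Subgroup.centralizer ({(y : G)} : Set G)) → ℂ) ^ 2 : ℕ) : ℂ) =
          (w : ℂ) * (Nat.card ↥(N ⊓ Subgroup.centralizer ({(y : G)} : Set G)) : ℂ) := by
        have h3 := congrArg (fun q : ℚ => (q : ℂ)) (hw _ hy)
        simp only [height_finsum_eq, ← Nat.cast_pow, Rat.cast_mul, Rat.cast_natCast] at h3 ⊢
        rw [finsum_mem_eq_finite_toFinset_sum _ (Set.toFinite _)] at h3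
        rw [← h3, Rat.cast_sum, Nat.cast_sum]
        simp only [Rat.cast_natCast]
        exact Finset.sum_congr (Finset.ext fun _ => by simp) fun _ _ => rfl
      rw [← e, height_finsum_eq, Nat.cast_sum, Finset.sum_filter]
      refine Finset.sum_congr rfl fun ζ _ => ?_
      rw [indVal, Nat.cast_pow, charDegree_cast ζ.2.isCharacter']
      split_ifs <;> ring
    · exact block_sum_pElement_eq_zero hM (isPBlock_principal M) (hPel y) (hPel x) h
  have hfib : ∀ y : ↥P, (y : G) ∈ U → ∀ x : ↥P,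
      ((Finset.univ.filter (fun n : ↥N => (n : G) * y * (n : G)⁻¹ = x)).card : ℂ) =
        if IsConj (y : G) (x : G) then (Nat.card ↥(N ⊓ Subgroup.centralizer ({(y : G)} : Set G)) : ℂ) else 0 := by
    intro y hy x
    split_ifs with h
    · obtain ⟨g, hg⟩ := isConj_iff.1 h
      obtain ⟨n₀, hn₀, hn⟩ := hfus _ hy g (by rw [hg]; exact x.2)
      rw [hg] at hn
      have hmem : ∀ n : G, n * y * n⁻¹ = x → n₀⁻¹ * n ∈ Subgroup.centralizer ({(y : G)} : Set G) := by
        intro n hn'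
        rw [Subgroup.mem_centralizer_singleton_iff]
        calc n₀⁻¹ * n * y = n₀⁻¹ * (n * y * n⁻¹) * n := by group
          _ = n₀⁻¹ * (n₀ * y * n₀⁻¹) * n := by rw [hn', hn]
          _ = y * (n₀⁻¹ * n) := by group
      rw [← Fintype.card_subtype, ← Nat.card_eq_fintype_card]
      congr 1
      refine Nat.card_congr ⟨fun n => ⟨n₀⁻¹ * (n.1 : G), Subgroup.mem_inf.2
        ⟨mul_mem (inv_mem hn₀) n.1.2, hmem _ n.2⟩⟩,
        fun c => ⟨⟨n₀ * c.1, mul_mem hn₀ (Subgroup.mem_inf.1 c.2).1⟩, ?_⟩,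
        fun n => Subtype.ext (Subtype.ext (mul_inv_cancel_left _ _)),
        fun c => Subtype.ext (inv_mul_cancel_left _ _)⟩
      show n₀ * (c.1 : G) * y * (n₀ * c.1)⁻¹ = x
      rw [← hn, mul_assoc n₀, Subgroup.mem_centralizer_singleton_iff.1 (Subgroup.mem_inf.1 c.2).2]
      group
    · rw [Nat.cast_eq_zero, Finset.card_eq_zero, Finset.filter_eq_empty_iff]
      exact fun n _ e => h (isConj_iff.2 ⟨(n : G), e⟩)
  have hin : ∀ y : ↥P, θ y ≠ 0 → ∑ x : ↥P, C y x * conj (η x) =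
      (w : ℂ) * conj (∑ n : ↥N, Cfsg.extendByZero P η ((n : G) * (y : G) * (n : G)⁻¹)) := by
    intro y hy
    have hyU : (y : G) ∈ U := by
      by_contra h
      exact hy (hθU y h)
    have e : ∀ n : ↥N, Cfsg.extendByZero P η ((n : G) * (y : G) * (n : G)⁻¹) =
        ∑ x : ↥P, if (n : G) * y * (n : G)⁻¹ = x then η x else 0 := by
      intro n
      have hm : (n : G) * (y : G) * (n : G)⁻¹ ∈ P := hUP (hUN n n.2 _ hyU)
      rw [extendByZero_mem _ hm, Finset.sum_eq_single (⟨_, hm⟩ : ↥P)]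
      · rw [if_pos rfl]
      · intro x _ hx
        rw [if_neg fun e => hx (Subtype.ext e.symm)]
      · simp
    simp only [e]
    rw [Finset.sum_comm, map_sum, Finset.mul_sum]
    refine Finset.sum_congr rfl fun x _ => ?_
    rw [← Finset.sum_filter, Finset.sum_const, nsmul_eq_mul, map_mul, Complex.conj_natCast,
      hfib y hyU x, hC y hyU x]
    split_ifs <;> ring
  have hinv : ∀ (χ : Cfsg.IrrCharacter G) (f : ↥P → ℂ),
      ∑ y : ↥P, (χ : G → ℂ) (y : G) * f y⁻¹ = ∑ y : ↥P, conj ((χ : G → ℂ) (y : G)) * f y := by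
    intro χ f
    refine Fintype.sum_equiv (Equiv.inv ↥P) _ _ fun y => ?_
    rw [Equiv.inv_apply, Subgroup.coe_inv, isCharacter_inv_eq_conj χ.2.isCharacter', Complex.conj_conj]
  rw [finsum_mem_eq_indVal]
  simp only [finsum_eq_sum_of_fintype, hinv]
  calc ∑ χ : Cfsg.IrrCharacter G, indVal B χ *
        ((Nat.card ↥P : ℂ)⁻¹ * (∑ y : ↥P, conj ((χ : G → ℂ) (y : G)) * θ y) *
          conj ((Nat.card ↥P : ℂ)⁻¹ * ∑ x : ↥P, conj ((χ : G → ℂ) (x : G)) * η x))
      = ((Nat.card ↥P : ℂ) ^ 2)⁻¹ * ∑ y : ↥P, θ y * ∑ x : ↥P, C y x * conj (η x) := by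
        simp only [hCdef, map_mul, map_inv₀, Complex.conj_natCast, map_sum, Complex.conj_conj,
          Finset.mul_sum, Finset.sum_mul]
        rw [Finset.sum_comm, Finset.sum_congr rfl fun x _ => Finset.sum_comm, Finset.sum_comm]
        refine Finset.sum_congr rfl fun y _ => Finset.sum_congr rfl fun x _ =>
          Finset.sum_congr rfl fun χ _ => ?_
        ring
    _ = _ := by
        rw [Finset.mul_sum, Finset.mul_sum]
        refine Finset.sum_congr rfl fun y _ => ?_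
        by_cases hy : θ y = 0
        · simp [hy]
        · rw [hin y hy]
          ring

end Cfsg.Agent.S4720
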