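import Cfsg.Statements.S4722
import Cfsg.Agent.Lib.BlockPrinColumn
import Cfsg.Agent.Lib.BlockIndep
import Cfsg.Agent.Lib.CharMult
import Cfsg.Agent.Lib.ZStarBlock

set_option autoImplicit false
open Cfsg
open CfsgLib.Block CfsgLib.Char
open scoped Classical ComplexConjugate


namespace Cfsg.Agent.S4722

/-- Let M be a maximal ideal of the algebraic integers containing 2, P a 2-subgroup of the finite group G, U a subset of P, and t an involution of G such that no element of U is inverted by any conjugate of t. Let θ be a generalized character of P vanishing outside U, and for χ in the principal 2-block B₀ put a_χ = #P⁻¹ Σ_{y ∈ P} χ(y) θ(y⁻¹). Then Σ_{χ ∈ B₀} a_χ χ(t)^2/χ(1) = 0, Σ_{χ ∈ B₀} a_χ χ(1) = 0 and Σ_{χ ∈ B₀} a_χ χ(t) = 0. If moreover #P⁻¹ Σ_{y ∈ P} θ(y) ≠ 0, then either at least two of the a_χ have positive real part and at least two have negative real part, or G has a proper normal subgroup containing O_2'(G)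 and t. -/
theorem result {G : Type*} [Group G] [Finite G] (M : Ideal Cfsg.AlgInt) (hM : Cfsg.IsPModular 2 M) (P : Subgroup G) (hP : IsPGroup 2 P) (U : Set G) (hUP : U ⊆ (P : Set G)) (t : G) (ht : orderOf t = 2) (hinv : ∀ u ∈ U, ∀ g : G, (g * t * g⁻¹) * u * (g * t * g⁻¹)⁻¹ ≠ u⁻¹) (θ : ↥P → ℂ) (hθ : Cfsg.IsGeneralizedCharacter ↥P θ) (hθU : ∀ y : ↥P, (y : G) ∉ U → θ y = 0) : (∑ᶠ χ ∈ Cfsg.principalBlock M G, ((Nat.card ↥P : ℂ)⁻¹ * ∑ᶠ y : ↥P, (χ : G → ℂ) (y : G) * θ y⁻¹) * (χ : G → ℂ) t ^ 2 / (χ : G → ℂ) 1 = 0) ∧ (∑ᶠ χ ∈ Cfsg.principalBlock M G, ((Nat.card ↥P : ℂ)⁻¹ * ∑ᶠ y : ↥P, (χ : G → ℂ) (y : G) * θ y⁻¹) * (χ : G → ℂ) 1 = 0) ∧ (∑ᶠ χ ∈ Cfsg.principalBlock M G, ((Nat.card ↥P : ℂ)⁻¹ * ∑ᶠ y : ↥P, (χ : G → ℂ) (y : G) * θ y⁻¹) * (χ : G → ℂ) t = 0) ∧ ((Nat.card ↥P : ℂ)⁻¹ * ∑ᶠ y : ↥P, θ y ≠ 0 → (2 ≤ Nat.card {χ : Cfsg.IrrCharacter G // χ ∈ Cfsg.principalBlock M G ∧ 0 < (((Nat.card ↥P : ℂ)⁻¹ * ∑ᶠ y : ↥P, (χ : G → ℂ) (y : G) * θ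 y⁻¹)).re} ∧ 2 ≤ Nat.card {χ : Cfsg.IrrCharacter G // χ ∈ Cfsg.principalBlock M G ∧ (((Nat.card ↥P : ℂ)⁻¹ * ∑ᶠ y : ↥P, (χ : G → ℂ) (y : G) * θ y⁻¹)).re < 0}) ∨ ∃ K : Subgroup G, K.Normal ∧ K ≠ ⊤ ∧ Cfsg.pPrimeCore 2 G ≤ K ∧ t ∈ K) := by
  haveI := Fintype.ofFinite G
  have hp2 : Nat.Prime 2 := Nat.prime_two
  haveI : Fact (Nat.Prime 2) := ⟨hp2⟩
  set B := Cfsg.principalBlock M G with hB
  have hBB : Cfsg.IsPBlock M B := isPBlock_principal M
  have ht2 : t * t = 1 := by rw [← pow_two, ← ht, pow_orderOf_eq_one]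
  have htinv : ∀ g : G, g * t * g⁻¹ * (g * t * g⁻¹) = 1 := fun g => by
    calc g * t * g⁻¹ * (g * t * g⁻¹) = g * (t * t) * g⁻¹ := by group
      _ = 1 := by rw [ht2]; group
  have hUel : ∀ u ∈ U, ∃ k, orderOf u = 2 ^ k := fun u hu => by
    obtain ⟨k, hk⟩ := IsPGroup.iff_orderOf.1 hP ⟨u, hUP hu⟩
    exact ⟨k, by rw [← Subgroup.orderOf_coe] at hk; exact hk⟩
  -- no element of the section of `u` is a product of two conjugates of `t`
  have hF : ∀ u ∈ U, ∀ z x : G, Cfsg.IsPPart 2 z x → IsConj x u →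
      ∑ χ : Cfsg.IrrCharacter G, conj ((χ : G → ℂ) t) * conj ((χ : G → ℂ) t) * (χ : G → ℂ) z / (χ : G → ℂ) 1 = 0 := by
    intro u hu z x hx hxu
    have hc : IsEmpty {pr : G × G // pr.1 * t * pr.1⁻¹ * (pr.2 * t * pr.2⁻¹) = z} := by
      refine ⟨fun ⟨⟨a, b⟩, hab⟩ => ?_⟩
      simp only at hab
      obtain ⟨g, hg⟩ := isConj_iff.1 hxu
      obtain ⟨n, hn⟩ := Subgroup.mem_zpowers_iff.1 (isPPart_mem_zpowers hp2 hx)
      have hia : (a * t * a⁻¹)⁻¹ = a * t * a⁻¹ := inv_eq_of_mul_eq_one_right (htinv a)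
      have hib : (b * t * b⁻¹)⁻¹ = b * t * b⁻¹ := inv_eq_of_mul_eq_one_right (htinv b)
      have hz : MulAut.conj (a * t * a⁻¹) z = z⁻¹ := by
        rw [MulAut.conj_apply, ← hab, hia, ← mul_assoc (a * t * a⁻¹) (a * t * a⁻¹), htinv, one_mul,
          mul_inv_rev, hia, hib]
      have hx' : (a * t * a⁻¹) * x * (a * t * a⁻¹)⁻¹ = x⁻¹ := by
        rw [← MulAut.conj_apply, ← hn, map_zpow, hz, inv_zpow]
      refine hinv u hu (g * a) ?_
      calc (g * a) * t * (g * a)⁻¹ * u * ((g * a) * t * (g * a)⁻¹)⁻¹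
          = g * ((a * t * a⁻¹) * x * (a * t * a⁻¹)⁻¹) * g⁻¹ := by rw [← hg]; group
        _ = u⁻¹ := by rw [hx', ← hg]; group
    have h := count_conj_mul t t z
    rw [Nat.card_eq_zero.2 (Or.inl hc), Nat.cast_zero] at h
    exact (mul_eq_zero.1 h.symm).resolve_left (natCard_ne_zero G)
  -- the columns
  have hcolA : ∀ u ∈ U, ∑ χ : Cfsg.IrrCharacter G, indVal B χ *
      ((χ : G → ℂ) t ^ 2 / (χ : G → ℂ) 1 * conj ((χ : G → ℂ) u)) = 0 := by
    intro u hu
    obtain ⟨c, hc⟩ : ∃ c : Cfsg.IrrCharacter G → ℂ,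
        ∀ χ, c χ = conj ((χ : G → ℂ) t) * conj ((χ : G → ℂ) t) / (χ : G → ℂ) 1 := ⟨_, fun _ => rfl⟩
    have key : ∑ χ : Cfsg.IrrCharacter G, indVal B χ * c χ * (χ : G → ℂ) u = 0 := by
      set Fn : G → ℂ := ∑ φ : Cfsg.IrrCharacter G, c φ • (φ : G → ℂ) with hFn
      have hcc : ∀ χ : Cfsg.IrrCharacter G, c χ = Cfsg.classInner Fn (χ : G → ℂ) := fun χ => by
        rw [hFn, CfsgLib.Char.inner_sum_left]
        simp [CfsgLib.Char.inner_smul_left, irr_classInner]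
      calc ∑ χ : Cfsg.IrrCharacter G, indVal B χ * c χ * (χ : G → ℂ) u
          = (Nat.card G : ℂ)⁻¹ * ∑ y, Fn y *
              ∑ χ : Cfsg.IrrCharacter G, indVal B χ * (χ : G → ℂ) u * conj ((χ : G → ℂ) y) := by
            simp only [hcc, Cfsg.classInner, Finset.mul_sum, Finset.sum_mul]
            rw [Finset.sum_comm]
            exact Finset.sum_congr rfl fun x _ => Finset.sum_congr rfl fun χ _ => by ring
        _ = 0 := by
            rw [Finset.sum_eq_zero fun y _ => ?_, mul_zero]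
            obtain ⟨x, hx⟩ := exists_isPPart hp2 y
            by_cases hxu : IsConj x u
            · have h0 : Fn y = 0 := by
                rw [hFn, Finset.sum_apply, ← hF u hu y x hx hxu]
                exact Finset.sum_congr rfl fun χ _ => by
                  rw [Pi.smul_apply, smul_eq_mul, hc, div_mul_eq_mul_div]
              rw [h0, zero_mul]
            · rw [block_sum_pPart_eq_zero hM hBB
                (⟨1, mul_one u, Commute.one_right u, hUel u hu, by rw [orderOf_one]; exact hp2.not_dvd_one⟩ : Cfsg.IsPPart 2 u u)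
                hx hxu, mul_zero]
    have h := congrArg conj key
    rw [map_zero, map_sum] at h
    rw [← h]
    refine Finset.sum_congr rfl fun χ _ => ?_
    rw [hc, map_mul, map_mul, conj_indVal, map_div₀, map_mul, Complex.conj_conj, irr_conj_one]
    ring
  have hcolB : ∀ u ∈ U, ∑ χ : Cfsg.IrrCharacter G, indVal B χ *
      ((χ : G → ℂ) 1 * conj ((χ : G → ℂ) u)) = 0 := by
    intro u hu
    refine block_sum_pElement_eq_zero hM hBB (hUel u hu) ⟨0, by rw [orderOf_one, pow_zero]⟩ fun h => ?_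
    exact hinv u hu 1 (by rw [isConj_one_left.1 h]; group)
  have hcolC : ∀ u ∈ U, ∑ χ : Cfsg.IrrCharacter G, indVal B χ *
      ((χ : G → ℂ) t * conj ((χ : G → ℂ) u)) = 0 := by
    intro u hu
    refine block_sum_pElement_eq_zero hM hBB (hUel u hu) ⟨1, by rw [ht, pow_one]⟩ fun h => ?_
    obtain ⟨g, hg⟩ := isConj_iff.1 h
    refine hinv u hu g⁻¹ ?_
    have hu' : u = g⁻¹ * t * (g⁻¹)⁻¹ := by rw [← hg]; group
    rw [← hu', mul_inv_cancel_right]
    have h2 := htinv g⁻¹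
    rw [← hu'] at h2
    exact (inv_eq_of_mul_eq_one_right h2).symm
  -- the multiplicities
  obtain ⟨a, ha⟩ : ∃ a : Cfsg.IrrCharacter G → ℂ, ∀ χ, a χ =
      (Nat.card ↥P : ℂ)⁻¹ * ∑ y : ↥P, conj ((χ : G → ℂ) (y : G)) * θ y := ⟨_, fun _ => rfl⟩
  have haeq : ∀ χ : Cfsg.IrrCharacter G,
      (Nat.card ↥P : ℂ)⁻¹ * ∑ᶠ y : ↥P, (χ : G → ℂ) (y : G) * θ y⁻¹ = a χ := by
    intro χ
    rw [finsum_eq_sum_of_fintype, ha]
    congr 1
    refine Fintype.sum_equiv (Equiv.inv ↥P) _ _ fun y => ?_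
    rw [Equiv.inv_apply, Subgroup.coe_inv, isCharacter_inv_eq_conj χ.2.isCharacter', Complex.conj_conj]
  simp only [haeq]
  have haint : ∀ χ : Cfsg.IrrCharacter G, ∃ n : ℤ, a χ = n := by
    intro χ
    obtain ⟨n, hn⟩ := inner_genChar_int hθ
      (isGenChar_of_isCharacter (isCharacter_restrict χ.2.isCharacter' P))
    refine ⟨n, ?_⟩
    rw [ha, ← hn, Cfsg.classInner]
    congr 1
    exact Finset.sum_congr rfl fun y _ => mul_comm _ _
  have hzero : ∀ v : Cfsg.IrrCharacter G → ℂ,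
      (∀ u ∈ U, ∑ χ : Cfsg.IrrCharacter G, indVal B χ * (v χ * conj ((χ : G → ℂ) u)) = 0) →
      ∑ χ : Cfsg.IrrCharacter G, indVal B χ * (a χ * v χ) = 0 := by
    intro v hv
    calc ∑ χ : Cfsg.IrrCharacter G, indVal B χ * (a χ * v χ)
        = (Nat.card ↥P : ℂ)⁻¹ * ∑ y : ↥P, θ y *
            ∑ χ : Cfsg.IrrCharacter G, indVal B χ * (v χ * conj ((χ : G → ℂ) (y : G))) := by
          simp only [ha, Finset.mul_sum, Finset.sum_mul]
          rw [Finset.sum_comm]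
          exact Finset.sum_congr rfl fun y _ => Finset.sum_congr rfl fun χ _ => by ring
      _ = 0 := by
          rw [Finset.sum_eq_zero fun y _ => ?_, mul_zero]
          by_cases hy : (y : G) ∈ U
          · rw [hv _ hy, mul_zero]
          · rw [hθU y hy, zero_mul]
  have eA := hzero (fun χ => (χ : G → ℂ) t ^ 2 / (χ : G → ℂ) 1) hcolA
  have eB := hzero (fun χ => (χ : G → ℂ) 1) hcolB
  have eC := hzero (fun χ => (χ : G → ℂ) t) hcolC
  refine ⟨?_, ?_, ?_, fun hne => ?_⟩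
  · rw [finsum_mem_eq_indVal, ← eA]
    exact Finset.sum_congr rfl fun χ _ => by rw [mul_div_assoc]
  · rw [finsum_mem_eq_indVal]; exact eB
  · rw [finsum_mem_eq_indVal]; exact eC
  -- signs
  have htriv : a (trivIrr G) ≠ 0 := by
    rw [ha]
    rw [finsum_eq_sum_of_fintype] at hne
    simpa [trivIrr] using hne
  have hrt : ∀ χ : Cfsg.IrrCharacter G, ∃ r : ℝ, (χ : G → ℂ) t = r := fun χ => by
    refine ⟨((χ : G → ℂ) t).re, (Complex.conj_eq_iff_re.1 ?_).symm⟩
    rw [← isCharacter_inv_eq_conj χ.2.isCharacter', inv_eq_of_mul_eq_one_right ht2]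
  choose r hr using hrt
  choose n hn using haint
  choose d hd0 hd using fun χ : Cfsg.IrrCharacter G => exists_degree_pos χ.2
  have hBt : trivIrr G ∈ B := trivIrr_mem_principal hM
  have main : ∀ e : ℤ, e = 1 ∨ e = -1 →
      Nat.card {χ : Cfsg.IrrCharacter G // χ ∈ B ∧ 0 < e * n χ} < 2 →
      ∃ K : Subgroup G, K.Normal ∧ K ≠ ⊤ ∧ Cfsg.pPrimeCore 2 G ≤ K ∧ t ∈ K := by
    intro e he hcard
    have he0 : e ≠ 0 := by rcases he with rfl | rfl <;> norm_num
    set T := Finset.univ.filter (fun χ : Cfsg.IrrCharacter G => χ ∈ B) with hT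
    have toT : ∀ f : Cfsg.IrrCharacter G → ℝ,
        ∑ χ : Cfsg.IrrCharacter G, indVal B χ * (a χ * (f χ : ℂ)) = 0 →
        ∑ χ ∈ T, ((e * n χ : ℤ) : ℝ) * f χ = 0 := by
      intro f h
      have h1 : ((∑ χ ∈ T, ((e * n χ : ℤ) : ℝ) * f χ : ℝ) : ℂ) = 0 := by
        rw [← mul_zero (e : ℂ), ← h, Finset.mul_sum, hT, Finset.sum_filter, Complex.ofReal_sum]
        refine Finset.sum_congr rfl fun χ _ => ?_
        unfold indVal
        rw [hn]
        split_ifs <;> push_cast <;> ring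
      exact_mod_cast h1
    have fA := toT (fun χ => r χ ^ 2 / d χ) (by
      rw [← eA]; exact Finset.sum_congr rfl fun χ _ => by simp only [hr, hd]; push_cast; rfl)
    have fB := toT (fun χ => (d χ : ℝ)) (by
      rw [← eB]; exact Finset.sum_congr rfl fun χ _ => by simp only [hd]; push_cast; rfl)
    have fC := toT (fun χ => r χ) (by
      rw [← eC]; exact Finset.sum_congr rfl fun χ _ => by simp only [hr])
    have hnt : e * n (trivIrr G) ≠ 0 := mul_ne_zero he0 fun h => htriv (by rw [hn, h, Int.cast_zero])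
    have hdpos : ∀ χ, (0 : ℝ) < d χ := fun χ => by exact_mod_cast hd0 χ
    obtain ⟨q, hqT, hq⟩ : ∃ q ∈ T, 0 < e * n q := by
      by_contra! hall
      have h := (Finset.sum_eq_zero_iff_of_nonpos fun χ hχ => mul_nonpos_of_nonpos_of_nonneg
        (by exact_mod_cast hall χ hχ) (hdpos χ).le).1 fB (trivIrr G) (Finset.mem_filter.2 ⟨Finset.mem_univ _, hBt⟩)
      rcases mul_eq_zero.1 h with h | h
      · exact hnt (by exact_mod_cast h)
      · exact (hdpos _).ne' h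
    have hqu : ∀ χ ∈ T, 0 < e * n χ → χ = q := by
      intro χ hχ hpos
      by_contra hne'
      haveI : Nontrivial {χ : Cfsg.IrrCharacter G // χ ∈ B ∧ 0 < e * n χ} :=
        ⟨⟨χ, (Finset.mem_filter.1 hχ).2, hpos⟩, ⟨q, (Finset.mem_filter.1 hqT).2, hq⟩,
          fun h => hne' (congrArg Subtype.val h)⟩
      have := Finite.one_lt_card (α := {χ : Cfsg.IrrCharacter G // χ ∈ B ∧ 0 < e * n χ})
      omega
    set c : ℝ := r q / d q with hc
    have hsq : ∑ χ ∈ T, ((e * n χ : ℤ) : ℝ) * ((r χ - c * d χ) ^ 2 / d χ) = 0 := by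
      calc _ = ∑ χ ∈ T, ((e * n χ : ℤ) : ℝ) * (r χ ^ 2 / d χ) -
            2 * c * ∑ χ ∈ T, ((e * n χ : ℤ) : ℝ) * r χ +
            c ^ 2 * ∑ χ ∈ T, ((e * n χ : ℤ) : ℝ) * d χ := by
            rw [Finset.mul_sum, Finset.mul_sum, ← Finset.sum_sub_distrib, ← Finset.sum_add_distrib]
            refine Finset.sum_congr rfl fun χ _ => ?_
            have := (hdpos χ).ne'
            field_simp
            ring
        _ = 0 := by rw [fA, fB, fC]; ring
    have hterm : ∀ χ ∈ T, ((e * n χ : ℤ) : ℝ) * ((r χ - c * d χ) ^ 2 / d χ) ≤ 0 := by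
      intro χ hχ
      by_cases hp : 0 < e * n χ
      · rw [hqu χ hχ hp, hc, div_mul_cancel₀ _ (hdpos q).ne']
        simp
      · exact mul_nonpos_of_nonpos_of_nonneg (by exact_mod_cast not_lt.1 hp)
          (div_nonneg (sq_nonneg _) (hdpos χ).le)
    have hval : ∀ χ ∈ T, e * n χ ≠ 0 → r χ = c * d χ := by
      intro χ hχ h0
      have h := (Finset.sum_eq_zero_iff_of_nonpos hterm).1 hsq χ hχ
      rcases mul_eq_zero.1 h with h | h
      · exact absurd (by exact_mod_cast h) h0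
      · rcases div_eq_zero_iff.1 h with h | h
        · exact sub_eq_zero.1 (pow_eq_zero_iff two_ne_zero |>.1 h)
        · exact absurd h (hdpos χ).ne'
    have hc1 : c = 1 := by
      have h := hval (trivIrr G) (Finset.mem_filter.2 ⟨Finset.mem_univ _, hBt⟩) hnt
      have h1 : ((d (trivIrr G) : ℕ) : ℂ) = 1 := by rw [← hd]; rfl
      have h2 : (r (trivIrr G) : ℂ) = 1 := by rw [← hr]; rfl
      rw [Nat.cast_eq_one.1 h1, Nat.cast_one, mul_one] at h
      rw [← h]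
      exact_mod_cast h2
    obtain ⟨χ, hχT, hχ1, hχ0⟩ : ∃ χ ∈ T, χ ≠ trivIrr G ∧ e * n χ ≠ 0 := by
      by_contra! hall
      rw [Finset.sum_eq_single (trivIrr G) (fun b hb hbt => by rw [hall b hb hbt]; simp)
        (fun h => absurd (Finset.mem_filter.2 ⟨Finset.mem_univ _, hBt⟩) h)] at fB
      rcases mul_eq_zero.1 fB with h | h
      · exact hnt (by exact_mod_cast h)
      · exact (hdpos _).ne' h
    refine ⟨charKer χ.2.isCharacter', inferInstance, fun htop => ?_, fun y hy => ?_, ?_⟩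
    · refine hχ1 (Subtype.ext ?_)
      by_contra hne'
      have h := irr_inner_ne χ.2 (trivIrr G).2 hne'
      simp only [Cfsg.classInner, trivIrr] at h
      rw [Finset.sum_congr rfl (fun g _ => by
        rw [show (χ : G → ℂ) g = (χ : G → ℂ) 1 from mem_charKer.1 (htop ▸ Subgroup.mem_top g : g ∈ charKer χ.2.isCharacter')])] at h
      simp [irr_one_ne_zero χ] at h
    · have htop : ∀ z : G, z ∈ Subgroup.centralizer ({(1 : G)} : Set G) := fun z =>
        Subgroup.mem_centralizer_singleton_iff.2 (by simp)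
      haveI : ((Cfsg.pPrimeCore 2 G).subgroupOf (Subgroup.centralizer ({(1 : G)} : Set G))).Normal := by
        haveI := CfsgLib.Core.normal_pPrimeCore (G := G) 2
        infer_instance
      have h := CfsgLib.ZStar.principal_translate hM (u := (1 : G)) ⟨0, by rw [orderOf_one, pow_zero]⟩
        (Finset.mem_filter.1 hχT).2
        ((Cfsg.pPrimeCore 2 G).subgroupOf (Subgroup.centralizer ({(1 : G)} : Set G)))
        (fun h => CfsgLib.Core.not_dvd_card_pPrimeCore (G := G) 2 (h.trans (dvd_of_eq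
          (Nat.card_congr (Subgroup.subgroupOfEquivOfLe (fun z _ => htop z)).toEquiv))))
        (y := ⟨y, htop y⟩) hy
      rw [one_mul] at h
      exact mem_charKer.2 h
    · refine mem_charKer.2 ?_
      rw [hr, hd, hval χ hχT hχ0, hc1, one_mul]
      simp
  have hre : ∀ χ : Cfsg.IrrCharacter G, (a χ).re = (n χ : ℝ) := fun χ => by rw [hn]; simp
  by_cases h1 : Nat.card {χ : Cfsg.IrrCharacter G // χ ∈ B ∧ 0 < (1 : ℤ) * n χ} < 2
  · exact Or.inr (main 1 (Or.inl rfl) h1)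
  by_cases h2 : Nat.card {χ : Cfsg.IrrCharacter G // χ ∈ B ∧ 0 < (-1 : ℤ) * n χ} < 2
  · exact Or.inr (main (-1) (Or.inr rfl) h2)
  refine Or.inl ⟨le_trans (not_lt.1 h1) (le_of_eq (Nat.card_congr (Equiv.subtypeEquivRight fun χ => ?_))),
    le_trans (not_lt.1 h2) (le_of_eq (Nat.card_congr (Equiv.subtypeEquivRight fun χ => ?_)))⟩
  · rw [hre, one_mul, Int.cast_pos]
  · rw [hre, neg_one_mul, Left.neg_pos_iff, Int.cast_lt_zero]

end Cfsg.Agent.S4722
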