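import Cfsg.Statements.S4723
import Cfsg.Agent.Lib.BlockHeight
import Cfsg.Agent.Lib.BlockFullDefect
import Cfsg.Agent.Lib.CharNormal

set_option autoImplicit false
open Cfsg
open CfsgLib.Block CfsgLib.Char
open scoped Pointwise

namespace Cfsg.Agent.S4723

/-- Let p be a prime, M a maximal ideal of the algebraic integers containing p, H a normal subgroup of the finite group G and b a p-block of H. Let T be the stabilizer of b in G. Then b contains a character θ of height zero whose own stabilizer in G (the elements g with θ(g h g⁻¹) = θ(h) for all h ∈ H) has index prime to p in T, i.e. contains a Sylow p-subgroup of T. -/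
theorem result {G : Type*} [Group G] [Finite G] (p : ℕ) [Fact p.Prime] (M : Ideal Cfsg.AlgInt) (hM : Cfsg.IsPModular p M) (H : Subgroup G) [H.Normal] (b : Set (Cfsg.IrrCharacter ↥H)) (hb : Cfsg.IsPBlock M b) (T : Subgroup G) (hT : (∀ g : G, g ∈ T ↔ ∀ θ ∈ b, ∀ θ' : Cfsg.IrrCharacter ↥H, (∀ h h' : ↥H, (h' : G) = g * h * g⁻¹ → (θ' : ↥H → ℂ) h' = (θ : ↥H → ℂ) h) → θ' ∈ b)) : ∃ θ ∈ b, Cfsg.blockHeight p b (θ : ↥H → ℂ) = 0 ∧ ∃ S : Subgroup G, S ≤ T ∧ (∀ g : G, g ∈ S ↔ (g ∈ T ∧ ∀ h h' : ↥H, (h' : G) = g * h * g⁻¹ → (θ : ↥H → ℂ) h' = (θ : ↥H → ℂ) h)) ∧ ¬ p ∣ S.relIndex T := by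
  classical
  haveI := Fintype.ofFinite G
  haveI := Fintype.ofFinite ↥H
  haveI hp : Fact p.Prime := inferInstance
  haveI := charP_resField hM
  haveI := nontrivial_resField hM
  obtain ⟨P⟩ : Nonempty (Sylow p ↥H) := inferInstance
  obtain ⟨Q⟩ : Nonempty (Sylow p ↥T) := inferInstance
  haveI := Fintype.ofFinite ↥(P : Subgroup ↥H)
  set ψ : H → ℂ := indFun (P : Subgroup ↥H) (fun _ => (1 : ℂ)) with hψ
  have hψc : IsCharacter ↥H ψ := isCharacter_indFun isIrrCharacter_one.isCharacter'
  have hψinv : ∀ g : G, conjFn g ψ = ψ := by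
    intro g
    funext h
    let P' : Sylow p ↥H := (MulAut.conjNormal g : MulAut H)⁻¹ • P
    obtain ⟨k, hk⟩ := MulAction.exists_smul_eq ↥H P P'
    have hmem : ∀ y : H, (MulAut.conjNormal g : MulAut H) y ∈ (P : Subgroup ↥H) ↔
        k⁻¹ * y * k ∈ (P : Subgroup ↥H) := by
      intro y
      have e1 : ((P' : Subgroup ↥H) : Set ↥H) = ((k • P : Sylow p ↥H) : Subgroup ↥H) := by rw [hk]
      have e2 := Set.ext_iff.1 e1 y
      have e3 : (y ∈ (MulAut.conjNormal g : MulAut H)⁻¹ • (P : Subgroup ↥H)) ↔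
          y ∈ MulAut.conj k • (P : Subgroup ↥H) := e2
      rw [Subgroup.mem_inv_pointwise_smul_iff, Subgroup.mem_pointwise_smul_iff_inv_smul_mem] at e3
      rw [show k⁻¹ * y * k = (MulAut.conj k)⁻¹ • y from by simp [MulAut.smul_def], ← map_inv]
      simpa [MulAut.smul_def] using e3
    rw [conjFn_eq_comp]
    simp only [Function.comp, hψ, indFun_apply]
    congr 1
    refine (Fintype.sum_equiv ((MulAut.conjNormal g : MulAut H).toEquiv.trans
      (Equiv.refl _)) (fun x => extendByZero (P : Subgroup ↥H) (fun _ => (1 : ℂ))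
        ((MulAut.conjNormal g : MulAut H) (x⁻¹ * h * x))) _ fun x => ?_).symm.trans ?_
    · simp [map_mul]
    refine Fintype.sum_equiv (Equiv.mulRight k) _ _ fun x => ?_
    simp only [Equiv.coe_mulRight, mul_inv_rev]
    by_cases hx : (MulAut.conjNormal g : MulAut H) (x⁻¹ * h * x) ∈ (P : Subgroup ↥H)
    · have hx' : k⁻¹ * x⁻¹ * h * (x * k) ∈ (P : Subgroup ↥H) := by
        have := (hmem _).1 hx; simpa [mul_assoc] using this
      rw [extendByZero_mem _ hx, extendByZero_mem _ hx']
    · have hx' : k⁻¹ * x⁻¹ * h * (x * k) ∉ (P : Subgroup ↥H) := fun h' =>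
        hx ((hmem _).2 (by simpa [mul_assoc] using h'))
      rw [extendByZero_not_mem _ hx, extendByZero_not_mem _ hx']
  choose m hm using fun χ : IrrCharacter H => inner_character_nat hψc χ.2.isCharacter'
  obtain ⟨ξ, hξ⟩ := isPBlock_nonempty hM hb
  set f : IrrCharacter H → ResField M := fun χ => (m χ : ResField M) * ev hM ξ (regElt hM χ) with hf
  have hmemT : ∀ g ∈ T, ∀ χ ∈ b, (⟨conjFn g (χ : H → ℂ), isIrrCharacter_conjFn χ.2 g⟩ :
      IrrCharacter H) ∈ b := by
    intro g hg χ hχ
    refine (hT g⁻¹).1 (inv_mem hg) χ hχ _ fun h h' e => ?_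
    show (χ : H → ℂ) _ = _
    exact congrArg (χ : H → ℂ) (Subtype.ext (by show g * (h' : G) * g⁻¹ = (h : G); rw [e]; group))
  have hfeq : ∀ g ∈ T, ∀ χ : IrrCharacter H,
      f ⟨conjFn g (χ : H → ℂ), isIrrCharacter_conjFn χ.2 g⟩ = f χ := by
    intro g hg χ
    have e1 : (m ⟨conjFn g (χ : H → ℂ), isIrrCharacter_conjFn χ.2 g⟩ : ℂ) = m χ := by
      rw [← hm, ← hm]
      show classInner ψ (conjFn g (χ : H → ℂ)) = _
      conv_lhs => rw [← hψinv g]
      simp only [classInner]
      congr 1
      exact Fintype.sum_equiv (MulAut.conjNormal g : MulAut H).toEquiv _ _ fun x => by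
        simp only [conjFn_eq_comp, Function.comp]; rfl
    simp only [hf, Nat.cast_inj.1 e1]
    congr 1
    set η : IrrCharacter H := ⟨conjFn g⁻¹ (ξ : H → ℂ), isIrrCharacter_conjFn ξ.2 g⁻¹⟩
    rw [← ev_eq_of_mem hM hb (hmemT g⁻¹ (inv_mem hg) ξ hξ) hξ (regElt hM χ), ev_regElt, ev_regElt]
    refine congrArg (res hM) (Subtype.ext ?_)
    show classInner (scaledReg p (conjFn g (χ : H → ℂ))) (ξ : H → ℂ) / (ξ : H → ℂ) 1 = _
    show _ = classInner (scaledReg p (χ : H → ℂ)) (conjFn g⁻¹ (ξ : H → ℂ)) / conjFn g⁻¹ (ξ : H → ℂ) 1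
    rw [conjFn_apply_one]
    congr 1
    simp only [classInner]
    congr 1
    refine Fintype.sum_equiv (MulAut.conjNormal g : MulAut H).toEquiv _ _ fun x => ?_
    simp only [scaledReg, conjFn_eq_comp, Function.comp]
    congr 1
    · rw [MulEquiv.toEquiv_eq_coe, EquivLike.coe_coe, MulEquiv.orderOf_eq]
      try rfl
    · congr 1
      show (ξ : H → ℂ) x = (ξ : H → ℂ) ((MulAut.conjNormal g⁻¹ : MulAut H)
        ((MulAut.conjNormal g : MulAut H) x))
      simp
  have hsum : ∑ χ, f χ ≠ 0 := by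
    have hmemr : classInner (scaledReg p ψ) (ξ : H → ℂ) / (ξ : H → ℂ) 1 ∈ locRing hM := by
      have : classInner (scaledReg p ψ) (ξ : H → ℂ) / (ξ : H → ℂ) 1 =
          ∑ χ : IrrCharacter H, (m χ : ℂ) *
            (classInner (scaledReg p (χ : H → ℂ)) (ξ : H → ℂ) / (ξ : H → ℂ) 1) := by
        conv_lhs => rw [classFunction_eq_sum ψ (isCharacter_classFunction hψc)]
        simp only [← mul_div_assoc, ← Finset.sum_div]
        congr 1
        simp only [classInner, Finset.mul_sum]
        rw [Finset.sum_comm]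
        refine Finset.sum_congr rfl fun x _ => ?_
        simp only [scaledReg, Finset.sum_apply, Pi.smul_apply, smul_eq_mul]
        split_ifs
        · simp
        · rw [Finset.mul_sum, Finset.sum_mul, Finset.mul_sum]
          exact Finset.sum_congr rfl fun χ _ => by
            rw [← hm]; simp only [classInner, Finset.mul_sum]; ring
      rw [this]
      exact sum_mem fun χ _ => mul_mem (natCast_mem _ _) (regRatio_mem hM χ ξ)
    have hval : classInner (scaledReg p ψ) (ξ : H → ℂ) / (ξ : H → ℂ) 1 =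
        ((p ^ (Nat.card H).factorization p : ℕ) : ℂ) / (Nat.card (P : Subgroup ↥H) : ℂ) := by
      simp only [classInner]
      rw [Finset.sum_eq_single (1 : H)]
      · simp only [scaledReg, orderOf_one, if_neg hp.out.not_dvd_one, hψ, indFun_apply, mul_one,
          inv_mul_cancel, irr_conj_one]
        rw [Finset.sum_congr rfl fun x _ => extendByZero_mem _ (one_mem _), Finset.sum_const,
          Finset.card_univ, ← Nat.card_eq_fintype_card, nsmul_eq_mul, mul_one]
        have h1 : (Nat.card H : ℂ) ≠ 0 := natCard_ne_zero H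
        have h2 := irr_one_ne_zero ξ
        field_simp
      · intro x _ hx
        simp only [scaledReg]
        split_ifs with hd
        · simp
        · have h0 : ψ x = 0 := by
            simp only [hψ, indFun_apply]
            rw [Finset.sum_eq_zero fun y _ => extendByZero_not_mem _ fun hy => hx ?_, mul_zero]
            obtain ⟨j, hj⟩ := P.isPGroup' ⟨_, hy⟩
            have e : y⁻¹ * x * y = (MulAut.conj y⁻¹) x := by simp
            have h3 : orderOf x ∣ p ^ j := by
              refine orderOf_dvd_of_pow_eq_one ((MulAut.conj y⁻¹).injective ?_)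
              rw [map_pow, ← e, map_one]
              exact congrArg Subtype.val hj
            obtain ⟨i, -, hi⟩ := (Nat.dvd_prime_pow hp.out).1 h3
            rcases i with _ | i
            · exact orderOf_eq_one_iff.1 (by simpa using hi)
            · exact absurd (hi ▸ dvd_pow_self p (Nat.succ_ne_zero i)) hd
          rw [h0]; simp
      · exact fun h => absurd (Finset.mem_univ _) h
    have e : ∑ χ, f χ = res hM ⟨_, hmemr⟩ := by
      simp only [hf, ev_regElt, ← map_natCast (res hM), ← map_mul, ← map_sum]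
      refine congrArg (res hM) (Subtype.ext ?_)
      push_cast
      conv_rhs => rw [classFunction_eq_sum ψ (isCharacter_classFunction hψc)]
      simp only [← mul_div_assoc, ← Finset.sum_div]
      congr 1
      simp only [classInner, Finset.mul_sum]
      rw [Finset.sum_comm]
      refine Finset.sum_congr rfl fun x _ => ?_
      simp only [scaledReg, Finset.sum_apply, Pi.smul_apply, smul_eq_mul]
      split_ifs
      · simp
      · rw [Finset.mul_sum, Finset.sum_mul, Finset.mul_sum]
        exact Finset.sum_congr rfl fun χ _ => by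
          rw [← hm]; simp only [classInner, Finset.mul_sum]; ring
    rw [e]
    have h1 : (⟨_, hmemr⟩ : locRing hM) = 1 := Subtype.ext (by
      show classInner (scaledReg p ψ) (ξ : H → ℂ) / (ξ : H → ℂ) 1 = 1
      rw [hval, P.card_eq_multiplicity, div_self]
      exact Nat.cast_ne_zero.2 (pow_ne_zero _ hp.out.ne_zero))
    rw [h1, map_one]
    exact one_ne_zero
  obtain ⟨θ, hθfix, hθne⟩ : ∃ θ : IrrCharacter H,
      (∀ q : (Q : Subgroup ↥T), conjFn ((q : ↥T) : G)⁻¹ (θ : H → ℂ) = (θ : H → ℂ)) ∧ f θ ≠ 0 := by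
    by_contra hno
    push Not at hno
    refine hsum (sum_eq_zero_of_fixed (X := IrrCharacter H) Q.isPGroup'
      (fun (q : (Q : Subgroup ↥T)) (χ : IrrCharacter H) => (⟨conjFn ((q : ↥T) : G)⁻¹ (χ : H → ℂ), isIrrCharacter_conjFn χ.2 _⟩ :
        IrrCharacter H)) (fun χ => Subtype.ext (by simp [conjFn_one]))
      (fun q r χ => Subtype.ext (by
        show conjFn ((q * r : (Q : Subgroup ↥T)) : ↥T).1⁻¹ (χ : H → ℂ) = _
        rw [Subgroup.coe_mul, Subgroup.coe_mul, mul_inv_rev, conjFn_mul]))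
      f (fun q χ => hfeq _ (inv_mem q.1.2) χ) fun χ hχ => hno χ fun q => congrArg Subtype.val (hχ q))
  have hθev : ev hM ξ (regElt hM θ) ≠ 0 := right_ne_zero_of_mul hθne
  have hθb : θ ∈ b := by
    by_contra hn
    refine hθev (ev_regElt_eq_zero_of_not_sameBlock hM fun hs => hn ?_)
    rw [isPBlock_eq_blockOf hM hb hξ]
    exact fun g => by
      have := hs g
      exact (res_eq_res_iff hM ⟨_, centralChar_mem hM ξ g⟩ ⟨_, centralChar_mem hM θ g⟩).1
        ((res_eq_res_iff hM ⟨_, centralChar_mem hM θ g⟩ ⟨_, centralChar_mem hM ξ g⟩).2 this).symm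
  refine ⟨θ, hθb, (height_zero_iff_ev_regElt hM hb hθb hξ).2 hθev, T ⊓ inertia (θ : H → ℂ),
    inf_le_left, fun g => ?_, ?_⟩
  · rw [Subgroup.mem_inf, mem_inertia]
    refine and_congr_right fun _ => ⟨fun h h₁ h₂ e => ?_, fun h => funext fun x => ?_⟩
    · conv_rhs => rw [← h]
      exact congrArg (θ : H → ℂ) (Subtype.ext e)
    · exact h x _ rfl
  · intro hd
    refine Q.not_dvd_index (dvd_trans hd (Subgroup.index_dvd_of_le fun q hq => ?_))
    refine Subgroup.mem_subgroupOf.2 ⟨q.2, ?_⟩
    show conjFn (q : G) (θ : H → ℂ) = θ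
    have := hθfix ⟨q⁻¹, inv_mem hq⟩
    simpa using this

end Cfsg.Agent.S4723
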