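import Cfsg.Statements.S4726
import Cfsg.Agent.Lib.BlockInducedDefect

set_option autoImplicit false
open Cfsg
open CfsgLib.Block CfsgLib.Char
open scoped Classical


namespace Cfsg.Agent.S4726

/-- Let p be a prime, M a maximal ideal of the algebraic integers containing p, H a subgroup of the finite group G and b a p-block of H with defect group D₀ such that C_G(D₀) ≤ H. Then b induces a block of G, and for every block B of G induced by b there is a defect group D of B with Z(D) ≤ Z(D₀) ≤ D₀ ≤ D (as subgroups of G). In particular, if the defect groups of B are abelian then D₀ is a defect group of B. -/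
theorem result {G : Type*} [Group G] [Finite G] (p : ℕ) [Fact p.Prime] (M : Ideal Cfsg.AlgInt) (hM : Cfsg.IsPModular p M) (H : Subgroup G) (b : Set (Cfsg.IrrCharacter ↥H)) (hb : Cfsg.IsPBlock M b) (D₀ : Subgroup ↥H) (hD₀ : Cfsg.IsDefectGroup p M b D₀) (hC : Subgroup.centralizer ((D₀.map H.subtype : Subgroup G) : Set G) ≤ H) : Cfsg.InducedBlockDefined M H b ∧ ∀ B : Set (Cfsg.IrrCharacter G), Cfsg.IsInducedBlock M H b B → (∃ D : Subgroup G, Cfsg.IsDefectGroup p M B D ∧ (Subgroup.center ↥D).map D.subtype ≤ ((Subgroup.center ↥D₀).map D₀.subtype).map H.subtype ∧ ((Subgroup.center ↥D₀).map D₀.subtype).map H.subtype ≤ D₀.map H.subtype ∧ D₀.map H.subtype ≤ D) ∧ (∀ D : Subgroup G, Cfsg.IsDefectGroup p M B D → IsMulCommutative ↥D → Cfsg.IsDefectGroup p M B (D₀.map H.subtype)) := by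
  haveI := Fintype.ofFinite G
  haveI := Fintype.ofFinite H
  set D := D₀.map H.subtype with hDdef
  have hDH : D ≤ H := Subgroup.map_subtype_le _
  have hsub : D.subgroupOf H = D₀ := Subgroup.comap_map_eq_self_of_injective H.subtype_injective _
  have hD : IsDefectGroup p M b (D.subgroupOf H) := by rw [hsub]; exact hD₀
  refine ⟨inducedBlockDefined_of_defect hM hb hDH hD hC, fun B hB => ?_⟩
  obtain ⟨R, hR, hDR, hRC⟩ := exists_defectGroup_centralizer_le hM hB hDH hD hC
  refine ⟨⟨R, hR, ?_, Subgroup.map_mono (Subgroup.map_subtype_le _), hDR⟩, ?_⟩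
  · rintro _ ⟨⟨z, hz⟩, hzc, rfl⟩
    have hc : ∀ y ∈ R, y * z = z * y := fun y hy =>
      congrArg Subtype.val (Subgroup.mem_center_iff.1 hzc ⟨y, hy⟩)
    have hzD : z ∈ D := hRC ⟨hz, Subgroup.mem_centralizer_iff.2 fun y hy => hc y (hDR hy)⟩
    obtain ⟨w, hw, hwz⟩ := hzD
    refine ⟨w, ⟨⟨w, hw⟩, Subgroup.mem_center_iff.2 fun y => ?_, rfl⟩, hwz⟩
    have hy : ((y : H) : G) ∈ R := hDR (Subgroup.mem_map_of_mem _ y.2)
    refine Subtype.ext (Subtype.ext ?_)
    have e := hc _ hy
    rw [← hwz] at e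
    exact e
  · intro D' hD' hab
    obtain ⟨x, hx⟩ := defectGroup_eq_conj hM hB.2.1 hD' hR
    have hRab : ∀ a ∈ R, ∀ c ∈ R, a * c = c * a := by
      intro a ha c hc
      rw [← hx] at ha hc
      obtain ⟨a', ha', rfl⟩ := ha
      obtain ⟨c', hc', rfl⟩ := hc
      rw [← map_mul, ← map_mul]
      exact congrArg _ (congrArg Subtype.val (mul_comm' (⟨a', ha'⟩ : D') ⟨c', hc'⟩))
    rw [show D = R from le_antisymm hDR fun a ha =>
      hRC ⟨ha, Subgroup.mem_centralizer_iff.2 fun y hy => hRab y (hDR hy) a ha⟩]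
    exact hR

end Cfsg.Agent.S4726
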