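import Cfsg.Statements.S4727
import Cfsg.Agent.Lib.BlockPiKernel
import Cfsg.Agent.Lib.BlockSecondMainGen
import Cfsg.Agent.Lib.BlockSectionVal
import Cfsg.Agent.Lib.BlockPPart

set_option autoImplicit false
open Cfsg
open CfsgLib.Block hiding blockKer

namespace Cfsg.Agent.S4727

/-- Let p be a prime, π a set of primes containing p, M a maximal ideal of the algebraic integers containing p, and B a p-block of the finite group G with defect group D; let B₁ be the block of N_G(D) with defect group D that induces B (the Brauer correspondent of B). Suppose every element of O_π'(N_G(D)), the largest normal subgroup of N_G(D) whose order has no prime divisor in π, lies in the kernel of every member of B₁. If y is a p-element whose centralizer C has a normal Hall π'-subgroup (every element of C whose order has no prime divisor in π lies in O_π'(C)), then χ(y x) = χ(y) for every χ ∈ B and every x ∈ C whose order has no prime divisor in π. -/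
theorem result {G : Type*} [Group G] [Finite G] (p : ℕ) [Fact p.Prime] (M : Ideal Cfsg.AlgInt) (hM : Cfsg.IsPModular p M) (π : Set ℕ) (hpπ : p ∈ π) (B : Set (Cfsg.IrrCharacter G)) (hB : Cfsg.IsPBlock M B) (D : Subgroup G) (hBD : Cfsg.IsDefectGroup p M B D) (B₁ : Set (Cfsg.IrrCharacter ↥(Subgroup.normalizer (D : Set G)))) (hB₁ : Cfsg.IsInducedBlock M (Subgroup.normalizer (D : Set G)) B₁ B) (hB₁D : Cfsg.IsDefectGroup p M B₁ (D.subgroupOf (Subgroup.normalizer (D : Set G)))) (hker : ∀ n : ↥(Subgroup.normalizer (D : Set G)), n ∈ Cfsg.piCore {q | q ∉ π} ↥(Subgroup.normalizer (D : Set G)) → n ∈ Cfsg.blockKer B₁) (y : G) (hy : ∃ k : ℕ, orderOf y = p ^ k) (hC : ∀ x : ↥(Subgroup.centralizer ({y} : Set G)), (∀ q : ℕ, q.Prime → q ∣ orderOf x → q ∉ π) → x ∈ Cfsg.piCore {q | q ∉ π} ↥(Subgroup.centralizer ({y} : Set G))) : ∀ χ ∈ B, ∀ x : G, x ∈ Subgroup.centralizer ({y} : Set G) → (∀ q : ℕ, q.Prime → q ∣ orderOf x → q ∉ π) → (χ : G → ℂ) (y * x) = (χ : G → ℂ) y := by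
  classical
  haveI := Fintype.ofFinite G
  haveI := Fintype.ofFinite ↥(Subgroup.normalizer (D : Set G))
  haveI := Fintype.ofFinite ↥(Subgroup.centralizer ({y} : Set G))
  intro χ hχ x hx hord
  have hyp : IsPGroup p (Subgroup.zpowers y) := isPGroup_zpowers hy
  have hCy : Subgroup.centralizer ((Subgroup.zpowers y : Subgroup G) : Set G) =
      Subgroup.centralizer ({y} : Set G) := centralizer_zpowers y
  have hyC : y ∈ Subgroup.centralizer ({y} : Set G) := Subgroup.mem_centralizer_singleton_iff.2 rfl
  obtain ⟨x, rfl⟩ : ∃ x' : Subgroup.centralizer ({y} : Set G), (x' : G) = x := ⟨⟨x, hx⟩, rfl⟩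
  have hxK := hC x (by simpa [Subgroup.orderOf_coe] using hord)
  have hpx : ¬ p ∣ orderOf x := fun hd =>
    hord p Fact.out (by rwa [Subgroup.orderOf_coe]) hpπ
  have key : ∀ (b : Set (IrrCharacter (Subgroup.centralizer ({y} : Set G)))), IsPBlock M b →
      ∑ k : Subgroup.centralizer ({y} : Set G), blockCoeff b k * (χ : G → ℂ) ((k : G) * (y * x)) =
      ∑ k : Subgroup.centralizer ({y} : Set G), blockCoeff b k * (χ : G → ℂ) ((k : G) * y) := by
    intro b hb
    obtain ⟨B', hB'⟩ := inducedBlockDefined_brauer hM hyp hCy.le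
      (Subgroup.centralizer_le_normalizer _ |>.trans' hCy.ge) (Subgroup.zpowers_le.2 hyC) hb
    by_cases hBB : B' = B
    · subst hBB
      have hpair := pairIn_of_induced hM hy hB'
      have hdown := downFix_of_correspondent (σ := {q | q ∉ π}) (fun h => h hpπ) hBD hB₁ hB₁D
        hker hpair
      have hmem : x ∈ Cfsg.blockKer b := by
        refine mem_blockKer_of_bFn hM (K := Cfsg.piCore {q | q ∉ π}
          ↥(Subgroup.centralizer ({y} : Set G))) (fun hd => ?_) hb (fun a ha g => ?_) hxK
        · refine (prime_mem_of_dvd_card_piCoreOf (σ := {q | q ∉ π})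
            (Subgroup.centralizer ({y} : Set G)) p Fact.out ?_ : p ∈ {q | q ∉ π}) hpπ
          rwa [Cfsg.piCoreOf, Subgroup.card_map_of_injective (Subgroup.subtype_injective _)]
        · exact hdown _ ((piCoreOf_le' _).trans hCy.ge)
            (hCy.le.trans (le_normalizer_piCoreOf _)) (prime_mem_of_dvd_card_piCoreOf _)
            (a : G) ⟨a, ha, rfl⟩ g
      refine Fintype.sum_equiv (Equiv.mulRight x) _ _ fun k => ?_
      simp only [Equiv.coe_mulRight]
      have hy' : (y : G) * x = x * y := (Subgroup.mem_centralizer_singleton_iff.1 x.2).symm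
      rw [Subgroup.coe_mul, mul_assoc, ← hy']
      congr 1
      have h1 := blockCoeff_mul_of_mem_blockKer hmem k
      rw [blockCoeff_eq_coef, blockCoeff_eq_coef] at h1 ⊢
      rw [← h1, ← coef_classFunction (indVal b) (k * x) x]
      congr 1
      group
    · have hχ' : χ ∉ B' := fun h => hBB (isPBlock_eq_of_mem hM hB'.2.1 hB h hχ)
      have hp' : ∀ (u : Subgroup.centralizer ({y} : Set G)), ¬ p ∣ orderOf u →
          ∀ z : G, IsPPart p (((⟨y, hyC⟩ * u : Subgroup.centralizer ({y} : Set G))) : G) z →
            Subgroup.centralizer ({z} : Set G) ≤ Subgroup.centralizer ({y} : Set G) := by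
        intro u hu z hz
        have hyz : z = y := isPPart_unique Fact.out hz ⟨u, rfl,
          (Subgroup.mem_centralizer_singleton_iff.1 u.2).symm, hy, by rwa [Subgroup.orderOf_coe]⟩
        rw [hyz]
      have e1 := second_main_subgroup hM hB' (⟨y, hyC⟩ * x) (hp' x hpx) hχ'
      have e2 := second_main_subgroup hM hB' (⟨y, hyC⟩ * 1) (hp' 1
        (by simpa using (Fact.out : p.Prime).one_lt.ne')) hχ'
      simp only [Subgroup.coe_mul, Subgroup.coe_one, mul_one] at e1 e2
      rw [e1, e2]
  have hsum : ∀ F : Subgroup.centralizer ({y} : Set G) → ℂ,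
      ∑ b ∈ allBlocks (Subgroup.centralizer ({y} : Set G)) M, ∑ k, blockCoeff b k * F k = F 1 := by
    intro F
    rw [Finset.sum_comm]
    have e : ∀ k : Subgroup.centralizer ({y} : Set G),
        ∑ b ∈ allBlocks (Subgroup.centralizer ({y} : Set G)) M, blockCoeff b k =
          if k = 1 then 1 else 0 := by
      intro k
      refine Eq.trans ?_ ((coef_const (G := Subgroup.centralizer ({y} : Set G)) 1 k).trans (by congr))
      simp only [blockCoeff_eq_coef, CfsgLib.Block.coef, ← Finset.mul_sum]
      rw [Finset.sum_comm]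
      congr 1
      refine Finset.sum_congr rfl fun ξ _ => ?_
      rw [← Finset.sum_mul, ← Finset.sum_mul, sum_indVal_allBlocks (hM := hM)]
    simp only [← Finset.sum_mul, e, ite_mul, one_mul, zero_mul, Finset.sum_ite_eq',
      Finset.mem_univ, if_true]
  have h1 := hsum fun k => (χ : G → ℂ) ((k : G) * (y * x))
  have h2 := hsum fun k => (χ : G → ℂ) ((k : G) * y)
  simp only [Subgroup.coe_one, one_mul] at h1 h2
  rw [← h1, ← h2]
  exact Finset.sum_congr rfl fun b hb => key b (mem_allBlocks.1 hb)

end Cfsg.Agent.S4727
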