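import Cfsg.Statements.S4728
import Cfsg.Agent.Lib.BlockPiKernel

set_option autoImplicit false
open Cfsg
open CfsgLib.Block hiding blockKer

namespace Cfsg.Agent.S4728

/-- Let p be a prime, π a set of primes containing p, M a maximal ideal of the algebraic integers containing p, B a p-block of the finite group G with defect group D, and B₁ the block of N_G(D) with defect group D inducing B. Let D₀ be a p-subgroup, H₀ = D₀·C_G(D₀), and b a block of H₀ inducing B. Write O_π'(X) for the largest normal subgroup of X whose order has no prime divisor in π. Suppose that O_π'(C_G(D₀)) is a normal Hall π'-subgroup of C_G(D₀) (it contains every element of C_G(D₀) whose order has no prime divisor in π) and that every element of it lies in the kernel of every member of b. Then every element of O_π'(N_G(D)) lies in the kernel of every member of B₁. -/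
theorem result {G : Type*} [Group G] [Finite G] (p : ℕ) [Fact p.Prime] (M : Ideal Cfsg.AlgInt) (hM : Cfsg.IsPModular p M) (π : Set ℕ) (hpπ : p ∈ π) (B : Set (Cfsg.IrrCharacter G)) (hB : Cfsg.IsPBlock M B) (D : Subgroup G) (hBD : Cfsg.IsDefectGroup p M B D) (B₁ : Set (Cfsg.IrrCharacter ↥(Subgroup.normalizer (D : Set G)))) (hB₁ : Cfsg.IsInducedBlock M (Subgroup.normalizer (D : Set G)) B₁ B) (hB₁D : Cfsg.IsDefectGroup p M B₁ (D.subgroupOf (Subgroup.normalizer (D : Set G)))) (D₀ : Subgroup G) (hD₀ : IsPGroup p D₀) (H₀ : Subgroup G) (hH₀ : H₀ = D₀ ⊔ Subgroup.centralizer (D₀ : Set G)) (b : Set (Cfsg.IrrCharacter ↥H₀)) (hb : Cfsg.IsInducedBlock M H₀ b B) (hcompl : ∀ x : ↥(Subgroup.centralizer (D₀ : Set G)), (∀ q : ℕ, q.Prime → q ∣ orderOf x → q ∉ π) → x ∈ Cfsg.piCore {q | q ∉ π} ↥(Subgroup.centralizer (D₀ : Set G))) (hkerb : ∀ x : ↥(Subgroup.centralizer (D₀ : Set G)), x ∈ Cfsg.piCore {q | q ∉ π} ↥(Subgroup.centralizer (D₀ : Set G))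 → ∀ θ ∈ b, ∀ h : ↥H₀, (h : G) = (x : G) → (θ : ↥H₀ → ℂ) h = (θ : ↥H₀ → ℂ) 1) : ∀ n : ↥(Subgroup.normalizer (D : Set G)), n ∈ Cfsg.piCore {q | q ∉ π} ↥(Subgroup.normalizer (D : Set G)) → n ∈ Cfsg.blockKer B₁ := by
  classical
  haveI := Fintype.ofFinite G
  haveI := Fintype.ofFinite ↥(Subgroup.normalizer (D : Set G))
  haveI := Fintype.ofFinite ↥H₀
  haveI := CfsgLib.Block.charP_resField hM
  intro n hn
  have hC₀ : Subgroup.centralizer (D₀ : Set G) ≤ H₀ := hH₀ ▸ le_sup_right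
  have hD₀H : D₀ ≤ H₀ := hH₀ ▸ le_sup_left
  have hN₀ : H₀ ≤ Subgroup.normalizer (D₀ : Set G) :=
    hH₀ ▸ sup_le Subgroup.le_normalizer (Subgroup.centralizer_le_normalizer _)
  have hb0 : IsBlockFn hM H₀ (bFn hM H₀ b) := ⟨b, hb.1, rfl⟩
  obtain ⟨φ, hφ, hφe⟩ := exists_occ (hM := hM) (H := Subgroup.centralizer (D₀ : Set G))
    (fun g hg => bFn_supp hM hD₀ hC₀ hN₀ hD₀H hb.1 hg) (invBy_mono hb0.invBy hC₀) hb0.mul_self
    hb0.ne_zero
  have hpair : PairIn hM B D₀ φ := ⟨⟨hD₀, hφ⟩, hB, by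
    rw [← hφe, ← gconv_assoc, trc_gFn_gconv_bFn hM hD₀ hC₀ hN₀ hD₀H hb]⟩
  have hup : UpFix {q | q ∉ π} D₀ φ := by
    intro k hk hord g
    rw [← hφe]
    refine gconv_fix (bFn_mul_of_mem_blockKer hM (k := (⟨k, hC₀ hk⟩ : H₀)) ?_) _ g
    intro θ hθ
    exact hkerb ⟨k, hk⟩ (hcompl ⟨k, hk⟩ (by rwa [Subgroup.orderOf_mk])) θ hθ ⟨k, hC₀ hk⟩ rfl
  obtain ⟨x, ψ, hmax, hc⟩ := exists_conj_chain_defect hBD hpair
  have hψ := UpFix.chain hc (hup.cnj x)
  have hDp := isPGroup_defectGroup hM hB hBD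
  set L := Cfsg.piCoreOf {q | q ∉ π} (Subgroup.normalizer (D : Set G)) with hL
  have hpL : ¬ p ∣ Nat.card L := fun hd =>
    prime_mem_of_dvd_card_piCoreOf (Subgroup.normalizer (D : Set G)) p Fact.out hd hpπ
  have hLN : L ≤ (Subgroup.normalizer (D : Set G)) := piCoreOf_le' (Subgroup.normalizer (D : Set G))
  have hNL : (Subgroup.normalizer (D : Set G)) ≤ Subgroup.normalizer (L : Set G) := le_normalizer_piCoreOf (Subgroup.normalizer (D : Set G))
  have hLC : L ≤ Subgroup.centralizer (D : Set G) :=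
    le_centralizer_of_normalized hpL hDp hLN (Subgroup.le_normalizer.trans hNL)
  obtain ⟨hE, hEt⟩ := trc_gFn_eq_bFn_correspondent (hM := hM) hBD hB₁ hB₁D
  have hb1 : IsBlockFn hM (Subgroup.normalizer (D : Set G)) (bFn hM (Subgroup.normalizer (D : Set G)) B₁) := ⟨B₁, hB₁.1, rfl⟩
  have hfix : FixBy L (bFn hM (Subgroup.normalizer (D : Set G)) B₁) := by
    refine fixBy_of_trc hb1 hLN hNL hpL hDp (Subgroup.le_normalizer.trans hNL)
      (invBy_mono hb1.invBy Subgroup.le_normalizer) (ψ := ψ) ?_ hmax.1.1.2.ne_zero ?_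
    · rw [hEt, ← hE]; exact hmax.1.2.2
    · intro k hk g
      refine hψ k (hLC hk.1) (fun r hr hd => ?_) g
      exact prime_mem_of_dvd_card_piCoreOf (Subgroup.normalizer (D : Set G)) r hr
        (hd.trans (Subgroup.orderOf_dvd_natCard _ hk.1))
  refine mem_blockKer_of_bFn hM (K := Cfsg.piCore {q | q ∉ π} ↥(Subgroup.normalizer (D : Set G))) (fun hd => hpL ?_) hB₁.1
    (fun a ha g => hfix (a : G) ⟨a, ha, rfl⟩ g) hn
  rwa [hL, Cfsg.piCoreOf, Subgroup.card_map_of_injective (Subgroup.subtype_injective _)]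

end Cfsg.Agent.S4728
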