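import Cfsg.Statements.S4729
import Cfsg.Agent.Lib.BlockCore
import Cfsg.Agent.Lib.BlockRegular
import Cfsg.Agent.Lib.CharRep
import Cfsg.Agent.Lib.CharInt
import Mathlib.RingTheory.RootsOfUnity.Complex
import Mathlib.LinearAlgebra.Determinant

set_option autoImplicit false
set_option maxHeartbeats 400000
open Cfsg
open scoped commutatorElement

namespace Cfsg.Agent.S4729

/-- Let p be a prime, M a maximal ideal of the algebraic integers containing p, G a finite perfect group and P a Sylow p-subgroup. If the principal p-block of G contains a faithful irreducible character of degree less than 2p, then the centralizer of P is a p-group. -/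
theorem result {G : Type*} [Group G] [Finite G] (p : ℕ) [Fact p.Prime] (M : Ideal Cfsg.AlgInt) (hM : Cfsg.IsPModular p M) (hperf : commutator G = ⊤) (P : Sylow p G) (χ : Cfsg.IrrCharacter G) (hχ : χ ∈ Cfsg.principalBlock M G) (hfaith : ∀ g : G, (χ : G → ℂ) g = (χ : G → ℂ) 1 → g = 1) (hdeg : Cfsg.charDegree (χ : G → ℂ) < 2 * p) : IsPGroup p ↥(Subgroup.centralizer ((P : Subgroup G) : Set G)) := by
  classical
  haveI := Fintype.ofFinite G
  have hp : p.Prime := Fact.out
  rw [IsPGroup.iff_orderOf]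
  rintro ⟨g, hg⟩
  rw [Subgroup.orderOf_mk]
  obtain ⟨v, r, hr, hgo⟩ := Nat.exists_eq_pow_mul_and_not_dvd (orderOf_pos g).ne' p hp.ne_one
  refine ⟨v, ?_⟩
  rw [hgo]
  -- the part of order prime to `p`
  suffices hr1 : r = 1 by rw [hr1, mul_one]
  let z : G := g ^ p ^ v
  have hzo : orderOf z = r := by
    show orderOf (g ^ p ^ v) = r
    rw [orderOf_pow' g (pow_ne_zero v hp.ne_zero), hgo, Nat.gcd_mul_right_left, Nat.mul_div_cancel_left _ (pow_pos hp.pos v)]
  rw [← hzo, orderOf_eq_one_iff]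
  have hzC : ∀ j : ℕ, z ^ j ∈ Subgroup.centralizer ((P : Subgroup G) : Set G) := fun j =>
    Subgroup.pow_mem _ (Subgroup.pow_mem _ hg _) _
  obtain ⟨d, ρ, hρ⟩ := χ.2.isCharacter'
  obtain ⟨b, μ, hb, hμ, hk⟩ := CfsgLib.Char.exists_rep_eigenbasis ρ z
  rw [hzo] at hμ
  have hn1 : (χ : G → ℂ) 1 = ((Module.finrank ℂ (Fin d → ℂ) : ℕ) : ℂ) := by rw [← hρ, ρ.char_one]
  have hnd : Module.finrank ℂ (Fin d → ℂ) < 2 * p := by
    have h := CfsgLib.Block.charDegree_cast χ.2.isCharacter'
    rw [hn1] at h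
    rw [← Nat.cast_injective h]; exact hdeg
  generalize Module.finrank ℂ (Fin d → ℂ) = n at b μ hb hμ hk hn1 hnd
  have hn0 : (n : ℂ) ≠ 0 := hn1 ▸ CfsgLib.Block.irr_one_ne_zero χ
  -- the congruence from the principal block
  let R := CfsgLib.Block.locRing hM
  have hint : ∀ j : ℕ, IsIntegral ℤ ((χ : G → ℂ) (z ^ j)) := fun j => CfsgLib.Char.isCharacter_isIntegral χ.2.isCharacter' _
  have hcong : ∀ j : ℕ, MemLocalIdeal M ((χ : G → ℂ) (z ^ j) - (n : ℂ)) := by
    intro j
    have hc : ¬ p ∣ (Subgroup.centralizer ({z ^ j} : Set G)).index := by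
      have hle : (P : Subgroup G) ≤ Subgroup.centralizer ({z ^ j} : Set G) := fun x hx =>
        Subgroup.mem_centralizer_singleton_iff.2 (hzC j x hx)
      exact fun h => P.not_dvd_index (h.trans (Subgroup.index_dvd_of_le hle))
    have h0 : MemLocalIdeal M (centralChar (fun _ : G => (1 : ℂ)) (z ^ j) - centralChar (χ : G → ℂ) (z ^ j)) := hχ (z ^ j)
    generalize hC : (Subgroup.centralizer ({z ^ j} : Set G)).index = C at hc
    simp only [centralChar, hC, mul_one, div_one, hn1] at h0
    have hm1 : (C : ℂ) ∈ R := natCast_mem R C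
    have hm2 : (C : ℂ) * (χ : G → ℂ) (z ^ j) / (n : ℂ) ∈ R := by
      have h := CfsgLib.Block.centralChar_mem hM χ (z ^ j)
      simpa only [centralChar, hC, hn1] using h
    have h1 := (CfsgLib.Block.memLocalIdeal_sub_iff hM hm1 hm2).1 h0
    have hv : (χ : G → ℂ) (z ^ j) ∈ R := CfsgLib.Block.isIntegral_mem hM (hint j)
    rw [CfsgLib.Block.memLocalIdeal_sub_iff hM hv (natCast_mem R n)]
    have h2 : (⟨(C : ℂ), hm1⟩ : R) * ⟨(χ : G → ℂ) (z ^ j), hv⟩ = ⟨(C : ℂ) * (χ : G → ℂ) (z ^ j) / (n : ℂ), hm2⟩ * ⟨(n : ℂ), natCast_mem R n⟩ := by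
      apply Subtype.ext
      show (C : ℂ) * (χ : G → ℂ) (z ^ j) = (C : ℂ) * (χ : G → ℂ) (z ^ j) / (n : ℂ) * (n : ℂ)
      rw [div_mul_cancel₀ _ hn0]
    have h3 := congrArg (CfsgLib.Block.res hM) h2
    rw [map_mul, map_mul, ← h1] at h3
    letI : Field (CfsgLib.Block.ResField M) := @Ideal.Quotient.field _ _ M hM.2.1
    have hne : CfsgLib.Block.res hM (⟨(C : ℂ), hm1⟩ : R) ≠ 0 := fun h =>
      hc ((CfsgLib.Block.res_natCast_eq_zero_iff hM C).1 h)
    exact mul_left_cancel₀ hne h3
  -- multiplicities of the nontrivial eigenvalues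
  have hN0 : r ≠ 0 := fun h => hr (h ▸ dvd_zero p)
  have hmult : ∀ ξ : ℂ, ξ ^ r = 1 → ξ ≠ 1 → p ∣ (Finset.univ.filter fun i => μ i = ξ).card := by
    intro ξ hξ hξ1
    have hnorm : ξ * (starRingEnd ℂ) ξ = 1 := by
      rw [Complex.mul_conj', Complex.norm_eq_one_of_pow_eq_one hξ hN0]; simp
    have hgeo : ∀ η : ℂ, η ^ r = 1 → ∑ j ∈ Finset.range r, η ^ j = if η = 1 then (r : ℂ) else 0 := by
      intro η hη
      split_ifs with h1
      · simp [h1]
      · rw [geom_sum_eq h1, hη, sub_self, zero_div]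
    have e1 : ∑ j ∈ Finset.range r, (starRingEnd ℂ) ξ ^ j * ((χ : G → ℂ) (z ^ j) - (n : ℂ)) =
        ((r * (Finset.univ.filter fun i => μ i = ξ).card : ℕ) : ℂ) := by
      simp only [mul_sub, Finset.sum_sub_distrib, ← hρ, hk, Finset.mul_sum, ← mul_pow]
      rw [← Finset.sum_mul, hgeo _ (by rw [← map_pow, hξ, map_one]), if_neg (fun h => hξ1 (by
        rw [h, mul_one] at hnorm; exact hnorm)), zero_mul, sub_zero, Finset.sum_comm,
        Finset.sum_congr rfl fun i _ => hgeo ((starRingEnd ℂ) ξ * μ i) (by rw [mul_pow, ← map_pow, hξ, hμ i, map_one, one_mul]),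
        ← Finset.sum_filter, Finset.sum_const, nsmul_eq_mul]
      rw [Nat.cast_mul, mul_comm]
      congr 3
      ext i
      simp only [Finset.mem_filter, Finset.mem_univ, true_and]
      exact ⟨fun h => by rw [← one_mul (μ i), ← hnorm, mul_assoc, h, mul_one], fun h => by rw [h, mul_comm, hnorm]⟩
    have e2 : MemLocalIdeal M ((r * (Finset.univ.filter fun i => μ i = ξ).card : ℕ) : ℂ) := by
      rw [← e1]
      rw [CfsgLib.Block.memLocalIdeal_iff_exists hM]
      choose hj1 hj2 using fun j => (CfsgLib.Block.memLocalIdeal_iff_exists hM).1 (hcong j)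
      have hc1 : ∀ j : ℕ, (starRingEnd ℂ) ξ ^ j ∈ R := fun j => CfsgLib.Block.isIntegral_mem hM
        ((IsIntegral.of_pow (Nat.pos_of_ne_zero hN0) (by rw [← map_pow, hξ, map_one]; exact isIntegral_one)).pow j)
      refine ⟨Subring.sum_mem R fun j _ => R.mul_mem (hc1 j) (hj1 j), ?_⟩
      have e3 : (⟨_, Subring.sum_mem R fun j (_ : j ∈ Finset.range r) => R.mul_mem (hc1 j) (hj1 j)⟩ : R) =
          ∑ j ∈ Finset.range r, (⟨_, hc1 j⟩ : R) * ⟨_, hj1 j⟩ := Subtype.ext (by simp)
      rw [e3, map_sum]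
      exact Finset.sum_eq_zero fun j _ => by rw [map_mul, hj2 j, mul_zero]
    have e4 := (CfsgLib.Block.memLocalIdeal_natCast_iff hM _).1 e2
    exact (hp.dvd_mul.1 e4).resolve_left hr
  -- at most one nontrivial eigenvalue, killed by the determinant
  have hall : ∀ i, μ i = 1 := by
    by_contra hne
    push Not at hne
    obtain ⟨i₀, hi₀⟩ := hne
    have hpos : ∀ i, μ i ≠ 1 → p ≤ (Finset.univ.filter fun l => μ l = μ i).card := fun i hi =>
      Nat.le_of_dvd (Finset.card_pos.2 ⟨i, by simp⟩) (hmult (μ i) (hμ i) hi)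
    have honly : ∀ i, μ i ≠ 1 → μ i = μ i₀ := by
      intro i hi
      by_contra hd
      have hdisj : Disjoint (Finset.univ.filter fun l => μ l = μ i) (Finset.univ.filter fun l => μ l = μ i₀) := by
        rw [Finset.disjoint_filter]; intro l _ h1 h2; exact hd (h1.symm.trans h2)
      have h1 := Finset.card_le_univ ((Finset.univ.filter fun l => μ l = μ i) ∪ (Finset.univ.filter fun l => μ l = μ i₀))
      rw [Finset.card_union_of_disjoint hdisj, Fintype.card_fin] at h1
      have := hpos i hi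
      have := hpos i₀ hi₀
      omega
    have hcard : (Finset.univ.filter fun l => μ l = μ i₀).card = p := by
      obtain ⟨c, hc⟩ := hmult (μ i₀) (hμ i₀) hi₀
      have h1 := Finset.card_le_univ (Finset.univ.filter fun l => μ l = μ i₀)
      have h2 := hpos i₀ hi₀
      rw [Fintype.card_fin] at h1
      rw [hc] at h1 h2 ⊢
      have hc2 : c < 2 := Nat.lt_of_mul_lt_mul_left (a := p) (by omega)
      interval_cases c
      · simp at h2; exact absurd h2 hp.ne_zero
      · rw [mul_one]
    have hprod : ∏ i, μ i = μ i₀ ^ p := by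
      rw [← Finset.prod_filter_mul_prod_filter_not Finset.univ (fun l => μ l = μ i₀),
        Finset.prod_congr rfl fun l hl => (Finset.mem_filter.1 hl).2, Finset.prod_const, hcard,
        Finset.prod_eq_one (s := Finset.univ.filter fun l => ¬ μ l = μ i₀) fun l hl => by
          by_contra h; exact (Finset.mem_filter.1 hl).2 (honly l h), mul_one]
    -- the determinant is trivial
    have hdet : LinearMap.det (ρ z) = 1 := by
      let f : G →* ℂˣ := ((LinearMap.det : ((Fin d → ℂ) →ₗ[ℂ] (Fin d → ℂ)) →* ℂ).comp ρ).toHomUnits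
      have h : f z = 1 := MonoidHom.mem_ker.1 (Abelianization.commutator_subset_ker f (hperf ▸ Subgroup.mem_top z))
      exact congrArg Units.val h
    have hdet2 : LinearMap.det (ρ z) = ∏ i, μ i := by
      have hd : LinearMap.toMatrix b b (ρ z) = Matrix.diagonal μ := by
        ext i j
        rw [LinearMap.toMatrix_apply, hb j, map_smul, Module.Basis.repr_self, Finsupp.smul_single, smul_eq_mul, mul_one]
        by_cases h : i = j
        · subst h; simp
        · simp [Finsupp.single_eq_of_ne h, Matrix.diagonal_apply_ne _ h]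
      rw [← LinearMap.det_toMatrix b, hd, Matrix.det_diagonal]
    rw [hdet2, hprod] at hdet
    apply hi₀
    have hg1 : Nat.gcd p r = 1 := (hp.coprime_iff_not_dvd.2 hr)
    have h := pow_gcd_eq_one.2 ⟨hdet, hμ i₀⟩
    rwa [hg1, pow_one] at h
  apply hfaith
  have h1 := hk 1
  rw [pow_one] at h1
  rw [hn1, ← hρ, h1]
  simp [hall]


end Cfsg.Agent.S4729
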