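import Cfsg.Statements.S4730
import Cfsg.Agent.Lib.BlockBound
import Cfsg.Agent.Lib.CharBurnside
import Cfsg.Agent.Lib.BlockRegular

set_option autoImplicit false
open Cfsg CfsgLib.Block CfsgLib.Char

namespace Cfsg.Agent.S4730

/-- Let p be a prime, M a maximal ideal of the algebraic integers containing p, and G a finite group with trivial centre, Sylow p-subgroup P of order p^a and centre Z(P) of order p^b. If χ is a faithful irreducible character of G whose degree is a power of p, then the p-block of χ has defect at most a − b; in particular, if P is abelian then χ lies in a block of defect zero. -/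
theorem result {G : Type*} [Group G] [Finite G] (p : ℕ) [Fact p.Prime] (M : Ideal Cfsg.AlgInt) (hM : Cfsg.IsPModular p M) (hZ : Subgroup.center G = ⊥) (P : Sylow p G) (a b : ℕ) (ha : Nat.card P = p ^ a) (hb : Nat.card (Subgroup.center ↥(P : Subgroup G)) = p ^ b) (χ : Cfsg.IrrCharacter G) (hfaith : ∀ g : G, (χ : G → ℂ) g = (χ : G → ℂ) 1 → g = 1) (n : ℕ) (hdeg : Cfsg.charDegree (χ : G → ℂ) = p ^ n) : Cfsg.blockDefect p (Cfsg.blockOf M (χ : G → ℂ)) ≤ a - b ∧ (IsMulCommutative ↥(P : Subgroup G) → Cfsg.blockDefect p (Cfsg.blockOf M (χ : G → ℂ)) = 0) := by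
  classical
  haveI : Fintype G := Fintype.ofFinite G
  have hp := (Fact.out : p.Prime)
  obtain ⟨H, hH⟩ : ∃ H : Subgroup G,
      H = (Subgroup.center ↥(P : Subgroup G)).map (P : Subgroup G).subtype := ⟨_, rfl⟩
  have hHcard : Nat.card H = p ^ b := by
    rw [hH, Subgroup.card_map_of_injective (P : Subgroup G).subtype_injective, hb]
  have hva : ∀ g ∈ H, ¬ p ∣ (Subgroup.centralizer ({g} : Set G)).index := by
    intro g hg hdvd
    rw [hH, Subgroup.mem_map] at hg
    obtain ⟨w, hw, rfl⟩ := hg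
    refine P.not_dvd_index (hdvd.trans (Subgroup.index_dvd_of_le ?_))
    intro x hx
    exact Subgroup.mem_centralizer_singleton_iff.2
      (congrArg Subtype.val (Subgroup.mem_center_iff.1 hw ⟨x, hx⟩))
  have hzero : ∀ g ∈ H, g ≠ 1 → (χ : G → ℂ) g = 0 := by
    intro g hg hg1
    obtain ⟨d, ρ, hρ, he⟩ := χ.2
    haveI := hρ
    have hd : Module.finrank ℂ (Fin d → ℂ) = p ^ n := by
      have h := charDegree_cast χ.2.isCharacter'
      rw [hdeg, ← he, ρ.char_one] at h
      exact_mod_cast h.symm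
    have hco : Nat.Coprime (Module.finrank ℂ (Fin d → ℂ))
        (Subgroup.centralizer ({g} : Set G)).index := by
      rw [hd]; exact ((hp.coprime_iff_not_dvd).2 (hva g hg)).pow_left n
    rcases burnside_zero_or_scalar ρ g hco with h | h
    · rw [← he]; exact h
    · obtain ⟨ω, hω⟩ := (norm_rep_char_eq_iff ρ g).1 h
      refine absurd ?_ hg1
      rw [← Subgroup.mem_bot, ← hZ, Subgroup.mem_center_iff]
      intro x
      have hker : ρ ((x * g) * (g * x)⁻¹) = 1 := by
        have hc : ρ (x * g) = ρ (g * x) := by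
          rw [map_mul, map_mul, hω]; ext v; simp
        rw [map_mul, hc, ← map_mul, mul_inv_cancel, map_one]
      have h1 := hfaith ((x * g) * (g * x)⁻¹) (by
        rw [← he, ρ.char_one]
        show LinearMap.trace ℂ _ (ρ _) = _
        rw [hker, LinearMap.trace_one])
      exact mul_inv_eq_one.1 h1
  have hB := isPBlock_blockOf (M := M) χ
  have hkey : ∀ ψ ∈ Cfsg.blockOf M (χ : G → ℂ),
      b ≤ (Cfsg.charDegree (ψ : G → ℂ)).factorization p := by
    intro ψ hψ
    by_contra hlt
    rw [not_le] at hlt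
    obtain ⟨m, hm⟩ : ∃ m, m = (Cfsg.charDegree (ψ : G → ℂ)).factorization p := ⟨_, rfl⟩
    rw [← hm] at hlt
    obtain ⟨D, hD⟩ : ∃ D, D = Cfsg.charDegree (ψ : G → ℂ) := ⟨_, rfl⟩
    have hψ1 : (ψ : G → ℂ) 1 = (D : ℂ) := by rw [hD, charDegree_cast ψ.2.isCharacter']
    have hD0 : D ≠ 0 := hD ▸ (charDegree_pos ψ).ne'
    obtain ⟨e, he⟩ : p ^ m ∣ D := by rw [hm, hD]; exact Nat.ordProj_dvd _ _
    have hep : ¬ p ∣ e := fun h => by
      have h2 : p ^ (m + 1) ∣ D := by
        rw [he, pow_succ]; exact Nat.mul_dvd_mul_left _ h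
      have h3 := (hp.pow_dvd_iff_le_factorization hD0).1 h2
      rw [hD, ← hm] at h3
      omega
    have hpm : ((p : ℂ) ^ m) ≠ 0 := pow_ne_zero _ (Nat.cast_ne_zero.2 hp.ne_zero)
    have hDc : (D : ℂ) = (p : ℂ) ^ m * (e : ℂ) := by rw [he]; push_cast; ring
    have hI : ∀ g ∈ H, g ≠ 1 → MemLocalIdeal M ((ψ : G → ℂ) g / (p : ℂ) ^ m) := by
      intro g hg hg1
      have h := sameBlock_symm hM (χ := χ) (ψ := ψ) hψ g
      have h0 : centralChar (χ : G → ℂ) g = 0 := by
        rw [centralChar, hzero g hg hg1, mul_zero, zero_div]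
      rw [h0, sub_zero, memLocalIdeal_iff_exists hM] at h
      obtain ⟨hmem, hres⟩ := h
      have hk := natCast_inv_mem hM (hva g hg)
      rw [memLocalIdeal_iff_exists hM]
      obtain ⟨z, hz⟩ : ∃ z : locRing hM, z = (e : locRing hM) * ⟨_, hmem⟩ * ⟨_, hk⟩ := ⟨_, rfl⟩
      have hzv : (z : ℂ) = (ψ : G → ℂ) g / (p : ℂ) ^ m := by
        rw [hz]
        push_cast
        rw [centralChar, hψ1, hDc]
        have hk0 : ((Subgroup.centralizer ({g} : Set G)).index : ℂ) ≠ 0 :=
          Nat.cast_ne_zero.2 Subgroup.index_ne_zero_of_finite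
        have he0 : (e : ℂ) ≠ 0 := Nat.cast_ne_zero.2 fun h => hep (h ▸ dvd_zero p)
        field_simp
      refine ⟨hzv ▸ z.2, ?_⟩
      rw [show (⟨_, hzv ▸ z.2⟩ : locRing hM) = z from Subtype.ext hzv.symm, hz, map_mul, map_mul,
        hres, mul_zero, zero_mul]
    obtain ⟨d, ρ, -, he'⟩ := ψ.2
    obtain ⟨k, hk⟩ : ∃ k : ℕ, ∑ h : H, (ψ : G → ℂ) h = (Nat.card H : ℂ) * k := by
      refine ⟨Module.finrank ℂ (Representation.IntertwiningMap
        (Representation.trivial ℂ H ℂ) (ρ.comp H.subtype)), ?_⟩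
      rw [← inner_rep_char (ρ.comp H.subtype) (Representation.trivial ℂ H ℂ), classInner,
        ← mul_assoc, mul_inv_cancel₀ (natCard_ne_zero H), one_mul]
      refine Finset.sum_congr rfl fun h _ => ?_
      rw [← he']
      simp [Representation.character]
    choose hmem hres using fun (h : H) (h1 : h ≠ 1) =>
      (memLocalIdeal_iff_exists hM).1 (hI h h.2 (fun e1 => h1 (Subtype.ext e1)))
    obtain ⟨f, hf⟩ : ∃ f : H → locRing hM, ∀ h : H, res hM (f h) = 0 ∧
        ((f h : locRing hM) : ℂ) = if h = 1 then 0 else (ψ : G → ℂ) h / (p : ℂ) ^ m := by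
      refine ⟨fun h => if hh : h = 1 then 0 else ⟨_, hmem h hh⟩, fun h => ?_⟩
      by_cases hh : h = 1
      · simp [hh]
      · simp [hh, hres]
    have hbm : p ∣ p ^ (b - m) * k := Dvd.dvd.mul_right (dvd_pow_self p (by omega)) k
    apply hep
    rw [← res_natCast_eq_zero_iff hM]
    have heq : (e : locRing hM) = ((p ^ (b - m) * k : ℕ) : locRing hM) - ∑ h : H, f h := by
      apply Subtype.ext
      push_cast
      simp only [(hf _).2]
      rw [Finset.sum_ite, Finset.sum_const_zero, zero_add, ← Finset.sum_div, eq_sub_iff_add_eq,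
        ← mul_left_inj' hpm, add_mul, div_mul_cancel₀ _ hpm, mul_comm (e : ℂ), ← hDc, ← hψ1,
        mul_right_comm, ← pow_add, Nat.sub_add_cancel hlt.le]
      rw [hHcard, Nat.cast_pow] at hk
      rw [← hk, Finset.filter_ne']
      exact Finset.add_sum_erase Finset.univ (fun h : H => (ψ : G → ℂ) h) (Finset.mem_univ 1)
    rw [heq, map_sub, map_sum, Finset.sum_eq_zero fun h _ => (hf h).1, sub_zero,
      res_natCast_eq_zero_iff]
    exact hbm
  have hmain : Cfsg.blockDefect p (Cfsg.blockOf M (χ : G → ℂ)) ≤ a - b := by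
    have h1 : b ≤ blockMin p (Cfsg.blockOf M (χ : G → ℂ)) :=
      le_csInf ((isPBlock_nonempty hM hB).image _) (by rintro _ ⟨ψ, hψ, rfl⟩; exact hkey ψ hψ)
    have h2 := defect_add_min hM hB
    have h3 : (Nat.card G).factorization p = a := by
      have := P.card_eq_multiplicity
      rw [ha] at this
      exact (Nat.pow_right_injective hp.two_le this).symm
    omega
  refine ⟨hmain, fun hab => ?_⟩
  have : Subgroup.center ↥(P : Subgroup G) = ⊤ :=
    eq_top_iff.2 fun x _ => Subgroup.mem_center_iff.2 fun y => hab.is_comm.comm y x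
  rw [this, Subgroup.card_top, ha] at hb
  have := Nat.pow_right_injective hp.two_le hb
  omega

end Cfsg.Agent.S4730
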