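import Cfsg.Statements.S4731
import Cfsg.Agent.Lib.BlockIndep

set_option autoImplicit false
open Cfsg
open CfsgLib.Block CfsgLib.Char
open scoped Classical
open scoped ComplexConjugate


namespace Cfsg.Agent.S4731

/-- Let p ≠ q be primes, M_p and M_q maximal ideals of the algebraic integers containing p and q respectively, and G a finite group with no element of order pq; let q^b be the q-part of the order of G. For a p-block B_p (relative to M_p), a q-block B_q (relative to M_q) and a p-singular element y, the sum of χ(1)χ(y) over the irreducible characters χ lying in both B_p and B_q is q^b times an algebraic integer. -/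
theorem result {G : Type*} [Group G] [Finite G] (p q : ℕ) [Fact p.Prime] [Fact q.Prime] (hpq : p ≠ q) (Mp Mq : Ideal Cfsg.AlgInt) (hMp : Cfsg.IsPModular p Mp) (hMq : Cfsg.IsPModular q Mq) (hno : ∀ g : G, orderOf g ≠ p * q) (b : ℕ) (hb : (Nat.card G).factorization q = b) (Bp : Set (Cfsg.IrrCharacter G)) (hBp : Cfsg.IsPBlock Mp Bp) (Bq : Set (Cfsg.IrrCharacter G)) (hBq : Cfsg.IsPBlock Mq Bq) (y : G) (hy : p ∣ orderOf y) : ∃ ω : Cfsg.AlgInt, ∑ᶠ χ ∈ Bp ∩ Bq, (Cfsg.charDegree (χ : G → ℂ) : ℂ) * (χ : G → ℂ) y = (q : ℂ) ^ b * (ω : ℂ) := by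
  haveI := Fintype.ofFinite G
  have hp := (Fact.out : p.Prime)
  have hq := (Fact.out : q.Prime)
  have hpreg : ∀ z : G, q ∣ orderOf z → ¬ p ∣ orderOf z := fun z hz hpz => by
    have hd : p * q ∣ orderOf z := ((Nat.coprime_primes hp hq).2 hpq).mul_dvd_of_dvd_of_dvd hpz hz
    refine hno (z ^ (orderOf z / (p * q))) ?_
    obtain ⟨k, hk⟩ := hd
    have hk0 : k ≠ 0 := fun e => (orderOf_pos z).ne' (by rw [hk, e, mul_zero])
    rw [hk, Nat.mul_div_cancel_left _ (Nat.mul_pos hp.pos hq.pos), orderOf_pow_of_dvd hk0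
      (by rw [hk]; exact dvd_mul_left _ _), hk, Nat.mul_div_cancel _ (Nat.pos_of_ne_zero hk0)]
  obtain ⟨t, ht⟩ := exists_block_degree_eq hq
    (fun χ : Cfsg.IrrCharacter G => indVal Bq χ * (indVal Bp χ * (χ : G → ℂ) y)) fun z hz =>
      block_part_singular_eq_zero hMq hBq (fun χ => indVal Bp χ * (χ : G → ℂ) y) (fun w hw => by
        have h := block_sum_singular_regular hMp hBp
          (x := w⁻¹) (by rw [orderOf_inv]; exact hpreg w hw) hy
        rw [← h]
        refine Finset.sum_congr rfl fun χ _ => ?_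
        rw [isCharacter_inv_eq_conj χ.2.isCharacter', Complex.conj_conj]) hz
  refine ⟨⟨∑ χ : Cfsg.IrrCharacter G, indVal Bq χ * (indVal Bp χ * (χ : G → ℂ) y) * (t χ : ℂ), ?_⟩, ?_⟩
  · refine IsIntegral.sum _ fun χ _ => ((IsIntegral.mul ?_ (IsIntegral.mul ?_
      (isCharacter_isIntegral χ.2.isCharacter' y)))).mul
        (isIntegral_algebraMap (R := ℤ) (A := ℂ) (x := (t χ : ℤ))) <;>
      (unfold indVal; split_ifs; exacts [isIntegral_one, isIntegral_zero])
  · rw [← hb]
    rw [finsum_mem_eq_indVal]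
    refine Eq.trans (Finset.sum_congr rfl fun χ _ => ?_) ht
    rw [charDegree_cast χ.2.isCharacter']
    simp only [indVal, Set.mem_inter_iff]
    by_cases h1 : χ ∈ Bp <;> by_cases h2 : χ ∈ Bq <;> simp [h1, h2, mul_comm]

end Cfsg.Agent.S4731
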