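import Cfsg.Statements.S4734
import Cfsg.Agent.Lib.BlockPiKernel

set_option autoImplicit false
open Cfsg
open CfsgLib.Block hiding blockKer

namespace Cfsg.Agent.S4734

/-- Let p be a prime, π a set of primes containing p, M a maximal ideal of the algebraic integers containing p, B a p-block of the finite group G with defect group D, and B₁ the block of N_G(D) with defect group D inducing B. Write O_π'(X) for the largest normal subgroup of X whose order has no prime divisor in π, and suppose every element of O_π'(N_G(D)) lies in the kernel of every member of B₁. Let G₀ be a subgroup and B₀ a block of G₀ with defect group D₀ such that C_G(D₀) ≤ G₀ and B₀ induces B. Then every element of O_π'(G₀) lies in the kernel of every member of B₀. -/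
theorem result {G : Type*} [Group G] [Finite G] (p : ℕ) [Fact p.Prime] (M : Ideal Cfsg.AlgInt) (hM : Cfsg.IsPModular p M) (π : Set ℕ) (hpπ : p ∈ π) (B : Set (Cfsg.IrrCharacter G)) (hB : Cfsg.IsPBlock M B) (D : Subgroup G) (hBD : Cfsg.IsDefectGroup p M B D) (B₁ : Set (Cfsg.IrrCharacter ↥(Subgroup.normalizer (D : Set G)))) (hB₁ : Cfsg.IsInducedBlock M (Subgroup.normalizer (D : Set G)) B₁ B) (hB₁D : Cfsg.IsDefectGroup p M B₁ (D.subgroupOf (Subgroup.normalizer (D : Set G)))) (hker : ∀ n : ↥(Subgroup.normalizer (D : Set G)), n ∈ Cfsg.piCore {q | q ∉ π} ↥(Subgroup.normalizer (D : Set G)) → n ∈ Cfsg.blockKer B₁) (G₀ : Subgroup G) (B₀ : Set (Cfsg.IrrCharacter ↥G₀)) (hB₀ : Cfsg.IsInducedBlock M G₀ B₀ B) (D₀ : Subgroup ↥G₀) (hD₀ : Cfsg.IsDefectGroup p M B₀ D₀) (hC : Subgroup.centralizer ((D₀.map G₀.subtype : Subgroup G) : Set G) ≤ G₀) : ∀ x : ↥G₀, x ∈ Cfsg.piCore {q | q ∉ π} ↥G₀ → x ∈ Cfsg.blockKer B₀ := by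
  classical
  haveI := Fintype.ofFinite G
  haveI := Fintype.ofFinite ↥(Subgroup.normalizer (D : Set G))
  haveI := Fintype.ofFinite ↥G₀
  haveI := CfsgLib.Block.charP_resField hM
  intro x hx
  set E : Subgroup G := D₀.map G₀.subtype with hE
  have hED : E.subgroupOf G₀ = D₀ :=
    Subgroup.comap_map_eq_self_of_injective G₀.subtype_injective D₀
  have hEG : E ≤ G₀ := Subgroup.map_subtype_le _
  have hEp : IsPGroup p E := (isPGroup_defectGroup hM hB₀.1 hD₀).map _
  have hb0 : IsBlockFn hM G₀ (bFn hM G₀ B₀) := ⟨B₀, hB₀.1, rfl⟩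
  obtain ⟨hts, hti, htsq⟩ := trc_props hM hEp (invBy_mono hb0.invBy hEG)
    (invBy_mono hb0.invBy hC) hb0.mul_self
  have htne : trc E (bFn hM G₀ B₀) ≠ 0 := by
    obtain ⟨c, hc, hne⟩ := brauerNonzero_defectGroup hM hB₀.1 hD₀
    intro h0
    refine hne ?_
    rw [← hED] at hc
    have h1 := congrFun h0 (c : G)
    rw [trc, if_pos ((mem_centralizer_subgroupOf hEG c).1 hc), bFn_eq_ext0, ext0_coe,
      gFn_block hM hB₀.1] at h1
    exact h1
  obtain ⟨γ, hγ, hγe⟩ := exists_occ hts hti htsq htne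
  have hpair : PairIn hM B E γ :=
    ⟨⟨hEp, hγ⟩, hB, gconv_trc_of_induced hM hB₀ hEG hC ⟨hEp, hγ⟩ hγe⟩
  have hdown := downFix_of_correspondent (σ := {q | q ∉ π}) (fun h => h hpπ) hBD hB₁ hB₁D hker hpair
  set L := Cfsg.piCoreOf {q | q ∉ π} G₀ with hL
  have hpL : ¬ p ∣ Nat.card L := fun hd =>
    prime_mem_of_dvd_card_piCoreOf G₀ p Fact.out hd hpπ
  have hNL : G₀ ≤ Subgroup.normalizer (L : Set G) := le_normalizer_piCoreOf G₀
  have hfix : FixBy L (bFn hM G₀ B₀) := by
    refine fixBy_of_trc hb0 (piCoreOf_le' G₀) hNL hpL hEp (hEG.trans hNL)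
      (invBy_mono hb0.invBy hEG) hγe hγ.ne_zero (hdown _ inf_le_right (fun a ha => ?_)
      fun r hr hd => prime_mem_of_dvd_card_piCoreOf G₀ r hr
        (hd.trans (Subgroup.card_dvd_of_le inf_le_left)))
    refine Subgroup.mem_normalizer_iff.2 fun u => ?_
    simp only [Subgroup.mem_inf]
    exact and_congr (Subgroup.mem_normalizer_iff.1 (hNL (hC ha)) u)
      (Subgroup.mem_normalizer_iff.1 (Subgroup.le_normalizer ha) u)
  refine mem_blockKer_of_bFn hM (K := Cfsg.piCore {q | q ∉ π} ↥G₀) (fun hd => hpL ?_) hB₀.1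
    (fun a ha g => hfix (a : G) ⟨a, ha, rfl⟩ g) hx
  rwa [hL, Cfsg.piCoreOf, Subgroup.card_map_of_injective G₀.subtype_injective]

end Cfsg.Agent.S4734
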