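import Cfsg.Statements.S4735
import Cfsg.Agent.Lib.CharGalois
import Cfsg.Agent.Lib.CoreBasic
import Cfsg.Agent.Lib.BlockCoverUnique
import Cfsg.Agent.Lib.BlockInflate
import Cfsg.Agent.Lib.BlockPrincipal
import Cfsg.Agent.Lib.BlockRegular

set_option autoImplicit false
open Cfsg

namespace Cfsg.Agent.S4735

/-- Let p be a prime, M a maximal ideal of the algebraic integers containing p, G a finite group, H = O_p'(G) and Ḡ = G/H. For x ∈ G write λ(G, x) for the sum of |χ(x)|^2 over the irreducible characters χ in the principal p-block of G. Then λ(G, x) is a positive integer, λ(G, x) = λ(Ḡ, x̄) where x̄ is the image of x, and λ(G, x) ≤ #C_Ḡ(x̄). Moreover λ(G, 1) = [G : H] if and only if the principal block is the only p-block of Ḡ. -/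
theorem result {G : Type*} [Group G] [Finite G] (p : ℕ) [Fact p.Prime] (M : Ideal Cfsg.AlgInt) (hM : Cfsg.IsPModular p M) (x : G) : (∃ n : ℕ, 0 < n ∧ ∑ᶠ χ ∈ Cfsg.principalBlock M G, Complex.normSq ((χ : G → ℂ) x) = n) ∧ ∑ᶠ χ ∈ Cfsg.principalBlock M G, Complex.normSq ((χ : G → ℂ) x) = ∑ᶠ ψ ∈ Cfsg.principalBlock M (G ⧸ Cfsg.pPrimeCore p G), Complex.normSq ((ψ : G ⧸ Cfsg.pPrimeCore p G → ℂ) (QuotientGroup.mk x)) ∧ ∑ᶠ χ ∈ Cfsg.principalBlock M G, Complex.normSq ((χ : G → ℂ) x) ≤ (Nat.card ↥(Subgroup.centralizer ({(QuotientGroup.mk x : G ⧸ Cfsg.pPrimeCore p G)} : Set (G ⧸ Cfsg.pPrimeCore p G))) : ℝ) ∧ ((∑ᶠ χ ∈ Cfsg.principalBlock M G, Cfsg.charDegree (χ : G → ℂ) ^ 2) = (Cfsg.pPrimeCore p G).index ↔ ∀ B : Set (Cfsg.IrrCharacter (G ⧸ Cfsg.pPrimeCore p G)), Cfsg.IsPBlock M B → B = Cfsg.principalBlock M (G ⧸ Cfsg.pPrimeCore p G)) := by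
  classical
  haveI := Fintype.ofFinite G
  have hN : ¬ p ∣ Nat.card (pPrimeCore p G) :=
    ((Fact.out : p.Prime).coprime_iff_not_dvd).1 (CfsgLib.Core.coprime_card_pPrimeCore p).symm
  set N := pPrimeCore p G with hNdef
  haveI := Fintype.ofFinite (G ⧸ N)
  set B := principalBlock M G with hB
  set Bq := principalBlock M (G ⧸ N) with hBq
  have hinfl : ∀ η : IrrCharacter (G ⧸ N), CfsgLib.Block.inflate N η ∈ B ↔ η ∈ Bq := by
    intro η
    have htriv : ((CfsgLib.Block.inflate N (CfsgLib.Block.trivIrr (G ⧸ N)) : IrrCharacter G) : G → ℂ) = fun _ => 1 := rfl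
    constructor
    · intro h
      refine CfsgLib.Block.sameBlock_of_inflate N hM hN (χ := CfsgLib.Block.trivIrr (G ⧸ N)) (χ' := η) ?_
      rw [htriv]; exact h
    · intro h
      have h2 := CfsgLib.Block.sameBlock_inflate N hM (χ := CfsgLib.Block.trivIrr (G ⧸ N)) (χ' := η) h
      rw [htriv] at h2
      exact h2
  have hsumq : ∀ F : (G → ℂ) → ℝ, ∑ᶠ χ ∈ B, F (χ : G → ℂ) =
      ∑ᶠ η ∈ Bq, F ((CfsgLib.Block.inflate N η : IrrCharacter G) : G → ℂ) := by
    intro F
    rw [finsum_mem_eq_toFinset_sum, finsum_mem_eq_toFinset_sum]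
    refine (Finset.sum_bij (fun η _ => CfsgLib.Block.inflate N η) (fun η hη => Set.mem_toFinset.2 ((hinfl η).2 (Set.mem_toFinset.1 hη)))
      (fun a _ b _ h => CfsgLib.Block.inflate_injective N h) (fun χ hχ => ?_) (fun η _ => rfl)).symm
    obtain ⟨η, hη⟩ := CfsgLib.Block.exists_inflate_of_ker (N := N) (ψ := χ)
      (fun n hn => CfsgLib.Block.apply_eq_of_principal hM hN (Set.mem_toFinset.1 hχ) hn)
    exact ⟨η, Set.mem_toFinset.2 ((hinfl η).1 (hη ▸ Set.mem_toFinset.1 hχ)), hη⟩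
  have heq : ∑ᶠ χ ∈ B, Complex.normSq ((χ : G → ℂ) x) =
      ∑ᶠ ψ ∈ Bq, Complex.normSq ((ψ : G ⧸ N → ℂ) (QuotientGroup.mk x)) := by
    rw [hsumq (fun f => Complex.normSq (f x))]
    rfl
  -- invariance of the block under the Galois twists
  have hgal : ∀ k : ℕ, (hk : k.Coprime (Nat.card G)) → ∀ χ ∈ B,
      (⟨_, CfsgLib.Char.powTwist_irr hk χ.2⟩ : IrrCharacter G) ∈ B := by
    intro k hk χ hχ g
    have hset : Subgroup.centralizer ({g} : Set G) = Subgroup.centralizer ({g ^ k} : Set G) := by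
      ext z
      rw [Subgroup.mem_centralizer_singleton_iff, Subgroup.mem_centralizer_singleton_iff]
      constructor
      · intro h; exact (Commute.pow_right h k).eq
      · intro h
        obtain ⟨j, hj⟩ := exists_pow_eq_self_of_coprime (x := g) (n := k)
          (hk.coprime_dvd_right (orderOf_dvd_natCard g))
        rw [← hj]
        exact (Commute.pow_right h j).eq
    have h := hχ (g ^ k)
    simp only [centralChar, CfsgLib.Char.powTwist, one_pow, ← hset] at h ⊢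
    exact h
  obtain ⟨q, hq⟩ : ∃ q : ℚ, ((∑ᶠ χ ∈ B, Complex.normSq ((χ : G → ℂ) x) : ℝ) : ℂ) = (q : ℂ) := by
    have hζ := Complex.isPrimitiveRoot_exp (Nat.card G) Nat.card_pos.ne'
    have hc : ∀ χ : IrrCharacter G, IsCharacter G (fun g => (χ : G → ℂ) g * (starRingEnd ℂ) ((χ : G → ℂ) g)) :=
      fun χ => CfsgLib.Char.isCharacter_mul χ.2.isCharacter' (CfsgLib.Char.isCharacter_conj χ.2.isCharacter')
    choose Q hQ using fun χ : IrrCharacter G => CfsgLib.Char.hasGalPoly_char hζ (hc χ) x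
    refine CfsgLib.Char.rat_of_invariant Nat.card_pos hζ (∑ χ ∈ B.toFinset, Q χ) _ fun k hk => ?_
    rw [map_sum, finsum_mem_eq_toFinset_sum, Complex.ofReal_sum,
      Finset.sum_congr rfl fun χ _ => (hQ χ k hk).symm]
    refine Finset.sum_bij (fun χ _ => (⟨_, CfsgLib.Char.powTwist_irr hk χ.2⟩ : IrrCharacter G))
      (fun χ hχ => Set.mem_toFinset.2 (hgal k hk χ (Set.mem_toFinset.1 hχ))) ?_ ?_ ?_
    · intro a _ b _ h
      refine Subtype.ext (funext fun g => ?_)
      obtain ⟨g, rfl⟩ := (powCoprime hk.symm).surjective g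
      exact congrFun (congrArg Subtype.val h) g
    · intro χ hχ
      have hfin : Function.Surjective (fun z : B.toFinset => (⟨⟨_, CfsgLib.Char.powTwist_irr hk z.1.2⟩,
          Set.mem_toFinset.2 (hgal k hk z.1 (Set.mem_toFinset.1 z.2))⟩ : B.toFinset)) := by
        refine Finite.surjective_of_injective fun a b h => Subtype.ext (Subtype.ext (funext fun g => ?_))
        obtain ⟨g, rfl⟩ := (powCoprime hk.symm).surjective g
        exact congrFun (congrArg (fun z : B.toFinset => (z.1 : G → ℂ)) h) g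
      obtain ⟨z, hz⟩ := hfin ⟨χ, hχ⟩
      exact ⟨z.1, z.2, congrArg Subtype.val hz⟩
    · intro χ _
      show (χ : G → ℂ) (x ^ k) * (starRingEnd ℂ) ((χ : G → ℂ) (x ^ k)) =
        (Complex.normSq ((χ : G → ℂ) (x ^ k)) : ℂ)
      rw [Complex.mul_conj]
  have hint : IsIntegral ℤ ((∑ᶠ χ ∈ B, Complex.normSq ((χ : G → ℂ) x) : ℝ) : ℂ) := by
    rw [finsum_mem_eq_toFinset_sum, Complex.ofReal_sum]
    refine IsIntegral.sum _ fun χ _ => ?_
    rw [← Complex.mul_conj]
    exact (CfsgLib.Char.isCharacter_isIntegral χ.2.isCharacter' x).mul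
      (CfsgLib.Char.isCharacter_isIntegral (CfsgLib.Char.isCharacter_conj χ.2.isCharacter') x)
  obtain ⟨z, hz⟩ := CfsgLib.Char.int_of_isIntegral_rat q (hq ▸ hint)
  have hzr : ∑ᶠ χ ∈ B, Complex.normSq ((χ : G → ℂ) x) = (z : ℝ) := by
    apply Complex.ofReal_injective
    rw [hq, ← hz]; push_cast; rfl
  have hpos : (1 : ℝ) ≤ ∑ᶠ χ ∈ B, Complex.normSq ((χ : G → ℂ) x) := by
    rw [finsum_mem_eq_toFinset_sum]
    have := Finset.single_le_sum (f := fun χ : IrrCharacter G => Complex.normSq ((χ : G → ℂ) x))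
      (fun χ _ => Complex.normSq_nonneg _) (Set.mem_toFinset.2 (CfsgLib.Block.trivIrr_mem_principal (G := G) hM))
    simpa [CfsgLib.Block.trivIrr] using this
  refine ⟨⟨z.toNat, ?_, ?_⟩, heq, ?_, ?_⟩
  · rw [hzr] at hpos
    have : (1 : ℤ) ≤ z := by exact_mod_cast hpos
    omega
  · rw [hzr] at hpos
    have h1 : (1 : ℤ) ≤ z := by exact_mod_cast hpos
    rw [hzr]
    exact_mod_cast congrArg (fun i : ℤ => (i : ℝ)) (Int.toNat_of_nonneg (by omega : (0 : ℤ) ≤ z)).symm
  · rw [heq, finsum_mem_eq_toFinset_sum]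
    refine le_trans (Finset.sum_le_univ_sum_of_nonneg fun ψ => Complex.normSq_nonneg _) (le_of_eq ?_)
    apply Complex.ofReal_injective
    rw [Complex.ofReal_sum]
    push_cast
    rw [← CfsgLib.Char.column_orth_conj (IsConj.refl (QuotientGroup.mk x : G ⧸ N))]
    exact Finset.sum_congr rfl fun ψ _ => (Complex.mul_conj _).symm
  · have hdeg : ((∑ᶠ χ ∈ B, charDegree (χ : G → ℂ) ^ 2 : ℕ) : ℝ) = ((∑ ψ ∈ Bq.toFinset, charDegree (ψ : G ⧸ N → ℂ) ^ 2 : ℕ) : ℝ) := by
      have h := hsumq (fun f => (charDegree f : ℝ) ^ 2)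
      rw [finsum_mem_eq_toFinset_sum, finsum_mem_eq_toFinset_sum] at h
      rw [finsum_mem_eq_toFinset_sum]
      push_cast
      rw [h]
      refine Finset.sum_congr rfl fun η _ => ?_
      congr 2
    rw [Nat.cast_inj.1 hdeg]
    have htot : ∑ ψ : IrrCharacter (G ⧸ N), charDegree (ψ : G ⧸ N → ℂ) ^ 2 = N.index := by
      rw [Subgroup.index_eq_card]
      have h := CfsgLib.Char.sum_degree_sq (G := G ⧸ N)
      have hc : ∀ ψ : IrrCharacter (G ⧸ N), (ψ : G ⧸ N → ℂ) 1 ^ 2 = ((charDegree (ψ : G ⧸ N → ℂ) ^ 2 : ℕ) : ℂ) := fun ψ => by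
        rw [Nat.cast_pow, CfsgLib.Block.charDegree_cast ψ.2.isCharacter']
      simp only [hc] at h
      exact_mod_cast h
    constructor
    · intro h Bb hBb
      obtain ⟨χ, hχ⟩ := CfsgLib.Block.isPBlock_nonempty hM hBb
      refine CfsgLib.Block.isPBlock_eq_of_mem hM hBb (CfsgLib.Block.isPBlock_principal M) hχ ?_
      by_contra hnot
      have hlt : ∑ ψ ∈ Bq.toFinset, charDegree (ψ : G ⧸ N → ℂ) ^ 2 < ∑ ψ : IrrCharacter (G ⧸ N), charDegree (ψ : G ⧸ N → ℂ) ^ 2 :=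
        Finset.sum_lt_sum_of_subset (Finset.subset_univ _) (Finset.mem_univ χ) (fun hh => hnot (Set.mem_toFinset.1 hh))
          (pow_pos (CfsgLib.Block.charDegree_pos χ) 2) (fun _ _ _ => Nat.zero_le _)
      rw [htot, h] at hlt
      exact lt_irrefl _ hlt
    · intro h
      rw [← htot]
      refine Finset.sum_congr ?_ fun _ _ => rfl
      ext ψ
      simp only [Set.mem_toFinset, Finset.mem_univ, iff_true]
      rw [← h _ (CfsgLib.Block.isPBlock_blockOf ψ)]
      exact CfsgLib.Block.mem_blockOf_self hM ψ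

end Cfsg.Agent.S4735
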