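import Cfsg.Statements.S4736
import Cfsg.Agent.Lib.BlockPrincipalType
import Cfsg.Agent.Lib.BlockInflate
import Cfsg.Agent.Lib.BlockCoverUnique
import Cfsg.Agent.Lib.BlockItoMichler
import Cfsg.Agent.Lib.BlockPrinInduce
import Cfsg.Agent.Lib.CorePSolvable

set_option autoImplicit false
set_option maxHeartbeats 300000
open Cfsg CfsgLib.Block CfsgLib.Char

namespace Cfsg.Agent.S4736

universe u

theorem not_dvd_of_abelian {Q : Type u} [Group Q] [Finite Q] {p : ℕ} [Fact p.Prime]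
    (hs : Cfsg.IsPSolvable p Q) (hcore : Cfsg.pPrimeCore p Q = ⊥) (Pq : Sylow p Q)
    (hcomm : ∀ x ∈ (Pq : Subgroup Q), ∀ y ∈ (Pq : Subgroup Q), x * y = y * x)
    (χ : Cfsg.IrrCharacter Q) : ¬ p ∣ Cfsg.charDegree (χ : Q → ℂ) := by
  have hR : Cfsg.pCore p Q ≤ (Pq : Subgroup Q) := CfsgLib.Core.pCore_le_sylow Pq
  have hle : (Pq : Subgroup Q) ≤ Cfsg.pCore p Q :=
    le_trans (fun x hx => Subgroup.mem_centralizer_iff.2 fun r hr => hcomm r (hR hr) x hx)
      (CfsgLib.Core.centralizer_pCore_le_of_isPSolvable hs hcore)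
  haveI hn : (Pq : Subgroup Q).Normal := by
    rw [le_antisymm hle hR]; exact CfsgLib.Core.normal_pCore p
  exact fun hd => Pq.not_dvd_index (hd.trans (charDegree_dvd_index_abelian _ hcomm χ))


/-- Let p be a prime, M a maximal ideal of the algebraic integers containing p, and G a finite p-solvable group with Sylow p-subgroup P. Then P is abelian if and only if every irreducible character in the principal p-block of G has height zero. -/
theorem result {G : Type*} [Group G] [Finite G] (p : ℕ) [Fact p.Prime] (M : Ideal Cfsg.AlgInt) (hM : Cfsg.IsPModular p M) (hsolv : Cfsg.IsPSolvable p G) (P : Sylow p G) : IsMulCommutative P ↔ ∀ χ ∈ Cfsg.principalBlock M G, Cfsg.blockHeight p (Cfsg.principalBlock M G) (χ : G → ℂ) = 0 := by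
  classical
  haveI : Fintype G := Fintype.ofFinite G
  obtain ⟨K, hK⟩ : ∃ K : Subgroup G, K = Cfsg.pPrimeCore p G := ⟨_, rfl⟩
  subst hK
  haveI := CfsgLib.Core.normal_pPrimeCore (G := G) p
  haveI : Fintype (Cfsg.pPrimeCore p G) := Fintype.ofFinite _
  haveI : Fintype (G ⧸ Cfsg.pPrimeCore p G) := Fintype.ofFinite _
  have hNK := CfsgLib.Core.not_dvd_card_pPrimeCore (G := G) p
  have hsQ : Cfsg.IsPSolvable p (G ⧸ Cfsg.pPrimeCore p G) :=
    CfsgLib.Core.isPSolvable_of_surjective (QuotientGroup.mk' _) (QuotientGroup.mk'_surjective _) hsolv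
  obtain ⟨B, hB, hmem, -, -⟩ := pSolvable_core_block hM
      (θ := trivIrr (Cfsg.pPrimeCore p G)) hsolv rfl (fun g => rfl)
  have hover : ∀ χ : Cfsg.IrrCharacter G,
      (∀ n ∈ Cfsg.pPrimeCore p G, (χ : G → ℂ) n = (χ : G → ℂ) 1) → χ ∈ B := by
    intro χ hker
    rw [hmem, Over]
    simp only [Cfsg.classInner, trivIrr, map_one, mul_one,
      fun n : Cfsg.pPrimeCore p G => hker n n.2, Finset.sum_const, Finset.card_univ, nsmul_eq_mul,
      ← Nat.card_eq_fintype_card]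
    rw [inv_mul_cancel_left₀ (natCard_ne_zero (Cfsg.pPrimeCore p G))]
    exact irr_one_ne_zero χ
  have hBeq : B = Cfsg.principalBlock M G :=
    isPBlock_eq_blockOf hM hB (hover (trivIrr G) fun _ _ => rfl)
  obtain ⟨Pq, hPq⟩ : ∃ Pq : Sylow p (G ⧸ Cfsg.pPrimeCore p G),
      (Pq : Subgroup (G ⧸ Cfsg.pPrimeCore p G))
        = (P : Subgroup G).map (QuotientGroup.mk' (Cfsg.pPrimeCore p G)) :=
    ⟨P.mapSurjective (QuotientGroup.mk'_surjective _), rfl⟩
  have hdeg : ∀ χ : Cfsg.IrrCharacter (G ⧸ Cfsg.pPrimeCore p G),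
      Cfsg.charDegree (inflate (Cfsg.pPrimeCore p G) χ : G → ℂ)
        = Cfsg.charDegree (χ : G ⧸ Cfsg.pPrimeCore p G → ℂ) := fun χ => by
    simp [Cfsg.charDegree, inflate_apply]
  constructor
  · intro hab χ hχ
    rw [blockHeight_principal_eq_zero_iff hM]
    obtain ⟨χ', rfl⟩ := exists_inflate_of_ker (Cfsg.pPrimeCore p G) (ψ := χ)
      (fun n hn => apply_eq_of_principal hM hNK hχ hn)
    rw [hdeg]
    refine not_dvd_of_abelian hsQ (CfsgLib.Core.pPrimeCore_quotient_pPrimeCore p) Pq ?_ χ'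
    rw [hPq]
    rintro _ ⟨x, hx, rfl⟩ _ ⟨y, hy, rfl⟩
    rw [← map_mul, ← map_mul]
    exact congrArg _ (congrArg Subtype.val (hab.is_comm.comm ⟨x, hx⟩ ⟨y, hy⟩))
  · intro h
    have hall : ∀ χ : Cfsg.IrrCharacter (G ⧸ Cfsg.pPrimeCore p G),
        ¬ p ∣ Cfsg.charDegree (χ : G ⧸ Cfsg.pPrimeCore p G → ℂ) := fun χ => by
      rw [← hdeg, ← blockHeight_principal_eq_zero_iff hM]
      apply h
      rw [← hBeq]
      exact hover _ fun n hn => inflate_ker _ χ hn
    obtain ⟨-, hc⟩ := sylow_normal_abelian (Nat.card (G ⧸ Cfsg.pPrimeCore p G))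
      (G ⧸ Cfsg.pPrimeCore p G) le_rfl hsQ hall Pq
    refine ⟨⟨fun x y => Subtype.ext ?_⟩⟩
    rw [hPq] at hc
    have h1 := hc _ (Subgroup.mem_map_of_mem _ x.2) _ (Subgroup.mem_map_of_mem _ y.2)
    rw [← map_mul, ← map_mul, QuotientGroup.mk'_eq_mk'] at h1
    obtain ⟨z, hz, hz'⟩ := h1
    have hzP : z ∈ (P : Subgroup G) := by
      rw [show z = ((x : G) * y)⁻¹ * ((y : G) * x) by rw [← hz']; group]
      exact Subgroup.mul_mem _ (Subgroup.inv_mem _ (Subgroup.mul_mem _ x.2 y.2))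
        (Subgroup.mul_mem _ y.2 x.2)
    have hz1 : z = 1 := by
      have hdj : Disjoint (P : Subgroup G) (Cfsg.pPrimeCore p G) := by
        rw [disjoint_iff]
        apply Subgroup.inf_eq_bot_of_coprime
        obtain ⟨k, hk⟩ := IsPGroup.iff_card.1 P.2
        rw [hk]
        exact (((Fact.out : p.Prime).coprime_iff_not_dvd).2 hNK).pow_left k
      exact Subgroup.disjoint_def.1 hdj hzP hz
    rw [hz1, mul_one] at hz'
    exact hz'

end Cfsg.Agent.S4736
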