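import Cfsg.Statements.S4955
import Cfsg.Agent.Lib.BlockGalInt
import Cfsg.Agent.Lib.BlockGalSum
import Cfsg.Agent.Lib.BlockGalAvg
import Cfsg.Agent.Lib.BlockRegular
import Cfsg.Agent.Lib.CharGalois
import Cfsg.Agent.Lib.CharDegree
import Cfsg.Agent.Lib.CharLinear
import Mathlib.GroupTheory.Complement

set_option autoImplicit false
open Cfsg

namespace Cfsg.Agent.S4955

/-- Let X be a finite group with an abelian normal Sylow p-subgroup V (a normal p-subgroup of index prime to p in which any two elements commute), and let G be a complement to V in X. Then for every v in V, writing C for the centralizer of v in G, the number k(X) of conjugacy classes of X satisfies k(X) ≤ (order of C)·(order of V) − ((order of G) − k(G)); the statement is written with the subtracted term moved to the left. In particular, if some v in V is centralized by no nonidentity element of G, then k(X) is at most the order of V. -/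
theorem result {X : Type*} [Group X] [Finite X] (p : ℕ) [Fact p.Prime] (V : Subgroup X) [V.Normal] (hVp : IsPGroup p V) (hidx : ¬ p ∣ V.index) (hab : ∀ a ∈ V, ∀ b ∈ V, a * b = b * a) (G : Subgroup X) (hGV : Subgroup.IsComplement' V G) (v : X) (hv : v ∈ V) : Nat.card (ConjClasses X) + Nat.card G ≤ Nat.card ↥(G ⊓ Subgroup.centralizer ({v} : Set X)) * Nat.card V + Nat.card (ConjClasses G) := by
  classical
  haveI := Fintype.ofFinite X
  haveI : Fintype V := Fintype.ofFinite _
  haveI : Fintype G := Fintype.ofFinite _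
  have hp : p.Prime := Fact.out
  obtain ⟨M, hM⟩ := CfsgLib.Block.exists_isPModular hp
  obtain ⟨a, ha⟩ := IsPGroup.iff_card.1 hVp
  have hv1 : v ^ p ^ a = 1 := by
    rw [← ha]
    exact congrArg Subtype.val (pow_card_eq_one' (x := (⟨v, hv⟩ : V)))
  obtain ⟨ζ, hζ⟩ : ∃ ζ : ℂ, IsPrimitiveRoot ζ (p ^ a) :=
    ⟨_, Complex.isPrimitiveRoot_exp _ (pow_pos hp.pos a).ne'⟩
  let S := Finset.univ.filter (fun χ : IrrCharacter X => ¬ ∀ w ∈ V, (χ : X → ℂ) w = (χ : X → ℂ) 1)
  -- degrees are prime to `p`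
  have hdeg : ∀ χ : IrrCharacter X, ¬ p ∣ charDegree (χ : X → ℂ) := by
    intro χ
    have hch := CfsgLib.Char.isCharacter_restrict χ.2.isCharacter' V
    obtain ⟨ξ, hξ, hξ0⟩ := CfsgLib.Char.exists_constituent hch (fun e => CfsgLib.Block.irr_one_ne_zero χ (congrFun e 1))
    obtain ⟨k, hk, hki⟩ := CfsgLib.Char.degree_ratio χ.2 hξ hξ0
    rw [CfsgLib.Char.irr_degree_one_of_comm (fun x y => Subtype.ext (hab x x.2 y y.2)) hξ, mul_one,
      ← CfsgLib.Block.charDegree_cast χ.2.isCharacter', Nat.cast_inj] at hk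
    rw [hk]
    exact fun h => hidx (h.trans hki)
  -- the values at `v` as sums of roots of unity
  have hroots : ∀ χ : IrrCharacter X, ∃ (n : ℕ) (j : Fin n → ℕ), charDegree (χ : X → ℂ) = n ∧
      ∀ k : ℕ, (χ : X → ℂ) (v ^ k) = ∑ i, (ζ ^ j i) ^ k := by
    intro χ
    obtain ⟨n, ρ, -, hρ⟩ := id χ.2
    obtain ⟨b, μ, -, hμ, hsum⟩ := CfsgLib.Char.exists_rep_eigenbasis (ρ := ρ) v
    have hμ' : ∀ i, ∃ j, ζ ^ j = μ i := fun i => by
      obtain ⟨j, -, hj⟩ := hζ.eq_pow_of_pow_eq_one (by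
        obtain ⟨c, hc⟩ := orderOf_dvd_of_pow_eq_one hv1
        rw [hc, pow_mul, hμ, one_pow] : μ i ^ p ^ a = 1)
      exact ⟨j, hj⟩
    choose j hj using hμ'
    refine ⟨_, j, ?_, fun k => ?_⟩
    · have h : (charDegree (χ : X → ℂ) : ℂ) = (Module.finrank ℂ (Fin n → ℂ) : ℂ) := by
        rw [CfsgLib.Block.charDegree_cast χ.2.isCharacter', ← hρ, Representation.char_one]
      exact_mod_cast h
    · rw [← hρ, hsum k]
      exact Finset.sum_congr rfl fun i _ => by rw [hj i]
  have hne : ∀ χ : IrrCharacter X, (χ : X → ℂ) v ≠ 0 := by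
    intro χ h0
    obtain ⟨n, j, hn, hsum⟩ := hroots χ
    have h := hsum 1
    rw [pow_one, h0] at h
    have hz : ∀ i, ζ ^ j i ∈ CfsgLib.Block.locRing hM := fun i =>
      CfsgLib.Block.isIntegral_mem hM ((hζ.isIntegral (pow_pos hp.pos a)).pow _)
    have e : (0 : CfsgLib.Block.locRing hM) = ∑ i, (⟨ζ ^ j i, hz i⟩ : CfsgLib.Block.locRing hM) := by
      apply Subtype.ext
      push_cast
      simp only [pow_one] at h
      exact h
    have e' := congrArg (CfsgLib.Block.res hM) e
    rw [map_zero, map_sum] at e'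
    have hone : ∀ i, CfsgLib.Block.res hM ⟨ζ ^ j i, hz i⟩ = 1 := fun i =>
      CfsgLib.Block.res_eq_one_of_pow_prime_pow hM (n := a) (Subtype.ext (by
        push_cast; rw [← pow_mul, mul_comm, pow_mul, hζ.pow_eq_one, one_pow]))
    simp only [hone, Finset.sum_const, Finset.card_univ, Fintype.card_fin, nsmul_eq_mul, mul_one] at e'
    haveI := CfsgLib.Block.charP_resField hM
    exact hdeg χ (hn ▸ (CharP.cast_eq_zero_iff (CfsgLib.Block.ResField M) p n).1 e'.symm)
  -- the product over the characters non-trivial on `V`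
  let F : ℕ → ℂ := fun k => ∏ χ ∈ S, (χ : X → ℂ) (v ^ k) * (starRingEnd ℂ) ((χ : X → ℂ) (v ^ k))
  have hGV' : CfsgLib.Block.GalVal p ζ F := by
    refine CfsgLib.Block.galVal_prod S _ fun χ _ => ?_
    obtain ⟨n, j, -, hsum⟩ := hroots χ
    have h1 : CfsgLib.Block.GalVal p ζ fun k => (χ : X → ℂ) (v ^ k) :=
      (CfsgLib.Block.galVal_sum Finset.univ (fun (i : Fin n) k => (ζ ^ j i) ^ k) fun i _ => CfsgLib.Block.galVal_root _).congr
        fun k _ => hsum k
    exact h1.mul (h1.conj hp hζ.pow_eq_one)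
  have hconst : ∀ k, ¬ p ∣ k → F k = F 1 := by
    intro k hk
    have hpa : p ^ a ∣ Nat.card X := ha ▸ Subgroup.card_subgroup_dvd_card V
    obtain ⟨k', hk', hkk⟩ := CfsgLib.Char.exists_coprime_congr Nat.card_pos hpa
      (((hp.coprime_iff_not_dvd).2 hk).symm.pow_right a)
    have hvk : v ^ k = v ^ k' := pow_eq_pow_iff_modEq.2 (hkk.symm.of_dvd (orderOf_dvd_of_pow_eq_one hv1))
    let tw : IrrCharacter X → IrrCharacter X := fun χ => ⟨_, CfsgLib.Char.powTwist_irr hk' χ.2⟩
    have htw : Function.Injective tw := by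
      intro χ ψ h
      refine Subtype.ext (funext fun g => ?_)
      obtain ⟨g', rfl⟩ := (powCoprime hk'.symm).surjective g
      exact congrFun (congrArg Subtype.val h) g'
    have hmem : ∀ χ ∈ S, tw χ ∈ S := by
      intro χ hχ
      refine Finset.mem_filter.2 ⟨Finset.mem_univ _, fun hall => (Finset.mem_filter.1 hχ).2 fun w hw => ?_⟩
      have hcV : (Nat.card V).Coprime k' := (hk'.symm).coprime_dvd_left (Subgroup.card_subgroup_dvd_card V)
      obtain ⟨w', hw'⟩ := (powCoprime hcV).surjective ⟨w, hw⟩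
      have h := hall (w' : X) w'.2
      have e : ((w' : X)) ^ k' = w := congrArg Subtype.val hw'
      simpa [tw, CfsgLib.Char.powTwist, e] using h
    have himg : S.image tw = S := Finset.eq_of_subset_of_card_le
      (fun χ hχ => by obtain ⟨ψ, hψ, rfl⟩ := Finset.mem_image.1 hχ; exact hmem ψ hψ)
      (by rw [Finset.card_image_of_injective _ htw])
    show ∏ χ ∈ S, _ = ∏ χ ∈ S, _
    conv_rhs => rw [← himg, Finset.prod_image fun a _ b _ h => htw h]
    refine Finset.prod_congr rfl fun χ _ => ?_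
    rw [hvk, pow_one]
    rfl
  obtain ⟨z, hz⟩ := CfsgLib.Block.GalVal.exists_int hp hζ.pow_eq_one hGV' hconst
  have hprod : (1 : ℝ) ≤ ∏ χ ∈ S, Complex.normSq ((χ : X → ℂ) v) := by
    have h : ((∏ χ ∈ S, Complex.normSq ((χ : X → ℂ) v) : ℝ) : ℂ) = ((z : ℝ) : ℂ) := by
      rw [Complex.ofReal_intCast, ← hz]
      push_cast
      exact Finset.prod_congr rfl fun χ _ => by rw [pow_one, Complex.mul_conj]
    have h' := Complex.ofReal_injective h
    have hpos : (0 : ℝ) < (z : ℝ) := h' ▸ Finset.prod_pos fun χ _ => Complex.normSq_pos.2 (hne χ)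
    rw [h']
    exact_mod_cast (Int.cast_pos.1 hpos : 0 < z)
  have hS := CfsgLib.Block.card_le_sum_of_prod_ge_one S _ (fun χ _ => Complex.normSq_pos.2 (hne χ)) hprod
  -- the centralizer of `v`
  have hcent : Nat.card (Subgroup.centralizer ({v} : Set X)) = Nat.card ↥(G ⊓ Subgroup.centralizer ({v} : Set X)) * Nat.card V := by
    rw [mul_comm, ← Nat.card_prod]
    refine (Nat.card_eq_of_bijective (fun wg : V × ↥(G ⊓ Subgroup.centralizer ({v} : Set X)) =>
      (⟨(wg.1 : X) * (wg.2 : X), ?_⟩ : Subgroup.centralizer ({v} : Set X))) ⟨fun a b h => ?_, fun y => ?_⟩).symm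
    · refine Subgroup.mul_mem _ (Subgroup.mem_centralizer_singleton_iff.2 (hab _ wg.1.2 v hv)) wg.2.2.2
    · have h' := congrArg Subtype.val h
      have := hGV.injective (a₁ := (a.1, ⟨(a.2 : X), a.2.2.1⟩)) (a₂ := (b.1, ⟨(b.2 : X), b.2.2.1⟩)) h'
      simp only [Prod.mk.injEq, Subtype.mk.injEq] at this
      exact Prod.ext this.1 (Subtype.ext this.2)
    · obtain ⟨⟨w, g⟩, hwg⟩ := hGV.surjective (y : X)
      have hgC : (g : X) ∈ Subgroup.centralizer ({v} : Set X) := by
        have h : (g : X) = (w : X)⁻¹ * (y : X) := by rw [← hwg]; simp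
        rw [h]
        exact Subgroup.mul_mem _ (Subgroup.inv_mem _ (Subgroup.mem_centralizer_singleton_iff.2 (hab _ w.2 v hv))) y.2
      exact ⟨(w, ⟨g, g.2, hgC⟩), Subtype.ext hwg⟩
  have htot : ∑ χ : IrrCharacter X, Complex.normSq ((χ : X → ℂ) v) = (Nat.card (Subgroup.centralizer ({v} : Set X)) : ℝ) := by
    apply Complex.ofReal_injective
    push_cast
    rw [← CfsgLib.Char.column_orth_conj (IsConj.refl v)]
    exact Finset.sum_congr rfl fun χ _ => (Complex.mul_conj _).symm
  -- the characters trivial on `V`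
  obtain ⟨f, hfs, hfk⟩ : ∃ f : X →* G, Function.Surjective f ∧ f.ker = V := by
    set e₀ := (QuotientGroup.mk' V).comp G.subtype
    have hbij : Function.Bijective e₀ := by
      refine ⟨(injective_iff_map_eq_one e₀).2 fun x hx => ?_, fun y => ?_⟩
      · have : (x : X) ∈ V ⊓ G := ⟨(QuotientGroup.eq_one_iff _).1 hx, x.2⟩
        rw [disjoint_iff.1 hGV.disjoint, Subgroup.mem_bot] at this
        exact Subtype.ext this
      · obtain ⟨g, rfl⟩ := QuotientGroup.mk'_surjective V y
        obtain ⟨⟨w, b⟩, hwb⟩ := hGV.surjective g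
        refine ⟨b, ?_⟩
        show QuotientGroup.mk' V (b : X) = QuotientGroup.mk' V g
        rw [← hwb, map_mul, show QuotientGroup.mk' V (w : X) = 1 from (QuotientGroup.eq_one_iff _).2 w.2, one_mul]
    let e := MulEquiv.ofBijective e₀ hbij
    refine ⟨e.symm.toMonoidHom.comp (QuotientGroup.mk' V), e.symm.surjective.comp (QuotientGroup.mk'_surjective V), ?_⟩
    rw [MonoidHom.ker_comp_of_injective _ _ e.symm.injective, QuotientGroup.ker_mk']
  let E := CfsgLib.Char.inflateEquiv f hfs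
  have hsum1 : ∑ χ ∈ Finset.univ.filter (fun χ : IrrCharacter X => ∀ w ∈ V, (χ : X → ℂ) w = (χ : X → ℂ) 1),
      Complex.normSq ((χ : X → ℂ) v) = (Nat.card G : ℝ) := by
    apply Complex.ofReal_injective
    push_cast
    rw [← CfsgLib.Char.sum_degree_sq (G := G)]
    refine (Finset.sum_bij (fun ξ _ => (E ξ).1) (fun ξ _ => ?_) (fun a _ b _ h => E.injective (Subtype.ext h))
      (fun χ hχ => ?_) (fun ξ _ => ?_)).symm
    · exact Finset.mem_filter.2 ⟨Finset.mem_univ _, fun w hw => (E ξ).2 w (hfk.symm ▸ hw)⟩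
    · exact ⟨E.symm ⟨χ, fun k hk => (Finset.mem_filter.1 hχ).2 k (hfk ▸ hk)⟩, Finset.mem_univ _, by rw [Equiv.apply_symm_apply]⟩
    · have h : ((E ξ).1 : X → ℂ) v = (ξ : G → ℂ) 1 := by
        show (ξ : G → ℂ) (f v) = _
        rw [show f v = 1 from (hfk.symm ▸ hv : v ∈ f.ker)]
      rw [h, ← Complex.mul_conj, CfsgLib.Block.irr_conj_one, pow_two]
  have hcard1 : (Finset.univ.filter (fun χ : IrrCharacter X => ∀ w ∈ V, (χ : X → ℂ) w = (χ : X → ℂ) 1)).card = Nat.card (ConjClasses G) := by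
    rw [← CfsgLib.Char.card_irrCharacter (G := G), Nat.card_eq_fintype_card, ← Finset.card_univ]
    exact (Finset.card_bij (t := Finset.univ.filter (fun χ : IrrCharacter X => ∀ w ∈ V, (χ : X → ℂ) w = (χ : X → ℂ) 1)) (fun ξ _ => (E ξ).1) (fun ξ _ => Finset.mem_filter.2 ⟨Finset.mem_univ _, fun w hw => (E ξ).2 w (hfk.symm ▸ hw)⟩)
      (fun a _ b _ h => E.injective (Subtype.ext h))
      (fun χ hχ => ⟨E.symm ⟨χ, fun k hk => (Finset.mem_filter.1 hχ).2 k (hfk ▸ hk)⟩, Finset.mem_univ _, by rw [Equiv.apply_symm_apply]⟩)).symm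
  have hk := Finset.sum_filter_add_sum_filter_not (Finset.univ : Finset (IrrCharacter X))
    (fun χ : IrrCharacter X => ∀ w ∈ V, (χ : X → ℂ) w = (χ : X → ℂ) 1) (fun χ => Complex.normSq ((χ : X → ℂ) v))
  have hn := Finset.card_filter_add_card_filter_not (s := (Finset.univ : Finset (IrrCharacter X)))
    (fun χ : IrrCharacter X => ∀ w ∈ V, (χ : X → ℂ) w = (χ : X → ℂ) 1)
  rw [hsum1, htot, hcent] at hk
  rw [hcard1, Finset.card_univ, ← Nat.card_eq_fintype_card, CfsgLib.Char.card_irrCharacter] at hn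
  have : ((Nat.card (ConjClasses X) + Nat.card G : ℕ) : ℝ) ≤
      ((Nat.card ↥(G ⊓ Subgroup.centralizer ({v} : Set X)) * Nat.card V + Nat.card (ConjClasses G) : ℕ) : ℝ) := by
    rw [← hn]
    push_cast
    push_cast at hk
    linarith
  exact_mod_cast this

end Cfsg.Agent.S4955
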