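import Cfsg.Statements.S4956
import Mathlib

set_option autoImplicit false
open Cfsg

namespace Cfsg.Agent.S4956

/-- Let X be a finite group, V an abelian normal subgroup of X (any two elements of V commute) and G a complement to V in X whose order is coprime to that of V. Let S be a set of representatives of the orbits of G on V under conjugation: S lies in V and every element of V is conjugate under G to exactly one member of S. Then the number of conjugacy classes of X equals the sum, over s in S, of the number of conjugacy classes of the centralizer of s in G. -/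
theorem result {X : Type*} [Group X] [Finite X] (V : Subgroup X) [V.Normal] (hab : ∀ a ∈ V, ∀ b ∈ V, a * b = b * a) (G : Subgroup X) (hGV : Subgroup.IsComplement' V G) (hcop : (Nat.card V).Coprime (Nat.card G)) (S : Finset X) (hSV : ∀ s ∈ S, s ∈ V) (hrep : ∀ v ∈ V, ∃! s, s ∈ S ∧ ∃ g ∈ G, g * v * g⁻¹ = s) : Nat.card (ConjClasses X) = ∑ s ∈ S, Nat.card (ConjClasses ↥(G ⊓ Subgroup.centralizer ({s} : Set X))) := by
  classical
  haveI := Fintype.ofFinite X
  letI : CommGroup ↥V := { (inferInstance : Group ↥V) with mul_comm := fun a b => Subtype.ext (hab a a.2 b b.2) }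
  let cn : X → ↥V →* ↥V := fun g => (MulAut.conjNormal g : MulAut ↥V).toMonoidHom
  have hcn : ∀ (g : X) (v : ↥V), ((cn g v : ↥V) : X) = g * v * g⁻¹ := fun g v => MulAut.conjNormal_apply g v
  have hcomp : ∀ (g k : X) (v : ↥V), cn g (cn k v) = cn (g * k) v := fun g k v => Subtype.ext (by
    rw [hcn, hcn, hcn]; group)
  -- the fibre over a commuting pair of the complement
  have key : ∀ g h : ↥G, (g : X) * h = h * g →
      Nat.card {ab : ↥V × ↥V // Commute ((ab.1 : X) * g) ((ab.2 : X) * h)} =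
        Nat.card ↥V * Nat.card {v : ↥V // cn (g : X) v = v ∧ cn (h : X) v = v} := by
    intro g h hgh
    let F : ↥V × ↥V →* ↥V :=
      { toFun := fun ab => ab.1 * cn (g : X) ab.2 * (cn (h : X) ab.1)⁻¹ * ab.2⁻¹
        map_one' := by simp
        map_mul' := fun s t => by
          simp only [Prod.fst_mul, Prod.snd_mul, map_mul, mul_inv_rev]
          simp only [mul_comm, mul_left_comm, mul_assoc] }
    have hker : ∀ ab : ↥V × ↥V, Commute ((ab.1 : X) * g) ((ab.2 : X) * h) ↔ ab ∈ F.ker := by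
      intro ab
      rw [MonoidHom.mem_ker]
      show _ ↔ ab.1 * cn (g : X) ab.2 * (cn (h : X) ab.1)⁻¹ * ab.2⁻¹ = 1
      rw [mul_inv_eq_one, mul_inv_eq_iff_eq_mul, Subtype.ext_iff]
      simp only [Subgroup.coe_mul, hcn, commute_iff_eq]
      constructor
      · intro e
        have e2 := congrArg (fun z => z * ((h : X)⁻¹ * (g : X)⁻¹)) e
        calc (ab.1 : X) * ((g : X) * ab.2 * (g : X)⁻¹)
            = (ab.1 : X) * g * ((ab.2 : X) * h) * ((h : X)⁻¹ * (g : X)⁻¹) := by group
          _ = (ab.2 : X) * h * ((ab.1 : X) * g) * ((h : X)⁻¹ * (g : X)⁻¹) := e2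
          _ = (ab.2 : X) * ((h : X) * ab.1 * ((g : X) * (h : X)⁻¹ * (g : X)⁻¹)) := by group
          _ = (ab.2 : X) * ((h : X) * ab.1 * (h : X)⁻¹) := by
            rw [show (g : X) * (h : X)⁻¹ * (g : X)⁻¹ = (h : X)⁻¹ by
              rw [mul_inv_eq_iff_eq_mul, eq_inv_mul_iff_mul_eq, ← mul_assoc, ← hgh]; group]
      · intro e
        calc (ab.1 : X) * g * ((ab.2 : X) * h)
            = (ab.1 : X) * ((g : X) * ab.2 * (g : X)⁻¹) * ((g : X) * h) := by group
          _ = (ab.2 : X) * ((h : X) * ab.1 * (h : X)⁻¹) * ((h : X) * g) := by rw [e, hgh]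
          _ = (ab.2 : X) * h * ((ab.1 : X) * g) := by group
    rw [Nat.card_congr (Equiv.subtypeEquivRight hker)]
    change Nat.card ↥F.ker = _
    let C : Subgroup ↥V :=
      { carrier := {v | cn (g : X) v = v ∧ cn (h : X) v = v}
        one_mem' := ⟨map_one _, map_one _⟩
        mul_mem' := fun {a b} ha hb => ⟨by rw [map_mul, ha.1, hb.1], by rw [map_mul, ha.2, hb.2]⟩
        inv_mem' := fun {a} ha => ⟨by rw [map_inv, ha.1], by rw [map_inv, ha.2]⟩ }
    show _ = Nat.card ↥V * Nat.card ↥C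
    set A : Subgroup X := Subgroup.closure {(g : X), (h : X)} with hA
    have hgA : (g : X) ∈ A := Subgroup.subset_closure (by simp)
    have hhA : (h : X) ∈ A := Subgroup.subset_closure (by simp)
    have hAG : A ≤ G := by
      rw [hA, Subgroup.closure_le]
      rintro z (rfl | rfl)
      · exact g.2
      · exact h.2
    let N : ↥V → ↥V := fun v => ∏ a : ↥A, cn (a : X) v
    have hNmul : ∀ a b : ↥V, N (a * b) = N a * N b := fun a b => by
      simp only [N, map_mul, Finset.prod_mul_distrib]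
    let Nh : ↥V →* ↥V := MonoidHom.mk' N hNmul
    have hNinv : ∀ k ∈ A, ∀ v : ↥V, N (cn k v) = N v ∧ cn k (N v) = N v := by
      intro k hk v
      constructor
      · simp only [N, hcomp]
        exact Fintype.prod_equiv (Equiv.mulRight (⟨k, hk⟩ : ↥A)) _ _ (fun a => rfl)
      · simp only [N, map_prod, hcomp]
        exact Fintype.prod_equiv (Equiv.mulLeft (⟨k, hk⟩ : ↥A)) _ _ (fun a => rfl)
    have himker : F.range ≤ Nh.ker := by
      rintro w ⟨ab, rfl⟩
      rw [MonoidHom.mem_ker]
      show Nh (ab.1 * cn (g : X) ab.2 * (cn (h : X) ab.1)⁻¹ * ab.2⁻¹) = 1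
      have e1 : Nh (cn (g : X) ab.2) = Nh ab.2 := (hNinv _ hgA _).1
      have e2 : Nh (cn (h : X) ab.1) = Nh ab.1 := (hNinv _ hhA _).1
      rw [map_mul, map_mul, map_mul, map_inv, map_inv, e1, e2]
      simp [mul_comm, mul_left_comm]
    have hcV : (Nat.card ↥V).Coprime (Nat.card ↥A) := hcop.coprime_dvd_right (Subgroup.card_dvd_of_le hAG)
    have hmove : ∀ k ∈ A, ∀ v : ↥V, cn k v * v⁻¹ ∈ F.range := by
      intro k hk
      induction hk using Subgroup.closure_induction with
      | mem z hz =>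
        intro v
        rcases hz with rfl | rfl
        · exact ⟨(1, v), by show 1 * cn (g : X) v * (cn (h : X) 1)⁻¹ * v⁻¹ = _; simp⟩
        · exact ⟨(v⁻¹, 1), by
            show v⁻¹ * cn (g : X) 1 * (cn (h : X) v⁻¹)⁻¹ * 1⁻¹ = _
            simp [mul_comm]⟩
      | one =>
        intro v
        have h1 : cn 1 v = v := Subtype.ext (by rw [hcn]; simp)
        rw [h1, mul_inv_cancel]; exact one_mem _
      | mul a b _ _ iha ihb =>
        intro v
        have h1 : cn (a * b) v * v⁻¹ = (cn a (cn b v) * (cn b v)⁻¹) * (cn b v * v⁻¹) := by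
          rw [hcomp]; simp [mul_assoc]
        rw [h1]; exact mul_mem (iha _) (ihb _)
      | inv a _ iha =>
        intro v
        have h1 : cn a⁻¹ v * v⁻¹ = (cn a (cn a⁻¹ v) * (cn a⁻¹ v)⁻¹)⁻¹ := by
          rw [hcomp, mul_inv_cancel, mul_inv_rev, inv_inv,
            show cn 1 v = v from Subtype.ext (by rw [hcn]; simp)]
        rw [h1]; exact inv_mem (iha _)
    have hcompl : Subgroup.IsComplement' F.range C := by
      refine Subgroup.isComplement'_of_disjoint_and_mul_eq_univ ?_ ?_
      · rw [Subgroup.disjoint_def]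
        intro c hc hcC
        have h1 : N c = 1 := MonoidHom.mem_ker.1 (himker hc)
        have h2 : ∀ k ∈ A, cn k c = c := by
          intro k hk
          induction hk using Subgroup.closure_induction with
          | mem z hz => rcases hz with rfl | rfl; exacts [hcC.1, hcC.2]
          | one => exact Subtype.ext (by rw [hcn]; simp)
          | mul a b _ _ iha ihb => rw [← hcomp, ihb, iha]
          | inv a _ iha =>
            conv_lhs => rw [← iha]
            rw [hcomp, inv_mul_cancel]; exact Subtype.ext (by rw [hcn]; simp)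
        simp only [N] at h1
        rw [Finset.prod_congr rfl (fun (a : ↥A) _ => h2 (a : X) a.2), Finset.prod_const, Finset.card_univ,
          ← Nat.card_eq_fintype_card] at h1
        exact (powCoprime hcV).injective (h1.trans (one_pow _).symm)
      · refine Set.eq_univ_of_forall fun w => ?_
        obtain ⟨v, rfl⟩ := (powCoprime hcV).surjective w
        have hN : N v * (v ^ Nat.card ↥A)⁻¹ ∈ F.range := by
          have h3 : N v * (v ^ Nat.card ↥A)⁻¹ = ∏ a : ↥A, (cn (a : X) v * v⁻¹) := by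
            rw [Finset.prod_mul_distrib, Finset.prod_const, Finset.card_univ, inv_pow, ← Nat.card_eq_fintype_card]
          rw [h3]
          exact prod_mem fun a _ => hmove (a : X) a.2 v
        refine ⟨_, inv_mem hN, N v, ⟨(hNinv _ hgA v).2, (hNinv _ hhA v).2⟩, ?_⟩
        show (N v * (v ^ Nat.card ↥A)⁻¹)⁻¹ * N v = v ^ Nat.card ↥A
        rw [mul_inv_rev, inv_inv, inv_mul_cancel_right]
    have h1 := hcompl.card_mul
    have h2 := F.ker.card_mul_index
    rw [Subgroup.index_ker, Nat.card_prod] at h2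
    refine Nat.eq_of_mul_eq_mul_right (Nat.card_pos (α := ↥F.range)) ?_
    rw [h2, ← h1]; ring
  -- decompose the commuting pairs of `X`
  let e : ↥V × ↥G ≃ X := Equiv.ofBijective (fun p => (p.1 : X) * p.2) hGV
  have hproj : ∀ g g' : ↥G, ∀ a a' : ↥V, (a : X) * g = (a' : X) * g' → g = g' := fun g g' a a' hh =>
    (Prod.ext_iff.1 (hGV.1 (a₁ := (a, g)) (a₂ := (a', g')) hh)).2
  have hcomG : ∀ (g h : ↥G) (a b : ↥V), Commute ((a : X) * g) ((b : X) * h) → (g : X) * h = h * g := by
    intro g h a b hh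
    have e1 : (a : X) * g * ((b : X) * h) = ((a * cn (g : X) b : ↥V) : X) * ((g * h : ↥G) : X) := by
      simp only [Subgroup.coe_mul, hcn]; group
    have e2 : (b : X) * h * ((a : X) * g) = ((b * cn (h : X) a : ↥V) : X) * ((h * g : ↥G) : X) := by
      simp only [Subgroup.coe_mul, hcn]; group
    exact congrArg Subtype.val (hproj (g * h) (h * g) _ _ (e1.symm.trans (hh.eq.trans e2)))
  have hpairs : Nat.card {p : X × X // Commute p.1 p.2} =
      ∑ g : ↥G, ∑ h : ↥G, Nat.card {ab : ↥V × ↥V // Commute ((ab.1 : X) * g) ((ab.2 : X) * h)} := by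
    rw [← Fintype.sum_prod_type', ← Nat.card_sigma]
    refine Nat.card_eq_of_bijective (fun p => (⟨((e.symm p.1.1).2, (e.symm p.1.2).2),
      ⟨((e.symm p.1.1).1, (e.symm p.1.2).1), ?_⟩⟩ : Σ gh : ↥G × ↥G, {ab : ↥V × ↥V // Commute ((ab.1 : X) * gh.1) ((ab.2 : X) * gh.2)})) ⟨?_, ?_⟩
    · show Commute (e (e.symm p.1.1)) (e (e.symm p.1.2))
      rw [e.apply_symm_apply, e.apply_symm_apply]; exact p.2
    · intro p p' hh
      have := congrArg (fun s : Σ gh : ↥G × ↥G, {ab : ↥V × ↥V // Commute ((ab.1 : X) * gh.1) ((ab.2 : X) * gh.2)} =>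
        ((e (s.2.1.1, s.1.1)), (e (s.2.1.2, s.1.2)))) hh
      simp only [Prod.mk.eta, e.apply_symm_apply] at this
      exact Subtype.ext this
    · rintro ⟨⟨g, h⟩, ⟨a, b⟩, hc⟩
      refine ⟨⟨(e (a, g), e (b, h)), hc⟩, ?_⟩
      have h1 := e.symm_apply_apply (a, g)
      have h2 := e.symm_apply_apply (b, h)
      apply Sigma.subtype_ext <;> simp [h1, h2]
  -- the stabilisers
  let St : X → Subgroup X := fun v => G ⊓ Subgroup.centralizer ({v} : Set X)
  have hfix : ∀ (g : ↥G) (v : ↥V), cn (g : X) v = v ↔ (g : X) ∈ Subgroup.centralizer ({(v : X)} : Set X) := by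
    intro g v
    rw [Subgroup.mem_centralizer_singleton_iff, Subtype.ext_iff, hcn, mul_inv_eq_iff_eq_mul]
  have hsum : ∀ g h : ↥G, Nat.card {ab : ↥V × ↥V // Commute ((ab.1 : X) * g) ((ab.2 : X) * h)} =
      Nat.card ↥V * ∑ v : ↥V, (if (g : X) * h = h * g ∧ (g : X) ∈ St v ∧ (h : X) ∈ St v then 1 else 0) := by
    intro g h
    by_cases hgh : (g : X) * h = h * g
    · rw [key g h hgh, Finset.sum_boole, Nat.cast_id, Nat.card_eq_fintype_card (α := {v : ↥V // _}), Fintype.card_subtype]
      congr 2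
      refine Finset.filter_congr fun v _ => ?_
      simp only [St, Subgroup.mem_inf, g.2, h.2, true_and, hgh, hfix]
    · have hempty : IsEmpty {ab : ↥V × ↥V // Commute ((ab.1 : X) * g) ((ab.2 : X) * h)} :=
        ⟨fun ab => hgh (hcomG g h _ _ ab.2)⟩
      rw [Nat.card_of_isEmpty, Finset.sum_eq_zero (fun v _ => if_neg fun hh => hgh hh.1), mul_zero]
  have hloc : ∀ v : ↥V, (∑ g : ↥G, ∑ h : ↥G, (if (g : X) * h = h * g ∧ (g : X) ∈ St v ∧ (h : X) ∈ St v then 1 else 0)) =
      Nat.card (ConjClasses ↥(St v)) * Nat.card ↥(St v) := by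
    intro v
    rw [← card_comm_eq_card_conjClasses_mul_card, ← Fintype.sum_prod_type', Finset.sum_boole, Nat.cast_id,
      ← Fintype.card_subtype, ← Nat.card_eq_fintype_card]
    refine Nat.card_eq_of_bijective (fun gh => (⟨(⟨gh.1.1, gh.2.2.1⟩, ⟨gh.1.2, gh.2.2.2⟩), Subtype.ext gh.2.1⟩ :
      {p : ↥(St v) × ↥(St v) // Commute p.1 p.2})) ⟨?_, ?_⟩
    · intro p p' hh
      have h1 := congrArg (fun s : {p : ↥(St v) × ↥(St v) // Commute p.1 p.2} => ((s.1.1 : X), (s.1.2 : X))) hh
      simp only [Prod.mk.injEq] at h1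
      exact Subtype.ext (Prod.ext (Subtype.ext h1.1) (Subtype.ext h1.2))
    · rintro ⟨⟨a, b⟩, hc⟩
      exact ⟨⟨(⟨a, a.2.1⟩, ⟨b, b.2.1⟩), congrArg Subtype.val hc.eq, a.2, b.2⟩, rfl⟩
  have hX := card_comm_eq_card_conjClasses_mul_card X
  rw [hpairs] at hX
  simp only [hsum, ← Finset.mul_sum] at hX
  rw [Finset.sum_congr rfl fun g _ => Finset.sum_comm, Finset.sum_comm, Finset.sum_congr rfl fun v _ => hloc v,
    ← hGV.card_mul] at hX
  -- group by orbits
  choose rep hrep' hrepu using hrep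
  let r : ↥V → X := fun v => rep v v.2
  have hr : ∀ v : ↥V, r v ∈ S := fun v => (hrep' v v.2).1
  letI : MulAction ↥G ↥V := MulAction.compHom ↥V ((MulAut.conjNormal : X →* MulAut ↥V).comp G.subtype)
  have hsmul : ∀ (g : ↥G) (v : ↥V), ((g • v : ↥V) : X) = (g : X) * v * (g : X)⁻¹ := fun g v => MulAut.conjNormal_apply _ _
  have hfib : ∀ s ∈ S, ∑ v ∈ Finset.univ.filter (fun v : ↥V => r v = s),
      Nat.card (ConjClasses ↥(St v)) * Nat.card ↥(St v) = Nat.card ↥G * Nat.card (ConjClasses ↥(St s)) := by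
    intro s hs
    let s' : ↥V := ⟨s, hSV s hs⟩
    have hiff : ∀ v : ↥V, r v = s ↔ v ∈ MulAction.orbit ↥G s' := by
      intro v
      constructor
      · intro h
        obtain ⟨g, hg, hgv⟩ := (hrep' v v.2).2
        refine ⟨⟨g⁻¹, G.inv_mem hg⟩, Subtype.ext ?_⟩
        show ((⟨g⁻¹, G.inv_mem hg⟩ : ↥G) • s' : ↥V).1 = _
        rw [hsmul]
        change g⁻¹ * s * g⁻¹⁻¹ = v
        rw [← h]
        change g⁻¹ * rep v v.2 * g⁻¹⁻¹ = v
        rw [← hgv]; group
      · rintro ⟨g, rfl⟩
        refine (hrepu _ (g • s').2 s ⟨hs, (g : X)⁻¹, G.inv_mem g.2, ?_⟩).symm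
        rw [hsmul]; simp [s', mul_assoc]
    have heq : ∀ v ∈ Finset.univ.filter (fun v : ↥V => r v = s),
        Nat.card (ConjClasses ↥(St v)) * Nat.card ↥(St v) = Nat.card (ConjClasses ↥(St s)) * Nat.card ↥(St s) := by
      intro v hv
      obtain ⟨g, rfl⟩ := (hiff v).1 (Finset.mem_filter.1 hv).2
      have hmap : (St s).map (MulAut.conj (g : X)).toMonoidHom = St ((g • s' : ↥V) : X) := by
        ext z
        rw [Subgroup.mem_map_equiv]
        simp only [St, Subgroup.mem_inf, Subgroup.mem_centralizer_singleton_iff, MulAut.conj_symm_apply, hsmul]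
        refine and_congr ?_ ?_
        · rw [Subgroup.mul_mem_cancel_right _ g.2, Subgroup.mul_mem_cancel_left _ (G.inv_mem g.2)]
        · change (g : X)⁻¹ * z * g * s = s * ((g : X)⁻¹ * z * g) ↔ z * (g * s * (g : X)⁻¹) = g * s * (g : X)⁻¹ * z
          constructor
          · intro e
            calc z * (g * s * (g : X)⁻¹) = g * ((g : X)⁻¹ * z * g * s) * (g : X)⁻¹ := by group
              _ = g * (s * ((g : X)⁻¹ * z * g)) * (g : X)⁻¹ := by rw [e]
              _ = g * s * (g : X)⁻¹ * z := by group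
          · intro e
            calc (g : X)⁻¹ * z * g * s = (g : X)⁻¹ * (z * (g * s * (g : X)⁻¹)) * g := by group
              _ = (g : X)⁻¹ * (g * s * (g : X)⁻¹ * z) * g := by rw [e]
              _ = s * ((g : X)⁻¹ * z * g) := by group
      have eqv : ↥(St s) ≃* ↥(St ((g • s' : ↥V) : X)) :=
        ((MulAut.conj (g : X)).subgroupMap (St s)).trans (MulEquiv.subgroupCongr hmap)
      rw [← card_comm_eq_card_conjClasses_mul_card, ← card_comm_eq_card_conjClasses_mul_card]
      refine (Nat.card_congr ((eqv.toEquiv.prodCongr eqv.toEquiv).subtypeEquiv fun p => ?_)).symm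
      exact ⟨fun e => e.map eqv.toMonoidHom, fun e => by simpa using e.map eqv.symm.toMonoidHom⟩
    rw [Finset.sum_congr rfl heq, Finset.sum_const, smul_eq_mul]
    have horb : (Finset.univ.filter (fun v : ↥V => r v = s)).card * Nat.card ↥(St s) = Nat.card ↥G := by
      rw [← (MulAction.stabilizer ↥G s').index_mul_card]
      congr 1
      · rw [MulAction.index_stabilizer, ← Fintype.card_subtype, ← Nat.card_eq_fintype_card,
          Nat.card_congr (Equiv.subtypeEquivRight hiff)]
        exact Nat.card_coe_set_eq _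
      · refine Nat.card_congr ⟨fun z => ⟨⟨z, z.2.1⟩, ?_⟩, fun z => ⟨(z.1 : X), z.1.2, ?_⟩, fun z => rfl, fun z => rfl⟩
        · exact (hfix ⟨z, z.2.1⟩ s').2 z.2.2
        · exact (hfix z.1 s').1 z.2
    rw [← horb]; ring
  rw [← Finset.sum_fiberwise_of_maps_to (t := S) (g := r) (fun v _ => hr v), Finset.sum_congr rfl hfib,
    ← Finset.mul_sum] at hX
  have hV0 : 0 < Nat.card ↥V * Nat.card ↥G := Nat.mul_pos Nat.card_pos Nat.card_pos
  refine (Nat.eq_of_mul_eq_mul_left hV0 ?_)
  rw [mul_assoc, mul_assoc, hX]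
  ring

end Cfsg.Agent.S4956
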