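import Cfsg.Statements.S4964
import Cfsg.Agent.Lib.BlockQuotient
import Cfsg.Agent.Lib.CoreCoprime2
import Cfsg.Agent.Lib.CorePGroup

set_option autoImplicit false
open Cfsg
open CfsgLib.Block CfsgLib.Char
open scoped Classical


namespace Cfsg.Agent.S4964

/-- Let D be a normal p-subgroup of the finite group G, let D′ be its commutator subgroup (normal in G), and fix a maximal ideal M of the algebraic integers containing p. Then (i) two irreducible characters of G ⧸ D′ lie in the same p-block if and only if their inflations to G do, and (ii) every p-block of G contains the inflation of some irreducible character of G ⧸ D′; so inflation induces a bijection between the p-blocks of G ⧸ D′ and the p-blocks of G. -/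
theorem result {G : Type*} [Group G] [Finite G] (p : ℕ) [Fact p.Prime] (M : Ideal Cfsg.AlgInt) (hM : Cfsg.IsPModular p M) (D : Subgroup G) [D.Normal] (hD : IsPGroup p D) : (∀ χ ψ : Cfsg.IrrCharacter (G ⧸ ⁅D, D⁆), Cfsg.SameBlock M (χ : G ⧸ ⁅D, D⁆ → ℂ) (ψ : G ⧸ ⁅D, D⁆ → ℂ) ↔ Cfsg.SameBlock M ((χ : G ⧸ ⁅D, D⁆ → ℂ) ∘ QuotientGroup.mk) ((ψ : G ⧸ ⁅D, D⁆ → ℂ) ∘ QuotientGroup.mk)) ∧ ∀ B : Set (Cfsg.IrrCharacter G), Cfsg.IsPBlock M B → ∃ χ : Cfsg.IrrCharacter (G ⧸ ⁅D, D⁆), ∃ θ ∈ B, (θ : G → ℂ) = (χ : G ⧸ ⁅D, D⁆ → ℂ) ∘ QuotientGroup.mk := by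
  haveI := Fintype.ofFinite G
  haveI := Fintype.ofFinite (G ⧸ ⁅D, D⁆)
  have hle : ⁅D, D⁆ ≤ D := Subgroup.commutator_le_self D
  have hN : IsPGroup p (⁅D, D⁆ : Subgroup G) := hD.to_le hle
  refine ⟨fun χ ψ => ⟨fun h => sameBlock_inflate _ hM h, fun h => ?_⟩, fun B hB => ?_⟩
  · haveI : (D.map (QuotientGroup.mk' ⁅D, D⁆)).Normal :=
      Subgroup.Normal.map inferInstance _ (QuotientGroup.mk'_surjective _)
    refine sameBlock_of_inflate_pGroup _ hM hN (D.map (QuotientGroup.mk' ⁅D, D⁆)) (hD.map _) ?_ h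
    intro g hg hgR
    suffices hgD : g ∈ Subgroup.centralizer (D : Set G) from
      Subgroup.centralizer_le (fun n hn => hle hn) hgD
    refine CfsgLib.Core.le_centralizer_of_trivial_mod_frattini (A := Subgroup.zpowers g) ?_ ?_ ?_
      (Subgroup.mem_zpowers g)
    · rw [Subgroup.normalizer_eq_top]; exact le_top
    · obtain ⟨i, hi⟩ := (hD.to_subgroup (frattini D)).exists_card_eq
      rw [hi, Nat.card_zpowers]
      exact (((hM.1.coprime_iff_not_dvd).2 hg).symm).pow_right i
    · intro a ha k hk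
      have hmap : (frattini D).map D.subtype ≥ (commutator D).map D.subtype :=
        Subgroup.map_mono (CfsgLib.Core.pgroup_commutator_le_frattini hD)
      refine hmap ?_
      have e : (commutator D).map D.subtype = ⁅D, D⁆ := by
        rw [commutator_def, Subgroup.map_commutator, ← MonoidHom.range_eq_map, Subgroup.range_subtype]
      rw [e, ← QuotientGroup.eq_one_iff, QuotientGroup.mk_mul, QuotientGroup.mk_mul, QuotientGroup.mk_mul,
        QuotientGroup.mk_inv, QuotientGroup.mk_inv]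
      have haR : (QuotientGroup.mk a : G ⧸ ⁅D, D⁆) ∈
          Subgroup.centralizer ((D.map (QuotientGroup.mk' ⁅D, D⁆) : Subgroup _) : Set _) := by
        obtain ⟨i, rfl⟩ := Subgroup.mem_zpowers_iff.1 ha
        rw [QuotientGroup.mk_zpow]
        exact zpow_mem hgR i
      have hc : (QuotientGroup.mk k : G ⧸ ⁅D, D⁆) * QuotientGroup.mk a =
          QuotientGroup.mk a * QuotientGroup.mk k :=
        Subgroup.mem_centralizer_iff.1 haR _ (Subgroup.mem_map_of_mem (QuotientGroup.mk' _) hk)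
      rw [← hc]
      exact (by group : (QuotientGroup.mk k : G ⧸ ⁅D, D⁆) * QuotientGroup.mk a * (QuotientGroup.mk a)⁻¹ *
        (QuotientGroup.mk k)⁻¹ = 1)
  · obtain ⟨C, hC, hsub, -⟩ := exists_quotient_block _ hM hN hB
    obtain ⟨χ, hχ⟩ := isPBlock_nonempty hM hC
    exact ⟨χ, inflate _ χ, hsub χ hχ, rfl⟩

end Cfsg.Agent.S4964
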