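import Cfsg.Statements.S4965
import Mathlib.GroupTheory.GroupAction.CardCommute
import Mathlib.Tactic.Group

set_option autoImplicit false
open Cfsg

namespace Cfsg.Agent.S4965

/-- Let X be a finite group with an abelian normal subgroup V (any two elements of V commute), and let φ be the action of X ⧸ V on V induced by conjugation (well defined because V is abelian; the hypothesis hφ says that the class of x acts as conjugation by x). Then X has at most as many conjugacy classes as the semidirect product of V by X ⧸ V formed with this action: the split extension has the largest class number among extensions with the given action. -/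
theorem result {X : Type*} [Group X] [Finite X] (V : Subgroup X) [V.Normal] (hab : ∀ a ∈ V, ∀ b ∈ V, a * b = b * a) (φ : X ⧸ V →* MulAut ↥V) (hφ : ∀ (x : X) (v : ↥V), ((φ (QuotientGroup.mk x) v : ↥V) : X) = x * v * x⁻¹) : Nat.card (ConjClasses X) ≤ Nat.card (ConjClasses (SemidirectProduct ↥V (X ⧸ V) φ)) := by
  classical
  letI : CommGroup ↥V := { (inferInstance : Group ↥V) with mul_comm := fun a b => Subtype.ext (hab a a.2 b b.2) }
  have hmem : ∀ x : X, x * ((QuotientGroup.mk x : X ⧸ V).out)⁻¹ ∈ V := fun x => by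
    rw [← QuotientGroup.eq_one_iff, QuotientGroup.mk_mul, QuotientGroup.mk_inv, QuotientGroup.out_eq', mul_inv_cancel]
  let vp : X → ↥V := fun x => ⟨_, hmem x⟩
  have hvp : ∀ x : X, x = (vp x : X) * (QuotientGroup.mk x : X ⧸ V).out := fun x => by simp [vp]
  let F : X ⧸ V → X ⧸ V → ↥V × ↥V → ↥V := fun q r ab => ab.1 * φ q ab.2 * (φ r ab.1)⁻¹ * ab.2⁻¹
  have hact : ∀ (q : X ⧸ V) (v : ↥V), ((φ q v : ↥V) : X) = q.out * v * q.out⁻¹ := fun q v => by
    conv_lhs => rw [← QuotientGroup.out_eq' q]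
    exact hφ q.out v
  have hX : ∀ x y : X, Commute x y →
      (F (QuotientGroup.mk x) (QuotientGroup.mk y) (vp x, vp y) : X) =
        (QuotientGroup.mk y : X ⧸ V).out * (QuotientGroup.mk x : X ⧸ V).out *
          ((QuotientGroup.mk x : X ⧸ V).out * (QuotientGroup.mk y : X ⧸ V).out)⁻¹ := by
    intro x y h
    set q : X ⧸ V := QuotientGroup.mk x
    set r : X ⧸ V := QuotientGroup.mk y
    have hcv : vp x * φ q (vp y) * (φ r (vp x))⁻¹ * (vp y)⁻¹ = vp x * φ q (vp y) * ((vp y) * φ r (vp x))⁻¹ := by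
      rw [mul_inv_rev]; exact mul_assoc _ _ _
    simp only [F]
    rw [hcv, mul_comm _ ((vp y) * φ r (vp x))⁻¹]
    have h1 : ((vp x : X) * q.out) * ((vp y : X) * r.out) = ((vp y : X) * r.out) * ((vp x : X) * q.out) := by
      rw [← hvp, ← hvp]; exact h.eq
    set u := (vp x : X) with hu
    set v := (vp y : X) with hv
    simp only [Subgroup.coe_mul, Subgroup.coe_inv, hact, ← hu, ← hv]
    have h2 : u * (q.out * v * q.out⁻¹) = (v * r.out * (u * q.out)) * (r.out⁻¹ * q.out⁻¹) := by
      rw [← h1]; simp [mul_assoc]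
    rw [h2]; simp [mul_assoc]
  have hD : ∀ (q r : X ⧸ V) (a b : ↥V), q * r = r * q → F q r (a, b) = 1 →
      Commute (⟨a, q⟩ : SemidirectProduct ↥V (X ⧸ V) φ) ⟨b, r⟩ := by
    intro q r a b hqr h1
    have h2 : a * φ q b = b * φ r a := by
      simp only [F, mul_inv_eq_one] at h1
      have h3 := mul_inv_eq_iff_eq_mul.1 h1
      rw [h3]
    exact SemidirectProduct.ext h2 hqr
  have hF : ∀ (q r : X ⧸ V) (a b c d : ↥V), F q r (a, b) = F q r (c, d) → F q r (a / c, b / d) = 1 := by
    intro q r a b c d h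
    simp only [F, map_div] at h ⊢
    rw [div_eq_mul_inv, div_eq_mul_inv, div_eq_mul_inv, div_eq_mul_inv]
    calc a * c⁻¹ * (φ q b * (φ q d)⁻¹) * (φ r a * (φ r c)⁻¹)⁻¹ * (b * d⁻¹)⁻¹
        = (a * φ q b * (φ r a)⁻¹ * b⁻¹) * (c * φ q d * (φ r c)⁻¹ * d⁻¹)⁻¹ := by
          simp only [mul_inv_rev, inv_inv]; simp only [mul_comm, mul_left_comm, mul_assoc]
      _ = 1 := by rw [h, mul_inv_cancel]
  let base : X ⧸ V → X ⧸ V → X × X := fun q r =>
    if h : ∃ p : X × X, Commute p.1 p.2 ∧ (QuotientGroup.mk p.1 : X ⧸ V) = q ∧ (QuotientGroup.mk p.2 : X ⧸ V) = r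
    then h.choose else (1, 1)
  let D := SemidirectProduct ↥V (X ⧸ V) φ
  let ι : X × X → D × D := fun p =>
    (⟨vp p.1 / vp (base (QuotientGroup.mk p.1) (QuotientGroup.mk p.2)).1, QuotientGroup.mk p.1⟩,
     ⟨vp p.2 / vp (base (QuotientGroup.mk p.1) (QuotientGroup.mk p.2)).2, QuotientGroup.mk p.2⟩)
  have hι : ∀ p : X × X, Commute p.1 p.2 → Commute (ι p).1 (ι p).2 := by
    intro p hp
    have hex : ∃ s : X × X, Commute s.1 s.2 ∧ (QuotientGroup.mk s.1 : X ⧸ V) = QuotientGroup.mk p.1 ∧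
        (QuotientGroup.mk s.2 : X ⧸ V) = QuotientGroup.mk p.2 := ⟨p, hp, rfl, rfl⟩
    have hb : base (QuotientGroup.mk p.1) (QuotientGroup.mk p.2) = hex.choose := dif_pos hex
    obtain ⟨hc, h1, h2⟩ := hex.choose_spec
    refine hD _ _ _ _ (by rw [← QuotientGroup.mk_mul, ← QuotientGroup.mk_mul, hp.eq]) (hF _ _ _ _ _ _ ?_)
    apply Subtype.ext
    have e2 := hX _ _ hc
    rw [h1, h2] at e2
    rw [hX _ _ hp, hb, e2]
  have hιinj : Function.Injective ι := by
    intro p p' h
    have hq1 : (QuotientGroup.mk p.1 : X ⧸ V) = QuotientGroup.mk p'.1 := congrArg (fun s : D × D => s.1.right) h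
    have hq2 : (QuotientGroup.mk p.2 : X ⧸ V) = QuotientGroup.mk p'.2 := congrArg (fun s : D × D => s.2.right) h
    have hl1 := congrArg (fun s : D × D => s.1.left) h
    have hl2 := congrArg (fun s : D × D => s.2.left) h
    simp only [ι, hq1, hq2, div_left_inj] at hl1 hl2
    refine Prod.ext ?_ ?_
    · rw [hvp p.1, hvp p'.1, hl1, hq1]
    · rw [hvp p.2, hvp p'.2, hl2, hq2]
  haveI : Finite D := Finite.of_equiv (↥V × (X ⧸ V)) SemidirectProduct.equivProd.symm
  have hle : Nat.card {p : X × X // Commute p.1 p.2} ≤ Nat.card {p : D × D // Commute p.1 p.2} :=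
    Nat.card_le_card_of_injective (fun p => ⟨ι p.1, hι p.1 p.2⟩) fun p p' h =>
      Subtype.ext (hιinj (congrArg Subtype.val h))
  rw [card_comm_eq_card_conjClasses_mul_card, card_comm_eq_card_conjClasses_mul_card,
    SemidirectProduct.card, ← Subgroup.index_eq_card, mul_comm (Nat.card ↥V), Subgroup.index_mul_card] at hle
  exact Nat.le_of_mul_le_mul_right hle Nat.card_pos

end Cfsg.Agent.S4965
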