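import Cfsg.Statements.S4966
import Mathlib.LinearAlgebra.BilinearForm.Properties
import Mathlib.LinearAlgebra.Projection
import Mathlib.LinearAlgebra.FiniteDimensional.Lemmas
import Mathlib.LinearAlgebra.Dual.Lemmas

set_option autoImplicit false
open Cfsg

namespace Cfsg.Agent.S4966

section

variable {F : Type*} [Field F] {G : Type*} [Group G] {V : Type*} [AddCommGroup V] [Module F V]
  [FiniteDimensional F V] (ρ : Representation F G V)

/-- Invariance of a subspace. -/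
def Stab (U : Submodule F V) : Prop := ∀ g : G, ∀ u ∈ U, ρ g u ∈ U

/-- A form which is invariant and nondegenerate on a subspace. -/
def Good (U : Submodule F V) (A : LinearMap.BilinForm F V) : Prop :=
  (∀ g : G, ∀ x ∈ U, ∀ y ∈ U, A (ρ g x) (ρ g y) = A x y) ∧
    ∀ x ∈ U, (∀ y ∈ U, A x y = 0) → x = 0

variable {ρ}

theorem stab_sup {U W : Submodule F V} (hU : Stab ρ U) (hW : Stab ρ W) : Stab ρ (U ⊔ W) := by
  intro g x hx
  obtain ⟨a, ha, b, hb, rfl⟩ := Submodule.mem_sup.1 hx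
  rw [map_add]
  exact Submodule.add_mem_sup (hU g a ha) (hW g b hb)

theorem exists_join {U1 U2 : Submodule F V} (h1 : Stab ρ U1) (h2 : Stab ρ U2)
    (hd : Disjoint U1 U2) {A1 A2 : LinearMap.BilinForm F V} (g1 : Good ρ U1 A1)
    (g2 : Good ρ U2 A2) : ∃ π1 π2 : V →ₗ[F] V,
      Good ρ (U1 ⊔ U2) (LinearMap.compl₁₂ A1 π1 π1 + LinearMap.compl₁₂ A2 π2 π2) := by
  obtain ⟨C, hC⟩ := (U1 ⊔ U2).exists_isCompl
  have c1 : IsCompl U1 (U2 ⊔ C) := ⟨Disjoint.disjoint_sup_right_of_disjoint_sup_left hd hC.disjoint,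
    codisjoint_iff.2 (by rw [← sup_assoc]; exact hC.sup_eq_top)⟩
  have c2 : IsCompl U2 (U1 ⊔ C) := ⟨Disjoint.disjoint_sup_right_of_disjoint_sup_left hd.symm
      (by rw [sup_comm U2]; exact hC.disjoint),
    codisjoint_iff.2 (by rw [← sup_assoc, sup_comm U2]; exact hC.sup_eq_top)⟩
  refine ⟨(Submodule.projection _ _ c1), (Submodule.projection _ _ c2), ?_⟩
  have p1 : ∀ a ∈ U1, ∀ b ∈ U2, (Submodule.projection _ _ c1) (a + b) = a ∧ (Submodule.projection _ _ c2) (a + b) = b :=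
    fun a ha b hb => by
      rw [map_add, map_add, Submodule.projection_apply_of_mem_left c1 ha,
        Submodule.projection_apply_of_mem_left c2 hb,
        (Submodule.projection_apply_eq_zero_iff c1).2 (Submodule.mem_sup_left hb),
        (Submodule.projection_apply_eq_zero_iff c2).2 (Submodule.mem_sup_left ha)]
      simp
  constructor
  · intro g x hx y hy
    obtain ⟨a, ha, b, hb, rfl⟩ := Submodule.mem_sup.1 hx
    obtain ⟨a', ha', b', hb', rfl⟩ := Submodule.mem_sup.1 hy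
    simp only [LinearMap.add_apply, LinearMap.compl₁₂_apply, map_add (ρ g)]
    rw [(p1 _ (h1 g a ha) _ (h2 g b hb)).1, (p1 _ (h1 g a ha) _ (h2 g b hb)).2,
      (p1 _ (h1 g a' ha') _ (h2 g b' hb')).1, (p1 _ (h1 g a' ha') _ (h2 g b' hb')).2,
      (p1 a ha b hb).1, (p1 a ha b hb).2, (p1 a' ha' b' hb').1, (p1 a' ha' b' hb').2,
      g1.1 g a ha a' ha', g2.1 g b hb b' hb']
  · intro x hx h
    obtain ⟨a, ha, b, hb, rfl⟩ := Submodule.mem_sup.1 hx
    have ea : a = 0 := g1.2 a ha fun y hy => by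
      have := h (y + 0) (Submodule.add_mem_sup hy (zero_mem _))
      rwa [LinearMap.add_apply, LinearMap.add_apply, LinearMap.compl₁₂_apply,
        LinearMap.compl₁₂_apply, (p1 a ha b hb).1, (p1 a ha b hb).2, (p1 y hy 0 (zero_mem _)).1,
        (p1 y hy 0 (zero_mem _)).2, map_zero, add_zero] at this
    have eb : b = 0 := g2.2 b hb fun y hy => by
      have := h (0 + y) (Submodule.add_mem_sup (zero_mem _) hy)
      rwa [LinearMap.add_apply, LinearMap.add_apply, LinearMap.compl₁₂_apply,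
        LinearMap.compl₁₂_apply, (p1 a ha b hb).1, (p1 a ha b hb).2, (p1 0 (zero_mem _) y hy).1,
        (p1 0 (zero_mem _) y hy).2, map_zero, zero_add] at this
    rw [ea, eb, add_zero]

theorem exists_stab_compl [Finite G] (hG : (Nat.card G : F) ≠ 0) {R : Submodule F V}
    (hR : Stab ρ R) : ∃ C : Submodule F V, Stab ρ C ∧ IsCompl R C := by
  haveI := Fintype.ofFinite G
  obtain ⟨C0, hC0⟩ := R.exists_isCompl
  let π : V →ₗ[F] V := (Nat.card G : F)⁻¹ • ∑ g : G, (ρ g ∘ₗ (Submodule.projection _ _ hC0) ∘ₗ ρ g⁻¹)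
  have hπ : ∀ x, π x = (Nat.card G : F)⁻¹ • ∑ g : G, ρ g ((Submodule.projection _ _ hC0) (ρ g⁻¹ x)) := fun x => by
    simp only [π, LinearMap.smul_apply, LinearMap.sum_apply, LinearMap.comp_apply]
  have hmem : ∀ x, π x ∈ R := fun x => by
    rw [hπ]
    exact R.smul_mem _ (R.sum_mem fun g _ =>
      hR g _ (Submodule.projection_apply_mem hC0 _))
  have hid : ∀ x ∈ R, π x = x := fun x hx => by
    rw [hπ, Finset.sum_congr rfl (g := fun _ => x) fun g _ => by
      rw [Submodule.projection_apply_of_mem_left hC0 (hR g⁻¹ x hx), ← Module.End.mul_apply,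
        ← map_mul, mul_inv_cancel, map_one, Module.End.one_apply],
      Finset.sum_const, Finset.card_univ, ← Nat.cast_smul_eq_nsmul F, smul_smul,
      ← Nat.card_eq_fintype_card, inv_mul_cancel₀ hG, one_smul]
  have heq : ∀ h x, π (ρ h x) = ρ h (π x) := fun h x => by
    rw [hπ, hπ, map_smul, map_sum, ← Equiv.sum_comp (Equiv.mulLeft h)]
    congr 1
    refine Finset.sum_congr rfl fun g _ => ?_
    simp only [Equiv.coe_mulLeft, ← Module.End.mul_apply, ← map_mul]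
    rw [show (h * g)⁻¹ * h = g⁻¹ by group]
    simp only [map_mul, Module.End.mul_apply]
  refine ⟨LinearMap.ker π, fun g x hx => ?_, ⟨?_, ?_⟩⟩
  · rw [LinearMap.mem_ker] at hx ⊢
    rw [heq, hx, map_zero]
  · rw [Submodule.disjoint_def]
    intro x hx hk
    rw [← hid x hx, LinearMap.mem_ker.1 hk]
  · rw [codisjoint_iff, Submodule.eq_top_iff']
    intro x
    refine Submodule.mem_sup.2 ⟨π x, hmem x, x - π x, ?_, add_sub_cancel _ _⟩
    rw [LinearMap.mem_ker, map_sub, hid _ (hmem x), sub_self]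

theorem exists_irr {Y : Submodule F V} (hY : Stab ρ Y) (hne : Y ≠ ⊥) :
    ∃ L : Submodule F V, Stab ρ L ∧ L ≤ Y ∧ L ≠ ⊥ ∧
      ∀ M : Submodule F V, Stab ρ M → M ≤ L → M = ⊥ ∨ M = L := by
  classical
  have hex : ∃ n, ∃ L : Submodule F V, Stab ρ L ∧ L ≤ Y ∧ L ≠ ⊥ ∧ Module.finrank F L = n :=
    ⟨_, Y, hY, le_rfl, hne, rfl⟩
  obtain ⟨L, hL, hLY, hL0, hLn⟩ := Nat.find_spec hex
  refine ⟨L, hL, hLY, hL0, fun M hM hML => ?_⟩
  by_contra h
  obtain ⟨hM0, hMne⟩ := not_or.1 h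
  exact Nat.find_min hex (hLn ▸ Submodule.finrank_lt_finrank_of_lt (lt_of_le_of_ne hML hMne))
    ⟨M, hM, hML.trans hLY, hM0, rfl⟩

/-- The decomposition, as a predicate on subspaces. -/
def Dec (ρ : Representation F G V) (p : ℕ) (Y : Submodule F V) : Prop :=
  ∃ U W : Submodule F V, Stab ρ U ∧ Stab ρ W ∧ U ⊓ W = ⊥ ∧ U ⊔ W = Y ∧
    (∃ A, (∀ x, A x x = 0) ∧ Good ρ U A) ∧ ∃ S, (∀ x y, S x y = S y x) ∧ Good ρ W S ∧
      (p = 2 → ∀ g : G, ∀ w ∈ W, ρ g w = w)

theorem dec_bot (p : ℕ) : Dec ρ p ⊥ := by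
  have hb : Stab ρ (⊥ : Submodule F V) := fun g x hx => by
    rw [Submodule.mem_bot] at hx ⊢; rw [hx, map_zero]
  have hg : Good ρ ⊥ (0 : LinearMap.BilinForm F V) :=
    ⟨fun g x _ y _ => rfl, fun x hx _ => Submodule.mem_bot F |>.1 hx⟩
  exact ⟨⊥, ⊥, hb, hb, bot_inf_eq _, bot_sup_eq _, ⟨0, fun x => rfl, hg⟩, 0, fun x y => rfl, hg,
    fun _ g w hw => by rw [(Submodule.mem_bot F).1 hw, map_zero]⟩

theorem dec_join {p : ℕ} {X R : Submodule F V} (hd : Disjoint X R) (hX : Dec ρ p X)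
    (hR : Dec ρ p R) : Dec ρ p (X ⊔ R) := by
  obtain ⟨U1, W1, hU1, hW1, hd1, hs1, ⟨A1, hA1, gA1⟩, S1, hS1, gS1, ht1⟩ := hX
  obtain ⟨U2, W2, hU2, hW2, hd2, hs2, ⟨A2, hA2, gA2⟩, S2, hS2, gS2, ht2⟩ := hR
  subst hs1
  subst hs2
  obtain ⟨a, b, hA⟩ := exists_join hU1 hU2 (hd.mono le_sup_left le_sup_left) gA1 gA2
  obtain ⟨c, d, hS⟩ := exists_join hW1 hW2 (hd.mono le_sup_right le_sup_right) gS1 gS2
  refine ⟨U1 ⊔ U2, W1 ⊔ W2, stab_sup hU1 hU2, stab_sup hW1 hW2, ?_, sup_sup_sup_comm _ _ _ _,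
    ⟨_, fun x => by simp [hA1, hA2], hA⟩, _, fun x y => by simp [hS1 (c x), hS2 (d x)], hS, ?_⟩
  · rw [Submodule.eq_bot_iff]
    intro x hx
    obtain ⟨hxU, hxW⟩ := Submodule.mem_inf.1 hx
    obtain ⟨u1, hu1, u2, hu2, rfl⟩ := Submodule.mem_sup.1 hxU
    obtain ⟨w1, hw1, w2, hw2, he⟩ := Submodule.mem_sup.1 hxW
    have h0 : u1 - w1 = w2 - u2 := by linear_combination (norm := abel) -(1:ℤ) • he
    have hz : u1 - w1 = 0 := Submodule.disjoint_def.1 hd _
      (sub_mem (Submodule.mem_sup_left hu1) (Submodule.mem_sup_right hw1))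
      (h0 ▸ sub_mem (Submodule.mem_sup_right hw2) (Submodule.mem_sup_left hu2))
    have hu : u1 = 0 := (Submodule.eq_bot_iff _).1 hd1 _ ⟨hu1, (sub_eq_zero.1 hz).symm ▸ hw1⟩
    rw [h0, sub_eq_zero] at hz
    rw [hu, (Submodule.eq_bot_iff _).1 hd2 _ ⟨hu2, hz ▸ hw2⟩, add_zero]
  · intro hp g x hx
    obtain ⟨w1, hw1, w2, hw2, rfl⟩ := Submodule.mem_sup.1 hx
    rw [map_add, ht1 hp g w1 hw1, ht2 hp g w2 hw2]

end

section

variable {F : Type*} [Field F] {p : ℕ} [CharP F p] {G : Type*} [Group G] [Finite G] {V : Type*}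
  [AddCommGroup V] [Module F V] [FiniteDimensional F V] {ρ : Representation F G V}
  {B : LinearMap.BilinForm F V} (hBinv : ∀ g : G, ∀ x y : V, B (ρ g x) (ρ g y) = B x y)

/-- Nondegeneracy in the second argument. -/
def RND (B : LinearMap.BilinForm F V) (Y : Submodule F V) : Prop :=
  ∀ y ∈ Y, (∀ x ∈ Y, B x y = 0) → y = 0

/-- The right annihilator. -/
def rperp (B : LinearMap.BilinForm F V) (X : Submodule F V) : Submodule F V where
  carrier := {y | ∀ x ∈ X, B x y = 0}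
  zero_mem' := fun x _ => map_zero _
  add_mem' := fun {a b} ha hb x hx => by rw [map_add, ha x hx, hb x hx, add_zero]
  smul_mem' := fun c a ha x hx => by rw [map_smul, ha x hx, smul_zero]

include hBinv in
theorem stab_rperp {X : Submodule F V} (hX : Stab ρ X) : Stab ρ (rperp B X) := by
  intro g y hy x hx
  have h := hBinv g (ρ g⁻¹ x) y
  rw [← Module.End.mul_apply, ← map_mul, mul_inv_cancel, map_one, Module.End.one_apply] at h
  rw [h]
  exact hy _ (hX g⁻¹ x hx)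

omit [Finite G] in
theorem split {X Y : Submodule F V} (hXY : X ≤ Y) (hX : RND B X) (hY : RND B Y) :
    X ⊔ Y ⊓ rperp B X = Y ∧ Disjoint X (Y ⊓ rperp B X) ∧ RND B (Y ⊓ rperp B X) := by
  have hd : Disjoint X (Y ⊓ rperp B X) :=
    Submodule.disjoint_def.2 fun x hx hx' => hX x hx (Submodule.mem_inf.1 hx').2
  let f : V →ₗ[F] Module.Dual F X :=
    { toFun := fun y => (B.flip y).comp X.subtype
      map_add' := fun a b => by ext; simp
      map_smul' := fun c a => by ext; simp }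
  have hfinj : Function.Injective (f.comp X.subtype) := by
    rw [← LinearMap.ker_eq_bot, Submodule.eq_bot_iff]
    intro y hy
    exact Subtype.ext (hX y y.2 fun x hx => LinearMap.congr_fun hy ⟨x, hx⟩)
  have hfsurj := (LinearMap.injective_iff_surjective_of_finrank_eq_finrank
    Subspace.dual_finrank_eq.symm).1 hfinj
  have hsup : X ⊔ Y ⊓ rperp B X = Y := by
    refine le_antisymm (sup_le hXY inf_le_left) fun y hy => ?_
    obtain ⟨x, hx⟩ := hfsurj (f y)
    refine Submodule.mem_sup.2 ⟨x, x.2, y - x, ⟨sub_mem hy (hXY x.2), fun z hz => ?_⟩,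
      add_sub_cancel _ _⟩
    have h : B z x = B z y := LinearMap.congr_fun hx ⟨z, hz⟩
    rw [map_sub, h, sub_self]
  refine ⟨hsup, hd, fun r hr h => hY r hr.1 fun y hy => ?_⟩
  rw [← hsup] at hy
  obtain ⟨a, ha, b, hb, rfl⟩ := Submodule.mem_sup.1 hy
  rw [map_add, LinearMap.add_apply, hr.2 a ha, h b hb, add_zero]

omit [CharP F p] [Finite G] in
theorem dec_alt {X : Submodule F V} (hX : Stab ρ X) {A : LinearMap.BilinForm F V}
    (hA : ∀ x, A x x = 0) (g : Good ρ X A) : Dec ρ p X := by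
  obtain ⟨U, W, -, hW, -, hs, -, S, hS, gS, ht⟩ := dec_bot (ρ := ρ) p
  have hW0 : W = ⊥ := le_bot_iff.1 (hs ▸ le_sup_right)
  exact ⟨X, W, hX, hW, by rw [hW0, inf_bot_eq], by rw [hW0, sup_bot_eq], ⟨A, hA, g⟩, S, hS, gS, ht⟩

omit [CharP F p] [Finite G] in
theorem dec_sym {X : Submodule F V} (hX : Stab ρ X) {S : LinearMap.BilinForm F V}
    (hS : ∀ x y, S x y = S y x) (g : Good ρ X S) (ht : p = 2 → ∀ g : G, ∀ w ∈ X, ρ g w = w) :
    Dec ρ p X := by
  obtain ⟨U, W, hU, -, -, hs, hA, -⟩ := dec_bot (ρ := ρ) p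
  have hU0 : U = ⊥ := le_bot_iff.1 (hs ▸ le_sup_left)
  exact ⟨U, X, hU, hX, by rw [hU0, bot_inf_eq], by rw [hU0, bot_sup_eq], hA, S, hS, g, ht⟩

include hBinv in
theorem dec_irr [Fact p.Prime] {L : Submodule F V} (hL : Stab ρ L)
    (hirr : ∀ M : Submodule F V, Stab ρ M → M ≤ L → M = ⊥ ∨ M = L) (hL0 : L ≠ ⊥) (hnd : RND B L) :
    Dec ρ p L := by
  classical
  have hgood : ∀ S : LinearMap.BilinForm F V,
      (∀ g : G, ∀ x ∈ L, ∀ y ∈ L, S (ρ g x) (ρ g y) = S x y) → (∃ x ∈ L, ∃ y ∈ L, S x y ≠ 0) →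
        Good ρ L S := by
    intro S hinv ⟨x0, hx0, y0, hy0, hne⟩
    refine ⟨hinv, fun x hx h => ?_⟩
    let M : Submodule F V :=
      { carrier := {x | x ∈ L ∧ ∀ y ∈ L, S x y = 0}
        zero_mem' := ⟨zero_mem _, fun y _ => by rw [map_zero, LinearMap.zero_apply]⟩
        add_mem' := fun {a b} ha hb => ⟨add_mem ha.1 hb.1, fun y hy => by
          rw [map_add, LinearMap.add_apply, ha.2 y hy, hb.2 y hy, add_zero]⟩
        smul_mem' := fun c a ha => ⟨L.smul_mem c ha.1, fun y hy => by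
          rw [map_smul, LinearMap.smul_apply, ha.2 y hy, smul_zero]⟩ }
    have hM : Stab ρ M := fun g a ha => ⟨hL g a ha.1, fun y hy => by
      rw [show y = ρ g (ρ g⁻¹ y) by rw [← Module.End.mul_apply, ← map_mul, mul_inv_cancel,
        map_one, Module.End.one_apply], hinv g a ha.1 _ (hL _ y hy)]
      exact ha.2 _ (hL _ y hy)⟩
    rcases hirr M hM (fun a ha => ha.1) with h0 | h0
    · exact (Submodule.eq_bot_iff _).1 h0 x ⟨hx, h⟩
    · exact absurd ((h0.symm ▸ hx0 : x0 ∈ M).2 y0 hy0) hne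
  obtain ⟨l, hl, hl0⟩ := Submodule.exists_mem_ne_zero_of_ne_bot hL0
  obtain ⟨m, hm, hml⟩ : ∃ m ∈ L, B m l ≠ 0 := by
    by_contra h
    push_neg at h
    exact hl0 (hnd l hl h)
  obtain ⟨C, hC⟩ := L.exists_isCompl
  have hp : ∀ x, (Submodule.projection _ _ hC) x ∈ L := Submodule.projection_apply_mem hC
  have hq : ∀ x ∈ L, (Submodule.projection _ _ hC) x = x := fun x hx =>
    Submodule.projection_apply_of_mem_left hC hx
  let B' := LinearMap.compl₁₂ B (Submodule.projection _ _ hC) (Submodule.projection _ _ hC)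
  have hB'inv : ∀ g : G, ∀ x ∈ L, ∀ y ∈ L, B' (ρ g x) (ρ g y) = B' x y := fun g x hx y hy => by
    simp only [B', LinearMap.compl₁₂_apply, hq x hx, hq y hy, hq _ (hL g x hx), hq _ (hL g y hy)]
    exact hBinv g x y
  have hB'eq : ∀ x ∈ L, ∀ y ∈ L, B' x y = B x y := fun x hx y hy => by
    simp only [B', LinearMap.compl₁₂_apply, hq x hx, hq y hy]
  by_cases hs : ∃ x ∈ L, ∃ y ∈ L, B x y + B y x ≠ 0
  · obtain ⟨x0, hx0, y0, hy0, hne⟩ := hs
    have gS : Good ρ L (B' + B'.flip) := hgood _ (fun g x hx y hy => by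
      simp only [LinearMap.add_apply, LinearMap.flip_apply, hB'inv g x hx y hy,
        hB'inv g y hy x hx]) ⟨x0, hx0, y0, hy0, by
      simpa only [LinearMap.add_apply, LinearMap.flip_apply, hB'eq x0 hx0 y0 hy0,
        hB'eq y0 hy0 x0 hx0] using hne⟩
    by_cases hp2 : p = 2
    · haveI : CharP F 2 := hp2 ▸ inferInstance
      exact dec_alt hL (fun x => by simp [CharTwo.add_self_eq_zero]) gS
    · exact dec_sym hL (fun x y => by simp [add_comm]) gS fun h => absurd h hp2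
  · push_neg at hs
    have gB : Good ρ L B' := hgood _ hB'inv ⟨m, hm, l, hl, by rwa [hB'eq m hm l hl]⟩
    by_cases hp2 : p = 2
    · haveI : CharP F 2 := hp2 ▸ inferInstance
      have hsym : ∀ x y, B' x y = B' y x := fun x y =>
        CharTwo.add_eq_zero.1 (hs _ (hp x) _ (hp y))
      by_cases halt : ∀ x ∈ L, B x x = 0
      · exact dec_alt hL (A := B') (fun x => halt _ (hp x)) gB
      · push_neg at halt
        obtain ⟨z, hz, hzz⟩ := halt
        let M : Submodule F V :=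
          { carrier := {x | x ∈ L ∧ B x x = 0}
            zero_mem' := ⟨zero_mem _, by simp⟩
            add_mem' := fun {a b} ha hb => ⟨add_mem ha.1 hb.1, by
              simp only [map_add, LinearMap.add_apply, ha.2, hb.2, zero_add, add_zero]
              linear_combination hs a ha.1 b hb.1⟩
            smul_mem' := fun c a ha => ⟨L.smul_mem c ha.1, by simp [ha.2]⟩ }
        have hM : Stab ρ M := fun g a ha => ⟨hL g a ha.1, by rw [hBinv]; exact ha.2⟩
        have hM0 : M = ⊥ := (hirr M hM fun a ha => ha.1).resolve_right fun h =>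
          hzz ((h.symm ▸ hz : z ∈ M).2)
        refine dec_sym hL hsym gB fun _ g w hw => ?_
        refine sub_eq_zero.1 ((Submodule.eq_bot_iff _).1 hM0 _ ⟨sub_mem (hL g w hw) hw, ?_⟩)
        simp only [map_sub, LinearMap.sub_apply, hBinv, CharTwo.sub_eq_add]
        linear_combination hs _ (hL g w hw) _ hw + CharTwo.add_self_eq_zero (B w w)
    · refine dec_alt hL (fun x => ?_) gB
      have h2 : (2 : F) ≠ 0 := by
        intro h
        have h' : ((2 : ℕ) : F) = 0 := by exact_mod_cast h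
        exact hp2 (((Nat.prime_dvd_prime_iff_eq (Fact.out : p.Prime) Nat.prime_two).1
          ((CharP.cast_eq_zero_iff F p 2).1 h')))
      have h := hs _ (hp x) _ (hp x)
      rw [← two_mul] at h
      exact (mul_eq_zero.1 h).resolve_left h2

include hBinv in
theorem pair_inj {L K : Submodule F V} (hL : Stab ρ L)
    (hirr : ∀ M : Submodule F V, Stab ρ M → M ≤ L → M = ⊥ ∨ M = L) (hK : Stab ρ K)
    (hne : ∃ x ∈ K, ∃ y ∈ L, B x y ≠ 0) {y : V} (hy : y ∈ L) (h : ∀ x ∈ K, B x y = 0) : y = 0 := by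
  obtain ⟨x0, hx0, y0, hy0, hne⟩ := hne
  have hM : Stab ρ (L ⊓ rperp B K) := fun g a ha =>
    ⟨hL g a ha.1, stab_rperp hBinv hK g a ha.2⟩
  rcases hirr _ hM inf_le_left with h0 | h0
  · exact (Submodule.eq_bot_iff _).1 h0 y ⟨hy, h⟩
  · exact absurd ((h0.symm ▸ hy0 : y0 ∈ L ⊓ rperp B K).2 x0 hx0) hne

include hBinv in
theorem dec_pair {L K : Submodule F V} (hL : Stab ρ L) (hK : Stab ρ K)
    (hiso : ∀ x ∈ L, ∀ y ∈ L, B x y = 0)
    (h1 : ∀ m ∈ K, (∀ x ∈ L, B x m = 0) → m = 0)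
    (h2 : ∀ l ∈ L, (∀ x ∈ K, B x l = 0) → l = 0)
    (h3 : ∀ l ∈ L, (∀ y ∈ K, B l y = 0) → l = 0) : RND B (L ⊔ K) ∧ Dec ρ p (L ⊔ K) := by
  have hd : Disjoint L K :=
    Submodule.disjoint_def.2 fun x hx hx' => h1 x hx' fun z hz => hiso z hz x hx
  obtain ⟨C, hC⟩ := (L ⊔ K).exists_isCompl
  have c1 : IsCompl L (K ⊔ C) := ⟨Disjoint.disjoint_sup_right_of_disjoint_sup_left hd hC.disjoint,
    codisjoint_iff.2 (by rw [← sup_assoc]; exact hC.sup_eq_top)⟩
  have c2 : IsCompl K (L ⊔ C) := ⟨Disjoint.disjoint_sup_right_of_disjoint_sup_left hd.symm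
      (by rw [sup_comm K]; exact hC.disjoint),
    codisjoint_iff.2 (by rw [← sup_assoc, sup_comm K]; exact hC.sup_eq_top)⟩
  have p1 : ∀ a ∈ L, ∀ b ∈ K, (Submodule.projection _ _ c1) (a + b) = a ∧ (Submodule.projection _ _ c2) (a + b) = b :=
    fun a ha b hb => by
      rw [map_add, map_add, Submodule.projection_apply_of_mem_left c1 ha,
        Submodule.projection_apply_of_mem_left c2 hb,
        (Submodule.projection_apply_eq_zero_iff c1).2 (Submodule.mem_sup_left hb),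
        (Submodule.projection_apply_eq_zero_iff c2).2 (Submodule.mem_sup_left ha)]
      simp
  refine ⟨fun y hy h => ?_, dec_alt (stab_sup hL hK)
    (A := LinearMap.compl₁₂ B (Submodule.projection _ _ c1) (Submodule.projection _ _ c2) -
      (LinearMap.compl₁₂ B (Submodule.projection _ _ c1) (Submodule.projection _ _ c2)).flip) (fun x => by simp) ⟨?_, ?_⟩⟩
  · obtain ⟨a, ha, b, hb, rfl⟩ := Submodule.mem_sup.1 hy
    have hb0 : b = 0 := h1 b hb fun x hx => by
      have := h x (Submodule.mem_sup_left hx)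
      rwa [map_add, hiso x hx a ha, zero_add] at this
    subst hb0
    rw [add_zero] at h ⊢
    exact h2 a ha fun x hx => h x (Submodule.mem_sup_right hx)
  · intro g x hx y hy
    obtain ⟨a, ha, b, hb, rfl⟩ := Submodule.mem_sup.1 hx
    obtain ⟨a', ha', b', hb', rfl⟩ := Submodule.mem_sup.1 hy
    simp only [LinearMap.sub_apply, LinearMap.flip_apply, LinearMap.compl₁₂_apply,
      map_add (ρ g)]
    rw [(p1 _ (hL g a ha) _ (hK g b hb)).1, (p1 _ (hL g a ha) _ (hK g b hb)).2,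
      (p1 _ (hL g a' ha') _ (hK g b' hb')).1, (p1 _ (hL g a' ha') _ (hK g b' hb')).2,
      (p1 a ha b hb).1, (p1 a ha b hb).2, (p1 a' ha' b' hb').1, (p1 a' ha' b' hb').2, hBinv, hBinv]
  · intro x hx h
    obtain ⟨a, ha, b, hb, rfl⟩ := Submodule.mem_sup.1 hx
    have ea : a = 0 := h3 a ha fun y hy => by
      have := h (0 + y) (Submodule.add_mem_sup (zero_mem _) hy)
      simpa only [LinearMap.sub_apply, LinearMap.flip_apply, LinearMap.compl₁₂_apply,
        (p1 a ha b hb).1, (p1 0 (zero_mem _) y hy).1, (p1 0 (zero_mem _) y hy).2,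
        map_zero, LinearMap.zero_apply, sub_zero] using this
    have eb : b = 0 := h1 b hb fun y hy => by
      have := h (y + 0) (Submodule.add_mem_sup hy (zero_mem _))
      simpa only [LinearMap.sub_apply, LinearMap.flip_apply, LinearMap.compl₁₂_apply,
        (p1 a ha b hb).2, (p1 y hy 0 (zero_mem _)).1, (p1 y hy 0 (zero_mem _)).2,
        map_zero, zero_sub, neg_eq_zero] using this
    rw [ea, eb, add_zero]

omit [Finite G] in
theorem left_nondeg {Y : Submodule F V} (hY : RND B Y) :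
    RND B.flip Y := by
  intro y hy h
  by_contra hne
  let f : Y →ₗ[F] Module.Dual F Y :=
    { toFun := fun z => (B.flip z).comp Y.subtype
      map_add' := fun a b => by ext; simp
      map_smul' := fun c a => by ext; simp }
  have hinj : Function.Injective f := by
    rw [← LinearMap.ker_eq_bot, Submodule.eq_bot_iff]
    intro z hz
    exact Subtype.ext (hY z z.2 fun x hx => LinearMap.congr_fun hz ⟨x, hx⟩)
  have hsurj := (LinearMap.injective_iff_surjective_of_finrank_eq_finrank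
    Subspace.dual_finrank_eq.symm).1 hinj
  obtain ⟨φ, hφ⟩ := Module.Projective.exists_dual_eq_one F
    (x := (⟨y, hy⟩ : Y)) (fun e => hne (congrArg Subtype.val e))
  obtain ⟨z, rfl⟩ := hsurj φ
  have : B y z = 0 := h z z.2
  exact one_ne_zero (hφ.symm.trans this)

include hBinv in
theorem exists_partner (hG : (Nat.card G : F) ≠ 0) {L Y : Submodule F V} (hL : Stab ρ L)
    (hY : Stab ρ Y) (hne : ∃ y ∈ Y, ∃ x ∈ L, B x y ≠ 0) :
    ∃ K : Submodule F V, Stab ρ K ∧ K ≤ Y ∧ K ≠ ⊥ ∧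
      (∀ M : Submodule F V, Stab ρ M → M ≤ K → M = ⊥ ∨ M = K) ∧
      ∃ x ∈ L, ∃ y ∈ K, B x y ≠ 0 := by
  obtain ⟨y, hy, x, hx, hxy⟩ := hne
  have hR : Stab ρ (Y ⊓ rperp B L) := fun g a ha =>
    ⟨hY g a ha.1, stab_rperp hBinv hL g a ha.2⟩
  obtain ⟨C, hC, hcompl⟩ := exists_stab_compl hG hR
  have hCne : C ⊓ Y ≠ ⊥ := fun h => by
    have : y ∈ (Y ⊓ rperp B L) ⊔ C := by rw [hcompl.sup_eq_top]; trivial
    obtain ⟨r, hr, c, hc, rfl⟩ := Submodule.mem_sup.1 this
    have hc0 := (Submodule.eq_bot_iff _).1 h c ⟨hc, (Submodule.add_mem_iff_right Y hr.1).1 hy⟩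
    exact hxy (by rw [hc0, add_zero]; exact hr.2 x hx)
  obtain ⟨K, hK, hKle, hK0, hKirr⟩ := exists_irr
    (ρ := ρ) (Y := C ⊓ Y) (fun g a ha => ⟨hC g a ha.1, hY g a ha.2⟩) hCne
  refine ⟨K, hK, hKle.trans inf_le_right, hK0, hKirr, ?_⟩
  by_contra h
  push_neg at h
  obtain ⟨k, hk, hk0⟩ := Submodule.exists_mem_ne_zero_of_ne_bot hK0
  exact hk0 (Submodule.disjoint_def.1 hcompl.disjoint k
    ⟨(hKle hk).2, fun z hz => h z hz k hk⟩ (hKle hk).1)

include hBinv in
theorem dec_main [Fact p.Prime] (hG : (Nat.card G : F) ≠ 0) : ∀ (n : ℕ) (Y : Submodule F V),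
    Module.finrank F Y = n → Stab ρ Y → RND B Y → Dec ρ p Y := by
  intro n
  induction n using Nat.strong_induction_on with
  | _ n ih =>
  intro Y hn hY hnd
  by_cases hY0 : Y = ⊥
  · subst hY0; exact dec_bot p
  suffices ∃ X : Submodule F V, Stab ρ X ∧ X ≤ Y ∧ X ≠ ⊥ ∧ RND B X ∧ Dec ρ p X by
    obtain ⟨X, hX, hXY, hX0, hXnd, hXdec⟩ := this
    obtain ⟨hs, hd, hR⟩ := split hXY hXnd hnd
    have hRs : Stab ρ (Y ⊓ rperp B X) := fun g a ha =>
      ⟨hY g a ha.1, stab_rperp hBinv hX g a ha.2⟩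
    have hlt : Module.finrank F ↥(Y ⊓ rperp B X) < n := by
      rw [← hn]
      refine Submodule.finrank_lt_finrank_of_lt (lt_of_le_of_ne inf_le_left fun e => hX0 ?_)
      rw [e] at hd
      exact (hd.mono_right hXY).eq_bot_of_self
    have := dec_join hd hXdec (ih _ hlt _ rfl hRs hR)
    rwa [hs] at this
  by_cases hex : ∃ L : Submodule F V, Stab ρ L ∧ L ≤ Y ∧
      (∀ M : Submodule F V, Stab ρ M → M ≤ L → M = ⊥ ∨ M = L) ∧ ∃ x ∈ L, ∃ y ∈ L, B x y ≠ 0
  · obtain ⟨L, hL, hLY, hirr, hne⟩ := hex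
    have hLnd : RND B L := fun y hy h => pair_inj hBinv hL hirr hL hne hy h
    have hL0 : L ≠ ⊥ := fun e => by
      obtain ⟨x, hx, y, hy, h⟩ := hne
      rw [e, Submodule.mem_bot] at hx
      exact h (by rw [hx, map_zero, LinearMap.zero_apply])
    exact ⟨L, hL, hLY, hL0, hLnd, dec_irr hBinv hL hirr hL0 hLnd⟩
  push_neg at hex
  obtain ⟨L, hL, hLY, hL0, hirr⟩ := exists_irr hY hY0
  have hiso := hex L hL hLY hirr
  have hBinv' : ∀ g : G, ∀ x y : V, B.flip (ρ g x) (ρ g y) = B.flip x y := fun g x y => hBinv g y x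
  obtain ⟨l, hl, hl0⟩ := Submodule.exists_mem_ne_zero_of_ne_bot hL0
  obtain ⟨L1, hL1, hL1Y, -, hirr1, hne1⟩ := exists_partner hBinv hG hL hY (by
    by_contra h
    push_neg at h
    exact hl0 (left_nondeg hnd l (hLY hl) fun x hx => h x hx l hl))
  obtain ⟨L2, hL2, hL2Y, -, hirr2, hne2⟩ := exists_partner hBinv' hG hL hY (by
    by_contra h
    push_neg at h
    exact hl0 (hnd l (hLY hl) fun x hx => h x hx l hl))
  have hfin : ∀ K : Submodule F V, Stab ρ K → K ≤ Y →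
      (∀ m ∈ K, (∀ x ∈ L, B x m = 0) → m = 0) →
      (∀ l ∈ L, (∀ x ∈ K, B x l = 0) → l = 0) →
      (∀ l ∈ L, (∀ y ∈ K, B l y = 0) → l = 0) →
        ∃ X : Submodule F V, Stab ρ X ∧ X ≤ Y ∧ X ≠ ⊥ ∧ RND B X ∧ Dec ρ p X :=
    fun K hK hKY a b c => ⟨L ⊔ K, stab_sup hL hK, sup_le hLY hKY,
      fun e => hL0 (le_bot_iff.1 (e ▸ le_sup_left)), dec_pair hBinv hL hK hiso a b c⟩
  have i1 : ∀ m ∈ L1, (∀ x ∈ L, B x m = 0) → m = 0 := fun m hm h =>
    pair_inj hBinv hL1 hirr1 hL hne1 hm h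
  have i1' : ∀ l ∈ L, (∀ y ∈ L1, B l y = 0) → l = 0 := fun m hm h => by
    obtain ⟨x, hx, y, hy, e⟩ := hne1
    exact pair_inj hBinv' hL hirr hL1 ⟨y, hy, x, hx, e⟩ hm h
  have i2 : ∀ m ∈ L2, (∀ x ∈ L, B m x = 0) → m = 0 := fun m hm h =>
    pair_inj hBinv' hL2 hirr2 hL hne2 hm h
  have i2' : ∀ l ∈ L, (∀ x ∈ L2, B x l = 0) → l = 0 := fun m hm h => by
    obtain ⟨x, hx, y, hy, e⟩ := hne2
    exact pair_inj hBinv hL hirr hL2 ⟨y, hy, x, hx, e⟩ hm h
  by_cases c1 : ∃ x ∈ L1, ∃ y ∈ L, B x y ≠ 0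
  · exact hfin L1 hL1 hL1Y i1 (fun l hl h => pair_inj hBinv hL hirr hL1 c1 hl h) i1'
  by_cases c2 : ∃ x ∈ L, ∃ y ∈ L2, B x y ≠ 0
  · refine hfin L2 hL2 hL2Y (fun m hm h => pair_inj hBinv hL2 hirr2 hL c2 hm h) i2' ?_
    intro m hm h
    obtain ⟨x, hx, y, hy, e⟩ := c2
    exact pair_inj hBinv' hL hirr hL2 ⟨y, hy, x, hx, e⟩ hm h
  push_neg at c1 c2
  -- both partners are one-sided: take a diagonal
  let f1 : L1 →ₗ[F] Module.Dual F L :=
    { toFun := fun y => (B.flip (y : V)).comp L.subtype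
      map_add' := fun a b => by ext; simp
      map_smul' := fun c a => by ext; simp }
  let f2 : L2 →ₗ[F] Module.Dual F L :=
    { toFun := fun x => (B (x : V)).comp L.subtype
      map_add' := fun a b => by ext; simp
      map_smul' := fun c a => by ext; simp }
  let f2' : L →ₗ[F] Module.Dual F L2 :=
    { toFun := fun y => (B.flip (y : V)).comp L2.subtype
      map_add' := fun a b => by ext; simp
      map_smul' := fun c a => by ext; simp }
  have hf2 : Function.Injective f2 := by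
    rw [← LinearMap.ker_eq_bot, Submodule.eq_bot_iff]
    intro z hz
    exact Subtype.ext (i2 z z.2 fun x hx => LinearMap.congr_fun hz ⟨x, hx⟩)
  have hf2' : Function.Injective f2' := by
    rw [← LinearMap.ker_eq_bot, Submodule.eq_bot_iff]
    intro z hz
    exact Subtype.ext (i2' z z.2 fun x hx => LinearMap.congr_fun hz ⟨x, hx⟩)
  have hbij : Function.Bijective f2 := by
    refine ⟨hf2, (LinearMap.injective_iff_surjective_of_finrank_eq_finrank ?_).1 hf2⟩
    have e1 := LinearMap.finrank_le_finrank_of_injective hf2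
    have e2 := LinearMap.finrank_le_finrank_of_injective hf2'
    rw [Subspace.dual_finrank_eq] at e1 e2 ⊢
    omega
  let θ : L1 →ₗ[F] L2 := (LinearEquiv.ofBijective f2 hbij).symm.toLinearMap.comp f1
  have hθ : ∀ (x : L1), ∀ l ∈ L, B (θ x : V) l = B l (x : V) := fun x l hl =>
    LinearMap.congr_fun ((LinearEquiv.ofBijective f2 hbij).apply_symm_apply (f1 x)) ⟨l, hl⟩
  let δ : L1 →ₗ[F] V := L1.subtype + L2.subtype.comp θ
  have hδ : Stab ρ (LinearMap.range δ) := by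
    intro g v hv
    obtain ⟨x, rfl⟩ := LinearMap.mem_range.1 hv
    refine LinearMap.mem_range.2 ⟨⟨ρ g x, hL1 g x x.2⟩, ?_⟩
    have e : (θ ⟨ρ g x, hL1 g x x.2⟩ : V) = ρ g (θ x : V) := by
      refine sub_eq_zero.1 (i2 _ (sub_mem (Subtype.prop _) (hL2 g _ (θ x).2)) fun l hl => ?_)
      rw [map_sub, LinearMap.sub_apply, hθ _ l hl]
      show B l (ρ g x) - B (ρ g (θ x : V)) l = 0
      have el : l = ρ g (ρ g⁻¹ l) := by
        rw [← Module.End.mul_apply, ← map_mul, mul_inv_cancel, map_one, Module.End.one_apply]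
      conv_lhs => rw [el]
      rw [hBinv, hBinv, hθ x _ (hL g⁻¹ l hl), sub_self]
    show (ρ g x : V) + (θ ⟨ρ g x, hL1 g x x.2⟩ : V) = ρ g ((x : V) + (θ x : V))
    rw [e, map_add]
  refine hfin (LinearMap.range δ) hδ ?_ ?_ ?_ ?_
  · rintro v ⟨x, rfl⟩
    exact add_mem (hL1Y x.2) (hL2Y (θ x).2)
  · rintro v ⟨x, rfl⟩ h
    have hx0 : x = 0 := Subtype.ext (i1 x x.2 fun l hl => by
      have e : B l ((x : V) + (θ x : V)) = 0 := h l hl
      rwa [map_add, c2 l hl _ (θ x).2, add_zero] at e)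
    rw [hx0, map_zero]
  · intro m hm h
    refine i1' m hm fun y hy => ?_
    have e : B (y + (θ ⟨y, hy⟩ : V)) m = 0 := h _ ⟨⟨y, hy⟩, rfl⟩
    rwa [map_add, LinearMap.add_apply, c1 y hy m hm, zero_add, hθ ⟨y, hy⟩ m hm] at e
  · intro m hm h
    refine i1' m hm fun y hy => ?_
    have e : B m (y + (θ ⟨y, hy⟩ : V)) = 0 := h _ ⟨⟨y, hy⟩, rfl⟩
    rwa [map_add, c2 m hm _ (θ ⟨y, hy⟩).2, add_zero] at e

end

/-- Let F be a finite field of characteristic p, G a finite group of order prime to p, and V a finite-dimensional representation of G over F carrying a nondegenerate G-invariant bilinear form (equivalently, V is self-dual). Then V is the direct sum of two G-invariant subspaces U and W such that U carries a G-invariant alternating bilinear form that is nondegenerate on U and W carries a G-invariant symmetric bilinear form that is nondegenerate on W; moreover when p = 2 the decomposition can be chosen with G acting trivially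 on W. -/
theorem result {F : Type*} [Field F] [Fintype F] (p : ℕ) [Fact p.Prime] [CharP F p] {G : Type*} [Group G] [Finite G] (hcop : ¬ p ∣ Nat.card G) {V : Type*} [AddCommGroup V] [Module F V] [FiniteDimensional F V] (ρ : Representation F G V) (B : LinearMap.BilinForm F V) (hB : B.Nondegenerate) (hBinv : ∀ g : G, ∀ x y : V, B (ρ g x) (ρ g y) = B x y) : ∃ U W : Submodule F V, IsCompl U W ∧ (∀ g : G, ∀ u ∈ U, ρ g u ∈ U) ∧ (∀ g : G, ∀ w ∈ W, ρ g w ∈ W) ∧ (∃ A : LinearMap.BilinForm F V, (∀ x : V, A x x = 0) ∧ (∀ g : G, ∀ x ∈ U, ∀ y ∈ U, A (ρ g x) (ρ g y) = A x y) ∧ (∀ x ∈ U, (∀ y ∈ U, A x y = 0) → x = 0)) ∧ (∃ S : LinearMap.BilinForm F V, (∀ x y : V, S x y = S y x) ∧ (∀ g : G, ∀ x ∈ W, ∀ y ∈ W, S (ρ g x) (ρ g y) = S x y) ∧ (∀ x ∈ W, (∀ y ∈ W, S x y = 0) → x = 0)) ∧ (p = 2 → ∀ g : G, ∀ w ∈ W, ρ g w = w) := by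
  have hG : (Nat.card G : F) ≠ 0 := fun h => hcop ((CharP.cast_eq_zero_iff F p _).1 h)
  have hnd : RND B ⊤ := fun y _ h => hB.2 y fun x => h x trivial
  obtain ⟨U, W, hU, hW, hi, hs, ⟨A, hA, hAi, hAn⟩, S, hS, ⟨hSi, hSn⟩, ht⟩ :=
    dec_main (p := p) hBinv hG _ ⊤ rfl (fun _ _ _ => trivial) hnd
  exact ⟨U, W, ⟨disjoint_iff.2 hi, codisjoint_iff.2 hs⟩, hU, hW, ⟨A, hA, hAi, hAn⟩,
    ⟨S, hS, hSi, hSn⟩, ht⟩

end Cfsg.Agent.S4966
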