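import Cfsg.Statements.S4967
import Mathlib.FieldTheory.Normal.Basic
import Mathlib.FieldTheory.Finite.GaloisField
import Mathlib.FieldTheory.Finite.Basic
import Mathlib.LinearAlgebra.Dual.Lemmas

set_option autoImplicit false
open Cfsg

namespace Cfsg.Agent.S4967

/-- Let F be a finite field with r elements and of characteristic p, H a finite abelian group of order prime to p, and V a faithful irreducible representation of H over F of dimension n (faithful: distinct elements act differently; irreducible: the only H-invariant subspaces are 0 and V). Call V self-dual when it carries a nondegenerate H-invariant bilinear form. If n = 1 and V is self-dual then H has order at most 2. If n ≥ 2 then V is self-dual if and only if n is even and the order of H divides r^(n/2) + 1. -/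
theorem result {F : Type*} [Field F] [Fintype F] (p : ℕ) [Fact p.Prime] [CharP F p] {H : Type*} [CommGroup H] [Finite H] (hcop : ¬ p ∣ Nat.card H) {V : Type*} [AddCommGroup V] [Module F V] [FiniteDimensional F V] (ρ : Representation F H V) (hfaith : Function.Injective ρ) (hirr : ∀ U : Submodule F V, (∀ h : H, ∀ u ∈ U, ρ h u ∈ U) → U = ⊥ ∨ U = ⊤) : (Module.finrank F V = 1 → (∃ B : LinearMap.BilinForm F V, B.Nondegenerate ∧ ∀ h : H, ∀ x y : V, B (ρ h x) (ρ h y) = B x y) → Nat.card H ≤ 2) ∧ (2 ≤ Module.finrank F V → ((∃ B : LinearMap.BilinForm F V, B.Nondegenerate ∧ ∀ h : H, ∀ x y : V, B (ρ h x) (ρ h y) = B x y) ↔ (Even (Module.finrank F V) ∧ Nat.card H ∣ Fintype.card F ^ (Module.finrank F V / 2) + 1))) := by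
  classical
  let K := Algebra.adjoin F (Set.range ρ)
  have hcomm : ∀ a ∈ Set.range ρ, ∀ b ∈ Set.range ρ, a * b = b * a := by
    rintro _ ⟨a, rfl⟩ _ ⟨b, rfl⟩
    rw [← map_mul, ← map_mul, mul_comm]
  have hKcomm : ∀ f ∈ K, ∀ g ∈ K, f * g = g * f := fun f hf g hg =>
    congrArg Subtype.val
      ((Algebra.adjoinCommRingOfComm F hcomm).mul_comm (⟨f, hf⟩ : K) ⟨g, hg⟩)
  have hρK : ∀ h : H, ρ h ∈ K := fun h => Algebra.subset_adjoin ⟨h, rfl⟩
  rcases subsingleton_or_nontrivial V with hV | hV
  · have h0 : Module.finrank F V = 0 := Module.finrank_zero_of_subsingleton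
    exact ⟨fun h => by omega, fun h => by omega⟩
  obtain ⟨v, hv⟩ := exists_ne (0 : V)
  have hinj : ∀ f ∈ K, f v = 0 → f = 0 := by
    intro f hf h0
    have hU := hirr (LinearMap.ker f) fun h u hu => by
      rw [LinearMap.mem_ker] at hu ⊢
      rw [← Module.End.mul_apply, hKcomm f hf _ (hρK h), Module.End.mul_apply, hu, map_zero]
    rcases hU with h | h
    · exact absurd ((Submodule.eq_bot_iff _).1 h v (LinearMap.mem_ker.2 h0)) hv
    · exact LinearMap.ker_eq_top.1 h
  let ev : K →ₗ[F] V :=
    { toFun := fun f => (f : Module.End F V) v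
      map_add' := fun a b => rfl
      map_smul' := fun c a => rfl }
  have hevb : Function.Bijective ev := by
    refine ⟨fun a b h => sub_eq_zero.1 (Subtype.ext (hinj _ (a - b).2 ?_)), ?_⟩
    · show (a : Module.End F V) v - (b : Module.End F V) v = 0
      rw [show (a : Module.End F V) v = (b : Module.End F V) v from h, sub_self]
    · rw [← LinearMap.range_eq_top]
      refine (hirr _ fun h u hu => ?_).resolve_left fun hb => hv ?_
      · obtain ⟨f, rfl⟩ := LinearMap.mem_range.1 hu
        exact LinearMap.mem_range.2 ⟨⟨ρ h, hρK h⟩ * f, rfl⟩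
      · have : ev 1 ∈ LinearMap.range ev := LinearMap.mem_range_self _ _
        rwa [hb, Submodule.mem_bot] at this
  letI : CommRing K := { (inferInstance : Ring K) with
    mul_comm := fun a b => Subtype.ext (hKcomm _ a.2 _ b.2) }
  haveI : Nontrivial K := ⟨⟨0, 1, fun h => hv (congrArg ev h).symm⟩⟩
  haveI : IsDomain K := by
    haveI : NoZeroDivisors K := ⟨fun {a b} hab => by
      by_contra hne
      obtain ⟨ha, hb⟩ := not_or.1 hne
      have hb' : ev b ≠ 0 := fun h => hb (hevb.1 (h.trans (map_zero ev).symm))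
      have hU := hirr (LinearMap.ker (a : Module.End F V)) fun h u hu => by
        rw [LinearMap.mem_ker] at hu ⊢
        rw [← Module.End.mul_apply, hKcomm _ a.2 _ (hρK h), Module.End.mul_apply, hu, map_zero]
      rcases hU with h | h
      · refine hb' ((Submodule.eq_bot_iff _).1 h _ (LinearMap.mem_ker.2 ?_))
        exact congrFun (congrArg DFunLike.coe (congrArg Subtype.val hab)) v
      · exact ha (Subtype.ext (LinearMap.ker_eq_top.1 h))⟩
    exact NoZeroDivisors.to_isDomain K
  let e := (LinearEquiv.ofBijective ev hevb).symm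
  haveI : Module.Finite F K := Module.Finite.equiv e
  haveI : Finite K := Module.finite_of_finite F
  letI : Field K := (Finite.isField_of_domain K).toField
  haveI := Fintype.ofFinite K
  have hn : Module.finrank F K = Module.finrank F V := e.symm.finrank_eq
  let i : H →* K :=
    { toFun := fun h => ⟨ρ h, hρK h⟩
      map_one' := Subtype.ext (map_one ρ)
      map_mul' := fun a b => Subtype.ext (map_mul ρ a b) }
  have hi : Function.Injective i := fun a b h => hfaith (congrArg Subtype.val h)
  haveI : IsCyclic H := isCyclic_of_subgroup_isDomain i hi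
  obtain ⟨h₀, hgen⟩ := IsCyclic.exists_generator (α := H)
  have hN : orderOf (i h₀) = Nat.card H := by
    rw [orderOf_injective i hi, orderOf_eq_card_of_forall_mem_zpowers hgen]
  have hζ0 : i h₀ ≠ 0 := fun h => by
    have := congrArg (· * i h₀⁻¹) h
    simp only [← map_mul, mul_inv_cancel, map_one, zero_mul] at this
    exact one_ne_zero this
  have hσext : ∀ σ τ : K ≃ₐ[F] K, σ (i h₀) = τ (i h₀) → σ = τ := by
    intro σ τ h
    refine AlgEquiv.ext fun x => ?_
    have hsub : ∀ (f : Module.End F V) (hf : f ∈ K), σ ⟨f, hf⟩ = τ ⟨f, hf⟩ := by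
      intro f hf
      induction hf using Algebra.adjoin_induction with
      | mem f hf =>
        obtain ⟨g, rfl⟩ := hf
        obtain ⟨k, rfl⟩ := Subgroup.mem_zpowers_iff.1 (hgen g)
        obtain ⟨m, hm⟩ : ∃ m : ℕ, h₀ ^ k = h₀ ^ m := by
          obtain ⟨m, hm⟩ := (IsOfFinOrder.mem_zpowers_iff_mem_range_orderOf
            (isOfFinOrder_of_finite h₀)).1 (hgen (h₀ ^ k)) |> Finset.mem_image.1
          exact ⟨m, hm.2.symm⟩
        rw [show (⟨ρ (h₀ ^ k), hρK _⟩ : K) = i h₀ ^ m by rw [← map_pow, hm]; rfl, map_pow,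
          map_pow, h]
      | algebraMap c => exact (σ.commutes c).trans (τ.commutes c).symm
      | add f g hf hg h1 h2 =>
        rw [show (⟨f + g, _⟩ : K) = ⟨f, hf⟩ + ⟨g, hg⟩ from rfl, map_add, map_add, h1, h2]
      | mul f g hf hg h1 h2 =>
        rw [show (⟨f * g, _⟩ : K) = ⟨f, hf⟩ * ⟨g, hg⟩ from rfl, map_mul, map_mul, h1, h2]
    exact hsub x x.2
  let Fr := FiniteField.frobeniusAlgEquivOfAlgebraic F K
  have hFr : ∀ (j : ℕ) (x : K), (Fr ^ j) x = x ^ (Fintype.card F ^ j) := fun j x => by
    induction j with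
    | zero => simp
    | succ j ih => rw [pow_succ', AlgEquiv.mul_apply, ih, pow_succ, pow_mul]; rfl
  -- an invariant form gives an automorphism inverting the generator
  have key : (∃ B : LinearMap.BilinForm F V, B.Nondegenerate ∧
      ∀ h : H, ∀ x y : V, B (ρ h x) (ρ h y) = B x y) → ∃ j, j < Module.finrank F V ∧
        (Fr ^ j) (i h₀) = (i h₀)⁻¹ := by
    rintro ⟨B, hB, hBinv⟩
    have hinv : (i h₀)⁻¹ = i h₀⁻¹ := inv_eq_of_mul_eq_one_right (by
      rw [← map_mul, mul_inv_cancel, map_one])
    have hadj : ∀ P : Polynomial F, ∀ x y, B (((Polynomial.aeval (i h₀) P : K) : Module.End F V) x) y =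
        B x (((Polynomial.aeval (i h₀⁻¹) P : K) : Module.End F V) y) := by
      intro P
      induction P using Polynomial.induction_on' with
      | add P Q h1 h2 =>
        intro x y
        simp only [map_add, Subalgebra.coe_add, LinearMap.add_apply, h1, h2]
      | monomial m c =>
        intro x y
        simp only [Polynomial.aeval_monomial, ← Algebra.smul_def, Subalgebra.coe_smul,
          LinearMap.smul_apply, map_smul, ← map_pow]
        congr 1
        show B (ρ (h₀ ^ m) x) y = B x (ρ (h₀⁻¹ ^ m) y)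
        conv_lhs => rw [← hBinv (h₀⁻¹ ^ m)]
        rw [← Module.End.mul_apply, ← map_mul, inv_pow, inv_mul_cancel, map_one,
          Module.End.one_apply]
    have hroot : Polynomial.aeval (i h₀⁻¹) (minpoly F (i h₀)) = 0 := by
      refine Subtype.ext (LinearMap.ext fun y => ?_)
      show _ = (0 : V)
      refine hB.2 _ fun x => ?_
      rw [← hadj, minpoly.aeval]
      show B 0 y = 0
      rw [map_zero, LinearMap.zero_apply]
    obtain ⟨σ, hσ⟩ := minpoly.exists_algEquiv_of_root' (Algebra.IsAlgebraic.isAlgebraic _) hroot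
    obtain ⟨⟨j, hjlt⟩, hj⟩ :=
      (FiniteField.bijective_frobeniusAlgEquivOfAlgebraic_pow F K).2 σ
    refine ⟨j, hn ▸ hjlt, ?_⟩
    rw [show Fr ^ j = σ from hj, hσ, hinv]
  have hord : ∀ j, (Fr ^ j) (i h₀) = (i h₀)⁻¹ → Nat.card H ∣ Fintype.card F ^ j + 1 := by
    intro j hj
    rw [← hN, orderOf_dvd_iff_pow_eq_one, pow_succ, ← hFr, hj, inv_mul_cancel₀ hζ0]
  refine ⟨fun h1 hB => ?_, fun h2 => ⟨fun hB => ?_, ?_⟩⟩
  · obtain ⟨j, hjlt, hj⟩ := key hB
    have hj0 : j = 0 := by omega
    subst hj0
    have := Nat.le_of_dvd (by norm_num) (hord 0 hj)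
    simpa using this
  · obtain ⟨j, hjlt, hj⟩ := key hB
    have hsq : Fr ^ (2 * j) = 1 := by
      refine hσext _ _ ?_
      rw [two_mul, pow_add, AlgEquiv.mul_apply, hj, map_inv₀, hj, inv_inv]; rfl
    have hdvd : Module.finrank F V ∣ 2 * j := by
      rw [← hn, ← FiniteField.orderOf_frobeniusAlgEquivOfAlgebraic F K]
      exact orderOf_dvd_of_pow_eq_one hsq
    have hj0 : j ≠ 0 := by
      rintro rfl
      -- the generator is its own inverse, so it lies in the ground field
      rw [pow_zero, AlgEquiv.one_apply] at hj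
      have hsq1 : i h₀ * i h₀ = 1 := by
        nth_rewrite 2 [hj]
        exact mul_inv_cancel₀ hζ0
      have hFix : Fr = 1 := hσext _ _ (by
        rcases mul_self_eq_one_iff.1 hsq1 with h | h <;> rw [h] <;> simp)
      have h1 := FiniteField.orderOf_frobeniusAlgEquivOfAlgebraic F K
      rw [show FiniteField.frobeniusAlgEquivOfAlgebraic F K = 1 from hFix, orderOf_one, hn] at h1
      omega
    obtain ⟨c, hc⟩ := hdvd
    have hc1 : c = 1 := by
      rcases c with _ | _ | c
      · omega
      · rfl
      · nlinarith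
    rw [hc1, mul_one] at hc
    refine ⟨⟨j, by omega⟩, ?_⟩
    rw [← hc, Nat.mul_div_cancel_left _ (by norm_num)]
    exact hord j hj
  · rintro ⟨-, hdvd⟩
    have hσ : ∀ h : H, (Fr ^ (Module.finrank F V / 2)) (i h) = (i h)⁻¹ := by
      intro h
      rw [hFr]
      refine eq_inv_of_mul_eq_one_left ?_
      rw [← pow_succ, ← orderOf_dvd_iff_pow_eq_one, orderOf_injective i hi]
      exact (orderOf_dvd_natCard h).trans hdvd
    set σ := Fr ^ (Module.finrank F V / 2) with hσdef
    obtain ⟨φ, hφ⟩ : ∃ φ : K →ₗ[F] F, φ 1 = 1 :=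
      Module.Projective.exists_dual_eq_one F one_ne_zero
    let B : LinearMap.BilinForm F V := LinearMap.mk₂ F (fun x y => φ (e x * σ (e y)))
      (fun a b c => by simp only [map_add, add_mul])
      (fun c a b => by simp only [map_smul, smul_mul_assoc])
      (fun a b c => by simp only [map_add, mul_add])
      (fun c a b => by simp only [map_smul, mul_smul_comm])
    have he : ∀ (h : H) (x : V), e (ρ h x) = i h * e x := fun h x => by
      apply e.symm.injective
      rw [e.symm_apply_apply]
      conv_lhs => rw [← e.symm_apply_apply x]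
      rfl
    refine ⟨B, ⟨fun x hx => ?_, fun y hy => ?_⟩, fun h x y => ?_⟩
    · by_contra hne
      have hex : e x ≠ 0 := fun h => hne (e.map_eq_zero_iff.1 h)
      have := hx (e.symm (σ.symm (e x)⁻¹))
      simp [B, mul_inv_cancel₀ hex, hφ] at this
    · by_contra hne
      have hey : σ (e y) ≠ 0 := by simpa using hne
      have := hy (e.symm (σ (e y))⁻¹)
      simp [B, inv_mul_cancel₀ hey, hφ] at this
    · show φ (e (ρ h x) * σ (e (ρ h y))) = φ (e x * σ (e y))
      rw [he, he, map_mul σ, hσ, mul_mul_mul_comm, mul_inv_cancel₀ ?_, one_mul]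
      intro h0
      have := congrArg (· * i h⁻¹) h0
      simp only [← map_mul, mul_inv_cancel, map_one, zero_mul] at this
      exact one_ne_zero this

end Cfsg.Agent.S4967
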