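import Cfsg.Statements.S5013
import Cfsg.Agent.Lib.RootRankOne

set_option autoImplicit false
open Cfsg CfsgLib.Root

namespace Cfsg.Agent.S5013

/-- In a rank one group with unipotent subgroups A and B (conjugation written g H g⁻¹), for every non-identity a in A the non-identity b in B with b⁻¹ A b = a⁻¹ B a is unique, every non-identity b in B arises in this way from exactly one such a (so a ↦ b(a) is a bijection between the non-identity elements of A and of B), and no non-identity element of A normalizes B (and vice versa). -/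
theorem result {G : Type*} [Group G] {A B : Subgroup G} (h : Cfsg.IsRankOnePair A B) :
    (∀ a ∈ A, a ≠ 1 → ∃! b : G, b ∈ B ∧ b ≠ 1 ∧ Cfsg.conjBy A b⁻¹ = Cfsg.conjBy B a⁻¹) ∧
    (∀ b ∈ B, b ≠ 1 → ∃! a : G, a ∈ A ∧ a ≠ 1 ∧ Cfsg.conjBy A b⁻¹ = Cfsg.conjBy B a⁻¹) ∧
    A ⊓ Subgroup.normalizer (B : Set G) = ⊥ ∧ B ⊓ Subgroup.normalizer (A : Set G) = ⊥ := by
  have uniq : ∀ {A B : Subgroup G}, IsRankOnePair A B → ∀ b ∈ B, ∀ b' ∈ B,
      conjBy A b⁻¹ = conjBy A b'⁻¹ → b = b' := by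
    intro A B h b hb b' hb' he
    have h2 : conjBy A (b' * b⁻¹) = A := by
      rw [← cb_mul, he, cb_inv']
    exact (mul_inv_eq_one.1 (R_fix (RankOnePair_symm h) (mul_mem hb' (inv_mem hb)) h2)).symm
  have hs := RankOnePair_symm h
  refine ⟨fun a ha ha1 => ?_, fun b hb hb1 => ?_, R_fix_inf h, R_fix_inf hs⟩
  · obtain ⟨b, hb, hb1, hab⟩ := h.cond_left a ha ha1
    exact ⟨b, ⟨hb, hb1, hab⟩, fun b' hb' => uniq h b' hb'.1 b hb (hb'.2.2.trans hab.symm)⟩
  · obtain ⟨a, ha, ha1, hab⟩ := h.cond_right b hb hb1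
    exact ⟨a, ⟨ha, ha1, hab.symm⟩, fun a' ha' => uniq hs a' ha'.1 a ha (ha'.2.2.symm.trans hab.symm.symm.symm)⟩

end Cfsg.Agent.S5013
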