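import Cfsg.Statements.S5014
import Cfsg.Agent.Lib.RootRankOne

set_option autoImplicit false
open Cfsg CfsgLib.Root

namespace Cfsg.Agent.S5014

/-- Let X = ⟨A, B⟩ be a rank one group with unipotent subgroups A and B and let Ω be the set of conjugates of A under X. Then Ω has at least three members, X acts doubly transitively on Ω by conjugation (any two ordered pairs of distinct members are carried to one another by a single element of X), and A acts regularly on Ω with A removed: for C, D in Ω different from A there is exactly one element of A conjugating C to D. -/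
theorem result {G : Type*} [Group G] {A B : Subgroup G} (h : Cfsg.IsRankOnePair A B) :
    (∃ C₁ ∈ Cfsg.unipotentSubgroups A B, ∃ C₂ ∈ Cfsg.unipotentSubgroups A B, ∃ C₃ ∈ Cfsg.unipotentSubgroups A B,
      C₁ ≠ C₂ ∧ C₁ ≠ C₃ ∧ C₂ ≠ C₃) ∧
    (∀ C₁ ∈ Cfsg.unipotentSubgroups A B, ∀ C₂ ∈ Cfsg.unipotentSubgroups A B, ∀ D₁ ∈ Cfsg.unipotentSubgroups A B,
      ∀ D₂ ∈ Cfsg.unipotentSubgroups A B, C₁ ≠ C₂ → D₁ ≠ D₂ →
        ∃ x ∈ A ⊔ B, Cfsg.conjBy C₁ x = D₁ ∧ Cfsg.conjBy C₂ x = D₂) ∧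
    (∀ C ∈ Cfsg.unipotentSubgroups A B, ∀ D ∈ Cfsg.unipotentSubgroups A B, C ≠ A → D ≠ A →
      ∃! a : G, a ∈ A ∧ Cfsg.conjBy C a = D) := by
  refine ⟨?_, ?_, ?_⟩
  · obtain ⟨b, hb, hb1⟩ := ne_bot_exists (R_ne_bot (RankOnePair_symm h))
    refine ⟨A, self_mem_omega A B, B, right_mem_omega h, conjBy A b,
      omega_conj (self_mem_omega A B) (le_sup_right (a := A) hb), h.ne, fun e => ?_, fun e => ?_⟩
    · exact hb1 (R_fix (RankOnePair_symm h) hb e.symm)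
    · exact h.ne (cb_inj ((e.symm).trans (cb_of_mem hb).symm))
  · intro C₁ hC₁ C₂ hC₂ D₁ hD₁ D₂ hD₂ hC hD
    obtain ⟨x, hx, rfl, rfl⟩ := omega_pair h hC₁ hC₂ hC
    obtain ⟨y, hy, rfl, rfl⟩ := omega_pair h hD₁ hD₂ hD
    refine ⟨y * x⁻¹, mul_mem hy (inv_mem hx), ?_, ?_⟩ <;>
      rw [cb_mul, inv_mul_cancel_right]
  · intro C hC D hD hCA hDA
    obtain ⟨a, ha, rfl⟩ := omega_ne_cases h hC hCA
    obtain ⟨a', ha', rfl⟩ := omega_ne_cases h hD hDA
    refine ⟨a' * a⁻¹, ⟨mul_mem ha' (inv_mem ha), by rw [cb_mul, inv_mul_cancel_right]⟩, ?_⟩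
    rintro x ⟨hx, he⟩
    have h2 : conjBy B (a'⁻¹ * x * a) = B := by
      rw [← cb_mul, ← cb_mul, cb_mul B a x] at *
      rw [he, cb_inv]
    have h3 := R_fix h (mul_mem (mul_mem (inv_mem ha') hx) ha) h2
    calc x = a' * (a'⁻¹ * x * a) * a⁻¹ := by group
      _ = a' * a⁻¹ := by rw [h3, mul_one]

end Cfsg.Agent.S5014
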