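import Cfsg.Statements.S5015
import Cfsg.Agent.Lib.RootRankOne

set_option autoImplicit false
open Cfsg CfsgLib.Root

namespace Cfsg.Agent.S5015

/-- Let a group Y act doubly transitively on a set Ω with at least three points, and suppose that the stabilizer of a point α contains a nilpotent subgroup A, normalized by that stabilizer, which acts regularly on the points other than α. Then for any y in Y moving α, the subgroups A and y A y⁻¹ are the unipotent subgroups of a rank one group, and the normal closure of A in Y (the subgroup generated by all conjugates of A) is generated by A and y A y⁻¹ alone. -/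
theorem result {Y Ω : Type*} [Group Y] [MulAction Y Ω]
    (h2 : MulAction.IsMultiplyPretransitive Y Ω 2) (hΩ : 3 ≤ ENat.card Ω) (α : Ω) (A : Subgroup Y)
    (hA : A ≤ MulAction.stabilizer Y α) (hAn : ∀ y ∈ MulAction.stabilizer Y α, Cfsg.conjBy A y = A)
    (hnil : Group.IsNilpotent A) (hreg : ∀ β γ : Ω, β ≠ α → γ ≠ α → ∃! a : Y, a ∈ A ∧ a • β = γ)
    (y : Y) (hy : y ∉ MulAction.stabilizer Y α) :
    Cfsg.IsRankOnePair A (Cfsg.conjBy A y) ∧ Subgroup.normalClosure (A : Set Y) = A ⊔ Cfsg.conjBy A y := by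
  have hsame : ∀ g h : Y, g • α = h • α → conjBy A g = conjBy A h := by
    intro g h e
    have hs : h⁻¹ * g ∈ MulAction.stabilizer Y α := by
      rw [MulAction.mem_stabilizer_iff, mul_smul, e, inv_smul_smul]
    have := congrArg (fun C => conjBy C h) (hAn _ hs)
    simpa [cb_mul] using this
  have hregg : ∀ h : Y, ∀ β γ : Ω, β ≠ h • α → γ ≠ h • α → ∃ a ∈ conjBy A h, a • β = γ := by
    intro h β γ hβ hγ
    obtain ⟨a, ⟨ha, he⟩, -⟩ := hreg (h⁻¹ • β) (h⁻¹ • γ)
      (fun e => hβ (inv_smul_eq_iff.1 e)) (fun e => hγ (inv_smul_eq_iff.1 e))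
    refine ⟨h * a * h⁻¹, mem_cb_of_mem ha, ?_⟩
    rw [mul_smul, mul_smul, he, smul_inv_smul]
  have hfree : ∀ h : Y, ∀ a ∈ conjBy A h, ∀ β : Ω, β ≠ h • α → a • β = β → a = 1 := by
    intro h a ha β hβ he
    have hβ' : h⁻¹ • β ≠ α := fun e => hβ (inv_smul_eq_iff.1 e)
    obtain ⟨x, -, huniq⟩ := hreg (h⁻¹ • β) (h⁻¹ • β) hβ' hβ'
    have h1 := huniq (h⁻¹ * a * h) ⟨mem_cb.1 ha, by rw [mul_smul, mul_smul, smul_inv_smul, he]⟩
    have h2 := huniq 1 ⟨one_mem _, one_smul _ _⟩
    have h3 := h1.trans h2.symm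
    calc a = h * (h⁻¹ * a * h) * h⁻¹ := by group
      _ = 1 := by rw [h3]; group
  have hstab : ∀ h : Y, ∀ a ∈ conjBy A h, a • (h • α) = h • α := by
    intro h a ha
    have h1 := hA (mem_cb.1 ha)
    rw [MulAction.mem_stabilizer_iff, mul_smul, mul_smul, inv_smul_eq_iff] at h1
    exact h1
  have hcond : ∀ g h : Y, g • α ≠ h • α → RankOneCondition (conjBy A g) (conjBy A h) := by
    intro g h hne a ha ha1
    have hγh : a⁻¹ • (h • α) ≠ h • α := by
      intro e
      exact ha1 (inv_eq_one.1 (hfree g a⁻¹ (inv_mem ha) _ (Ne.symm hne) e))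
    obtain ⟨x, hx, hxe⟩ := hregg h (g • α) (a⁻¹ • (h • α)) hne hγh
    refine ⟨x⁻¹, inv_mem hx, ?_, ?_⟩
    · intro e
      rw [inv_eq_one] at e
      rw [e, one_smul] at hxe
      apply hne
      conv_rhs => rw [← smul_inv_smul a (h • α)]
      rw [← hxe, hstab g a ha]
    · rw [inv_inv, cb_mul, cb_mul]
      apply hsame
      rw [mul_smul, mul_smul, hxe]
  have hyne : y • α ≠ α := fun e => hy (MulAction.mem_stabilizer_iff.2 e)
  have hA1 : conjBy A (1 : Y) = A := cb_one A
  have hne : A ≠ conjBy A y := by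
    intro e
    obtain ⟨γ, hγ⟩ : ∃ γ : Ω, γ ≠ α ∧ γ ≠ y • α := by
      by_contra hc
      push Not at hc
      have hle : (Set.univ : Set Ω) ⊆ {α, y • α} := fun γ _ => by
        by_cases h : γ = α
        · exact Or.inl h
        · exact Or.inr (hc γ h)
      have h2' : ENat.card Ω ≤ 2 := by
        rw [← Set.encard_univ]
        exact (Set.encard_le_encard hle).trans ((Set.encard_insert_le _ _).trans (by simp; norm_num))
      exact absurd (hΩ.trans h2') (by norm_num)
    obtain ⟨a, ⟨ha, he⟩, -⟩ := hreg (y • α) γ hyne hγ.1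
    rw [hstab y a (e ▸ ha)] at he
    exact hγ.2 he.symm
  refine ⟨⟨hne, hnil,
    (Group.isNilpotent_congr (A.equivMapOfInjective _ (MulAut.conj y).injective)).1 hnil, ?_, ?_⟩, ?_⟩
  · have := hcond 1 y (by rw [one_smul]; exact hyne.symm)
    rwa [hA1] at this
  · have := hcond y 1 (by rw [one_smul]; exact hyne)
    rwa [hA1] at this
  · apply le_antisymm
    · have hall : ∀ g : Y, conjBy A g ≤ A ⊔ conjBy A y := by
        intro g
        by_cases hg : g • α = α
        · rw [hsame g 1 (by rw [one_smul]; exact hg), hA1]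
          exact le_sup_left
        · obtain ⟨a, ⟨ha, he⟩, -⟩ := hreg (y • α) (g • α) hyne hg
          rw [hsame g (a * y) (by rw [mul_smul, he]), ← cb_mul]
          calc conjBy (conjBy A y) a ≤ conjBy (A ⊔ conjBy A y) a := cb_mono a le_sup_right
            _ = A ⊔ conjBy A y := cb_of_mem (le_sup_left (b := conjBy A y) ha)
      rw [Subgroup.normalClosure, Subgroup.closure_le]
      intro x hx
      obtain ⟨a, ha, c, hc⟩ := Group.mem_conjugatesOfSet_iff.1 hx
      obtain ⟨g, hg⟩ := isConj_iff.1 ⟨c, hc⟩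
      rw [← hg]
      exact hall g (mem_cb_of_mem ha)
    · refine sup_le (fun a ha => Subgroup.subset_normalClosure ha) ?_
      intro x hx
      have := (Subgroup.normalClosure_normal (s := (A : Set Y))).conj_mem _
        (Subgroup.subset_normalClosure (mem_cb.1 hx)) y
      simpa [mul_assoc] using this

end Cfsg.Agent.S5015
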