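import Cfsg.Statements.S5017
import Cfsg.Agent.Lib.RootRankOne

set_option autoImplicit false
open Cfsg CfsgLib.Root

namespace Cfsg.Agent.S5017

/-- Let X be a rank one group with unipotent subgroups A and B and N a normal subgroup of X. Then either X = N A or N lies in the centre of X. Consequently a perfect rank one group is quasisimple. -/
theorem result {X : Type*} [Group X] {A B : Subgroup X} (h : Cfsg.IsRankOneGroup X A B) :
    (∀ N : Subgroup X, N.Normal → N ⊔ A = ⊤ ∨ N ≤ Subgroup.center X) ∧
    (Group.IsPerfect X → Cfsg.IsQuasisimple X) := by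
  obtain ⟨hgen, hR⟩ := h
  have hdich : ∀ N : Subgroup X, N.Normal → N ⊔ A = ⊤ ∨ N ≤ Subgroup.center X := by
    intro N hN
    by_cases hfix : ∀ n ∈ N, ∀ C ∈ unipotentSubgroups A B, conjBy C n = C
    · right
      intro n hn
      have key : ∀ {P Q : Subgroup X}, IsRankOnePair P Q → conjBy P n = P → conjBy Q n = Q →
          (∀ p ∈ P, conjBy Q (n * p * n⁻¹ * p⁻¹) = Q) → ∀ p ∈ P, p * n = n * p := by
        intro P Q hPQ hP _ hQk p hp
        have hm : n * p * n⁻¹ * p⁻¹ ∈ P := by
          refine mul_mem ?_ (inv_mem hp)
          have := mem_cb_of_mem (g := n) hp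
          rwa [hP] at this
        have h1 := R_fix hPQ hm (hQk p hp)
        rw [mul_inv_eq_one, mul_inv_eq_iff_eq_mul] at h1
        exact h1.symm
      have hcomm : ∀ x : X, n * x * n⁻¹ * x⁻¹ ∈ N := by
        intro x
        have e : n * x * n⁻¹ * x⁻¹ = n * (x * n⁻¹ * x⁻¹) := by group
        rw [e]
        exact mul_mem hn (hN.conj_mem _ (inv_mem hn) x)
      have hA' := hfix n hn A (self_mem_omega A B)
      have hB' := hfix n hn B (right_mem_omega hR)
      have hkA := key hR hA' hB' fun p _ => hfix _ (hcomm p) B (right_mem_omega hR)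
      have hkB := key (RankOnePair_symm hR) hB' hA' fun p _ => hfix _ (hcomm p) A (self_mem_omega A B)
      have hle : A ⊔ B ≤ Subgroup.centralizer ({n} : Set X) := by
        refine sup_le ?_ ?_ <;> intro p hp <;> rw [Subgroup.mem_centralizer_singleton_iff]
        · exact hkA p hp
        · exact hkB p hp
      rw [hgen] at hle
      rw [Subgroup.mem_center_iff]
      intro x
      exact Subgroup.mem_centralizer_singleton_iff.1 (hle (Subgroup.mem_top x))
    · left
      push Not at hfix
      obtain ⟨n, hn, C, hC, hne⟩ := hfix
      obtain ⟨x, -, hx1, hx2⟩ := omega_pair hR hC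
        (omega_conj hC (by rw [hgen]; exact Subgroup.mem_top n)) (Ne.symm hne)
      subst hx1
      have hBA : B = conjBy A (x⁻¹ * n * x) := by
        rw [← cb_mul, ← cb_mul, hx2, cb_inv]
      apply top_unique
      rw [← hgen]
      refine sup_le le_sup_right ?_
      intro b hb
      rw [hBA, mem_cb] at hb
      set m := x⁻¹ * n * x
      have hm : m ∈ N := by simpa [m, mul_assoc] using hN.conj_mem n hn x⁻¹
      have : b = m * (m⁻¹ * b * m) * m⁻¹ := by group
      rw [this]
      exact mul_mem (mul_mem (le_sup_left (b := A) hm) (le_sup_right (a := N) hb))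
        (inv_mem (le_sup_left (b := A) hm))
  refine ⟨hdich, fun hP => ?_⟩
  have hnc : Subgroup.center X ≠ ⊤ := by
    intro hc
    refine R_not_cm hR fun a ha b _ => ?_
    have hb' : b ∈ Subgroup.center X := by rw [hc]; exact Subgroup.mem_top b
    exact Subgroup.mem_center_iff.1 hb' a
  refine ⟨hP, @IsSimpleGroup.mk _ _ ?_ ?_⟩
  · exact QuotientGroup.nontrivial_iff.2 hnc
  · intro M hM
    set N := M.comap (QuotientGroup.mk' (Subgroup.center X)) with hN
    have hNn : N.Normal := hM.comap _
    have hMN : M = N.map (QuotientGroup.mk' (Subgroup.center X)) :=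
      (Subgroup.map_comap_eq_self_of_surjective (QuotientGroup.mk'_surjective _) M).symm
    rcases hdich N hNn with h1 | h1
    · right
      have hnil : Group.IsNilpotent (X ⧸ N) := by
        have hsurj : Function.Surjective ((QuotientGroup.mk' N).comp A.subtype) := by
          intro q
          obtain ⟨g, rfl⟩ := QuotientGroup.mk'_surjective N q
          have hg : g ∈ N ⊔ A := by rw [h1]; exact Subgroup.mem_top g
          rw [Subgroup.mem_sup_of_normal_left] at hg
          obtain ⟨n, hn, a, ha, rfl⟩ := hg
          refine ⟨⟨a, ha⟩, ?_⟩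
          rw [MonoidHom.comp_apply, map_mul, QuotientGroup.mk'_apply, QuotientGroup.mk'_apply,
            QuotientGroup.mk'_apply, (QuotientGroup.eq_one_iff n).2 hn, one_mul]
          rfl
        haveI := hR.nilpotent_left
        exact Group.nilpotent_of_surjective _ hsurj
      have hperf : Group.IsPerfect (X ⧸ N) := by
        rw [Group.isPerfect_def, commutator_def,
          ← Subgroup.map_top_of_surjective _ (QuotientGroup.mk'_surjective N),
          ← Subgroup.map_commutator, ← commutator_def, hP.commutator_eq_top]
      have hsub : Subsingleton (X ⧸ N) := by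
        by_contra hns
        rw [not_subsingleton_iff_nontrivial] at hns
        exact Group.IsPerfect.not_isNilpotent (X ⧸ N) hnil
      rw [hMN, QuotientGroup.subsingleton_iff.1 hsub,
        Subgroup.map_top_of_surjective _ (QuotientGroup.mk'_surjective _)]
    · left
      rw [hMN, Subgroup.map_eq_bot_iff, QuotientGroup.ker_mk']
      exact h1

end Cfsg.Agent.S5017
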