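import Cfsg.Statements.S5018
import Cfsg.Agent.Lib.RootRankOne

set_option autoImplicit false
open Cfsg CfsgLib.Root

namespace Cfsg.Agent.S5018

/-- A rank one group is not nilpotent, and its second centre equals its centre. -/
theorem result {X : Type*} [Group X] {A B : Subgroup X} (h : Cfsg.IsRankOneGroup X A B) :
    Subgroup.upperCentralSeries X 2 = Subgroup.center X ∧ ¬ Group.IsNilpotent X := by
  obtain ⟨hgen, hR⟩ := h
  have htop : ∀ x : X, x ∈ A ⊔ B := fun x => by rw [hgen]; exact Subgroup.mem_top x
  have h12 : Subgroup.upperCentralSeries X 2 = Subgroup.center X := by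
    refine le_antisymm (fun n hn => ?_) ?_
    · have hcen : ∀ x : X, n * x * n⁻¹ * x⁻¹ ∈ Subgroup.center X := by
        intro x
        have := Subgroup.mem_upperCentralSeries_succ_iff.1 hn x
        rwa [Subgroup.upperCentralSeries_one, commutatorElement_def] at this
      have key : ∀ {P Q : Subgroup X}, IsRankOnePair P Q → conjBy P n = P → ∀ p ∈ P,
          p * n = n * p := by
        intro P Q hPQ hP p hp
        have hm : n * p * n⁻¹ * p⁻¹ ∈ P := by
          refine mul_mem ?_ (inv_mem hp)
          have := mem_cb_of_mem (g := n) hp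
          rwa [hP] at this
        have hz : conjBy Q (n * p * n⁻¹ * p⁻¹) = Q := by
          refine Cm.cb_eq (B := Subgroup.center X) ?_ (hcen p)
          exact fun q _ z hz => Subgroup.mem_center_iff.1 hz q
        have h1 := R_fix hPQ hm hz
        rw [mul_inv_eq_one, mul_inv_eq_iff_eq_mul] at h1
        exact h1.symm
      have hfix : ∀ {P Q : Subgroup X}, IsRankOnePair P Q → P ⊔ Q = ⊤ → conjBy P n = P := by
        intro P Q hPQ hPQt
        by_contra hne
        obtain ⟨p, hp, hp1⟩ := ne_bot_exists (R_ne_bot hPQ)
        apply hne
        refine omega_fix hPQ (omega_conj (self_mem_omega P Q) (by rw [hPQt]; exact Subgroup.mem_top n))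
          hp hp1 ?_
        set z := n⁻¹ * p * n⁻¹⁻¹ * p⁻¹ with hz
        have hzc : z ∈ Subgroup.center X := by
          have := Subgroup.mem_upperCentralSeries_succ_iff.1 (inv_mem hn) p
          rwa [Subgroup.upperCentralSeries_one, commutatorElement_def] at this
        have e : p * n = n * z * p := by rw [hz]; group
        rw [cb_mul, e, mul_assoc]
        rw [← cb_mul, ← cb_mul, cb_of_mem hp]
        congr 1
        exact Cm.cb_eq (B := Subgroup.center X) (fun q _ z hz => Subgroup.mem_center_iff.1 hz q) hzc
      have hA := key hR (hfix hR hgen)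
      have hB := key (RankOnePair_symm hR) (hfix (RankOnePair_symm hR) (by rw [sup_comm]; exact hgen))
      have hle : A ⊔ B ≤ Subgroup.centralizer ({n} : Set X) := by
        refine sup_le ?_ ?_ <;> intro p hp <;> rw [Subgroup.mem_centralizer_singleton_iff]
        · exact hA p hp
        · exact hB p hp
      rw [Subgroup.mem_center_iff]
      exact fun x => Subgroup.mem_centralizer_singleton_iff.1 (hle (htop x))
    · rw [← Subgroup.upperCentralSeries_one X]
      exact Subgroup.upperCentralSeries_mono X (by norm_num)
  refine ⟨h12, fun hnil => ?_⟩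
  have hall : ∀ k, Subgroup.upperCentralSeries X k ≤ Subgroup.center X := by
    intro k
    induction k with
    | zero => simp
    | succ k ih =>
      rw [← h12]
      intro x hx
      rw [Subgroup.mem_upperCentralSeries_succ_iff] at hx ⊢
      intro y
      rw [Subgroup.upperCentralSeries_one]
      exact ih (hx y)
  obtain ⟨k, hk⟩ := hnil.nilpotent'
  refine R_not_cm hR fun a _ b _ => ?_
  exact Subgroup.mem_center_iff.1 (hall k (by rw [hk]; exact Subgroup.mem_top b)) a

end Cfsg.Agent.S5018
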