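import Cfsg.Statements.S5019
import Cfsg.Agent.Lib.RootRankOne

set_option autoImplicit false
open Cfsg

namespace Cfsg.Agent.S5019

/-- The key computation: `u = α - α β α` is annihilated by `A - 1` and `B - 1` on both sides. -/
theorem core {X R : Type*} [Group X] [Ring R] {A B : Subgroup X} (ρ : X →* R)
    (hqA : ∀ a ∈ A, ∀ a' ∈ A, (ρ a' - 1) * (ρ a - 1) = 0)
    (hqB : ∀ b ∈ B, ∀ b' ∈ B, (ρ b' - 1) * (ρ b - 1) = 0)
    {a b : X} (ha : a ∈ A) (hb : b ∈ B) (hab : Cfsg.conjBy A b⁻¹ = Cfsg.conjBy B a⁻¹) :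
    (∀ t ∈ B, (ρ t - 1) * ((ρ a - 1) - (ρ a - 1) * (ρ b - 1) * (ρ a - 1)) = 0 ∧
      ((ρ a - 1) - (ρ a - 1) * (ρ b - 1) * (ρ a - 1)) * (ρ t - 1) = 0) ∧
    (∀ t ∈ A, (ρ t - 1) * ((ρ a - 1) - (ρ a - 1) * (ρ b - 1) * (ρ a - 1)) = 0 ∧
      ((ρ a - 1) - (ρ a - 1) * (ρ b - 1) * (ρ a - 1)) * (ρ t - 1) = 0) := by
  set α := ρ a - 1 with hα
  set β := ρ b - 1 with hβ
  have hαα : α * α = 0 := hqA a ha a ha
  have hββ : β * β = 0 := hqB b hb b hb
  refine ⟨?_, fun t ht => ⟨?_, ?_⟩⟩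
  rotate_left
  · rw [mul_sub, ← mul_assoc, ← mul_assoc, hqA a ha t ht, zero_mul, zero_mul, sub_zero]
  · rw [sub_mul, mul_assoc (α * β), hqA t ht a ha, mul_zero, sub_zero]
  have hinv : ∀ t : X, ∀ τ : R, ρ t = 1 + τ → τ * τ = 0 → ρ t⁻¹ = 1 - τ := by
    intro t τ ht h0
    have h1 : ρ t * (1 - τ) = 1 := by
      rw [ht]
      calc (1 + τ) * (1 - τ) = 1 - τ * τ := by noncomm_ring
        _ = 1 := by rw [h0, sub_zero]
    calc ρ t⁻¹ = ρ t⁻¹ * (ρ t * (1 - τ)) := by rw [h1, mul_one]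
      _ = _ := by rw [← mul_assoc, ← map_mul, inv_mul_cancel, map_one, one_mul]
  have ea : ρ a = 1 + α := by rw [hα]; abel
  have eb : ρ b = 1 + β := by rw [hβ]; abel
  have hb' : a * (b⁻¹ * a * b) * a⁻¹ ∈ B := by
    have h1 : b⁻¹ * a * b ∈ Cfsg.conjBy A b⁻¹ := CfsgLib.Root.mem_cb.2 (by simpa [mul_assoc] using ha)
    rw [hab, CfsgLib.Root.mem_cb, inv_inv] at h1
    exact h1
  set ξ := ρ (a * (b⁻¹ * a * b) * a⁻¹) - 1 with hξ
  have zα : ∀ x, α * (α * x) = 0 := fun x => by rw [← mul_assoc, hαα, zero_mul]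
  have zβ : ∀ x, β * (β * x) = 0 := fun x => by rw [← mul_assoc, hββ, zero_mul]
  have hξv : ξ = α + α * β - β * α - β * α * β - 2 • (α * β * α) - α * β * α * β + β * α * β * α +
      α * β * α * β * α := by
    rw [hξ, map_mul, map_mul, map_mul, map_mul, hinv a α ea hαα, hinv b β eb hββ, ea, eb]
    simp only [mul_add, add_mul, mul_sub, sub_mul, mul_one, one_mul, mul_assoc, zα, zβ, hαα, hββ, mul_zero,
      sub_zero, add_zero, zero_add, zero_sub, neg_zero, two_nsmul]
    abel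
  have e1 : β * ξ = 0 := hqB _ hb' b hb
  have e2 : ξ * β = 0 := hqB b hb _ hb'
  -- `β α` and `α β` are idempotent
  have f1 : β * α * β * α = β * α := by
    set P := β * α with hP
    have g0 : β * ξ = (P - 2 • (P * P) + P * P * P) + (P - P * P) * β := by
      rw [hξv, hP]
      simp only [mul_add, add_mul, mul_sub, sub_mul, mul_assoc, zβ, hββ, mul_zero, sub_zero, add_zero, zero_add,
        two_nsmul]
      abel
    rw [e1] at g0
    have g1 : (P - P * P) * P = 0 := by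
      have := congrArg (· * α) g0
      simp only [zero_mul, add_mul, sub_mul, two_nsmul] at this
      have hPα : P * α = 0 := by rw [hP, mul_assoc, hαα, mul_zero]
      simp only [mul_assoc, hPα, mul_zero, sub_zero, zero_add, add_zero] at this
      rw [sub_mul]
      simpa [hP, mul_assoc] using this.symm
    have g2 : (P - P * P) * (1 + β) = 0 := by
      rw [mul_add, mul_one]
      rw [sub_mul, sub_eq_zero] at g1
      calc P - P * P + (P - P * P) * β = (P - 2 • (P * P) + P * P * P) + (P - P * P) * β := by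
            rw [← g1, two_nsmul]; abel
        _ = 0 := g0.symm
    have g3 : P - P * P = 0 := by
      have := congrArg (· * (1 - β)) g2
      simp only [zero_mul] at this
      rwa [mul_assoc, show (1 + β) * (1 - β) = 1 by rw [show (1 + β) * (1 - β) = 1 - β * β by noncomm_ring, hββ, sub_zero],
        mul_one] at this
    rw [hP] at g3
    rw [mul_assoc (β * α)]
    exact (sub_eq_zero.1 g3).symm
  have f2 : α * β * α * β = α * β := by
    set Q := α * β with hQ
    have g0 : ξ * β = (Q - 2 • (Q * Q) + Q * Q * Q) - β * (Q - Q * Q) := by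
      rw [hξv, hQ]
      simp only [mul_add, add_mul, mul_sub, sub_mul, mul_assoc, hββ, mul_zero, sub_zero, add_zero, zero_add,
        two_nsmul]
      abel
    rw [e2] at g0
    have g1 : Q * (Q - Q * Q) = 0 := by
      have := congrArg (α * ·) g0
      simp only [mul_zero, mul_add, mul_sub, two_nsmul] at this
      have hαQ : α * Q = 0 := by rw [hQ, ← mul_assoc, hαα, zero_mul]
      simp only [← mul_assoc, hαQ, zero_mul, sub_zero, zero_add, add_zero, zero_sub] at this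
      rw [mul_sub]
      have h' := this.symm
      simp only [hQ, ← mul_assoc] at h' ⊢
      first
        | exact neg_eq_zero.1 h'
        | exact neg_eq_zero.1 h'.symm
        | (have h'' := neg_eq_zero.1 (Eq.symm ‹(0 : R) = -_›); exact h'')
    have g2 : (1 - β) * (Q - Q * Q) = 0 := by
      rw [sub_mul, one_mul]
      rw [mul_sub, sub_eq_zero] at g1
      calc Q - Q * Q - β * (Q - Q * Q) = (Q - 2 • (Q * Q) + Q * Q * Q) - β * (Q - Q * Q) := by
            rw [mul_assoc Q Q Q, ← g1, two_nsmul]; abel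
        _ = 0 := g0.symm
    have g3 : Q - Q * Q = 0 := by
      have := congrArg ((1 + β) * ·) g2
      simp only [mul_zero] at this
      rwa [← mul_assoc, show (1 + β) * (1 - β) = 1 by rw [show (1 + β) * (1 - β) = 1 - β * β by noncomm_ring, hββ, sub_zero],
        one_mul] at this
    rw [hQ] at g3
    rw [mul_assoc (α * β)]
    exact (sub_eq_zero.1 g3).symm
  have hξs : ξ = α - β * α * β - α * β * α := by
    rw [hξv, f1, f2, two_nsmul]; abel
  intro t ht
  have t1 : (ρ t - 1) * ξ = 0 := hqB _ hb' t ht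
  have t2 : ξ * (ρ t - 1) = 0 := hqB t ht _ hb'
  have z1 : (ρ t - 1) * β = 0 := hqB b hb t ht
  have z2 : β * (ρ t - 1) = 0 := hqB t ht b hb
  constructor
  · rw [hξs, mul_sub, mul_sub, ← mul_assoc (ρ t - 1) (β * α) β, ← mul_assoc (ρ t - 1) β α, z1, zero_mul, zero_mul,
      sub_zero] at t1
    rwa [mul_sub]
  · rw [hξs, sub_mul, sub_mul, mul_assoc (β * α) β, z2, mul_zero, sub_zero] at t2
    rwa [sub_mul]

/-- Let X be a rank one group with abelian unipotent subgroups A and B, and suppose X acts on an abelian group N (written additively) in such a way that A acts quadratically, meaning a' • (a • n − n) = a • n − n for all a, a' in A and n in N, while X as a whole does not: y • (x • n − n) ≠ x • n − n for some x, y in X and n in N. Then X is a special rank one group. -/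
theorem result {X : Type*} [Group X] {A B : Subgroup X} (h : Cfsg.IsRankOneGroup X A B)
    (hab : Cfsg.HasAbelianUnipotents A B) {N : Type*} [AddCommGroup N] [DistribMulAction X N]
    (hq : ∀ a ∈ A, ∀ a' ∈ A, ∀ n : N, a' • (a • n - n) = a • n - n)
    (hX : ∃ x y : X, ∃ n : N, y • (x • n - n) ≠ x • n - n) : Cfsg.IsSpecialRankOnePair A B := by
  obtain ⟨htop, hR⟩ := h
  let ρ : X →* AddMonoid.End N := DistribMulAction.toAddMonoidEnd X N
  have hρ : ∀ (x : X) (n : N), ρ x n = x • n := fun x n => rfl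
  have hqA : ∀ a ∈ A, ∀ a' ∈ A, (ρ a' - 1) * (ρ a - 1) = 0 := by
    intro a ha a' ha'
    ext n
    show a' • (a • n - n) - (a • n - n) = 0
    exact sub_eq_zero.2 (hq a ha a' ha' n)
  have hnot : ∀ P : Subgroup X, (∀ x, ∃ p ∈ P, ρ x = ρ p) →
      ¬ ∀ p ∈ P, ∀ p' ∈ P, (ρ p' - 1) * (ρ p - 1) = 0 := by
    intro P hP hall
    obtain ⟨x, y, n, hne⟩ := hX
    obtain ⟨p, hp, hpx⟩ := hP x
    obtain ⟨p', hp', hpy⟩ := hP y
    apply hne
    have := DFunLike.congr_fun (hall p hp p' hp') n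
    rw [← hpx, ← hpy] at this
    exact sub_eq_zero.1 (this : y • (x • n - n) - (x • n - n) = 0)
  -- every conjugate of `A` is quadratic
  have hconjA : ∀ g : X, ∀ p ∈ Cfsg.conjBy A g, ∀ p' ∈ Cfsg.conjBy A g, (ρ p' - 1) * (ρ p - 1) = 0 := by
    intro g p hp p' hp'
    have key : ∀ q : X, ρ q - 1 = ρ g * (ρ (g⁻¹ * q * g) - 1) * ρ g⁻¹ := by
      intro q
      rw [mul_sub, sub_mul, mul_one, ← map_mul, ← map_mul, ← map_mul, mul_inv_cancel, map_one]
      congr 2; group
    have hgg : ρ g⁻¹ * ρ g = 1 := by rw [← map_mul, inv_mul_cancel, map_one]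
    rw [key p', key p]
    calc ρ g * (ρ (g⁻¹ * p' * g) - 1) * ρ g⁻¹ * (ρ g * (ρ (g⁻¹ * p * g) - 1) * ρ g⁻¹)
        = ρ g * ((ρ (g⁻¹ * p' * g) - 1) * (ρ g⁻¹ * ρ g) * (ρ (g⁻¹ * p * g) - 1)) * ρ g⁻¹ := by noncomm_ring
      _ = 0 := by rw [hgg, mul_one, hqA _ (CfsgLib.Root.mem_cb.1 hp) _ (CfsgLib.Root.mem_cb.1 hp'), mul_zero, zero_mul]
  obtain ⟨g, -, hBg⟩ := CfsgLib.Root.right_mem_omega hR
  have hqB : ∀ b ∈ B, ∀ b' ∈ B, (ρ b' - 1) * (ρ b - 1) = 0 := by
    rw [hBg]; exact hconjA g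
  refine ⟨hR, fun a ha ha1 b hb hb1 hab' => ?_⟩
  obtain ⟨u1, u2⟩ := core ρ hqA hqB ha hb hab'
  obtain ⟨v1, v2⟩ := core ρ hqB hqA hb ha hab'.symm
  set α := ρ a - 1 with hα
  set β := ρ b - 1 with hβ
  set x := b⁻¹ * a * b with hxdef
  set y := a⁻¹ * b⁻¹ * a with hydef
  have hinv : ∀ t : X, (ρ t - 1) * (ρ t - 1) = 0 → ρ t⁻¹ = 1 - (ρ t - 1) := by
    intro t ht
    have h1 : ρ t * (1 - (ρ t - 1)) = 1 := by
      calc ρ t * (1 - (ρ t - 1)) = (1 + (ρ t - 1)) * (1 - (ρ t - 1)) := by noncomm_ring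
        _ = 1 - (ρ t - 1) * (ρ t - 1) := by noncomm_ring
        _ = 1 := by rw [ht, sub_zero]
    calc ρ t⁻¹ = ρ t⁻¹ * (ρ t * (1 - (ρ t - 1))) := by rw [h1, mul_one]
      _ = _ := by rw [← mul_assoc, ← map_mul, inv_mul_cancel, map_one, one_mul]
  have hαα : α * α = 0 := hqA a ha a ha
  have hββ : β * β = 0 := hqB b hb b hb
  have hδ : ρ x - ρ y = (α - α * β * α) + (β - β * α * β) := by
    rw [hxdef, hydef]
    simp only [map_mul, hinv a hαα, hinv b hββ, ← hα, ← hβ]
    rw [show ρ a = 1 + α by rw [hα]; abel, show ρ b = 1 + β by rw [hβ]; abel]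
    calc (1 - β) * (1 + α) * (1 + β) - (1 - α) * (1 - β) * (1 + α)
        = α + β - β * α * β - α * β * α - β * β + α * α := by noncomm_ring
      _ = (α - α * β * α) + (β - β * α * β) := by rw [hαα, hββ]; abel
  set δ := ρ x - ρ y with hδdef
  have hann : ∀ t : X, (ρ t - 1) * δ = 0 ∧ δ * (ρ t - 1) = 0 := by
    let T : Subgroup X :=
      { carrier := {t | ρ t * δ = δ ∧ δ * ρ t = δ}
        one_mem' := by simp
        mul_mem' := fun {s t} hs ht => by
          show ρ (s * t) * δ = δ ∧ δ * ρ (s * t) = δ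
          rw [map_mul, mul_assoc, ht.1, hs.1, ← mul_assoc, hs.2, ht.2]; exact ⟨rfl, rfl⟩
        inv_mem' := fun {s} hs => by
          show ρ s⁻¹ * δ = δ ∧ δ * ρ s⁻¹ = δ
          refine ⟨?_, ?_⟩
          · conv_lhs => rw [← hs.1]
            rw [← mul_assoc, ← map_mul, inv_mul_cancel, map_one, one_mul]
          · conv_lhs => rw [← hs.2]
            rw [mul_assoc, ← map_mul, mul_inv_cancel, map_one, mul_one] }
    have hle : A ⊔ B ≤ T := by
      refine sup_le (fun t ht => ?_) (fun t ht => ?_)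
      · have e1 : (ρ t - 1) * δ = 0 := by
          rw [hδ, mul_add, (v1 t ht).1, add_zero, (u2 t ht).1]
        have e2 : δ * (ρ t - 1) = 0 := by
          rw [hδ, add_mul, (v1 t ht).2, add_zero, (u2 t ht).2]
        exact ⟨by rwa [sub_mul, one_mul, sub_eq_zero] at e1, by rwa [mul_sub, mul_one, sub_eq_zero] at e2⟩
      · have e1 : (ρ t - 1) * δ = 0 := by
          rw [hδ, mul_add, (u1 t ht).1, zero_add, (v2 t ht).1]
        have e2 : δ * (ρ t - 1) = 0 := by
          rw [hδ, add_mul, (u1 t ht).2, zero_add, (v2 t ht).2]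
        exact ⟨by rwa [sub_mul, one_mul, sub_eq_zero] at e1, by rwa [mul_sub, mul_one, sub_eq_zero] at e2⟩
    intro t
    have ht := hle (htop.ge (Subgroup.mem_top t))
    rw [sub_mul (ρ t) 1 δ, mul_sub δ (ρ t) 1, one_mul δ, mul_one δ, sub_eq_zero, sub_eq_zero]
    exact ht
  have hz : ρ (x * y⁻¹) = 1 + δ := by
    have e := (hann y⁻¹).2
    rw [mul_sub, mul_one, sub_eq_zero] at e
    calc ρ (x * y⁻¹) = ρ y * ρ y⁻¹ + (ρ x - ρ y) * ρ y⁻¹ := by rw [map_mul]; noncomm_ring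
      _ = 1 + δ := by rw [← map_mul, mul_inv_cancel, map_one, ← hδdef, e]
  have hxA : x ∈ Cfsg.conjBy A b⁻¹ := CfsgLib.Root.mem_cb.2 (by
    rw [hxdef]
    simpa [mul_assoc] using ha)
  have hyA : y ∈ Cfsg.conjBy A b⁻¹ := by
    rw [hab']
    exact CfsgLib.Root.mem_cb.2 (by rw [hydef]; simpa [mul_assoc] using inv_mem hb)
  set z := b * (x * y⁻¹) * b⁻¹ with hzdef
  have hzA : z ∈ A := by
    have := CfsgLib.Root.mem_cb.1 (mul_mem hxA (inv_mem hyA))
    simpa [hzdef] using this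
  have hzρ : ρ z = 1 + δ := by
    have e1 := (hann b).1
    have e2 := (hann b⁻¹).2
    rw [sub_mul, one_mul, sub_eq_zero] at e1
    rw [mul_sub, mul_one, sub_eq_zero] at e2
    rw [hzdef, map_mul, map_mul, hz]
    calc ρ b * (1 + δ) * ρ b⁻¹ = ρ b * ρ b⁻¹ + ρ b * δ * ρ b⁻¹ := by noncomm_ring
      _ = 1 + δ := by rw [← map_mul, mul_inv_cancel, map_one, e1, e2]
  have hcomm : ∀ t : X, ρ (z * t) = ρ (t * z) := by
    intro t
    have e1 := (hann t).1
    have e2 := (hann t).2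
    rw [sub_mul, one_mul, sub_eq_zero] at e1
    rw [mul_sub, mul_one, sub_eq_zero] at e2
    rw [map_mul ρ z t, map_mul ρ t z, hzρ, add_mul, mul_add, one_mul (ρ t), mul_one (ρ t), e1, e2]
  have hfix : Cfsg.conjBy B z = B := by
    by_contra hne
    refine hnot B ?_ hqB
    intro t
    have hm : Cfsg.conjBy B z ∈ Cfsg.unipotentSubgroups A B :=
      CfsgLib.Root.omega_conj (CfsgLib.Root.right_mem_omega hR) (le_sup_left (b := B) hzA)
    have hs := CfsgLib.Root.omega_sup hR hm (CfsgLib.Root.right_mem_omega hR) hne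
    rw [htop] at hs
    let T : Subgroup X := (B.map ρ.toHomUnits).comap ρ.toHomUnits
    have hle : Cfsg.conjBy B z ⊔ B ≤ T := by
      refine sup_le (fun w hw => ?_) (Subgroup.le_comap_map _ B)
      have hw' := CfsgLib.Root.mem_cb.1 hw
      refine ⟨_, hw', Units.ext ?_⟩
      show ρ (z⁻¹ * w * z) = ρ w
      rw [mul_assoc, map_mul, ← hcomm w, ← map_mul, ← mul_assoc, inv_mul_cancel, one_mul]
    obtain ⟨p, hp, hpt⟩ := hle (hs.ge (Subgroup.mem_top t))
    exact ⟨p, hp, (congrArg Units.val hpt).symm⟩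
  have hz1 := CfsgLib.Root.R_fix hR hzA hfix
  rw [hzdef] at hz1
  have h5 : x * y⁻¹ = 1 := conj_eq_one_iff.1 hz1
  exact mul_inv_eq_one.1 h5

end Cfsg.Agent.S5019
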