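import Cfsg.Statements.S5023
import Cfsg.Agent.Lib.RootRankOne

set_option autoImplicit false
open Cfsg

namespace Cfsg.Agent.S5023

/-- Let X be a rank one group with unipotent subgroups A and B that acts faithfully on an abelian group V (written additively) with A acting quadratically: a' • (a • v − v) = a • v − v for all a, a' in A and v in V. Then A is either torsion-free or an elementary abelian p-group for some prime p. -/
theorem result {X : Type*} [Group X] {A B : Subgroup X} (h : Cfsg.IsRankOneGroup X A B)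
    {V : Type*} [AddCommGroup V] [DistribMulAction X V] (hf : ∀ x : X, (∀ v : V, x • v = v) → x = 1)
    (hq : ∀ a ∈ A, ∀ a' ∈ A, ∀ v : V, a' • (a • v - v) = a • v - v) :
    (∀ a ∈ A, a ≠ 1 → ¬ IsOfFinOrder a) ∨ ∃ p : ℕ, p.Prime ∧ Cfsg.IsElementaryAbelian p A := by
  classical
  by_cases htf : ∀ a ∈ A, a ≠ 1 → ¬ IsOfFinOrder a
  · exact Or.inl htf
  right
  push Not at htf
  obtain ⟨a₁, ha₁, ha₁1, ha₁f⟩ := htf
  set n := orderOf a₁ with hn
  have hnpos : 0 < n := orderOf_pos_iff.2 ha₁f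
  obtain ⟨p, hp, hpn⟩ := Nat.exists_prime_and_dvd (n := n) (fun h => ha₁1 (orderOf_eq_one_iff.1 h))
  set a₀ := a₁ ^ (n / p) with ha₀
  have ha₀A : a₀ ∈ A := A.pow_mem ha₁ _
  have ha₀o : orderOf a₀ = p := orderOf_pow_orderOf_div hnpos.ne' hpn
  have ha₀1 : a₀ ≠ 1 := fun e => hp.ne_one (by rw [← ha₀o, e, orderOf_one])
  obtain ⟨hgen, hR⟩ := h
  -- faithful equality
  have hext : ∀ x y : X, (∀ v : V, x • v = y • v) → x = y := fun x y hxy =>
    (inv_mul_eq_one.1 (hf (x⁻¹ * y) fun v => by rw [mul_smul, ← hxy v, inv_smul_smul]))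
  -- abelian
  have hcomm : ∀ a ∈ A, ∀ a' ∈ A, ∀ v : V, (a * a') • v = (a • v - v) + (a' • v - v) + v := by
    intro a ha a' ha' v
    have h1 := hq a' ha' a ha v
    rw [smul_sub, ← mul_smul] at h1
    rw [← sub_add_cancel ((a * a') • v) (a • v), h1]
    abel
  have hAc : IsMulCommutative ↥A := ⟨⟨fun a b => Subtype.ext (hext _ _ fun v => by
    show ((a : X) * b) • v = ((b : X) * a) • v
    rw [hcomm _ a.2 _ b.2, hcomm _ b.2 _ a.2]
    abel)⟩⟩
  have hpow : ∀ a ∈ A, ∀ (k : ℕ) (v : V), a ^ k • v = v + k • (a • v - v) := by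
    intro a ha k v
    induction k with
    | zero => simp
    | succ k ih =>
      rw [pow_succ, hcomm _ (A.pow_mem ha k) _ ha, ih, succ_nsmul]
      abel
  have hfix₀ : ∀ v : V, a₀ • (p • v) = p • v := by
    intro v
    have h1 := hpow a₀ ha₀A p v
    rw [← ha₀o, pow_orderOf_eq_one, one_smul, ha₀o] at h1
    have h2 : p • (a₀ • v - v) = 0 := by
      rw [← sub_eq_zero.2 h1.symm]; abel
    rw [smul_comm a₀ p v, ← sub_eq_zero, ← smul_sub, h2]
  have hsm : ∀ (x : X) (v : V), x • (p • v) = p • (x • v) := fun x v => smul_comm x p v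
  -- the partner of a₀
  obtain ⟨b, hb, -, hab⟩ := hR.cond_left a₀ ha₀A ha₀1
  obtain ⟨x₀, -, hBx⟩ := CfsgLib.Root.right_mem_omega hR
  have hBq : ∀ z ∈ B, ∀ z' ∈ B, ∀ v : V, z' • (z • v - v) = z • v - v := by
    intro z hz z' hz' v
    rw [hBx] at hz hz'
    have hz2 := CfsgLib.Root.mem_cb.1 hz
    have hz2' := CfsgLib.Root.mem_cb.1 hz'
    have h1 := hq _ hz2 _ hz2' (x₀⁻¹ • v)
    have h2 := congrArg (x₀ • ·) h1
    simp only [smul_sub, ← mul_smul] at h2
    rw [smul_sub, ← mul_smul]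
    simpa [mul_assoc] using h2
  -- on p V the two subgroups agree
  have hagree : ∀ y ∈ A, ∃ z ∈ B, ∀ v : V, y • (p • v) = z • (p • v) := by
    intro y hy
    have h1 : b⁻¹ * y * b ∈ Cfsg.conjBy B a₀⁻¹ := by
      rw [← hab]
      simpa using CfsgLib.Root.mem_cb_of_mem (g := b⁻¹) hy
    rw [CfsgLib.Root.mem_cb, inv_inv] at h1
    refine ⟨b * (a₀ * (b⁻¹ * y * b) * a₀⁻¹) * b⁻¹, B.mul_mem (B.mul_mem hb h1) (B.inv_mem hb), fun v => ?_⟩
    have hinvfix : ∀ w : V, a₀⁻¹ • (p • w) = p • w := fun w => inv_smul_eq_iff.2 (hfix₀ w).symm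
    simp only [mul_smul, hsm b⁻¹, hinvfix, hsm b, hsm y, smul_inv_smul, hfix₀]
  have hXfix : ∀ u : V, (∀ a ∈ A, a • u = u) → (∀ z ∈ B, z • u = u) → ∀ x : X, x • u = u := by
    intro u hA hB x
    have : (⊤ : Subgroup X) ≤ MulAction.stabilizer X u := by
      rw [← hgen]; exact sup_le hA hB
    exact this (Subgroup.mem_top x)
  have hfixed : ∀ a ∈ A, ∀ (v : V) (x : X), x • (a • (p • v) - p • v) = a • (p • v) - p • v := by
    intro a ha v
    refine hXfix _ (fun a' ha' => hq a ha a' ha' _) fun z hz => ?_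
    obtain ⟨z', hz', hzz⟩ := hagree a ha
    rw [hzz]
    exact hBq z' hz' z hz _
  refine ⟨p, hp, hAc, fun a ha => ?_⟩
  by_contra hap
  set d := a ^ p with hd
  have hdA : d ∈ A := A.pow_mem ha p
  have hdv : ∀ (v : V) (x : X), x • (d • v - v) = d • v - v := by
    intro v x
    have h1 : d • v - v = a • (p • v) - p • v := by
      rw [hd, hpow a ha p v, add_sub_cancel_left, hsm, smul_sub]
    rw [h1]
    exact hfixed a ha v x
  set c := x₀ * d * x₀⁻¹ with hc
  have hcB : c ∈ B := by rw [hBx]; exact CfsgLib.Root.mem_cb_of_mem hdA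
  have hc1 : c ≠ 1 := fun e => hap (conj_eq_one_iff.1 e)
  have hcd : c * d = d * c := by
    refine hext _ _ fun v => ?_
    have hcv : ∀ w : V, c • w - w = d • (x₀⁻¹ • w) - x₀⁻¹ • w := fun w => by
      rw [← hdv (x₀⁻¹ • w) x₀, hc, smul_sub, smul_inv_smul, mul_smul, mul_smul]
    have h1 : c • (d • v - v) = d • v - v := hdv v c
    have h2 : d • (c • v - v) = c • v - v := by rw [hcv]; exact hdv _ d
    rw [smul_sub, ← mul_smul] at h1 h2
    rw [← sub_add_cancel ((c * d) • v) (c • v), h1, ← sub_add_cancel ((d * c) • v) (d • v), h2]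
    abel
  have hBne : B ≠ Cfsg.conjBy B d := fun e => hap (CfsgLib.Root.R_fix hR hdA e.symm)
  have hBO := CfsgLib.Root.right_mem_omega hR
  have hpair := CfsgLib.Root.omega_pair_R hR hBO
    (CfsgLib.Root.omega_conj hBO (Subgroup.mem_sup_left hdA)) hBne
  have hmem : c ∈ B ⊓ Cfsg.conjBy B d := ⟨hcB, by
    show c ∈ Cfsg.conjBy B d
    rw [CfsgLib.Root.mem_cb, mul_assoc, hcd, inv_mul_cancel_left]; exact hcB⟩
  rw [CfsgLib.Root.R_inf hpair, Subgroup.mem_bot] at hmem
  exact hc1 hmem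

end Cfsg.Agent.S5023
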