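import Cfsg.Statements.S5025
import Cfsg.Agent.Lib.RootRankOne

set_option autoImplicit false
open Cfsg CfsgLib.Root

namespace Cfsg.Agent.S5025

/-- Let S be a set of abstract root subgroups of G, A ∈ S and B a rank one partner of A in S. If z ≠ 1 centralizes ⟨A, B⟩, then no product z a with a a non-identity element of A is a non-identity element of a member of S. -/
theorem result {G : Type*} [Group G] {S : Set (Subgroup G)} (hS : Cfsg.IsRootSubgroupSet S)
    {A B : Subgroup G} (hA : A ∈ S) (hB : B ∈ Cfsg.rankOnePartners S A) {z : G}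
    (hz : z ∈ Subgroup.centralizer ((A ⊔ B : Subgroup G) : Set G)) (hz1 : z ≠ 1) :
    ∀ a ∈ A, a ≠ 1 → z * a ∉ Cfsg.rootElements S := by
  obtain ⟨hBS, hAB⟩ := hB
  rintro a ha ha1 ⟨-, C, hC, hmem⟩
  have hzA : ∀ x ∈ A, x * z = z * x := fun x hx =>
    Subgroup.mem_centralizer_iff.1 hz x (le_sup_left (b := B) hx)
  have hzB : ∀ x ∈ B, x * z = z * x := fun x hx =>
    Subgroup.mem_centralizer_iff.1 hz x (le_sup_right (a := A) hx)
  have hBz : conjBy B z = B := by
    refine Cm.cb_eq (B := Subgroup.zpowers z) ?_ (Subgroup.mem_zpowers z)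
    rintro b hb y ⟨k, rfl⟩
    exact (Commute.zpow_right (show Commute b z from hzB b hb) k).eq
  have hBzm : Cm (conjBy B z) B := by rw [hBz]; exact cm_self (hS.commutative B hBS)
  have hCB : IsRankOnePair C B := translate_rankOne hS hBS hAB hC ha ha1 hzA hBzm hmem
  have hza1 : z * a ≠ 1 := by
    intro e
    have haz : a = z⁻¹ := (inv_eq_of_mul_eq_one_right e).symm
    refine ha1 (R_fix hAB ha ?_)
    rw [haz]
    exact cb_inv_self hBz
  obtain ⟨c, hc, -, hcb⟩ := hCB.cond_left _ hmem hza1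
  obtain ⟨b, hb, -, hab⟩ := hAB.cond_left a ha ha1
  have e : conjBy B (z * a)⁻¹ = conjBy B a⁻¹ := by
    rw [mul_inv_rev, ← cb_mul, cb_inv_self hBz]
  rw [e, ← hab, cb_eq_iff, inv_inv, cb_mul] at hcb
  have hCom : C ∈ unipotentSubgroups A B := by
    rw [hcb]
    exact omega_conj (self_mem_omega A B) (le_sup_right (a := A) (mul_mem hc (inv_mem hb)))
  have hzaY : z * a ∈ A ⊔ B := omega_le hCom hmem
  have hzY : z ∈ A ⊔ B := by simpa [mul_assoc] using mul_mem hzaY (inv_mem (le_sup_left (b := B) ha))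
  have hzC : conjBy C z = C := by
    refine Cm.cb_eq (B := Subgroup.zpowers z) ?_ (Subgroup.mem_zpowers z)
    rintro x hx y ⟨k, rfl⟩
    exact (Commute.zpow_right (show Commute x z from
      Subgroup.mem_centralizer_iff.1 hz x (omega_le hCom hx)) k).eq
  have hCa : conjBy C a = C := by
    have h1 : conjBy C (z * a) = C := cb_of_mem hmem
    rw [← cb_mul] at h1
    exact cb_inj (h1.trans hzC.symm)
  have hCA := omega_fix hAB hCom ha ha1 hCa
  rw [hCA] at hmem
  exact hz1 (R_fix hAB (by simpa [mul_assoc] using mul_mem hmem (inv_mem ha)) hBz)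

end Cfsg.Agent.S5025
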