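import Cfsg.Statements.S5026
import Cfsg.Agent.Lib.RootRankOne

set_option autoImplicit false
open Cfsg CfsgLib.Root

namespace Cfsg.Agent.S5026

/-- Let S be a degenerate set of abstract root subgroups of G (a set of abstract transvection groups) and let a, b be commuting non-identity elements of members of S with a b ≠ 1. Then the members of S centralizing a b are exactly those centralizing both a and b. -/
theorem result {G : Type*} [Group G] {S : Set (Subgroup G)} (hS : Cfsg.IsRootSubgroupSet S) (hdeg : Cfsg.IsDegenerateRootSet S)
    {a b : G} (ha : a ∈ Cfsg.rootElements S) (hb : b ∈ Cfsg.rootElements S) (hab : a * b = b * a) (hab1 : a * b ≠ 1) :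
    Cfsg.centralizingMembers S (Subgroup.zpowers (a * b)) =
      Cfsg.centralizingMembers S (Subgroup.zpowers a) ∩ Cfsg.centralizingMembers S (Subgroup.zpowers b) := by
  obtain ⟨ha1, A, hA, haA⟩ := ha
  obtain ⟨hb1, B, hB, hbB⟩ := hb
  have cent : ∀ (C : Subgroup G) (x : G),
      C ≤ Subgroup.centralizer (Subgroup.zpowers x : Set G) ↔ ∀ c ∈ C, c * x = x * c := by
    intro C x
    constructor
    · exact fun h c hc => (Subgroup.mem_centralizer_iff.1 (h hc) x (Subgroup.mem_zpowers x)).symm
    · rintro h c hc
      rw [Subgroup.mem_centralizer_iff]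
      rintro y ⟨k, rfl⟩
      exact ((Commute.zpow_right (show Commute c x from h c hc) k).eq).symm
  ext C
  simp only [centralizingMembers, Set.mem_setOf_eq, Set.mem_inter_iff, cent]
  constructor
  · rintro ⟨hC, hc⟩
    by_cases hca : ∀ c ∈ C, c * a = a * c
    · refine ⟨⟨hC, hca⟩, hC, fun c hcC => ?_⟩
      have h1 : Commute c (a * b) := hc c hcC
      have h2 : Commute c (a⁻¹ * (a * b)) :=
        (show Commute c a from hca c hcC).inv_right.mul_right h1
      simpa using h2.eq
    exfalso
    have hcb : ¬ ∀ c ∈ C, c * b = b * c := by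
      intro hcb
      apply hca
      intro c hcC
      have h2 : Commute c (a * b * b⁻¹) :=
        (show Commute c (a * b) from hc c hcC).mul_right (show Commute c b from hcb c hcC).inv_right
      simpa using h2.eq
    have getR : ∀ (X : Subgroup G) (x : G), X ∈ S → x ∈ X → ¬ (∀ c ∈ C, c * x = x * c) →
        IsRankOnePair C X := by
      intro X x hX hx hn
      rcases hS.pair C hC X hX with h | h | h
      · exact absurd (fun c hcC => cm_iff.1 h c hcC x hx) hn
      · exact h
      · exact absurd h (hdeg C hC X hX)
    have hCA := getR A a hA haA hca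
    have hCB := getR B b hB hbB hcb
    have hABne : A ≠ B := by
      intro e
      subst e
      refine hab1 (R_fix (RankOnePair_symm hCA) (mul_mem haA hbB) ?_)
      exact Cm.cb_eq (B := Subgroup.zpowers (a * b))
        (fun c hcC y hy => (Subgroup.mem_centralizer_iff.1 ((cent C _).2 hc hcC) y hy).symm)
        (Subgroup.mem_zpowers _)
    have hcm : Cm A B := by
      rcases hS.pair A hA B hB with h | h | h
      · exact cm_iff.1 h
      · exfalso
        have he : conjBy A b = A := by
          refine eq_of_inter hS hB h (hS.conj_mem A hA b) haA ?_ ha1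
          have h3 := mem_cb_of_mem (g := b) haA
          rwa [← hab, mul_inv_cancel_right] at h3
        exact hb1 (R_fix (RankOnePair_symm h) hbB he)
      · exact absurd h (hdeg A hA B hB)
    have hC1 : conjBy C a = conjBy C b⁻¹ := by
      have h1 : conjBy C (b * a) = C := by
        rw [← hab]
        exact Cm.cb_eq (B := Subgroup.zpowers (a * b))
          (fun c hcC y hy => (Subgroup.mem_centralizer_iff.1 ((cent C _).2 hc hcC) y hy).symm)
          (Subgroup.mem_zpowers _)
      rw [← cb_mul, cb_eq_iff] at h1
      exact h1
    have hCne : C ≠ conjBy C a := fun e => ha1 (R_fix (RankOnePair_symm hCA) haA e.symm)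
    have hAsup := omega_sup hCA (self_mem_omega C A)
      (omega_conj (self_mem_omega C A) (le_sup_right (a := C) haA)) hCne
    have hBsup := omega_sup hCB (self_mem_omega C B)
      (omega_conj (self_mem_omega C B) (le_sup_right (a := C) (inv_mem hbB))) (hC1 ▸ hCne)
    rw [← hC1] at hBsup
    have hBm : B ∈ unipotentSubgroups C A := member_in_omega hS hC hCA hB hC (RankOnePair_symm hCB)
      (by rw [← hAsup, hBsup]; exact le_sup_right) le_sup_left
    exact hABne (omega_not_cm hCA (right_mem_omega hCA) hBm hcm)
  · rintro ⟨⟨hC, h1⟩, -, h2⟩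
    exact ⟨hC, fun c hcC =>
      ((show Commute c a from h1 c hcC).mul_right (show Commute c b from h2 c hcC)).eq⟩

end Cfsg.Agent.S5026
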