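import Cfsg.Statements.S5027
import Cfsg.Agent.Lib.RootRankOne
import Cfsg.Agent.S5025

set_option autoImplicit false
open Cfsg CfsgLib.Root

namespace Cfsg.Agent.S5027

/-- Let S be a set of abstract root subgroups of G such that every member of S has a rank one partner in S (the graph of rank one pairs on S has no isolated vertex). Then the second centre of G equals its centre. -/
theorem result {G : Type*} [Group G] {S : Set (Subgroup G)} (hS : Cfsg.IsRootSubgroupSet S)
    (hF : ∀ A ∈ S, ¬ Cfsg.IsIsolatedIn (Cfsg.FAdj S) S A) : Subgroup.upperCentralSeries G 2 = Subgroup.center G := by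
  refine le_antisymm (fun z hz => ?_) ?_
  · have hcen : ∀ x : G, z * x * z⁻¹ * x⁻¹ ∈ Subgroup.center G := by
      intro x
      have := Subgroup.mem_upperCentralSeries_succ_iff.1 hz x
      rwa [Subgroup.upperCentralSeries_one, commutatorElement_def] at this
    have hzA : ∀ A ∈ S, ∀ a ∈ A, a * z = z * a := by
      intro A hA a ha
      by_cases ha1 : a = 1
      · simp [ha1]
      obtain ⟨B, hBS, hAB⟩ := exists_partner hS hA (hF A hA)
      by_contra hne
      have hc1 : z * a * z⁻¹ * a⁻¹ ≠ 1 := by
        intro e
        rw [mul_inv_eq_one, mul_inv_eq_iff_eq_mul] at e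
        exact hne e.symm
      refine Cfsg.Agent.S5025.result hS hA ⟨hBS, hAB⟩ ?_ hc1 a ha ha1 ?_
      · rw [Subgroup.mem_centralizer_iff]
        exact fun x _ => Subgroup.mem_center_iff.1 (hcen a) x
      · have e : z * a * z⁻¹ * a⁻¹ * a = z * a * z⁻¹ := by group
        rw [e]
        exact ⟨fun e => ha1 (conj_eq_one_iff.1 e), conjBy A z, hS.conj_mem A hA z, mem_cb_of_mem ha⟩
    have hle : (⨆ A ∈ S, A) ≤ Subgroup.centralizer ({z} : Set G) :=
      iSup₂_le fun A hA a ha => Subgroup.mem_centralizer_singleton_iff.2 (hzA A hA a ha)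
    rw [hS.generates] at hle
    exact Subgroup.mem_center_iff.2 fun x =>
      Subgroup.mem_centralizer_singleton_iff.1 (hle (Subgroup.mem_top x))
  · rw [← Subgroup.upperCentralSeries_one G]
    exact Subgroup.upperCentralSeries_mono G (by norm_num)

end Cfsg.Agent.S5027
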