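import Cfsg.Statements.S5029
import Cfsg.Agent.Lib.RootSets
import Cfsg.Agent.S5025

set_option autoImplicit false
open Cfsg CfsgLib.Root

namespace Cfsg.Agent.S5029

/-- Let S be a set of abstract root subgroups of G, A ∈ S having a rank one partner in S, and B ∈ S with C = ⁅A, B⁆ ∈ S. Then the members of S contained in AC are the conjugates of A by elements of B together with C, they partition AC, the members of S inside AC partition AC so that A is a line partner of C, and for every non-identity a ∈ A the map b ↦ a⁻¹ b⁻¹ a b is an isomorphism from B onto C. -/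
theorem result {G : Type*} [Group G] {S : Set (Subgroup G)} (hS : Cfsg.IsRootSubgroupSet S)
    {A B : Subgroup G} (hA : ¬ Cfsg.IsIsolatedIn (Cfsg.FAdj S) S A) (hAS : A ∈ S) (hB : B ∈ S) (hC : ⁅A, B⁆ ∈ S) :
    Cfsg.membersIn S (A ⊔ ⁅A, B⁆) = (fun b : G => Cfsg.conjBy A b) '' (B : Set G) ∪ {⁅A, B⁆} ∧
    Cfsg.IsSubgroupPartition (A ⊔ ⁅A, B⁆) (Cfsg.membersIn S (A ⊔ ⁅A, B⁆)) ∧
    A ∈ Cfsg.linePartners S ⁅A, B⁆ ∧
    ∀ a ∈ A, a ≠ 1 → ∃ φ : ↥B ≃* ↥⁅A, B⁆, ∀ b : ↥B, (φ b : G) = a⁻¹ * (b : G)⁻¹ * a * b := by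
  obtain ⟨D, hD, hAD⟩ := exists_partner hS hAS hA
  have hcomm : RootCommutatorCase S A B := by
    rcases hS.pair A hAS B hB with h | h | h
    · exact absurd h (hS.ne_bot _ hC)
    · exfalso
      have hle1 : ∀ x, x ∈ A ∨ x ∈ B → conjBy ⁅A, B⁆ x ≤ ⁅A, B⁆ := by
        intro x hx
        rw [conjBy, Subgroup.map_le_iff_le_comap, Subgroup.commutator_le]
        intro a ha b hb
        rw [Subgroup.mem_comap, MulEquiv.coe_toMonoidHom, MulAut.conj_apply, commutatorElement_def]
        rcases hx with hx | hx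
        · have h1 := mul_mem (Subgroup.commutator_mem_commutator (mul_mem hx ha) hb)
            (inv_mem (Subgroup.commutator_mem_commutator hx hb))
          simpa [commutatorElement_def, mul_assoc] using h1
        · have h1 := mul_mem (inv_mem (Subgroup.commutator_mem_commutator ha hx))
            (Subgroup.commutator_mem_commutator ha (mul_mem hx hb))
          simpa [commutatorElement_def, mul_assoc] using h1
      have hnorm : ∀ x, x ∈ A ∨ x ∈ B → conjBy ⁅A, B⁆ x = ⁅A, B⁆ := by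
        intro x hx
        refine le_antisymm (hle1 x hx) ?_
        have := cb_mono x (hle1 x⁻¹ (hx.imp inv_mem inv_mem))
        rwa [cb_inv'] at this
      have hCle : ⁅A, B⁆ ≤ A ⊔ B := by
        rw [Subgroup.commutator_le]
        intro a ha b hb
        rw [commutatorElement_def]
        exact mul_mem (mul_mem (mul_mem (le_sup_left (b := B) ha) (le_sup_right (a := A) hb))
          (inv_mem (le_sup_left (b := B) ha))) (inv_mem (le_sup_right (a := A) hb))
      have key : ∀ {P Q : Subgroup G}, IsRankOnePair P Q → P ∈ S → Q ∈ S → ⁅A, B⁆ ≤ P ⊔ Q →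
          (∀ x ∈ P, conjBy ⁅A, B⁆ x = ⁅A, B⁆) → (∀ x ∈ Q, conjBy ⁅A, B⁆ x = ⁅A, B⁆) →
          ∀ c ∈ ⁅A, B⁆, ∀ p ∈ P, c * p = p * c := by
        intro P Q hPQ hP hQ hle hnP hnQ
        have hfix : ∀ c ∈ ⁅A, B⁆, conjBy P c = P := by
          rcases pair_or_cm hS hC hP with hR | hR
          · intro c _
            obtain ⟨p, hp, hp1⟩ := ne_bot_exists (R_ne_bot (RankOnePair_symm hR))
            exact absurd (R_fix (RankOnePair_symm hR) hp (hnP p hp)) hp1
          · intro c hc
            exact omega_not_cm hPQ (omega_conj (self_mem_omega P Q) (hle hc)) (self_mem_omega P Q)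
              (hR c hc)
        intro c hc p hp
        have hmP : c * p * c⁻¹ * p⁻¹ ∈ P := by
          refine mul_mem ?_ (inv_mem hp)
          have := mem_cb_of_mem (g := c) hp
          rwa [hfix c hc] at this
        have hmC : c * p * c⁻¹ * p⁻¹ ∈ ⁅A, B⁆ := by
          have h1 : p * c⁻¹ * p⁻¹ ∈ ⁅A, B⁆ := by
            rw [← hnP p hp]; exact mem_cb_of_mem (inv_mem hc)
          simpa [mul_assoc] using mul_mem hc h1
        by_contra hne
        have hne' : c * p * c⁻¹ * p⁻¹ ≠ 1 := fun e => hne (by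
          rw [mul_inv_eq_one, mul_inv_eq_iff_eq_mul] at e; exact e)
        have heq := eq_of_inter hS hQ hPQ hC hmP hmC hne'
        obtain ⟨q, hq, hq1⟩ := ne_bot_exists (R_ne_bot (RankOnePair_symm hPQ))
        exact hq1 (R_fix (RankOnePair_symm hPQ) hq (heq ▸ hnQ q hq))
      have hcA := key h hAS hB hCle (fun x hx => hnorm x (Or.inl hx)) (fun x hx => hnorm x (Or.inr hx))
      have hcB := key (RankOnePair_symm h) hB hAS (by rw [sup_comm]; exact hCle)
        (fun x hx => hnorm x (Or.inr hx)) (fun x hx => hnorm x (Or.inl hx))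
      obtain ⟨a, ha, ha1⟩ := ne_bot_exists (R_ne_bot h)
      refine ha1 (R_fix h ha ?_)
      refine omega_not_cm h (omega_conj (right_mem_omega h) (le_sup_left (b := B) ha))
        (right_mem_omega h) ?_
      intro x hx b hb
      have hb' := mem_cb.1 hx
      set b' := a⁻¹ * x * a with hb'def
      have hx' : x = (a * b' * a⁻¹ * b'⁻¹) * b' := by rw [hb'def]; group
      have hE : a * b' * a⁻¹ * b'⁻¹ ∈ ⁅A, B⁆ := by
        have := Subgroup.commutator_mem_commutator ha hb'
        rwa [commutatorElement_def] at this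
      have h1 := hcB _ hE b hb
      have h2 := cm_self (hS.commutative B hB) b' hb' b hb
      rw [hx', mul_assoc, h2, ← mul_assoc, h1, mul_assoc]
    · exact h
  set C := ⁅A, B⁆ with hCdef
  have hcAB := hcomm.2.1
  have hCA : ∀ c ∈ C, ∀ x ∈ A, c * x = x * c := fun c hc x hx => hcAB c hc x (le_sup_left (b := B) hx)
  have hAC : A ≠ C := by
    intro e
    apply hS.ne_bot _ hC
    rw [hCdef, cm_iff]
    intro a ha b hb
    have ha' : a ∈ C := (SetLike.ext_iff.1 e a).1 ha
    exact hcAB a ha' b (le_sup_right (a := A) hb)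
  have hAC0 : ∀ x, x ∈ A → x ∈ C → x = 1 := by
    intro x hx hx'
    by_contra hx1
    exact hAC (eq_of_inter hS hD hAD hC hx hx' hx1).symm
  have hdec : ∀ x ∈ A ⊔ C, ∃ a ∈ A, ∃ c ∈ C, x = a * c := by
    intro x hx
    have hle : A ≤ Subgroup.normalizer (C : Set G) := fun a ha =>
      cb_self_iff.1 (Cm.cb_eq (A := C) (B := A) hCA ha)
    rw [← SetLike.mem_coe, Subgroup.coe_mul_of_left_le_normalizer_right A C hle] at hx
    obtain ⟨a, ha, c, hc, rfl⟩ := hx
    exact ⟨a, ha, c, hc, rfl⟩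
  have hAb_le : ∀ b ∈ B, conjBy A b ≤ A ⊔ C := by
    intro b hb x hx
    have hx' := mem_cb.1 hx
    set a := b⁻¹ * x * b with hadef
    have e : x = (a * b * a⁻¹ * b⁻¹)⁻¹ * a := by rw [hadef]; group
    rw [e, ← commutatorElement_def]
    exact mul_mem (inv_mem (le_sup_right (a := A) (Subgroup.commutator_mem_commutator hx' hb)))
      (le_sup_left (b := C) hx')
  have hcover : ∀ x ∈ A ⊔ C, x ∈ C ∨ ∃ b ∈ B, x ∈ conjBy A b := by
    intro x hx
    obtain ⟨a, ha, c, hc, rfl⟩ := hdec x hx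
    by_cases ha1 : a = 1
    · exact Or.inl (by rwa [ha1, one_mul])
    obtain ⟨φ, hφ⟩ := comm_iso hS hAS hD hAD hB hcomm ha ha1
    obtain ⟨b, hb⟩ := φ.surjective ⟨c, hc⟩
    refine Or.inr ⟨(b : G)⁻¹, inv_mem b.2, mem_cb.2 ?_⟩
    have e : a⁻¹ * (b : G)⁻¹ * a * b = c := by rw [← hφ, hb]
    rw [← e]
    have : (b : G)⁻¹⁻¹ * (a * (a⁻¹ * (b : G)⁻¹ * a * b)) * (b : G)⁻¹ = a := by group
    rwa [this]
  have hclass : ∀ E ∈ S, E ≤ A ⊔ C → E = C ∨ ∃ b ∈ B, E = conjBy A b := by
    intro E hE hle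
    by_cases hEC : E ≤ C
    swap
    · obtain ⟨e, heE, heC⟩ := SetLike.not_le_iff_exists.1 hEC
      obtain ⟨b, hb, hx⟩ := (hcover e (hle heE)).resolve_left heC
      exact Or.inr ⟨b, hb, eq_of_inter hS (hS.conj_mem D hD b) (R_conj hAD b) hE hx heE
        (fun e1 => heC (e1 ▸ one_mem C))⟩
    left
    obtain ⟨e, heE, he1⟩ := ne_bot_exists (hS.ne_bot E hE)
    have hncm : ¬ ∀ d ∈ D, d * e = e * d := by
      intro hd
      have hz : e ∈ Subgroup.centralizer ((A ⊔ D : Subgroup G) : Set G) := by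
        have hle : A ⊔ D ≤ Subgroup.centralizer ({e} : Set G) := by
          refine sup_le ?_ ?_ <;> intro x hx <;> rw [Subgroup.mem_centralizer_singleton_iff]
          · exact (hCA e (hEC heE) x hx).symm
          · exact hd x hx
        exact fun x hx => Subgroup.mem_centralizer_singleton_iff.1 (hle hx)
      obtain ⟨a, ha, ha1⟩ := ne_bot_exists (R_ne_bot hAD)
      obtain ⟨φ, hφ⟩ := comm_iso hS hAS hD hAD hB hcomm ha ha1
      obtain ⟨b, hb⟩ := φ.surjective ⟨e, hEC heE⟩
      have ee : a⁻¹ * (b : G)⁻¹ * a * b = e := by rw [← hφ, hb]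
      refine Cfsg.Agent.S5025.result hS hAS ⟨hD, hAD⟩ hz he1 a ha ha1 ?_
      refine ⟨?_, conjBy A (b : G)⁻¹, hS.conj_mem A hAS _, ?_⟩
      · intro e1
        apply he1
        refine hAC0 e ?_ (hEC heE)
        rw [eq_inv_of_mul_eq_one_left e1]
        exact inv_mem ha
      · rw [hCA e (hEC heE) a ha, mem_cb]
        have : (b : G)⁻¹⁻¹ * (a * e) * (b : G)⁻¹ = a := by rw [← ee]; group
        rwa [this]
    rcases hS.pair D hD C hC with h | h | h
    · exact absurd (fun d hd => cm_iff.1 h d hd e (hEC heE)) hncm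
    · exact eq_of_inter hS hD (RankOnePair_symm h) hE (hEC heE) heE he1
    · rcases hS.pair D hD E hE with h' | h' | h'
      · exact absurd (fun d hd => cm_iff.1 h' d hd e heE) hncm
      · exfalso
        have := omega_not_cm h' (omega_conj (self_mem_omega D E) (le_sup_right (a := D) heE))
          (self_mem_omega D E) (comm_case_cm (comm_case_symm h) (hS.commutative D hD) (hEC heE))
        exact he1 (R_fix (RankOnePair_symm h') heE this)
      · obtain ⟨d, hd, hd1⟩ := ne_bot_exists (R_ne_bot (RankOnePair_symm hAD))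
        have hF : ⁅D, E⁆ = ⁅D, C⁆ :=
          (h'.2.2.2 e heE he1).symm.trans (h.2.2.2 e (hEC heE) he1)
        obtain ⟨φ, hφ⟩ := comm_iso hS hD hAS (RankOnePair_symm hAD) hC h hd hd1
        obtain ⟨ψ, hψ⟩ := comm_iso hS hD hAS (RankOnePair_symm hAD) hE h' hd hd1
        refine le_antisymm hEC fun c hc => ?_
        obtain ⟨x, hx⟩ := ψ.surjective
          ⟨(φ ⟨c, hc⟩ : G), (SetLike.ext_iff.1 hF _).2 (φ ⟨c, hc⟩).2⟩
        have h3 : φ ⟨(x : G), hEC x.2⟩ = φ ⟨c, hc⟩ := by
          apply Subtype.ext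
          have h4 := congrArg Subtype.val hx
          rw [hψ] at h4
          rw [hφ]
          exact h4
        have := congrArg Subtype.val (φ.injective h3)
        simp only at this
        rw [← this]
        exact x.2
  have hmem : membersIn S (A ⊔ C) = (fun b : G => conjBy A b) '' (B : Set G) ∪ {C} := by
    ext E
    constructor
    · rintro ⟨hE, hle⟩
      rcases hclass E hE hle with h | ⟨b, hb, h⟩
      · exact Or.inr h
      · exact Or.inl ⟨b, hb, h.symm⟩
    · rintro (⟨b, hb, rfl⟩ | h)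
      · exact ⟨hS.conj_mem A hAS b, hAb_le b hb⟩
      · rw [Set.mem_singleton_iff] at h
        subst h
        exact ⟨hC, le_sup_right⟩
  have hpart : IsSubgroupPartition (A ⊔ C) (membersIn S (A ⊔ C)) := by
    refine ⟨fun E hE => hE.2, fun x hx _ => ?_, fun E hE F hF hne => ?_⟩
    · rcases hcover x hx with h | ⟨b, hb, h⟩
      · exact ⟨C, ⟨hC, le_sup_right⟩, h⟩
      · exact ⟨_, ⟨hS.conj_mem A hAS b, hAb_le b hb⟩, h⟩
    · rw [Subgroup.eq_bot_iff_forall]
      rintro x ⟨hxE, hxF⟩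
      by_contra hx1
      rcases hclass E hE.1 hE.2 with rfl | ⟨b, hb, rfl⟩
      · rcases hclass F hF.1 hF.2 with rfl | ⟨b, hb, rfl⟩
        · exact hne rfl
        · exact hne (eq_of_inter hS (hS.conj_mem D hD b) (R_conj hAD b) hE.1 hxF hxE hx1)
      · exact hne (eq_of_inter hS (hS.conj_mem D hD b) (R_conj hAD b) hF.1 hxE hxF hx1).symm
  refine ⟨hmem, hpart, ⟨⟨hAS, hAC, cm_iff.2 hCA⟩, ?_⟩,
    fun a ha ha1 => comm_iso hS hAS hD hAD hB hcomm ha ha1⟩
  rwa [sup_comm]

end Cfsg.Agent.S5029
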