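import Cfsg.Statements.S5030
import Cfsg.Agent.Lib.RootTriangle
import Cfsg.Agent.S5025

set_option autoImplicit false
open Cfsg

namespace Cfsg.Agent.S5030

section Aux

open CfsgLib.Root

variable {G : Type*} [Group G]

/-- All commutators inside `H` commute with `H`. -/
def Cls (H : Subgroup G) : Prop := ∀ u ∈ H, ∀ v ∈ H, ∀ w ∈ H, Commute (u * v * u⁻¹ * v⁻¹) w

theorem cm_sup {P Q R : Subgroup G} (h1 : Cm P R) (h2 : Cm Q R) : Cm (P ⊔ Q) R := by
  have hle : P ⊔ Q ≤ Subgroup.centralizer (R : Set G) := sup_le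
    (fun x hx => Subgroup.mem_centralizer_iff.2 fun r hr => (h1 x hx r hr).symm)
    (fun x hx => Subgroup.mem_centralizer_iff.2 fun r hr => (h2 x hx r hr).symm)
  exact fun x hx r hr => (Subgroup.mem_centralizer_iff.1 (hle hx) r hr).symm

theorem comm_of_cm {P : Subgroup G} (h : Cm P P) : IsMulCommutative P :=
  ⟨⟨fun x y => Subtype.ext (h x x.2 y y.2)⟩⟩

theorem cls_bot {H : Subgroup G} (h : Cls H) : ⁅⁅H, H⁆, H⁆ = ⊥ := by
  rw [cm_iff]
  intro x hx w hw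
  have hle : ⁅H, H⁆ ≤ Subgroup.centralizer ({w} : Set G) := Subgroup.commutator_le.2 fun u hu v hv =>
    Subgroup.mem_centralizer_singleton_iff.2 (by rw [commutatorElement_def]; exact (h u hu v hv w hw).eq)
  exact Subgroup.mem_centralizer_singleton_iff.1 (hle hx)

theorem rotate {A B C : Subgroup G} (hac : Cm A C) (h : Cm A ⁅B, C⁆) : Cm C ⁅A, B⁆ := by
  rw [← cm_iff, Subgroup.commutator_comm]
  refine Subgroup.commutator_commutator_eq_bot_of_rotate ?_ ?_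
  · rw [Subgroup.commutator_comm]
    exact cm_iff.2 h
  · rw [show ⁅C, A⁆ = ⊥ from cm_iff.2 hac.symm, Subgroup.commutator_bot_left]

theorem hm {P Q R : Subgroup G} {x y : G} (hx : x ∈ P) (hy : y ∈ Q) (h : R = ⁅P, Q⁆) :
    x * y * x⁻¹ * y⁻¹ ∈ R := by
  rw [h, ← commutatorElement_def]
  exact Subgroup.commutator_mem_commutator hx hy

theorem dec_cm {X Y : Subgroup G} (h : Cm X Y) {z : G} (hz : z ∈ X ⊔ Y) : ∃ x ∈ X, ∃ y ∈ Y, x * y = z := by
  have hle : X ≤ Subgroup.normalizer (Y : Set G) := fun x hx => cb_self_iff.1 (h.symm.cb_eq hx)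
  rw [← SetLike.mem_coe, Subgroup.coe_mul_of_left_le_normalizer_right X Y hle] at hz
  exact hz

theorem cls_of_commuting {X Y : Subgroup G} (h : Cm X Y) (hX : Cls X) (hY : Cls Y) : Cls (X ⊔ Y) := by
  intro u hu v hv w hw
  obtain ⟨x, hx, y, hy, rfl⟩ := dec_cm h hu
  obtain ⟨x', hx', y', hy', rfl⟩ := dec_cm h hv
  obtain ⟨x'', hx'', y'', hy'', rfl⟩ := dec_cm h hw
  have e : x * y * (x' * y') * (x * y)⁻¹ * (x' * y')⁻¹ = (x * x' * x⁻¹ * x'⁻¹) * (y * y' * y⁻¹ * y'⁻¹) := by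
    have a1 : Commute y x' := (h x' hx' y hy).symm
    have a2 : Commute x⁻¹ y' := h _ (inv_mem hx) y' hy'
    have a3 : Commute (y * y' * y⁻¹ * y'⁻¹) x'⁻¹ :=
      (h _ (inv_mem hx') _ (mul_mem (mul_mem (mul_mem hy hy') (inv_mem hy)) (inv_mem hy'))).symm
    have a4 : Commute (y * y' * y⁻¹) x⁻¹ :=
      (h _ (inv_mem hx) _ (mul_mem (mul_mem hy hy') (inv_mem hy))).symm
    calc x * y * (x' * y') * (x * y)⁻¹ * (x' * y')⁻¹ = x * (y * x') * y' * y⁻¹ * x⁻¹ * y'⁻¹ * x'⁻¹ := by group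
      _ = x * x' * (y * y' * y⁻¹ * x⁻¹) * y'⁻¹ * x'⁻¹ := by rw [a1.eq]; group
      _ = x * x' * x⁻¹ * (y * y' * y⁻¹ * y'⁻¹ * x'⁻¹) := by rw [a4.eq]; group
      _ = _ := by rw [a3.eq]; group
  rw [e]
  have hxm := mul_mem (mul_mem (mul_mem hx hx') (inv_mem hx)) (inv_mem hx')
  have hym := mul_mem (mul_mem (mul_mem hy hy') (inv_mem hy)) (inv_mem hy')
  have h3 : Commute (y * y' * y⁻¹ * y'⁻¹) x'' := (h _ hx'' _ hym).symm
  have h4 : Commute (x * x' * x⁻¹ * x'⁻¹) y'' := h _ hxm _ hy''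
  exact ((hX x hx x' hx' x'' hx'').mul_right h4).mul_left (h3.mul_right (hY y hy y' hy' y'' hy''))

theorem cls_of_abelian {P Q : Subgroup G} (hP : Cm P P) (hQ : Cm Q Q)
    (h : ∀ p ∈ P, ∀ q ∈ Q, (∀ x ∈ P, Commute (p * q * p⁻¹ * q⁻¹) x) ∧ (∀ x ∈ Q, Commute (p * q * p⁻¹ * q⁻¹) x)) :
    Cls (P ⊔ Q) := by
  set K := (P ⊔ Q) ⊓ Subgroup.centralizer ((P ⊔ Q : Subgroup G) : Set G) with hK
  have hKc : ∀ z ∈ K, ∀ w ∈ P ⊔ Q, Commute z w := fun z hz w hw => (Subgroup.mem_centralizer_iff.1 hz.2 w hw).symm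
  have hmemK : ∀ z ∈ P ⊔ Q, (∀ x ∈ P, Commute z x) → (∀ x ∈ Q, Commute z x) → z ∈ K := fun z hz h1 h2 => by
    have hle : P ⊔ Q ≤ Subgroup.centralizer ({z} : Set G) := sup_le
      (fun x hx => Subgroup.mem_centralizer_singleton_iff.2 (h1 x hx).eq.symm)
      (fun x hx => Subgroup.mem_centralizer_singleton_iff.2 (h2 x hx).eq.symm)
    exact ⟨hz, Subgroup.mem_centralizer_iff.2 fun x hx => Subgroup.mem_centralizer_singleton_iff.1 (hle hx)⟩
  let T : G → Prop := fun u => u ∈ P ⊔ Q ∧ ∀ v ∈ P ⊔ Q, u * v * u⁻¹ * v⁻¹ ∈ K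
  have hgen : ∀ u, u ∈ P ∨ u ∈ Q → T u := by
    intro u hu
    have huM : u ∈ P ⊔ Q := hu.elim (fun h => le_sup_left (b := Q) h) (fun h => le_sup_right (a := P) h)
    refine ⟨huM, fun v hv => ?_⟩
    rw [Subgroup.sup_eq_closure] at hv
    induction hv using Subgroup.closure_induction with
    | mem v hv =>
      rcases hu with hu | hu <;> rcases hv with hv | hv
      · rw [hP u hu v hv]; simp
      · exact hmemK _ (mul_mem (mul_mem (mul_mem (le_sup_left (b := Q) hu) (le_sup_right (a := P) hv))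
          (inv_mem (le_sup_left (b := Q) hu))) (inv_mem (le_sup_right (a := P) hv))) (h u hu v hv).1 (h u hu v hv).2
      · rw [show u * v * u⁻¹ * v⁻¹ = (v * u * v⁻¹ * u⁻¹)⁻¹ by group]
        exact inv_mem (hmemK _ (mul_mem (mul_mem (mul_mem (le_sup_left (b := Q) hv) (le_sup_right (a := P) hu))
          (inv_mem (le_sup_left (b := Q) hv))) (inv_mem (le_sup_right (a := P) hu))) (h v hv u hu).1 (h v hv u hu).2)
      · rw [hQ u hu v hv]; simp
    | one => simp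
    | mul v w hv' hw' iv iw =>
      rw [← Subgroup.sup_eq_closure] at hv'
      have e : u * (v * w) * u⁻¹ * (v * w)⁻¹ = (u * v * u⁻¹ * v⁻¹) * (u * w * u⁻¹ * w⁻¹) := by
        calc u * (v * w) * u⁻¹ * (v * w)⁻¹ = (u * v * u⁻¹ * v⁻¹) * (v * (u * w * u⁻¹ * w⁻¹) * v⁻¹) := by group
          _ = _ := by rw [← (hKc _ iw v hv').eq, mul_inv_cancel_right]
      rw [e]; exact mul_mem iv iw
    | inv v hv' iv =>
      rw [← Subgroup.sup_eq_closure] at hv'
      have e : u * v⁻¹ * u⁻¹ * v⁻¹⁻¹ = (u * v * u⁻¹ * v⁻¹)⁻¹ := by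
        calc u * v⁻¹ * u⁻¹ * v⁻¹⁻¹ = v⁻¹ * (u * v * u⁻¹ * v⁻¹)⁻¹ * v := by group
          _ = _ := by rw [← (hKc _ (inv_mem iv) _ (inv_mem hv')).eq]; group
      rw [e]; exact inv_mem iv
  intro u hu v hv w hw
  refine hKc _ ?_ w hw
  have hT : T u := by
    rw [Subgroup.sup_eq_closure] at hu
    induction hu using Subgroup.closure_induction with
    | mem u hu => exact hgen u hu
    | one => exact ⟨one_mem _, fun v _ => by simp⟩
    | mul a c _ _ ia ic =>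
      refine ⟨mul_mem ia.1 ic.1, fun v hv => ?_⟩
      have e : a * c * v * (a * c)⁻¹ * v⁻¹ = (c * v * c⁻¹ * v⁻¹) * (a * v * a⁻¹ * v⁻¹) := by
        calc a * c * v * (a * c)⁻¹ * v⁻¹ = a * (c * v * c⁻¹ * v⁻¹) * (v * a⁻¹ * v⁻¹) := by group
          _ = _ := by rw [← (hKc _ (ic.2 v hv) a ia.1).eq]; group
      rw [e]; exact mul_mem (ic.2 v hv) (ia.2 v hv)
    | inv a _ ia =>
      refine ⟨inv_mem ia.1, fun v hv => ?_⟩
      have e : a⁻¹ * v * a⁻¹⁻¹ * v⁻¹ = (a * v * a⁻¹ * v⁻¹)⁻¹ := by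
        calc a⁻¹ * v * a⁻¹⁻¹ * v⁻¹ = a⁻¹ * (a * v * a⁻¹ * v⁻¹)⁻¹ * a := by group
          _ = _ := by rw [← (hKc _ (inv_mem (ia.2 v hv)) _ (inv_mem ia.1)).eq]; group
      rw [e]; exact inv_mem (ia.2 v hv)
  exact hT.2 v hv

variable {S : Set (Subgroup G)} {A B C : Subgroup G}

theorem side (hS : IsRootSubgroupSet S) (hA : A ∈ S) (hB : B ∈ S) (hC : C ∈ S) (hBC : ⁅B, C⁆ ∈ S) (hac : Cm A C) :
    ∀ a ∈ A, ∀ f ∈ ⁅B, C⁆, ∀ x, x ∈ A ∨ x ∈ C ∨ x ∈ ⁅B, C⁆ → Commute (a * f * a⁻¹ * f⁻¹) x := by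
  have h2 := comm_case_of_mem hS hB hC hBC
  have hFC : Cm ⁅B, C⁆ C := fun f hf c hc => h2.2.1 f hf c (le_sup_right (a := B) hc)
  intro a ha f hf x hx
  rcases hx with hx | hx | hx
  rotate_left
  · have x1 : Commute a x := hac a ha x hx
    have x2 : Commute f x := hFC f hf x hx
    exact ((x1.mul_left x2).mul_left x1.inv_left).mul_left x2.inv_left
  all_goals
    rcases hS.pair A hA ⁅B, C⁆ hBC with hp | hp | hp
    · rw [cm_iff.1 hp a ha f hf]; simp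
    · exfalso
      obtain ⟨b, hb, hb1⟩ := ne_bot_exists (hS.ne_bot B hB)
      refine hS.ne_bot _ hBC (eq_bot_iff.2 ?_)
      rw [← h2.2.2.1 b hb hb1, Subgroup.closure_le]
      rintro y ⟨c, hc, rfl⟩
      rw [SetLike.mem_coe, Subgroup.mem_bot]
      show b * c * b⁻¹ * c⁻¹ = 1
      by_contra hne
      have hm' : b * c * b⁻¹ * c⁻¹ ∈ ⁅B, C⁆ := hm hb hc rfl
      have hc1 : c ≠ 1 := fun e => hne (by simp [e])
      refine Cfsg.Agent.S5025.result hS hBC (B := A) ⟨hA, Cfsg.RankOnePair_symm hp⟩ (z := c) ?_ hc1 _ hm' hne ?_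
      · refine Subgroup.mem_centralizer_iff.2 fun z hz => ?_
        have hle : ⁅B, C⁆ ⊔ A ≤ Subgroup.centralizer ({c} : Set G) := sup_le
          (fun f hf => Subgroup.mem_centralizer_singleton_iff.2 (hFC f hf c hc))
          (fun a ha => Subgroup.mem_centralizer_singleton_iff.2 (hac a ha c hc))
        exact Subgroup.mem_centralizer_singleton_iff.1 (hle hz)
      · rw [← hFC _ hm' c hc, inv_mul_cancel_right]
        refine ⟨fun e => hc1 ?_, Cfsg.conjBy C b, hS.conj_mem C hC _, mem_cb_of_mem hc⟩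
        exact conj_eq_one_iff.1 e
    · have hk : a * f * a⁻¹ * f⁻¹ ∈ ⁅A, ⁅B, C⁆⁆ := hm ha hf rfl
      first
        | exact hp.2.1 _ hk x (le_sup_left (b := ⁅B, C⁆) hx)
        | exact hp.2.1 _ hk x (le_sup_right (a := A) hx)

theorem xcls (hS : IsRootSubgroupSet S) (hA : A ∈ S) (hB : B ∈ S) (hC : C ∈ S) (hBC : ⁅B, C⁆ ∈ S) (hac : Cm A C)
    {b : G} (hb : b ∈ B) : Cls (A ⊔ Cfsg.conjBy C b⁻¹) := by
  refine cls_of_abelian (cm_self (hS.commutative A hA)) (cm_self (hS.commutative _ (hS.conj_mem C hC _))) ?_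
  intro a ha q hq
  have hc := mem_cb.1 hq
  set c := b⁻¹⁻¹ * q * b⁻¹ with hcdef
  have hf : q * c⁻¹ ∈ ⁅B, C⁆ := by
    have := hm (inv_mem hb) hc (rfl : ⁅B, C⁆ = _)
    simpa [hcdef, mul_assoc] using this
  have x1 : Commute a c⁻¹ := hac a ha _ (inv_mem hc)
  have e : a * q * a⁻¹ * q⁻¹ = a * (q * c⁻¹) * a⁻¹ * (q * c⁻¹)⁻¹ := by
    symm
    calc a * (q * c⁻¹) * a⁻¹ * (q * c⁻¹)⁻¹ = a * q * (c⁻¹ * a⁻¹) * c * q⁻¹ := by group
      _ = a * q * (a⁻¹ * c⁻¹) * c * q⁻¹ := by rw [x1.inv_left.eq]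
      _ = a * q * a⁻¹ * q⁻¹ := by group
  rw [e]
  have hs := side hS hA hB hC hBC hac a ha _ hf
  refine ⟨fun x hx => hs x (Or.inl hx), fun x hx => ?_⟩
  have hx' := mem_cb.1 hx
  have hfx : x * (b⁻¹⁻¹ * x * b⁻¹)⁻¹ ∈ ⁅B, C⁆ := by
    have := hm (inv_mem hb) hx' (rfl : ⁅B, C⁆ = _)
    simpa [mul_assoc] using this
  have := (hs _ (Or.inr (Or.inr hfx))).mul_right (hs _ (Or.inr (Or.inl hx')))
  rwa [inv_mul_cancel_right] at this

theorem step (n : ℕ) (x : ↥(A ⊔ B ⊔ C))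
    (h : ∀ y : ↥(A ⊔ B ⊔ C), (y : G) ∈ A ∨ (y : G) ∈ B ∨ (y : G) ∈ C →
      x * y * x⁻¹ * y⁻¹ ∈ Subgroup.upperCentralSeries ↥(A ⊔ B ⊔ C) n) :
    x ∈ Subgroup.upperCentralSeries ↥(A ⊔ B ⊔ C) (n + 1) := by
  set N := Subgroup.upperCentralSeries ↥(A ⊔ B ⊔ C) n with hN
  haveI : N.Normal := by rw [hN]; infer_instance
  rw [Subgroup.mem_upperCentralSeries_succ_iff]
  let T : Subgroup ↥(A ⊔ B ⊔ C) :=
    { carrier := {y | x * y * x⁻¹ * y⁻¹ ∈ N}
      one_mem' := by simp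
      mul_mem' := fun {y z} hy hz => by
        show x * (y * z) * x⁻¹ * (y * z)⁻¹ ∈ N
        rw [show x * (y * z) * x⁻¹ * (y * z)⁻¹ = (x * y * x⁻¹ * y⁻¹) * (y * (x * z * x⁻¹ * z⁻¹) * y⁻¹) by group]
        exact mul_mem hy (Subgroup.Normal.conj_mem inferInstance _ hz y)
      inv_mem' := fun {y} hy => by
        show x * y⁻¹ * x⁻¹ * y⁻¹⁻¹ ∈ N
        rw [show x * y⁻¹ * x⁻¹ * y⁻¹⁻¹ = y⁻¹ * (x * y * x⁻¹ * y⁻¹)⁻¹ * y⁻¹⁻¹ by group]
        exact Subgroup.Normal.conj_mem inferInstance _ (inv_mem hy) _ }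
  intro y
  have hle : A ⊔ B ⊔ C ≤ T.map (A ⊔ B ⊔ C).subtype := by
    refine sup_le (sup_le ?_ ?_) ?_
    · exact fun z hz => ⟨⟨z, le_sup_left (b := C) (le_sup_left (b := B) hz)⟩, h _ (Or.inl hz), rfl⟩
    · exact fun z hz => ⟨⟨z, le_sup_left (b := C) (le_sup_right (a := A) hz)⟩, h _ (Or.inr (Or.inl hz)), rfl⟩
    · exact fun z hz => ⟨⟨z, le_sup_right (a := A ⊔ B) hz⟩, h _ (Or.inr (Or.inr hz)), rfl⟩
  obtain ⟨z, hz, hzy⟩ := hle y.2
  exact (Subtype.ext hzy : z = y) ▸ hz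

theorem top_of_gens (N : Subgroup ↥(A ⊔ B ⊔ C))
    (h : ∀ y : ↥(A ⊔ B ⊔ C), (y : G) ∈ A ∨ (y : G) ∈ B ∨ (y : G) ∈ C → y ∈ N) (x : ↥(A ⊔ B ⊔ C)) : x ∈ N := by
  have hle : A ⊔ B ⊔ C ≤ N.map (A ⊔ B ⊔ C).subtype := by
    refine sup_le (sup_le ?_ ?_) ?_
    · exact fun z hz => ⟨⟨z, le_sup_left (b := C) (le_sup_left (b := B) hz)⟩, h _ (Or.inl hz), rfl⟩
    · exact fun z hz => ⟨⟨z, le_sup_left (b := C) (le_sup_right (a := A) hz)⟩, h _ (Or.inr (Or.inl hz)), rfl⟩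
    · exact fun z hz => ⟨⟨z, le_sup_right (a := A ⊔ B) hz⟩, h _ (Or.inr (Or.inr hz)), rfl⟩
  obtain ⟨z, hz, hzy⟩ := hle x.2
  exact (Subtype.ext hzy : z = x) ▸ hz

omit [Group G] in
theorem one_val {H : Type*} [Group H] {K : Subgroup H} {N : Subgroup K} {x : K} (h : (x : H) = 1) : x ∈ N := by
  rw [show x = 1 from Subtype.ext h]; exact one_mem _

omit [Group G] in
theorem invmem {H : Type*} [Group H] {N : Subgroup H} {x : H} (h : x⁻¹ ∈ N) : x ∈ N := inv_mem_iff.1 h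

end Aux

/-- Let S be a set of abstract root subgroups of G and A, B, C ∈ S with ⁅A, B⁆ ∈ S and ⁅B, C⁆ ∈ S, where A and C are different and commute. For a non-identity b ∈ B put X = ⟨A, b⁻¹ C b⟩ and Y = ⟨b⁻¹ A b, C⟩ and R = ⟨A, B, C⟩. Then X and Y are either both abelian or both nilpotent of class exactly two; X and Y commute elementwise; XY is normal in R with R = (XY) B; and R is nilpotent. -/
theorem result {G : Type*} [Group G] {S : Set (Subgroup G)} (hS : Cfsg.IsRootSubgroupSet S)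
    {A B C : Subgroup G} (hA : A ∈ S) (hB : B ∈ S) (hC : C ∈ S) (hAB : ⁅A, B⁆ ∈ S) (hBC : ⁅B, C⁆ ∈ S)
    (hAC : C ∈ Cfsg.commutingPartners S A)
    {b : G} (hb : b ∈ B) (hb1 : b ≠ 1) :
    ((IsMulCommutative ↥(A ⊔ Cfsg.conjBy C b⁻¹) ∧ IsMulCommutative ↥(Cfsg.conjBy A b⁻¹ ⊔ C)) ∨
      ((¬ IsMulCommutative ↥(A ⊔ Cfsg.conjBy C b⁻¹) ∧
          ⁅⁅A ⊔ Cfsg.conjBy C b⁻¹, A ⊔ Cfsg.conjBy C b⁻¹⁆, A ⊔ Cfsg.conjBy C b⁻¹⁆ = ⊥) ∧
        (¬ IsMulCommutative ↥(Cfsg.conjBy A b⁻¹ ⊔ C) ∧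
          ⁅⁅Cfsg.conjBy A b⁻¹ ⊔ C, Cfsg.conjBy A b⁻¹ ⊔ C⁆, Cfsg.conjBy A b⁻¹ ⊔ C⁆ = ⊥))) ∧
    ⁅A ⊔ Cfsg.conjBy C b⁻¹, Cfsg.conjBy A b⁻¹ ⊔ C⁆ = ⊥ ∧
    (∀ r ∈ A ⊔ B ⊔ C, Cfsg.conjBy ((A ⊔ Cfsg.conjBy C b⁻¹) ⊔ (Cfsg.conjBy A b⁻¹ ⊔ C)) r =
      (A ⊔ Cfsg.conjBy C b⁻¹) ⊔ (Cfsg.conjBy A b⁻¹ ⊔ C)) ∧
    ((A ⊔ Cfsg.conjBy C b⁻¹) ⊔ (Cfsg.conjBy A b⁻¹ ⊔ C)) ⊔ B = A ⊔ B ⊔ C ∧
    Group.IsNilpotent ↥(A ⊔ B ⊔ C) := by
  obtain ⟨-, -, hACc⟩ := hAC
  have hac : CfsgLib.Root.Cm A C := CfsgLib.Root.cm_iff.1 hACc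
  have hBA : ⁅B, A⁆ ∈ S := by rw [Subgroup.commutator_comm]; exact hAB
  have hCB : ⁅C, B⁆ ∈ S := by rw [Subgroup.commutator_comm]; exact hBC
  have hAcm := CfsgLib.Root.cm_self (hS.commutative A hA)
  have hBcm := CfsgLib.Root.cm_self (hS.commutative B hB)
  have hCcm := CfsgLib.Root.cm_self (hS.commutative C hC)
  have hk := side hS hA hB hC hBC hac
  have hl := side hS hC hB hA hBA hac.symm
  have hX : Cls (A ⊔ Cfsg.conjBy C b⁻¹) := xcls hS hA hB hC hBC hac hb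
  have hY : Cls (Cfsg.conjBy A b⁻¹ ⊔ C) := by
    rw [sup_comm]; exact xcls hS hC hB hA hBA hac.symm hb
  set X := A ⊔ Cfsg.conjBy C b⁻¹ with hXdef
  set Y := Cfsg.conjBy A b⁻¹ ⊔ C with hYdef
  set E := ⁅A, B⁆ with hEdef
  set F := ⁅B, C⁆ with hFdef
  have h1 := CfsgLib.Root.comm_case_of_mem hS hA hB hAB
  have h2 := CfsgLib.Root.comm_case_of_mem hS hB hC hBC
  have hEA : CfsgLib.Root.Cm E A := fun e he a ha => h1.2.1 e he a (le_sup_left (b := B) ha)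
  have hEB : CfsgLib.Root.Cm E B := fun e he x hx => h1.2.1 e he x (le_sup_right (a := A) hx)
  have hFB : CfsgLib.Root.Cm F B := fun f hf x hx => h2.2.1 f hf x (le_sup_left (b := C) hx)
  have hFC : CfsgLib.Root.Cm F C := fun f hf c hc => h2.2.1 f hf c (le_sup_right (a := B) hc)
  -- `X` and `Y` commute
  have hAb : ∀ x ∈ Cfsg.conjBy A b⁻¹, ∃ a ∈ A, ∃ e ∈ E, x = e * a ∧ x = b⁻¹ * a * b := by
    intro x hx
    have ha := CfsgLib.Root.mem_cb.1 hx
    refine ⟨_, ha, _, ?_, (inv_mul_cancel_right x (b⁻¹⁻¹ * x * b⁻¹)).symm, by group⟩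
    have := Subgroup.commutator_mem_commutator (inv_mem hb) ha
    rw [Subgroup.commutator_comm, ← hEdef, commutatorElement_def] at this
    simpa [mul_assoc] using this
  have hCb : ∀ x ∈ Cfsg.conjBy C b⁻¹, ∃ c ∈ C, ∃ f ∈ F, x = f * c ∧ x = b⁻¹ * c * b := by
    intro x hx
    have hc := CfsgLib.Root.mem_cb.1 hx
    refine ⟨_, hc, _, ?_, (inv_mul_cancel_right x (b⁻¹⁻¹ * x * b⁻¹)).symm, by group⟩
    have := Subgroup.commutator_mem_commutator (inv_mem hb) hc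
    rw [← hFdef, commutatorElement_def] at this
    simpa [mul_assoc] using this
  have hXY : CfsgLib.Root.Cm X Y := by
    have c1 : CfsgLib.Root.Cm A (Cfsg.conjBy A b⁻¹) := by
      intro a ha x hx
      obtain ⟨a', ha', e, he, rfl, -⟩ := hAb x hx
      exact ((show Commute a e from (hEA e he a ha).symm).mul_right (hAcm a ha a' ha')).eq
    have c2 : CfsgLib.Root.Cm (Cfsg.conjBy C b⁻¹) C := by
      intro x hx c hc
      obtain ⟨c', hc', f, hf, rfl, -⟩ := hCb x hx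
      exact ((show Commute f c from hFC f hf c hc).mul_left (hCcm c' hc' c hc)).eq
    exact cm_sup (cm_sup c1.symm hac.symm).symm (cm_sup (hac.symm.conj b⁻¹).symm c2.symm).symm
  -- `X ⊔ Y` has class at most two
  have hM : Cls (X ⊔ Y) := cls_of_commuting hXY hX hY
  set M := X ⊔ Y with hMdef
  have hEM : E ≤ M := by
    rw [hEdef, ← h1.2.2.2 b⁻¹ (inv_mem hb) (inv_ne_one.2 hb1), Subgroup.closure_le]
    rintro x ⟨a, ha, rfl⟩
    have ha' : b⁻¹ * a⁻¹ * b ∈ M := le_sup_right (a := X) (le_sup_left (b := C) (by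
      have := CfsgLib.Root.mem_cb_of_mem (g := b⁻¹) (inv_mem ha); rwa [inv_inv] at this))
    have := mul_mem (le_sup_left (b := Y) (le_sup_left (b := Cfsg.conjBy C b⁻¹) ha) : a ∈ M) ha'
    simpa [mul_assoc] using this
  have hFM : F ≤ M := by
    rw [hFdef, ← h2.2.2.1 b⁻¹ (inv_mem hb) (inv_ne_one.2 hb1), Subgroup.closure_le]
    rintro x ⟨c, hc, rfl⟩
    have hc' : b⁻¹ * c * b ∈ M := le_sup_left (b := Y) (le_sup_right (a := A) (by
      have := CfsgLib.Root.mem_cb_of_mem (g := b⁻¹) hc; rwa [inv_inv] at this))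
    have := mul_mem hc' (le_sup_right (a := X) (le_sup_right (a := Cfsg.conjBy A b⁻¹) (inv_mem hc)) : c⁻¹ ∈ M)
    simpa [mul_assoc] using this
  have hAM : A ≤ M := le_trans le_sup_left le_sup_left
  have hCM : C ≤ M := le_trans le_sup_right le_sup_right
  have hBN : B ≤ Subgroup.normalizer (M : Set G) := by
    have hle : ∀ x ∈ B, Cfsg.conjBy M x ≤ M := by
      intro x hx
      rw [hMdef, hXdef, hYdef, CfsgLib.Root.cb_sup, CfsgLib.Root.cb_sup, CfsgLib.Root.cb_sup, CfsgLib.Root.cb_mul,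
        CfsgLib.Root.cb_mul]
      have hA' : ∀ y ∈ B, Cfsg.conjBy A y ≤ M := fun y hy z hz => by
        have ha := CfsgLib.Root.mem_cb.1 hz
        have he : y * (y⁻¹ * z * y) * y⁻¹ * (y⁻¹ * z * y)⁻¹ ∈ E := by
          have := Subgroup.commutator_mem_commutator hy ha
          rwa [Subgroup.commutator_comm, ← hEdef, commutatorElement_def] at this
        have := mul_mem (hEM he) (hAM ha)
        simpa [mul_assoc] using this
      have hC' : ∀ y ∈ B, Cfsg.conjBy C y ≤ M := fun y hy z hz => by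
        have hc := CfsgLib.Root.mem_cb.1 hz
        have hf : y * (y⁻¹ * z * y) * y⁻¹ * (y⁻¹ * z * y)⁻¹ ∈ F := by
          have := Subgroup.commutator_mem_commutator hy hc
          rwa [← hFdef, commutatorElement_def] at this
        have := mul_mem (hFM hf) (hCM hc)
        simpa [mul_assoc] using this
      exact sup_le (sup_le (hA' x hx) (hC' _ (mul_mem hx (inv_mem hb))))
        (sup_le (hA' _ (mul_mem hx (inv_mem hb))) (hC' x hx))
    intro x hx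
    refine CfsgLib.Root.cb_self_iff.1 (le_antisymm (hle x hx) ?_)
    have := CfsgLib.Root.cb_mono x (hle x⁻¹ (inv_mem hx))
    rwa [CfsgLib.Root.cb_inv'] at this
  have hMR : M ⊔ B = A ⊔ B ⊔ C := by
    refine le_antisymm (sup_le ?_ (le_trans le_sup_right le_sup_left)) ?_
    · have hb' : b⁻¹ ∈ A ⊔ B ⊔ C := le_sup_left (b := C) (le_sup_right (a := A) (inv_mem hb))
      have hAR : A ≤ A ⊔ B ⊔ C := le_trans le_sup_left le_sup_left
      refine sup_le (sup_le hAR ?_) (sup_le ?_ le_sup_right)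
      · calc Cfsg.conjBy C b⁻¹ ≤ Cfsg.conjBy (A ⊔ B ⊔ C) b⁻¹ := CfsgLib.Root.cb_mono _ le_sup_right
          _ = A ⊔ B ⊔ C := CfsgLib.Root.cb_of_mem hb'
      · calc Cfsg.conjBy A b⁻¹ ≤ Cfsg.conjBy (A ⊔ B ⊔ C) b⁻¹ := CfsgLib.Root.cb_mono _ hAR
          _ = A ⊔ B ⊔ C := CfsgLib.Root.cb_of_mem hb'
    · exact sup_le (sup_le (hAM.trans le_sup_left) le_sup_right) (hCM.trans le_sup_left)
  refine ⟨?_, CfsgLib.Root.cm_iff.2 hXY, ?_, hMR, ?_⟩
  · by_cases hAF : CfsgLib.Root.Cm A F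
    · left
      refine ⟨comm_of_cm (cm_sup (cm_sup hAcm ?_).symm (cm_sup ?_ (CfsgLib.Root.Cm.conj hCcm b⁻¹)).symm),
        comm_of_cm (cm_sup (cm_sup (CfsgLib.Root.Cm.conj hAcm b⁻¹) ?_).symm (cm_sup ?_ hCcm).symm)⟩
      all_goals first
        | (intro x hx a ha
           obtain ⟨c', hc', f, hf, rfl, -⟩ := hCb x hx
           exact (((show Commute a f from hAF a ha f hf)).mul_right (hac a ha c' hc')).symm.eq)
        | (intro a ha x hx
           obtain ⟨c', hc', f, hf, rfl, -⟩ := hCb x hx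
           exact (((show Commute a f from hAF a ha f hf)).mul_right (hac a ha c' hc')).eq)
        | (have hCE : CfsgLib.Root.Cm C E := rotate hac hAF
           intro x hx c hc
           obtain ⟨a', ha', e, he, rfl, -⟩ := hAb x hx
           exact ((show Commute c e from hCE c hc e he).mul_right (hac a' ha' c hc).symm).symm.eq)
        | (have hCE : CfsgLib.Root.Cm C E := rotate hac hAF
           intro c hc x hx
           obtain ⟨a', ha', e, he, rfl, -⟩ := hAb x hx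
           exact ((show Commute c e from hCE c hc e he).mul_right (hac a' ha' c hc).symm).eq)
    · right
      refine ⟨⟨fun hcomm => hAF ?_, cls_bot hX⟩, ⟨fun hcomm => hAF ?_, cls_bot hY⟩⟩
      · have hc' := CfsgLib.Root.cm_self hcomm
        intro a ha f hf
        have hle : F ≤ Subgroup.centralizer ({a} : Set G) := by
          rw [hFdef, ← h2.2.2.1 b⁻¹ (inv_mem hb) (inv_ne_one.2 hb1), Subgroup.closure_le]
          rintro x ⟨c, hc, rfl⟩
          rw [SetLike.mem_coe, Subgroup.mem_centralizer_singleton_iff]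
          have x1 : Commute a (b⁻¹ * c * b) := hc' a (le_sup_left (b := Cfsg.conjBy C b⁻¹) ha) _
            (le_sup_right (a := A) (by have := CfsgLib.Root.mem_cb_of_mem (g := b⁻¹) hc; rwa [inv_inv] at this))
          have x2 := x1.mul_right (show Commute a c from hac a ha c hc).inv_right
          simpa [mul_assoc] using x2.symm.eq
        exact (Subgroup.mem_centralizer_singleton_iff.1 (hle hf)).symm
      · have hc' := CfsgLib.Root.cm_self hcomm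
        have hCE : CfsgLib.Root.Cm C E := by
          intro c hc e he
          have hle : E ≤ Subgroup.centralizer ({c} : Set G) := by
            rw [hEdef, ← h1.2.2.2 b⁻¹ (inv_mem hb) (inv_ne_one.2 hb1), Subgroup.closure_le]
            rintro x ⟨a, ha, rfl⟩
            rw [SetLike.mem_coe, Subgroup.mem_centralizer_singleton_iff]
            have x1 : Commute c (b⁻¹ * a⁻¹ * b) := hc' c (le_sup_right (a := Cfsg.conjBy A b⁻¹) hc) _
              (le_sup_left (b := C) (by have := CfsgLib.Root.mem_cb_of_mem (g := b⁻¹) (inv_mem ha); rwa [inv_inv] at this))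
            have x2 := (show Commute c a from (hac a ha c hc).symm).mul_right x1
            simpa [mul_assoc] using x2.symm.eq
          exact (Subgroup.mem_centralizer_singleton_iff.1 (hle he)).symm
        have h := rotate (A := C) (B := B) (C := A) hac.symm
          (by rw [Subgroup.commutator_comm B A]; exact hCE)
        rw [Subgroup.commutator_comm C B] at h
        exact h
  · intro r hr
    refine CfsgLib.Root.cb_self_iff.2 (sup_le (sup_le ?_ hBN) ?_ hr)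
    · exact hAM.trans Subgroup.le_normalizer
    · exact hCM.trans Subgroup.le_normalizer
  · -- nilpotency
    have hAR : A ≤ A ⊔ B ⊔ C := le_trans le_sup_left le_sup_left
    have hBR : B ≤ A ⊔ B ⊔ C := le_trans le_sup_right le_sup_left
    have hCR : C ≤ A ⊔ B ⊔ C := le_sup_right
    have hER : E ≤ A ⊔ B ⊔ C := hEM.trans (le_sup_left.trans hMR.le)
    have hFR : F ≤ A ⊔ B ⊔ C := hFM.trans (le_sup_left.trans hMR.le)
    have hz : ∀ e ∈ E, ∀ f ∈ F, ∀ x : ↥(A ⊔ B ⊔ C), (x : G) = e * f * e⁻¹ * f⁻¹ →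
        x ∈ Subgroup.upperCentralSeries ↥(A ⊔ B ⊔ C) 1 := by
      intro e he f hf x hx
      refine step 0 x (fun y hy => ?_)
      rw [Subgroup.upperCentralSeries_zero, Subgroup.mem_bot]
      refine Subtype.ext ?_
      simp only [Subgroup.coe_mul, InvMemClass.coe_inv, OneMemClass.coe_one, hx]
      have hcom : Commute (e * f * e⁻¹ * f⁻¹) (y : G) := by
        rcases hy with hy | hy | hy
        · exact hM e (hEM he) f (hFM hf) _ (hAM hy)
        · have x1 : Commute e (y : G) := hEB e he _ hy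
          have x2 : Commute f (y : G) := hFB f hf _ hy
          exact ((x1.mul_left x2).mul_left x1.inv_left).mul_left x2.inv_left
        · exact hM e (hEM he) f (hFM hf) _ (hCM hy)
      exact mul_inv_eq_one.2 (mul_inv_eq_iff_eq_mul.2 hcom.eq)
    have hk2 : ∀ a ∈ A, ∀ f ∈ F, ∀ x : ↥(A ⊔ B ⊔ C), (x : G) = a * f * a⁻¹ * f⁻¹ →
        x ∈ Subgroup.upperCentralSeries ↥(A ⊔ B ⊔ C) 2 := by
      intro a ha f hf x hx
      refine step 1 x (fun y hy => ?_)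
      rcases hy with hy | hy | hy
      · refine one_val ?_
        simp only [Subgroup.coe_mul, InvMemClass.coe_inv, hx]
        exact mul_inv_eq_one.2 (mul_inv_eq_iff_eq_mul.2 (hM a (hAM ha) f (hFM hf) _ (hAM hy)))
      · have he : (y : G) * a * (y : G)⁻¹ * a⁻¹ ∈ E := hm hy ha (by rw [hEdef, Subgroup.commutator_comm])
        refine invmem (hz _ he f hf _ ?_)
        simp only [Subgroup.coe_mul, InvMemClass.coe_inv, hx]
        set e := (y : G) * a * (y : G)⁻¹ * a⁻¹ with hedef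
        have hyf : (y : G) * f * (y : G)⁻¹ = f := mul_inv_eq_iff_eq_mul.2 (hFB f hf _ hy).symm
        have hcm : Commute (a * f * a⁻¹ * f⁻¹) e := hM a (hAM ha) f (hFM hf) e (hEM he)
        have hcm2 : Commute (a * f * a⁻¹ * f⁻¹) (e * f * e⁻¹ * f⁻¹) :=
          hM a (hAM ha) f (hFM hf) _ (mul_mem (mul_mem (mul_mem (hEM he) (hFM hf)) (inv_mem (hEM he))) (inv_mem (hFM hf)))
        calc ((a * f * a⁻¹ * f⁻¹) * (y : G) * (a * f * a⁻¹ * f⁻¹)⁻¹ * (y : G)⁻¹)⁻¹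
            = ((y : G) * a * (y : G)⁻¹) * ((y : G) * f * (y : G)⁻¹) * ((y : G) * a * (y : G)⁻¹)⁻¹ *
                ((y : G) * f * (y : G)⁻¹)⁻¹ * (a * f * a⁻¹ * f⁻¹)⁻¹ := by group
          _ = e * (a * f * a⁻¹ * f⁻¹) * f * e⁻¹ * f⁻¹ * (a * f * a⁻¹ * f⁻¹)⁻¹ := by
              rw [hyf, show (y : G) * a * (y : G)⁻¹ = e * a by rw [hedef]; group]; group
          _ = (a * f * a⁻¹ * f⁻¹) * (e * f * e⁻¹ * f⁻¹) * (a * f * a⁻¹ * f⁻¹)⁻¹ := by rw [← hcm.eq]; group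
          _ = e * f * e⁻¹ * f⁻¹ := by rw [hcm2.eq, mul_inv_cancel_right]
      · refine one_val ?_
        simp only [Subgroup.coe_mul, InvMemClass.coe_inv, hx]
        exact mul_inv_eq_one.2 (mul_inv_eq_iff_eq_mul.2 (hM a (hAM ha) f (hFM hf) _ (hCM hy)))
    have hl2 : ∀ e ∈ E, ∀ c ∈ C, ∀ x : ↥(A ⊔ B ⊔ C), (x : G) = e * c * e⁻¹ * c⁻¹ →
        x ∈ Subgroup.upperCentralSeries ↥(A ⊔ B ⊔ C) 2 := by
      intro e he c hc x hx
      refine step 1 x (fun y hy => ?_)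
      rcases hy with hy | hy | hy
      · refine one_val ?_
        simp only [Subgroup.coe_mul, InvMemClass.coe_inv, hx]
        exact mul_inv_eq_one.2 (mul_inv_eq_iff_eq_mul.2 (hM e (hEM he) c (hCM hc) _ (hAM hy)))
      · have hf : (y : G) * c * (y : G)⁻¹ * c⁻¹ ∈ F := hm hy hc hFdef
        refine invmem (hz e he _ hf _ ?_)
        simp only [Subgroup.coe_mul, InvMemClass.coe_inv, hx]
        set f := (y : G) * c * (y : G)⁻¹ * c⁻¹ with hfdef
        have hye : (y : G) * e * (y : G)⁻¹ = e := mul_inv_eq_iff_eq_mul.2 (hEB e he _ hy).symm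
        have hcm : Commute (e * c * e⁻¹ * c⁻¹) f := hM e (hEM he) c (hCM hc) f (hFM hf)
        calc ((e * c * e⁻¹ * c⁻¹) * (y : G) * (e * c * e⁻¹ * c⁻¹)⁻¹ * (y : G)⁻¹)⁻¹
            = ((y : G) * e * (y : G)⁻¹) * ((y : G) * c * (y : G)⁻¹) * ((y : G) * e * (y : G)⁻¹)⁻¹ *
                ((y : G) * c * (y : G)⁻¹)⁻¹ * (e * c * e⁻¹ * c⁻¹)⁻¹ := by group
          _ = e * f * e⁻¹ * ((e * c * e⁻¹ * c⁻¹) * f⁻¹) * (e * c * e⁻¹ * c⁻¹)⁻¹ := by
              rw [hye, show (y : G) * c * (y : G)⁻¹ = f * c by rw [hfdef]; group]; group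
          _ = e * f * e⁻¹ * f⁻¹ := by rw [hcm.inv_right.eq]; group
      · refine one_val ?_
        simp only [Subgroup.coe_mul, InvMemClass.coe_inv, hx]
        exact mul_inv_eq_one.2 (mul_inv_eq_iff_eq_mul.2 (hM e (hEM he) c (hCM hc) _ (hCM hy)))
    have hE3 : ∀ x : ↥(A ⊔ B ⊔ C), (x : G) ∈ E → x ∈ Subgroup.upperCentralSeries ↥(A ⊔ B ⊔ C) 3 := by
      intro x hx
      refine step 2 x (fun y hy => ?_)
      rcases hy with hy | hy | hy
      · exact one_val (mul_inv_eq_one.2 (mul_inv_eq_iff_eq_mul.2 (hEA _ hx _ hy)))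
      · exact one_val (mul_inv_eq_one.2 (mul_inv_eq_iff_eq_mul.2 (hEB _ hx _ hy)))
      · exact hl2 _ hx _ hy _ rfl
    have hF3 : ∀ x : ↥(A ⊔ B ⊔ C), (x : G) ∈ F → x ∈ Subgroup.upperCentralSeries ↥(A ⊔ B ⊔ C) 3 := by
      intro x hx
      refine step 2 x (fun y hy => ?_)
      rcases hy with hy | hy | hy
      · refine invmem (hk2 _ hy _ hx _ ?_)
        simp only [Subgroup.coe_mul, InvMemClass.coe_inv]; group
      · exact one_val (mul_inv_eq_one.2 (mul_inv_eq_iff_eq_mul.2 (hFB _ hx _ hy)))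
      · exact one_val (mul_inv_eq_one.2 (mul_inv_eq_iff_eq_mul.2 (hFC _ hx _ hy)))
    have hA4 : ∀ x : ↥(A ⊔ B ⊔ C), (x : G) ∈ A → x ∈ Subgroup.upperCentralSeries ↥(A ⊔ B ⊔ C) 4 := by
      intro x hx
      refine step 3 x (fun y hy => ?_)
      rcases hy with hy | hy | hy
      · exact one_val (mul_inv_eq_one.2 (mul_inv_eq_iff_eq_mul.2 (hAcm _ hx _ hy)))
      · exact hE3 _ (hm hx hy hEdef)
      · exact one_val (mul_inv_eq_one.2 (mul_inv_eq_iff_eq_mul.2 (hac _ hx _ hy)))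
    have hC4 : ∀ x : ↥(A ⊔ B ⊔ C), (x : G) ∈ C → x ∈ Subgroup.upperCentralSeries ↥(A ⊔ B ⊔ C) 4 := by
      intro x hx
      refine step 3 x (fun y hy => ?_)
      rcases hy with hy | hy | hy
      · exact one_val (mul_inv_eq_one.2 (mul_inv_eq_iff_eq_mul.2 (hac.symm _ hx _ hy)))
      · exact hF3 _ (hm hx hy (by rw [hFdef, Subgroup.commutator_comm]))
      · exact one_val (mul_inv_eq_one.2 (mul_inv_eq_iff_eq_mul.2 (hCcm _ hx _ hy)))
    refine Group.isNilpotent_iff _ |>.2 ⟨5, eq_top_iff.2 fun x _ => ?_⟩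
    refine top_of_gens _ (fun y hy => ?_) x
    rcases hy with hy | hy | hy
    · exact Subgroup.upperCentralSeries_mono _ (by norm_num : 4 ≤ 5) (hA4 y hy)
    · refine step 4 y (fun z hz => ?_)
      rcases hz with hz | hz | hz
      · exact Subgroup.upperCentralSeries_mono _ (by norm_num : 3 ≤ 4) (hE3 _ (hm hy hz (by rw [hEdef, Subgroup.commutator_comm])))
      · exact one_val (mul_inv_eq_one.2 (mul_inv_eq_iff_eq_mul.2 (hBcm _ hy _ hz)))
      · exact Subgroup.upperCentralSeries_mono _ (by norm_num : 3 ≤ 4) (hF3 _ (hm hy hz hFdef))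
    · exact Subgroup.upperCentralSeries_mono _ (by norm_num : 4 ≤ 5) (hC4 y hy)

end Cfsg.Agent.S5030
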