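import Cfsg.Statements.S5031
import Cfsg.Agent.Lib.RootSets

set_option autoImplicit false
open Cfsg CfsgLib.Root

namespace Cfsg.Agent.S5031

/-- Let S be a set of abstract root subgroups of G and let A, B ∈ S lie in different connected components of the graph of rank one pairs on S, each component having more than one member. Then B is not a line partner of A. -/
theorem result {G : Type*} [Group G] {S : Set (Subgroup G)} (hS : Cfsg.IsRootSubgroupSet S)
    {A B : Subgroup G} (hA : A ∈ S) (hB : B ∈ S)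
    (hne : Cfsg.componentOf (Cfsg.FAdj S) S A ≠ Cfsg.componentOf (Cfsg.FAdj S) S B)
    (hA2 : ∃ A' ∈ Cfsg.componentOf (Cfsg.FAdj S) S A, A' ≠ A) (hB2 : ∃ B' ∈ Cfsg.componentOf (Cfsg.FAdj S) S B, B' ≠ B) :
    B ∉ Cfsg.linePartners S A := by
  rintro ⟨⟨-, hBA, hcm⟩, hpart⟩
  rw [cm_iff] at hcm
  have partner : ∀ X : Subgroup G, (∃ Y ∈ componentOf (FAdj S) S X, Y ≠ X) →
      ∃ D ∈ S, IsRankOnePair X D := by
    rintro X ⟨Y, ⟨-, hY⟩, hne⟩
    rcases Relation.ReflTransGen.cases_head hY with h | ⟨D, hD, -⟩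
    · exact absurd h.symm hne
    · exact ⟨D, hD.2.1, hD.2.2⟩
  obtain ⟨D, hD, hAD⟩ := partner A hA2
  obtain ⟨D', hD', hBD'⟩ := partner B hB2
  obtain ⟨a, ha, ha1⟩ := ne_bot_exists (R_ne_bot hAD)
  obtain ⟨b, hb, hb1⟩ := ne_bot_exists (R_ne_bot hBD')
  have hba1 : b * a ≠ 1 := by
    intro e
    refine hBA (eq_of_inter hS hD hAD hB ha ?_ ha1)
    rw [eq_inv_of_mul_eq_one_right e]
    exact inv_mem hb
  obtain ⟨C, ⟨hC, -⟩, hmem⟩ := hpart.2.1 (b * a)
    (mul_mem (le_sup_right (a := A) hb) (le_sup_left (b := B) ha)) hba1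
  have hz1 : Cm (conjBy D b) D := by
    refine (pair_or_cm hS hB hD).resolve_left (fun hR => hne ?_) b hb
    exact comp_eq_of_path ((Relation.ReflTransGen.single ⟨hA, hD, hAD⟩).trans
      (.single ⟨hD, hB, RankOnePair_symm hR⟩))
  have hz2 : Cm (conjBy D' a) D' := by
    refine (pair_or_cm hS hA hD').resolve_left (fun hR => hne ?_) a ha
    exact comp_eq_of_path ((Relation.ReflTransGen.single ⟨hA, hD', hR⟩).trans
      (.single ⟨hD', hB, RankOnePair_symm hBD'⟩))
  have hC1 : IsRankOnePair C D :=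
    translate_rankOne hS hD hAD hC ha ha1 (fun x hx => hcm x hx b hb) hz1 hmem
  have hC2 : IsRankOnePair C D' :=
    translate_rankOne hS hD' hBD' hC hb hb1 (fun x hx => (hcm a ha x hx).symm) hz2
      ((hcm a ha b hb).symm ▸ hmem)
  apply hne
  exact comp_eq_of_path ((((Relation.ReflTransGen.single ⟨hA, hD, hAD⟩).trans
    (.single ⟨hD, hC, RankOnePair_symm hC1⟩)).trans (.single ⟨hC, hD', hC2⟩)).trans
    (.single ⟨hD', hB, RankOnePair_symm hBD'⟩))

end Cfsg.Agent.S5031
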