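import Cfsg.Statements.S5032
import Cfsg.Agent.Lib.RootSets
import Cfsg.Agent.S5029
import Cfsg.Agent.S5031

set_option autoImplicit false
open Cfsg CfsgLib.Root

namespace Cfsg.Agent.S5032

/-- Let S be a set of abstract root subgroups of G with more than one member. Then the graph of rank one pairs on S is connected if and only if S is a single conjugacy class of G and some member of S has a rank one partner in S. -/
theorem result {G : Type*} [Group G] {S : Set (Subgroup G)} (hS : Cfsg.IsRootSubgroupSet S) (h2 : ∃ A ∈ S, ∃ B ∈ S, A ≠ B) :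
    Cfsg.IsConnectedFamily (Cfsg.FAdj S) S ↔
      (Cfsg.IsConjClassOfSubgroups S ∧ ∃ A ∈ S, ¬ Cfsg.IsIsolatedIn (Cfsg.FAdj S) S A) := by
  constructor
  · intro hc
    obtain ⟨A, hA, B, hB, hne⟩ := h2
    refine ⟨⟨⟨A, hA⟩, fun X hX Y hY => fpath_conjugate (hc X hX Y hY)⟩, A, hA, ?_⟩
    rcases Relation.ReflTransGen.cases_head (hc A hA B hB) with h | ⟨D, hD, -⟩
    · exact absurd h hne
    · exact not_isolated_of_adj hD
  · rintro ⟨⟨-, hconj⟩, A₀, hA₀, hA₀i⟩
    obtain ⟨D₀, hD₀, hR₀⟩ := exists_partner hS hA₀ hA₀i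
    have hni : ∀ X ∈ S, ∃ Y ∈ S, IsRankOnePair X Y := by
      intro X hX
      obtain ⟨g, rfl⟩ := hconj A₀ hA₀ X hX
      exact ⟨conjBy D₀ g, hS.conj_mem D₀ hD₀ g, R_conj hR₀ g⟩
    have hgen : ∀ e E, E ∈ S → e ∈ E → ∀ X ∈ S, Relation.ReflTransGen (FAdj S) X (conjBy X e) := by
      intro e E hE he X hX
      rcases hS.pair X hX E hE with h | h | h
      · rw [(cm_iff.1 h).cb_eq he]
      · have h1 : FAdj S (conjBy X e) E :=
          ⟨hS.conj_mem X hX e, hE, by have := R_conj h e; rwa [cb_of_mem he] at this⟩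
        exact (Relation.ReflTransGen.single ⟨hX, hE, h⟩).trans (.single (fadj_symm h1))
      · obtain ⟨Y, hY, hXY⟩ := hni X hX
        have hl := (Cfsg.Agent.S5029.result hS (not_isolated_of_adj ⟨hX, hY, hXY⟩) hX hE h.1).2.2.1
        have hcomp : componentOf (FAdj S) S ⁅X, E⁆ = componentOf (FAdj S) S X := by
          by_contra hne
          obtain ⟨Z, hZ, hFZ⟩ := hni _ h.1
          exact Cfsg.Agent.S5031.result hS h.1 hX hne
            ⟨Z, ⟨hZ, .single ⟨h.1, hZ, hFZ⟩⟩, hFZ.ne.symm⟩
            ⟨Y, ⟨hY, .single ⟨hX, hY, hXY⟩⟩, hXY.ne.symm⟩ hl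
        have hp := path_of_comp_eq hX hcomp
        have hp2 := fpath_conj hS e hp
        have hfix : conjBy ⁅X, E⁆ e = ⁅X, E⁆ :=
          Cm.cb_eq (B := E) (fun c hc x hx => h.2.1 c hc x (le_sup_right (a := X) hx)) he
        rw [hfix] at hp2
        exact (fpath_symm hp).trans hp2
    let H : Subgroup G :=
      { carrier := {g | ∀ X ∈ S, Relation.ReflTransGen (FAdj S) X (conjBy X g)}
        one_mem' := fun X _ => by rw [cb_one]
        mul_mem' := fun {g h} hg hh X hX => by
          rw [← cb_mul]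
          exact (hh X hX).trans (hg _ (hS.conj_mem X hX h))
        inv_mem' := fun {g} hg X hX => by
          have := hg _ (hS.conj_mem X hX g⁻¹)
          rw [cb_inv'] at this
          exact fpath_symm this }
    have hH : ∀ g : G, g ∈ H := by
      have hle : (⨆ E ∈ S, E) ≤ H := iSup₂_le fun E hE e he => hgen e E hE he
      rw [hS.generates] at hle
      exact fun g => hle (Subgroup.mem_top g)
    intro X hX Y hY
    obtain ⟨g, rfl⟩ := hconj X hX Y hY
    exact hH g X hX

end Cfsg.Agent.S5032
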