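import Cfsg.Statements.S5035
import Cfsg.Agent.Lib.RootRankOne

set_option autoImplicit false
open Cfsg

namespace Cfsg.Agent.S5035

/-- Let S be a set of abstract root subgroups of G whose graph of rank one pairs is connected, and f a homomorphism from G onto a group H. Then either the images of the members of S form a set of abstract root subgroups of H whose graph of rank one pairs is again connected, or H equals the image of a member of S. -/
theorem result {G H : Type*} [Group G] [Group H] {S : Set (Subgroup G)} (hS : Cfsg.IsRootSubgroupSet S)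
    (hc : Cfsg.IsConnectedFamily (Cfsg.FAdj S) S) (f : G →* H) (hf : Function.Surjective f) :
    (Cfsg.IsRootSubgroupSet ((fun A : Subgroup G => A.map f) '' S) ∧
      Cfsg.IsConnectedFamily (Cfsg.FAdj ((fun A : Subgroup G => A.map f) '' S)) ((fun A : Subgroup G => A.map f) '' S)) ∨
    ∃ A ∈ S, A.map f = ⊤ := by
  classical
  have hconjmap : ∀ (A : Subgroup G) (g : G), Cfsg.conjBy (A.map f) (f g) = (Cfsg.conjBy A g).map f := by
    intro A g
    rw [Cfsg.conjBy, Cfsg.conjBy, Subgroup.map_map, Subgroup.map_map]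
    congr 1
    ext x
    simp
  by_cases hker : ∀ A ∈ S, ∀ a ∈ A, f a = 1 → a = 1
  · left
    have hrank : ∀ A ∈ S, ∀ B ∈ S, Cfsg.IsRankOnePair A B → A.map f ≠ B.map f →
        Cfsg.IsRankOnePair (A.map f) (B.map f) := by
      intro A hA B hB hR hne
      haveI := hR.nilpotent_left
      haveI := hR.nilpotent_right
      refine ⟨hne, Group.nilpotent_of_surjective (f.subgroupMap A) (f.subgroupMap_surjective A),
        Group.nilpotent_of_surjective (f.subgroupMap B) (f.subgroupMap_surjective B), ?_, ?_⟩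
      · rintro _ ⟨a, ha, rfl⟩ ha1
        obtain ⟨b, hb, hb1, he⟩ := hR.cond_left a ha (fun e => ha1 (by rw [e, map_one]))
        refine ⟨f b, Subgroup.mem_map_of_mem f hb, fun e => hb1 (hker B hB b hb e), ?_⟩
        rw [← map_inv, ← map_inv, hconjmap, hconjmap, he]
      · rintro _ ⟨a, ha, rfl⟩ ha1
        obtain ⟨b, hb, hb1, he⟩ := hR.cond_right a ha (fun e => ha1 (by rw [e, map_one]))
        refine ⟨f b, Subgroup.mem_map_of_mem f hb, fun e => hb1 (hker A hA b hb e), ?_⟩
        rw [← map_inv, ← map_inv, hconjmap, hconjmap, he]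
    refine ⟨⟨?_, ?_, ?_, ?_, ?_⟩, ?_⟩
    · rintro _ ⟨A, hA, rfl⟩
      haveI := hS.commutative A hA
      refine ⟨⟨?_⟩⟩
      rintro ⟨_, a, ha, rfl⟩ ⟨_, b, hb, rfl⟩
      apply Subtype.ext
      show f a * f b = f b * f a
      rw [← map_mul, ← map_mul]
      exact congrArg f (congrArg Subtype.val ((hS.commutative A hA).is_comm.comm ⟨a, ha⟩ ⟨b, hb⟩))
    · rintro _ ⟨A, hA, rfl⟩ h
      refine hS.ne_bot A hA (Subgroup.eq_bot_iff_forall _ |>.2 fun a ha => hker A hA a ha ?_)
      rw [← Subgroup.mem_bot, ← h]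
      exact Subgroup.mem_map_of_mem f ha
    · rw [iSup_image, ← Subgroup.map_top_of_surjective f hf, ← hS.generates]
      simp only [Subgroup.map_iSup]
    · rintro _ ⟨A, hA, rfl⟩ g
      obtain ⟨g, rfl⟩ := hf g
      exact ⟨Cfsg.conjBy A g, hS.conj_mem A hA g, (hconjmap A g).symm⟩
    · rintro _ ⟨A, hA, rfl⟩ _ ⟨B, hB, rfl⟩
      rcases hS.pair A hA B hB with h | h | ⟨h1, h2, h3, h4⟩
      · left; rw [← Subgroup.map_commutator, h, Subgroup.map_bot]
      · by_cases hne : A.map f = B.map f
        · left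
          show ⁅A.map f, B.map f⁆ = ⊥
          rw [← hne, ← Subgroup.map_commutator,
            show ⁅A, A⁆ = ⊥ from CfsgLib.Root.cm_iff.2 (CfsgLib.Root.cm_self (hS.commutative A hA)),
            Subgroup.map_bot]
        · exact Or.inr (Or.inl (hrank A hA B hB h hne))
      · refine Or.inr (Or.inr ⟨?_, ?_, ?_, ?_⟩)
        · exact ⟨_, h1, Subgroup.map_commutator A B f⟩
        · rw [← Subgroup.map_commutator, ← Subgroup.map_sup]
          rintro _ ⟨c, hc, rfl⟩ _ ⟨x, hx, rfl⟩
          rw [← map_mul, ← map_mul, h2 c hc x hx]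
        · rintro _ ⟨a, ha, rfl⟩ ha1
          rw [← Subgroup.map_commutator, ← h3 a ha (fun e => ha1 (by rw [e, map_one])),
            MonoidHom.map_closure, Set.image_image, Subgroup.coe_map, Set.image_image]
          simp only [map_mul, map_inv]
        · rintro _ ⟨b, hb, rfl⟩ hb1
          rw [← Subgroup.map_commutator, ← h4 b hb (fun e => hb1 (by rw [e, map_one])),
            MonoidHom.map_closure, Set.image_image, Subgroup.coe_map, Set.image_image]
          simp only [map_mul, map_inv]
    · rintro _ ⟨A, hA, rfl⟩ _ ⟨B, hB, rfl⟩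
      have key : ∀ B, Relation.ReflTransGen (Cfsg.FAdj S) A B →
          Relation.ReflTransGen (Cfsg.FAdj ((fun A : Subgroup G => A.map f) '' S)) (A.map f) (B.map f) := by
        intro B hAB
        induction hAB with
        | refl => exact Relation.ReflTransGen.refl
        | @tail C D _ hCD ih =>
          obtain ⟨hC, hD, hR⟩ := hCD
          by_cases hne : C.map f = D.map f
          · rw [← hne]; exact ih
          · exact ih.tail ⟨⟨C, hC, rfl⟩, ⟨D, hD, rfl⟩, hrank C hC D hD hR hne⟩
      exact key B (hc A hA B hB)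
  · right
    push Not at hker
    obtain ⟨A, hA, a, ha, hfa, ha1⟩ := hker
    refine ⟨A, hA, ?_⟩
    have key : ∀ B, Relation.ReflTransGen (Cfsg.FAdj S) A B →
        B.map f = A.map f ∧ ∃ b ∈ B, f b = 1 ∧ b ≠ 1 := by
      intro B hAB
      induction hAB with
      | refl => exact ⟨rfl, a, ha, hfa, ha1⟩
      | @tail C D _ hCD ih =>
        obtain ⟨hC, hD, hR⟩ := hCD
        obtain ⟨hCA, c, hc', hfc, hc1⟩ := ih
        obtain ⟨d, hd, -, he⟩ := hR.cond_left c hc' hc1
        have hDd : Cfsg.conjBy (D.map f) (f d) = D.map f := CfsgLib.Root.cb_of_mem (Subgroup.mem_map_of_mem f hd)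
        have h1 : Cfsg.conjBy (C.map f) (f d)⁻¹ = D.map f := by
          rw [← map_inv, hconjmap, he, ← hconjmap, map_inv, hfc, inv_one, CfsgLib.Root.cb_one]
        refine ⟨?_, c * d⁻¹ * c * (c * d⁻¹)⁻¹, ?_, ?_, ?_⟩
        · rw [← hCA, ← CfsgLib.Root.cb_inv' (C.map f) (f d), h1, hDd]
        · have h2 : Cfsg.conjBy C (c * d⁻¹) = D := by
            rw [← CfsgLib.Root.cb_mul, he, CfsgLib.Root.cb_inv']
          rw [← h2]
          exact CfsgLib.Root.mem_cb_of_mem hc'
        · simp [hfc]
        · exact fun e => hc1 (conj_eq_one_iff.1 e)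
    rw [eq_top_iff, ← Subgroup.map_top_of_surjective f hf, ← hS.generates]
    simp only [Subgroup.map_iSup]
    exact iSup₂_le fun B hB => le_of_eq (key B (hc A hA B hB)).1

end Cfsg.Agent.S5035
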