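import Cfsg.Statements.S5043
import Cfsg.Agent.Lib.ClassicalTransvec
import Cfsg.Agent.Lib.ClassicalTransvecClass
import Cfsg.Agent.Lib.RootRankOne
import Cfsg.Agent.Lib.RootSLTwo

set_option autoImplicit false
open Matrix
open Cfsg

namespace Cfsg.Agent.S5043

section Aux

open Matrix

variable {k : Type*} [Field k] {n : ℕ} {a b φ ψ : Fin (n + 3) → k}

/-- The group of transvections with centre `a` and axis `φ`. -/
def Rt (a φ : Fin (n + 3) → k) (h : φ ⬝ᵥ a = 0) : Subgroup (Matrix.SpecialLinearGroup (Fin (n + 3)) k) where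
  carrier := {t | ∃ c : k, t.1 = 1 + c • vecMulVec a φ}
  one_mem' := ⟨0, by simp⟩
  mul_mem' := by
    rintro s t ⟨c, hs⟩ ⟨d, ht⟩
    refine ⟨c + d, ?_⟩
    rw [Matrix.SpecialLinearGroup.coe_mul, hs, ht]
    simp [add_mul, mul_add, vecMulVec_mul_vecMulVec, h, add_smul]
    abel
  inv_mem' := by
    rintro s ⟨c, hs⟩
    refine ⟨-c, ?_⟩
    rw [Matrix.SpecialLinearGroup.coe_inv]
    have : s.1 * (1 + (-c) • vecMulVec a φ) = 1 := by
      rw [hs]; simp [add_mul, mul_add, vecMulVec_mul_vecMulVec, h]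
    calc s.1.adjugate = s.1.adjugate * (s.1 * (1 + (-c) • vecMulVec a φ)) := by rw [this, mul_one]
      _ = _ := by rw [← mul_assoc, adjugate_mul, s.2, one_smul, one_mul]

theorem mem_rt {h : φ ⬝ᵥ a = 0} {t : Matrix.SpecialLinearGroup (Fin (n + 3)) k} :
    t ∈ Rt a φ h ↔ ∃ c : k, t.1 = 1 + c • vecMulVec a φ := Iff.rfl

theorem exists_elem (h : φ ⬝ᵥ a = 0) (c : k) :
    ∃ t ∈ Rt a φ h, t.1 = 1 + c • vecMulVec a φ := by
  refine ⟨⟨1 + c • vecMulVec a φ, ?_⟩, ⟨c, rfl⟩, rfl⟩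
  rw [← smul_vecMulVec, vecMulVec_eq Unit, det_one_add_replicateCol_mul_replicateRow]
  simp [h]

theorem vec_ne (ha : a ≠ 0) (hφ : φ ≠ 0) : vecMulVec a φ ≠ 0 := by
  intro e
  obtain ⟨i, hi⟩ := Function.ne_iff.1 ha
  obtain ⟨j, hj⟩ := Function.ne_iff.1 hφ
  have := congrFun (congrFun e i) j
  simp [vecMulVec_apply] at this
  exact this.elim hi hj

theorem elem_val {i j : Fin (n + 3)} (hij : i ≠ j) (c : k) :
    (Matrix.SpecialLinearGroup.transvection hij c).1 = 1 + c • vecMulVec (Pi.single i (1 : k)) (Pi.single j 1) := by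
  have := congrArg Units.val (CfsgLib.Classical.toGL_transvection hij c)
  rw [CfsgLib.Classical.coe_tv (by simp [hij.symm])] at this
  rw [← smul_vecMulVec]
  rw [show c • (Pi.single i (1 : k) : Fin (n + 3) → k) = Pi.single i c from by ext x; by_cases hx : x = i <;> simp [hx]]
  exact this

theorem rt_comm (h : φ ⬝ᵥ a = 0) : IsMulCommutative (Rt a φ h) := by
  refine ⟨⟨fun s t => Subtype.ext (Subtype.ext ?_)⟩⟩
  obtain ⟨c, hs⟩ := mem_rt.1 s.2
  obtain ⟨d, ht⟩ := mem_rt.1 t.2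
  show s.1.1 * t.1.1 = t.1.1 * s.1.1
  rw [hs, ht]
  simp [add_mul, mul_add, vecMulVec_mul_vecMulVec, h]
  abel

theorem rt_ne_bot (h : φ ⬝ᵥ a = 0) (ha : a ≠ 0) (hφ : φ ≠ 0) : Rt a φ h ≠ ⊥ := by
  intro e
  obtain ⟨t, ht, ht'⟩ := exists_elem h 1
  rw [e, Subgroup.mem_bot] at ht
  rw [ht, Matrix.SpecialLinearGroup.coe_one, one_smul, left_eq_add] at ht'
  exact vec_ne ha hφ ht'

/-- `A` is a group of transvections. -/
def IsRt (A : Subgroup (Matrix.SpecialLinearGroup (Fin (n + 3)) k)) : Prop :=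
  ∃ a φ : Fin (n + 3) → k, ∃ h : φ ⬝ᵥ a = 0, a ≠ 0 ∧ φ ≠ 0 ∧ A = Rt a φ h

theorem rt_conj (h : φ ⬝ᵥ a = 0) {a' φ' : Fin (n + 3) → k} (h' : φ' ⬝ᵥ a' = 0)
    (g : Matrix.SpecialLinearGroup (Fin (n + 3)) k) (h1 : g.1 *ᵥ a = a') (h2 : φ' ᵥ* g.1 = φ) :
    Cfsg.conjBy (Rt a φ h) g = Rt a' φ' h' := by
  have key : ∀ c : k, g.1 * (1 + c • vecMulVec a φ) = (1 + c • vecMulVec a' φ') * g.1 := fun c => by
    rw [mul_add, add_mul, mul_one, one_mul, mul_smul_comm, smul_mul_assoc, mul_vecMulVec, vecMulVec_mul, h1, h2]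
  ext x
  rw [CfsgLib.Root.mem_cb, mem_rt, mem_rt]
  constructor
  · rintro ⟨c, hc⟩
    refine ⟨c, ?_⟩
    have hx : x = g * (g⁻¹ * x * g) * g⁻¹ := by group
    rw [hx, Matrix.SpecialLinearGroup.coe_mul, Matrix.SpecialLinearGroup.coe_mul, hc, key, mul_assoc,
      ← Matrix.SpecialLinearGroup.coe_mul, mul_inv_cancel, Matrix.SpecialLinearGroup.coe_one, mul_one]
  · rintro ⟨c, hc⟩
    refine ⟨c, ?_⟩
    rw [Matrix.SpecialLinearGroup.coe_mul, Matrix.SpecialLinearGroup.coe_mul, hc, mul_assoc, ← key, ← mul_assoc,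
      ← Matrix.SpecialLinearGroup.coe_mul, inv_mul_cancel, Matrix.SpecialLinearGroup.coe_one, one_mul]

theorem mem_iff (A : Subgroup (Matrix.SpecialLinearGroup (Fin (n + 3)) k)) :
    (∃ g : Matrix.SpecialLinearGroup (Fin (n + 3)) k,
          A = Cfsg.conjBy (Subgroup.closure {t : Matrix.SpecialLinearGroup (Fin (n + 3)) k |
            ∃ c : k, (t : Matrix (Fin (n + 3)) (Fin (n + 3)) k) = Matrix.transvection 0 1 c}) g) ↔ IsRt A := by
  have h01 : (0 : Fin (n + 3)) ≠ 1 := by simp [Fin.ext_iff]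
  have h0 : (Pi.single 1 1 : Fin (n + 3) → k) ⬝ᵥ Pi.single 0 1 = 0 := by simp [h01.symm]
  have hcl : Subgroup.closure {t : Matrix.SpecialLinearGroup (Fin (n + 3)) k |
      ∃ c : k, (t : Matrix (Fin (n + 3)) (Fin (n + 3)) k) = Matrix.transvection 0 1 c} =
      Rt (Pi.single 0 1) (Pi.single 1 1) h0 := by
    rw [show {t : Matrix.SpecialLinearGroup (Fin (n + 3)) k |
        ∃ c : k, (t : Matrix (Fin (n + 3)) (Fin (n + 3)) k) = Matrix.transvection 0 1 c} =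
        (Rt (Pi.single 0 1) (Pi.single 1 1) h0 : Set (Matrix.SpecialLinearGroup (Fin (n + 3)) k)) from ?_, Subgroup.closure_eq]
    ext t
    refine exists_congr fun c => ?_
    rw [show Matrix.transvection (0 : Fin (n + 3)) 1 c = _ from (Matrix.SpecialLinearGroup.transvection_coe h01 c).symm.trans (elem_val h01 c)]
  rw [hcl]
  constructor
  · rintro ⟨g, rfl⟩
    have e1 : (g⁻¹).1 * g.1 = 1 := by
      rw [← Matrix.SpecialLinearGroup.coe_mul, inv_mul_cancel, Matrix.SpecialLinearGroup.coe_one]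
    have h' : (Pi.single 1 (1 : k)) ᵥ* (g⁻¹).1 ⬝ᵥ (g.1 *ᵥ Pi.single 0 1) = 0 := by
      rw [← dotProduct_mulVec, mulVec_mulVec, e1, one_mulVec, h0]
    refine ⟨g.1 *ᵥ Pi.single 0 1, Pi.single 1 1 ᵥ* (g⁻¹).1, h', fun e => ?_, fun e => ?_,
      rt_conj h0 h' g rfl (by rw [vecMul_vecMul, e1, vecMul_one])⟩
    · have := congrArg ((g⁻¹).1 *ᵥ ·) e
      rw [mulVec_mulVec, e1, one_mulVec, mulVec_zero] at this
      exact one_ne_zero (by simpa using congrFun this 0 : (1 : k) = 0)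
    · have := congrArg (· ᵥ* g.1) e
      rw [vecMul_vecMul, e1, vecMul_one, zero_vecMul] at this
      exact one_ne_zero (by simpa using congrFun this 1 : (1 : k) = 0)
  · rintro ⟨a, φ, h, ha, hφ, rfl⟩
    have hz : (Pi.single 0 (1 : k) : Fin (n + 3) → k) ≠ 0 := by simp
    have hz' : (Pi.single 1 (1 : k) : Fin (n + 3) → k) ≠ 0 := by simp
    obtain ⟨g, h1, h2⟩ := CfsgLib.TransvecClass.exists_gl hz hz' h0 ha hφ h
    have hg : (g : Matrix (Fin (n + 3)) (Fin (n + 3)) k).det ≠ 0 :=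
      ((Matrix.isUnit_iff_isUnit_det _).1 ⟨g, rfl⟩).ne_zero
    obtain ⟨m, k1, k2, k3⟩ := CfsgLib.TransvecClass.exists_fix (by omega) hz hz' h0 (inv_ne_zero hg)
    let M : Matrix.SpecialLinearGroup (Fin (n + 3)) k := ⟨g.val * m.val, by
      rw [det_mul, k3, mul_inv_cancel₀ hg]⟩
    refine ⟨M, (rt_conj h0 h M ?_ ?_).symm⟩
    · show (g.val * m.val) *ᵥ _ = _
      rw [← mulVec_mulVec, k1, h1]
    · show φ ᵥ* (g.val * m.val) = _
      rw [← vecMul_vecMul, h2, k2]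

theorem cm_case (h : φ ⬝ᵥ a = 0) (h' : ψ ⬝ᵥ b = 0) (hα : φ ⬝ᵥ b = 0) (hβ : ψ ⬝ᵥ a = 0) :
    CfsgLib.Root.Cm (Rt a φ h) (Rt b ψ h') := by
  intro s hs t ht
  obtain ⟨c, hs⟩ := hs
  obtain ⟨d, ht⟩ := ht
  apply Subtype.ext
  rw [Matrix.SpecialLinearGroup.coe_mul, Matrix.SpecialLinearGroup.coe_mul, hs, ht]
  simp [add_mul, mul_add, vecMulVec_mul_vecMulVec, hα, hβ]
  abel

theorem commutator_val (h : φ ⬝ᵥ a = 0) (h' : ψ ⬝ᵥ b = 0) (hβ : ψ ⬝ᵥ a = 0)
    {s t : Matrix.SpecialLinearGroup (Fin (n + 3)) k} {c d : k}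
    (hs : s.1 = 1 + c • vecMulVec a φ) (ht : t.1 = 1 + d • vecMulVec b ψ) :
    (s * t * s⁻¹ * t⁻¹).1 = 1 + (c * d * (φ ⬝ᵥ b)) • vecMulVec a ψ := by
  have key : (s * t).1 = (1 + (c * d * (φ ⬝ᵥ b)) • vecMulVec a ψ) * (t * s).1 := by
    rw [Matrix.SpecialLinearGroup.coe_mul, Matrix.SpecialLinearGroup.coe_mul, hs, ht]
    simp [add_mul, mul_add, vecMulVec_mul_vecMulVec, h', hβ, smul_smul, vecMulVec_smul, mul_comm, mul_left_comm]
    rw [show c * (d * φ ⬝ᵥ b) = c * d * φ ⬝ᵥ b from (mul_assoc c d _).symm]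
    abel
  rw [show s * t * s⁻¹ * t⁻¹ = s * t * (t * s)⁻¹ by group, Matrix.SpecialLinearGroup.coe_mul, key, mul_assoc,
    ← Matrix.SpecialLinearGroup.coe_mul, mul_inv_cancel, Matrix.SpecialLinearGroup.coe_one, mul_one]

theorem com_case (h : φ ⬝ᵥ a = 0) (h' : ψ ⬝ᵥ b = 0) (ha : a ≠ 0) (hφ : φ ≠ 0) (hb : b ≠ 0) (hψ : ψ ≠ 0)
    (hα : φ ⬝ᵥ b ≠ 0) (hβ : ψ ⬝ᵥ a = 0) {S : Set (Subgroup (Matrix.SpecialLinearGroup (Fin (n + 3)) k))}
    (hC : Rt a ψ hβ ∈ S) : Cfsg.RootCommutatorCase S (Rt a φ h) (Rt b ψ h') := by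
  have heq : ⁅Rt a φ h, Rt b ψ h'⁆ = Rt a ψ hβ := by
    refine le_antisymm (Subgroup.commutator_le.2 fun s hs t ht => ?_) fun x hx => ?_
    · obtain ⟨c, hs⟩ := hs; obtain ⟨d, ht⟩ := ht
      exact ⟨_, by rw [commutatorElement_def]; exact commutator_val h h' hβ hs ht⟩
    · obtain ⟨r, hr⟩ := hx
      obtain ⟨s, hs, hs'⟩ := exists_elem h 1
      obtain ⟨t, ht, ht'⟩ := exists_elem h' (r / (φ ⬝ᵥ b))
      have : x = s * t * s⁻¹ * t⁻¹ := Subtype.ext (by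
        rw [hr, commutator_val h h' hβ hs' ht', one_mul, div_mul_cancel₀ _ hα])
      rw [this, ← commutatorElement_def]
      exact Subgroup.commutator_mem_commutator hs ht
  refine ⟨heq ▸ hC, ?_, ?_, ?_⟩
  · rw [heq]
    intro c hc x hx
    have hle : Rt a φ h ⊔ Rt b ψ h' ≤ Subgroup.centralizer (Rt a ψ hβ : Set (Matrix.SpecialLinearGroup (Fin (n + 3)) k)) :=
      sup_le (fun y hy => Subgroup.mem_centralizer_iff.2 fun z hz => cm_case hβ h hβ h z hz y hy)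
        (fun y hy => Subgroup.mem_centralizer_iff.2 fun z hz => cm_case hβ h' h' hβ z hz y hy)
    exact Subgroup.mem_centralizer_iff.1 (hle hx) c hc
  · intro s hs hs1
    obtain ⟨c, hs⟩ := hs
    have hc : c ≠ 0 := fun e => hs1 (Subtype.ext (by rw [hs, e]; simp))
    rw [heq]
    refine le_antisymm ((Subgroup.closure_le _).2 ?_) fun x hx => ?_
    · rintro _ ⟨t, ⟨d, ht⟩, rfl⟩
      exact ⟨_, commutator_val h h' hβ hs ht⟩
    · obtain ⟨r, hr⟩ := hx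
      obtain ⟨t, ht, ht'⟩ := exists_elem h' (r / (c * (φ ⬝ᵥ b)))
      refine Subgroup.subset_closure ⟨t, ht, Subtype.ext ?_⟩
      rw [commutator_val h h' hβ hs ht', hr]
      congr 2
      field_simp
  · intro t ht ht1
    obtain ⟨d, ht⟩ := ht
    have hd : d ≠ 0 := fun e => ht1 (Subtype.ext (by rw [ht, e]; simp))
    rw [heq]
    refine le_antisymm ((Subgroup.closure_le _).2 ?_) fun x hx => ?_
    · rintro _ ⟨s, ⟨c, hs⟩, rfl⟩
      exact ⟨_, commutator_val h h' hβ hs ht⟩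
    · obtain ⟨r, hr⟩ := hx
      obtain ⟨s, hs, hs'⟩ := exists_elem h (r / (d * (φ ⬝ᵥ b)))
      refine Subgroup.subset_closure ⟨s, hs, Subtype.ext ?_⟩
      rw [commutator_val h h' hβ hs' ht, hr]
      congr 2
      field_simp

theorem not_rank (h : φ ⬝ᵥ a = 0) (h' : ψ ⬝ᵥ b = 0) (ha : a ≠ 0) (hφ : φ ≠ 0) (hb : b ≠ 0) (hψ : ψ ≠ 0)
    (hα : φ ⬝ᵥ b ≠ 0) (hβ : ψ ⬝ᵥ a = 0) : ¬ Cfsg.IsRankOnePair (Rt a φ h) (Rt b ψ h') := by
  intro hR
  obtain ⟨s, hs, hs'⟩ := exists_elem h 1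
  have hs1 : s ≠ 1 := fun e => vec_ne ha hφ (by
    rw [e, Matrix.SpecialLinearGroup.coe_one, one_smul, left_eq_add] at hs'; exact hs')
  obtain ⟨t, ht, -, he⟩ := hR.cond_left s hs hs1
  obtain ⟨d, ht'⟩ := ht
  have h1 : t⁻¹ * s * t ∈ Cfsg.conjBy (Rt a φ h) t⁻¹ := by
    rw [CfsgLib.Root.mem_cb, inv_inv]
    rwa [show t * (t⁻¹ * s * t) * t⁻¹ = s by group]
  rw [he, CfsgLib.Root.mem_cb, inv_inv] at h1
  obtain ⟨r, hr⟩ := h1
  -- multiply the identity `s u = (1 + r B) s` on the right by B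
  have h2 : (s * (t⁻¹ * s * t)).1 = (1 + r • vecMulVec b ψ) * s.1 := by
    rw [show s * (t⁻¹ * s * t) = s * (t⁻¹ * s * t) * s⁻¹ * s by group, Matrix.SpecialLinearGroup.coe_mul, hr]
  have htb : t.1 * vecMulVec b ψ = vecMulVec b ψ := by
    rw [ht']; simp [add_mul, vecMulVec_mul_vecMulVec, h']
  have hti : (t⁻¹).1 * vecMulVec b ψ = vecMulVec b ψ := by
    conv_lhs => rw [← htb]
    rw [← mul_assoc, ← Matrix.SpecialLinearGroup.coe_mul, inv_mul_cancel, Matrix.SpecialLinearGroup.coe_one, one_mul]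
  have hta : (t⁻¹).1 * vecMulVec a ψ = vecMulVec a ψ := by
    have : t.1 * vecMulVec a ψ = vecMulVec a ψ := by rw [ht']; simp [add_mul, vecMulVec_mul_vecMulVec, hβ]
    conv_lhs => rw [← this]
    rw [← mul_assoc, ← Matrix.SpecialLinearGroup.coe_mul, inv_mul_cancel, Matrix.SpecialLinearGroup.coe_one, one_mul]
  have h3 := congrArg (· * vecMulVec b ψ) h2
  simp only [Matrix.SpecialLinearGroup.coe_mul, mul_assoc, htb] at h3
  rw [hs'] at h3
  have hAB : (1 + (1 : k) • vecMulVec a φ) * vecMulVec b ψ = vecMulVec b ψ + (φ ⬝ᵥ b) • vecMulVec a ψ := by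
    simp [add_mul, vecMulVec_mul_vecMulVec, vecMulVec_smul]
  rw [hAB, mul_add, mul_smul_comm, hti, hta] at h3
  simp [add_mul, mul_add, vecMulVec_mul_vecMulVec, h, h', hβ, vecMulVec_smul, smul_smul] at h3
  exact h3.elim hα (fun e => e.elim ha hψ)

theorem exists_both_ne {ι : Type*} [Fintype ι] [DecidableEq ι] {x y : ι → k} (hx : x ≠ 0) (hy : y ≠ 0) :
    ∃ z : ι → k, x ⬝ᵥ z ≠ 0 ∧ y ⬝ᵥ z ≠ 0 := by
  obtain ⟨i, hi⟩ := Function.ne_iff.1 hx
  obtain ⟨j, hj⟩ := Function.ne_iff.1 hy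
  by_cases h1 : y i = 0
  · by_cases h2 : x j = 0
    · exact ⟨Pi.single i 1 + Pi.single j 1, by simpa [dotProduct_add, h2] using hi, by simpa [dotProduct_add, h1] using hj⟩
    · exact ⟨Pi.single j 1, by simpa using h2, by simpa using hj⟩
  · exact ⟨Pi.single i 1, by simpa using hi, by simpa using h1⟩

theorem exists_opposite (h : φ ⬝ᵥ a = 0) (h' : ψ ⬝ᵥ b = 0) (ha : a ≠ 0) (hφ : φ ≠ 0) (hb : b ≠ 0) (hψ : ψ ≠ 0) :
    ∃ c χ : Fin (n + 3) → k, χ ⬝ᵥ c = 0 ∧ φ ⬝ᵥ c ≠ 0 ∧ ψ ⬝ᵥ c ≠ 0 ∧ χ ⬝ᵥ a ≠ 0 ∧ χ ⬝ᵥ b ≠ 0 := by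
  obtain ⟨c, h1, h2⟩ := exists_both_ne hφ hψ
  have hb' : b - ((φ ⬝ᵥ b) / (φ ⬝ᵥ c)) • c ≠ 0 := by
    intro e
    rw [sub_eq_zero] at e
    have h3 := congrArg (ψ ⬝ᵥ ·) e
    simp only [h', dotProduct_smul, smul_eq_mul] at h3
    rcases mul_eq_zero.1 h3.symm with h4 | h4
    · exact hb (by rw [e, h4, zero_smul])
    · exact h2 h4
  obtain ⟨χ, h3, h4⟩ := exists_both_ne ha hb'
  refine ⟨c, χ - ((χ ⬝ᵥ c) / (φ ⬝ᵥ c)) • φ, ?_, h1, h2, ?_, ?_⟩
  · simp [sub_dotProduct, smul_dotProduct, h1]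
  · rw [sub_dotProduct, smul_dotProduct, h, smul_zero, sub_zero, dotProduct_comm]; exact h3
  · intro e
    apply h4
    simp only [sub_dotProduct, smul_dotProduct, smul_eq_mul] at e
    rw [dotProduct_comm, dotProduct_sub, dotProduct_smul, smul_eq_mul]
    linear_combination e

theorem map_cb {G H : Type*} [Group G] [Group H] (f : G →* H) (A : Subgroup G) (g : G) :
    (Cfsg.conjBy A g).map f = Cfsg.conjBy (A.map f) (f g) := by
  rw [Cfsg.conjBy, Cfsg.conjBy, Subgroup.map_map, Subgroup.map_map]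
  congr 1
  ext x
  simp

theorem map_rankOne {G H : Type*} [Group G] [Group H] (f : G →* H) (hf : Function.Injective f) {A B : Subgroup G}
    (hR : Cfsg.IsRankOnePair A B) : Cfsg.IsRankOnePair (A.map f) (B.map f) := by
  haveI := hR.nilpotent_left
  haveI := hR.nilpotent_right
  refine ⟨fun e => hR.ne (Subgroup.map_injective hf e), Group.nilpotent_of_mulEquiv (A.equivMapOfInjective f hf),
    Group.nilpotent_of_mulEquiv (B.equivMapOfInjective f hf), ?_, ?_⟩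
  · rintro _ ⟨x, hx, rfl⟩ hx1
    obtain ⟨y, hy, hy1, he⟩ := hR.cond_left x hx (fun e => hx1 (by rw [e, map_one]))
    refine ⟨f y, ⟨y, hy, rfl⟩, fun e => hy1 (hf (by rw [e, map_one])), ?_⟩
    rw [← map_inv, ← map_inv, ← map_cb, ← map_cb, he]
  · rintro _ ⟨x, hx, rfl⟩ hx1
    obtain ⟨y, hy, hy1, he⟩ := hR.cond_right x hx (fun e => hx1 (by rw [e, map_one]))
    refine ⟨f y, ⟨y, hy, rfl⟩, fun e => hy1 (hf (by rw [e, map_one])), ?_⟩
    rw [← map_inv, ← map_inv, ← map_cb, ← map_cb, he]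

theorem rank_case (h : φ ⬝ᵥ a = 0) (h' : ψ ⬝ᵥ b = 0) (hα : φ ⬝ᵥ b ≠ 0) (hβ : ψ ⬝ᵥ a ≠ 0) :
    Cfsg.IsRankOnePair (Rt a φ h) (Rt b ψ h') ∧ Cfsg.IsPSL2PairOver k (Rt a φ h) (Rt b ψ h') := by
  let U : Matrix (Fin (n + 3)) (Fin 2) k := Matrix.of fun x i => ![a x, (φ ⬝ᵥ b)⁻¹ * b x] i
  let V : Matrix (Fin 2) (Fin (n + 3)) k := Matrix.of fun i x => ![(ψ ⬝ᵥ a)⁻¹ * ψ x, φ x] i
  have hVU : V * U = 1 := by
    ext i j
    fin_cases i <;> fin_cases j <;> simp only [U, V, Matrix.mul_apply, Matrix.of_apply]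
    · show ∑ x, (ψ ⬝ᵥ a)⁻¹ * ψ x * a x = _
      simp only [mul_assoc, ← Finset.mul_sum]
      exact inv_mul_cancel₀ hβ
    · show ∑ x, (ψ ⬝ᵥ a)⁻¹ * ψ x * ((φ ⬝ᵥ b)⁻¹ * b x) = _
      calc _ = (ψ ⬝ᵥ a)⁻¹ * (φ ⬝ᵥ b)⁻¹ * (ψ ⬝ᵥ b) := by
            simp only [dotProduct, Finset.mul_sum]; refine Finset.sum_congr rfl fun x _ => ?_; ring
        _ = _ := by simp [h']
    · show ∑ x, φ x * a x = _
      exact h
    · show ∑ x, φ x * ((φ ⬝ᵥ b)⁻¹ * b x) = _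
      calc _ = (φ ⬝ᵥ b)⁻¹ * (φ ⬝ᵥ b) := by
            simp only [dotProduct, Finset.mul_sum]; refine Finset.sum_congr rfl fun x _ => ?_; ring
        _ = _ := by simp [hα]
  let f : Matrix.SpecialLinearGroup (Fin 2) k →* Matrix.SpecialLinearGroup (Fin (n + 3)) k :=
    { toFun := fun M => ⟨1 + U * ((M.1 - 1) * V), by
        rw [det_one_add_mul_comm, Matrix.mul_assoc, hVU, Matrix.mul_one, add_sub_cancel, M.2]⟩
      map_one' := Subtype.ext (by simp)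
      map_mul' := fun M N => Subtype.ext (by
        show 1 + U * (((M * N).1 - 1) * V) = (1 + U * ((M.1 - 1) * V)) * (1 + U * ((N.1 - 1) * V))
        have e : U * ((M.1 - 1) * V) * (U * ((N.1 - 1) * V)) = U * (((M.1 - 1) * (N.1 - 1)) * V) := by
          simp only [Matrix.mul_assoc]
          rw [← Matrix.mul_assoc V U, hVU, Matrix.one_mul]
        rw [add_mul, one_mul, mul_add, mul_one, e, Matrix.SpecialLinearGroup.coe_mul,
          show M.1 * N.1 - 1 = (M.1 - 1) + (N.1 - 1) + (M.1 - 1) * (N.1 - 1) by noncomm_ring,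
          Matrix.add_mul, Matrix.add_mul, Matrix.mul_add, Matrix.mul_add]
        abel) }
  have hinj : Function.Injective f := by
    intro M N e
    have e' : V * (1 + U * ((M.1 - 1) * V) - 1) * U = V * (1 + U * ((N.1 - 1) * V) - 1) * U :=
      congrArg (fun X : Matrix.SpecialLinearGroup (Fin (n + 3)) k => V * (X.1 - 1) * U) e
    simp only [add_sub_cancel_left, Matrix.mul_assoc] at e'
    rw [hVU, Matrix.mul_one, Matrix.mul_one, ← Matrix.mul_assoc V U, ← Matrix.mul_assoc V U, hVU, Matrix.one_mul,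
      Matrix.one_mul, sub_left_inj] at e'
    exact Subtype.ext e'
  have hup : ∀ t : k, (f (Cfsg.Agent.RootSLTwo.up t)).1 = 1 + t • vecMulVec a φ := by
    intro t
    show 1 + U * (((Cfsg.Agent.RootSLTwo.up t).1 - 1) * V) = _
    congr 1
    ext x y
    simp [Matrix.mul_apply, Fin.sum_univ_two, U, V, Cfsg.Agent.RootSLTwo.val_up, vecMulVec_apply]
    ring
  have hlo : ∀ t : k, (f (Cfsg.Agent.RootSLTwo.lo t)).1 = 1 + (t * (φ ⬝ᵥ b)⁻¹ * (ψ ⬝ᵥ a)⁻¹) • vecMulVec b ψ := by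
    intro t
    show 1 + U * (((Cfsg.Agent.RootSLTwo.lo t).1 - 1) * V) = _
    congr 1
    ext x y
    simp [Matrix.mul_apply, Fin.sum_univ_two, U, V, Cfsg.Agent.RootSLTwo.val_lo, vecMulVec_apply]
    ring
  have hA : (Cfsg.upperUnipotentSL2 k).map f = Rt a φ h := by
    ext x
    constructor
    · rintro ⟨M, hM, rfl⟩
      obtain ⟨t, rfl⟩ := Cfsg.Agent.RootSLTwo.mem_upper.1 hM
      exact ⟨t, hup t⟩
    · rintro ⟨c, hc⟩
      exact ⟨_, Cfsg.Agent.RootSLTwo.mem_upper.2 ⟨c, rfl⟩, Subtype.ext ((hup c).trans hc.symm)⟩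
  have hB : (Cfsg.lowerUnipotentSL2 k).map f = Rt b ψ h' := by
    ext x
    constructor
    · rintro ⟨M, hM, rfl⟩
      obtain ⟨t, rfl⟩ := Cfsg.Agent.RootSLTwo.mem_lower.1 hM
      exact ⟨_, hlo t⟩
    · rintro ⟨c, hc⟩
      refine ⟨_, Cfsg.Agent.RootSLTwo.mem_lower.2 ⟨c * (φ ⬝ᵥ b) * (ψ ⬝ᵥ a), rfl⟩, Subtype.ext ((hlo _).trans ?_)⟩
      rw [hc]; congr 2; field_simp
  constructor
  · rw [← hA, ← hB]
    exact map_rankOne f hinj (Cfsg.RankOnePair_symm Cfsg.Agent.RootSLTwo.rankOne)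
  · refine ⟨f, ?_, ?_, hA, hB⟩
    · rw [← hA, ← hB, ← Subgroup.map_sup, sup_comm, Cfsg.Agent.RootSLTwo.sup_eq_top, ← MonoidHom.range_eq_map]
    · rw [(MonoidHom.ker_eq_bot_iff f).2 hinj]; exact bot_le

end Aux

/-- Let k be a field and n a natural number. In SL_{n+3}(k) (so in every dimension at least 3) the conjugates of the root subgroup of elementary transvections 1 + c E₁₂ (c ∈ k) — that is, the groups of transvections attached to an incident point–hyperplane pair — form a non-degenerate class of abstract k-root subgroups of SL_{n+3}(k) whose graph of rank one pairs is connected. -/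
theorem result (k : Type*) [Field k] (n : ℕ) :
    Cfsg.IsRootSubgroupClass {A : Subgroup (Matrix.SpecialLinearGroup (Fin (n + 3)) k) |
        ∃ g : Matrix.SpecialLinearGroup (Fin (n + 3)) k,
          A = Cfsg.conjBy (Subgroup.closure {t : Matrix.SpecialLinearGroup (Fin (n + 3)) k |
            ∃ c : k, (t : Matrix (Fin (n + 3)) (Fin (n + 3)) k) = Matrix.transvection 0 1 c}) g} ∧
    Cfsg.IsNondegenerateRootSet {A : Subgroup (Matrix.SpecialLinearGroup (Fin (n + 3)) k) |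
        ∃ g : Matrix.SpecialLinearGroup (Fin (n + 3)) k,
          A = Cfsg.conjBy (Subgroup.closure {t : Matrix.SpecialLinearGroup (Fin (n + 3)) k |
            ∃ c : k, (t : Matrix (Fin (n + 3)) (Fin (n + 3)) k) = Matrix.transvection 0 1 c}) g} ∧
    Cfsg.IsKRootSubgroupSet k {A : Subgroup (Matrix.SpecialLinearGroup (Fin (n + 3)) k) |
        ∃ g : Matrix.SpecialLinearGroup (Fin (n + 3)) k,
          A = Cfsg.conjBy (Subgroup.closure {t : Matrix.SpecialLinearGroup (Fin (n + 3)) k |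
            ∃ c : k, (t : Matrix (Fin (n + 3)) (Fin (n + 3)) k) = Matrix.transvection 0 1 c}) g} ∧
    Cfsg.IsConnectedFamily (Cfsg.FAdj {A : Subgroup (Matrix.SpecialLinearGroup (Fin (n + 3)) k) |
        ∃ g : Matrix.SpecialLinearGroup (Fin (n + 3)) k,
          A = Cfsg.conjBy (Subgroup.closure {t : Matrix.SpecialLinearGroup (Fin (n + 3)) k |
            ∃ c : k, (t : Matrix (Fin (n + 3)) (Fin (n + 3)) k) = Matrix.transvection 0 1 c}) g})
      {A : Subgroup (Matrix.SpecialLinearGroup (Fin (n + 3)) k) |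
        ∃ g : Matrix.SpecialLinearGroup (Fin (n + 3)) k,
          A = Cfsg.conjBy (Subgroup.closure {t : Matrix.SpecialLinearGroup (Fin (n + 3)) k |
            ∃ c : k, (t : Matrix (Fin (n + 3)) (Fin (n + 3)) k) = Matrix.transvection 0 1 c}) g} := by
  classical
  set S := {A : Subgroup (Matrix.SpecialLinearGroup (Fin (n + 3)) k) |
        ∃ g : Matrix.SpecialLinearGroup (Fin (n + 3)) k,
          A = Cfsg.conjBy (Subgroup.closure {t : Matrix.SpecialLinearGroup (Fin (n + 3)) k |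
            ∃ c : k, (t : Matrix (Fin (n + 3)) (Fin (n + 3)) k) = Matrix.transvection 0 1 c}) g} with hSdef
  have hS : ∀ A, A ∈ S ↔ IsRt A := fun A => mem_iff A
  have hroot : Cfsg.IsRootSubgroupSet S := by
    refine ⟨?_, ?_, ?_, ?_, ?_⟩
    · intro A hA
      obtain ⟨a, φ, h, ha, hφ, rfl⟩ := (hS A).1 hA
      exact rt_comm h
    · intro A hA
      obtain ⟨a, φ, h, ha, hφ, rfl⟩ := (hS A).1 hA
      exact rt_ne_bot h ha hφ
    · refine eq_top_iff.2 fun M _ => ?_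
      have ht : ∀ (i j : Fin (n + 3)) (hij : i ≠ j) (c : k),
          Matrix.SpecialLinearGroup.transvection hij c ∈ (⨆ A ∈ S, A) := by
        intro i j hij c
        have hAS : Rt (Pi.single i (1 : k)) (Pi.single j 1) (by simp [hij.symm]) ∈ S :=
          (hS _).2 ⟨_, _, _, by simp, by simp, rfl⟩
        exact le_iSup₂ (f := fun A (_ : A ∈ S) => A) _ hAS ⟨c, elem_val hij c⟩
      refine Matrix.SpecialLinearGroup.diagonal_transvection_induction'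
        (fun M => M ∈ (⨆ A ∈ S, A)) M (fun i j hij c hc => ?_) ht (fun A B hA hB => Subgroup.mul_mem _ hA hB)
      rw [CfsgLib.Classical.diag2n_eq_prod hij hc]
      refine Subgroup.mul_mem _ (Subgroup.mul_mem _ (Subgroup.mul_mem _ (Subgroup.mul_mem _ (Subgroup.mul_mem _ ?_ ?_) ?_) ?_) ?_) ?_ <;>
        exact ht _ _ _ _
    · rintro A ⟨g, rfl⟩ x
      exact ⟨x * g, CfsgLib.Root.cb_mul _ g x⟩
    · intro A hA B hB
      obtain ⟨a, φ, h, ha, hφ, rfl⟩ := (hS A).1 hA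
      obtain ⟨b, ψ, h', hb, hψ, rfl⟩ := (hS B).1 hB
      by_cases hα : φ ⬝ᵥ b = 0
      · by_cases hβ : ψ ⬝ᵥ a = 0
        · exact Or.inl (CfsgLib.Root.cm_iff.2 (cm_case h h' hα hβ))
        · exact Or.inr (Or.inr (CfsgLib.Root.comm_case_symm
            (com_case h' h hb hψ ha hφ hβ hα (S := S) ((hS _).2 ⟨_, _, hα, hb, hφ, rfl⟩))))
      · by_cases hβ : ψ ⬝ᵥ a = 0
        · exact Or.inr (Or.inr (com_case h h' ha hφ hb hψ hα hβ (S := S) ((hS _).2 ⟨_, _, hβ, ha, hψ, rfl⟩)))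
        · exact Or.inr (Or.inl (rank_case h h' hα hβ).1)
  refine ⟨⟨hroot, ⟨_, 1, rfl⟩, ?_⟩, ?_, ⟨hroot, ?_⟩, ?_⟩
  · rintro A ⟨g, rfl⟩ B ⟨g', rfl⟩
    exact ⟨g' * g⁻¹, by rw [CfsgLib.Root.cb_mul, inv_mul_cancel_right]⟩
  · have e0 : (0 : Fin (n + 3)) ≠ 1 := by simp [Fin.ext_iff]
    have e1 : (0 : Fin (n + 3)) ≠ 2 := by simp [Fin.ext_iff, Fin.val_two, Nat.mod_eq_of_lt (show 2 < n + 3 by omega)]
    have e2 : (1 : Fin (n + 3)) ≠ 2 := by simp [Fin.ext_iff, Fin.val_two, Nat.mod_eq_of_lt (show 2 < n + 3 by omega)]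
    have hm : ∀ i j : Fin (n + 3), (hij : i ≠ j) → Rt (Pi.single i (1 : k)) (Pi.single j 1) (by simp [hij.symm]) ∈ S :=
      fun i j hij => (hS _).2 ⟨_, _, _, by simp, by simp, rfl⟩
    refine ⟨⟨_, hm 0 1 e0, _, hm 0 2 e1, ?_, CfsgLib.Root.cm_iff.2 (cm_case _ _ (by simp [e0.symm]) (by simp [e1.symm]))⟩,
      ⟨_, hm 0 1 e0, _, hm 1 0 e0.symm, (rank_case _ _ (by simp) (by simp)).1⟩,
      ⟨_, hm 0 1 e0, _, hm 1 2 e2, com_case _ _ (by simp) (by simp) (by simp) (by simp) (by simp) (by simp [e1.symm]) ((hS _).2 ⟨_, _, by simp [e1.symm], by simp, by simp, rfl⟩)⟩⟩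
    intro he
    have h1 : Matrix.SpecialLinearGroup.transvection e0 (1 : k) ∈ Rt (Pi.single 0 (1 : k)) (Pi.single 2 1) (by simp [e1.symm]) :=
      he ▸ ⟨1, elem_val e0 1⟩
    obtain ⟨c, hc⟩ := h1
    rw [elem_val e0 1] at hc
    have := congrFun (congrFun hc 0) 1
    simp [Matrix.vecMulVec_apply, e0, e2] at this
  · intro A hA B hB hR
    obtain ⟨a, φ, h, ha, hφ, rfl⟩ := (hS A).1 hA
    obtain ⟨b, ψ, h', hb, hψ, rfl⟩ := (hS B).1 hB
    by_cases hα : φ ⬝ᵥ b = 0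
    · by_cases hβ : ψ ⬝ᵥ a = 0
      · exact absurd (cm_case h h' hα hβ) (CfsgLib.Root.R_not_cm hR)
      · exact absurd (Cfsg.RankOnePair_symm hR) (not_rank h' h hb hψ ha hφ hβ hα)
    · by_cases hβ : ψ ⬝ᵥ a = 0
      · exact absurd hR (not_rank h h' ha hφ hb hψ hα hβ)
      · exact (rank_case h h' hα hβ).2
  · intro A hA B hB
    obtain ⟨a, φ, h, ha, hφ, rfl⟩ := (hS A).1 hA
    obtain ⟨b, ψ, h', hb, hψ, rfl⟩ := (hS B).1 hB
    obtain ⟨c, χ, hχc, h1, h2, h3, h4⟩ := exists_opposite h h' ha hφ hb hψ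
    have hχ : χ ≠ 0 := fun e => h3 (by rw [e, zero_dotProduct])
    have hc0 : c ≠ 0 := fun e => h1 (by rw [e, dotProduct_zero])
    have hC : Rt c χ hχc ∈ S := (hS _).2 ⟨c, χ, hχc, hc0, hχ, rfl⟩
    exact (Relation.ReflTransGen.single ⟨hA, hC, (rank_case h hχc h1 h3).1⟩).tail
      ⟨hC, hB, (rank_case hχc h' h4 h2).1⟩

end Cfsg.Agent.S5043
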