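import Cfsg.Statements.S5045
import Cfsg.Agent.Lib.CoreSubnormal

set_option autoImplicit false
open Cfsg

namespace Cfsg.Agent.S5045

section Aux

variable {G : Type*} [Group G] {D : Set G}

theorem sq (hD : Cfsg.IsRootInvolutionSet D) {a : G} (ha : a ∈ D) : a * a = 1 := by
  rw [← pow_two, ← hD.orderOf_eq a ha]; exact pow_orderOf_eq_one a

theorem inv_self (hD : Cfsg.IsRootInvolutionSet D) {a : G} (ha : a ∈ D) : a⁻¹ = a :=
  inv_eq_of_mul_eq_one_right (sq hD ha)

theorem adj_symm (hD : Cfsg.IsRootInvolutionSet D) {a b : G} (h : Cfsg.OddAdj D a b) : Cfsg.OddAdj D b a := by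
  refine ⟨h.2.1, h.1, h.2.2.1.symm, ?_⟩
  rw [← orderOf_inv, mul_inv_rev, inv_self hD h.1, inv_self hD h.2.1]
  exact h.2.2.2

theorem adj_conj (hD : Cfsg.IsRootInvolutionSet D) {a b : G} (g : G) (h : Cfsg.OddAdj D a b) :
    Cfsg.OddAdj D (g * a * g⁻¹) (g * b * g⁻¹) := by
  refine ⟨hD.conj_mem a h.1 g, hD.conj_mem b h.2.1 g, fun e => h.2.2.1 (by simpa using e), ?_⟩
  rw [show g * a * g⁻¹ * (g * b * g⁻¹) = MulAut.conj g (a * b) by simp [mul_assoc], MulEquiv.orderOf_eq]
  exact h.2.2.2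

theorem exists_adj {a : G} (_ha : a ∈ D) (hne : ∃ a' ∈ Cfsg.elemComponentOf (Cfsg.OddAdj D) D a, a' ≠ a) :
    ∃ x, Cfsg.OddAdj D a x := by
  obtain ⟨a', ⟨-, hp⟩, hne⟩ := hne
  rcases Relation.ReflTransGen.cases_head hp with h | ⟨x, hx, -⟩
  · exact absurd h.symm hne
  · exact ⟨x, hx⟩

theorem comp_eq (hD : Cfsg.IsRootInvolutionSet D) {a b c : G} (h1 : c ∈ Cfsg.elemComponentOf (Cfsg.OddAdj D) D a)
    (h2 : c ∈ Cfsg.elemComponentOf (Cfsg.OddAdj D) D b) :
    Cfsg.elemComponentOf (Cfsg.OddAdj D) D a = Cfsg.elemComponentOf (Cfsg.OddAdj D) D b := by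
  have hs : ∀ {x y : G}, Relation.ReflTransGen (Cfsg.OddAdj D) x y → Relation.ReflTransGen (Cfsg.OddAdj D) y x := by
    intro x y h
    induction h with
    | refl => exact .refl
    | tail _ h ih => exact (Relation.ReflTransGen.single (adj_symm hD h)).trans ih
  ext z
  exact ⟨fun hz => ⟨hz.1, h2.2.trans ((hs h1.2).trans hz.2)⟩, fun hz => ⟨hz.1, h1.2.trans ((hs h2.2).trans hz.2)⟩⟩

theorem order_le_two (hD : Cfsg.IsRootInvolutionSet D) {a b : G} (ha : a ∈ D) (hb : b ∈ D) (h : a * b = b * a) :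
    (a * b) ^ 2 = 1 := by
  rw [pow_two]
  calc a * b * (a * b) = a * b * (b * a) := by rw [h]
    _ = a * (b * b) * a := by group
    _ = 1 := by rw [sq hD hb, mul_one, sq hD ha]

/-- A product partner of `a` commutes with no odd partner of `a`. -/
theorem no_comm (hD : Cfsg.IsRootInvolutionSet D) {a x e : G} (hx : Cfsg.OddAdj D a x)
    (he : e ∈ Cfsg.productPartners D a) : ¬ e * x = x * e := by
  intro hex
  obtain ⟨⟨heD, hea, -⟩, hed⟩ := he
  have hcm : Commute e (a * x) := (show Commute e a from hea).mul_right hex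
  have ho : orderOf (e * (a * x)) = 2 * orderOf (a * x) := by
    rw [hcm.orderOf_mul_eq_mul_orderOf_of_coprime (by rw [hD.orderOf_eq e heD]; exact Nat.coprime_two_left.2 hx.2.2.2),
      hD.orderOf_eq e heD]
  rw [← mul_assoc] at ho
  have h3 : 1 < orderOf (a * x) := by
    by_contra h
    have h1 : orderOf (a * x) = 1 := by
      obtain ⟨m, hm⟩ := hx.2.2.2
      omega
    rw [orderOf_eq_one_iff, mul_eq_one_iff_eq_inv, inv_self hD hx.2.1] at h1
    exact hx.2.2.1 h1
  obtain ⟨m, hm⟩ := hx.2.2.2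
  rcases hD.pair _ hed x hx.2.1 with h | h | ⟨h, -⟩
  · have := Nat.le_of_dvd two_pos (orderOf_dvd_of_pow_eq_one (order_le_two hD hed hx.2.1 h))
    rw [ho] at this; omega
  · rw [ho] at h
    exact absurd h (Nat.not_odd_iff_even.2 (even_two_mul _))
  · rw [ho] at h; omega

/-- If `e` is a product partner of `a` and `e x` is not of odd order, then `e a` is joined to `x`. -/
theorem third (hD : Cfsg.IsRootInvolutionSet D) {a x e : G} (hx : Cfsg.OddAdj D a x)
    (he : e ∈ Cfsg.productPartners D a) (hex : ¬ Odd (orderOf (e * x))) : Cfsg.OddAdj D (e * a) x := by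
  obtain ⟨⟨heD, hea, hne⟩, hed⟩ := he
  have haD := hx.1
  have hxD := hx.2.1
  have hdx : e * a ≠ x := by
    intro h
    have hax : a * x = x * a := by
      rw [← h]
      calc a * (e * a) = (a * e) * a := by group
        _ = e * a * a := by rw [← hea]
    have h2 := order_le_two hD haD hxD hax
    have h3 := orderOf_dvd_of_pow_eq_one h2
    rcases (Nat.dvd_prime Nat.prime_two).1 h3 with h4 | h4
    · rw [orderOf_eq_one_iff, mul_eq_one_iff_eq_inv, inv_self hD hxD] at h4
      exact hx.2.2.1 h4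
    · have := hx.2.2.2; rw [h4] at this; exact absurd this (by decide)
  refine ⟨hed, hxD, hdx, ?_⟩
  by_contra hodd
  obtain ⟨he4, hfD⟩ : orderOf (e * x) = 4 ∧ (e * x) ^ 2 ∈ D := by
    rcases hD.pair e heD x hxD with h | h | h
    · exact absurd h (no_comm hD hx ⟨⟨heD, hea, hne⟩, hed⟩)
    · exact absurd h hex
    · exact h
  -- `(e a) x (e a)` commutes with `x`
  have hd2 : (e * a * x) ^ 4 = 1 := by
    rcases hD.pair _ hed x hxD with h | h | ⟨h, -⟩
    · rw [show (4 : ℕ) = 2 * 2 from rfl, pow_mul, order_le_two hD hed hxD h, one_pow]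
    · exact absurd h hodd
    · rw [← h]; exact pow_orderOf_eq_one _
  have hcm : (e * a * x * (e * a)) * x = x * (e * a * x * (e * a)) := by
    have h4 : (e * a * x * (e * a * x)) * (e * a * x * (e * a * x)) = 1 := by
      rw [← hd2, pow_succ, pow_succ, pow_succ, pow_one]; group
    have h5 := eq_inv_of_mul_eq_one_left h4
    rw [mul_inv_rev, mul_inv_rev, inv_self hD hed, inv_self hD hxD] at h5
    calc (e * a * x * (e * a)) * x = e * a * x * (e * a * x) := by group
      _ = x * (e * a) * (x * (e * a)) := h5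
      _ = x * (e * a * x * (e * a)) := by group
  -- conjugating by `e`: `a x a` commutes with `e x e`
  have hcm2 : (e * x * e) * (a * x * a) = (a * x * a) * (e * x * e) := by
    have he1 := sq hD heD
    have h' := congrArg (fun z => e * z * e) hcm
    have l : e * ((e * a * x * (e * a)) * x) * e = (a * x * a) * (e * x * e) := by
      calc e * ((e * a * x * (e * a)) * x) * e = (e * e) * (a * x * (e * a)) * x * e := by group
        _ = a * x * (a * e) * x * e := by rw [he1, one_mul, hea]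
        _ = _ := by group
    have r : e * (x * (e * a * x * (e * a))) * e = (e * x * e) * (a * x * a) := by
      calc e * (x * (e * a * x * (e * a))) * e = e * x * e * a * x * ((e * a) * e) := by group
        _ = e * x * e * a * x * a := by
            rw [hea, mul_assoc a e e, he1, mul_one]
        _ = _ := by group
    rw [l, r] at h'
    exact h'.symm
  have hxa : Cfsg.OddAdj D x (a * x * a) := by
    have hm : a * x * a ∈ D := by
      have := hD.conj_mem x hxD a; rwa [inv_self hD haD] at this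
    have he2 : x * (a * x * a) = (x * a) ^ 2 := by rw [pow_two]; group
    have ho : Odd (orderOf (x * a)) := (adj_symm hD hx).2.2.2
    refine ⟨hxD, hm, fun h => ?_, ?_⟩
    · have h1 : (x * a) ^ 2 = 1 := by rw [← he2, ← h, sq hD hxD]
      rcases (Nat.dvd_prime Nat.prime_two).1 (orderOf_dvd_of_pow_eq_one h1) with h2 | h2
      · rw [orderOf_eq_one_iff, mul_eq_one_iff_eq_inv, inv_self hD haD] at h2
        exact hx.2.2.1 h2.symm
      · rw [h2] at ho; exact absurd ho (by decide)
    · rw [he2]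
      exact Odd.of_dvd_nat ho (orderOf_pow_dvd 2)
  refine no_comm hD hxa ⟨⟨?_, ?_, ?_⟩, ?_⟩ hcm2
  · have := hD.conj_mem x hxD e; rwa [inv_self hD heD] at this
  · have h4 : (e * x * (e * x)) * (e * x * (e * x)) = 1 := by
      rw [← pow_orderOf_eq_one (e * x), he4, pow_succ, pow_succ, pow_succ, pow_one]; group
    have h5 := eq_inv_of_mul_eq_one_left h4
    rw [mul_inv_rev, mul_inv_rev, inv_self hD heD, inv_self hD hxD] at h5
    calc e * x * e * x = e * x * (e * x) := by group
      _ = x * e * (x * e) := h5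
      _ = x * (e * x * e) := by group
  · intro h
    refine no_comm hD hx ⟨⟨heD, hea, hne⟩, hed⟩ ?_
    calc e * x = e * x * e * e := by rw [mul_assoc (e * x), sq hD heD, mul_one]
      _ = x * e := by rw [h]
  · rw [show e * x * e * x = (e * x) ^ 2 by rw [pow_two]; group]
    exact hfD

theorem four_partner (hD : Cfsg.IsRootInvolutionSet D) {a b : G} (ha : a ∈ D) (hb : b ∈ D)
    (h4 : orderOf (a * b) = 4) (hcD : (a * b) ^ 2 ∈ D) :
    (a * b) ^ 2 ∈ Cfsg.productPartners D a ∧ (a * b) ^ 2 ∈ Cfsg.productPartners D b := by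
  have hai := inv_self hD ha
  have hbi := inv_self hD hb
  have h5 : (a * b) ^ 2 = (b * a) ^ 2 := by
    have h6 : (a * b) ^ 2 * (a * b) ^ 2 = 1 := by rw [← pow_add, ← pow_orderOf_eq_one (a * b), h4]
    rw [eq_inv_of_mul_eq_one_left h6, ← inv_pow, mul_inv_rev, hai, hbi]
  have hne : ∀ u v : G, u ∈ D → v ∈ D → (u * v) ^ 2 ≠ 1 → (u * v) ^ 2 ≠ u := by
    intro u v hu hv hn h
    rw [pow_two] at h
    have h1 : v * u * v = 1 := by
      calc v * u * v = u⁻¹ * (u * v * (u * v)) := by group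
        _ = 1 := by rw [h, inv_mul_cancel]
    have h2 : u = 1 := by
      calc u = v⁻¹ * (v * u * v) * v⁻¹ := by group
        _ = 1 := by rw [h1, mul_one, inv_self hD hv, sq hD hv]
    have := hD.orderOf_eq u hu
    rw [h2, orderOf_one] at this
    exact absurd this (by norm_num)
  have hn : (a * b) ^ 2 ≠ 1 := fun h => by
    have := orderOf_dvd_of_pow_eq_one h
    rw [h4] at this; omega
  refine ⟨⟨⟨hcD, ?_, hne a b ha hb hn⟩, ?_⟩, ⟨⟨hcD, ?_, by rw [h5]; exact hne b a hb ha (h5 ▸ hn)⟩, ?_⟩⟩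
  · conv_rhs => rw [h5]
    rw [pow_two, pow_two]; group
  · have := hD.conj_mem a ha (a * b)
    rw [mul_inv_rev, hai, hbi] at this
    convert this using 1
    rw [pow_two]; group
  · conv_lhs => rw [h5]
    rw [pow_two, pow_two]; group
  · have := hD.conj_mem a ha 1
    rw [h5]
    have := hD.conj_mem b hb (b * a)
    rw [mul_inv_rev, hai, hbi] at this
    convert this using 1
    rw [pow_two]; group

theorem pgroup_pair (hD : Cfsg.IsRootInvolutionSet D) {w v : G}
    (hw : Cfsg.IsIsolatedElem (Cfsg.OddAdj D) D w) (hv : Cfsg.IsIsolatedElem (Cfsg.OddAdj D) D v) :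
    IsPGroup 2 (Subgroup.closure ({w, v} : Set G)) := by
  haveI : Fact (Nat.Prime 2) := ⟨Nat.prime_two⟩
  have h4 : (w * v) ^ 4 = 1 := by
    rcases hD.pair w hw.1 v hv.1 with h | h | ⟨h, -⟩
    · rw [show (4 : ℕ) = 2 * 2 from rfl, pow_mul, order_le_two hD hw.1 hv.1 h, one_pow]
    · by_cases hwv : w = v
      · rw [hwv, sq hD hv.1, one_pow]
      · exact absurd ⟨hw.1, hv.1, hwv, h⟩ (hw.2 v).1
    · rw [← h]; exact pow_orderOf_eq_one _
  have hpr : ∀ (x : G) (k : ℕ), x ^ 2 ^ k = 1 → IsPGroup 2 (Subgroup.zpowers x) := by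
    rintro x k hx ⟨y, i, rfl⟩
    refine ⟨k, Subtype.ext ?_⟩
    show (x ^ i) ^ 2 ^ k = 1
    rw [← zpow_natCast, ← zpow_mul, mul_comm, zpow_mul, zpow_natCast, hx, one_zpow]
  have hnorm : Subgroup.zpowers w ≤ Subgroup.normalizer (Subgroup.zpowers (w * v) : Set G) := by
    rw [Subgroup.zpowers_le, Subgroup.mem_normalizer_iff]
    have key : ∀ x ∈ Subgroup.zpowers (w * v), w * x * w⁻¹ ∈ Subgroup.zpowers (w * v) := by
      rintro x ⟨i, rfl⟩
      show w * (w * v) ^ i * w⁻¹ ∈ _
      rw [← conj_zpow]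
      refine Subgroup.zpow_mem _ ?_ i
      rw [show w * (w * v) * w⁻¹ = (w * w) * (v * w⁻¹) by group, sq hD hw.1, one_mul,
        show v * w⁻¹ = (w * v⁻¹)⁻¹ by group, inv_self hD hv.1]
      exact Subgroup.inv_mem _ (Subgroup.mem_zpowers _)
    intro x
    refine ⟨key x, fun hx => ?_⟩
    have := key _ hx
    rw [inv_self hD hw.1] at this
    rwa [show w * (w * x * w) * w = (w * w) * x * (w * w) by group, sq hD hw.1, one_mul, mul_one] at this
  refine (IsPGroup.to_sup_of_normal_right' (hpr w 1 (by rw [pow_one, pow_two, sq hD hw.1]))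
    (hpr (w * v) 2 h4) hnorm).to_le ((Subgroup.closure_le _).2 ?_)
  rintro x (rfl | rfl)
  · exact le_sup_left (b := Subgroup.zpowers (x * v)) (Subgroup.mem_zpowers x)
  · have := mul_mem (le_sup_left (b := Subgroup.zpowers (w * x)) (Subgroup.mem_zpowers w))
      (le_sup_right (a := Subgroup.zpowers w) (Subgroup.mem_zpowers (w * x)))
    rwa [← mul_assoc, sq hD hw.1, one_mul] at this

theorem no_adj (hD : Cfsg.IsRootInvolutionSet D) {N : Subgroup G} (hN : N.Normal) (hp : IsPGroup 2 N) {d b : G}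
    (hd : d ∈ N) (h : Cfsg.OddAdj D d b) : False := by
  have hm : (d * b) ^ 2 ∈ N := by
    have := mul_mem hd (hN.conj_mem d hd b)
    rw [inv_self hD h.2.1] at this
    rw [pow_two]
    simpa [mul_assoc] using this
  obtain ⟨k, hk⟩ := hp ⟨_, hm⟩
  have hk' : ((d * b) ^ 2) ^ 2 ^ k = 1 := congrArg Subtype.val hk
  rw [← pow_mul] at hk'
  have h1 := Nat.Coprime.eq_one_of_dvd (Nat.Coprime.mul_right (Nat.coprime_two_right.2 h.2.2.2)
    (Nat.Coprime.pow_right k (Nat.coprime_two_right.2 h.2.2.2))) (orderOf_dvd_of_pow_eq_one hk')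
  rw [orderOf_eq_one_iff, mul_eq_one_iff_eq_inv, inv_self hD h.2.1] at h1
  exact h.2.2.1 h1

end Aux

/-- Let G be a finite group generated by a set D of root involutions, and W the set of members of D whose product with every other member of D has even order or is trivial (the isolated vertices of the odd-order-product graph on D). Then W is conjugation-invariant and generates a normal 2-subgroup of G meeting D in exactly W; the commutator of two members of D lying in different connected components of that graph, each with more than one member, lies in the subgroup generated by W; and for a in such a component, every member of D commuting with a, different from a and with product with a in D, lies in that component or in W. -/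
theorem result {G : Type*} [Group G] [Finite G] {D : Set G} (hD : Cfsg.IsRootInvolutionSet D) :
    (∀ w ∈ {w | Cfsg.IsIsolatedElem (Cfsg.OddAdj D) D w}, ∀ g : G, g * w * g⁻¹ ∈ {w | Cfsg.IsIsolatedElem (Cfsg.OddAdj D) D w}) ∧
    (Subgroup.closure {w | Cfsg.IsIsolatedElem (Cfsg.OddAdj D) D w}).Normal ∧
    IsPGroup 2 ↥(Subgroup.closure {w | Cfsg.IsIsolatedElem (Cfsg.OddAdj D) D w}) ∧
    (Subgroup.closure {w | Cfsg.IsIsolatedElem (Cfsg.OddAdj D) D w} : Set G) ∩ D = {w | Cfsg.IsIsolatedElem (Cfsg.OddAdj D) D w} ∧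
    (∀ a ∈ D, ∀ b ∈ D, (∃ a' ∈ Cfsg.elemComponentOf (Cfsg.OddAdj D) D a, a' ≠ a) →
      (∃ b' ∈ Cfsg.elemComponentOf (Cfsg.OddAdj D) D b, b' ≠ b) →
      Cfsg.elemComponentOf (Cfsg.OddAdj D) D a ≠ Cfsg.elemComponentOf (Cfsg.OddAdj D) D b →
        a * b * a⁻¹ * b⁻¹ ∈ Subgroup.closure {w | Cfsg.IsIsolatedElem (Cfsg.OddAdj D) D w}) ∧
    (∀ a ∈ D, (∃ a' ∈ Cfsg.elemComponentOf (Cfsg.OddAdj D) D a, a' ≠ a) →
      Cfsg.productPartners D a ⊆ Cfsg.elemComponentOf (Cfsg.OddAdj D) D a ∪ {w | Cfsg.IsIsolatedElem (Cfsg.OddAdj D) D w}) := by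
  haveI : Fact (Nat.Prime 2) := ⟨Nat.prime_two⟩
  set W := {w | Cfsg.IsIsolatedElem (Cfsg.OddAdj D) D w} with hW
  have hsq : ∀ a ∈ D, a * a = 1 := fun a ha => by
    rw [← pow_two, ← hD.orderOf_eq a ha]; exact pow_orderOf_eq_one a
  have hWconj : ∀ w ∈ W, ∀ g : G, g * w * g⁻¹ ∈ W := by
    intro w hw g
    refine ⟨hD.conj_mem w hw.1 g, fun b => ⟨fun h => (hw.2 (g⁻¹ * b * g)).1 ?_, fun h => (hw.2 (g⁻¹ * b * g)).2 ?_⟩⟩
    · have := adj_conj hD g⁻¹ h
      simpa [mul_assoc] using this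
    · have := adj_conj hD g⁻¹ h
      simpa [mul_assoc] using this
  have hnorm : (Subgroup.closure W).Normal := by
    refine ⟨fun x hx g => ?_⟩
    have hle : Subgroup.closure W ≤ (Subgroup.closure W).comap (MulAut.conj g).toMonoidHom :=
      (Subgroup.closure_le _).2 fun w hw => Subgroup.subset_closure (hWconj w hw g)
    exact hle hx
  have hWcore : Subgroup.closure W ≤ Cfsg.pCore 2 G := by
    refine (Subgroup.closure_le _).2 fun w hw => CfsgLib.Core.baer_suzuki fun g => ?_
    exact pgroup_pair hD hw (hWconj w hw g)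
  have hp : IsPGroup 2 ↥(Subgroup.closure W) := (CfsgLib.Core.isPGroup_pCore 2).to_le hWcore
  have hinter : (Subgroup.closure W : Set G) ∩ D = W := by
    refine Set.Subset.antisymm ?_ fun w hw => ⟨Subgroup.subset_closure hw, hw.1⟩
    rintro d ⟨hd, hdD⟩
    refine ⟨hdD, fun b => ⟨fun h => ?_, fun h => ?_⟩⟩
    · exact no_adj hD hnorm hp hd h
    · exact no_adj hD hnorm hp hd (adj_symm hD h)
  have key6 : ∀ a ∈ D, (∃ a' ∈ Cfsg.elemComponentOf (Cfsg.OddAdj D) D a, a' ≠ a) →
      Cfsg.productPartners D a ⊆ Cfsg.elemComponentOf (Cfsg.OddAdj D) D a ∪ W := by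
    intro a ha hne e he
    by_cases heW : e ∈ W
    · exact Or.inr heW
    left
    obtain ⟨x, hx⟩ := exists_adj ha hne
    obtain ⟨y, hy⟩ : ∃ y, Cfsg.OddAdj D e y := by
      by_contra h
      exact heW ⟨he.1.1, fun b => ⟨fun hb => h ⟨b, hb⟩, fun hb => h ⟨b, adj_symm hD hb⟩⟩⟩
    refine ⟨he.1.1, ?_⟩
    by_cases hex : Odd (orderOf (e * x))
    · have hne' : e ≠ x := fun h => no_comm hD hx he (by rw [h])
      exact (Relation.ReflTransGen.single hx).tail (adj_symm hD ⟨he.1.1, hx.2.1, hne', hex⟩)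
    have h1 : Cfsg.OddAdj D (e * a) x := third hD hx he hex
    have he' : a ∈ Cfsg.productPartners D e := ⟨⟨ha, he.1.2.1.symm, Ne.symm he.1.2.2⟩, he.1.2.1 ▸ he.2⟩
    by_cases hay : Odd (orderOf (a * y))
    · have hne' : a ≠ y := fun h => no_comm hD hy he' (by rw [h])
      exact (Relation.ReflTransGen.single ⟨ha, hy.2.1, hne', hay⟩).tail (adj_symm hD hy)
    have h2 : Cfsg.OddAdj D (a * e) y := third hD hy he' hay
    rw [← he.1.2.1] at h2
    exact (((Relation.ReflTransGen.single hx).tail (adj_symm hD h1)).tail h2).tail (adj_symm hD hy)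
  refine ⟨hWconj, hnorm, hp, hinter, ?_, key6⟩
  intro a ha b hb hane hbne hne
  have hdisj : ∀ c, c ∈ Cfsg.elemComponentOf (Cfsg.OddAdj D) D a → c ∈ Cfsg.elemComponentOf (Cfsg.OddAdj D) D b → False :=
    fun c h1 h2 => hne (comp_eq hD h1 h2)
  rcases hD.pair a ha b hb with h | h | ⟨h4, hcD⟩
  · rw [h]; simp
  · exfalso
    by_cases hab : a = b
    · exact hne (by rw [hab])
    · exact hdisj b ⟨hb, .single ⟨ha, hb, hab, h⟩⟩ ⟨hb, .refl⟩
  · have hai : a⁻¹ = a := inv_eq_of_mul_eq_one_right (hsq a ha)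
    have hbi : b⁻¹ = b := inv_eq_of_mul_eq_one_right (hsq b hb)
    obtain ⟨p1, p2⟩ := four_partner hD ha hb h4 hcD
    rw [show a * b * a⁻¹ * b⁻¹ = (a * b) ^ 2 by rw [hai, hbi, pow_two]; group]
    rcases key6 a ha hane p1 with h1 | h1
    · rcases key6 b hb hbne p2 with h2 | h2
      · exact (hdisj _ h1 h2).elim
      · exact Subgroup.subset_closure h2
    · exact Subgroup.subset_closure h1

end Cfsg.Agent.S5045
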