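import Cfsg.Statements.S5049
import Cfsg.Agent.Lib.CoreBasic

set_option autoImplicit false
open Cfsg
open scoped commutatorElement

namespace Cfsg.Agent.S5049

/-- Let G be a finite group generated by a set D of odd transpositions (root involutions with no product of order 4), Q = O₂(G), and for a ∈ D let Q_a be the commutator subgroup of Q with a. Then every member of D commuting with a centralizes Q_a; and for b ∈ D with ab of odd order greater than 1, the centralizer of ab in Q is the intersection of the centralizers of a and b in Q. -/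
theorem result {G : Type*} [Group G] [Finite G] {D : Set G} (hD : Cfsg.IsOddTranspositionSet D) {a : G} (ha : a ∈ D) :
    (∀ e ∈ Cfsg.commutingMembers D a, ∀ q ∈ ⁅Cfsg.pCore 2 G, Subgroup.zpowers a⁆, e * q = q * e) ∧
    (∀ b ∈ Cfsg.oddPartners D a,
      Cfsg.pCore 2 G ⊓ Subgroup.centralizer {a * b} = Cfsg.pCore 2 G ⊓ Subgroup.centralizer {a} ⊓ Subgroup.centralizer {b}) := by
  classical
  obtain ⟨hR, h4⟩ := hD
  haveI : Fact (Nat.Prime 2) := ⟨Nat.prime_two⟩
  haveI := CfsgLib.Core.normal_pCore (G := G) 2
  have hQ := CfsgLib.Core.isPGroup_pCore (G := G) 2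
  have hsq : ∀ d ∈ D, d * d = 1 := fun d hd => by
    rw [← pow_two, ← hR.orderOf_eq d hd]; exact pow_orderOf_eq_one d
  have hinv : ∀ d ∈ D, d⁻¹ = d := fun d hd => inv_eq_of_mul_eq_one_right (hsq d hd)
  -- products congruent to an involution modulo `O₂` commute
  have hmod : ∀ x ∈ D, ∀ y ∈ D, (x * y) ^ 2 ∈ Cfsg.pCore 2 G → x * y = y * x := by
    intro x hx y hy hxy
    rcases hR.pair x hx y hy with h | h | h
    · exact h
    · obtain ⟨j, hj⟩ := hQ ⟨_, hxy⟩
      have hj' : ((x * y) ^ 2) ^ 2 ^ j = 1 := congrArg Subtype.val hj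
      rw [← pow_mul, ← pow_succ'] at hj'
      have h1 : orderOf (x * y) = 1 :=
        Nat.Coprime.eq_one_of_dvd ((Nat.coprime_two_right.2 h).pow_right _) (orderOf_dvd_of_pow_eq_one hj')
      rw [orderOf_eq_one_iff, mul_eq_one_iff_eq_inv, hinv y hy] at h1
      rw [h1]
    · exact absurd h.1 (h4 x hx y hy)
  have hcongr : ∀ x q : G, q ∈ Cfsg.pCore 2 G → ((q * x * q⁻¹ : G) : G ⧸ Cfsg.pCore 2 G) = (x : G ⧸ Cfsg.pCore 2 G) := by
    intro x q hq
    have : ((q : G) : G ⧸ Cfsg.pCore 2 G) = 1 := (QuotientGroup.eq_one_iff q).2 hq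
    rw [QuotientGroup.mk_mul, QuotientGroup.mk_mul, QuotientGroup.mk_inv, this, one_mul, inv_one, mul_one]
  refine ⟨?_, ?_⟩
  · intro e he q hq
    have hle : ⁅Cfsg.pCore 2 G, Subgroup.zpowers a⁆ ≤ Subgroup.centralizer {e} := by
      rw [Subgroup.commutator_le]
      intro q hq y hy
      obtain ⟨i, rfl⟩ := Subgroup.mem_zpowers_iff.1 hy
      have hca : a ∈ Subgroup.centralizer {e} := Subgroup.mem_centralizer_singleton_iff.2 he.2.symm
      have hcq : q * a * q⁻¹ ∈ Subgroup.centralizer {e} := by
        have ha' : q * a * q⁻¹ ∈ D := hR.conj_mem a ha q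
        refine Subgroup.mem_centralizer_singleton_iff.2 (hmod e he.1 _ ha' ?_).symm
        rw [← QuotientGroup.eq_one_iff, QuotientGroup.mk_pow, QuotientGroup.mk_mul, hcongr a q hq, ← QuotientGroup.mk_mul, ← QuotientGroup.mk_pow]
        rw [pow_two]
        rw [show e * a * (e * a) = e * e * (a * a) by rw [mul_assoc, ← mul_assoc a e a, ← he.2, mul_assoc e a a, ← mul_assoc]]
        rw [hsq e he.1, hsq a ha, one_mul]
        exact QuotientGroup.mk_one _
      rw [commutatorElement_def, show q * a ^ i * q⁻¹ = (q * a * q⁻¹) ^ i from (conj_zpow).symm]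
      exact Subgroup.mul_mem _ (Subgroup.zpow_mem _ hcq i) (Subgroup.inv_mem _ (Subgroup.zpow_mem _ hca i))
    exact (Subgroup.mem_centralizer_singleton_iff.1 (hle hq)).symm
  · intro b hb
    obtain ⟨hbD, hba, hodd⟩ := hb
    refine le_antisymm ?_ ?_
    · rintro q ⟨hq, hqc⟩
      have hq1 := Subgroup.mem_centralizer_singleton_iff.1 hqc
      have hodd1 : 1 < orderOf (a * b) := by
        rcases Nat.lt_trichotomy (orderOf (a * b)) 1 with h | h | h
        · rw [Nat.lt_one_iff] at h; rw [h] at hodd; simp at hodd
        · exfalso; rw [orderOf_eq_one_iff, mul_eq_one_iff_eq_inv, hinv b hbD] at h; exact hba h.symm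
        · exact h
      set a' := q * a * q⁻¹ with ha'def
      set b' := q * b * q⁻¹ with hb'def
      have ha' : a' ∈ D := hR.conj_mem a ha q
      have hb' : b' ∈ D := hR.conj_mem b hbD q
      have hab : a' * b' = a * b := by
        rw [ha'def, hb'def, show q * a * q⁻¹ * (q * b * q⁻¹) = q * (a * b) * q⁻¹ by group, hq1]
        group
      set c := a * a' with hcdef
      have hca : a * a' = a' * a := hmod a ha a' ha' (by
        rw [← QuotientGroup.eq_one_iff, QuotientGroup.mk_pow, QuotientGroup.mk_mul, hcongr a q hq, ← QuotientGroup.mk_mul, hsq a ha, QuotientGroup.mk_one, one_pow])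
      have hcb : b * b' = b' * b := hmod b hbD b' hb' (by
        rw [← QuotientGroup.eq_one_iff, QuotientGroup.mk_pow, QuotientGroup.mk_mul, hcongr b q hq, ← QuotientGroup.mk_mul, hsq b hbD, QuotientGroup.mk_one, one_pow])
      have hc' : b * b' = c := by
        calc b * b' = (a * (a * b)) * b' := by rw [← mul_assoc a a b, hsq a ha, one_mul]
          _ = a * a' * (b' * b') := by rw [← hab]; simp only [mul_assoc]
          _ = c := by rw [hsq b' hb', mul_one]
      have hcc : c * c = 1 := by
        rw [hcdef]
        calc a * a' * (a * a') = a * a' * (a' * a) := by rw [hca]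
          _ = a * (a' * a') * a := by simp only [mul_assoc]
          _ = 1 := by rw [hsq a' ha', mul_one, hsq a ha]
      have hca' : Commute c a := by
        show a * a' * a = a * (a * a')
        rw [mul_assoc, ← hca]
      have hcb' : Commute c b := by
        show c * b = b * c
        rw [← hc', mul_assoc, ← hcb]
      have e : a' * b = c * (a * b) := by
        rw [hcdef, hca, mul_assoc a' a, ← mul_assoc a a b, hsq a ha, one_mul]
      by_cases hc1 : c = 1
      · have e1 : a' = a := by
          rw [hcdef, mul_eq_one_iff_eq_inv, hinv a' ha'] at hc1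
          exact hc1.symm
        have e2 : b' = b := by
          have h := hc'.trans hc1
          rw [mul_eq_one_iff_eq_inv, hinv b' hb'] at h
          exact h.symm
        refine ⟨⟨hq, Subgroup.mem_centralizer_singleton_iff.2 ?_⟩, Subgroup.mem_centralizer_singleton_iff.2 ?_⟩
        · exact mul_inv_eq_iff_eq_mul.1 e1
        · exact mul_inv_eq_iff_eq_mul.1 e2
      · exfalso
        have hc2 : orderOf c = 2 := orderOf_eq_prime (by rw [pow_two, hcc]) hc1
        have hord : orderOf (a' * b) = 2 * orderOf (a * b) := by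
          rw [e, (hca'.mul_right hcb').orderOf_mul_eq_mul_orderOf_of_coprime (by rw [hc2]; exact Nat.coprime_two_left.2 hodd), hc2]
        rcases hR.pair a' ha' b hbD with h | h | h
        · have : orderOf (a' * b) ∣ 2 := orderOf_dvd_of_pow_eq_one (by
            rw [pow_two, mul_assoc, ← mul_assoc b a' b, ← h, mul_assoc a' b b, hsq b hbD, mul_one, hsq a' ha'])
          have := Nat.le_of_dvd (by norm_num) this
          omega
        · rw [hord] at h
          exact absurd h (Nat.not_odd_iff_even.2 (even_two_mul _))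
        · rw [hord] at h
          have := h.1
          obtain ⟨m, hm⟩ := hodd
          omega
    · rintro q ⟨⟨hq, hqa⟩, hqb⟩
      refine ⟨hq, Subgroup.mem_centralizer_singleton_iff.2 ?_⟩
      have h1 := Subgroup.mem_centralizer_singleton_iff.1 hqa
      have h2 := Subgroup.mem_centralizer_singleton_iff.1 hqb
      rw [← mul_assoc, h1, mul_assoc, h2, ← mul_assoc]

end Cfsg.Agent.S5049
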