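import Cfsg.Statements.S5057
import Cfsg.Agent.Lib.PermSmallFacts

set_option autoImplicit false
open Cfsg

namespace Cfsg.Agent.S5057

/-- The involutions of the alternating group of degree 6 form a class of root involutions (a single conjugacy class of involutions generating the group, any two of which commute, have product of odd order, or have product of order 4 whose square is again an involution of the class), and the product of any two of them has order at most 5. -/
theorem result :
    Cfsg.IsRootInvolutionClass {g : ↥(alternatingGroup (Fin 6)) | orderOf g = 2} ∧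
    ∀ d ∈ {g : ↥(alternatingGroup (Fin 6)) | orderOf g = 2}, ∀ e ∈ {g : ↥(alternatingGroup (Fin 6)) | orderOf g = 2},
      orderOf (d * e) ≤ 5 := by
  classical
  have hdec : ∀ x : Equiv.Perm (Fin 6), Equiv.Perm.sign x = 1 → x ^ 3 = 1 ∨ x ^ 4 = 1 ∨ x ^ 5 = 1 := by decide +kernel
  have hord : ∀ x : alternatingGroup (Fin 6), orderOf x ∣ 3 ∨ orderOf x ∣ 4 ∨ orderOf x ∣ 5 := by
    intro x
    rcases hdec x.1 (Equiv.Perm.mem_alternatingGroup.1 x.2) with h | h | h
    · exact Or.inl (orderOf_dvd_of_pow_eq_one (Subtype.ext h))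
    · exact Or.inr (Or.inl (orderOf_dvd_of_pow_eq_one (Subtype.ext h)))
    · exact Or.inr (Or.inr (orderOf_dvd_of_pow_eq_one (Subtype.ext h)))
  have hle : ∀ x : alternatingGroup (Fin 6), orderOf x ≤ 5 := by
    intro x
    rcases hord x with h | h | h <;> have := Nat.le_of_dvd (by norm_num) h <;> omega
  have htwo : ∀ a : alternatingGroup (Fin 6), orderOf a = 2 → a * a = 1 := fun a ha => by
    rw [← pow_two, ← ha, pow_orderOf_eq_one]
  have hinv : ∀ a : alternatingGroup (Fin 6), orderOf a = 2 → a⁻¹ = a := fun a ha =>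
    inv_eq_of_mul_eq_one_right (htwo a ha)
  have hcl : Subgroup.closure {g : alternatingGroup (Fin 6) | orderOf g = 2} = ⊤ := by
    haveI : IsSimpleGroup (alternatingGroup (Fin 6)) := alternatingGroup.isSimpleGroup (by simp)
    haveI : Fact (Nat.Prime 2) := ⟨Nat.prime_two⟩
    have hn : (Subgroup.closure {g : alternatingGroup (Fin 6) | orderOf g = 2}).Normal := by
      refine ⟨fun x hx g => ?_⟩
      induction hx using Subgroup.closure_induction with
      | mem y hy =>
        refine Subgroup.subset_closure ?_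
        show orderOf (g * y * g⁻¹) = 2
        rw [← MulAut.conj_apply, MulEquiv.orderOf_eq]
        exact hy
      | one => simp
      | mul a b _ _ ha hb =>
        rw [show g * (a * b) * g⁻¹ = (g * a * g⁻¹) * (g * b * g⁻¹) by group]
        exact mul_mem ha hb
      | inv a _ ha =>
        rw [show g * a⁻¹ * g⁻¹ = (g * a * g⁻¹)⁻¹ by group]
        exact inv_mem ha
    refine hn.eq_bot_or_eq_top.resolve_left fun h => ?_
    obtain ⟨x, hx⟩ := exists_prime_orderOf_dvd_card' (G := alternatingGroup (Fin 6)) 2 (by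
      rw [nat_card_alternatingGroup, Nat.card_eq_fintype_card, Fintype.card_fin]
      decide)
    have : x ∈ (⊥ : Subgroup (alternatingGroup (Fin 6))) := h ▸ Subgroup.subset_closure hx
    rw [Subgroup.mem_bot] at this
    rw [this, orderOf_one] at hx
    norm_num at hx
  have hclass : ∀ a : alternatingGroup (Fin 6), orderOf a = 2 → (a : Equiv.Perm (Fin 6)).cycleType = {2, 2} := by
    intro a ha
    have hd2 : ∀ x : Equiv.Perm (Fin 6), Equiv.Perm.sign x = 1 → x ^ 2 = 1 → x = 1 ∨ x.cycleType = {2, 2} := by
      intro x hs hx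
      by_cases h1 : x = 1
      · exact Or.inl h1
      right
      haveI : Fact (Nat.Prime 2) := ⟨Nat.prime_two⟩
      obtain ⟨n, hn⟩ := Equiv.Perm.cycleType_prime_order (σ := x)
        (by rw [orderOf_eq_prime hx h1]; exact Nat.prime_two)
      rw [orderOf_eq_prime hx h1] at hn
      have hsum := Equiv.Perm.sum_cycleType x
      have hcard := Finset.card_le_univ x.support
      rw [hn] at hsum
      simp at hsum hcard
      have hsg := Equiv.Perm.sign_of_cycleType x
      rw [hs, hn] at hsg
      simp at hsg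
      have hn2 : n < 3 := by omega
      interval_cases n
      · norm_num at hsg
      · rw [hn]; rfl
      · norm_num at hsg
    rcases hd2 a.1 (Equiv.Perm.mem_alternatingGroup.1 a.2) (congrArg Subtype.val
      (show a ^ 2 = 1 by rw [← ha, pow_orderOf_eq_one])) with h | h
    · exfalso
      have : a = 1 := Subtype.ext h
      rw [this, orderOf_one] at ha
      norm_num at ha
    · exact h
  refine ⟨⟨⟨fun d hd => hd, hcl, fun d hd g => ?_, fun a ha b hb => ?_⟩, ?_, fun a ha b hb => ?_⟩,
    fun d _ e _ => hle _⟩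
  · show orderOf (g * d * g⁻¹) = 2
    rw [← MulAut.conj_apply, MulEquiv.orderOf_eq]
    exact hd
  · rcases hord (a * b) with h | h | h
    · exact Or.inr (Or.inl ((show Odd 3 by decide).of_dvd_nat h))
    · obtain ⟨i, hi, he⟩ := (Nat.dvd_prime_pow Nat.prime_two).1 (show orderOf (a * b) ∣ 2 ^ 2 by exact h)
      interval_cases i
      · exact Or.inr (Or.inl (by rw [he]; decide))
      · left
        have h1 : (a * b) ^ 2 = 1 := by rw [show (2 : ℕ) = 2 ^ 1 from rfl, ← he, pow_orderOf_eq_one]
        have h2 : (a * b)⁻¹ = a * b := inv_eq_of_mul_eq_one_right (by rw [← pow_two, h1])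
        rw [mul_inv_rev, hinv a ha, hinv b hb] at h2
        exact h2.symm
      · refine Or.inr (Or.inr ⟨he, ?_⟩)
        show orderOf ((a * b) ^ 2) = 2
        rw [orderOf_pow' _ two_ne_zero, he]
        rfl
    · exact Or.inr (Or.inl ((show Odd 5 by decide).of_dvd_nat h))
  · have h2 : 2 ∣ Nat.card (alternatingGroup (Fin 6)) := by
      rw [nat_card_alternatingGroup, Nat.card_eq_fintype_card, Fintype.card_fin]
      decide
    haveI : Fact (Nat.Prime 2) := ⟨Nat.prime_two⟩
    exact exists_prime_orderOf_dvd_card' 2 h2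
  · obtain ⟨g, hg⟩ := isConj_iff.1 ((Equiv.Perm.isConj_iff_cycleType_eq).2
      ((hclass a ha).trans (hclass b hb).symm))
    have hane : (a : Equiv.Perm (Fin 6)) ≠ 1 := fun h => by
      rw [Subtype.ext h (a2 := (1 : alternatingGroup (Fin 6)))] at ha
      simp at ha
    obtain ⟨i, hi⟩ : ∃ i, (a : Equiv.Perm (Fin 6)) i ≠ i := by
      by_contra h
      push Not at h
      exact hane (Equiv.ext h)
    have haa : (a : Equiv.Perm (Fin 6)) * a = 1 := congrArg Subtype.val (htwo a ha)
    have hcomm : (a : Equiv.Perm (Fin 6)) * Equiv.swap i ((a : Equiv.Perm (Fin 6)) i) =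
        Equiv.swap i ((a : Equiv.Perm (Fin 6)) i) * a := by
      rw [← mul_inv_eq_iff_eq_mul, ← Equiv.swap_apply_apply,
        show (a : Equiv.Perm (Fin 6)) ((a : Equiv.Perm (Fin 6)) i) = i from Equiv.Perm.congr_fun haa i,
        Equiv.swap_comm]
    rcases Int.units_eq_one_or (Equiv.Perm.sign g) with hs | hs
    · exact ⟨⟨g, Equiv.Perm.mem_alternatingGroup.2 hs⟩, Subtype.ext hg.symm⟩
    · refine ⟨⟨g * Equiv.swap i ((a : Equiv.Perm (Fin 6)) i), Equiv.Perm.mem_alternatingGroup.2 ?_⟩, Subtype.ext ?_⟩
      · rw [map_mul, hs, Equiv.Perm.sign_swap (Ne.symm hi)]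
        decide
      · show (b : Equiv.Perm (Fin 6)) = g * Equiv.swap i _ * a * (g * Equiv.swap i _)⁻¹
        rw [mul_assoc g, ← hcomm, ← hg]
        group

end Cfsg.Agent.S5057
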