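import Cfsg.Statements.S5058
import Cfsg.Agent.Lib.ClassicalTransvec
import Cfsg.Agent.Lib.ClassicalTransvecClass

set_option autoImplicit false
open Matrix
open Cfsg

namespace Cfsg.Agent.S5058

section Aux

open Matrix

variable {F : Type*} [Field F] {n : ℕ}

/-- `t` is a transvection. -/
def IsTv (t : Matrix.SpecialLinearGroup (Fin (n + 3)) F) : Prop :=
  ∃ a φ : Fin (n + 3) → F, a ≠ 0 ∧ φ ≠ 0 ∧ φ ⬝ᵥ a = 0 ∧ (t : Matrix (Fin (n + 3)) (Fin (n + 3)) F) = 1 + vecMulVec a φ

theorem tv_conj {s t : Matrix.SpecialLinearGroup (Fin (n + 3)) F} (hs : IsTv s) (ht : IsTv t) :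
    ∃ g, t = g * s * g⁻¹ := by
  obtain ⟨a, φ, ha, hφ, h, hs⟩ := hs
  obtain ⟨a', φ', ha', hφ', h', ht⟩ := ht
  obtain ⟨g, h1, h2⟩ := CfsgLib.TransvecClass.exists_gl ha hφ h ha' hφ' h'
  have hg : (g : Matrix (Fin (n + 3)) (Fin (n + 3)) F).det ≠ 0 :=
    ((Matrix.isUnit_iff_isUnit_det _).1 ⟨g, rfl⟩).ne_zero
  obtain ⟨k, k1, k2, k3⟩ := CfsgLib.TransvecClass.exists_fix (by omega) ha hφ h (inv_ne_zero hg)
  have e1 : ((g * k : GL (Fin (n + 3)) F) : Matrix _ _ F) *ᵥ a = a' := by
    rw [Units.val_mul, ← mulVec_mulVec, k1, h1]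
  have e2 : φ' ᵥ* ((g * k : GL (Fin (n + 3)) F) : Matrix _ _ F) = φ := by
    rw [Units.val_mul, ← vecMul_vecMul, h2, k2]
  let M : Matrix.SpecialLinearGroup (Fin (n + 3)) F := ⟨((g * k : GL (Fin (n + 3)) F) : Matrix _ _ F), by
    rw [Units.val_mul, det_mul, k3, mul_inv_cancel₀ hg]⟩
  refine ⟨M, eq_mul_inv_iff_mul_eq.2 (Subtype.ext ?_)⟩
  rw [Matrix.SpecialLinearGroup.coe_mul, Matrix.SpecialLinearGroup.coe_mul, ht, hs]
  exact (CfsgLib.TransvecClass.conj_vec e1 e2).symm

theorem isTv_elem (c : F) (hc : c ≠ 0) :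
    IsTv (Matrix.SpecialLinearGroup.transvection (show (0 : Fin (n + 3)) ≠ 1 by simp [Fin.ext_iff]) c) := by
  have h01 : (0 : Fin (n + 3)) ≠ 1 := by simp [Fin.ext_iff]
  refine ⟨Pi.single 0 c, Pi.single 1 1, by simpa using hc, by simp, by simp [h01.symm], ?_⟩
  have := congrArg Units.val (CfsgLib.Classical.toGL_transvection h01 c)
  rw [CfsgLib.Classical.coe_tv (by simp [h01.symm])] at this
  exact this

theorem mem_iff (t : Matrix.SpecialLinearGroup (Fin (n + 3)) F) :
    (∃ c : F, c ≠ 0 ∧ ∃ g : Matrix.SpecialLinearGroup (Fin (n + 3)) F,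
      ((g⁻¹ * t * g : Matrix.SpecialLinearGroup (Fin (n + 3)) F) : Matrix (Fin (n + 3)) (Fin (n + 3)) F) =
        Matrix.transvection 0 1 c) ↔ IsTv t := by
  have h01 : (0 : Fin (n + 3)) ≠ 1 := by simp [Fin.ext_iff]
  constructor
  · rintro ⟨c, hc, g, hg⟩
    have he : g⁻¹ * t * g = Matrix.SpecialLinearGroup.transvection h01 c :=
      Subtype.ext (hg.trans (Matrix.SpecialLinearGroup.transvection_coe _ _).symm)
    obtain ⟨a, φ, ha, hφ, h, hT⟩ := isTv_elem (n := n) c hc
    have e1 : (g⁻¹ : Matrix.SpecialLinearGroup (Fin (n + 3)) F).1 * g.1 = 1 := by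
      rw [← Matrix.SpecialLinearGroup.coe_mul, inv_mul_cancel, Matrix.SpecialLinearGroup.coe_one]
    have e2 : g.1 * (g⁻¹ : Matrix.SpecialLinearGroup (Fin (n + 3)) F).1 = 1 := by
      rw [← Matrix.SpecialLinearGroup.coe_mul, mul_inv_cancel, Matrix.SpecialLinearGroup.coe_one]
    refine ⟨g.1 *ᵥ a, φ ᵥ* (g⁻¹).1, fun e => ha ?_, fun e => hφ ?_, ?_, ?_⟩
    · have := congrArg ((g⁻¹).1 *ᵥ ·) e
      rw [mulVec_mulVec, e1, one_mulVec, mulVec_zero] at this
      exact this
    · have := congrArg (· ᵥ* g.1) e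
      rw [vecMul_vecMul, e1, vecMul_one, zero_vecMul] at this
      exact this
    · rw [← dotProduct_mulVec, mulVec_mulVec, e1, one_mulVec, h]
    · have ht : t = g * Matrix.SpecialLinearGroup.transvection h01 c * g⁻¹ := by rw [← he]; group
      rw [ht, Matrix.SpecialLinearGroup.coe_mul, Matrix.SpecialLinearGroup.coe_mul, hT, mul_add, mul_one,
        add_mul, mul_vecMulVec, vecMulVec_mul, e2]
  · intro ht
    obtain ⟨g, hg⟩ := tv_conj (isTv_elem (n := n) 1 one_ne_zero) ht
    refine ⟨1, one_ne_zero, g, ?_⟩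
    rw [hg, show g⁻¹ * (g * Matrix.SpecialLinearGroup.transvection h01 1 * g⁻¹) * g =
      Matrix.SpecialLinearGroup.transvection h01 1 by group]
    exact Matrix.SpecialLinearGroup.transvection_coe _ _

variable [CharP F 2]

theorem two_mat (M : Matrix (Fin (n + 3)) (Fin (n + 3)) F) : M + M = 0 := by
  ext i j
  simp [CharTwo.add_self_eq_zero]

theorem orderOf_tv {t : Matrix.SpecialLinearGroup (Fin (n + 3)) F} (ht : IsTv t) : orderOf t = 2 := by
  obtain ⟨a, φ, ha, hφ, h, ht⟩ := ht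
  refine orderOf_eq_prime ?_ ?_
  · apply Subtype.ext
    rw [pow_two, Matrix.SpecialLinearGroup.coe_mul, ht, Matrix.SpecialLinearGroup.coe_one, add_mul, one_mul, mul_add,
      mul_one, vecMulVec_mul_vecMulVec, h, zero_smul]
    simp [add_assoc, two_mat]
  · intro e
    rw [e, Matrix.SpecialLinearGroup.coe_one, left_eq_add] at ht
    obtain ⟨i, hi⟩ := Function.ne_iff.1 ha
    obtain ⟨j, hj⟩ := Function.ne_iff.1 hφ
    have := congrFun (congrFun ht i) j
    simp [vecMulVec_apply] at this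
    exact this.elim hi hj

variable {s t : Matrix.SpecialLinearGroup (Fin (n + 3)) F} {v w φ ψ : Fin (n + 3) → F}

omit [CharP F 2] in
theorem comm_case (hs : (s : Matrix (Fin (n + 3)) (Fin (n + 3)) F) = 1 + vecMulVec v φ)
    (ht : (t : Matrix (Fin (n + 3)) (Fin (n + 3)) F) = 1 + vecMulVec w ψ) (hα : φ ⬝ᵥ w = 0) (hβ : ψ ⬝ᵥ v = 0) :
    s * t = t * s := by
  apply Subtype.ext
  rw [Matrix.SpecialLinearGroup.coe_mul, Matrix.SpecialLinearGroup.coe_mul, hs, ht]
  simp only [add_mul, mul_add, one_mul, mul_one, vecMulVec_mul_vecMulVec, hα, hβ, zero_smul]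
  abel_nf
  simp

theorem four_case (hφv : φ ⬝ᵥ v = 0) (hψw : ψ ⬝ᵥ w = 0) (hv : v ≠ 0) (hφ : φ ≠ 0) (hw : w ≠ 0) (hψ : ψ ≠ 0)
    (hs : (s : Matrix (Fin (n + 3)) (Fin (n + 3)) F) = 1 + vecMulVec v φ)
    (ht : (t : Matrix (Fin (n + 3)) (Fin (n + 3)) F) = 1 + vecMulVec w ψ) (hα : φ ⬝ᵥ w ≠ 0) (hβ : ψ ⬝ᵥ v = 0) :
    orderOf (s * t) = 4 ∧ IsTv ((s * t) ^ 2) := by
  set A := vecMulVec v φ with hAdef
  set B := vecMulVec w ψ with hBdef
  have hAA : A * A = 0 := by rw [hAdef, vecMulVec_mul_vecMulVec, hφv, zero_smul]; simp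
  have hBB : B * B = 0 := by rw [hBdef, vecMulVec_mul_vecMulVec, hψw, zero_smul]; simp
  have hBA : B * A = 0 := by rw [hBdef, hAdef, vecMulVec_mul_vecMulVec, hβ, zero_smul]; simp
  have hP : ((s * t : Matrix.SpecialLinearGroup (Fin (n + 3)) F) : Matrix (Fin (n + 3)) (Fin (n + 3)) F) =
      1 + (A + B + A * B) := by
    rw [Matrix.SpecialLinearGroup.coe_mul, hs, ht]; noncomm_ring
  have hN : (A + B + A * B) * (A + B + A * B) = A * B := by
    calc (A + B + A * B) * (A + B + A * B)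
        = A * A + A * B + (A * A) * B + B * A + B * B + (B * A) * B + A * (B * A) + A * (B * B) + A * (B * A) * B := by
          noncomm_ring
      _ = A * B := by simp [hAA, hBB, hBA]
  have hP2 : (((s * t) ^ 2 : Matrix.SpecialLinearGroup (Fin (n + 3)) F) : Matrix (Fin (n + 3)) (Fin (n + 3)) F) =
      1 + vecMulVec ((φ ⬝ᵥ w) • v) ψ := by
    rw [Matrix.SpecialLinearGroup.coe_pow, hP, pow_two]
    have : (1 + (A + B + A * B)) * (1 + (A + B + A * B)) = 1 + ((A + B + A * B) + (A + B + A * B)) +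
        (A + B + A * B) * (A + B + A * B) := by noncomm_ring
    rw [this, two_mat, add_zero, hN, hAdef, hBdef, vecMulVec_mul_vecMulVec]
    simp [smul_vecMulVec, vecMulVec_smul]
  have htv : IsTv ((s * t) ^ 2) := ⟨_, _, smul_ne_zero hα hv, hψ, by simp [hβ], hP2⟩
  refine ⟨orderOf_eq_prime_pow (p := 2) (n := 1) ?_ ?_, htv⟩
  · intro h
    rw [pow_one] at h
    have := orderOf_tv htv
    rw [h, orderOf_one] at this
    exact absurd this (by norm_num)
  · rw [show (2 : ℕ) ^ (1 + 1) = 2 * 2 from rfl, pow_mul]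
    have h := pow_orderOf_eq_one ((s * t) ^ 2)
    rwa [orderOf_tv htv] at h

theorem cubic (A B : Matrix (Fin (n + 3)) (Fin (n + 3)) F) (c : F) (hAA : A * A = 0) (hBB : B * B = 0)
    (hABA : A * B * A = c • A) (hBAB : B * A * B = c • B) :
    (A + B + A * B) * ((A + B + A * B) * (A + B + A * B) + c • (1 + (A + B + A * B))) = 0 := by
  have z1 : ∀ x, A * (A * x) = 0 := fun x => by rw [← mul_assoc, hAA, zero_mul]
  have z2 : ∀ x, B * (B * x) = 0 := fun x => by rw [← mul_assoc, hBB, zero_mul]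
  have z3 : ∀ x, A * (B * (A * x)) = c • (A * x) := fun x => by
    rw [← mul_assoc, ← mul_assoc, hABA, smul_mul_assoc]
  have z4 : ∀ x, B * (A * (B * x)) = c • (B * x) := fun x => by
    rw [← mul_assoc, ← mul_assoc, hBAB, smul_mul_assoc]
  rw [mul_assoc] at hABA hBAB
  simp only [mul_add, add_mul, mul_one, one_mul, mul_smul_comm, smul_mul_assoc, smul_add, mul_assoc, z1, z2, z3, z4,
    hAA, hBB, hABA, hBAB, mul_zero, smul_zero, smul_smul, zero_add, add_zero]
  ext i j
  simp only [Matrix.add_apply, Matrix.smul_apply, Matrix.zero_apply, smul_eq_mul]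
  have h2 : (2 : F) = 0 := CharTwo.two_eq_zero
  have h4 : (4 : F) = 0 := by rw [show (4 : F) = 2 * 2 by norm_num, h2, zero_mul]
  ring_nf
  simp [h2, h4]

theorem odd_case [Fintype F] (hφv : φ ⬝ᵥ v = 0) (hψw : ψ ⬝ᵥ w = 0)
    (hs : (s : Matrix (Fin (n + 3)) (Fin (n + 3)) F) = 1 + vecMulVec v φ)
    (ht : (t : Matrix (Fin (n + 3)) (Fin (n + 3)) F) = 1 + vecMulVec w ψ) (hα : φ ⬝ᵥ w ≠ 0) (hβ : ψ ⬝ᵥ v ≠ 0) :
    orderOf (s * t) ∣ Fintype.card F ^ 2 - 1 := by
  classical
  set A := vecMulVec v φ with hAdef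
  set B := vecMulVec w ψ with hBdef
  set c := (φ ⬝ᵥ w) * (ψ ⬝ᵥ v) with hcdef
  have hc : c ≠ 0 := mul_ne_zero hα hβ
  have hAA : A * A = 0 := by rw [hAdef, vecMulVec_mul_vecMulVec, hφv, zero_smul]; simp
  have hBB : B * B = 0 := by rw [hBdef, vecMulVec_mul_vecMulVec, hψw, zero_smul]; simp
  have hABA : A * B * A = c • A := by
    rw [hAdef, hBdef, vecMulVec_mul_vecMulVec, vecMulVec_mul_vecMulVec]
    ext i j; simp [vecMulVec_apply, hcdef, dotProduct_comm, Finset.mul_sum]; ring
  have hBAB : B * A * B = c • B := by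
    rw [hAdef, hBdef, vecMulVec_mul_vecMulVec, vecMulVec_mul_vecMulVec]
    ext i j; simp [vecMulVec_apply, hcdef, dotProduct_comm, Finset.mul_sum]; ring
  set P := ((s * t : Matrix.SpecialLinearGroup (Fin (n + 3)) F) : Matrix (Fin (n + 3)) (Fin (n + 3)) F) with hPdef
  have hP : P = 1 + (A + B + A * B) := by
    rw [hPdef, Matrix.SpecialLinearGroup.coe_mul, hs, ht]; noncomm_ring
  let f : Polynomial F := (Polynomial.X + Polynomial.C 1) * (Polynomial.X ^ 2 + Polynomial.C c * Polynomial.X + Polynomial.C 1)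
  have hf : Polynomial.aeval P f = 0 := by
    simp only [f, map_mul, map_add, map_pow, Polynomial.aeval_X, Polynomial.aeval_C, map_one]
    rw [Algebra.algebraMap_eq_smul_one, smul_mul_assoc, one_mul, hP]
    have e1 : 1 + (A + B + A * B) + 1 = A + B + A * B := by
      rw [add_right_comm, two_mat, zero_add]
    have e2 : (1 + (A + B + A * B)) ^ 2 + c • (1 + (A + B + A * B)) + 1 =
        (A + B + A * B) * (A + B + A * B) + c • (1 + (A + B + A * B)) := by
      have : (1 + (A + B + A * B)) ^ 2 = 1 + ((A + B + A * B) + (A + B + A * B)) +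
          (A + B + A * B) * (A + B + A * B) := by noncomm_ring
      rw [this, two_mat, add_zero]
      have h11 := two_mat (n := n) (F := F) 1
      calc 1 + (A + B + A * B) * (A + B + A * B) + c • (1 + (A + B + A * B)) + 1
          = (1 + 1) + ((A + B + A * B) * (A + B + A * B) + c • (1 + (A + B + A * B))) := by abel
        _ = _ := by rw [h11, zero_add]
    rw [e1, e2]
    exact cubic A B c hAA hBB hABA hBAB
  -- the roots of f are (card F ^ 2 - 1)-th roots of unity, and distinct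
  let K := AlgebraicClosure F
  haveI : CharP K 2 := charP_of_injective_algebraMap (algebraMap F K).injective 2
  set q := Fintype.card F with hq
  set C' := algebraMap F K c with hC'
  have hC0 : C' ≠ 0 := by simpa [hC'] using hc
  obtain ⟨r, hr⟩ := IsAlgClosed.exists_root (Polynomial.X ^ 2 + Polynomial.C C' * Polynomial.X + Polynomial.C 1 : Polynomial K)
    (by
      have : (Polynomial.X ^ 2 + Polynomial.C C' * Polynomial.X + Polynomial.C 1 : Polynomial K).degree = 2 := by compute_degree!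
      rw [this]; exact two_ne_zero)
  simp only [Polynomial.IsRoot, Polynomial.eval_add, Polynomial.eval_pow, Polynomial.eval_mul, Polynomial.eval_X, Polynomial.eval_C] at hr
  have h2 : (2 : K) = 0 := CharTwo.two_eq_zero
  obtain ⟨k, -, hk⟩ := FiniteField.card F 2
  have hk' : q = 2 ^ (k : ℕ) := hk
  have hfix : ∀ x : F, (algebraMap F K x) ^ q = algebraMap F K x := fun x => by
    rw [← map_pow, FiniteField.pow_card]
  have hfrob : ∀ x y : K, (x + y) ^ q = x ^ q + y ^ q := fun x y => by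
    rw [hk']; exact add_pow_char_pow x y 2 _
  have hstep : ∀ x : K, x ^ 2 + C' * x + 1 = 0 → x = r ∨ x = r + C' := by
    intro x hx
    have : (x - r) * (x - (r + C')) = 0 := by
      linear_combination hx + hr - (x * r + C' * x + 1) * h2
    rcases mul_eq_zero.1 this with h | h
    · exact Or.inl (sub_eq_zero.1 h)
    · exact Or.inr (sub_eq_zero.1 h)
  have hrq : (r ^ q) ^ 2 + C' * r ^ q + 1 = 0 := by
    have := congrArg (· ^ q) hr
    simp only [hfrob, mul_pow, one_pow, zero_pow Fintype.card_ne_zero] at this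
    rw [hC', hfix, ← pow_mul, mul_comm 2 q, pow_mul, zero_pow Fintype.card_ne_zero] at this
    exact this
  have hr2 : r ^ (q ^ 2) = r := by
    rw [pow_two, pow_mul]
    rcases hstep _ hrq with h | h
    · rw [h, h]
    · rw [h, hfrob, h, hC', hfix, add_assoc, CharTwo.add_self_eq_zero, add_zero]
  have hr0 : r ≠ 0 := fun h => by rw [h] at hr; simp at hr
  have hqq : q ^ 2 - 1 + 1 = q ^ 2 := Nat.sub_add_cancel (Nat.one_le_pow _ _ Fintype.card_pos)
  have hone : ∀ x : K, x ≠ 0 → x ^ (q ^ 2) = x → x ^ (q ^ 2 - 1) = 1 := by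
    intro x hx0 hx
    refine mul_right_cancel₀ hx0 ?_
    rw [← pow_succ, hqq, hx, one_mul]
  have hrC : (r + C') ^ (q ^ 2) = r + C' := by
    rw [pow_two, pow_mul, hfrob, hfrob, ← pow_mul, ← pow_two, hr2, hC', hfix, hfix]
  have hrC0 : r + C' ≠ 0 := fun h => by
    have : (1 : K) = 0 := by linear_combination hr - r * h
    exact one_ne_zero this
  have hd1 : (1 : K) ≠ r := fun h => hC0 (by rw [← h] at hr; linear_combination hr - h2)
  have hd2 : (1 : K) ≠ r + C' := fun h => hC0 (by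
    have : r = 1 + C' := by linear_combination -h - C' * h2
    rw [this] at hr; linear_combination hr - (1 + C' + C' * C') * h2)
  have hd3 : r ≠ r + C' := fun h => hC0 (by linear_combination -h)
  have hdiv : (f.map (algebraMap F K)) ∣ ((Polynomial.X ^ (q ^ 2 - 1) - Polynomial.C 1 : Polynomial F).map (algebraMap F K)) := by
    simp only [f, Polynomial.map_mul, Polynomial.map_add, Polynomial.map_pow, Polynomial.map_X, Polynomial.map_C,
      map_one, Polynomial.map_one, Polynomial.map_sub]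
    have e : (Polynomial.X + 1 : Polynomial K) * (Polynomial.X ^ 2 + Polynomial.C C' * Polynomial.X + 1) =
        (Polynomial.X - Polynomial.C 1) * (Polynomial.X - Polynomial.C r) * (Polynomial.X - Polynomial.C (r + C')) := by
      have hp2 : (2 : Polynomial K) = 0 := by
        rw [show (2 : Polynomial K) = Polynomial.C 2 from (map_ofNat Polynomial.C 2).symm, h2, map_zero]
      have hr' : (Polynomial.C r) ^ 2 + Polynomial.C C' * Polynomial.C r + 1 = (0 : Polynomial K) := by
        rw [← map_pow, ← map_mul, ← Polynomial.C_1, ← map_add, ← map_add, hr, map_zero]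
      simp only [map_add, map_one]
      linear_combination (-(Polynomial.X - 1 : Polynomial K)) * hr' +
        ((Polynomial.X - 1) * (Polynomial.C r * Polynomial.X + Polynomial.C C' * Polynomial.X + 1) +
          (Polynomial.X ^ 2 + Polynomial.C C' * Polynomial.X + 1) - (Polynomial.X - 1) * 0) * hp2
    rw [← hC', e]
    have hroot : ∀ x : K, x ^ (q ^ 2 - 1) = 1 → (Polynomial.X - Polynomial.C x) ∣ (Polynomial.X ^ (q ^ 2 - 1) - 1 : Polynomial K) :=
      fun x hx => Polynomial.dvd_iff_isRoot.2 (by simp [hx])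
    refine IsCoprime.mul_dvd ?_ (IsCoprime.mul_dvd ?_ (hroot 1 (one_pow _)) (hroot r (hone r hr0 hr2)))
      (hroot _ (hone _ hrC0 hrC))
    · exact IsCoprime.mul_left (Polynomial.isCoprime_X_sub_C_of_isUnit_sub (sub_ne_zero.2 hd2).isUnit)
        (Polynomial.isCoprime_X_sub_C_of_isUnit_sub (sub_ne_zero.2 hd3).isUnit)
    · exact Polynomial.isCoprime_X_sub_C_of_isUnit_sub (sub_ne_zero.2 hd1).isUnit
  obtain ⟨g, hg⟩ := (Polynomial.map_dvd_map' (algebraMap F K)).1 hdiv
  have h0 : Polynomial.aeval P (Polynomial.X ^ (q ^ 2 - 1) - Polynomial.C 1 : Polynomial F) = 0 := by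
    rw [hg, map_mul, hf, zero_mul]
  simp only [map_sub, map_pow, Polynomial.aeval_X, Polynomial.aeval_C, map_one, sub_eq_zero] at h0
  exact orderOf_dvd_of_pow_eq_one (Subtype.ext (by rw [Matrix.SpecialLinearGroup.coe_pow, Matrix.SpecialLinearGroup.coe_one]; exact h0))

end Aux

/-- Let F be a finite field of characteristic 2 and n a natural number. Then the transvections of SL_{n+3}(F) (so in every dimension at least 3) (the conjugates of the elementary matrices 1 + c E₁₂, c ≠ 0) form a class of root involutions of SL_{n+3}(F); when F has two elements they form a class of {3,4}⁺-transpositions (every product of odd order has order 1 or 3). -/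
theorem result (F : Type*) [Field F] [Fintype F] [CharP F 2] (n : ℕ) :
    Cfsg.IsRootInvolutionClass {t : Matrix.SpecialLinearGroup (Fin (n + 3)) F | ∃ c : F, c ≠ 0 ∧
        ∃ g : Matrix.SpecialLinearGroup (Fin (n + 3)) F, ((g⁻¹ * t * g : Matrix.SpecialLinearGroup (Fin (n + 3)) F) :
          Matrix (Fin (n + 3)) (Fin (n + 3)) F) = Matrix.transvection 0 1 c} ∧
    (Fintype.card F = 2 → Cfsg.IsThreeFourPlusTranspositionSet {t : Matrix.SpecialLinearGroup (Fin (n + 3)) F | ∃ c : F, c ≠ 0 ∧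
        ∃ g : Matrix.SpecialLinearGroup (Fin (n + 3)) F, ((g⁻¹ * t * g : Matrix.SpecialLinearGroup (Fin (n + 3)) F) :
          Matrix (Fin (n + 3)) (Fin (n + 3)) F) = Matrix.transvection 0 1 c}) := by
  classical
  set D := {t : Matrix.SpecialLinearGroup (Fin (n + 3)) F | ∃ c : F, c ≠ 0 ∧
        ∃ g : Matrix.SpecialLinearGroup (Fin (n + 3)) F, ((g⁻¹ * t * g : Matrix.SpecialLinearGroup (Fin (n + 3)) F) :
          Matrix (Fin (n + 3)) (Fin (n + 3)) F) = Matrix.transvection 0 1 c} with hDdef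
  have hD : ∀ t, t ∈ D ↔ IsTv t := fun t => mem_iff t
  have hord : ∀ d ∈ D, orderOf d = 2 := fun d hd => orderOf_tv ((hD d).1 hd)
  have hconjmem : ∀ d ∈ D, ∀ g, g * d * g⁻¹ ∈ D := by
    rintro d ⟨c, hc, k, hk⟩ g
    refine ⟨c, hc, g * k, ?_⟩
    rw [← hk, show (g * k)⁻¹ * (g * d * g⁻¹) * (g * k) = k⁻¹ * d * k by group]
  have hgen : Subgroup.closure D = ⊤ := by
    refine eq_top_iff.2 fun M _ => ?_
    have ht : ∀ (i j : Fin (n + 3)) (hij : i ≠ j) (c : F),
        Matrix.SpecialLinearGroup.transvection hij c ∈ Subgroup.closure D := by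
      intro i j hij c
      by_cases hc : c = 0
      · rw [show Matrix.SpecialLinearGroup.transvection hij c = 1 from
          Subtype.ext (by rw [Matrix.SpecialLinearGroup.transvection_coe, hc]; simp)]
        exact Subgroup.one_mem _
      · refine Subgroup.subset_closure ((hD _).2 ⟨Pi.single i c, Pi.single j 1, by simpa using hc, by simp, by simp [hij.symm], ?_⟩)
        have := congrArg Units.val (CfsgLib.Classical.toGL_transvection hij c)
        rw [CfsgLib.Classical.coe_tv (by simp [hij.symm])] at this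
        exact this
    refine Matrix.SpecialLinearGroup.diagonal_transvection_induction'
      (fun M => M ∈ Subgroup.closure D) M (fun i j hij c hc => ?_) ht (fun A B hA hB => Subgroup.mul_mem _ hA hB)
    rw [CfsgLib.Classical.diag2n_eq_prod hij hc]
    refine Subgroup.mul_mem _ (Subgroup.mul_mem _ (Subgroup.mul_mem _ (Subgroup.mul_mem _ (Subgroup.mul_mem _ ?_ ?_) ?_) ?_) ?_) ?_ <;>
      exact ht _ _ _ _
  have hpair : ∀ a ∈ D, ∀ b ∈ D, (a * b = b * a ∨ Odd (orderOf (a * b)) ∨ (orderOf (a * b) = 4 ∧ (a * b) ^ 2 ∈ D)) ∧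
      (Fintype.card F = 2 → Odd (orderOf (a * b)) → orderOf (a * b) = 1 ∨ orderOf (a * b) = 3) := by
    intro a ha b hb
    have ha2 : a * a = 1 := by rw [← pow_two, ← hord a ha]; exact pow_orderOf_eq_one a
    have hb2 : b * b = 1 := by rw [← pow_two, ← hord b hb]; exact pow_orderOf_eq_one b
    obtain ⟨v, φ, hv, hφ, hφv, hea⟩ := (hD a).1 ha
    obtain ⟨w, ψ, hw, hψ, hψw, heb⟩ := (hD b).1 hb
    have hodd : ∀ x y : Matrix.SpecialLinearGroup (Fin (n + 3)) F, x * x = 1 → y * y = 1 → x * y = y * x →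
        Odd (orderOf (x * y)) → orderOf (x * y) = 1 := by
      intro x y hx hy hxy ho
      have h1 : (x * y) ^ 2 = 1 := by
        rw [pow_two]; calc x * y * (x * y) = x * y * (y * x) := by rw [hxy]
          _ = x * (y * y) * x := by group
          _ = 1 := by rw [hy, mul_one, hx]
      rcases (Nat.dvd_prime Nat.prime_two).1 (orderOf_dvd_of_pow_eq_one h1) with h | h
      · exact h
      · rw [h] at ho; exact absurd ho (by decide)
    by_cases hα : φ ⬝ᵥ w = 0
    · by_cases hβ : ψ ⬝ᵥ v = 0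
      · have hc : a * b = b * a := comm_case hea heb hα hβ
        exact ⟨Or.inl hc, fun _ ho => Or.inl (hodd a b ha2 hb2 hc ho)⟩
      · obtain ⟨h4, hsq⟩ := four_case hψw hφv hw hψ hv hφ heb hea hβ hα
        have hba : a * b = (b * a)⁻¹ := by
          rw [_root_.mul_inv_rev, inv_eq_of_mul_eq_one_right ha2, inv_eq_of_mul_eq_one_right hb2]
        have h4' : orderOf (a * b) = 4 := by rw [hba, orderOf_inv, h4]
        refine ⟨Or.inr (Or.inr ⟨h4', ?_⟩), fun _ ho => absurd (h4' ▸ ho) (by decide)⟩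
        have hsD : (b * a) ^ 2 ∈ D := (hD _).2 hsq
        have : (a * b) ^ 2 = (b * a) ^ 2 := by
          rw [hba, inv_pow]
          exact inv_eq_of_mul_eq_one_right (by
            have h := pow_orderOf_eq_one ((b * a) ^ 2)
            rw [hord _ hsD, pow_two] at h
            exact h)
        rw [this]; exact hsD
    · by_cases hβ : ψ ⬝ᵥ v = 0
      · obtain ⟨h4, hsq⟩ := four_case hφv hψw hv hφ hw hψ hea heb hα hβ
        exact ⟨Or.inr (Or.inr ⟨h4, (hD _).2 hsq⟩), fun _ ho => absurd (h4 ▸ ho) (by decide)⟩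
      · have hdvd : orderOf (a * b) ∣ Fintype.card F ^ 2 - 1 :=
          odd_case hφv hψw hea heb hα hβ
        have hq : Odd (Fintype.card F ^ 2 - 1) := by
          obtain ⟨k, -, hk⟩ := FiniteField.card F 2
          rw [hk, ← pow_mul]
          refine Nat.Even.sub_odd (Nat.one_le_pow _ _ (by norm_num)) ?_ odd_one
          exact (Nat.even_pow).2 ⟨even_two, by have := k.pos; omega⟩
        refine ⟨Or.inr (Or.inl (Odd.of_dvd_nat hq hdvd)), fun h2 _ => ?_⟩
        rw [h2] at hdvd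
        exact (Nat.dvd_prime Nat.prime_three).1 hdvd
  have hset : Cfsg.IsRootInvolutionSet D := ⟨hord, hgen, hconjmem, fun a ha b hb => (hpair a ha b hb).1⟩
  refine ⟨⟨hset, ?_, ?_⟩, fun h2 => ⟨hset, fun a ha b hb => (hpair a ha b hb).2 h2⟩⟩
  · refine ⟨Matrix.SpecialLinearGroup.transvection (show (0 : Fin (n + 3)) ≠ 1 by simp [Fin.ext_iff]) 1, 1, one_ne_zero, 1, ?_⟩
    rw [inv_one, one_mul, mul_one]
    exact Matrix.SpecialLinearGroup.transvection_coe _ _
  · intro a ha b hb
    exact tv_conj ((hD a).1 ha) ((hD b).1 hb)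

end Cfsg.Agent.S5058
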