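import Cfsg.Statements.S5059


set_option autoImplicit false
universe u
open Cfsg

namespace Cfsg.Agent.S5059

/-- Let k be a field of characteristic not 2 with k not of order 3, M a finite-dimensional k-vector space and G ≤ GL(M) such that (G, M) is a quadratic pair (M irreducible for G, and G generated by its quadratically acting elements σ whose scalar family 1 + c(σ − 1), c ∈ k, lies in G). Write 𝒬_d for the quadratic elements of G of minimal commutator rank, E(σ) for the subgroup generated by the members of 𝒬_d with the same fixed space and commutator space as σ, and Σ for the set of these subgroups. Then for σ ∈ 𝒬_d the subgroup E(σ) consists exactly of those members together with the identity, it is abelian, and if k has prime characteristic p every element of E(σ) has order dividing p. -/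
theorem result {k : Type u} [Field k] (hk2 : ringChar k ≠ 2) (hk3 : Nat.card k ≠ 3)
    {M : Type u} [AddCommGroup M] [Module k M] [FiniteDimensional k M]
    {G : Subgroup (LinearMap.GeneralLinearGroup k M)} (hG : Cfsg.IsQuadraticPair G)
    {σ : LinearMap.GeneralLinearGroup k M} (hσ : σ ∈ Cfsg.minimalQuadraticElements G) :
    (Cfsg.sameActionSubgroup G σ : Set (LinearMap.GeneralLinearGroup k M)) = Cfsg.sameActionClass G σ ∪ {1} ∧
    IsMulCommutative ↥(Cfsg.sameActionSubgroup G σ) ∧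
    (∀ p : ℕ, p.Prime → ringChar k = p → ∀ x ∈ Cfsg.sameActionSubgroup G σ, x ^ p = 1) := by
  classical
  set V := sameActionClass G σ with hV
  have hsq : ∀ τ ∈ V, ∀ ρ ∈ V, ((τ : M →ₗ[k] M) - 1) * ((ρ : M →ₗ[k] M) - 1) = 0 := by
    intro τ hτ ρ hρ
    refine LinearMap.ext fun m => ?_
    show ((τ : M →ₗ[k] M) - 1) (((ρ : M →ₗ[k] M) - 1) m) = 0
    have h1 : ((ρ : M →ₗ[k] M) - 1) m ∈ LinearMap.range ((τ : M →ₗ[k] M) - 1) := by
      rw [hτ.2.2, ← hρ.2.2]; exact LinearMap.mem_range_self _ m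
    obtain ⟨u, hu⟩ := h1
    rw [← hu]
    exact LinearMap.congr_fun hτ.1.1.2.1.1 u
  have hfam : ∀ τ ∈ V, ∀ c : k, ∃ g ∈ G, (g : M →ₗ[k] M) = 1 + c • ((τ : M →ₗ[k] M) - 1) := by
    intro τ hτ c
    have hm : (1 + c • ((τ : M →ₗ[k] M) - 1)) * (1 - c • ((τ : M →ₗ[k] M) - 1)) = 1 := by
      rw [add_mul, one_mul, mul_sub, mul_one, smul_mul_smul_comm, hsq τ hτ τ hτ, smul_zero, sub_zero, sub_add_cancel]
    have hm' : (1 - c • ((τ : M →ₗ[k] M) - 1)) * (1 + c • ((τ : M →ₗ[k] M) - 1)) = 1 := by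
      rw [sub_mul, one_mul, mul_add, mul_one, smul_mul_smul_comm, hsq τ hτ τ hτ, smul_zero, add_zero, add_sub_cancel_right]
    exact ⟨⟨_, _, hm, hm'⟩, hτ.1.1.2.2 ⟨c, rfl⟩, rfl⟩
  -- recognising members
  have hrec : ∀ g ∈ G, ((g : M →ₗ[k] M) - 1) * ((g : M →ₗ[k] M) - 1) = 0 → (g : M →ₗ[k] M) - 1 ≠ 0 →
      (∀ h : LinearMap.GeneralLinearGroup k M, ∀ c : k, (h : M →ₗ[k] M) = 1 + c • ((g : M →ₗ[k] M) - 1) → h ∈ G) →
      LinearMap.range ((g : M →ₗ[k] M) - 1) ≤ LinearMap.range ((σ : M →ₗ[k] M) - 1) →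
      LinearMap.ker ((σ : M →ₗ[k] M) - 1) ≤ LinearMap.ker ((g : M →ₗ[k] M) - 1) → g ∈ V := by
    intro g hg hgsq hgne hgfam hr hk
    have hgQ : g ∈ quadraticElements G := ⟨hg, ⟨hgsq, hgne⟩, fun h ⟨c, hc⟩ => hgfam h c hc⟩
    have hd : commutatorRank σ ≤ commutatorRank g := hσ.2 g hgQ
    have hre := Submodule.eq_of_le_of_finrank_le hr hd
    have hke := Submodule.eq_of_le_of_finrank_le hk (by
      have e1 := LinearMap.finrank_range_add_finrank_ker ((g : M →ₗ[k] M) - 1)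
      have e2 := LinearMap.finrank_range_add_finrank_ker ((σ : M →ₗ[k] M) - 1)
      rw [hre] at e1
      omega)
    exact ⟨⟨hgQ, fun τ hτ => (Submodule.finrank_mono hr).trans (hσ.2 τ hτ)⟩, hke.symm, hre⟩
  have hprod : ∀ τ ∈ V, ∀ ρ ∈ V, ((τ * ρ : LinearMap.GeneralLinearGroup k M) : M →ₗ[k] M) - 1 = ((τ : M →ₗ[k] M) - 1) + ((ρ : M →ₗ[k] M) - 1) := by
    intro τ hτ ρ hρ
    have h : ((τ : M →ₗ[k] M) - 1) * ((ρ : M →ₗ[k] M) - 1) = 0 := hsq τ hτ ρ hρ
    rw [Units.val_mul]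
    linear_combination (norm := noncomm_ring) h
  have hmul : ∀ τ ∈ V, ∀ ρ ∈ V, τ * ρ ∈ V ∪ {1} := by
    intro τ hτ ρ hρ
    by_cases h0 : ((τ * ρ : LinearMap.GeneralLinearGroup k M) : M →ₗ[k] M) - 1 = 0
    · exact Or.inr (Units.ext (sub_eq_zero.1 h0))
    have he := hprod τ hτ ρ hρ
    refine Or.inl (hrec _ (G.mul_mem hτ.1.1.1 hρ.1.1.1) ?_ h0 (fun h c hc => ?_) ?_ ?_)
    · rw [he, add_mul, mul_add, mul_add, hsq τ hτ τ hτ, hsq τ hτ ρ hρ, hsq ρ hρ τ hτ, hsq ρ hρ ρ hρ]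
      simp
    · obtain ⟨g₁, hg₁, e₁⟩ := hfam τ hτ c
      obtain ⟨g₂, hg₂, e₂⟩ := hfam ρ hρ c
      have : h = g₁ * g₂ := by
        refine Units.ext ?_
        rw [hc, he, Units.val_mul, e₁, e₂, add_mul, one_mul, mul_add, mul_one, smul_mul_smul_comm, hsq τ hτ ρ hρ, smul_zero, add_zero, smul_add]
        abel
      rw [this]; exact G.mul_mem hg₁ hg₂
    · rintro _ ⟨m, rfl⟩
      rw [he, LinearMap.add_apply]
      exact Submodule.add_mem _ (hτ.2.2 ▸ LinearMap.mem_range_self _ m) (hρ.2.2 ▸ LinearMap.mem_range_self _ m)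
    · intro m hm
      rw [LinearMap.mem_ker, he, LinearMap.add_apply]
      rw [show ((τ : M →ₗ[k] M) - 1) m = 0 from (hτ.2.1.symm ▸ hm : m ∈ LinearMap.ker ((τ : M →ₗ[k] M) - 1)),
        show ((ρ : M →ₗ[k] M) - 1) m = 0 from (hρ.2.1.symm ▸ hm : m ∈ LinearMap.ker ((ρ : M →ₗ[k] M) - 1)), add_zero]
  have hinvE : ∀ τ ∈ V, τ⁻¹ ∈ V := by
    intro τ hτ
    have hm : (τ : M →ₗ[k] M) * (1 - ((τ : M →ₗ[k] M) - 1)) = 1 := by
      linear_combination (norm := noncomm_ring) -hsq τ hτ τ hτ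
    have he : ((τ⁻¹ : LinearMap.GeneralLinearGroup k M) : M →ₗ[k] M) - 1 = -((τ : M →ₗ[k] M) - 1) := by
      rw [Units.inv_eq_of_mul_eq_one_right hm]; abel
    refine hrec _ (G.inv_mem hτ.1.1.1) ?_ ?_ (fun h c hc => ?_) ?_ ?_
    · rw [he, neg_mul_neg, hsq τ hτ τ hτ]
    · rw [he, neg_ne_zero]; exact hτ.1.1.2.1.2
    · refine hτ.1.1.2.2 ⟨-c, ?_⟩
      rw [hc, he, smul_neg, neg_smul]
    · rw [he, LinearMap.range_neg, hτ.2.2]
    · rw [he, LinearMap.ker_neg, hτ.2.1]
  have hset : (sameActionSubgroup G σ : Set (LinearMap.GeneralLinearGroup k M)) = V ∪ {1} := by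
    refine Set.Subset.antisymm (fun x hx => ?_) (Set.union_subset (fun x hx => Subgroup.subset_closure hx) (by simp))
    refine Subgroup.closure_induction (p := fun x _ => x ∈ V ∪ {1}) (fun x hx => Or.inl hx) (Or.inr rfl) ?_ ?_ hx
    · rintro a b - - (ha | ha) (hb | hb)
      · exact hmul a ha b hb
      · rw [Set.mem_singleton_iff] at hb; rw [hb, mul_one]; exact Or.inl ha
      · rw [Set.mem_singleton_iff] at ha; rw [ha, one_mul]; exact Or.inl hb
      · rw [Set.mem_singleton_iff] at ha hb; rw [ha, hb, one_mul]; exact Or.inr rfl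
    · rintro a - (ha | ha)
      · exact Or.inl (hinvE a ha)
      · rw [Set.mem_singleton_iff] at ha; rw [ha, inv_one]; exact Or.inr rfl
  refine ⟨hset, ⟨⟨fun a b => Subtype.ext ?_⟩⟩, fun p hp hchar x hx => ?_⟩
  · show (a : LinearMap.GeneralLinearGroup k M) * b = b * a
    rcases (Set.ext_iff.1 hset a).1 a.2 with ha | ha
    · rcases (Set.ext_iff.1 hset b).1 b.2 with hb | hb
      · refine Units.ext (sub_left_injective (b := 1) ?_)
        show ((_ : LinearMap.GeneralLinearGroup k M) : M →ₗ[k] M) - 1 = _ - 1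
        rw [hprod _ ha _ hb, hprod _ hb _ ha, add_comm]
      · rw [Set.mem_singleton_iff] at hb; rw [hb, mul_one, one_mul]
    · rw [Set.mem_singleton_iff] at ha; rw [ha, mul_one, one_mul]
  · rcases (Set.ext_iff.1 hset x).1 hx with h | h
    · have hpow : ∀ n : ℕ, ((x : M →ₗ[k] M)) ^ n = 1 + (n : k) • ((x : M →ₗ[k] M) - 1) := by
        intro n
        induction n with
        | zero => simp
        | succ n ih =>
          rw [pow_succ, ih, Nat.cast_succ, add_smul, one_smul, show ((x : M →ₗ[k] M)) = 1 + ((x : M →ₗ[k] M) - 1) by abel]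
          simp only [add_sub_cancel_left, add_mul, mul_add, one_mul, mul_one, smul_mul_assoc, hsq x h x h, smul_zero]
          abel
      refine Units.ext ?_
      rw [Units.val_pow_eq_pow_val, hpow, show (p : k) = 0 by rw [← hchar]; exact ringChar.Nat.cast_ringChar, zero_smul, add_zero, Units.val_one]
    · rw [Set.mem_singleton_iff] at h; rw [h, one_pow]

end Cfsg.Agent.S5059
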