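import Cfsg.Statements.S5061
import Cfsg.Agent.Lib.UnipGen

set_option autoImplicit false
open Cfsg

namespace Cfsg.Agent.S5061

/-- Let M be a finite-dimensional vector space over a field k, G ≤ GL(M), and 𝒲 a set of subgroups of G, invariant under conjugation by G, such that any two members of 𝒲 generate a subgroup acting unipotently on M (for some n all products of n endomorphisms g − 1 from it vanish). Then the subgroup generated by all members of 𝒲 acts unipotently on M and is normal in G. -/
theorem result {k : Type*} [Field k] {M : Type*} [AddCommGroup M] [Module k M] [FiniteDimensional k M]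
    {G : Subgroup (LinearMap.GeneralLinearGroup k M)} {W : Set (Subgroup (LinearMap.GeneralLinearGroup k M))} (hWG : ∀ A ∈ W, A ≤ G)
    (hWW : ∀ A ∈ W, ∀ B ∈ W, Cfsg.IsUnipotentOn (A ⊔ B)) (hWconj : ∀ A ∈ W, ∀ g ∈ G, Cfsg.conjBy A g ∈ W) :
    Cfsg.IsUnipotentOn (⨆ A ∈ W, A) ∧ ∀ g ∈ G, Cfsg.conjBy (⨆ A ∈ W, A) g = ⨆ A ∈ W, A := by
  have hsup : (⨆ A ∈ W, A) = sSup W := sSup_eq_iSup.symm
  have hu : ∀ H : Subgroup (LinearMap.GeneralLinearGroup k M),
      Cfsg.IsUnipotentOn H ↔ Cfsg.Agent.UnipGen.Unip (R := Module.End k M) k H := fun H =>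
    by
      unfold Cfsg.IsUnipotentOn
      rw [Cfsg.Agent.UnipGen.unip_iff (R := Module.End k M) (k := k) H]
      have hl : ∀ l : List (LinearMap.GeneralLinearGroup k M),
          (List.map (fun (g : M →ₗ[k] M) => g - 1) (do let a ← l; pure (a : M →ₗ[k] M))) =
            l.map (fun g : (Module.End k M)ˣ => (g : Module.End k M) - 1) := by
        intro l
        induction l with
        | nil => rfl
        | cons a l ih => simpa [List.map_map] using ih
      exact exists_congr fun n => forall_congr' fun l => by rw [← hl l]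
  rw [hsup]
  constructor
  · rw [hu]
    exact Cfsg.Agent.UnipGen.unip_sSup (R := Module.End k M) hWG hWconj (fun A hA B hB => (hu _).1 (hWW A hA B hB))
  · intro g hg
    have hle : ∀ x ∈ G, Cfsg.conjBy (sSup W) x ≤ sSup W := by
      intro x hx
      show (sSup W).map _ ≤ _
      rw [Subgroup.map_le_iff_le_comap]
      refine sSup_le fun A hA => ?_
      rw [← Subgroup.map_le_iff_le_comap]
      exact le_sSup (hWconj A hA x hx)
    refine le_antisymm (hle g hg) fun y hy => ?_
    exact ⟨_, hle g⁻¹ (G.inv_mem hg) ⟨y, hy, rfl⟩, by simp [mul_assoc]⟩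

end Cfsg.Agent.S5061
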