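import Cfsg.Statements.S5067


set_option autoImplicit false
open Cfsg
open scoped commutatorElement

namespace Cfsg.Agent.S5067

/-- Let P be a non-abelian nilpotent p-group (every element of p-power order; P possibly infinite) generated by two abelian subgroups E and F. Then the normal closure of E in P, and likewise that of F, has nilpotency class strictly smaller than that of P. -/
theorem result {P : Type*} [Group P] {p : ℕ} [Fact p.Prime] (hP : IsPGroup p P) [Group.IsNilpotent P]
    (hna : ¬ IsMulCommutative P) {E F : Subgroup P} (hE : IsMulCommutative ↥E) (hF : IsMulCommutative ↥F) (hgen : E ⊔ F = ⊤) :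
    Group.nilpotencyClass ↥(Subgroup.normalClosure (E : Set P)) < Group.nilpotencyClass P ∧
    Group.nilpotencyClass ↥(Subgroup.normalClosure (F : Set P)) < Group.nilpotencyClass P := by
  classical
  suffices key : ∀ X : Subgroup P, IsMulCommutative ↥X →
      Group.nilpotencyClass ↥(Subgroup.normalClosure (X : Set P)) < Group.nilpotencyClass P from ⟨key E hE, key F hF⟩
  intro X hX
  set N := Subgroup.normalClosure (X : Set P)
  set c := Group.nilpotencyClass P with hc
  set L1 := (⊤ : Subgroup P).lowerCentralSeries 1 with hL1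
  set L2 := (⊤ : Subgroup P).lowerCentralSeries 2 with hL2
  have hc2 : 2 ≤ c := by
    by_contra hlt
    refine hna ⟨⟨fun a b => ?_⟩⟩
    have h1 : L1 = ⊥ := Subgroup.lowerCentralSeries_eq_bot_iff_nilpotencyClass_le.2 (by omega)
    have : ⁅a, b⁆ ∈ L1 := Subgroup.commutator_mem_commutator (Subgroup.mem_top a) (Subgroup.mem_top b)
    rw [h1, Subgroup.mem_bot, commutatorElement_eq_one_iff_mul_comm] at this
    exact this
  have hnorm : (X ⊔ L1).Normal := ⟨fun n hn g => by
    have h : ⁅g, n⁆ ∈ X ⊔ L1 := Subgroup.mem_sup_right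
      (Subgroup.commutator_mem_commutator (Subgroup.mem_top g) (Subgroup.mem_top n))
    have h' := (X ⊔ L1).mul_mem h hn
    rwa [commutatorElement_def, inv_mul_cancel_right] at h'⟩
  haveI := hnorm
  have hNle : N ≤ X ⊔ L1 := Subgroup.normalClosure_le_normal (fun x hx => Subgroup.mem_sup_left hx)
  have hN2 : ⁅N, N⁆ ≤ L2 := by
    refine le_trans (Subgroup.commutator_mono hNle hNle) ?_
    let q := QuotientGroup.mk' L2
    have hcen : L1.map q ≤ Subgroup.center (P ⧸ L2) := by
      rintro _ ⟨x, hx, rfl⟩
      rw [Subgroup.mem_center_iff]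
      intro y
      obtain ⟨y, rfl⟩ := QuotientGroup.mk'_surjective L2 y
      have : ⁅x, y⁆ ∈ L2 := Subgroup.commutator_mem_commutator hx (Subgroup.mem_top y)
      have h' : q ⁅x, y⁆ = 1 := (QuotientGroup.eq_one_iff _).2 this
      rw [map_commutatorElement, commutatorElement_eq_one_iff_mul_comm] at h'
      exact h'.symm
    have hA : (X ⊔ L1).map q ≤ Subgroup.centralizer ((X ⊔ L1).map q : Set (P ⧸ L2)) := by
      have h2 : L1.map q ≤ Subgroup.centralizer ((X ⊔ L1).map q : Set (P ⧸ L2)) :=
        hcen.trans (Subgroup.center_le_centralizer _)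
      rw [Subgroup.map_sup] at h2 ⊢
      refine sup_le ?_ h2
      rw [Subgroup.le_centralizer_iff]
      refine sup_le ?_ (hcen.trans (Subgroup.center_le_centralizer _))
      rintro _ ⟨x, hx, rfl⟩ _ ⟨y, hy, rfl⟩
      show q y * q x = q x * q y
      rw [← map_mul, ← map_mul]
      exact congrArg q (congrArg Subtype.val (hX.is_comm.comm ⟨y, hy⟩ ⟨x, hx⟩))
    rw [Subgroup.commutator_le]
    intro a ha b hb
    have h' : q a * q b = q b * q a := (hA ⟨b, hb, rfl⟩) (q a) ⟨a, ha, rfl⟩
    rw [← commutatorElement_eq_one_iff_mul_comm, ← map_commutatorElement] at h'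
    exact (QuotientGroup.eq_one_iff _).1 h'
  have hind : ∀ n : ℕ, N.lowerCentralSeries (n + 1) ≤ (⊤ : Subgroup P).lowerCentralSeries (n + 2) := by
    intro n
    induction n with
    | zero => exact hN2
    | succ n ih => exact Subgroup.commutator_mono ih le_top
  have hbot : N.lowerCentralSeries (c - 1) = ⊥ := by
    have := hind (c - 2)
    rw [show c - 2 + 1 = c - 1 by omega, show c - 2 + 2 = c by omega, hc, Subgroup.lowerCentralSeries_nilpotencyClass] at this
    exact le_bot_iff.1 this
  have hbot' : (⊤ : Subgroup ↥N).lowerCentralSeries (c - 1) = ⊥ := by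
    refine (Subgroup.map_eq_bot_iff_of_injective _ N.subtype_injective).1 ?_
    rw [Subgroup.top_subtype_lowerCentralSeries, hbot]
  haveI : Group.IsNilpotent ↥N := Subgroup.isNilpotent N
  have := Subgroup.lowerCentralSeries_eq_bot_iff_nilpotencyClass_le.1 hbot'
  omega

end Cfsg.Agent.S5067
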