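import Cfsg.Statements.S5070
import Cfsg.Agent.Lib.ClassicalSpStd
import Cfsg.Agent.Lib.RootSets
import Cfsg.Agent.Lib.RootSLTwo

set_option autoImplicit false
open Matrix
open Cfsg Matrix

namespace Cfsg.Agent.S5070

section Aux

variable {F : Type*} [Field F] {m : ℕ}

theorem f_self (p : Fin m ⊕ Fin m → F) : Cfsg.sympForm m F p p = 0 :=
  CfsgLib.Classical.isSymplecticForm_sympForm.alternating p

theorem Jdot (p v : Fin m ⊕ Fin m → F) : (Matrix.J (Fin m) F *ᵥ p) ⬝ᵥ v = Cfsg.sympForm m F v p :=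
  dotProduct_comm _ _

theorem Jdot_self (p : Fin m ⊕ Fin m → F) : (Matrix.J (Fin m) F *ᵥ p) ⬝ᵥ p = 0 := by rw [Jdot, f_self]

theorem st_eq (p : Fin m ⊕ Fin m → F) (c : F) :
    Cfsg.sympTransvection m p c = 1 + c • vecMulVec p (Matrix.J (Fin m) F *ᵥ p) := rfl

/-- The transvection group of the point `p`. -/
def Tp (p : Fin m ⊕ Fin m → F) : Subgroup ↥(Matrix.symplecticGroup (Fin m) F) where
  carrier := {g | ∃ c : F, g.1 = Cfsg.sympTransvection m p c}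
  one_mem' := ⟨0, by simp [st_eq]⟩
  mul_mem' := by
    rintro g g' ⟨c, hc⟩ ⟨d, hd⟩
    refine ⟨c + d, ?_⟩
    show g.1 * g'.1 = _
    rw [hc, hd, st_eq, st_eq, st_eq]
    simp [add_mul, mul_add, vecMulVec_mul_vecMulVec, Jdot_self, add_smul]
    abel
  inv_mem' := by
    rintro g ⟨c, hc⟩
    refine ⟨-c, ?_⟩
    have h : g * ⟨_, CfsgLib.Classical.sympTransvection_mem p (-c)⟩ = 1 := by
      refine Subtype.ext ?_
      show g.1 * Cfsg.sympTransvection m p (-c) = 1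
      rw [hc, st_eq, st_eq]
      simp [add_mul, mul_add, vecMulVec_mul_vecMulVec, Jdot_self]
    rw [inv_eq_of_mul_eq_one_right h]

theorem closure_eq (p : Fin m ⊕ Fin m → F) :
    Subgroup.closure {g : ↥(Matrix.symplecticGroup (Fin m) F) | ∃ c : F, ∀ v : Fin m ⊕ Fin m → F,
      (g : Matrix (Fin m ⊕ Fin m) (Fin m ⊕ Fin m) F) *ᵥ v = v + (c * (v ⬝ᵥ (Matrix.J (Fin m) F *ᵥ p))) • p} = Tp p := by
  have key : ∀ (c : F) (v : Fin m ⊕ Fin m → F), Cfsg.sympTransvection m p c *ᵥ v =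
      v + (c * (v ⬝ᵥ (Matrix.J (Fin m) F *ᵥ p))) • p := fun c v => by
    rw [st_eq, add_mulVec, one_mulVec, smul_mulVec, vecMulVec_mulVec, dotProduct_comm v]
    ext i; simp; ring
  rw [← Subgroup.closure_eq (Tp p)]
  congr 1
  ext g
  refine exists_congr fun c => ⟨fun h => ?_, fun h v => ?_⟩
  · exact Matrix.ext_of_mulVec_single fun i => (h _).trans (key c _).symm
  · rw [h, key]

theorem tp_ne_bot {p : Fin m ⊕ Fin m → F} (hp : p ≠ 0) : Tp p ≠ ⊥ := by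
  intro e
  have h : (⟨_, CfsgLib.Classical.sympTransvection_mem p 1⟩ : ↥(Matrix.symplecticGroup (Fin m) F)) ∈ Tp p := ⟨1, rfl⟩
  rw [e, Subgroup.mem_bot] at h
  have h' : Cfsg.sympTransvection m p 1 = 1 := congrArg Subtype.val h
  obtain ⟨⟨w, hw⟩, -⟩ := CfsgLib.Classical.isSymplecticForm_sympForm.nondegenerate p hp
  obtain ⟨i, hi⟩ := Function.ne_iff.1 hp
  have h1 := congrFun (congrArg (· *ᵥ w) h') i
  rw [st_eq, one_smul, add_mulVec, one_mulVec, vecMulVec_mulVec, Jdot] at h1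
  simp [CfsgLib.Classical.isSymplecticForm_sympForm.skew w p] at h1
  have hw' : Cfsg.sympForm m F p w ≠ 0 := fun e => hw (by
    rw [CfsgLib.Classical.isSymplecticForm_sympForm.skew, e, neg_zero])
  rcases h1 with h1 | h1
  · first | exact hi h1 | exact hw' h1
  · first | exact hw' h1 | exact hi h1

theorem tp_conj (g : ↥(Matrix.symplecticGroup (Fin m) F)) (p : Fin m ⊕ Fin m → F) :
    Cfsg.conjBy (Tp p) g = Tp (g.1 *ᵥ p) := by
  have hg : ∀ c : F, g.1 * Cfsg.sympTransvection m p c = Cfsg.sympTransvection m (g.1 *ᵥ p) c * g.1 := by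
    intro c
    have e : (Matrix.J (Fin m) F *ᵥ (g.1 *ᵥ p)) ᵥ* g.1 = Matrix.J (Fin m) F *ᵥ p := by
      refine dotProduct_eq _ _ fun x => ?_
      rw [← dotProduct_mulVec, Jdot, Jdot]
      exact CfsgLib.Classical.mem_symplecticGroup_iff.1 g.2 x p
    rw [st_eq, st_eq, mul_add, add_mul, mul_one, one_mul, mul_smul_comm, smul_mul_assoc, mul_vecMulVec, vecMulVec_mul, e]
  have h1 : g.1 * (g⁻¹).1 = 1 := congrArg Subtype.val (mul_inv_cancel g)
  have h2 : (g⁻¹).1 * g.1 = 1 := congrArg Subtype.val (inv_mul_cancel g)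
  ext x
  rw [CfsgLib.Root.mem_cb]
  constructor
  · rintro ⟨c, hc⟩
    refine ⟨c, ?_⟩
    change (g⁻¹).1 * x.1 * g.1 = _ at hc
    calc x.1 = g.1 * ((g⁻¹).1 * x.1 * g.1) * (g⁻¹).1 := by
          simp only [← mul_assoc]; rw [h1, one_mul, mul_assoc, h1, mul_one]
      _ = Cfsg.sympTransvection m (g.1 *ᵥ p) c := by rw [hc, hg, mul_assoc, h1, mul_one]
  · rintro ⟨c, hc⟩
    refine ⟨c, ?_⟩
    show (g⁻¹).1 * x.1 * g.1 = _
    rw [hc, mul_assoc, ← hg, ← mul_assoc, h2, one_mul]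

theorem cm_case {p q : Fin m ⊕ Fin m → F} (h : Cfsg.sympForm m F p q = 0) : CfsgLib.Root.Cm (Tp p) (Tp q) := by
  rintro x ⟨c, hc⟩ y ⟨d, hd⟩
  apply Subtype.ext
  show x.1 * y.1 = y.1 * x.1
  rw [hc, hd, st_eq, st_eq]
  have h' : Cfsg.sympForm m F q p = 0 := by rw [CfsgLib.Classical.isSymplecticForm_sympForm.skew, h, neg_zero]
  simp [add_mul, mul_add, vecMulVec_mul_vecMulVec, Jdot, h, h']
  abel

theorem exists_mid {p q : Fin m ⊕ Fin m → F} (hp : p ≠ 0) (hq : q ≠ 0) :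
    ∃ r : Fin m ⊕ Fin m → F, r ≠ 0 ∧ Cfsg.sympForm m F p r ≠ 0 ∧ Cfsg.sympForm m F r q ≠ 0 := by
  obtain ⟨-, ⟨u, hu⟩⟩ := CfsgLib.Classical.isSymplecticForm_sympForm.nondegenerate p hp
  obtain ⟨⟨v, hv⟩, -⟩ := CfsgLib.Classical.isSymplecticForm_sympForm.nondegenerate q hq
  have hb := (CfsgLib.Classical.isSymplecticForm_sympForm (F := F) (m := m)).bilinear
  have hz : ∀ r, Cfsg.sympForm m F p r ≠ 0 → r ≠ 0 := fun r hr e => by
    rw [e, CfsgLib.Classical.f_zero_right hb] at hr; exact hr rfl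
  by_cases h1 : Cfsg.sympForm m F u q = 0
  · by_cases h2 : Cfsg.sympForm m F p v = 0
    · refine ⟨u + v, hz _ ?_, ?_, ?_⟩
      · rwa [hb.add_right, h2, add_zero]
      · rwa [hb.add_right, h2, add_zero]
      · rwa [hb.add_left, h1, zero_add]
    · exact ⟨v, hz _ h2, h2, hv⟩
  · exact ⟨u, hz _ hu, hu, h1⟩

theorem map_rankOne {G H : Type*} [Group G] [Group H] (f : G →* H) (hf : Function.Injective f) {A B : Subgroup G}
    (hR : Cfsg.IsRankOnePair A B) : Cfsg.IsRankOnePair (A.map f) (B.map f) := by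
  haveI := hR.nilpotent_left
  haveI := hR.nilpotent_right
  have map_cb : ∀ (A : Subgroup G) (g : G), (Cfsg.conjBy A g).map f = Cfsg.conjBy (A.map f) (f g) := by
    intro A g
    rw [Cfsg.conjBy, Cfsg.conjBy, Subgroup.map_map, Subgroup.map_map]
    congr 1
    ext x
    simp
  refine ⟨fun e => hR.ne (Subgroup.map_injective hf e), Group.nilpotent_of_mulEquiv (A.equivMapOfInjective f hf),
    Group.nilpotent_of_mulEquiv (B.equivMapOfInjective f hf), ?_, ?_⟩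
  · rintro _ ⟨x, hx, rfl⟩ hx1
    obtain ⟨y, hy, hy1, he⟩ := hR.cond_left x hx (fun e => hx1 (by rw [e, map_one]))
    refine ⟨f y, ⟨y, hy, rfl⟩, fun e => hy1 (hf (by rw [e, map_one])), ?_⟩
    rw [← map_inv, ← map_inv, ← map_cb, ← map_cb, he]
  · rintro _ ⟨x, hx, rfl⟩ hx1
    obtain ⟨y, hy, hy1, he⟩ := hR.cond_right x hx (fun e => hx1 (by rw [e, map_one]))
    refine ⟨f y, ⟨y, hy, rfl⟩, fun e => hy1 (hf (by rw [e, map_one])), ?_⟩
    rw [← map_inv, ← map_inv, ← map_cb, ← map_cb, he]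

theorem rank_case {p q : Fin m ⊕ Fin m → F} (h : Cfsg.sympForm m F p q ≠ 0) :
    Cfsg.IsRankOnePair (Tp p) (Tp q) ∧ Cfsg.IsPSL2PairOver F (Tp p) (Tp q) := by
  set γ := Cfsg.sympForm m F q p with hγdef
  have hpq : Cfsg.sympForm m F p q = -γ := CfsgLib.Classical.isSymplecticForm_sympForm.skew _ _
  have hγ : γ ≠ 0 := fun e => h (by rw [hpq, e, neg_zero])
  set φ := Matrix.J (Fin m) F *ᵥ p with hφdef
  set ψ := Matrix.J (Fin m) F *ᵥ q with hψdef
  let U : Matrix (Fin m ⊕ Fin m) (Fin 2) F := Matrix.of fun x i => ![p x, γ⁻¹ * q x] i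
  let V : Matrix (Fin 2) (Fin m ⊕ Fin m) F := Matrix.of fun i x => ![(-γ)⁻¹ * ψ x, φ x] i
  have hVU : V * U = 1 := by
    ext i j
    fin_cases i <;> fin_cases j <;> simp only [U, V, Matrix.mul_apply, Matrix.of_apply]
    · show ∑ x, (-γ)⁻¹ * ψ x * p x = _
      simp only [mul_assoc, ← Finset.mul_sum]
      show (-γ)⁻¹ * (ψ ⬝ᵥ p) = _
      rw [hψdef, Jdot, hpq, inv_mul_cancel₀ (neg_ne_zero.2 hγ)]; rfl
    · show ∑ x, (-γ)⁻¹ * ψ x * (γ⁻¹ * q x) = _
      calc _ = (-γ)⁻¹ * γ⁻¹ * (ψ ⬝ᵥ q) := by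
            simp only [dotProduct, Finset.mul_sum]; refine Finset.sum_congr rfl fun x _ => ?_; ring
        _ = _ := by rw [hψdef, Jdot_self, mul_zero]; rfl
    · show φ ⬝ᵥ p = _
      rw [hφdef, Jdot_self]; rfl
    · show ∑ x, φ x * (γ⁻¹ * q x) = _
      calc _ = γ⁻¹ * (φ ⬝ᵥ q) := by
            simp only [dotProduct, Finset.mul_sum]; refine Finset.sum_congr rfl fun x _ => ?_; ring
        _ = _ := by rw [hφdef, Jdot, inv_mul_cancel₀ hγ]; rfl
  let g : Matrix.SpecialLinearGroup (Fin 2) F →* Matrix (Fin m ⊕ Fin m) (Fin m ⊕ Fin m) F :=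
    { toFun := fun M => 1 + U * ((M.1 - 1) * V)
      map_one' := by simp
      map_mul' := fun M N => by
        have e : U * ((M.1 - 1) * V) * (U * ((N.1 - 1) * V)) = U * (((M.1 - 1) * (N.1 - 1)) * V) := by
          simp only [Matrix.mul_assoc]
          rw [← Matrix.mul_assoc V U, hVU, Matrix.one_mul]
        rw [add_mul, one_mul, mul_add, mul_one, e, Matrix.SpecialLinearGroup.coe_mul,
          show M.1 * N.1 - 1 = (M.1 - 1) + (N.1 - 1) + (M.1 - 1) * (N.1 - 1) by noncomm_ring,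
          Matrix.add_mul, Matrix.add_mul, Matrix.mul_add, Matrix.mul_add]
        abel }
  have hup : ∀ t : F, g (Cfsg.Agent.RootSLTwo.up t) = Cfsg.sympTransvection m p t := by
    intro t
    show 1 + U * (((Cfsg.Agent.RootSLTwo.up t).1 - 1) * V) = _
    rw [st_eq]
    congr 1
    ext x y
    simp [Matrix.mul_apply, Fin.sum_univ_two, U, V, Cfsg.Agent.RootSLTwo.val_up, vecMulVec_apply, hφdef]
    ring
  have hlo : ∀ t : F, g (Cfsg.Agent.RootSLTwo.lo t) = Cfsg.sympTransvection m q (t * γ⁻¹ * (-γ)⁻¹) := by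
    intro t
    show 1 + U * (((Cfsg.Agent.RootSLTwo.lo t).1 - 1) * V) = _
    rw [st_eq]
    congr 1
    ext x y
    simp [Matrix.mul_apply, Fin.sum_univ_two, U, V, Cfsg.Agent.RootSLTwo.val_lo, vecMulVec_apply, hψdef]
    ring
  have hmem : ∀ M, g M ∈ Matrix.symplecticGroup (Fin m) F := by
    let K : Subgroup (Matrix.SpecialLinearGroup (Fin 2) F) :=
      { carrier := {M | g M ∈ Matrix.symplecticGroup (Fin m) F ∧ g M⁻¹ ∈ Matrix.symplecticGroup (Fin m) F}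
        one_mem' := ⟨by rw [map_one]; exact one_mem _, by rw [inv_one, map_one]; exact one_mem _⟩
        mul_mem' := fun {M N} hM hN =>
          ⟨by rw [map_mul]; exact mul_mem hM.1 hN.1, by rw [_root_.mul_inv_rev, map_mul]; exact mul_mem hN.2 hM.2⟩
        inv_mem' := fun {M} hM => ⟨hM.2, by rw [inv_inv]; exact hM.1⟩ }
    have hle : Cfsg.lowerUnipotentSL2 F ⊔ Cfsg.upperUnipotentSL2 F ≤ K := by
      refine sup_le (fun M hM => ⟨?_, ?_⟩) (fun M hM => ⟨?_, ?_⟩)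
      · obtain ⟨t, rfl⟩ := Cfsg.Agent.RootSLTwo.mem_lower.1 hM
        rw [hlo]; exact CfsgLib.Classical.sympTransvection_mem _ _
      · obtain ⟨t, ht⟩ := Cfsg.Agent.RootSLTwo.mem_lower.1 (inv_mem hM)
        rw [← ht, hlo]; exact CfsgLib.Classical.sympTransvection_mem _ _
      · obtain ⟨t, rfl⟩ := Cfsg.Agent.RootSLTwo.mem_upper.1 hM
        rw [hup]; exact CfsgLib.Classical.sympTransvection_mem _ _
      · obtain ⟨t, ht⟩ := Cfsg.Agent.RootSLTwo.mem_upper.1 (inv_mem hM)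
        rw [← ht, hup]; exact CfsgLib.Classical.sympTransvection_mem _ _
    rw [Cfsg.Agent.RootSLTwo.sup_eq_top] at hle
    exact fun M => (hle (Subgroup.mem_top M)).1
  let f : Matrix.SpecialLinearGroup (Fin 2) F →* ↥(Matrix.symplecticGroup (Fin m) F) := g.codRestrict _ hmem
  have hinj : Function.Injective f := by
    intro M N e
    have e' : V * (1 + U * ((M.1 - 1) * V) - 1) * U = V * (1 + U * ((N.1 - 1) * V) - 1) * U :=
      congrArg (fun X : ↥(Matrix.symplecticGroup (Fin m) F) => V * (X.1 - 1) * U) e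
    simp only [add_sub_cancel_left, Matrix.mul_assoc] at e'
    rw [hVU, Matrix.mul_one, Matrix.mul_one, ← Matrix.mul_assoc V U, ← Matrix.mul_assoc V U, hVU, Matrix.one_mul,
      Matrix.one_mul, sub_left_inj] at e'
    exact Subtype.ext e'
  have hA : (Cfsg.upperUnipotentSL2 F).map f = Tp p := by
    ext x
    constructor
    · rintro ⟨M, hM, rfl⟩
      obtain ⟨t, rfl⟩ := Cfsg.Agent.RootSLTwo.mem_upper.1 hM
      exact ⟨t, hup t⟩
    · rintro ⟨c, hc⟩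
      exact ⟨_, Cfsg.Agent.RootSLTwo.mem_upper.2 ⟨c, rfl⟩, Subtype.ext ((hup c).trans hc.symm)⟩
  have hB : (Cfsg.lowerUnipotentSL2 F).map f = Tp q := by
    ext x
    constructor
    · rintro ⟨M, hM, rfl⟩
      obtain ⟨t, rfl⟩ := Cfsg.Agent.RootSLTwo.mem_lower.1 hM
      exact ⟨_, hlo t⟩
    · rintro ⟨c, hc⟩
      refine ⟨_, Cfsg.Agent.RootSLTwo.mem_lower.2 ⟨c * γ * (-γ), rfl⟩, Subtype.ext ((hlo _).trans ?_)⟩
      rw [hc, st_eq, st_eq]; congr 2; field_simp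
  constructor
  · rw [← hA, ← hB]
    exact map_rankOne f hinj (Cfsg.RankOnePair_symm Cfsg.Agent.RootSLTwo.rankOne)
  · refine ⟨f, ?_, ?_, hA, hB⟩
    · rw [← hA, ← hB, ← Subgroup.map_sup, sup_comm, Cfsg.Agent.RootSLTwo.sup_eq_top, ← MonoidHom.range_eq_map]
    · rw [(MonoidHom.ker_eq_bot_iff f).2 hinj]; exact bot_le

end Aux

/-- Let F be a field, m a natural number and V = F^{2(m+1)} with the standard non-degenerate alternating form f(u, v) = uᵀ J v. For a non-zero vector p let T(p) be the group of symplectic transvections v ↦ v + c f(v, p) p, c ∈ F. Then the subgroups T(p), p ≠ 0, generate the symplectic group Sp_{2(m+1)}(F) and form a degenerate class of abstract F-root subgroups of it (any two of them either commute elementwise or are the unipotent subgroups of a rank one group that is an image of SL₂(F) with central kernel, never the commutator case), and their graph of rank one pairs is connected.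 -/
theorem result (F : Type*) [Field F] (m : ℕ) :
    Cfsg.IsRootSubgroupClass {A : Subgroup ↥(Matrix.symplecticGroup (Fin (m + 1)) F) | ∃ p : Fin (m + 1) ⊕ Fin (m + 1) → F, p ≠ 0 ∧
        A = Subgroup.closure {g : ↥(Matrix.symplecticGroup (Fin (m + 1)) F) | ∃ c : F, ∀ v : Fin (m + 1) ⊕ Fin (m + 1) → F,
          (g : Matrix (Fin (m + 1) ⊕ Fin (m + 1)) (Fin (m + 1) ⊕ Fin (m + 1)) F) *ᵥ v =
            v + (c * (v ⬝ᵥ (Matrix.J (Fin (m + 1)) F *ᵥ p))) • p}} ∧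
    Cfsg.IsDegenerateRootSet {A : Subgroup ↥(Matrix.symplecticGroup (Fin (m + 1)) F) | ∃ p : Fin (m + 1) ⊕ Fin (m + 1) → F, p ≠ 0 ∧
        A = Subgroup.closure {g : ↥(Matrix.symplecticGroup (Fin (m + 1)) F) | ∃ c : F, ∀ v : Fin (m + 1) ⊕ Fin (m + 1) → F,
          (g : Matrix (Fin (m + 1) ⊕ Fin (m + 1)) (Fin (m + 1) ⊕ Fin (m + 1)) F) *ᵥ v =
            v + (c * (v ⬝ᵥ (Matrix.J (Fin (m + 1)) F *ᵥ p))) • p}} ∧
    Cfsg.IsKRootSubgroupSet F {A : Subgroup ↥(Matrix.symplecticGroup (Fin (m + 1)) F) | ∃ p : Fin (m + 1) ⊕ Fin (m + 1) → F, p ≠ 0 ∧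
        A = Subgroup.closure {g : ↥(Matrix.symplecticGroup (Fin (m + 1)) F) | ∃ c : F, ∀ v : Fin (m + 1) ⊕ Fin (m + 1) → F,
          (g : Matrix (Fin (m + 1) ⊕ Fin (m + 1)) (Fin (m + 1) ⊕ Fin (m + 1)) F) *ᵥ v =
            v + (c * (v ⬝ᵥ (Matrix.J (Fin (m + 1)) F *ᵥ p))) • p}} ∧
    Cfsg.IsConnectedFamily (Cfsg.FAdj {A : Subgroup ↥(Matrix.symplecticGroup (Fin (m + 1)) F) | ∃ p : Fin (m + 1) ⊕ Fin (m + 1) → F, p ≠ 0 ∧
        A = Subgroup.closure {g : ↥(Matrix.symplecticGroup (Fin (m + 1)) F) | ∃ c : F, ∀ v : Fin (m + 1) ⊕ Fin (m + 1) → F,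
          (g : Matrix (Fin (m + 1) ⊕ Fin (m + 1)) (Fin (m + 1) ⊕ Fin (m + 1)) F) *ᵥ v =
            v + (c * (v ⬝ᵥ (Matrix.J (Fin (m + 1)) F *ᵥ p))) • p}})
      {A : Subgroup ↥(Matrix.symplecticGroup (Fin (m + 1)) F) | ∃ p : Fin (m + 1) ⊕ Fin (m + 1) → F, p ≠ 0 ∧
        A = Subgroup.closure {g : ↥(Matrix.symplecticGroup (Fin (m + 1)) F) | ∃ c : F, ∀ v : Fin (m + 1) ⊕ Fin (m + 1) → F,
          (g : Matrix (Fin (m + 1) ⊕ Fin (m + 1)) (Fin (m + 1) ⊕ Fin (m + 1)) F) *ᵥ v =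
            v + (c * (v ⬝ᵥ (Matrix.J (Fin (m + 1)) F *ᵥ p))) • p}} := by
  classical
  set S := {A : Subgroup ↥(Matrix.symplecticGroup (Fin (m + 1)) F) | ∃ p : Fin (m + 1) ⊕ Fin (m + 1) → F, p ≠ 0 ∧
        A = Subgroup.closure {g : ↥(Matrix.symplecticGroup (Fin (m + 1)) F) | ∃ c : F, ∀ v : Fin (m + 1) ⊕ Fin (m + 1) → F,
          (g : Matrix (Fin (m + 1) ⊕ Fin (m + 1)) (Fin (m + 1) ⊕ Fin (m + 1)) F) *ᵥ v =
            v + (c * (v ⬝ᵥ (Matrix.J (Fin (m + 1)) F *ᵥ p))) • p}} with hSdef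
  have hS : ∀ A, A ∈ S ↔ ∃ p, p ≠ 0 ∧ A = Tp p := fun A =>
    exists_congr fun p => and_congr_right fun _ => by rw [closure_eq p]
  have hgen : (⨆ A ∈ S, A) = ⊤ := by
    refine eq_top_iff.2 fun M _ => ?_
    let ψ : Matrix.symplecticGroup (Fin (m + 1)) F →* GL (Fin (m + 1) ⊕ Fin (m + 1)) F :=
      (Cfsg.spGL (m + 1) F).subtype.comp (CfsgLib.Classical.spToGL (m + 1) F).toMonoidHom
    have hle : CfsgLib.Classical.isoGL (Cfsg.sympForm (m + 1) F) ≤ (⨆ A ∈ S, A).map ψ := by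
      refine CfsgLib.Classical.isoGL_le_of_stv CfsgLib.Classical.isSymplecticForm_sympForm fun u hu c => ?_
      refine ⟨⟨_, CfsgLib.Classical.sympTransvection_mem u c⟩, ?_, Units.ext (CfsgLib.Classical.coe_stv_sympForm u c).symm⟩
      exact le_iSup₂ (f := fun A (_ : A ∈ S) => A) (Tp u) ((hS _).2 ⟨u, hu, rfl⟩) ⟨c, rfl⟩
    obtain ⟨M', hM', he⟩ := hle (show ψ M ∈ _ from (CfsgLib.Classical.spToGL (m + 1) F M).2)
    have hMM : M' = M := Subtype.ext (congrArg Units.val he)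
    exact hMM ▸ hM'
  have hmem : ∀ p : Fin (m + 1) ⊕ Fin (m + 1) → F, p ≠ 0 → Tp p ∈ S := fun p hp => (hS _).2 ⟨p, hp, rfl⟩
  have hconn : Cfsg.IsConnectedFamily (Cfsg.FAdj S) S := by
    intro A hA B hB
    obtain ⟨p, hp, rfl⟩ := (hS A).1 hA
    obtain ⟨q, hq, rfl⟩ := (hS B).1 hB
    obtain ⟨r, hr0, h1, h2⟩ := exists_mid hp hq
    exact (Relation.ReflTransGen.single ⟨hA, hmem r hr0, (rank_case h1).1⟩).tail ⟨hmem r hr0, hB, (rank_case h2).1⟩
  have hroot : Cfsg.IsRootSubgroupSet S := by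
    refine ⟨?_, ?_, hgen, ?_, ?_⟩
    · intro A hA
      obtain ⟨p, hp, rfl⟩ := (hS A).1 hA
      exact ⟨⟨fun x y => Subtype.ext (cm_case (f_self p) x x.2 y y.2)⟩⟩
    · intro A hA
      obtain ⟨p, hp, rfl⟩ := (hS A).1 hA
      exact tp_ne_bot hp
    · intro A hA g
      obtain ⟨p, hp, rfl⟩ := (hS A).1 hA
      refine (hS _).2 ⟨g.1 *ᵥ p, fun e => hp ?_, tp_conj g p⟩
      have := congrArg ((g⁻¹).1 *ᵥ ·) e
      rw [mulVec_mulVec, show (g⁻¹).1 * g.1 = 1 from congrArg Subtype.val (inv_mul_cancel g), one_mulVec, mulVec_zero] at this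
      exact this
    · intro A hA B hB
      obtain ⟨p, hp, rfl⟩ := (hS A).1 hA
      obtain ⟨q, hq, rfl⟩ := (hS B).1 hB
      by_cases h : Cfsg.sympForm (m + 1) F p q = 0
      · exact Or.inl (CfsgLib.Root.cm_iff.2 (cm_case h))
      · exact Or.inr (Or.inl (rank_case h).1)
  refine ⟨⟨hroot, ⟨Tp (Pi.single (Sum.inl 0) 1), hmem _ (by simp)⟩, ?_⟩, ?_, ⟨hroot, ?_⟩, hconn⟩
  · intro A hA B hB
    exact CfsgLib.Root.fpath_conjugate (hconn A hA B hB)
  · intro A hA B hB hC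
    obtain ⟨p, hp, rfl⟩ := (hS A).1 hA
    obtain ⟨q, hq, rfl⟩ := (hS B).1 hB
    by_cases h : Cfsg.sympForm (m + 1) F p q = 0
    · exact hroot.ne_bot _ hC.1 (CfsgLib.Root.cm_iff.2 (cm_case h))
    · have hR := (rank_case h).1
      obtain ⟨a, ha, ha1⟩ := CfsgLib.Root.ne_bot_exists (CfsgLib.Root.R_ne_bot hR)
      exact ha1 (CfsgLib.Root.R_fix hR ha (CfsgLib.Root.omega_not_cm hR
        (CfsgLib.Root.omega_conj (CfsgLib.Root.right_mem_omega hR) (le_sup_left (b := Tp q) ha))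
        (CfsgLib.Root.right_mem_omega hR) (CfsgLib.Root.comm_case_cm hC (hroot.commutative _ hB) ha)))
  · intro A hA B hB hR
    obtain ⟨p, hp, rfl⟩ := (hS A).1 hA
    obtain ⟨q, hq, rfl⟩ := (hS B).1 hB
    by_cases h : Cfsg.sympForm (m + 1) F p q = 0
    · exact absurd (cm_case h) (CfsgLib.Root.R_not_cm hR)
    · exact (rank_case h).2

end Cfsg.Agent.S5070
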