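import Cfsg.Statements.S5079
import Cfsg.Agent.Lib.FusionNormal

set_option autoImplicit false
open Cfsg

namespace Cfsg.Agent.S5079

/-- In any fusion system over a finite p-group S: if P is fully automized and receptive and Q is conjugate to P in the system, then there is a map of the system with source N_S(Q) and values in N_S(P) carrying Q onto P. -/
theorem result {Ω : Type*} [Group Ω] {S : Subgroup Ω} [Finite S] (p : ℕ) [Fact p.Prime] (hS : IsPGroup p S) (F : Cfsg.FusionSystem S) (P Q : Subgroup Ω) (h₁ : F.IsFullyAutomized p P) (h₂ : F.IsReceptive P) (hQ : F.IsConj Q P) : ∃ φ ∈ F.Hom (Cfsg.FusionSystem.normalizerIn S Q), (∀ x, φ x ∈ Cfsg.FusionSystem.normalizerIn S P) ∧ (Q.subgroupOf (Cfsg.FusionSystem.normalizerIn S Q)).map φ = P := by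
  open CfsgLib.Fusion in
  obtain ⟨k, ⟨ψ, hψ, he⟩, himg⟩ := exists_map_normalizerIn hS h₁ h₂ hQ
  have hQS : Q ≤ S := isConj_le_left hQ
  refine ⟨ψ, hψ, fun x => ?_, ?_⟩
  · rw [he]
    have hk : CfsgLib.Fusion.Map F (Cfsg.FusionSystem.normalizerIn S Q) k := ⟨ψ, hψ, he⟩
    exact himg ▸ hk.apply_mem_normalizerIn (le_normalizerIn hQS) x.2 x.2.2
  · rw [map_subgroupOf_img ψ (le_normalizerIn hQS)]
    exact (img_congr fun x hx => by rw [ext_apply ψ (le_normalizerIn hQS hx), he]).trans himg

end Cfsg.Agent.S5079
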