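import Cfsg.Statements.S5087
import Cfsg.Agent.Lib.FusionCriteria
import Cfsg.Agent.Lib.FusionEssential

set_option autoImplicit false
open Cfsg

namespace Cfsg.Agent.S5087

/-- In a saturated fusion system over a finite p-group S, a subgroup Q is normal in the system if and only if every subgroup P that equals S or is essential contains Q and every element of Aut_F(P) maps Q onto itself. -/
theorem result {Ω : Type*} [Group Ω] {S : Subgroup Ω} [Finite S] (p : ℕ) [Fact p.Prime] (hS : IsPGroup p S) (F : Cfsg.FusionSystem S) (hF : F.IsSaturated p) (Q : Subgroup Ω) : F.IsNormal Q ↔ ∀ P : Subgroup Ω, (P = S ∨ F.IsEssential p P) → (Q ≤ P ∧ ∀ α ∈ F.autGroup P, (Q.subgroupOf P).map α.toMonoidHom = Q.subgroupOf P) := by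
  constructor
  · intro hQ P hP
    have hsc := CfsgLib.Fusion.isNormal_stronglyClosed hQ
    have hQP : Q ≤ P := by
      rcases hP with rfl | hP
      · exact (CfsgLib.Fusion.isNormal_iff.mp hQ).1
      · exact CfsgLib.Fusion.isNormal_le_centric_radical hS hQ hP.1
          (CfsgLib.Fusion.isRadical_of_isEssential hS hF hP)
    have hPS : P ≤ S := by
      rcases hP with rfl | hP
      · exact le_rfl
      · exact hP.1.1
    refine ⟨hQP, fun α hα => ?_⟩
    rw [CfsgLib.Fusion.map_subgroupOf_eq_iff hQP]
    exact CfsgLib.Fusion.img_eq_of_stronglyClosed hsc hQP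
      ((CfsgLib.Fusion.mem_autGroup_iff hPS).mp hα)
  · intro h
    refine CfsgLib.Fusion.isNormal_of_essential_invariant hS hF fun P hP => ?_
    obtain ⟨hQP, hα⟩ := h P hP
    exact ⟨hQP, fun α ha => (CfsgLib.Fusion.map_subgroupOf_eq_iff hQP α).mp (hα α ha)⟩

end Cfsg.Agent.S5087
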