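import Cfsg.Statements.S5088
import Cfsg.Agent.Lib.FusionSeries

set_option autoImplicit false
open Cfsg

namespace Cfsg.Agent.S5088

/-- In a saturated fusion system over a finite p-group, a subgroup Q is normal in the system if and only if there is a chain of subgroups 1 = Q₀ ≤ Q₁ ≤ ⋯ ≤ Qₙ = Q such that each Qᵢ with i ≥ 1 is strongly closed in the system and [Q, Qᵢ] ≤ Qᵢ₋₁. -/
theorem result {Ω : Type*} [Group Ω] {S : Subgroup Ω} [Finite S] (p : ℕ) [Fact p.Prime] (hS : IsPGroup p S) (F : Cfsg.FusionSystem S) (hF : F.IsSaturated p) (Q : Subgroup Ω) : F.IsNormal Q ↔ ∃ (n : ℕ) (Qs : Fin (n + 1) → Subgroup Ω), Qs 0 = ⊥ ∧ Qs (Fin.last n) = Q ∧ Monotone Qs ∧ ∀ i : Fin n, F.StronglyClosed (Qs i.succ) ∧ ⁅Q, Qs i.succ⁆ ≤ Qs (Fin.castSucc i) := by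
  constructor
  · intro hQ
    obtain ⟨n, C, h0, hl, hm, hsc, hc⟩ := CfsgLib.Fusion.exists_series hS
      (CfsgLib.Fusion.isNormal_iff.mp hQ).1 (CfsgLib.Fusion.IsNormal.exists_aut hQ)
    exact ⟨n, C, h0, hl, hm, fun i => ⟨hsc i.succ, hc i⟩⟩
  · rintro ⟨n, C, h0, hl, hm, h⟩
    refine CfsgLib.Fusion.isNormal_of_series hS hF n C h0 hl hm (fun i => ?_) fun i => (h i).2
    induction i using Fin.cases with
    | zero => rw [h0]; exact CfsgLib.Fusion.isNormal_stronglyClosed (CfsgLib.Fusion.isNormal_bot F)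
    | succ i => exact (h i).1

end Cfsg.Agent.S5088
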