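import Cfsg.Statements.S5089
import Cfsg.Agent.Lib.FusionSeries

set_option autoImplicit false
open Cfsg

namespace Cfsg.Agent.S5089

/-- A saturated fusion system over a finite p-group has a nontrivial subgroup that is normal in the system (O_p(F) ≠ 1) if and only if some nontrivial abelian subgroup is strongly closed in the system. -/
theorem result {Ω : Type*} [Group Ω] {S : Subgroup Ω} [Finite S] (p : ℕ) [Fact p.Prime] (hS : IsPGroup p S) (F : Cfsg.FusionSystem S) (hF : F.IsSaturated p) : F.core ≠ ⊥ ↔ ∃ Q : Subgroup Ω, Q ≠ ⊥ ∧ IsMulCommutative Q ∧ F.StronglyClosed Q := by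
  constructor
  · intro hne
    have hn := CfsgLib.Fusion.isNormal_core F
    have hle : (Subgroup.center F.core).map F.core.subtype ≤ F.core := Subgroup.map_subtype_le _
    have hchar : (((Subgroup.center F.core).map F.core.subtype).subgroupOf F.core).Characteristic := by
      rw [Subgroup.subgroupOf, Subgroup.comap_map_eq_self_of_injective F.core.subtype_injective]
      infer_instance
    refine ⟨_, fun hb => ?_, inferInstance,
      CfsgLib.Fusion.isNormal_stronglyClosed
        (CfsgLib.Fusion.isNormal_of_characteristic hn hle hchar)⟩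
    have hcS := (CfsgLib.Fusion.isNormal_iff.mp hn).1
    have := CfsgLib.Fusion.finite_of_le hcS
    have := (Subgroup.nontrivial_iff_ne_bot F.core).mpr hne
    have h1 := (hS.to_le hcS).center_nontrivial
    rw [Subgroup.map_eq_bot_iff_of_injective _ F.core.subtype_injective] at hb
    exact (Subgroup.nontrivial_iff_ne_bot _).mp h1 hb
  · rintro ⟨Q, hne, hab, hQ⟩ hcore
    exact hne (le_bot_iff.mp (hcore ▸ le_sSup
      (CfsgLib.Fusion.isNormal_of_abelian_stronglyClosed hS hF hQ hab)))

end Cfsg.Agent.S5089
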