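import Cfsg.Statements.S5094
import Cfsg.Agent.Lib.ZStarRankOne

set_option autoImplicit false
open Cfsg

namespace Cfsg.Agent.S5094

universe u

/-- A central `2`-subgroup does not create an odd core. -/
theorem core_quot_central {X : Type u} [Group X] [Finite X] (hO : Cfsg.pPrimeCore 2 X = ⊥)
    (U : Subgroup X) [U.Normal] (hUc : ∀ x ∈ U, x ∈ Subgroup.center X) (hUp : IsPGroup 2 U) :
    Cfsg.pPrimeCore 2 (X ⧸ U) = ⊥ := by
  haveI : Fact (Nat.Prime 2) := ⟨Nat.prime_two⟩
  haveI := CfsgLib.Core.normal_pPrimeCore (G := X ⧸ U) 2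
  set L := (Cfsg.pPrimeCore 2 (X ⧸ U)).comap (QuotientGroup.mk' U) with hL
  have hLn : L.Normal := Subgroup.Normal.comap inferInstance _
  have key : ∀ (q : X), q ∈ L → ∀ a : ℕ, q ^ 2 ^ a = 1 → q ∈ U := by
    intro q hq a ha
    rw [← QuotientGroup.eq_one_iff]
    have h2 : (q : X ⧸ U) ∈ Cfsg.pPrimeCore 2 (X ⧸ U) := hq
    have h3 : orderOf (q : X ⧸ U) ∣ 2 ^ a := orderOf_dvd_of_pow_eq_one (by
      rw [← QuotientGroup.mk_pow, ha, QuotientGroup.mk_one])
    have h4 := (CfsgLib.Core.coprime_card_pPrimeCore (G := X ⧸ U) 2).coprime_dvd_left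
      (Subgroup.orderOf_dvd_natCard _ h2)
    exact orderOf_eq_one_iff.1 (Nat.eq_one_of_dvd_coprimes (h4.pow_right a) dvd_rfl h3)
  have hnpc : Cfsg.HasNormalPComplement 2 L := by
    refine CfsgLib.Core.hasNormalPComplement_of_local fun Q hQ g _ _ => ?_
    rw [Subgroup.mem_centralizer_iff]
    intro q hq
    obtain ⟨a, ha⟩ := hQ ⟨q, hq⟩
    have hqU : (q : X) ∈ U := key _ q.2 a (by
      have := congrArg (fun w : Q => ((w : L) : X)) ha
      simpa using this)
    exact Subtype.ext (Subgroup.mem_center_iff.1 (hUc _ hqU) (g : X)).symm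
  obtain ⟨N, hN, hNc, j, hj⟩ := CfsgLib.Core.hasNormalPComplement_iff.1 hnpc
  have hNb : N = ⊥ := by
    have h2 := CfsgLib.Core.pPrimeCore_map_subtype_le (p := 2) hLn
    rw [hO, le_bot_iff, Subgroup.map_eq_bot_iff_of_injective _ L.subtype_injective] at h2
    exact le_bot_iff.1 ((CfsgLib.Core.le_pPrimeCore hN hNc).trans h2.le)
  have hLp : IsPGroup 2 L := IsPGroup.of_card (by rw [← hj, hNb, Subgroup.index_bot])
  rw [eq_bot_iff]
  intro w hw
  obtain ⟨x, rfl⟩ := QuotientGroup.mk_surjective w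
  obtain ⟨a, ha⟩ := hLp ⟨x, hw⟩
  rw [Subgroup.mem_bot, QuotientGroup.eq_one_iff]
  exact key x hw a (by have := congrArg Subtype.val ha; simpa using this)

/-- An element of `S` all of whose powers are their own only conjugates in `S` is central modulo
the odd core. -/
theorem inZStar_of_unique : ∀ (n : ℕ) (X : Type u) [Group X] [Finite X] (S : Sylow 2 X)
    (Q : Subgroup X), Nat.card X = n → Q ≤ (S : Subgroup X) →
    (∀ q ∈ Q, ∀ g : X, g * q * g⁻¹ ∈ (S : Subgroup X) → g * q * g⁻¹ = q) →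
    ∀ q ∈ Q, Cfsg.InZStar 2 q := by
  intro n
  induction n using Nat.strong_induction_on with
  | h n IH =>
  intro X _ _ S Q hn hQS hQ q hq
  haveI : Fact (Nat.Prime 2) := ⟨Nat.prime_two⟩
  haveI := CfsgLib.Core.normal_pPrimeCore (G := X) 2
  by_cases hO : Cfsg.pPrimeCore 2 X = ⊥
  swap
  · set O := Cfsg.pPrimeCore 2 X with hOdef
    set f := QuotientGroup.mk' O with hf
    have hlt : Nat.card (X ⧸ O) < n := by
      rw [← hn, Subgroup.card_eq_card_quotient_mul_card_subgroup O]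
      exact lt_mul_of_one_lt_right Nat.card_pos ((Subgroup.one_lt_card_iff_ne_bot _).2 hO)
    have h := IH _ hlt _ (S.mapSurjective (QuotientGroup.mk'_surjective O)) (Q.map f) rfl
      (Subgroup.map_mono hQS) ?_ (f q) ⟨q, hq, rfl⟩
    · intro g
      have h' := h (f g)
      rw [CfsgLib.Core.pPrimeCore_quotient_pPrimeCore, Subgroup.mem_bot, ← map_inv, ← map_inv,
        ← map_mul, ← map_mul, ← map_mul, hf, QuotientGroup.mk'_apply,
        QuotientGroup.eq_one_iff] at h'
      exact h'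
    · rintro _ ⟨r, hr, rfl⟩ gb hgb
      obtain ⟨g, rfl⟩ := QuotientGroup.mk'_surjective O gb
      rw [← map_inv, ← map_mul, ← map_mul] at hgb ⊢
      set K := ((S : Subgroup X).map f).comap f with hK
      have hSK : (S : Subgroup X) ≤ K := Subgroup.le_comap_map _ _
      have hxK : g * r * g⁻¹ ∈ K := by
        have := hgb
        exact this
      have hp : IsPGroup 2 ↥(Subgroup.zpowers (⟨g * r * g⁻¹, hxK⟩ : K)) := by
        obtain ⟨a, ha⟩ := S.2 ⟨r, hQS hr⟩
        have ha' : r ^ 2 ^ a = 1 := by simpa using congrArg Subtype.val ha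
        obtain ⟨b, -, hb⟩ := (Nat.dvd_prime_pow Nat.prime_two).1
          (show orderOf r ∣ 2 ^ a from orderOf_dvd_of_pow_eq_one ha')
        refine IsPGroup.of_card (n := b) ?_
        rw [Nat.card_zpowers, ← Subgroup.orderOf_coe, CfsgLib.Invol.orderOf_conj, hb]
      obtain ⟨T, hT⟩ := hp.exists_le_sylow
      obtain ⟨k, hk⟩ := MulAction.exists_smul_eq K T (S.subtype hSK)
      have h1 : k * ⟨g * r * g⁻¹, hxK⟩ * k⁻¹ ∈ (S.subtype hSK : Subgroup K) := by
        rw [← hk, Sylow.coe_subgroup_smul]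
        exact ⟨_, hT (Subgroup.mem_zpowers _), rfl⟩
      rw [Sylow.coe_subtype, Subgroup.mem_subgroupOf] at h1
      have h2 := hQ r hr ((k : X) * g) (by
        rw [show (k : X) * g * r * ((k : X) * g)⁻¹ = (k : X) * (g * r * g⁻¹) * (k : X)⁻¹ by group]
        exact h1)
      obtain ⟨s, hs, hsk⟩ : f (k : X) ∈ (S : Subgroup X).map f := k.2
      have h3 : s * r * s⁻¹ = r :=
        hQ r hr s (mul_mem (mul_mem hs (hQS hr)) (inv_mem hs))
      have e : f (g * r * g⁻¹) = f (s⁻¹ * r * s) := by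
        have h4 : f ((k : X) * g * r * ((k : X) * g)⁻¹) = f r := by rw [h2]
        simp only [map_mul, map_inv] at h4 ⊢
        rw [hsk]
        calc f g * f r * (f g)⁻¹ =
            (f (k : X))⁻¹ * (f (k : X) * f g * f r * (f (k : X) * f g)⁻¹) * f (k : X) := by group
          _ = _ := by rw [h4]
      rw [e]
      congr 1
      conv_lhs => rw [← h3]
      group
  · intro g
    suffices h : g * q * g⁻¹ = q by rw [h, mul_inv_cancel]; exact one_mem _
    by_cases hq1 : q = 1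
    · simp [hq1]
    obtain ⟨a, ha⟩ := S.2 ⟨q, hQS hq⟩
    have ha' : q ^ 2 ^ a = 1 := by simpa using congrArg Subtype.val ha
    obtain ⟨b, -, hb⟩ := (Nat.dvd_prime_pow Nat.prime_two).1
      (show orderOf q ∣ 2 ^ a from orderOf_dvd_of_pow_eq_one ha')
    obtain ⟨c, rfl⟩ : ∃ c, b = c + 1 :=
      ⟨b - 1, (Nat.succ_pred_eq_of_pos (Nat.pos_of_ne_zero fun h0 =>
        hq1 (orderOf_eq_one_iff.1 (by rw [hb, h0, pow_zero])))).symm⟩
    set z := q ^ 2 ^ c with hz
    have hzQ : z ∈ Q := pow_mem hq _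
    have hzo : orderOf z = 2 := by
      have h0 : (2 : ℕ) ^ (c + 1) / Nat.gcd (2 ^ (c + 1)) (2 ^ c) = 2 := by
        rw [Nat.gcd_eq_right (pow_dvd_pow 2 (Nat.le_succ c)), pow_succ,
          Nat.mul_div_cancel_left _ (Nat.two_pow_pos c)]
      rw [hz, orderOf_pow, hb, h0]
    have hzc : z ∈ Subgroup.center X := by
      refine Subgroup.mem_center_iff.2 fun x => ?_
      have h := CfsgLib.ZStar.inZStar_of_iso
        (CfsgLib.ZStar.iso_of_sylow S hzo (hQS hzQ) (hQ z hzQ)) x
      rw [hO, Subgroup.mem_bot, mul_inv_eq_one, mul_inv_eq_iff_eq_mul] at h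
      exact h
    set U := Subgroup.zpowers z with hU
    have hUS : U ≤ (S : Subgroup X) := Subgroup.zpowers_le.2 (hQS hzQ)
    have hUc : ∀ x ∈ U, x ∈ Subgroup.center X := fun x hx => by
      obtain ⟨i, rfl⟩ := hx
      exact zpow_mem hzc i
    haveI hUn : U.Normal := ⟨fun x hx g => by
      rw [Subgroup.mem_center_iff.1 (hUc x hx) g, mul_inv_cancel_right]; exact hx⟩
    set f := QuotientGroup.mk' U with hf
    have hlt : Nat.card (X ⧸ U) < n := by
      rw [← hn, Subgroup.card_eq_card_quotient_mul_card_subgroup U, hU, Nat.card_zpowers, hzo]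
      exact lt_mul_of_one_lt_right Nat.card_pos (by norm_num)
    have hpre : ∀ x : X, f x ∈ (S : Subgroup X).map f → x ∈ (S : Subgroup X) := by
      intro x hx
      obtain ⟨s, hs, he⟩ := hx
      have h1 : s⁻¹ * x ∈ U := QuotientGroup.eq.1 he
      have := mul_mem hs (hUS h1)
      rwa [mul_inv_cancel_left] at this
    have h := IH _ hlt _ (S.mapSurjective (QuotientGroup.mk'_surjective U)) (Q.map f) rfl
      (Subgroup.map_mono hQS) ?_ (f q) ⟨q, hq, rfl⟩ (f g)
    · rw [core_quot_central hO U hUc (S.2.to_le hUS), Subgroup.mem_bot, mul_inv_eq_one,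
        ← map_inv, ← map_mul, ← map_mul] at h
      exact hQ q hq g (hpre _ (by rw [h]; exact ⟨q, hQS hq, rfl⟩))
    · rintro _ ⟨r, hr, rfl⟩ gb hgb
      obtain ⟨x, rfl⟩ := QuotientGroup.mk'_surjective U gb
      rw [← map_inv, ← map_mul, ← map_mul] at hgb ⊢
      rw [hQ r hr x (hpre _ hgb)]

/-- Glauberman's Z*-Theorem in fusion language: for a finite group G with Sylow 2-subgroup S, the centre of the fusion system of G on S is the set of elements of S whose image in G/O(G) is central, O(G) being the largest normal subgroup of odd order. -/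
theorem result {G : Type*} [Group G] [Finite G] (S : Sylow 2 G) : (Cfsg.groupFusionSystem (S : Subgroup G)).center = (S : Subgroup G) ⊓ (Subgroup.center (G ⧸ Cfsg.oddCore G)).comap (QuotientGroup.mk' (Cfsg.oddCore G)) := by
  haveI : Fact (Nat.Prime 2) := ⟨Nat.prime_two⟩
  haveI := CfsgLib.Core.normal_pPrimeCore (G := G) 2
  set O := Cfsg.oddCore G with hOdef
  set f := QuotientGroup.mk' O with hf
  set N := (Subgroup.center (G ⧸ O)).comap f with hN
  haveI hNn : N.Normal := Subgroup.Normal.comap inferInstance _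
  set Z := (S : Subgroup G) ⊓ N with hZ
  apply le_antisymm
  · refine sSup_le fun Q hQ => ?_
    obtain ⟨hQS, hext⟩ := hQ
    have hfix : ∀ q ∈ Q, ∀ g : G, g * q * g⁻¹ ∈ (S : Subgroup G) → g * q * g⁻¹ = q := by
      intro q hq g hg
      have hle : Subgroup.zpowers q ≤ (S : Subgroup G).comap (MulAut.conj g).toMonoidHom :=
        Subgroup.zpowers_le.2 hg
      obtain ⟨ψ, -, hψP, hψQ⟩ := hext (Subgroup.zpowers q) (Cfsg.conjHom _ g)
        ⟨Subgroup.zpowers_le.2 (hQS hq), fun x => hle x.2, g, fun x => rfl⟩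
      have h1 := hψP ⟨q, Subgroup.mem_zpowers q⟩
      have h2 := hψQ ⟨q, hq⟩
      have e : Subgroup.inclusion (le_sup_left : Subgroup.zpowers q ≤ Subgroup.zpowers q ⊔ Q)
          ⟨q, Subgroup.mem_zpowers q⟩ =
          Subgroup.inclusion (le_sup_right : Q ≤ Subgroup.zpowers q ⊔ Q) ⟨q, hq⟩ := Subtype.ext rfl
      rw [e, h2] at h1
      exact h1.symm
    intro q hq
    refine ⟨hQS hq, ?_⟩
    show f q ∈ Subgroup.center (G ⧸ O)
    refine Subgroup.mem_center_iff.2 fun w => ?_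
    obtain ⟨g, rfl⟩ := QuotientGroup.mk'_surjective O w
    have h := inZStar_of_unique _ G S Q rfl hQS hfix q hq g
    have h' : f (g * q * g⁻¹ * q⁻¹) = 1 := (QuotientGroup.eq_one_iff _).2 h
    rw [map_mul, map_mul, map_mul, map_inv, map_inv, mul_inv_eq_one, mul_inv_eq_iff_eq_mul] at h'
    exact h'
  · refine le_sSup ⟨inf_le_left, ?_⟩
    rintro P φ ⟨hPS, hφS, g, hg⟩
    have hcenS : ∀ z ∈ Z, ∀ s ∈ (S : Subgroup G), s * z * s⁻¹ = z := by
      intro z hz s hs
      have h1 : f (s * z * s⁻¹ * z⁻¹) = 1 := by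
        rw [map_mul, map_mul, map_mul, map_inv, map_inv, Subgroup.mem_center_iff.1 hz.2 (f s),
          mul_inv_cancel_right, mul_inv_cancel]
      have h2 : s * z * s⁻¹ * z⁻¹ ∈ O := (QuotientGroup.eq_one_iff _).1 h1
      have h3 : s * z * s⁻¹ * z⁻¹ ∈ (S : Subgroup G) :=
        mul_mem (mul_mem (mul_mem hs hz.1) (inv_mem hs)) (inv_mem hz.1)
      obtain ⟨a, ha⟩ := S.2 ⟨_, h3⟩
      have h4 : orderOf (s * z * s⁻¹ * z⁻¹) ∣ 2 ^ a :=
        orderOf_dvd_of_pow_eq_one (by simpa using congrArg Subtype.val ha)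
      have h5 := (CfsgLib.Core.coprime_card_pPrimeCore (G := G) 2).coprime_dvd_left
        (Subgroup.orderOf_dvd_natCard _ h2)
      exact mul_inv_eq_one.1 (orderOf_eq_one_iff.1
        (Nat.eq_one_of_dvd_coprimes (h5.pow_right a) dvd_rfl h4))
    set C := Subgroup.centralizer (Set.range φ) with hC
    set K := N ⊓ C with hK
    have hZK : Z ≤ K := by
      refine le_inf inf_le_right fun z hz => Subgroup.mem_centralizer_iff.2 ?_
      rintro _ ⟨x, rfl⟩
      exact mul_inv_eq_iff_eq_mul.1 (hcenS z hz _ (hφS x))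
    have hgZ : Z.map (MulAut.conj g).toMonoidHom ≤ K := by
      rintro _ ⟨z, hz, rfl⟩
      refine ⟨hNn.conj_mem z hz.2 g, Subgroup.mem_centralizer_iff.2 ?_⟩
      rintro _ ⟨x, rfl⟩
      have h1 : (x : G) * z = z * (x : G) := mul_inv_eq_iff_eq_mul.1 (hcenS z hz _ (hPS x.2))
      show φ x * (g * z * g⁻¹) = g * z * g⁻¹ * φ x
      rw [hg x, show g * (x : G) * g⁻¹ * (g * z * g⁻¹) = g * ((x : G) * z) * g⁻¹ by group, h1]
      group
    -- `Z` is a Sylow `2`-subgroup of `N`
    have hmax : ∀ R : Subgroup G, IsPGroup 2 R → R ≤ N → Z ≤ R → R = Z := by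
      intro R hR hRN hZR
      obtain ⟨T, hT⟩ := hR.exists_le_sylow
      obtain ⟨k, hk⟩ := MulAction.exists_smul_eq G T S
      have h1 : R.map (MulAut.conj k).toMonoidHom ≤ Z := by
        rintro _ ⟨r, hr, rfl⟩
        refine ⟨?_, hNn.conj_mem r (hRN hr) k⟩
        rw [← hk, Sylow.coe_subgroup_smul]
        exact ⟨r, hT hr, rfl⟩
      refine (Subgroup.eq_of_le_of_card_ge hZR ?_).symm
      exact (Subgroup.card_map_of_injective (MulAut.conj k).injective).ge.trans
        (Subgroup.card_le_of_le h1)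
    have hZp : IsPGroup 2 (Z.subgroupOf K) :=
      IsPGroup.comap_of_injective (S.2.to_le inf_le_left) _ K.subtype_injective
    obtain ⟨T, hT⟩ := hZp.exists_le_sylow
    have hTZ : (T : Subgroup K).map K.subtype = Z :=
      hmax _ (T.2.map _) ((Subgroup.map_subtype_le _).trans inf_le_left) fun z hz =>
        ⟨⟨z, hZK hz⟩, hT hz, rfl⟩
    have hgp : IsPGroup 2 ((Z.map (MulAut.conj g).toMonoidHom).subgroupOf K) :=
      IsPGroup.comap_of_injective ((S.2.to_le inf_le_left).map _) _ K.subtype_injective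
    obtain ⟨T', hT'⟩ := hgp.exists_le_sylow
    obtain ⟨k, hk⟩ := MulAction.exists_smul_eq K T' T
    have hkz : ∀ z ∈ Z, (k : G) * g * z * ((k : G) * g)⁻¹ = z := by
      intro z hz
      have h1 : (k : G) * g * z * ((k : G) * g)⁻¹ ∈ Z := by
        rw [← hTZ, ← hk, Sylow.coe_subgroup_smul]
        have hm : g * z * g⁻¹ ∈ K := hgZ ⟨z, hz, rfl⟩
        refine ⟨k * ⟨g * z * g⁻¹, hm⟩ * k⁻¹, ⟨⟨_, hm⟩, hT' ⟨z, hz, rfl⟩, rfl⟩, ?_⟩
        show (k : G) * (g * z * g⁻¹) * (k : G)⁻¹ = _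
        group
      have h2 : f ((k : G) * g * z * ((k : G) * g)⁻¹ * z⁻¹) = 1 := by
        have e : f ((k : G) * g) * f z = f z * f ((k : G) * g) :=
          Subgroup.mem_center_iff.1 hz.2 _
        rw [map_mul, map_mul, map_mul _ ((k : G) * g) z, map_inv, map_inv, e, mul_inv_cancel_right,
          mul_inv_cancel]
      obtain ⟨a, ha⟩ := S.2 ⟨_, mul_mem h1.1 (inv_mem hz.1)⟩
      have h4 : orderOf ((k : G) * g * z * ((k : G) * g)⁻¹ * z⁻¹) ∣ 2 ^ a :=
        orderOf_dvd_of_pow_eq_one (by simpa using congrArg Subtype.val ha)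
      have h5 := (CfsgLib.Core.coprime_card_pPrimeCore (G := G) 2).coprime_dvd_left
        (Subgroup.orderOf_dvd_natCard _ ((QuotientGroup.eq_one_iff _).1 h2))
      exact mul_inv_eq_one.1 (orderOf_eq_one_iff.1
        (Nat.eq_one_of_dvd_coprimes (h5.pow_right a) dvd_rfl h4))
    have hkx : ∀ x : P, (k : G) * g * (x : G) * ((k : G) * g)⁻¹ = φ x := by
      intro x
      have h1 : φ x * (k : G) = (k : G) * φ x :=
        Subgroup.mem_centralizer_iff.1 k.2.2 (φ x) ⟨x, rfl⟩
      rw [show (k : G) * g * (x : G) * ((k : G) * g)⁻¹ = (k : G) * (g * x * g⁻¹) * (k : G)⁻¹ by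
        group, ← hg x, ← h1, mul_inv_cancel_right]
    have hin : P ⊔ Z ≤ (S : Subgroup G).comap (MulAut.conj ((k : G) * g)).toMonoidHom := by
      refine sup_le (fun x hx => ?_) (fun z hz => ?_)
      · show (k : G) * g * x * ((k : G) * g)⁻¹ ∈ (S : Subgroup G)
        rw [hkx ⟨x, hx⟩]; exact hφS _
      · show (k : G) * g * z * ((k : G) * g)⁻¹ ∈ (S : Subgroup G)
        rw [hkz z hz]; exact hz.1
    exact ⟨Cfsg.conjHom _ ((k : G) * g),
      ⟨sup_le hPS inf_le_left, fun x => hin x.2, (k : G) * g, fun x => rfl⟩,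
      hkx, fun z => hkz _ z.2⟩

end Cfsg.Agent.S5094
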