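import Cfsg.Statements.S5102
import Cfsg.Agent.Lib.FusionGroup
import Cfsg.Agent.Lib.FusionNormal

set_option autoImplicit false
open Cfsg

namespace Cfsg.Agent.S5102

/-- A normal p-subgroup of a finite group G is normal in the fusion system of G on a Sylow p-subgroup. -/
theorem result {G : Type*} [Group G] [Finite G] (p : ℕ) [Fact p.Prime] (S : Sylow p G) (R : Subgroup G) [R.Normal] (hR : IsPGroup p R) : (Cfsg.groupFusionSystem (S : Subgroup G)).IsNormal R := by
  open CfsgLib.Fusion in
  have hRS : R ≤ (S : Subgroup G) := by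
    obtain ⟨T, hT⟩ := hR.exists_le_sylow
    obtain ⟨g, rfl⟩ := MulAction.exists_smul_eq G T S
    intro x hx
    rw [Sylow.coe_subgroup_smul]
    exact ⟨g⁻¹ * x * g, hT (by simpa using Subgroup.Normal.conj_mem inferInstance x hx g⁻¹),
      by simp [mul_assoc]⟩
  refine isNormal_iff.mpr ⟨hRS, fun P f hf => ?_⟩
  obtain ⟨hP, hfS, g, hg⟩ := groupFusion_map_iff.mp hf
  refine ⟨fun x => g * x * g⁻¹, groupFusion_map_iff.mpr ⟨sup_le hP hRS, fun x hx => ?_, g, fun _ _ => rfl⟩,
    fun x hx => (hg x hx).symm, ?_⟩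
  · have hle : P ⊔ R ≤ (S : Subgroup G).comap (MulAut.conj g).toMonoidHom :=
      sup_le (fun y hy => by show g * y * g⁻¹ ∈ (S : Subgroup G); exact hg y hy ▸ hfS y hy)
        (fun y hy => hRS (Subgroup.Normal.conj_mem inferInstance y hy g))
    exact hle hx
  · refine le_antisymm (img_le_iff.mpr fun y hy => Subgroup.Normal.conj_mem inferInstance y hy g) ?_
    intro y hy
    have := mem_img_of_mem (fun x => g * x * g⁻¹)
      (Subgroup.Normal.conj_mem (inferInstance : R.Normal) y hy g⁻¹)
    simpa [mul_assoc] using this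

end Cfsg.Agent.S5102
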