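import Cfsg.Statements.S5106
import Cfsg.Agent.Lib.FusionSeries

set_option autoImplicit false
open Cfsg

namespace Cfsg.Agent.S5106

/-- In a saturated fusion system over a finite p-group S, a subgroup R ≤ S is normal in the system if and only if every map of the system whose source is a subgroup of R is the restriction of an element of Aut_F(R). -/
theorem result {Ω : Type*} [Group Ω] {S : Subgroup Ω} [Finite S] (p : ℕ) [Fact p.Prime] (hS : IsPGroup p S) (F : Cfsg.FusionSystem S) (hF : F.IsSaturated p) (R : Subgroup Ω) (hRS : R ≤ S) : F.IsNormal R ↔ ∀ (P : Subgroup Ω) (hPR : P ≤ R) (φ : P →* Ω), φ ∈ F.Hom P → ∃ α ∈ F.autGroup R, ∀ x : P, ((α (Subgroup.inclusion hPR x) : R) : Ω) = φ x := by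
  constructor
  · intro hR P hPR φ hφ
    obtain ⟨α, hα, he⟩ := CfsgLib.Fusion.IsNormal.exists_aut hR P _ hPR
      (CfsgLib.Fusion.map_ext hφ)
    refine ⟨α, hα, fun x => ?_⟩
    have h1 := he x x.2
    rw [CfsgLib.Fusion.autFun_apply α (hPR x.2), CfsgLib.Fusion.ext_coe] at h1
    exact h1
  · intro h
    have h' : ∀ (P : Subgroup Ω) (f : Ω → Ω), P ≤ R → CfsgLib.Fusion.Map F P f →
        ∃ α ∈ F.autGroup R, ∀ x ∈ P, CfsgLib.Fusion.autFun α x = f x := by
      rintro P f hP ⟨φ, hφ, he⟩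
      obtain ⟨α, hα, hx⟩ := h P hP φ hφ
      refine ⟨α, hα, fun x hxP => ?_⟩
      rw [CfsgLib.Fusion.autFun_apply α (hP hxP)]
      exact (hx ⟨x, hxP⟩).trans (he _)
    obtain ⟨n, C, h0, hl, hm, hsc, hc⟩ := CfsgLib.Fusion.exists_series hS hRS h'
    exact CfsgLib.Fusion.isNormal_of_series hS hF n C h0 hl hm hsc hc

end Cfsg.Agent.S5106
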