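import Cfsg.Statements.S5107
import Cfsg.Agent.Lib.FusionSeries
import Cfsg.Agent.Lib.FusionGroup

set_option autoImplicit false
open Cfsg

namespace Cfsg.Agent.S5107

/-- If a Sylow p-subgroup S of a finite group G has nilpotency class at most two and its centre is strongly closed in S with respect to G, then every map of the fusion system of G on S is conjugation by an element of N_G(S), and S is the largest subgroup normal in that fusion system. -/
theorem result {G : Type*} [Group G] [Finite G] (p : ℕ) [Fact p.Prime] (S : Sylow p G) (hcl : ⁅(S : Subgroup G), (S : Subgroup G)⁆ ≤ (S : Subgroup G) ⊓ Subgroup.centralizer ((S : Subgroup G) : Set G)) (hZ : Cfsg.IsStronglyClosed ((S : Subgroup G) ⊓ Subgroup.centralizer ((S : Subgroup G) : Set G)) (S : Subgroup G)) : (∀ (P : Subgroup G) (φ : P →* G), φ ∈ (Cfsg.groupFusionSystem (S : Subgroup G)).Hom P → ∃ g ∈ Subgroup.normalizer ((S : Subgroup G) : Set G), ∀ x : P, φ x = g * (x : G) * g⁻¹) ∧ (Cfsg.groupFusionSystem (S : Subgroup G)).core = S :=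 by
  let T : Subgroup G := S
  let Z : Subgroup G := T ⊓ Subgroup.centralizer (T : Set G)
  have hF := CfsgLib.Fusion.groupFusion_saturated S
  have hS : IsPGroup p T := S.2
  have hscT : (Cfsg.groupFusionSystem T).StronglyClosed T :=
    CfsgLib.Fusion.stronglyClosed_iff.mpr ⟨le_rfl, fun R f _ hf x hx => hf.apply_mem hx⟩
  have hscZ : (Cfsg.groupFusionSystem T).StronglyClosed Z := by
    refine CfsgLib.Fusion.stronglyClosed_iff.mpr ⟨inf_le_left, fun R f hR hf x hx => ?_⟩
    obtain ⟨-, hfS, g, hg⟩ := CfsgLib.Fusion.groupFusion_map_iff.mp hf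
    rw [hg x hx]
    exact hZ.2 x (hR hx) g (hg x hx ▸ hfS x hx)
  have hN : (Cfsg.groupFusionSystem T).IsNormal T := by
    refine CfsgLib.Fusion.isNormal_of_series hS hF 2 ![⊥, Z, T] rfl rfl ?_ ?_ ?_
    · refine Fin.monotone_iff_le_succ.mpr fun i => ?_
      fin_cases i
      · exact bot_le
      · exact inf_le_left
    · intro i
      fin_cases i
      · exact CfsgLib.Fusion.isNormal_stronglyClosed (CfsgLib.Fusion.isNormal_bot _)
      · exact hscZ
      · exact hscT
    · intro i
      fin_cases i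
      · show ⁅T, Z⁆ ≤ ⊥
        refine (Subgroup.commutator_eq_bot_iff_le_centralizer.mpr fun a ha b hb => ?_).le
        exact (hb.2 a ha).symm
      · exact hcl
  refine ⟨fun P φ hφ => ?_,
    le_antisymm (CfsgLib.Fusion.isNormal_iff.mp (CfsgLib.Fusion.isNormal_core _)).1 (le_sSup hN)⟩
  have hm := CfsgLib.Fusion.map_ext hφ
  obtain ⟨k, hk, hkf, hkT⟩ := (CfsgLib.Fusion.isNormal_iff.mp hN).2 P _ hm
  obtain ⟨-, hkS, g, hg⟩ := CfsgLib.Fusion.groupFusion_map_iff.mp hk
  refine ⟨g, ?_, fun x => ?_⟩
  · have : Finite T := inferInstance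
    refine CfsgLib.Fusion.mem_normalizer_of_conj_mem fun x hx => ?_
    rw [← hg x (Subgroup.mem_sup_right hx)]
    exact hkS x (Subgroup.mem_sup_right hx)
  · rw [← CfsgLib.Fusion.ext_coe φ x, ← hkf x x.2, hg x (Subgroup.mem_sup_left x.2)]

end Cfsg.Agent.S5107
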