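import Cfsg.Statements.S5160
import Cfsg.Agent.Lib.FusionSimple

set_option autoImplicit false
open Cfsg

namespace Cfsg.Agent.S5160

/-- Let G be a finite group with nontrivial Sylow p-subgroup S and F its fusion system on S. Suppose (a) no nontrivial proper subgroup of S is strongly closed in F, and (b) the automorphisms of S induced by G are generated by those induced, for R running over the fully normalized radical centric subgroups of F, by the subgroup of N_G(R) generated by its elements of p-power order. Then F is simple. -/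
theorem result {G : Type*} [Group G] [Finite G] (p : ℕ) [Fact p.Prime] (S : Sylow p G) (hS1 : (S : Subgroup G) ≠ ⊥) (ha : ∀ T : Subgroup G, (Cfsg.groupFusionSystem (S : Subgroup G)).StronglyClosed T → T = ⊥ ∨ T = (S : Subgroup G)) (hb : Cfsg.autInducedBy ⊤ (S : Subgroup G) = ⨆ (R : Subgroup G) (_ : (Cfsg.groupFusionSystem (S : Subgroup G)).IsFullyNormalized R ∧ (Cfsg.groupFusionSystem (S : Subgroup G)).IsRadical p R ∧ (Cfsg.groupFusionSystem (S : Subgroup G)).IsCentric R), Cfsg.autInducedBy (Subgroup.closure {g : G | g ∈ Subgroup.normalizer (R : Set G) ∧ ∃ k : ℕ, orderOf g = p ^ k}) (S : Subgroup G)) : (Cfsg.groupFusionSystem (S : Subgroup G)).IsSimple p := by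
  have hS : IsPGroup p (S : Subgroup G) := S.2
  have hF := CfsgLib.Fusion.groupFusion_saturated S
  set F := Cfsg.groupFusionSystem (S : Subgroup G) with hFdef
  refine CfsgLib.Fusion.isSimple_of_stronglyClosed hF hS1 ha fun E hE => ?_
  have hle : E ≤ F := hE.2.2.1
  have hn : ∀ P, F.IsFullyNormalized P → CfsgLib.Fusion.AutNormal F E P :=
    fun P hP => CfsgLib.Fusion.autNormal_of_invariant hE.2.2 hP.1
  refine CfsgLib.Fusion.eq_of_autNormal hS hF hle hn
    (le_antisymm (CfsgLib.Fusion.autGroup_mono hle le_rfl) fun α hα => ?_)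
  have h1 : α ∈ Cfsg.autInducedBy ⊤ (S : Subgroup G) := by
    obtain ⟨-, -, g, hg⟩ := CfsgLib.Fusion.groupFusion_map_iff.mp
      ((CfsgLib.Fusion.mem_autGroup_iff le_rfl).mp hα)
    refine CfsgLib.Fusion.mem_autInducedBy_iff.mpr ⟨g, trivial,
      CfsgLib.Fusion.mem_normalizer_of_conj_mem fun x hx => ?_, hg⟩
    rw [← hg x hx]
    exact CfsgLib.Fusion.autFun_mem α hx
  rw [hb] at h1
  refine (iSup₂_le fun R hR => ?_ : _ ≤ E.autGroup (S : Subgroup G)) h1
  obtain ⟨hRn, -, hRc⟩ := hR
  have hRS := hRn.1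
  intro β hβ
  obtain ⟨g, hg, hgS, hge⟩ := CfsgLib.Fusion.mem_autInducedBy_iff.mp hβ
  have key : ∀ g ∈ Subgroup.closure {g : G | g ∈ Subgroup.normalizer (R : Set G) ∧
      ∃ k : ℕ, orderOf g = p ^ k},
      ∃ hg : g ∈ Subgroup.normalizer (R : Set G), CfsgLib.Fusion.conjAut R ⟨g, hg⟩ ∈ E.autGroup R := by
    intro g hg
    induction hg using Subgroup.closure_induction with
    | mem g hg =>
      obtain ⟨hgn, k, hk⟩ := hg
      refine ⟨hgn, CfsgLib.Fusion.autGroup_pElement hS hF hRn (hn R hRn) ?_ (k := k) ?_⟩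
      · refine (CfsgLib.Fusion.mem_autGroup_iff hRS).mpr (CfsgLib.Fusion.groupFusion_map_iff.mpr
          ⟨hRS, fun x hx => hRS (CfsgLib.Fusion.autFun_mem _ hx), g, fun x hx => ?_⟩)
        rw [CfsgLib.Fusion.autFun_apply _ hx, CfsgLib.Fusion.conjAut_apply]
      · rw [← map_pow, show (⟨g, hgn⟩ : ↥(Subgroup.normalizer (R : Set G))) ^ p ^ k = 1 from
          Subtype.ext (by rw [Subgroup.coe_pow, ← hk]; exact pow_orderOf_eq_one g), map_one]
    | one => exact ⟨one_mem _, by
        rw [show (⟨1, one_mem _⟩ : ↥(Subgroup.normalizer (R : Set G))) = 1 from rfl, map_one]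
        exact one_mem _⟩
    | mul a b _ _ ha hb =>
      obtain ⟨ha, ha'⟩ := ha
      obtain ⟨hb, hb'⟩ := hb
      exact ⟨mul_mem ha hb, by
        rw [show (⟨a * b, mul_mem ha hb⟩ : ↥(Subgroup.normalizer (R : Set G))) = ⟨a, ha⟩ * ⟨b, hb⟩
          from rfl, map_mul]
        exact mul_mem ha' hb'⟩
    | inv a _ ha =>
      obtain ⟨ha, ha'⟩ := ha
      exact ⟨inv_mem ha, by
        rw [show (⟨a⁻¹, inv_mem ha⟩ : ↥(Subgroup.normalizer (R : Set G))) = ⟨a, ha⟩⁻¹ from rfl,
          map_inv]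
        exact inv_mem ha'⟩
  obtain ⟨hgR, hgE⟩ := key g hg
  have climb : ∀ (n : ℕ) (P : Subgroup G), Nat.card (S : Subgroup G) - Nat.card P = n → R ≤ P →
      P ≤ (S : Subgroup G) → g ∈ Subgroup.normalizer (P : Set G) →
      CfsgLib.Fusion.Map E P (fun x => g * x * g⁻¹) →
      CfsgLib.Fusion.Map E (S : Subgroup G) (fun x => g * x * g⁻¹) := by
    intro n
    induction n using Nat.strong_induction_on with
    | _ n ih =>
    intro P hn' hRP hPS hgP hm
    rcases eq_or_lt_of_le hPS with rfl | hlt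
    · exact hm
    have hPc : F.IsCentric P := CfsgLib.Fusion.isCentric_mono hRc hRP hPS
    have hrec := CfsgLib.Fusion.isReceptive_of_isCentric hS hE.1
      (CfsgLib.Fusion.isCentric_of_le hle hPc)
    have himg : CfsgLib.Fusion.img (fun x => g * x * g⁻¹) P = P := by
      refine le_antisymm (CfsgLib.Fusion.img_le_iff.mpr fun x hx =>
        CfsgLib.Fusion.conj_mem_of_mem_normalizer hgP hx) fun x hx => ?_
      have := CfsgLib.Fusion.mem_img_of_mem (fun x => g * x * g⁻¹)
        (CfsgLib.Fusion.conj_inv_mem_of_mem_normalizer hgP hx)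
      simpa [mul_assoc] using this
    set N := Cfsg.FusionSystem.normalizerIn (S : Subgroup G) P with hN
    obtain ⟨k, hk, hke⟩ := CfsgLib.Fusion.receptive_extend hrec hm himg (R := N)
      (CfsgLib.Fusion.le_normalizerIn hPS) fun u hu =>
        ⟨hu.1, hu.2, g * u * g⁻¹, CfsgLib.Fusion.conj_mem_of_mem_normalizer hgS hu.1,
          fun x _ => by group⟩
    have hgN : g ∈ Subgroup.normalizer (N : Set G) := by
      refine CfsgLib.Fusion.mem_normalizer_of_conj_mem fun u hu =>
        ⟨CfsgLib.Fusion.conj_mem_of_mem_normalizer hgS hu.1, ?_⟩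
      exact (Subgroup.normalizer (P : Set G)).mul_mem ((Subgroup.normalizer (P : Set G)).mul_mem hgP hu.2)
        ((Subgroup.normalizer (P : Set G)).inv_mem hgP)
    have hgF : CfsgLib.Fusion.Map F N (fun x => g * x * g⁻¹) :=
      CfsgLib.Fusion.groupFusion_map_iff.mpr ⟨inf_le_left,
        fun x hx => CfsgLib.Fusion.conj_mem_of_mem_normalizer hgS hx.1, g, fun _ _ => rfl⟩
    obtain ⟨z, hz, -, hze⟩ := CfsgLib.Fusion.agree_on_centric hS hF
      (CfsgLib.Fusion.le_normalizerIn hPS) hPc (CfsgLib.Fusion.fusion_le_iff.mp hle _ _ hk) hgF hke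
    have hlt' := CfsgLib.Fusion.lt_normalizerIn hS hlt
    have hc1 : Nat.card P < Nat.card N :=
      CfsgLib.Fusion.card_lt_of_lt (CfsgLib.Fusion.normalizerIn_le _ _) hlt'
    have hc2 : Nat.card N ≤ Nat.card (S : Subgroup G) :=
      Subgroup.card_le_of_le (CfsgLib.Fusion.normalizerIn_le _ _)
    refine ih _ (by omega) N rfl (hRP.trans hlt'.le) (CfsgLib.Fusion.normalizerIn_le _ _) hgN ?_
    have hzN : z ∈ N := hlt'.le hz
    exact (((CfsgLib.Fusion.map_conj (CfsgLib.Fusion.normalizerIn_le _ _) (hPS hz)).comp hk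
      fun u hu => N.mul_mem (N.mul_mem hzN hu) (N.inv_mem hzN)).congr fun u hu => (hze u hu).symm)
  have hgm : CfsgLib.Fusion.Map E R (fun x => g * x * g⁻¹) :=
    ((CfsgLib.Fusion.mem_autGroup_iff hRS).mp hgE).congr fun x hx => by
      rw [CfsgLib.Fusion.autFun_apply _ hx, CfsgLib.Fusion.conjAut_apply]
  exact (CfsgLib.Fusion.mem_autGroup_iff le_rfl).mpr
    ((climb _ R rfl le_rfl hRS hgR hgm).congr fun x hx => (hge x hx).symm)

end Cfsg.Agent.S5160
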