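import Cfsg.Statements.S5345
import Cfsg.Agent.Lib.SporTriangle

set_option autoImplicit false
open Cfsg

namespace Cfsg.Agent.S5345

/-- Let D be a conjugation-invariant generating set of 3-transpositions of a finite group G and T a Sylow 2-subgroup of G. Then the members of D lying in T generate an abelian subgroup, and their number is the width of D (the largest number of pairwise commuting members of D). -/
theorem result {G : Type*} [Group G] [Finite G] {D : Set G} (hD : Cfsg.IsThreeTranspositionGroup D) (T : Sylow 2 G) : IsMulCommutative (Subgroup.closure {d : G | d ∈ D ∧ d ∈ T}) ∧ {d : G | d ∈ D ∧ d ∈ T}.ncard = Cfsg.commutingWidth D := by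
  obtain ⟨hS, hconj, -⟩ := hD
  have hc := CfsgLib.Spor.Trans.commuting_trace hS hconj T.isPGroup'
  refine ⟨Subgroup.isMulCommutative_closure fun x hx y hy => (hc x hx y hy).eq, ?_⟩
  have hmem : {d : G | d ∈ D ∧ d ∈ T}.ncard ∈
      {n : ℕ | ∃ E : Set G, E ⊆ D ∧ E.Finite ∧ (∀ a ∈ E, ∀ b ∈ E, Commute a b) ∧ E.ncard = n} :=
    ⟨_, fun x hx => hx.1, Set.toFinite _, hc, rfl⟩
  have hub : ∀ n ∈ {n : ℕ | ∃ E : Set G, E ⊆ D ∧ E.Finite ∧ (∀ a ∈ E, ∀ b ∈ E, Commute a b) ∧ E.ncard = n},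
      n ≤ {d : G | d ∈ D ∧ d ∈ T}.ncard := by
    rintro n ⟨E, hE, -, hEc, rfl⟩
    exact CfsgLib.Spor.Trans.trace_ncard hS hconj T hE hEc
  exact le_antisymm (le_csSup ⟨_, hub⟩ hmem) (csSup_le ⟨_, hmem⟩ hub)

end Cfsg.Agent.S5345
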