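import Cfsg.Statements.S5346
import Cfsg.Agent.Lib.SporFischerCores

set_option autoImplicit false
open Cfsg

namespace Cfsg.Agent.S5346

/-- Let D be a conjugation-invariant generating set of 3-transpositions of a finite group G and d a member of D. Then D has width 1 (no two different members of D commute) if and only if G is the product of the subgroup generated by d with the largest normal 3-subgroup of G. -/
theorem result {G : Type*} [Group G] [Finite G] {D : Set G} (hD : Cfsg.IsThreeTranspositionGroup D) {d : G} (hd : d ∈ D) : Cfsg.commutingWidth D = 1 ↔ Subgroup.zpowers d ⊔ Cfsg.pCore 3 G = ⊤ := by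
  obtain ⟨hS, hconj, hgen⟩ := hD
  have hset : ∀ n ∈ {n : ℕ | ∃ E : Set G, E ⊆ D ∧ E.Finite ∧ (∀ a ∈ E, ∀ b ∈ E, Commute a b) ∧ E.ncard = n},
      n ≤ Nat.card G := by
    rintro n ⟨E, -, -, -, rfl⟩
    calc E.ncard ≤ (Set.univ : Set G).ncard := Set.ncard_le_ncard (Set.subset_univ _)
      _ = Nat.card G := Set.ncard_univ G
  have hw : Cfsg.commutingWidth D = 1 ↔ ∀ x ∈ D, ∀ y ∈ D, Commute x y → x = y := by
    constructor
    · intro h x hx y hy hc
      by_contra hne
      have : (2 : ℕ) ≤ Cfsg.commutingWidth D := le_csSup ⟨_, hset⟩ ⟨{x, y}, Set.insert_subset hx (Set.singleton_subset_iff.2 hy),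
        Set.toFinite _, by rintro a (rfl | rfl) b (rfl | rfl) <;> first | exact Commute.refl _ | exact hc | exact hc.symm,
        Set.ncard_pair hne⟩
      omega
    · intro h
      refine le_antisymm (csSup_le ⟨1, {d}, Set.singleton_subset_iff.2 hd, Set.toFinite _,
        by rintro a rfl b rfl; exact Commute.refl _, Set.ncard_singleton d⟩ ?_) (le_csSup ⟨_, hset⟩ ⟨{d},
        Set.singleton_subset_iff.2 hd, Set.toFinite _, by rintro a rfl b rfl; exact Commute.refl _, Set.ncard_singleton d⟩)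
      rintro n ⟨E, hE, -, hEc, rfl⟩
      rcases E.eq_empty_or_nonempty with rfl | ⟨a, ha⟩
      · simp
      · exact (Set.ncard_le_one (Set.toFinite _)).2 fun p hp q hq => h p (hE hp) q (hE hq) (hEc p hp q hq)
  rw [hw]
  haveI : Fact (Nat.Prime 3) := ⟨Nat.prime_three⟩
  haveI := CfsgLib.Core.normal_pCore (G := G) 3
  constructor
  · intro h
    have hnc : ∀ x ∈ D, ∀ y ∈ D, x ≠ y → ¬ Commute x y := fun x hx y hy hne hc => hne (h x hx y hy hc)
    have hP := CfsgLib.Spor.Fischer.isPGroup_products hS (subset_refl D) hd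
      (fun x _ y hy => hconj x y hy) hnc
    have hn : (Subgroup.closure {z : G | ∃ x ∈ D, ∃ y ∈ D, z = x * y}).Normal := by
      refine ⟨fun n hn g => ?_⟩
      have hm : (Subgroup.closure {z : G | ∃ x ∈ D, ∃ y ∈ D, z = x * y}).map (MulAut.conj g).toMonoidHom ≤
          Subgroup.closure {z : G | ∃ x ∈ D, ∃ y ∈ D, z = x * y} := by
        rw [MonoidHom.map_closure, Subgroup.closure_le]
        rintro _ ⟨_, ⟨x, hx, y, hy, rfl⟩, rfl⟩
        exact Subgroup.subset_closure ⟨_, hconj g x hx, _, hconj g y hy, by simp [mul_assoc]⟩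
      exact hm ⟨n, hn, rfl⟩
    rw [eq_top_iff, ← hgen, Subgroup.closure_le]
    intro x hx
    have h1 : d * x ∈ Cfsg.pCore 3 G :=
      CfsgLib.Core.le_pCore hn hP (Subgroup.subset_closure ⟨d, hd, x, hx, rfl⟩)
    rw [show x = d * (d * x) by rw [← mul_assoc, CfsgLib.Spor.Trans.mul_self hS hd, one_mul]]
    exact Subgroup.mul_mem_sup (Subgroup.mem_zpowers d) h1
  · intro h x hx y hy hc
    let π := QuotientGroup.mk' (Cfsg.pCore 3 G)
    have hodd : ∀ u ∈ Cfsg.pCore 3 G, u * u = 1 → u = 1 := fun u hu h2 => by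
      obtain ⟨k, hk⟩ := CfsgLib.Core.isPGroup_pCore (G := G) 3 ⟨u, hu⟩
      have hk' : u ^ (3 ^ k) = 1 := congrArg Subtype.val hk
      have := pow_gcd_eq_one.2 ⟨hk', (pow_two u).trans h2⟩
      rwa [Nat.Coprime.gcd_eq_one (Nat.Coprime.pow_left k (by norm_num)), pow_one] at this
    have hπ : ∀ z ∈ D, π z = π d := by
      intro z hz
      have hm : z ∈ ((Subgroup.zpowers d ⊔ Cfsg.pCore 3 G : Subgroup G) : Set G) := h ▸ Subgroup.mem_top z
      rw [Subgroup.mul_normal] at hm
      obtain ⟨_, ⟨k, rfl⟩, q, hq, rfl⟩ := hm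
      have hd2 : π d * π d = 1 := by rw [← map_mul, CfsgLib.Spor.Trans.mul_self hS hd, map_one]
      have hq1 : π q = 1 := (QuotientGroup.eq_one_iff q).2 hq
      show π (d ^ k * q) = π d
      rw [map_mul, map_zpow, hq1, mul_one]
      rcases Int.even_or_odd k with ⟨j, rfl⟩ | ⟨j, rfl⟩
      · exfalso
        have hz2 := CfsgLib.Spor.Trans.mul_self hS hz
        have h0 : π (d ^ (j + j) * q) = 1 := by
          rw [map_mul, map_zpow, hq1, mul_one, ← two_mul, zpow_mul, zpow_two, hd2, one_zpow]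
        have h1 := hodd _ ((QuotientGroup.eq_one_iff _).1 h0) hz2
        have h2 := hS.1 _ hz
        simp only at h2
        rw [h1, orderOf_one] at h2
        exact absurd h2 (by norm_num)
      · rw [zpow_add, zpow_mul, zpow_two, hd2, one_zpow, one_mul, zpow_one]
    have h1 : x * y ∈ Cfsg.pCore 3 G := by
      rw [← QuotientGroup.eq_one_iff]
      show π (x * y) = 1
      rw [map_mul, hπ x hx, hπ y hy, ← map_mul, CfsgLib.Spor.Trans.mul_self hS hd, map_one]
    have h2 := hodd _ h1 (by rw [← pow_two]; exact (CfsgLib.Spor.Trans.commute_iff hS hx hy).1 hc)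
    rw [eq_inv_of_mul_eq_one_left h2, CfsgLib.Spor.Trans.inv_eq hS hy]

end Cfsg.Agent.S5346
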