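import Cfsg.Statements.S5350
import Cfsg.Agent.Lib.SporFischerCores

set_option autoImplicit false
open Cfsg

namespace Cfsg.Agent.S5350

/-- Let D be a conjugacy class of 3-transpositions generating the finite group G, with at least two members, and d a member of D. Then the set of members w of D whose commuting partners in D (other than w) are exactly those of d (other than d) coincides with the set of members of D lying in the coset of d modulo the largest normal 3-subgroup of G, and also with the orbit of d under conjugation by that normal 3-subgroup. -/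
theorem result {G : Type*} [Group G] [Finite G] {D : Set G} (hD : Cfsg.IsThreeTranspositionClass D) (hD2 : ∃ a ∈ D, ∃ b ∈ D, a ≠ b) {d : G} (hd : d ∈ D) : {w : G | w ∈ D ∧ {y : G | y ∈ D ∧ y ≠ d ∧ Commute d y} = {y : G | y ∈ D ∧ y ≠ w ∧ Commute w y}} = {w : G | w ∈ D ∧ d⁻¹ * w ∈ Cfsg.pCore 3 G} ∧ {w : G | w ∈ D ∧ {y : G | y ∈ D ∧ y ≠ d ∧ Commute d y} = {y : G | y ∈ D ∧ y ≠ w ∧ Commute w y}} = {w : G | ∃ g ∈ Cfsg.pCore 3 G, w = g * d * g⁻¹} := by
  have key : ∀ w : G, {y : G | y ∈ D ∧ y ≠ d ∧ Commute d y} = {y : G | y ∈ D ∧ y ≠ w ∧ Commute w y} ↔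
      CfsgLib.Spor.Fischer.WRel D d w := by
    intro w
    constructor
    · intro h y hy
      exact ⟨fun h' => ((Set.ext_iff.1 h y).1 ⟨hy, h'⟩).2, fun h' => ((Set.ext_iff.1 h y).2 ⟨hy, h'⟩).2⟩
    · intro h
      ext y
      exact ⟨fun h' => ⟨h'.1, (h y h'.1).1 h'.2⟩, fun h' => ⟨h'.1, (h y h'.1).2 h'.2⟩⟩
  constructor <;> ext w <;> constructor
  · rintro ⟨hw, h⟩
    exact ⟨hw, (CfsgLib.Spor.Fischer.wrel_iff hD hD2 hd hw).1 ((key w).1 h)⟩
  · rintro ⟨hw, h⟩
    exact ⟨hw, (key w).2 ((CfsgLib.Spor.Fischer.wrel_iff hD hD2 hd hw).2 h)⟩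
  · rintro ⟨hw, h⟩
    exact CfsgLib.Spor.Fischer.wrel_exists_conj hD hD2 hd hw ((key w).1 h)
  · rintro ⟨g, hg, rfl⟩
    exact ⟨CfsgLib.Spor.Fischer.conj_mem hD g hd, (key _).2 (CfsgLib.Spor.Fischer.wrel_of_conj hD hD2 hd hg)⟩

end Cfsg.Agent.S5350
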