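import Cfsg.Statements.S5354
import Cfsg.Agent.Lib.SporFischerCores

set_option autoImplicit false
open Cfsg

namespace Cfsg.Agent.S5354

/-- Let D be a conjugation-invariant generating set of 3-transpositions of the finite group G on which G acts primitively by conjugation, and suppose two different members of D commute (width at least 2). Then G has a quasisimple normal subgroup L of index at most 2 with the generalized Fitting subgroup of G equal to L times the centre, the commuting graph of D is connected, and for d in D the subgroup generated by the members of D commuting with d is a maximal D-subgroup: it is proper, and every subgroup generated by members of D that contains it is either it or G. -/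
theorem result {G : Type*} [Group G] [Finite G] {D : Set G} (hD : Cfsg.IsThreeTranspositionGroup D) (hprim : Cfsg.IsPrimitiveUnderConj D) (hw : ∃ a ∈ D, ∃ b ∈ D, a ≠ b ∧ Commute a b) : (∃ L : Subgroup G, L.Normal ∧ Cfsg.IsQuasisimple L ∧ L.index ≤ 2 ∧ Cfsg.generalizedFittingSubgroup G = L ⊔ Subgroup.center G) ∧ (Cfsg.commutingGraph D).Connected ∧ ∀ d ∈ D, Subgroup.closure {y : G | y ∈ D ∧ Commute d y} ≠ ⊤ ∧ ∀ H : Subgroup G, Cfsg.IsDSubgroup D H → Subgroup.closure {y : G | y ∈ D ∧ Commute d y} ≤ H → H = Subgroup.closure {y : G | y ∈ D ∧ Commute d y} ∨ H = ⊤ := by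
  obtain ⟨hS, hconj, hgen⟩ := hD
  obtain ⟨a, ha, b, hb, hab, hc⟩ := hw
  have hC : Cfsg.IsThreeTranspositionClass D := by
    refine ⟨hS, ⟨a, ha, ?_⟩, hgen⟩
    ext x
    constructor
    · intro hx
      exact isConj_iff.2 (hprim.1 a ha x hx)
    · intro hx
      obtain ⟨g, rfl⟩ := isConj_iff.1 hx
      exact hconj g a ha
  have hD2 : ∃ a ∈ D, ∃ b ∈ D, a ≠ b := ⟨a, ha, b, hb, hab⟩
  have hw : ∃ a ∈ D, ∃ b ∈ D, a ≠ b ∧ Commute a b := ⟨a, ha, b, hb, hab, hc⟩
  obtain ⟨h2, h3⟩ := CfsgLib.Spor.Fischer.cores_central_of_primitive hC hD2 hprim hw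
  obtain ⟨L, hL, hq, hF⟩ := CfsgLib.Spor.Fischer.exists_component hC hD2 h2 h3
  haveI := hL
  have hconn := CfsgLib.Spor.Fischer.connected_of_primitive hC hprim hw
  have hi := CfsgLib.Spor.Fischer.index_le_two_of_connected hC hD2 hq hconn
  exact ⟨⟨L, hL, hq, hi, hF⟩, hconn, fun d hd => CfsgLib.Spor.Fischer.maximal_perp hC hD2
    (CfsgLib.Spor.Fischer.fine_of_component hC hD2 hq hF hi h2 h3) hconn hd⟩

end Cfsg.Agent.S5354
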