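import Cfsg.Statements.S5355
import Cfsg.Agent.Lib.SporFischerCores
import Cfsg.Agent.Lib.SporTriangle

set_option autoImplicit false
open Cfsg

namespace Cfsg.Agent.S5355

/-- Let D be a conjugacy class of 3-transpositions generating the finite group G, with at least two members, and d a member of D. Suppose that every member of D commuting with d commutes with exactly the same members of D as d does, and that exactly one member of D other than d commutes with d. Then G is isomorphic to the symmetric group of degree 4. -/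
theorem result {G : Type*} [Group G] [Finite G] {D : Set G} (hD : Cfsg.IsThreeTranspositionClass D) (hD2 : ∃ a ∈ D, ∃ b ∈ D, a ≠ b) {d : G} (hd : d ∈ D) (hV : {y : G | y ∈ D ∧ Commute d y} = {v : G | v ∈ D ∧ ∀ e ∈ D, Commute v e ↔ Commute d e}) (hm : {y : G | y ∈ D ∧ Commute d y}.ncard = 2) : Nonempty (G ≃* Equiv.Perm (Fin 4)) := by
  classical
  have hcm := fun {a : G} (g : G) (ha : a ∈ D) => CfsgLib.Spor.Fischer.conj_mem hD g ha
  have hinv := fun {a : G} (ha : a ∈ D) => CfsgLib.Spor.Fischer.inv_eq hD ha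
  -- transport the two hypotheses to all members
  have hclass : ∀ a ∈ D, ∀ y ∈ D, Commute a y → CfsgLib.Spor.Fischer.VRel D a y := by
    intro a ha y hy hay x hx
    obtain ⟨g, hg⟩ := CfsgLib.Spor.Fischer.exists_conj hD hd ha
    have bring : ∀ t : G, g * (g⁻¹ * t * g) * g⁻¹ = t := fun t => by group
    have hyD : g⁻¹ * y * g ∈ D := by simpa using hcm g⁻¹ hy
    have hxD : g⁻¹ * x * g ∈ D := by simpa using hcm g⁻¹ hx
    have h1 : Commute d (g⁻¹ * y * g) := by
      rw [← hg, ← bring y] at hay; exact CfsgLib.Spor.Fischer.commute_conj_iff.1 hay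
    have h2 := ((Set.ext_iff.1 hV _).1 ⟨hyD, h1⟩).2 _ hxD
    rw [← CfsgLib.Spor.Fischer.commute_conj_iff (g := g) (a := d) (b := g⁻¹ * x * g),
      ← CfsgLib.Spor.Fischer.commute_conj_iff (g := g) (a := g⁻¹ * y * g) (b := g⁻¹ * x * g), hg, bring, bring] at h2
    exact h2.symm
  have htwo : ∀ a ∈ D, {y : G | y ∈ D ∧ Commute a y}.ncard = 2 := fun a ha => by
    obtain ⟨g, hg⟩ := CfsgLib.Spor.Fischer.exists_conj hD hd ha
    rw [← hg, ← hm]
    exact (CfsgLib.Spor.Fischer.ncard_eq_of_conj hD g (P := fun y => Commute d y) (R := fun y => Commute (g * d * g⁻¹) y)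
      fun y _ => CfsgLib.Spor.Fischer.commute_conj_iff)
  have huniq : ∀ a ∈ D, ∀ y ∈ D, ∀ t ∈ D, Commute a y → Commute a t → y ≠ a → t ≠ a → y = t := by
    intro a ha y hy t ht hay hat hya hta
    by_contra hne
    have hsub : ({a, y, t} : Finset G) ⊆ ((Set.toFinite {y : G | y ∈ D ∧ Commute a y}).toFinset) := by
      intro w hw
      simp only [Finset.mem_insert, Finset.mem_singleton] at hw
      rw [Set.Finite.mem_toFinset]
      rcases hw with rfl | rfl | rfl
      exacts [⟨ha, Commute.refl _⟩, ⟨hy, hay⟩, ⟨ht, hat⟩]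
    have := Finset.card_le_card hsub
    rw [← Set.ncard_eq_toFinset_card, htwo a ha,
      Finset.card_eq_three.2 ⟨a, y, t, hya.symm, hta.symm, hne, rfl⟩] at this
    omega
  have hpart : ∀ a ∈ D, ∃ a' ∈ D, a' ≠ a ∧ Commute a a' := fun a ha => by
    by_contra h
    push Not at h
    have : {y : G | y ∈ D ∧ Commute a y} ⊆ {a} := fun y hy => by
      by_contra hne; exact h y hy.1 hne hy.2
    have := Set.ncard_le_ncard this
    rw [htwo a ha, Set.ncard_singleton] at this
    omega
  haveI := CfsgLib.Core.normal_pCore (G := G) 2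
  have hswap : ∀ a ∈ D, ∀ b ∈ D, ∀ b' ∈ D, b' ≠ b → Commute b b' → ¬ Commute a b →
      (b * b') * a * (b * b')⁻¹ ≠ a ∧ Commute a ((b * b') * a * (b * b')⁻¹) := by
    intro a ha b hb b' hb' hne hbb hab
    have hq : b * b' ∈ Cfsg.pCore 2 G := by
      have := (CfsgLib.Spor.Fischer.vrel_iff hD hD2 hb hb').1 (hclass b hb b' hb' hbb)
      rwa [hinv hb] at this
    have hv : CfsgLib.Spor.Fischer.VRel D a ((b * b') * a * (b * b')⁻¹) :=
      CfsgLib.Spor.Fischer.vrel_of_conj hD hD2 ha hq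
    refine ⟨fun e => hne ?_, ((hv a ha).1 (Commute.refl a)).symm⟩
    have hab' : ¬ Commute a b' := fun h => hab
      ((hclass b hb b' hb' hbb a ha).2 h.symm).symm
    have e1 : b' * a * b' = b * a * b := by
      rw [mul_inv_rev, hinv hb, hinv hb'] at e
      calc b' * a * b' = (b * b) * (b' * a * b') * (b * b) := by
            rw [CfsgLib.Spor.Fischer.mul_self hD hb]; group
        _ = b * (b * b' * a * (b' * b)) * b := by group
        _ = b * a * b := by rw [e]
    rw [← CfsgLib.Spor.Fischer.braid hD ha hb hab, ← CfsgLib.Spor.Fischer.braid hD ha hb' hab'] at e1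
    exact mul_left_cancel (mul_right_cancel e1)
  obtain ⟨d', hd', hdne, hdd⟩ := hpart d hd
  obtain ⟨b, hb, hdb⟩ := CfsgLib.Spor.Fischer.exists_noncomm_of_two hD hD2 hd
  have hbd' : ¬ Commute b d' := fun h => hdb ((hclass d hd d' hd' hdd b hb).2 h.symm)
  obtain ⟨φ, hφ, hφa, hφb, hφc⟩ := CfsgLib.Spor.Trans.exists_sym_four hD.1 hd hb hd' hdne.symm hdd hdb hbd'
  suffices hr : ∀ x ∈ D, x ∈ φ.range by
    have htop : φ.range = ⊤ := top_le_iff.1 (hD.2.2 ▸ (Subgroup.closure_le _).2 hr)
    exact ⟨(MulEquiv.ofBijective φ ⟨hφ, MonoidHom.range_eq_top.1 htop⟩).symm⟩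
  -- members commuting with an image of a transposition are images
  have hin : ∀ σ τ : Equiv.Perm (Fin 4), φ σ ∈ D → τ ≠ σ → Commute σ τ → φ τ ∈ D →
      ∀ x ∈ D, Commute (φ σ) x → x ∈ φ.range := by
    intro σ τ hσ hne hc hτ x hx hcx
    by_cases e : x = φ σ
    · exact ⟨σ, e.symm⟩
    · exact ⟨τ, (huniq _ hσ x hx _ hτ hcx (hc.map φ) e fun h => hne (hφ h)).symm⟩
  set c := d * b * d with hc
  have hcD : c ∈ D := by have := hcm d hb; rwa [hinv hd] at this
  have hφ' : φ (Equiv.swap 0 2) = c := by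
    rw [show Equiv.swap (0 : Fin 4) 2 = Equiv.swap 0 1 * Equiv.swap 1 2 * Equiv.swap 0 1 by decide, map_mul, map_mul,
      hφa, hφb]
  have hconj : ∀ σ : Equiv.Perm (Fin 4), φ (σ * Equiv.swap 0 1 * σ⁻¹) ∈ D := fun σ => by
    rw [map_mul, map_mul, map_inv, hφa]; exact hcm _ hd
  intro x hx
  by_cases h1 : Commute d x
  · exact hin (Equiv.swap 0 1) (Equiv.swap 2 3) (hφa ▸ hd) (by decide) (show _ = _ by decide) (hφc ▸ hd') x hx (hφa ▸ h1)
  by_cases h2 : Commute b x
  · refine hin (Equiv.swap 1 2) (Equiv.swap 0 3) (hφb ▸ hb) (by decide) (show _ = _ by decide) ?_ x hx (hφb ▸ h2)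
    rw [show Equiv.swap (0 : Fin 4) 3 = Equiv.swap 1 3 * Equiv.swap 0 1 * (Equiv.swap 1 3)⁻¹ by decide]
    exact hconj _
  by_cases h3 : Commute c x
  · refine hin (Equiv.swap 0 2) (Equiv.swap 1 3) (hφ' ▸ hcD) (by decide) (show _ = _ by decide) ?_ x hx (hφ' ▸ h3)
    rw [show Equiv.swap (1 : Fin 4) 3 = Equiv.swap 0 3 * Equiv.swap 0 1 * (Equiv.swap 0 3)⁻¹ by decide]
    exact hconj _
  exfalso
  have hdc : ¬ Commute d c := fun h => hdb (show Commute d b by
    have h' : d * (d * b * d) = d * b * d * d := h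
    rw [mul_assoc (d * b), CfsgLib.Spor.Fischer.mul_self hD hd, mul_one, ← mul_assoc, ← mul_assoc,
      CfsgLib.Spor.Fischer.mul_self hD hd, one_mul] at h'
    exact h'.symm)
  set f := x * d * x⁻¹ with hf
  have hfD : f ∈ D := hcm x hd
  have hdf : ¬ Commute f d := fun h => h1 (show Commute d x by
    have h' : x * d * x * d = d * (x * d * x) := by
      have := h.eq
      rwa [hf, hinv hx] at this
    rw [CfsgLib.Spor.Fischer.braid hD hx hd (fun h0 => h1 h0.symm)] at h'
    rw [mul_assoc (d * x), CfsgLib.Spor.Fischer.mul_self hD hd, mul_one, ← mul_assoc, ← mul_assoc,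
      CfsgLib.Spor.Fischer.mul_self hD hd, one_mul] at h'
    exact h')
  obtain ⟨e, he, hde, hxe, hfe⟩ : ∃ e ∈ D, ¬ Commute d e ∧ ¬ Commute x e ∧ ¬ Commute f e := by
    by_cases hfb : Commute f b
    · refine ⟨c, hcD, hdc, fun h => h3 h.symm, fun h => ?_⟩
      have hbc : Commute b c := ((hclass f hfD b hb hfb) c hcD).1 h
      refine hdb (show Commute d b from ?_)
      have h' : b * (d * b * d) = d * b * d * b := hbc
      have hbr := CfsgLib.Spor.Fischer.braid hD hd hb hdb
      rw [hbr] at h'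
      have h'' : d * b = b * d := by
        have := congrArg (fun t => b * t * b) h'
        simp only [← mul_assoc, CfsgLib.Spor.Fischer.mul_self hD hb, one_mul] at this
        simp only [mul_assoc, CfsgLib.Spor.Fischer.mul_self hD hb, mul_one] at this
        exact this.symm
      exact h''
    · exact ⟨b, hb, hdb, fun h => h2 h.symm, hfb⟩
  obtain ⟨e', he', hene, hee⟩ := hpart e he
  set w := d * d' * (e * e') with hw
  have hfix : ∀ a ∈ D, ¬ Commute a d → ¬ Commute a e → w * a * w⁻¹ = a := by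
    intro a ha had hae
    obtain ⟨n1, c1⟩ := hswap a ha e he e' he' hene hee hae
    set a' := e * e' * a * (e * e')⁻¹ with ha'
    have ha'D : a' ∈ D := hcm _ ha
    have ha'd : ¬ Commute a' d := fun h => had ((hclass a ha a' ha'D c1 d hd).2 h)
    obtain ⟨n2, c2⟩ := hswap a' ha'D d hd d' hd' hdne hdd ha'd
    rw [show w * a * w⁻¹ = d * d' * a' * (d * d')⁻¹ by rw [hw, ha']; group]
    exact huniq a' ha'D _ (hcm _ ha'D) a ha c2 c1.symm n2 n1.symm
  have hwd : w * d * w⁻¹ ≠ d := by
    intro h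
    obtain ⟨n1, c1⟩ := hswap d hd e he e' he' hene hee hde
    apply n1
    have hcd : Commute (d * d') d := (Commute.refl d).mul_left hdd.symm
    calc e * e' * d * (e * e')⁻¹ = (d * d')⁻¹ * (w * d * w⁻¹) * (d * d') := by rw [hw]; group
      _ = (d * d')⁻¹ * (d * (d * d')) := by rw [h]; group
      _ = (d * d')⁻¹ * ((d * d') * d) := by rw [hcd.eq]
      _ = d := by group
  refine hwd ?_
  have hfx := hfix x hx (fun h => h1 h.symm) hxe
  have hff := hfix f hfD hdf hfe
  calc w * d * w⁻¹ = (w * x * w⁻¹)⁻¹ * (w * f * w⁻¹) * (w * x * w⁻¹) := by rw [hf]; group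
    _ = d := by rw [hfx, hff, hf]; group

end Cfsg.Agent.S5355
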