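import Cfsg.Statements.S5356
import Cfsg.Agent.Lib.SporFischerCores
import Cfsg.Agent.Lib.CorePGroup

set_option autoImplicit false
open Cfsg

namespace Cfsg.Agent.S5356

open Pointwise in
/-- One step of averaging over a Sylow 3-subgroup. -/
theorem move_into {X : Type*} [Group X] [Finite X] (M : Subgroup X) [M.Normal] (hM2 : ∀ k ∈ M, k * k = 1)
    (P : Sylow 3 X) {d e : X} (hdd : d * d = 1) (hee : e * e = 1) (hx : (d * e) ^ 3 = 1)
    (hd : d ∈ Subgroup.normalizer (((P : Subgroup X) ⊔ M : Subgroup X) : Set X))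
    (hy : ∀ y ∈ P, d⁻¹ * (y * d * y⁻¹) ∈ M → (y * d * y⁻¹ * e) ^ 3 = 1) :
    ∃ k ∈ M, k * d * k⁻¹ ∈ Subgroup.normalizer ((P : Subgroup X) : Set X) := by
  classical
  haveI : Fact (Nat.Prime 3) := ⟨Nat.prime_three⟩
  have hMn : ∀ g k : X, k ∈ M → g * k * g⁻¹ ∈ M := fun g k hk => Subgroup.Normal.conj_mem inferInstance k hk g
  have hinv : ∀ k ∈ M, k⁻¹ = k := fun k hk => inv_eq_of_mul_eq_one_right (hM2 k hk)
  have hMc : ∀ a ∈ M, ∀ b ∈ M, a * b = b * a := fun a ha b hb => by
    have h := hinv _ (M.mul_mem ha hb)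
    rw [mul_inv_rev, hinv a ha, hinv b hb] at h
    exact h.symm
  set W := (P : Subgroup X) ⊔ M with hW
  have hPW : (P : Subgroup X) ≤ W := le_sup_left
  have hdP : ((d • P : Sylow 3 X) : Subgroup X) ≤ W := by
    rw [Sylow.coe_subgroup_smul]
    rintro _ ⟨y, hy', rfl⟩
    exact (Subgroup.mem_normalizer_iff.1 hd y).1 (hPW hy')
  obtain ⟨w, hw⟩ := MulAction.exists_smul_eq ↥W ((d • P).subtype hdP) (P.subtype hPW)
  rw [Sylow.smul_subtype] at hw
  have hw2 := Sylow.subtype_injective hw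
  rw [Subgroup.smul_def, smul_smul, Sylow.smul_eq_iff_mem_normalizer] at hw2
  obtain ⟨p, hp, μ, hμ, hwe⟩ := Subgroup.mem_sup_of_normal_right.1 w.2
  set n := μ * d with hn
  have hnN : n ∈ Subgroup.normalizer ((P : Subgroup X) : Set X) := by
    have := mul_mem (inv_mem (Subgroup.le_normalizer (H := (P : Subgroup X)) hp)) hw2
    rwa [← hwe, mul_assoc, inv_mul_cancel_left] at this
  set m := n⁻¹ * d with hm
  have hmM : m ∈ M := by
    have := hMn d⁻¹ _ (M.inv_mem hμ)
    rw [hm, hn]; convert this using 1; group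
  have hdM : ∀ a ∈ M, n * a * n⁻¹ = d * a * d⁻¹ := fun a ha => by
    have h1 := hMn d a ha
    calc n * a * n⁻¹ = μ * (d * a * d⁻¹) * μ⁻¹ := by rw [hn]; group
      _ = d * a * d⁻¹ := by rw [hMc μ hμ _ h1, mul_inv_cancel_right]
  set C : Set X := {c | c ∈ M ∧ ∀ y ∈ P, y * c * y⁻¹ = c} with hC
  have hCN : ∀ c, c ∈ M → c ∈ Subgroup.normalizer ((P : Subgroup X) : Set X) → c ∈ C := fun c hcM hcN => by
    refine ⟨hcM, fun y hy' => mul_inv_eq_one.1 ?_⟩
    have h1 : y * c * y⁻¹ * c⁻¹ ∈ P := by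
      rw [show y * c * y⁻¹ * c⁻¹ = y * (c * y⁻¹ * c⁻¹) by group]
      exact (P : Subgroup X).mul_mem hy' ((Subgroup.mem_normalizer_iff.1 hcN _).1 ((P : Subgroup X).inv_mem hy'))
    have h2 : y * c * y⁻¹ * c⁻¹ ∈ M := M.mul_mem (hMn y c hcM) (M.inv_mem hcM)
    obtain ⟨k, hk⟩ := P.isPGroup' ⟨_, h1⟩
    have hk' : (y * c * y⁻¹ * c⁻¹) ^ 3 ^ k = 1 := congrArg Subtype.val hk
    have h3 := Nat.dvd_gcd (orderOf_dvd_of_pow_eq_one hk')
      (orderOf_dvd_of_pow_eq_one (n := 2) (by rw [pow_two]; exact hM2 _ h2))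
    rwa [Nat.Coprime.gcd_eq_one ((by norm_num : Nat.Coprime 3 2).pow_left k), Nat.dvd_one, orderOf_eq_one_iff] at h3
  set c0 := n * n with hc0
  have hc0M : c0 ∈ M := by
    have : μ * (d * μ * d⁻¹) ∈ M := M.mul_mem hμ (hMn d μ hμ)
    rw [inv_eq_of_mul_eq_one_right hdd] at this
    rw [hc0, hn]
    convert this using 1; group
  have hc0C : c0 ∈ C := hCN c0 hc0M (mul_mem hnN hnN)
  -- the subgroup of twisted commutators times the fixed points
  let T : Subgroup ↥M :=
    { carrier := {a | ∃ k ∈ M, ∃ c ∈ C, (a : X) = k * (d * k * d⁻¹) * c}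
      one_mem' := ⟨1, M.one_mem, 1, ⟨M.one_mem, fun y _ => by simp⟩, by simp⟩
      inv_mem' := by
        intro a ha
        rwa [show a⁻¹ = a from Subtype.ext (by rw [Subgroup.coe_inv]; exact hinv a a.2)]
      mul_mem' := by
        rintro a b ⟨k, hk, c, hc, ha⟩ ⟨l, hl, c', hc', hb⟩
        refine ⟨k * l, M.mul_mem hk hl, c * c', ⟨M.mul_mem hc.1 hc'.1, fun y hy' => ?_⟩, ?_⟩
        · calc y * (c * c') * y⁻¹ = (y * c * y⁻¹) * (y * c' * y⁻¹) := by group
            _ = c * c' := by rw [hc.2 y hy', hc'.2 y hy']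
        · rw [Subgroup.coe_mul, ha, hb]
          have k1 := hMn d k hk
          have l1 := hMn d l hl
          calc k * (d * k * d⁻¹) * c * (l * (d * l * d⁻¹) * c') = k * ((d * k * d⁻¹) * (c * l) * (d * l * d⁻¹)) * c' := by
                group
            _ = k * ((d * k * d⁻¹) * (l * c) * (d * l * d⁻¹)) * c' := by rw [hMc c hc.1 l hl]
            _ = k * (((d * k * d⁻¹) * l) * (c * (d * l * d⁻¹))) * c' := by group
            _ = k * ((l * (d * k * d⁻¹)) * ((d * l * d⁻¹) * c)) * c' := by rw [hMc _ k1 l hl, hMc c hc.1 _ l1]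
            _ = k * l * (d * (k * l) * d⁻¹) * (c * c') := by group }
  letI : CommGroup ↥M := { (inferInstance : Group ↥M) with mul_comm := fun a b => Subtype.ext (hMc a a.2 b b.2) }
  have hkey : (⟨m, hmM⟩ : ↥M) ∈ T := by
    haveI : T.Normal := inferInstance
    let q : ↥M →* ↥M ⧸ T := QuotientGroup.mk' T
    have hq2 : ∀ a : ↥M, q a * q a = 1 := fun a => by
      rw [← map_mul, show a * a = 1 from Subtype.ext (hM2 a a.2), map_one]
    let f : ↥(P : Subgroup X) → ↥M := fun y => ⟨(y : X) * m * (y : X)⁻¹, hMn _ m hmM⟩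
    let σ : ↥(P : Subgroup X) → ↥(P : Subgroup X) := fun y =>
      ⟨n * y * n⁻¹, (Subgroup.mem_normalizer_iff.1 hnN _).1 y.2⟩
    have hσσ : ∀ y, σ (σ y) = y := fun y => Subtype.ext (by
      show n * (n * (y : X) * n⁻¹) * n⁻¹ = y
      rw [show n * (n * (y : X) * n⁻¹) * n⁻¹ = c0 * y * c0⁻¹ by rw [hc0]; group]
      have h := hc0C.2 y y.2
      exact mul_inv_eq_iff_eq_mul.2 (mul_inv_eq_iff_eq_mul.1 h).symm)
    have hσf : ∀ y, q (f (σ y)) = q (f y) := fun y => by
      have e2 : n * m * (n * m) = 1 := by rw [show n * m = d by rw [hm]; group, hdd]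
      have hm1 : n * m * n⁻¹ = m⁻¹ * c0⁻¹ := by
        rw [hc0]
        calc n * m * n⁻¹ = n * m * (n * m) * (m⁻¹ * (n * n)⁻¹) := by group
          _ = m⁻¹ * (n * n)⁻¹ := by rw [e2, one_mul]
      rw [hinv m hmM, hinv c0 hc0M] at hm1
      have hmn : n⁻¹ * m * n = m * c0 := by
        calc n⁻¹ * m * n = c0⁻¹ * (n * m * n⁻¹) * c0 := by rw [hc0]; group
          _ = c0 * (m * c0) * c0 := by rw [hm1, hinv c0 hc0M]
          _ = m * c0 := by rw [hMc c0 hc0M (m * c0) (M.mul_mem hmM hc0M), mul_assoc, hM2 c0 hc0M, mul_one]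
      have e : ((f (σ y) : ↥M) : X) = c0 * (d * (f y : X) * d⁻¹) := by
        show n * y * n⁻¹ * m * (n * y * n⁻¹)⁻¹ = c0 * (d * ((y : X) * m * (y : X)⁻¹) * d⁻¹)
        rw [show n * y * n⁻¹ * m * (n * y * n⁻¹)⁻¹ = n * ((y : X) * (n⁻¹ * m * n) * (y : X)⁻¹) * n⁻¹ by group, hmn,
          show (y : X) * (m * c0) * (y : X)⁻¹ = ((y : X) * m * (y : X)⁻¹) * ((y : X) * c0 * (y : X)⁻¹) by group,
          hc0C.2 y y.2]
        rw [show n * ((y : X) * m * (y : X)⁻¹ * c0) * n⁻¹ = (n * ((y : X) * m * (y : X)⁻¹) * n⁻¹) * c0 by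
          rw [hc0]; group, hdM _ (hMn _ m hmM), hMc c0 hc0M _ (hMn d _ (hMn _ m hmM))]
      rw [← mul_left_cancel_iff (a := q (f y)), hq2, ← map_mul, QuotientGroup.mk'_apply, QuotientGroup.eq_one_iff]
      refine ⟨_, (f y).2, c0, hc0C, ?_⟩
      rw [Subgroup.coe_mul, e, hMc c0 hc0M _ (hMn d _ (f y).2)]; simp only [f, mul_assoc]
    haveI : Fintype ↥(P : Subgroup X) := Fintype.ofFinite _
    have hsum : q (∏ y, f y) = 1 := by
      rw [QuotientGroup.mk'_apply, QuotientGroup.eq_one_iff]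
      refine ⟨1, M.one_mem, _, ⟨(∏ y, f y).2, fun t ht => ?_⟩, by simp⟩
      let φ : ↥M →* ↥M :=
        { toFun := fun a => ⟨t * a * t⁻¹, hMn t a a.2⟩
          map_one' := Subtype.ext (by simp)
          map_mul' := fun a b => Subtype.ext (by simp [mul_assoc]) }
      have h1 : φ (∏ y, f y) = ∏ y, f y := by
        rw [map_prod]
        exact Fintype.prod_equiv (Equiv.mulLeft ⟨t, ht⟩) _ _ fun y => Subtype.ext (by
          show t * ((y : X) * m * (y : X)⁻¹) * t⁻¹ = (t * y) * m * (t * y)⁻¹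
          group)
      exact congrArg Subtype.val h1
    have hfix : ∀ y, σ y = y → q (f y) = q ⟨m, hmM⟩ := fun y hy' => by
      have hny : n * (y : X) = (y : X) * n := mul_inv_eq_iff_eq_mul.1 (congrArg Subtype.val hy')
      set ν := (f y : X) with hν
      have hνM : ν ∈ M := (f y).2
      have hyd : (y : X) * d * (y : X)⁻¹ = d * (m * ν) := by
        have e2 : d = n * m := by rw [hm]; group
        calc (y : X) * d * (y : X)⁻¹ = (y : X) * n * m * (y : X)⁻¹ := by rw [e2]; group
          _ = n * ν := by rw [← hny, hν]; show n * y * m * (y : X)⁻¹ = n * ((y : X) * m * (y : X)⁻¹); group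
          _ = d * (m * ν) := by
            rw [e2, show n * m * (m * ν) = n * (m * m) * ν by group, hM2 m hmM, mul_one]
      set w := m * ν with hwdef
      have hwM : w ∈ M := M.mul_mem hmM hνM
      have h3 := hy y y.2 (by rw [hyd, inv_mul_cancel_left]; exact hwM)
      rw [hyd] at h3
      have hd' : d⁻¹ = d := inv_eq_of_mul_eq_one_right hdd
      have hdw : d * w * d = w := by
        have h4 : d * w * (d * w) = 1 := by rw [← hyd]; rw [show (y : X) * d * (y : X)⁻¹ * ((y : X) * d * (y : X)⁻¹) =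
          (y : X) * (d * d) * (y : X)⁻¹ by group, hdd]; group
        calc d * w * d = d * w * (d * w) * w⁻¹ := by group
          _ = w := by rw [h4, one_mul, hinv w hwM]
      set x := d * e with hxdef
      have hwe : d * w * e = w * x := by
        rw [hxdef, ← mul_assoc w]
        congr 1
        calc d * w = d * w * (d * d) := by rw [hdd, mul_one]
          _ = w * d := by rw [← mul_assoc, hdw]
      have hdx : d * x * d = x⁻¹ := by
        rw [hxdef, mul_inv_rev, hd', inv_eq_of_mul_eq_one_right hee, ← mul_assoc, hdd, one_mul]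
      rw [hwe] at h3
      have h5 : w * ((x * w * x⁻¹) * (x ^ 2 * w * (x ^ 2)⁻¹)) = 1 := by
        calc w * ((x * w * x⁻¹) * (x ^ 2 * w * (x ^ 2)⁻¹)) = (w * x) ^ 3 * (x ^ 3)⁻¹ := by
              simp only [pow_succ, pow_zero, one_mul]; group
          _ = 1 := by rw [h3, hx]; group
      set k := x * w * x⁻¹ with hk
      have hdk : d * k * d⁻¹ = x ^ 2 * w * (x ^ 2)⁻¹ := by
        have hx2 : x ^ 2 = x⁻¹ := eq_inv_of_mul_eq_one_left (by rw [← pow_succ, hx])
        rw [hd', hk, hx2, inv_inv]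
        have hdx' : d * x⁻¹ * d = x := by
          have := congrArg Inv.inv hdx
          rw [inv_inv, mul_inv_rev, mul_inv_rev, hd', ← mul_assoc] at this
          exact this
        calc d * (x * w * x⁻¹) * d = d * x * (d * d) * w * (d * d) * x⁻¹ * d := by
              rw [hdd]; group
          _ = (d * x * d) * (d * w * d) * (d * x⁻¹ * d) := by group
          _ = x⁻¹ * w * x := by rw [hdw, hdx, hdx']
      rw [← mul_left_cancel_iff (a := q ⟨m, hmM⟩), hq2, ← map_mul, QuotientGroup.mk'_apply, QuotientGroup.eq_one_iff]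
      refine ⟨k, hMn x w hwM, 1, ⟨M.one_mem, fun y _ => by simp⟩, ?_⟩
      rw [mul_one, Subgroup.coe_mul, hdk]
      show w = _
      rw [← hinv _ (M.mul_mem (hMn x w hwM) (hMn (x ^ 2) w hwM))]
      exact eq_inv_of_mul_eq_one_left h5
    have hprod : ∏ y, q (f y) * q ⟨m, hmM⟩ = 1 := by
      refine Finset.prod_involution (fun y _ => σ y) (fun y _ => ?_) (fun y _ hne heq => hne ?_)
        (fun y _ => Finset.mem_univ _) fun y _ => hσσ y
      · rw [hσf]
        calc q (f y) * q ⟨m, hmM⟩ * (q (f y) * q ⟨m, hmM⟩) = (q (f y) * q (f y)) * (q ⟨m, hmM⟩ * q ⟨m, hmM⟩) :=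
            mul_mul_mul_comm _ _ _ _
          _ = 1 := by rw [hq2, hq2, one_mul]
      · rw [hfix y heq, hq2]
    rw [Finset.prod_mul_distrib, ← map_prod, hsum, one_mul, Finset.prod_const, Finset.card_univ,
      ← Nat.card_eq_fintype_card] at hprod
    obtain ⟨j, hj⟩ := P.isPGroup'.exists_card_eq
    obtain ⟨i, hi⟩ : ∃ i, Nat.card ↥(P : Subgroup X) = 2 * i + 1 := by
      obtain ⟨i, hi⟩ := (show Odd (3 ^ j) from (by decide : Odd 3).pow)
      exact ⟨i, by omega⟩
    rw [hi, pow_succ, pow_mul, pow_two, hq2, one_pow, one_mul, QuotientGroup.mk'_apply,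
      QuotientGroup.eq_one_iff] at hprod
    exact hprod
  obtain ⟨k, hk, c, hc, hke⟩ := hkey
  simp only at hke
  refine ⟨k, hk, ?_⟩
  have e : k * d * k⁻¹ = n * c := by
    have e2 : d = n * m := by rw [hm]; group
    rw [hinv k hk]
    calc k * d * k = d * ((d⁻¹ * k * d) * k) := by group
      _ = n * m * ((d * k * d⁻¹) * k) := by rw [inv_eq_of_mul_eq_one_right hdd, ← e2]
      _ = n * ((k * (d * k * d⁻¹) * c) * ((d * k * d⁻¹) * k)) := by rw [hke, mul_assoc n]
      _ = n * c := by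
        congr 1
        have h1 := hMn d k hk
        have h2 := M.mul_mem hk h1
        rw [hMc (k * (d * k * d⁻¹)) h2 c hc.1, hMc (d * k * d⁻¹) h1 k hk, mul_assoc, hM2 _ h2, mul_one]
  rw [e]
  refine mul_mem hnN (Subgroup.mem_normalizer_iff.2 fun y => ?_)
  have hcy : ∀ y ∈ P, c * y * c⁻¹ = y := fun y hy' =>
    mul_inv_eq_iff_eq_mul.2 (mul_inv_eq_iff_eq_mul.1 (hc.2 y hy')).symm
  constructor
  · exact fun h => by rw [hcy y h]; exact h
  · intro h
    have h' := hcy _ h
    rw [show c * (c * y * c⁻¹) * c⁻¹ = (c * c) * y * (c * c)⁻¹ by group, hM2 c hc.1, one_mul, inv_one, mul_one] at h'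
    rw [h']; exact h

/-- Let D be a conjugacy class of 3-transpositions generating the finite group G, with at least two members, and d a member of D such that every member of D commuting with d commutes with exactly the same members of D as d. Then there is a Sylow 3-subgroup P of G normalized by d such that G is generated by d, P and the largest normal 2-subgroup of G. -/
theorem result {G : Type*} [Group G] [Finite G] {D : Set G} (hD : Cfsg.IsThreeTranspositionClass D) (hD2 : ∃ a ∈ D, ∃ b ∈ D, a ≠ b) {d : G} (hd : d ∈ D) (hV : {y : G | y ∈ D ∧ Commute d y} = {v : G | v ∈ D ∧ ∀ e ∈ D, Commute v e ↔ Commute d e}) : ∃ P : Sylow 3 G, d ∈ Subgroup.normalizer (P : Set G) ∧ Subgroup.zpowers d ⊔ (P : Subgroup G) ⊔ Cfsg.pCore 2 G = ⊤ := by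
  classical
  haveI : Fact (Nat.Prime 2) := ⟨Nat.prime_two⟩
  haveI : Fact (Nat.Prime 3) := ⟨Nat.prime_three⟩
  haveI := CfsgLib.Core.normal_pCore (G := G) 2
  set O := Cfsg.pCore 2 G with hO
  have hO2 : IsPGroup 2 ↥O := CfsgLib.Core.isPGroup_pCore 2
  -- commuting members lie in one coset of the core
  have hcom : ∀ a ∈ D, ∀ b ∈ D, Commute a b → a⁻¹ * b ∈ O := by
    intro a ha b hb hab
    obtain ⟨g, hg⟩ := CfsgLib.Spor.Fischer.exists_conj hD hd ha
    set b' := g⁻¹ * b * g with hb'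
    have hb'D : b' ∈ D := by simpa [hb'] using CfsgLib.Spor.Fischer.conj_mem hD g⁻¹ hb
    have hbb : g * b' * g⁻¹ = b := by rw [hb']; group
    have hdb : Commute d b' := by
      rw [← hg, ← hbb] at hab; exact CfsgLib.Spor.Fischer.commute_conj_iff.1 hab
    have h := (Set.ext_iff.1 hV b').1 ⟨hb'D, hdb⟩
    have := (CfsgLib.Spor.Fischer.vrel_iff hD hD2 hd hb'D).1 fun x hx => (h.2 x hx).symm
    have h2 := Subgroup.Normal.conj_mem inferInstance _ this g
    rwa [show g * (d⁻¹ * b') * g⁻¹ = (g * d * g⁻¹)⁻¹ * (g * b' * g⁻¹) by group, hg, hbb] at h2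
  obtain ⟨e, he, hde⟩ := CfsgLib.Spor.Fischer.exists_noncomm_of_two hD hD2 hd
  have h3 := CfsgLib.Spor.Fischer.pow_three hD hd he hde
  -- the products generate a normal 3-group modulo the core
  set K := Subgroup.closure {z : G | ∃ x ∈ D, ∃ y ∈ D, z = x * y} with hK
  have hinv : ∀ x ∈ D, x⁻¹ = x := fun x hx => CfsgLib.Spor.Fischer.inv_eq hD hx
  let π := QuotientGroup.mk' O
  have hset : Cfsg.IsThreeTranspositionSet (π '' D) := by
    refine ⟨?_, ?_⟩
    · rintro _ ⟨a, ha, rfl⟩
      refine orderOf_eq_prime (by rw [← map_pow, pow_two, CfsgLib.Spor.Fischer.mul_self hD ha, map_one]) fun h => ?_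
      rw [QuotientGroup.mk'_apply, QuotientGroup.eq_one_iff] at h
      obtain ⟨b, hb, hab⟩ := CfsgLib.Spor.Fischer.exists_noncomm_of_two hD hD2 ha
      have hw : a * (b * a * b⁻¹) ∈ O := O.mul_mem h (Subgroup.Normal.conj_mem inferInstance a h b)
      obtain ⟨k, hk⟩ := hO2 ⟨_, hw⟩
      have hk' : (a * (b * a * b⁻¹)) ^ 2 ^ k = 1 := congrArg Subtype.val hk
      have h3' : (a * (b * a * b⁻¹)) ^ 3 = 1 := by
        have : a * (b * a * b⁻¹) = (a * b) ^ 2 := by rw [hinv b hb, pow_two]; group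
        rw [this, ← pow_mul, pow_mul', CfsgLib.Spor.Fischer.pow_three hD ha hb hab, one_pow]
      have hd' := Nat.dvd_gcd (orderOf_dvd_of_pow_eq_one hk') (orderOf_dvd_of_pow_eq_one h3')
      rw [Nat.Coprime.gcd_eq_one ((by norm_num : Nat.Coprime 2 3).pow_left k), Nat.dvd_one,
        orderOf_eq_one_iff] at hd'
      exact hab (show a * b = b * a from by
        have h4 := eq_inv_of_mul_eq_one_right hd'
        rw [hinv a ha] at h4
        exact (mul_inv_eq_iff_eq_mul.1 h4).symm)
    · rintro _ ⟨a, ha, rfl⟩ _ ⟨b, hb, rfl⟩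
      rcases hD.1.2 a ha b hb with h | h
      · left; rw [← map_mul, ← map_pow, h, map_one]
      · right; rw [← map_mul, ← map_pow, h, map_one]
  have hK3 : IsPGroup 3 ↥(K.map π) := by
    have := CfsgLib.Spor.Fischer.isPGroup_products hset (T := π '' D) le_rfl ⟨d, hd, rfl⟩
      (by
        rintro _ ⟨a, ha, rfl⟩ _ ⟨b, hb, rfl⟩
        exact ⟨_, CfsgLib.Spor.Fischer.conj_mem hD a hb, by simp⟩)
      (by
        rintro _ ⟨a, ha, rfl⟩ _ ⟨b, hb, rfl⟩ hne hc
        refine hne ?_
        by_cases hab : Commute a b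
        · exact QuotientGroup.eq.2 (hcom a ha b hb hab)
        · refine QuotientGroup.eq.2 ?_
          have h1 : (π (a * b)) ^ 2 = 1 := by
            rw [map_mul, hc.mul_pow, ← map_pow, ← map_pow, pow_two, pow_two, CfsgLib.Spor.Fischer.mul_self hD ha,
              CfsgLib.Spor.Fischer.mul_self hD hb, map_one, one_mul]
          have h2 : (π (a * b)) ^ 3 = 1 := by rw [← map_pow, CfsgLib.Spor.Fischer.pow_three hD ha hb hab, map_one]
          rw [pow_succ, h1, one_mul, QuotientGroup.mk'_apply, QuotientGroup.eq_one_iff] at h2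
          rwa [hinv a ha])
    refine this.to_le ?_
    rw [hK, MonoidHom.map_closure]
    refine Subgroup.closure_mono ?_
    rintro _ ⟨_, ⟨a, ha, b, hb, rfl⟩, rfl⟩
    exact ⟨π a, ⟨a, ha, rfl⟩, π b, ⟨b, hb, rfl⟩, map_mul π a b⟩
  -- the generated subgroup
  have hKn : ∀ g : G, ∀ x ∈ K, g * x * g⁻¹ ∈ K := by
    intro g x hx
    have : K ≤ K.comap (MulAut.conj g).toMonoidHom := by
      rw [hK, Subgroup.closure_le]
      rintro _ ⟨a, ha, b, hb, rfl⟩
      refine Subgroup.subset_closure ⟨_, CfsgLib.Spor.Fischer.conj_mem hD g ha, _,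
        CfsgLib.Spor.Fischer.conj_mem hD g hb, ?_⟩
      simp only [MulEquiv.coe_toMonoidHom, MulAut.conj_apply]; group
    simpa using this hx
  have hgen : ∀ g : G, ∀ x ∈ D, g * x * g⁻¹ * x⁻¹ ∈ K := fun g x hx => by
    rw [hinv x hx]; exact Subgroup.subset_closure ⟨_, CfsgLib.Spor.Fischer.conj_mem hD g hx, x, hx, rfl⟩
  have hsupn : ∀ L : Subgroup G, K ≤ L → L.Normal := fun L hKL => by
    refine ⟨fun l hl g => ?_⟩
    have : g * l * g⁻¹ * l⁻¹ ∈ K := by
      let S : Subgroup G :=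
        { carrier := {l | ∀ g, g * l * g⁻¹ * l⁻¹ ∈ K}
          one_mem' := fun g => by simp
          mul_mem' := fun {a b} ha hb g => by
            convert K.mul_mem (ha g) (hKn a _ (hb g)) using 1; group
          inv_mem' := fun {a} ha g => by
            convert hKn a⁻¹ _ (K.inv_mem (ha g)) using 1; group }
      have : (⊤ : Subgroup G) ≤ S := hD.2.2 ▸ (Subgroup.closure_le S).2 fun x hx g => hgen g x hx
      exact this (Subgroup.mem_top l) g
    have := L.mul_mem (hKL this) hl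
    rwa [inv_mul_cancel_right] at this
  have hKle : ∀ P : Sylow 3 G, K ≤ (P : Subgroup G) ⊔ O := fun P => by
    let Pb := P.mapSurjective (QuotientGroup.mk'_surjective O)
    haveI hn : (K.map π).Normal := Subgroup.Normal.map ⟨fun x hx g => hKn g x hx⟩ π (QuotientGroup.mk'_surjective O)
    obtain ⟨Q, hQ⟩ := hK3.exists_le_sylow
    obtain ⟨g, hg⟩ := MulAction.exists_smul_eq (G ⧸ O) Q Pb
    intro x hx
    have hx' : π x ∈ ((g • Q : Sylow 3 (G ⧸ O)) : Subgroup (G ⧸ O)) := by
      rw [Sylow.coe_subgroup_smul]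
      refine ⟨g⁻¹ * π x * g, hQ ?_, by show g * (g⁻¹ * π x * g) * g⁻¹ = π x; group⟩
      have := hn.conj_mem _ (Subgroup.mem_map_of_mem π hx) g⁻¹
      simpa using this
    have hx'' : π x ∈ (P : Subgroup G).map π := by rw [hg] at hx'; exact hx'
    have h := Subgroup.mem_comap.2 hx''
    rwa [Subgroup.comap_map_eq, QuotientGroup.ker_mk'] at h
  have htop : ∀ P : Sylow 3 G, Subgroup.zpowers d ⊔ (P : Subgroup G) ⊔ O = ⊤ := fun P => by
    rw [eq_top_iff, ← hD.2.2, Subgroup.closure_le]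
    intro a ha
    have h1 : K ≤ Subgroup.zpowers d ⊔ (P : Subgroup G) ⊔ O := by
      rw [sup_assoc]; exact (hKle P).trans le_sup_right
    have h2 : d ∈ Subgroup.zpowers d ⊔ (P : Subgroup G) ⊔ O :=
      Subgroup.mem_sup_left (Subgroup.mem_sup_left (Subgroup.mem_zpowers d))
    have h3 : a * d ∈ K := Subgroup.subset_closure ⟨a, ha, d, hd, rfl⟩
    simpa using mul_mem (h1 h3) (inv_mem h2)
  -- descend along normal subgroups of the core
  have hall : ∀ N : ℕ, ∀ R : Subgroup G, R.Normal → R ≤ O → Nat.card ↥R ≤ N →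
      (∃ P : Sylow 3 G, d ∈ Subgroup.normalizer (((P : Subgroup G) ⊔ R : Subgroup G) : Set G)) →
      ∃ P : Sylow 3 G, d ∈ Subgroup.normalizer ((P : Subgroup G) : Set G) := by
    intro N
    induction N with
    | zero => intro R _ _ hc; have := Nat.card_pos (α := ↥R); omega
    | succ N ih =>
      intro R hR hRO hc ⟨P, hP⟩
      by_cases hb : R = ⊥
      · exact ⟨P, by rwa [hb, sup_bot_eq] at hP⟩
      have hR2 : IsPGroup 2 ↥R := hO2.to_le hRO
      set R' := (frattini ↥R).map R.subtype with hR'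
      have hR'R : R' ≤ R := Subgroup.map_subtype_le _
      haveI hR'n : R'.Normal := by haveI := hR; exact ConjAct.normal_of_characteristic_of_normal
      have hlt : Nat.card ↥R' < Nat.card ↥R := by
        refine lt_of_le_of_ne (Nat.le_of_dvd Nat.card_pos (Subgroup.card_dvd_of_le hR'R)) fun h => hb ?_
        have hf : frattini ↥R = ⊤ := Subgroup.eq_top_of_card_eq _ (by
          rw [← h, hR', Subgroup.card_map_of_injective R.subtype_injective])
        have := frattini_nongenerating (K := (⊥ : Subgroup ↥R)) (by rw [hf, sup_top_eq])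
        rw [eq_bot_iff]
        intro x hx
        have hx' : (⟨x, hx⟩ : ↥R) ∈ (⊥ : Subgroup ↥R) := this ▸ Subgroup.mem_top _
        exact congrArg Subtype.val (Subgroup.mem_bot.1 hx')
      let ρ := QuotientGroup.mk' R'
      have hρ : Function.Surjective ρ := QuotientGroup.mk'_surjective R'
      haveI : (R.map ρ).Normal := hR.map ρ hρ
      let Pb := P.mapSurjective hρ
      have hMsq : ∀ k ∈ R.map ρ, k * k = 1 := by
        rintro _ ⟨r, hr, rfl⟩
        rw [← map_mul, QuotientGroup.mk'_apply, QuotientGroup.eq_one_iff]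
        exact ⟨⟨r, hr⟩ ^ 2, CfsgLib.Core.pgroup_pow_mem_frattini hR2 _, by simp [pow_two]⟩
      have hdn : ρ d ∈ Subgroup.normalizer (((Pb : Subgroup (G ⧸ R')) ⊔ R.map ρ : Subgroup (G ⧸ R')) : Set (G ⧸ R')) := by
        have e : (Pb : Subgroup (G ⧸ R')) ⊔ R.map ρ = ((P : Subgroup G) ⊔ R).map ρ := by
          rw [Subgroup.map_sup]; rfl
        rw [e]
        exact Subgroup.le_normalizer_map ρ ⟨d, hP, rfl⟩
      obtain ⟨kb, hkb, hn⟩ := move_into (R.map ρ) hMsq Pb (d := ρ d) (e := ρ e)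
        (by rw [← map_mul, CfsgLib.Spor.Fischer.mul_self hD hd, map_one])
        (by rw [← map_mul, CfsgLib.Spor.Fischer.mul_self hD he, map_one])
        (by rw [← map_mul, ← map_pow, h3, map_one]) hdn (fun yb hyb hmem => by
          obtain ⟨y, -, rfl⟩ := (show yb ∈ (P : Subgroup G).map ρ from hyb)
          obtain ⟨r, hr, hre⟩ := hmem
          have hO' : d⁻¹ * (y * d * y⁻¹) ∈ O := by
            have e1 : ρ r = ρ (d⁻¹ * (y * d * y⁻¹)) := by simp [hre]
            have := (QuotientGroup.eq).1 e1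
            have h := O.mul_mem (hRO hr) (hRO (hR'R this))
            rwa [mul_inv_cancel_left] at h
          have hd'' : y * d * y⁻¹ ∈ D := CfsgLib.Spor.Fischer.conj_mem hD y hd
          have hnc : ¬ Commute (y * d * y⁻¹) e := fun hc' => hde (show Commute d e from by
            have i1 := (QuotientGroup.eq (s := O)).2 hO'
            have hq : (π (d * e)) ^ 2 = 1 := by
              rw [map_mul, show π d = π (y * d * y⁻¹) from i1, ← map_mul, ← map_pow, hc'.mul_pow, pow_two, pow_two,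
                CfsgLib.Spor.Fischer.mul_self hD hd'', CfsgLib.Spor.Fischer.mul_self hD he, one_mul, map_one]
            have hq3 : (π (d * e)) ^ 3 = 1 := by rw [← map_pow, h3, map_one]
            rw [pow_succ, hq, one_mul, QuotientGroup.mk'_apply, QuotientGroup.eq_one_iff] at hq3
            obtain ⟨k, hk⟩ := hO2 ⟨_, hq3⟩
            have hk' : (d * e) ^ 2 ^ k = 1 := congrArg Subtype.val hk
            have hg := Nat.dvd_gcd (orderOf_dvd_of_pow_eq_one hk') (orderOf_dvd_of_pow_eq_one h3)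
            rw [Nat.Coprime.gcd_eq_one ((by norm_num : Nat.Coprime 2 3).pow_left k), Nat.dvd_one,
              orderOf_eq_one_iff] at hg
            rw [eq_inv_of_mul_eq_one_left hg]; exact (Commute.refl e).inv_left)
          have h4 := CfsgLib.Spor.Fischer.pow_three hD hd'' he hnc
          rw [← map_inv, ← map_mul, ← map_mul, ← map_mul, ← map_pow, h4, map_one])
      obtain ⟨k, hk, rfl⟩ := hkb
      refine ih R' hR'n (hR'R.trans hRO) (by omega) ⟨k⁻¹ • P, ?_⟩
      have hn' : k * d * k⁻¹ ∈ Subgroup.normalizer (((P : Subgroup G) ⊔ R' : Subgroup G) : Set G) := by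
        have hc' : ((P : Subgroup G).map ρ).comap ρ = (P : Subgroup G) ⊔ R' := by
          rw [Subgroup.comap_map_eq, QuotientGroup.ker_mk']
        rw [← hc']
        refine Subgroup.mem_normalizer_iff.2 fun x => ?_
        rw [Subgroup.mem_comap, Subgroup.mem_comap]
        simp only [map_mul, map_inv] at hn ⊢
        exact (Subgroup.mem_normalizer_iff.1 hn (ρ x))
      have e : ((k⁻¹ • P : Sylow 3 G) : Subgroup G) ⊔ R' =
          ((P : Subgroup G) ⊔ R').map (MulAut.conj k⁻¹).toMonoidHom := by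
        rw [Subgroup.map_sup]
        congr 1
        refine le_antisymm (fun x hx => ?_) ?_
        · refine ⟨k * x * k⁻¹, hR'n.conj_mem x hx k, ?_⟩
          simp [mul_assoc]
        · rintro _ ⟨x, hx, rfl⟩
          exact hR'n.conj_mem x hx k⁻¹
      rw [e]
      have := Subgroup.le_normalizer_map (MulAut.conj k⁻¹).toMonoidHom ⟨_, hn', rfl⟩
      simpa [mul_assoc] using this
  obtain ⟨P0⟩ : Nonempty (Sylow 3 G) := inferInstance
  haveI := hsupn _ (hKle P0)
  obtain ⟨P, hP⟩ := hall (Nat.card ↥O) O inferInstance le_rfl le_rfl ⟨P0, by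
    rw [Subgroup.normalizer_eq_top]; exact Subgroup.mem_top d⟩
  exact ⟨P, hP, htop P⟩

end Cfsg.Agent.S5356
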