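import Cfsg.Statements.S5357
import Cfsg.Agent.Lib.ClassicalReflections

set_option autoImplicit false
open scoped MatrixGroups
open Cfsg

namespace Cfsg.Agent.S5357
open CfsgLib.Classical Matrix

theorem z3_cases : ∀ a c : ZMod 3, a ≠ 0 → c ≠ 0 → a = c ∨ a = -c := by decide

theorem generic {ι : Type} [Fintype ι] [DecidableEq ι] {Q : (ι → ZMod 3) → ZMod 3}
    (hQ : Cfsg.Geo.IsNondegenerateQuadraticForm Q) (h5 : 5 ≤ Fintype.card ι) {c : ZMod 3} (hc : c ≠ 0)
    (hex : ∃ v, Q v = c) :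
    Cfsg.IsThreeTranspositionClass {g : ↥(Cfsg.reflectionSubgroup Q c) |
      (g : ↥(Cfsg.isometryGroup (ZMod 3) Q)) ∈ Cfsg.reflectionsOfNorm Q c} := by
  have h3 : (3 : ZMod 3) = 0 := rfl
  have hcc : c⁻¹ * c = 1 := inv_mul_cancel₀ hc
  have hnz : ∀ v, Q v = c → Q v ≠ 0 := fun v hv => by rw [hv]; exact hc
  have hmem : ∀ g : ↥(Cfsg.isometryGroup (ZMod 3) Q), g ∈ Cfsg.reflectionsOfNorm Q c →
      ∃ v, Q v = c ∧ (g : GL ι (ZMod 3)) = qR hQ v := by
    rintro g ⟨v, hv, e⟩
    exact ⟨v, hv, Units.ext (e.trans (qR_val hQ (hnz v hv)).symm)⟩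
  have hinR : ∀ v (hv : Q v = c), rI hQ v (hnz v hv) ∈ Cfsg.reflectionsOfNorm Q c := fun v hv =>
    ⟨v, hv, qR_val hQ (hnz v hv)⟩
  have hsq : ∀ v, qR hQ v * qR hQ v = 1 := fun v => by rw [mul_eq_one_iff_eq_inv, qR_inv hQ]
  have hpm : ∀ u, Q u = c → qR hQ (-u) = qR hQ u := fun u hu => by
    rw [← neg_one_smul (ZMod 3) u]
    exact qR_smul hQ (hnz u hu) (neg_ne_zero.2 one_ne_zero)
  have hconj : ∀ u v, Q u = c → Q v = c →
      qR hQ u * qR hQ v * qR hQ u = qR hQ (v - (c⁻¹ * QuadraticMap.polar Q v u) • u) := fun u v hu hv => by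
    have h := conj_qR hQ (qR_mem_isometry hQ (hnz u hu)) (hnz v hv)
    rwa [qR_inv hQ, qR_mulVec hQ (hnz u hu), hu] at h
  have hbraid : ∀ u v, Q u = c → Q v = c → QuadraticMap.polar Q u v ≠ 0 →
      qR hQ u * qR hQ v * qR hQ u = qR hQ v * qR hQ u * qR hQ v := by
    intro u v hu hv hp
    rw [hconj u v hu hv, hconj v u hv hu, QuadraticMap.polar_comm Q v u]
    rcases z3_cases _ c hp hc with e | e
    · rw [e, hcc, one_smul, one_smul, ← hpm (u - v), neg_sub]
      rw [q_sub hQ, hu, hv, e]; linear_combination (0 : ZMod 3) * h3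
    · rw [e, mul_neg, hcc, neg_one_smul, neg_one_smul, sub_neg_eq_add, sub_neg_eq_add, add_comm]
  have hedge : ∀ u v, Q u = c → Q v = c → QuadraticMap.polar Q u v ≠ 0 →
      ∃ k ∈ Cfsg.reflectionSubgroup Q c, (k : GL ι (ZMod 3)) * qR hQ u * (k : GL ι (ZMod 3))⁻¹ = qR hQ v := by
    intro u v hu hv hp
    refine ⟨rI hQ u (hnz u hu) * rI hQ v (hnz v hv),
      mul_mem (Subgroup.subset_closure (hinR u hu)) (Subgroup.subset_closure (hinR v hv)), ?_⟩
    show (qR hQ u * qR hQ v) * qR hQ u * (qR hQ u * qR hQ v)⁻¹ = qR hQ v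
    rw [mul_inv_eq_iff_eq_mul, hbraid u v hu hv hp, mul_assoc]
  have hclass : ∀ u v, Q u = c → Q v = c →
      ∃ k ∈ Cfsg.reflectionSubgroup Q c, (k : GL ι (ZMod 3)) * qR hQ u * (k : GL ι (ZMod 3))⁻¹ = qR hQ v := by
    intro u v hu hv
    rcases ne_or_eq (QuadraticMap.polar Q u v) 0 with hp | hp
    · exact hedge u v hu hv hp
    set U := qorth hQ (Submodule.span (ZMod 3) {u, v}) with hU
    have hdim : 3 ≤ Module.finrank (ZMod 3) U := by
      have h6 : Module.finrank (ZMod 3) U + _ = _ := finrank_qorth hQ (Submodule.span (ZMod 3) {u, v})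
      have := span_le_two (F := ZMod 3) u v
      omega
    obtain ⟨z, hz, hz0, hQz⟩ := exists_sing hQ U hdim
    obtain ⟨y, hy, hzy⟩ : ∃ y ∈ U, QuadraticMap.polar Q z y ≠ 0 := by
      by_contra! h
      have : z ∈ qorth hQ U := (mem_qorth hQ).2 h
      rw [hU, qorth_qorth hQ] at this
      obtain ⟨a, b, e⟩ := Submodule.mem_span_pair.1 this
      obtain ⟨z1, z2⟩ := (qorth_span_pair hQ).1 hz
      rw [← e] at z1 z2
      simp only [hQ.polar_bilinear.add_left, hQ.polar_bilinear.smul_left, pf_self hQ, hu, hv,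
        QuadraticMap.polar_comm Q v u, hp] at z1 z2
      have h2c : (2 : ZMod 3) * c ≠ 0 := mul_ne_zero (by decide) hc
      have ha : a = 0 := by
        have : a * (2 * c) = 0 := by linear_combination z1
        exact (mul_eq_zero.1 this).resolve_right h2c
      have hb : b = 0 := by
        have : b * (2 * c) = 0 := by linear_combination z2
        exact (mul_eq_zero.1 this).resolve_right h2c
      exact hz0 (by rw [← e, ha, hb, zero_smul, zero_smul, add_zero])
    set t := (-c - Q y) * (QuadraticMap.polar Q z y)⁻¹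
    set w := u + v + (t • z + y)
    have hQzy : Q (t • z + y) = -c := by
      rw [q_smul_add hQ, hQz, mul_zero, zero_add]
      show Q y + (-c - Q y) * (QuadraticMap.polar Q z y)⁻¹ * QuadraticMap.polar Q z y = -c
      rw [mul_assoc, inv_mul_cancel₀ hzy, mul_one]; ring
    have hzU : t • z + y ∈ U := U.add_mem (U.smul_mem _ hz) hy
    obtain ⟨o1, o2⟩ := (qorth_span_pair hQ).1 hzU
    have hwu : QuadraticMap.polar Q w u = 2 * c := by
      show QuadraticMap.polar Q (u + v + (t • z + y)) u = 2 * c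
      rw [hQ.polar_bilinear.add_left, hQ.polar_bilinear.add_left u v, o1, pf_self hQ, hu,
        QuadraticMap.polar_comm Q v u, hp, add_zero, add_zero]
    have hwv : QuadraticMap.polar Q w v = 2 * c := by
      show QuadraticMap.polar Q (u + v + (t • z + y)) v = 2 * c
      rw [hQ.polar_bilinear.add_left, hQ.polar_bilinear.add_left u v, o2, pf_self hQ, hv, hp, zero_add, add_zero]
    have hQw : Q w = c := by
      show Q (u + v + (t • z + y)) = c
      rw [q_add hQ, q_add hQ u v, hQzy, hu, hv, hp, hQ.polar_bilinear.add_left u v,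
        QuadraticMap.polar_comm Q u, QuadraticMap.polar_comm Q v, o1, o2]
      ring
    have h2c : (2 : ZMod 3) * c ≠ 0 := mul_ne_zero (by decide) hc
    obtain ⟨k, hk, e1⟩ := hedge u w hu hQw (by rw [QuadraticMap.polar_comm, hwu]; exact h2c)
    obtain ⟨l, hl, e2⟩ := hedge w v hQw hv (by rw [hwv]; exact h2c)
    refine ⟨l * k, mul_mem hl hk, ?_⟩
    show (l * k : GL ι (ZMod 3)) * qR hQ u * ((l : GL ι (ZMod 3)) * k)⁻¹ = qR hQ v
    rw [← e2, ← e1]; group
  obtain ⟨v₀, hv₀⟩ := hex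
  refine ⟨⟨fun g hg => ?_, fun g hg h hh => ?_⟩,
    ⟨⟨rI hQ v₀ (hnz v₀ hv₀), Subgroup.subset_closure (hinR v₀ hv₀)⟩, hinR v₀ hv₀, ?_⟩, ?_⟩
  · obtain ⟨v, hv, e⟩ := hmem _ hg
    have := Fact.mk Nat.prime_two
    refine orderOf_eq_prime ?_ fun h1 => ?_
    · ext1; ext1
      rw [Subgroup.coe_pow, Subgroup.coe_pow, e, sq, hsq]; rfl
    · have h2 : qR hQ v = 1 := by rw [← e, h1]; rfl
      have := congrArg (fun x : GL ι (ZMod 3) => (x : Matrix ι ι (ZMod 3)) *ᵥ v) h2
      simp only [qR_mulVec hQ (hnz v hv), Units.val_one, Matrix.one_mulVec, sub_eq_self, pf_self hQ, hv] at this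
      rcases smul_eq_zero.1 this with h | h
      · exact mul_ne_zero (inv_ne_zero hc) (mul_ne_zero (by decide) hc) h
      · exact hnz v hv (by rw [h, q_zero hQ])
  · obtain ⟨u, hu, e1⟩ := hmem _ hg
    obtain ⟨v, hv, e2⟩ := hmem _ hh
    rcases eq_or_ne (QuadraticMap.polar Q u v) 0 with hp | hp
    · left; ext1; ext1
      rw [Subgroup.coe_pow, Subgroup.coe_pow, Subgroup.coe_mul, Subgroup.coe_mul, e1, e2, sq, ← mul_assoc,
        hconj u v hu hv, QuadraticMap.polar_comm, hp, mul_zero, zero_smul, sub_zero, hsq]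
      rfl
    · right; ext1; ext1
      rw [Subgroup.coe_pow, Subgroup.coe_pow, Subgroup.coe_mul, Subgroup.coe_mul, e1, e2, pow_three,
        show qR hQ u * qR hQ v * (qR hQ u * qR hQ v * (qR hQ u * qR hQ v)) =
          (qR hQ u * qR hQ v * qR hQ u) * (qR hQ v * qR hQ u * qR hQ v) by group, hbraid u v hu hv hp]
      rw [show qR hQ v * qR hQ u * qR hQ v * (qR hQ v * qR hQ u * qR hQ v) =
        qR hQ v * (qR hQ u * (qR hQ v * qR hQ v) * qR hQ u) * qR hQ v by group, hsq, mul_one, hsq, mul_one, hsq]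
      rfl
  · ext g
    simp only [conjugatesOf, Set.mem_ofPred_eq, isConj_iff]
    constructor
    · intro hg
      obtain ⟨v, hv, e⟩ := hmem _ hg
      obtain ⟨k, hk, hke⟩ := hclass v₀ v hv₀ hv
      exact ⟨⟨k, hk⟩, Subtype.ext (Subtype.ext (hke.trans e.symm))⟩
    · rintro ⟨⟨⟨k, hkI⟩, hk⟩, rfl⟩
      refine ⟨(k : Matrix ι ι (ZMod 3)) *ᵥ v₀, (iso_Q hkI v₀).trans hv₀, ?_⟩
      rw [← qR_val hQ (by rw [iso_Q hkI]; exact hnz v₀ hv₀), ← conj_qR hQ hkI (hnz v₀ hv₀)]
      rfl
  · exact Subgroup.closure_closure_coe_preimage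

/-- Let Q be a non-degenerate quadratic form on the n-dimensional coordinate space over the field with three elements, n ≥ 5, and c a non-zero scalar. In the subgroup of the isometry group of Q generated by the reflections in vectors v with Q(v) = c, these reflections form a single conjugacy class of 3-transpositions generating that subgroup. -/
theorem result (n : ℕ) (hn : 5 ≤ n) (Q : QuadraticForm (ZMod 3) (Fin n → ZMod 3)) (hQ : (QuadraticMap.polarBilin Q).Nondegenerate) (c : ZMod 3) (hc : c ≠ 0) : Cfsg.IsThreeTranspositionClass {g : ↥(Cfsg.reflectionSubgroup (⇑Q) c) | (g : ↥(Cfsg.isometryGroup (ZMod 3) (⇑Q))) ∈ Cfsg.reflectionsOfNorm (⇑Q) c} := by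
  refine generic (isNondegenerateQuadraticForm_coe Q hQ) (by simpa using hn) hc ?_
  obtain ⟨z, -, hz0, hQz⟩ := exists_sing (isNondegenerateQuadraticForm_coe Q hQ) ⊤
    (by rw [finrank_top, Module.finrank_fintype_fun_eq_card, Fintype.card_fin]; omega)
  obtain ⟨y, hy⟩ := ((isNondegenerateQuadraticForm_coe Q hQ).nondegenerate z hz0).2
  have hzy : QuadraticMap.polar Q z y ≠ 0 := by
    first | exact hy | (rw [QuadraticMap.polar_comm]; exact hy)
  refine ⟨((c - Q y) * (QuadraticMap.polar Q z y)⁻¹) • z + y, ?_⟩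
  rw [q_smul_add (isNondegenerateQuadraticForm_coe Q hQ), hQz, mul_zero, zero_add, mul_assoc,
    inv_mul_cancel₀ hzy, mul_one]
  ring

end Cfsg.Agent.S5357
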