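import Cfsg.Statements.S5358


set_option autoImplicit false
open scoped MatrixGroups
open Cfsg

namespace Cfsg.Agent.S5358

/-- Let Q be a non-degenerate quadratic form on the n-dimensional coordinate space over the field with three elements and u, v vectors of the same non-zero norm Q(u) = Q(v) spanning different lines (v ≠ u and v ≠ −u). Then the reflection matrices of u and v commute if and only if u and v are orthogonal for the polar form of Q. -/
theorem result (n : ℕ) (Q : QuadraticForm (ZMod 3) (Fin n → ZMod 3)) (hQ : (QuadraticMap.polarBilin Q).Nondegenerate) (u v : Fin n → ZMod 3) (hu : Q u ≠ 0) (huv : Q u = Q v) (h1 : v ≠ u) (h2 : v ≠ -u) : Commute (Cfsg.reflectionMatrix (⇑Q) u) (Cfsg.reflectionMatrix (⇑Q) v) ↔ QuadraticMap.polar (⇑Q) u v = 0 := by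
  set f : (Fin n → ZMod 3) → (Fin n → ZMod 3) := fun w => Cfsg.polarVec (⇑Q) w with hf
  have hdot : ∀ w x, f w ⬝ᵥ x = QuadraticMap.polar (⇑Q) w x := by
    intro w x
    show ∑ j, QuadraticMap.polar (⇑Q) w (Pi.single j 1) * x j = _
    conv_rhs => rw [pi_eq_sum_univ' x]
    rw [← QuadraticMap.polarBilin_apply_apply, map_sum]
    refine Finset.sum_congr rfl fun j _ => ?_
    rw [map_smul, QuadraticMap.polarBilin_apply_apply, smul_eq_mul, mul_comm]
  set P : (Fin n → ZMod 3) → Matrix (Fin n) (Fin n) (ZMod 3) :=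
    fun w => (Q w)⁻¹ • Matrix.vecMulVec w (f w) with hP
  have e1 : ∀ w z, (1 - P w) * (1 - P z) = 1 - P w - P z + P w * P z := fun w z => by noncomm_ring
  have e2 : ∀ w z, P w * P z = ((Q w)⁻¹ * (Q z)⁻¹ * QuadraticMap.polar (⇑Q) w z) • Matrix.vecMulVec w (f z) := by
    intro w z
    simp only [hP, Matrix.smul_mul, Matrix.mul_smul, Matrix.vecMulVec_mul_vecMulVec, hdot, smul_smul,
      Matrix.vecMulVec_smul]
    congr 1
    ring
  have hc : Commute (Cfsg.reflectionMatrix (⇑Q) u) (Cfsg.reflectionMatrix (⇑Q) v) ↔ P u * P v = P v * P u := by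
    show (1 - P u) * (1 - P v) = (1 - P v) * (1 - P u) ↔ _
    rw [e1, e1]
    constructor
    · intro h
      rwa [sub_right_comm (1 : Matrix (Fin n) (Fin n) (ZMod 3)) (P v), add_right_inj] at h
    · intro h
      rw [h, sub_right_comm]
  rw [hc, e2, e2, QuadraticMap.polar_comm (⇑Q) v u, mul_comm (Q v)⁻¹]
  refine ⟨fun h => ?_, fun h => by simp [h]⟩
  by_contra hne
  have hv : Q v ≠ 0 := huv ▸ hu
  have h' := smul_right_injective _ (mul_ne_zero (mul_ne_zero (inv_ne_zero hu) (inv_ne_zero hv)) hne) h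
  have h2' := h2
  clear h2
  have h2 := congrArg (fun M => M.mulVec u) h'
  simp only [Matrix.vecMulVec_mulVec, hdot, op_smul_eq_smul] at h2
  rw [QuadraticMap.polar_comm (⇑Q) v u, QuadraticMap.polar_self] at h2
  have huu : (2 : ℕ) • Q u ≠ 0 := by
    rw [nsmul_eq_mul]
    exact mul_ne_zero (by decide) hu
  have hk : v = ((2 • Q u)⁻¹ * QuadraticMap.polar (⇑Q) u v) • u := by
    rw [← smul_smul, h2, smul_smul, inv_mul_cancel₀ huu, one_smul]
  set k := (2 • Q u)⁻¹ * QuadraticMap.polar (⇑Q) u v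
  have hq : Q v = k * k * Q u := by rw [hk, QuadraticMap.map_smul]; rfl
  rw [← huv] at hq
  have hk2 : k * k = 1 := mul_right_cancel₀ hu (by rw [one_mul]; exact hq.symm)
  rcases mul_self_eq_one_iff.1 hk2 with e | e
  · exact h1 (by rw [hk, e, one_smul])
  · exact h2' (by rw [hk, e, neg_one_smul])

end Cfsg.Agent.S5358
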