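import Cfsg.Statements.S5359
import Cfsg.Agent.Lib.SporReflOdd

set_option autoImplicit false
open scoped MatrixGroups
open Cfsg

namespace Cfsg.Agent.S5359

/-- Let Q be a non-degenerate quadratic form on the n-dimensional coordinate space over the field with three elements, n odd and at least 5, and c a non-zero scalar. Then the subgroup of the isometry group of Q generated by the reflections in vectors of norm c has index 2 in the isometry group. -/
theorem result (n : ℕ) (hn : 5 ≤ n) (hodd : Odd n) (Q : QuadraticForm (ZMod 3) (Fin n → ZMod 3)) (hQ : (QuadraticMap.polarBilin Q).Nondegenerate) (c : ZMod 3) (hc : c ≠ 0) : (Cfsg.reflectionSubgroup (⇑Q) c).index = 2 := by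
  classical
  have hQ' := CfsgLib.Classical.isNondegenerateQuadraticForm_coe Q hQ
  have h2 : (2 : ZMod 3) ≠ 0 := by decide
  refine CfsgLib.Spor.ReflOdd.index_closure hQ' h2 c hc (by simpa using hn) _ fun g => ?_
  constructor
  · rintro ⟨v, hv, h⟩
    have hv0 : Q v ≠ 0 := by rw [hv]; exact hc
    exact ⟨v, hv0, ⟨1, by rw [hv, div_self hc, one_mul]⟩, CfsgLib.Classical.rI_eq_of_matrix hQ' hv0 h⟩
  · rintro ⟨d, hd, hsq, rfl⟩
    refine ⟨d, ?_, CfsgLib.Classical.qR_val hQ' hd⟩
    have key : ∀ a b : ZMod 3, a ≠ 0 → b ≠ 0 → (∃ r, a * b⁻¹ = r * r) → a = b := by decide +kernel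
    exact key _ c hd hc (by simpa [IsSquare, div_eq_mul_inv] using hsq)

end Cfsg.Agent.S5359
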