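import Cfsg.Statements.S5361
import Cfsg.Agent.Lib.SporFischerCores

set_option autoImplicit false
open Cfsg
open scoped commutatorElement

namespace Cfsg.Agent.S5361

/-- Let D be a conjugacy class of 3-transpositions generating the finite group G, and suppose the centre of G is trivial and some two different members of D commute. Then the following are equivalent: (1) the commutator subgroup of G is simple (possibly of prime order); (2) G acts primitively on D by conjugation; (3) the largest normal 2-subgroup and the largest normal 3-subgroup of G are trivial and the commuting graph of D is connected. -/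
theorem result {G : Type*} [Group G] [Finite G] {D : Set G} (hD : Cfsg.IsThreeTranspositionClass D) (hZ : Subgroup.center G = ⊥) (hw : ∃ a ∈ D, ∃ b ∈ D, a ≠ b ∧ Commute a b) : (IsSimpleGroup (commutator G) ↔ Cfsg.IsPrimitiveUnderConj D) ∧ (Cfsg.IsPrimitiveUnderConj D ↔ (Cfsg.pCore 2 G = ⊥ ∧ Cfsg.pCore 3 G = ⊥ ∧ (Cfsg.commutingGraph D).Connected)) := by
  obtain ⟨a, ha, b, hb, hab, hc⟩ := hw
  have hD2 : ∃ a ∈ D, ∃ b ∈ D, a ≠ b := ⟨a, ha, b, hb, hab⟩
  have hw : ∃ a ∈ D, ∃ b ∈ D, a ≠ b ∧ Commute a b := ⟨a, ha, b, hb, hab, hc⟩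
  have h12 : IsSimpleGroup (commutator G) → Cfsg.IsPrimitiveUnderConj D := by
    intro hs
    refine CfsgLib.Spor.Fischer.primitive_of_fine hD (CfsgLib.Spor.Fischer.fine_of_simple hD hs ?_)
    by_contra hcomm
    push Not at hcomm
    haveI := hs
    have hm : a * b ∈ commutator G := CfsgLib.Spor.Fischer.mul_mem_commutator hD ha hb
    letI : CommGroup (commutator G) := { (inferInstance : Group (commutator G)) with mul_comm := hcomm }
    have hp := IsSimpleGroup.prime_card (α := commutator G)
    set t : commutator G := ⟨a * b, hm⟩ with ht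
    have ht2 : t ^ 2 = 1 := Subtype.ext ((CfsgLib.Spor.Fischer.commute_iff hD ha hb).1 hc)
    have ht1 : t ≠ 1 := fun e => hab (by
      have h1 : a * b = 1 := congrArg Subtype.val e
      rw [eq_inv_of_mul_eq_one_left h1, CfsgLib.Spor.Fischer.inv_eq hD hb])
    haveI : Fact (Nat.Prime 2) := ⟨Nat.prime_two⟩
    have hcard : Nat.card (commutator G) = 2 :=
      ((Nat.prime_dvd_prime_iff_eq Nat.prime_two hp).1 (orderOf_eq_prime ht2 ht1 ▸ orderOf_dvd_natCard t)).symm
    obtain ⟨u, v, huv, huniv⟩ := Nat.card_eq_two_iff.1 hcard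
    have hall : ∀ x : commutator G, x = 1 ∨ x = t := by
      intro x
      have h : ∀ y : commutator G, y = u ∨ y = v := fun y => by
        have hy := (Set.ext_iff.1 huniv y).2 trivial
        simpa using hy
      rcases h x with rfl | rfl <;> rcases h 1 with e1 | e1 <;> rcases h t with e2 | e2 <;>
        first
          | exact Or.inl e1.symm
          | exact Or.inr e2.symm
          | exact absurd (e2.trans e1.symm) ht1
    have hcen : (t : G) ∈ Subgroup.center G := by
      rw [Subgroup.mem_center_iff]
      intro g
      have hg : g * (t : G) * g⁻¹ ∈ commutator G := (inferInstance : (commutator G).Normal).conj_mem _ t.2 g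
      rcases hall ⟨_, hg⟩ with e | e
      · exact absurd (Subtype.ext (conj_eq_one_iff.1 (congrArg Subtype.val e))) ht1
      · exact mul_inv_eq_iff_eq_mul.1 (congrArg Subtype.val e)
    rw [hZ, Subgroup.mem_bot] at hcen
    exact ht1 (Subtype.ext hcen)
  have h23 : Cfsg.IsPrimitiveUnderConj D →
      Cfsg.pCore 2 G = ⊥ ∧ Cfsg.pCore 3 G = ⊥ ∧ (Cfsg.commutingGraph D).Connected := by
    intro hp
    obtain ⟨h2, h3⟩ := CfsgLib.Spor.Fischer.cores_central_of_primitive hD hD2 hp hw
    exact ⟨eq_bot_iff.2 (hZ ▸ h2), eq_bot_iff.2 (hZ ▸ h3), CfsgLib.Spor.Fischer.connected_of_primitive hD hp hw⟩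
  have h31 : (Cfsg.pCore 2 G = ⊥ ∧ Cfsg.pCore 3 G = ⊥ ∧ (Cfsg.commutingGraph D).Connected) →
      IsSimpleGroup (commutator G) := by
    rintro ⟨h2, h3, hconn⟩
    obtain ⟨L, hL, hq, hF⟩ := CfsgLib.Spor.Fischer.exists_component hD hD2 (h2 ▸ bot_le) (h3 ▸ bot_le)
    haveI := hL
    have hi := CfsgLib.Spor.Fischer.index_le_two_of_connected hD hD2 hq hconn
    have hcomp : Cfsg.IsComponent L := ⟨hL.isSubnormal, hq⟩
    have hle : commutator G ≤ L := by
      have hcomm : ∀ x y : G ⧸ L, x * y = y * x := by
        rw [Subgroup.index] at hi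
        rcases (show Nat.card (G ⧸ L) = 1 ∨ Nat.card (G ⧸ L) = 2 by
          have := Nat.card_pos (α := G ⧸ L); omega) with e | e
        · intro x y
          haveI := (Nat.card_eq_one_iff_unique.1 e).1
          exact Subsingleton.elim _ _
        · haveI : Fact (Nat.Prime 2) := ⟨Nat.prime_two⟩
          haveI := isCyclic_of_prime_card e
          letI := IsCyclic.commGroup (α := G ⧸ L)
          exact fun x y => mul_comm x y
      rw [commutator_def, Subgroup.commutator_le]
      intro x _ y _
      rw [← QuotientGroup.eq_one_iff]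
      show QuotientGroup.mk' L ⁅x, y⁆ = 1
      rw [map_commutatorElement, commutatorElement_eq_one_iff_mul_comm]
      exact hcomm _ _
    have heq : commutator G = L := le_antisymm hle (by
      rw [← CfsgLib.Core.isPerfect_of_component hcomp, commutator_def]
      exact Subgroup.commutator_mono le_top le_top)
    have hcb : Subgroup.center L = ⊥ := by
      have h1 : (Subgroup.center L).map L.subtype ≤ Cfsg.fittingSubgroup G := by
        refine CfsgLib.Core.le_fittingSubgroup inferInstance ?_
        letI : CommGroup ↥((Subgroup.center L).map L.subtype) :=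
          { (inferInstance : Group ↥((Subgroup.center L).map L.subtype)) with
            mul_comm := fun x y => by
              apply Subtype.ext
              obtain ⟨x0, hx0, hx⟩ := x.2
              obtain ⟨y0, -, hy⟩ := y.2
              show (x : G) * y = y * x
              rw [← hx, ← hy]
              exact congrArg Subtype.val (Subgroup.mem_center_iff.1 hx0 y0).symm }
        infer_instance
      have h4 := h1.trans (CfsgLib.Spor.Fischer.fitting_le_center hD hD2 (h2 ▸ bot_le) (h3 ▸ bot_le))
      rw [hZ, le_bot_iff] at h4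
      exact (Subgroup.map_eq_bot_iff_of_injective _ L.subtype_injective).1 h4
    haveI := hq.2
    haveI : IsSimpleGroup L :=
      ((QuotientGroup.quotientMulEquivOfEq hcb).trans QuotientGroup.quotientBot).symm.isSimpleGroup
    rw [heq]
    infer_instance
  exact ⟨⟨h12, fun h => h31 (h23 h)⟩, ⟨h23, fun h => h12 (h31 h)⟩⟩

end Cfsg.Agent.S5361
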