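import Cfsg.Statements.S5363


set_option autoImplicit false
open Cfsg

namespace Cfsg.Agent.S5363

/-- Let D be a conjugation-invariant set of involutions of a finite group G. Then every product of two members of D has odd order or order 2 if and only if, for every a in D and every b in D different from a and commuting with a, the members of D commuting with a b are exactly those commuting with both a and b. -/
theorem result {G : Type*} [Group G] [Finite G] {D : Set G} (hinv : ∀ d ∈ D, orderOf d = 2) (hconj : ∀ g : G, ∀ d ∈ D, g * d * g⁻¹ ∈ D) : (∀ a ∈ D, ∀ b ∈ D, Odd (orderOf (a * b)) ∨ orderOf (a * b) = 2) ↔ ∀ a ∈ D, ∀ b ∈ D, b ≠ a → Commute a b → {y : G | y ∈ D ∧ Commute (a * b) y} = {y : G | y ∈ D ∧ Commute a y} ∩ {y : G | y ∈ D ∧ Commute b y} := by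
  have sq : ∀ d ∈ D, d * d = 1 := fun d hd => by rw [← pow_two, ← hinv d hd]; exact pow_orderOf_eq_one d
  constructor
  · intro h a ha b hb hne hab
    ext y
    simp only [Set.mem_inter_iff, Set.mem_setOf_eq]
    refine ⟨fun ⟨hy, hc⟩ => ?_, fun ⟨⟨hy, h1⟩, _, h2⟩ => ⟨hy, h1.mul_left h2⟩⟩
    suffices ha' : Commute a y by
      refine ⟨⟨hy, ha'⟩, hy, ?_⟩
      have h0 : b = a * (a * b) := by rw [← mul_assoc, sq a ha, one_mul]
      rw [h0]
      exact ha'.mul_left hc
    by_contra hnc
    set c := a * b with hcdef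
    have hc2 : c * c = 1 := by
      rw [hcdef, show a * b * (a * b) = a * (b * a) * b by group, ← hab.eq, ← mul_assoc a a, sq a ha, one_mul, sq b hb]
    have hcne : c ≠ 1 := fun e => hne (by
      have : b = a * (a * b) := by rw [← mul_assoc, sq a ha, one_mul]
      rwa [← hcdef, e, mul_one] at this)
    have hca : Commute c a := (Commute.refl a).mul_left hab.symm
    have hcu : Commute (y * a) c := (hc.symm).mul_left hca.symm
    have hyb : y * b = y * a * c := by rw [hcdef, mul_assoc y, ← mul_assoc a, sq a ha, one_mul]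
    have hu : Odd (orderOf (y * a)) := by
      refine (h y hy a ha).resolve_right fun e => hnc ?_
      have : (y * a) * (y * a) = 1 := by rw [← pow_two, ← e]; exact pow_orderOf_eq_one _
      have h3 : y * a = (y * a)⁻¹ := eq_inv_of_mul_eq_one_left this
      rw [mul_inv_rev, inv_eq_of_mul_eq_one_left (sq a ha), inv_eq_of_mul_eq_one_left (sq y hy)] at h3
      exact h3.symm
    have oc : orderOf c = 2 := orderOf_eq_prime (hp := ⟨Nat.prime_two⟩) (by rw [pow_two, hc2]) hcne
    have horder := hcu.orderOf_mul_eq_mul_orderOf_of_coprime (by rw [oc]; exact (Nat.coprime_two_right).2 hu)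
    rw [← hyb, oc] at horder
    rcases h y hy b hb with e | e
    · rw [horder] at e
      exact Nat.not_odd_iff_even.2 (even_iff_two_dvd.2 (dvd_mul_left 2 _)) e
    · have h1 : y * a = 1 := orderOf_eq_one_iff.1 (by omega)
      have : y = a := by rw [← mul_one y, ← sq a ha, ← mul_assoc, h1, one_mul]
      exact hnc (this ▸ Commute.refl a)
  · intro h a ha b hb
    by_contra hno
    push Not at hno
    obtain ⟨hodd, hne2⟩ := hno
    obtain ⟨m, hm⟩ := Nat.not_odd_iff_even.1 hodd
    set r := a * b with hr
    have har : a * r * a⁻¹ = r⁻¹ := by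
      rw [hr, mul_inv_rev, inv_eq_of_mul_eq_one_left (sq a ha), inv_eq_of_mul_eq_one_left (sq b hb), ← mul_assoc,
        sq a ha, one_mul]
    have hbr : b = a * r := by rw [hr, ← mul_assoc, sq a ha, one_mul]
    have inv_a : ∀ i : ℕ, r ^ i * a = a * (r ^ i)⁻¹ := by
      intro i
      have e : (a * r * a⁻¹) ^ i = a * r ^ i * a⁻¹ := conj_pow
      rw [har, inv_pow] at e
      rw [e, inv_eq_of_mul_eq_one_left (sq a ha), ← mul_assoc, ← mul_assoc, sq a ha, one_mul]
    set w := r ^ m with hw
    have hw2 : w * w = 1 := by rw [hw, ← pow_add, ← hm]; exact pow_orderOf_eq_one r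
    have hm0 : 0 < m := by have := orderOf_pos r; omega
    have hwne : w ≠ 1 := fun e => by
      have := Nat.le_of_dvd hm0 (orderOf_dvd_of_pow_eq_one e)
      omega
    have hawD : a * w ∈ D := by
      rcases Nat.even_or_odd m with ⟨i, hi⟩ | ⟨i, hi⟩
      · have := hconj (r ^ i)⁻¹ a ha
        have e : (r ^ i)⁻¹ * a * (r ^ i)⁻¹⁻¹ = a * r ^ m := by
          rw [inv_inv, ← (show a * r ^ i = (r ^ i)⁻¹ * a from ?_), hi, mul_assoc, ← pow_add]
          calc a * r ^ i = (r ^ i)⁻¹ * (r ^ i * a) * r ^ i := by group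
            _ = (r ^ i)⁻¹ * a := by rw [inv_a]; group
        rwa [e] at this
      · have := hconj (r ^ i)⁻¹ b hb
        have e : (r ^ i)⁻¹ * b * (r ^ i)⁻¹⁻¹ = a * r ^ m := by
          rw [inv_inv, hbr, ← mul_assoc, ← (show a * r ^ i = (r ^ i)⁻¹ * a from ?_), hi, mul_assoc, mul_assoc,
            ← pow_succ', ← pow_add, show i + (i + 1) = 2 * i + 1 by omega]
          calc a * r ^ i = (r ^ i)⁻¹ * (r ^ i * a) * r ^ i := by group
            _ = (r ^ i)⁻¹ * a := by rw [inv_a]; group
        rwa [e] at this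
    have hcom : Commute a (a * w) := by
      show a * (a * w) = a * w * a
      rw [← mul_assoc, sq a ha, one_mul, mul_assoc, hw, inv_a m, ← mul_assoc, sq a ha, one_mul,
        ← hw, inv_eq_of_mul_eq_one_left hw2]
    have hset := h a ha (a * w) hawD (fun e => hwne (mul_left_cancel (e.trans (mul_one a).symm))) hcom
    have hbw : Commute (a * (a * w)) b := by
      rw [← mul_assoc, sq a ha, one_mul]
      show w * b = b * w
      rw [hbr, hw, ← mul_assoc, inv_a m, ← hw, inv_eq_of_mul_eq_one_left hw2, mul_assoc, mul_assoc, hw,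
        (Commute.pow_self r m).eq]
    have := hset.le ⟨hb, hbw⟩
    refine hne2 (orderOf_eq_prime (hp := ⟨Nat.prime_two⟩) ?_ fun e => ?_)
    · rw [pow_two, hr]
      have c : Commute a b := this.1.2
      rw [show a * b * (a * b) = a * (b * a) * b by group, ← c.eq, ← mul_assoc a a, sq a ha, one_mul, sq b hb]
    · rw [e, orderOf_one] at hm; omega

end Cfsg.Agent.S5363
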