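import Cfsg.Statements.S5364


set_option autoImplicit false
open Cfsg

namespace Cfsg.Agent.S5364

/-- Let D be a conjugation-invariant set of involutions of a finite group G and t an involution in the centre of G such that d t does not lie in D for any d in D. If the images of the members of D in G modulo the subgroup generated by t satisfy the 3-transposition order conditions (each has order 2 and any two have product of order at most 3), then so do the members of D. -/
theorem result {G : Type*} [Group G] [Finite G] {D : Set G} (hinv : ∀ d ∈ D, orderOf d = 2) (hconj : ∀ g : G, ∀ d ∈ D, g * d * g⁻¹ ∈ D) (t : G) (ht : orderOf t = 2) (htZ : t ∈ Subgroup.center G) (hDt : ∀ d ∈ D, d * t ∉ D) [(Subgroup.zpowers t).Normal] (himg : Cfsg.IsThreeTranspositionSet ((QuotientGroup.mk : G → G ⧸ Subgroup.zpowers t) '' D)) : Cfsg.IsThreeTranspositionSet D := by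
  refine ⟨hinv, fun d hd e he => ?_⟩
  have sq : ∀ u ∈ D, u * u = 1 := fun u hu => by rw [← pow_two, ← hinv u hu]; exact pow_orderOf_eq_one u
  have hmem : ∀ u : G, ((QuotientGroup.mk u : G ⧸ Subgroup.zpowers t) = 1) → u = 1 ∨ u = t := by
    intro u hu
    rw [QuotientGroup.eq_one_iff] at hu
    obtain ⟨k, rfl⟩ := Subgroup.mem_zpowers_iff.1 hu
    have ht2 : t ^ (2 : ℤ) = 1 := by
      rw [show (2 : ℤ) = ((2 : ℕ) : ℤ) from rfl, zpow_natCast, ← ht]; exact pow_orderOf_eq_one t
    rcases Int.even_or_odd k with ⟨j, rfl⟩ | ⟨j, rfl⟩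
    · left; rw [← two_mul, zpow_mul, ht2, one_zpow]
    · right; rw [zpow_add, zpow_mul, ht2, one_zpow, one_mul, zpow_one]
  have conjD : ∀ u ∈ D, ∀ v ∈ D, u * v * u ∈ D := fun u hu v hv => by
    have := hconj u v hv
    rwa [inv_eq_of_mul_eq_one_left (sq u hu)] at this
  have hct : ∀ u, u * t = t * u := Subgroup.mem_center_iff.1 htZ
  rcases himg.2 _ ⟨d, hd, rfl⟩ _ ⟨e, he, rfl⟩ with h | h <;>
    rw [← QuotientGroup.mk_mul, ← QuotientGroup.mk_pow] at h
  · refine Or.inl ((hmem _ h).resolve_right fun h2 => hDt e he ?_)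
    have : d * e * d = e * t := by
      calc d * e * d = (d * e) ^ 2 * e := by
            rw [pow_two, mul_assoc (d * e) (d * e), mul_assoc d e e, sq e he, mul_one]
        _ = e * t := by rw [h2, hct]
    rw [← this]; exact conjD d hd e he
  · refine Or.inr ((hmem _ h).resolve_right fun h2 => hDt (e * d * e) (conjD e he d hd) ?_)
    have hxy : (d * e * d) * (e * d * e) = t := by rw [← h2, pow_succ, pow_two]; simp [mul_assoc]
    have : e * d * e * t = d * e * d := by
      rw [hct, ← hxy, mul_assoc, sq _ (conjD e he d hd), mul_one]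
    rw [this]; exact conjD d hd e he

end Cfsg.Agent.S5364
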