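import Cfsg.Statements.S5366


set_option autoImplicit false
open Cfsg

namespace Cfsg.Agent.S5366
open Cfsg.LineSystem

/-- `x, y, z` are three different points of a line. -/
def Line3 {X : Type*} (L : Set (Set X)) (x y z : X) : Prop :=
  z ≠ x ∧ z ≠ y ∧ x ≠ y ∧ ({x, y, z} : Set X) ∈ L

def Spec {X : Type*} (L : Set (Set X)) (x : X) (f : X → X) : Prop :=
  ∀ y, (∀ z, Line3 L x y z → f y = z) ∧ ((∀ z, ¬ Line3 L x y z) → f y = y)

theorem Spec.eq {X : Type*} {L : Set (Set X)} {x : X} {f g : X → X} (hf : Spec L x f) (hg : Spec L x g) :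
    f = g := funext fun y => by
  by_cases h : ∃ z, Line3 L x y z
  · obtain ⟨z, hz⟩ := h; rw [(hf y).1 z hz, (hg y).1 z hz]
  · push Not at h; rw [(hf y).2 h, (hg y).2 h]

theorem affine_model (p : Fin 2 → ZMod 3) :
    Spec Cfsg.affinePlaneThree p (fun y => -(p + y)) ∧
      ∀ l ∈ Cfsg.affinePlaneThree, (fun y => -(p + y)) '' l ∈ Cfsg.affinePlaneThree := by
  have h3 : ∀ v : Fin 2 → ZMod 3, v + v + v = 0 := fun v => funext fun i => by
    show v i + v i + v i = 0
    generalize v i = a; revert a; decide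
  refine ⟨fun y => ⟨?_, fun h => ?_⟩, ?_⟩
  · rintro z ⟨hzp, hzy, hpy, v, w, -, hl⟩
    obtain ⟨a, ha⟩ := (hl ▸ (by simp) : p ∈ {x | ∃ c : ZMod 3, x = v + c • w})
    obtain ⟨b, hb⟩ := (hl ▸ (by simp) : y ∈ {x | ∃ c : ZMod 3, x = v + c • w})
    obtain ⟨c, hc⟩ := (hl ▸ (by simp) : z ∈ {x | ∃ c : ZMod 3, x = v + c • w})
    have hab : a ≠ b := fun e => hpy (by rw [ha, hb, e])
    have hca : c ≠ a := fun e => hzp (by rw [hc, ha, e])
    have hcb : c ≠ b := fun e => hzy (by rw [hc, hb, e])
    have hs : a + b + c = 0 := by clear * - hab hca hcb; revert hab hca hcb; revert a b c; decide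
    refine neg_eq_of_add_eq_zero_right ?_
    rw [ha, hb, hc, show v + a • w + (v + b • w) + (v + c • w) = (v + v + v) + (a + b + c) • w by module,
      h3, hs, zero_smul, add_zero]
  · by_contra hne
    have hpy : p ≠ y := by
      rintro rfl
      exact hne (neg_eq_of_add_eq_zero_right (h3 p))
    refine h (-(p + y)) ⟨fun e => hpy ?_, hne, hpy, p, y - p, sub_ne_zero.2 (Ne.symm hpy), ?_⟩
    · have := h3 p
      calc p = -(p + y) + (p + y) + p := by abel
        _ = p + (p + y) + p := by rw [e]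
        _ = (p + p + p) + y := by abel
        _ = y := by rw [this, zero_add]
    · have h2 : p + (2 : ZMod 3) • (y - p) = -(p + y) := by
        funext i
        show p i + 2 * (y i - p i) = -(p i + y i)
        generalize p i = a, y i = b; revert a b; decide
      ext u
      simp only [Set.mem_insert_iff, Set.mem_singleton_iff, Set.mem_ofPred_eq]
      constructor
      · rintro (rfl | rfl | rfl)
        · exact ⟨0, by simp⟩
        · exact ⟨1, by simp⟩
        · exact ⟨2, h2.symm⟩
      · rintro ⟨c, rfl⟩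
        rcases (by decide : ∀ c : ZMod 3, c = 0 ∨ c = 1 ∨ c = 2) c with rfl | rfl | rfl
        · simp
        · simp
        · exact Or.inr (Or.inr h2)
  · rintro _ ⟨v, w, hw, rfl⟩
    refine ⟨-(p + v), -w, neg_ne_zero.2 hw, ?_⟩
    ext u
    simp only [Set.mem_image, Set.mem_ofPred_eq]
    constructor
    · rintro ⟨_, ⟨c, rfl⟩, rfl⟩; exact ⟨c, by module⟩
    · rintro ⟨c, rfl⟩; exact ⟨_, ⟨c, rfl⟩, by module⟩

/-- The transposition attached to a point of the dual affine plane. -/
def dualMap (p s : Cfsg.DualAffinePoint) : Cfsg.DualAffinePoint :=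
  ⟨s.val.image fun a => if a ∈ p.val then (p.val.erase a).fold max 0 id else a, by
    revert p s; decide +kernel⟩

theorem dual_model (p : Cfsg.DualAffinePoint) :
    Spec Cfsg.dualAffinePlaneTwo p (dualMap p) ∧
      ∀ l ∈ Cfsg.dualAffinePlaneTwo, dualMap p '' l ∈ Cfsg.dualAffinePlaneTwo := by
  refine ⟨fun y => ⟨?_, fun h => ?_⟩, ?_⟩
  · rintro z ⟨hzp, hzy, hpy, i, hl⟩
    have a1 : i ∉ p.val := show p ∈ {s : Cfsg.DualAffinePoint | i ∉ s.val} from hl ▸ (by simp)
    have a2 : i ∉ y.val := show y ∈ {s : Cfsg.DualAffinePoint | i ∉ s.val} from hl ▸ (by simp)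
    have a3 : i ∉ z.val := show z ∈ {s : Cfsg.DualAffinePoint | i ∉ s.val} from hl ▸ (by simp)
    exact (by decide +kernel : ∀ p y z : Cfsg.DualAffinePoint, z ≠ p → z ≠ y → p ≠ y →
      ∀ i : Fin 4, i ∉ p.val → i ∉ y.val → i ∉ z.val → dualMap p y = z) p y z hzp hzy hpy i a1 a2 a3
  · by_contra hne
    obtain ⟨i, a1, a2, a3, h1, h2, hcov⟩ := (by decide +kernel : ∀ p y : Cfsg.DualAffinePoint, dualMap p y ≠ y →
      ∃ i : Fin 4, i ∉ p.val ∧ i ∉ y.val ∧ i ∉ (dualMap p y).val ∧ dualMap p y ≠ p ∧ p ≠ y ∧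
        ∀ s : Cfsg.DualAffinePoint, i ∉ s.val → s = p ∨ s = y ∨ s = dualMap p y) p y hne
    refine h (dualMap p y) ⟨h1, hne, h2, i, ?_⟩
    ext s
    simp only [Set.mem_insert_iff, Set.mem_singleton_iff, Set.mem_ofPred_eq]
    exact ⟨by rintro (rfl | rfl | rfl) <;> assumption, hcov s⟩
  · rintro _ ⟨i, rfl⟩
    obtain ⟨j, hj1, hj2⟩ := (by decide +kernel : ∀ (p : Cfsg.DualAffinePoint) (i : Fin 4), ∃ j : Fin 4,
      (∀ s : Cfsg.DualAffinePoint, i ∉ s.val → j ∉ (dualMap p s).val) ∧
        ∀ u : Cfsg.DualAffinePoint, j ∉ u.val → ∃ s : Cfsg.DualAffinePoint, i ∉ s.val ∧ dualMap p s = u) p i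
    refine ⟨j, Set.ext fun u => ⟨?_, hj2 u⟩⟩
    rintro ⟨s, hs, rfl⟩
    exact hj1 s hs

section Space

variable {X : Type*} {L : Set (Set X)} (hL : Cfsg.IsFischerSpace L)

include hL

theorem line3_exists {x y : X} (h : Collinear L x y) : ∃ z, Line3 L x y z := by
  obtain ⟨hne, l, hl, hx, hy⟩ := h
  obtain ⟨a, b, c, hab, hac, hbc, rfl⟩ := Set.ncard_eq_three.1 (hL.2.1 l hl)
  simp only [Set.mem_insert_iff, Set.mem_singleton_iff] at hx hy
  rcases hx with rfl | rfl | rfl <;> rcases hy with rfl | rfl | rfl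
  all_goals first
    | exact absurd rfl hne
    | exact ⟨c, hac.symm, hbc.symm, hne, by convert hl using 1⟩
    | exact ⟨c, hbc.symm, hac.symm, hne, by convert hl using 1; exact Set.insert_comm _ _ _⟩
    | exact ⟨b, hab.symm, hbc, hne, by convert hl using 1; rw [Set.pair_comm]⟩
    | exact ⟨b, hbc, hab.symm, hne, by convert hl using 1; ext; simp; tauto⟩
    | exact ⟨a, hab, hac, hne, by convert hl using 1; ext; simp; tauto⟩
    | exact ⟨a, hac, hab, hne, by convert hl using 1; ext; simp; tauto⟩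

theorem line3_unique {x y z z' : X} (h : Line3 L x y z) (h' : Line3 L x y z') : z = z' := by
  have e := hL.1 _ h.2.2.2 _ h'.2.2.2 x y h.2.2.1 (by simp) (by simp) (by simp) (by simp)
  have : z ∈ ({x, y, z'} : Set X) := e ▸ (by simp)
  simp only [Set.mem_insert_iff, Set.mem_singleton_iff] at this
  exact (this.resolve_left h.1).resolve_left h.2.1

theorem spec_lineMap (x : X) : Spec L x (lineMap L x) := by
  intro y
  constructor
  · intro z hz
    have h : ∃ z : X, z ≠ x ∧ z ≠ y ∧ x ≠ y ∧ ({x, y, z} : Set X) ∈ L := ⟨z, hz⟩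
    rw [lineMap, dif_pos h]
    exact line3_unique hL h.choose_spec hz
  · intro h
    rw [lineMap, dif_neg (fun ⟨z, hz⟩ => h z hz)]

theorem lineMap_invol (x : X) : Function.Involutive (lineMap L x) := by
  intro y
  by_cases h : ∃ z, Line3 L x y z
  · obtain ⟨z, hz⟩ := h
    rw [(spec_lineMap hL x y).1 z hz]
    exact (spec_lineMap hL x z).1 y ⟨hz.2.2.1.symm, hz.2.1.symm, hz.1.symm, by
      rw [Set.pair_comm]; exact hz.2.2.2⟩
  · push Not at h
    rw [(spec_lineMap hL x y).2 h, (spec_lineMap hL x y).2 h]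

theorem lineMap_line (x : X) {l : Set X} (hl : l ∈ L) : lineMap L x '' l ∈ L := by
  by_cases hc : ∃ y ∈ l, ∃ z, Line3 L x y z
  swap
  · push Not at hc
    convert hl using 1
    rw [Set.image_congr (fun y hy => (spec_lineMap hL x y).2 (hc y hy)), Set.image_id']
  obtain ⟨y, hy, z, hz⟩ := hc
  by_cases hxl : x ∈ l
  · have e : l = {x, y, z} := hL.1 l hl _ hz.2.2.2 x y hz.2.2.1 hxl hy (by simp) (by simp)
    have hxx : lineMap L x x = x := (spec_lineMap hL x x).2 fun w hw => hw.2.2.1 rfl
    convert hl using 1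
    rw [e, Set.image_insert_eq, Set.image_pair, hxx, (spec_lineMap hL x y).1 z hz]
    have : lineMap L x z = y := by
      conv_lhs => rw [← (spec_lineMap hL x y).1 z hz]
      exact lineMap_invol hL x y
    rw [this, Set.pair_comm]
  have hne : l ≠ {x, y, z} := fun e => hxl (e ▸ (by simp))
  have hfs := hL.2.2 l hl _ hz.2.2.2 hne ⟨y, hy, by simp⟩
  set S := span L (l ∪ {x, y, z}) with hS
  have hsub : IsSubspace L S := fun n hn a ha b hb hab han hbn => Set.subset_sInter fun T hT =>
    hT.2 n hn a (Set.mem_sInter.1 ha T hT) b (Set.mem_sInter.1 hb T hT) hab han hbn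
  have hgen : l ∪ {x, y, z} ⊆ S := Set.subset_sInter fun T hT => hT.1
  have hxS : x ∈ S := hgen (Or.inr (by simp))
  have hlS : l ⊆ S := fun w hw => hgen (Or.inl hw)
  suffices h : ∀ {P : Type} {M : Set (Set P)}, (∀ p, ∃ g, Spec M p g ∧ ∀ n ∈ M, g '' n ∈ M) →
      Isomorphic (restrict L S) M → lineMap L x '' l ∈ L by
    rcases hfs with h' | h'
    · exact h (fun p => ⟨_, dual_model p⟩) h'
    · exact h (fun p => ⟨_, affine_model p⟩) h'
  intro P M hM hiso
  obtain ⟨e, he⟩ := hiso
  have hmaps : ∀ a : S, lineMap L x a ∈ S := fun a => by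
    by_cases h : ∃ w, Line3 L x a w
    · obtain ⟨w, hw⟩ := h
      rw [(spec_lineMap hL x a).1 w hw]
      exact hsub _ hw.2.2.2 x hxS a a.2 hw.2.2.1 (by simp) (by simp) (by simp)
    · push Not at h
      rw [(spec_lineMap hL x a).2 h]; exact a.2
  let tS : S → S := fun a => ⟨lineMap L x a, hmaps a⟩
  have htr : ∀ a b c : S, ({(a : X), (b : X), (c : X)} : Set X) ∈ L ↔ ({e a, e b, e c} : Set P) ∈ M := by
    intro a b c
    rw [show ({e a, e b, e c} : Set P) = e '' {a, b, c} by rw [Set.image_insert_eq, Set.image_pair], ← he]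
    constructor
    · intro h
      refine ⟨_, h, ?_, Set.ext fun u => ?_⟩
      · rintro w (rfl | rfl | rfl) <;> exact Subtype.coe_prop _
      · simp [Subtype.ext_iff]
    · rintro ⟨n, hn, hnS, e'⟩
      convert hn using 1
      ext w
      constructor
      · intro hw
        simp only [Set.mem_insert_iff, Set.mem_singleton_iff] at hw
        rcases hw with rfl | rfl | rfl
        · exact (Set.ext_iff.1 e' a).1 (by simp)
        · exact (Set.ext_iff.1 e' b).1 (by simp)
        · exact (Set.ext_iff.1 e' c).1 (by simp)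
      · intro hw
        have := (Set.ext_iff.1 e' ⟨w, hnS hw⟩).2 hw
        simpa [Subtype.ext_iff] using this
  obtain ⟨g, hg, hgl⟩ := hM (e ⟨x, hxS⟩)
  have hf : Spec M (e ⟨x, hxS⟩) fun q => e (tS (e.symm q)) := by
    intro q
    obtain ⟨a, rfl⟩ := e.surjective q
    simp only [Equiv.symm_apply_apply]
    constructor
    · intro r hr
      obtain ⟨b, rfl⟩ := e.surjective r
      refine congrArg e (Subtype.ext ((spec_lineMap hL x a).1 b ⟨?_, ?_, ?_, (htr _ _ _).2 hr.2.2.2⟩))
      · exact fun h => hr.1 (congrArg e (Subtype.ext h))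
      · exact fun h => hr.2.1 (congrArg e (Subtype.ext h))
      · exact fun h => hr.2.2.1 (congrArg e (Subtype.ext h))
    · intro h
      refine congrArg e (Subtype.ext ((spec_lineMap hL x a).2 fun w hw => ?_))
      have hwS : w ∈ S := hsub _ hw.2.2.2 x hxS a a.2 hw.2.2.1 (by simp) (by simp) (by simp)
      exact h (e ⟨w, hwS⟩) ⟨fun h' => hw.1 (congrArg Subtype.val (e.injective h')),
        fun h' => hw.2.1 (congrArg Subtype.val (e.injective h')),
        fun h' => hw.2.2.1 (congrArg Subtype.val (e.injective h')), (htr _ _ _).1 hw.2.2.2⟩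
  have hge := Spec.eq hg hf
  have hm : ({a : S | (a : X) ∈ l} : Set S) ∈ restrict L S := ⟨l, hl, hlS, rfl⟩
  have him := hgl _ ((he _).1 hm)
  rw [hge, Set.image_image] at him
  simp only [Equiv.symm_apply_apply] at him
  rw [← Set.image_image e tS, ← he] at him
  obtain ⟨l', hl', hl'S, e'⟩ := him
  convert hl' using 1
  ext w
  constructor
  · rintro ⟨a, ha, rfl⟩
    exact (Set.ext_iff.1 e' (tS ⟨a, hlS ha⟩)).1 ⟨_, ha, rfl⟩
  · intro hw
    obtain ⟨a, ha, hae⟩ := (Set.ext_iff.1 e' ⟨w, hl'S hw⟩).2 hw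
    exact ⟨a, ha, congrArg Subtype.val hae⟩

/-- The involution attached to a point. -/
noncomputable def tPerm (x : X) : Equiv.Perm X := (lineMap_invol hL x).toPerm _

theorem tPerm_iso (x : X) : IsIso L L (tPerm hL x) := by
  intro l
  constructor
  · exact lineMap_line hL x
  · intro h
    have := lineMap_line hL x h
    have e : lineMap L x '' (tPerm hL x '' l) = l := by
      show lineMap L x '' (lineMap L x '' l) = l
      rw [Set.image_image]
      simp [lineMap_invol hL x _]
    rwa [e] at this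

theorem conj_tPerm (x y : X) :
    tPerm hL x * tPerm hL y * tPerm hL x = tPerm hL (lineMap L x y) := by
  have hs : Spec L (lineMap L x y) fun q => lineMap L x (lineMap L y (lineMap L x q)) := by
    intro q
    have inj := (lineMap_invol hL x).injective
    have key : ∀ a b c, Line3 L a b c → Line3 L (lineMap L x a) (lineMap L x b) (lineMap L x c) := fun a b c h =>
      ⟨fun e => h.1 (inj e), fun e => h.2.1 (inj e), fun e => h.2.2.1 (inj e), by
        rw [← Set.image_pair, ← Set.image_insert_eq]; exact lineMap_line hL x h.2.2.2⟩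
    constructor
    · intro z hz
      have := key _ _ _ hz
      rw [lineMap_invol hL x y] at this
      simp only
      rw [(spec_lineMap hL y _).1 _ this, lineMap_invol hL x z]
    · intro h
      simp only
      rw [(spec_lineMap hL y _).2 fun w hw => h (lineMap L x w) ?_, lineMap_invol hL x q]
      have := key _ _ _ hw
      rwa [lineMap_invol hL x q] at this
  ext q
  exact congrFun (Spec.eq hs (spec_lineMap hL _)) q

end Space

/-- Let L be a nondegenerate Fischer space on the point type X (every point on a line). Then for every point x the map t(x) — sending a point collinear with x to the third point of their common line and fixing every other point — is a permutation of X of order 2 and an automorphism of the line system; and the set of all t(x) satisfies the 3-transposition order conditions in the permutation group of X (any two have product of order at most 3). -/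
theorem result {X : Type*} (L : Set (Set X)) (hL : Cfsg.IsFischerSpace L) (hnd : Cfsg.LineSystem.IsNondegenerate L) : (∀ x : X, ∃ σ : Equiv.Perm X, ⇑σ = Cfsg.LineSystem.lineMap L x ∧ orderOf σ = 2 ∧ Cfsg.LineSystem.IsIso L L σ) ∧ Cfsg.IsThreeTranspositionSet {σ : Equiv.Perm X | ∃ x : X, ⇑σ = Cfsg.LineSystem.lineMap L x} := by
  have hsq : ∀ x, tPerm hL x * tPerm hL x = 1 := fun x => Equiv.ext fun q => lineMap_invol hL x q
  have hord : ∀ x, orderOf (tPerm hL x) = 2 := by
    intro x
    have := Fact.mk Nat.prime_two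
    refine orderOf_eq_prime (by rw [sq, hsq]) fun h => ?_
    obtain ⟨l, hl, hx⟩ := hnd x
    obtain ⟨a, b, c, hab, -, -, rfl⟩ := Set.ncard_eq_three.1 (hL.2.1 l hl)
    obtain ⟨y, hy, hyx⟩ : ∃ y ∈ ({a, b, c} : Set X), x ≠ y := by
      by_cases hxa : x = a
      · exact ⟨b, by simp, hxa ▸ hab⟩
      · exact ⟨a, by simp, hxa⟩
    obtain ⟨z, hz⟩ := line3_exists hL (x := x) (y := y) ⟨hyx, _, hl, hx, hy⟩
    have e := congrArg (fun σ : Equiv.Perm X => σ y) h
    have e' : lineMap L x y = y := e
    rw [(spec_lineMap hL x y).1 z hz] at e'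
    exact hz.2.1 e'
  refine ⟨fun x => ⟨tPerm hL x, rfl, hord x, tPerm_iso hL x⟩, ?_, ?_⟩
  · rintro σ ⟨x, hx⟩
    rw [show σ = tPerm hL x from Equiv.ext (congrFun hx)]
    exact hord x
  · rintro σ ⟨x, hx⟩ τ ⟨y, hy⟩
    rw [show σ = tPerm hL x from Equiv.ext (congrFun hx), show τ = tPerm hL y from Equiv.ext (congrFun hy)]
    by_cases h : ∃ z, Line3 L x y z
    · right
      obtain ⟨z, hz⟩ := h
      have hz' : Line3 L y x z := ⟨hz.2.1, hz.1, hz.2.2.1.symm, by rw [Set.insert_comm]; exact hz.2.2.2⟩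
      rw [pow_three, show tPerm hL x * tPerm hL y * (tPerm hL x * tPerm hL y * (tPerm hL x * tPerm hL y)) =
        (tPerm hL x * tPerm hL y * tPerm hL x) * (tPerm hL y * tPerm hL x * tPerm hL y) by group,
        conj_tPerm hL x y, conj_tPerm hL y x, (spec_lineMap hL x y).1 z hz, (spec_lineMap hL y x).1 z hz', hsq]
    · left
      push Not at h
      rw [sq, ← mul_assoc, conj_tPerm hL x y, (spec_lineMap hL x y).2 h, hsq]

end Cfsg.Agent.S5366
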