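import Cfsg.Statements.S5367
import Cfsg.Agent.S5366


set_option autoImplicit false
open Cfsg

namespace Cfsg.Agent.S5367
open Cfsg.LineSystem Cfsg.Agent.S5366

/-- An involutory quandle with the 3-transposition property. -/
structure TQ (P : Type*) where
  op : P → P → P
  idem : ∀ x, op x x = x
  invol : ∀ x y, op x (op x y) = y
  dist : ∀ x y z, op x (op y z) = op (op x y) (op x z)
  fix_symm : ∀ x y, op x y = y → op y x = x
  comm : ∀ x y, op x y ≠ y → op x y = op y x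

namespace TQ

variable {P : Type*} (Q : TQ P)

theorem nc_symm {x y : P} (h : Q.op x y ≠ y) : Q.op y x ≠ x := fun e => h (Q.fix_symm y x e)

theorem nc_ne {x y : P} (h : Q.op x y ≠ y) : x ≠ y := fun e => h (e ▸ Q.idem x)

theorem nc_map {x y : P} (g : P) (h : Q.op x y ≠ y) : Q.op (Q.op g x) (Q.op g y) ≠ Q.op g y := by
  rw [← Q.dist]
  exact fun e => h (by rw [← Q.invol g (Q.op x y), e, Q.invol])

/-- A map from a finite model which respects the operation. -/
theorem hom_of_gens {n : ℕ} (T : Fin n → Fin n → Fin n) (φ : Fin n → P) (gens : List (Fin n))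
    (hT : ∀ s t q, T (T s t) q = T s (T t (T s q)))
    (hgen : ∀ r, r ∈ gens ∨ (∃ s ∈ gens, ∃ t ∈ gens, T s t = r) ∨
      ∃ s ∈ gens, ∃ t ∈ gens, ∃ u ∈ gens, T s (T t u) = r)
    (h : ∀ s ∈ gens, ∀ q, Q.op (φ s) (φ q) = φ (T s q)) : ∀ p q, Q.op (φ p) (φ q) = φ (T p q) := by
  have step : ∀ s t, (∀ q, Q.op (φ s) (φ q) = φ (T s q)) → (∀ q, Q.op (φ t) (φ q) = φ (T t q)) →
      ∀ q, Q.op (φ (T s t)) (φ q) = φ (T (T s t) q) := by
    intro s t hs ht q
    have e := Q.dist (φ s) (φ t) (Q.op (φ s) (φ q))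
    rw [Q.invol (φ s) (φ q), hs t] at e
    rw [← e, hs q, ht, hs, hT]
  intro r
  rcases hgen r with hr | ⟨s, hs, t, ht, rfl⟩ | ⟨s, hs, t, ht, u, hu, rfl⟩
  · exact h r hr
  · exact step s t (h s hs) (h t ht)
  · exact step s _ (h s hs) (step t u (h t ht) (h u hu))

theorem inj_of_base {n : ℕ} (T : Fin n → Fin n → Fin n) (φ : Fin n → P)
    (h : ∀ p q, Q.op (φ p) (φ q) = φ (T p q)) (W : List (List (Fin n))) (base : List (Fin n × Fin n))
    (hbase : ∀ b ∈ base, φ b.1 ≠ φ b.2)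
    (hW : ∀ p q, p ≠ q → ∃ w ∈ W, (w.foldl (fun u g => T g u) p, w.foldl (fun u g => T g u) q) ∈ base ∨
      (w.foldl (fun u g => T g u) q, w.foldl (fun u g => T g u) p) ∈ base) : Function.Injective φ := by
  intro p q e
  by_contra hne
  obtain ⟨w, -, hw⟩ := hW p q hne
  have key : ∀ (w : List (Fin n)) p q, φ p = φ q →
      φ (w.foldl (fun u g => T g u) p) = φ (w.foldl (fun u g => T g u) q) := by
    intro w
    induction w with
    | nil => exact fun p q h => h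
    | cons g w ih => exact fun p q e => ih _ _ (by rw [← h g p, ← h g q, e])
  rcases hw with hw | hw
  · exact hbase _ hw (key w p q e)
  · exact hbase _ hw (key w q p e.symm)

def affT : Fin 9 → Fin 9 → Fin 9 := ![![0, 3, 4, 1, 2, 6, 5, 8, 7], ![3, 1, 5, 0, 7, 2, 8, 4, 6],
  ![4, 5, 2, 8, 0, 1, 7, 6, 3], ![1, 0, 8, 3, 6, 7, 4, 5, 2], ![2, 7, 0, 6, 4, 8, 3, 1, 5],
  ![6, 2, 1, 7, 8, 5, 0, 3, 4], ![5, 8, 7, 4, 3, 0, 6, 2, 1], ![8, 4, 6, 5, 1, 3, 2, 7, 0],
  ![7, 6, 3, 2, 5, 4, 1, 0, 8]]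

def dualT : Fin 6 → Fin 6 → Fin 6 := ![![0, 3, 2, 1, 5, 4], ![3, 1, 4, 0, 2, 5], ![0, 4, 2, 5, 1, 3],
  ![1, 0, 5, 3, 4, 2], ![5, 2, 1, 3, 4, 0], ![4, 1, 3, 2, 0, 5]]

theorem dual_plane {a b c : P} (hab : Q.op a b ≠ b) (hbc : Q.op b c ≠ c) (hac : Q.op a c = c) (hne : a ≠ c) :
    ∃ φ : Fin 6 → P, Function.Injective φ ∧ (∀ p q, Q.op (φ p) (φ q) = φ (dualT p q)) ∧
      φ 0 = a ∧ φ 1 = b ∧ φ 2 = c := by
  let d := Q.op a (Q.op b c)
  let φ : Fin 6 → P := ![a, b, c, Q.op a b, Q.op b c, d]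
  have e1 : Q.op b a = Q.op a b := (Q.comm a b hab).symm
  have e2 : Q.op c b = Q.op b c := (Q.comm b c hbc).symm
  have hca : Q.op c a = a := Q.fix_symm a c hac
  have g1 : Q.op (Q.op a b) c = d := by
    have := Q.dist a b c
    rw [hac] at this
    exact this.symm
  have g2 : Q.op b d = d := by
    show Q.op b (Q.op a (Q.op b c)) = d
    rw [Q.dist b a (Q.op b c), e1, Q.invol]; exact g1
  have g3 : Q.op c (Q.op a b) = d := by rw [Q.dist c a b, hca, e2]
  have hgens : ∀ s ∈ [(0 : Fin 6), 1, 2], ∀ q, Q.op (φ s) (φ q) = φ (dualT s q) := by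
    intro s hs q
    simp only [List.mem_cons, List.not_mem_nil, or_false] at hs
    rcases hs with rfl | rfl | rfl <;> fin_cases q
    exacts [Q.idem a, rfl, hac, Q.invol a b, rfl, Q.invol a _,
      e1, Q.idem b, rfl, (by show Q.op b (Q.op a b) = a; rw [← e1, Q.invol]), Q.invol b c, g2,
      hca, e2, Q.idem c, g3, (by show Q.op c (Q.op b c) = b; rw [← e2, Q.invol]),
      (by show Q.op c d = Q.op a b; rw [← g3, Q.invol])]
  have hom := hom_of_gens Q dualT φ [0, 1, 2] (by decide +kernel) (by decide +kernel) hgens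
  refine ⟨φ, inj_of_base Q dualT φ hom [[], [0], [2], [0, 2], [0, 1, 2], [1], [0, 1, 0, 2], [0, 1], [1, 2],
    [0, 1, 2, 1], [1, 2, 1], [1, 0, 2], [2, 1]] [(0, 1), (0, 2)] ?_ (by decide +kernel), hom, rfl, rfl, rfl⟩
  intro x hx
  simp only [List.mem_cons, List.not_mem_nil, or_false] at hx
  rcases hx with rfl | rfl
  · exact Q.nc_ne hab
  · exact hne

theorem affine_plane {a b c : P} (hab : Q.op a b ≠ b) (hbc : Q.op b c ≠ c) (hac : Q.op a c ≠ c)
    (habc : Q.op a (Q.op b c) ≠ Q.op b c) :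
    ∃ φ : Fin 9 → P, Function.Injective φ ∧ (∀ p q, Q.op (φ p) (φ q) = φ (affT p q)) ∧
      φ 0 = a ∧ φ 1 = b ∧ φ 2 = c := by
  let x := Q.op a (Q.op b c)
  let y := Q.op b (Q.op a c)
  let z := Q.op c (Q.op a b)
  let φ : Fin 9 → P := ![a, b, c, Q.op a b, Q.op a c, Q.op b c, x, y, z]
  have e1 : Q.op b a = Q.op a b := (Q.comm a b hab).symm
  have e2 : Q.op c b = Q.op b c := (Q.comm b c hbc).symm
  have e3 : Q.op c a = Q.op a c := (Q.comm a c hac).symm
  have n1 : Q.op (Q.op a b) c ≠ c := by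
    have := Q.nc_map b habc
    rwa [e1, Q.invol] at this
  have n2 : Q.op (Q.op a c) b ≠ b := by
    have := Q.nc_map c habc
    rwa [e3, ← e2, Q.invol] at this
  have g1 : Q.op a y = z := by
    show Q.op a (Q.op b (Q.op a c)) = z
    rw [Q.dist a b (Q.op a c), Q.invol]; exact Q.comm _ _ n1
  have g2 : Q.op b x = z := by
    show Q.op b (Q.op a (Q.op b c)) = z
    rw [Q.dist b a (Q.op b c), e1, Q.invol]; exact Q.comm _ _ n1
  have g3 : Q.op c x = y := by
    show Q.op c (Q.op a (Q.op b c)) = y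
    rw [Q.dist c a (Q.op b c), e3, ← e2, Q.invol]; exact Q.comm _ _ n2
  have hgens : ∀ s ∈ [(0 : Fin 9), 1, 2], ∀ q, Q.op (φ s) (φ q) = φ (affT s q) := by
    intro s hs q
    simp only [List.mem_cons, List.not_mem_nil, or_false] at hs
    rcases hs with rfl | rfl | rfl <;> fin_cases q
    exacts [Q.idem a, rfl, rfl, Q.invol a b, Q.invol a c, rfl, Q.invol a _, g1,
      (by show Q.op a z = y; rw [← g1, Q.invol]),
      e1, Q.idem b, rfl, (by show Q.op b (Q.op a b) = a; rw [← e1, Q.invol]), rfl, Q.invol b c, g2,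
      Q.invol b _, (by show Q.op b z = x; rw [← g2, Q.invol]),
      e3, e2, Q.idem c, rfl, (by show Q.op c (Q.op a c) = a; rw [← e3, Q.invol]),
      (by show Q.op c (Q.op b c) = b; rw [← e2, Q.invol]), g3,
      (by show Q.op c y = x; rw [← g3, Q.invol]), Q.invol c _]
  have hom := hom_of_gens Q affT φ [0, 1, 2] (by decide +kernel) (by decide +kernel) hgens
  refine ⟨φ, inj_of_base Q affT φ hom [[], [0], [1, 0], [2, 0], [1], [2], [0, 1], [1, 2], [2, 1], [0, 2],
    [1, 2, 1], [0, 2, 1], [0, 1, 2], [1, 0, 2]] [(0, 1), (0, 2), (1, 2), (0, 5)] ?_ (by decide +kernel),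
    hom, rfl, rfl, rfl⟩
  intro x hx
  simp only [List.mem_cons, List.not_mem_nil, or_false] at hx
  rcases hx with rfl | rfl | rfl | rfl
  · exact Q.nc_ne hab
  · exact Q.nc_ne hac
  · exact Q.nc_ne hbc
  · exact Q.nc_ne habc

/-- The lines of the quandle. -/
def lines : Set (Set P) := {l | ∃ x y, Q.op x y ≠ y ∧ l = {x, y, Q.op x y}}

theorem line_eq {l : Set P} (hl : l ∈ Q.lines) {u v : P} (hu : u ∈ l) (hv : v ∈ l) (hne : u ≠ v) :
    Q.op u v ≠ v ∧ l = {u, v, Q.op u v} := by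
  obtain ⟨x, y, h, rfl⟩ := hl
  have e := Q.comm x y h
  have h1 : Q.op y x ≠ x := Q.nc_symm h
  have h2 : Q.op x (Q.op x y) ≠ Q.op x y := by rw [Q.invol]; exact h.symm
  have h3 : Q.op y (Q.op x y) ≠ Q.op x y := by rw [e, Q.invol]; exact h1.symm
  have h4 : Q.op y (Q.op x y) = x := by rw [e, Q.invol]
  simp only [Set.mem_insert_iff, Set.mem_singleton_iff] at hu hv
  rcases hu with hu | hu | hu <;> rcases hv with hv | hv | hv <;> rw [hu, hv] at hne ⊢
  all_goals first | exact absurd rfl hne | skip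
  · exact ⟨h, rfl⟩
  · refine ⟨h2, ?_⟩
    rw [Q.invol]; ext; simp; tauto
  · refine ⟨h1, ?_⟩
    rw [← e]; ext; simp; tauto
  · refine ⟨h3, ?_⟩
    rw [h4]; ext; simp; tauto
  · refine ⟨Q.nc_symm h2, ?_⟩
    rw [← Q.comm _ _ h2, Q.invol]; ext; simp; tauto
  · refine ⟨Q.nc_symm h3, ?_⟩
    rw [← Q.comm _ _ h3, h4]; ext; simp; tauto

theorem isFischerSpace : Cfsg.IsFischerSpace Q.lines := by
  refine ⟨?_, ?_, ?_⟩
  · intro l hl m hm x y hne hxl hyl hxm hym
    rw [(Q.line_eq hl hxl hyl hne).2, (Q.line_eq hm hxm hym hne).2]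
  · rintro l ⟨x, y, h, rfl⟩
    have hxy := Q.nc_ne h
    refine Set.ncard_eq_three.2 ⟨x, y, _, hxy, ?_, fun e => h e.symm, rfl⟩
    intro e
    exact hxy (by have := Q.invol x y; rw [← e, Q.idem] at this; exact this)
  intro l hl m hm hlm ⟨b, hbl, hbm⟩
  have other : ∀ {k : Set P}, k ∈ Q.lines → b ∈ k → ∃ a ∈ k, a ≠ b := by
    rintro k ⟨x, y, h, rfl⟩ -
    by_cases hx : x = b
    · exact ⟨y, by simp, fun e => Q.nc_ne h (hx.trans e.symm)⟩
    · exact ⟨x, by simp, hx⟩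
  obtain ⟨a, hal, hab'⟩ := other hl hbl
  obtain ⟨c, hcm, hcb'⟩ := other hm hbm
  obtain ⟨hab, hle⟩ := Q.line_eq hl hal hbl hab'
  obtain ⟨hbc, hme⟩ := Q.line_eq hm hbm hcm hcb'.symm
  have hnem : ∀ u ∈ m, u ≠ b → a ≠ u := fun u hu hub e => hlm (by
    rw [hle, (Q.line_eq hm (e ▸ hu) hbm hab').2])
  have main : ∀ {n : ℕ} {M : Type} (N : Set (Set M)) (T : Fin n → Fin n → Fin n) (e : Fin n ≃ M)
      (hN : ∀ p, ∃ g, Spec N p g ∧ ∀ q, g (e q) = e (T (e.symm p) q))
      (hN3 : ∀ k ∈ N, ∃ p q r, Line3 N p q r ∧ k = {p, q, r}) (φ : Fin n → P),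
      Function.Injective φ → (∀ p q, Q.op (φ p) (φ q) = φ (T p q)) →
      ∀ i0 i1 i2 : Fin n, (∀ r, r ∈ [i0, i1, i2] ∨ (∃ s ∈ [i0, i1, i2], ∃ t ∈ [i0, i1, i2], T s t = r) ∨
        ∃ s ∈ [i0, i1, i2], ∃ t ∈ [i0, i1, i2], ∃ u ∈ [i0, i1, i2], T s (T t u) = r) →
      l ⊆ Set.range φ → m ⊆ Set.range φ → φ i0 ∈ l ∪ m → φ i1 ∈ l ∪ m → φ i2 ∈ l ∪ m →
      Isomorphic (restrict Q.lines (span Q.lines (l ∪ m))) N := by
    intro n M N T e hN hN3 φ hφ hom i0 i1 i2 hgen hlr hmr h0 h1 h2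
    have hsub : IsSubspace Q.lines (Set.range φ) := by
      rintro k hk u ⟨p, rfl⟩ v ⟨q, rfl⟩ hne hu hv
      rw [(Q.line_eq hk hu hv hne).2, hom]
      rintro w (rfl | rfl | rfl) <;> exact ⟨_, rfl⟩
    have hspan : span Q.lines (l ∪ m) = Set.range φ := by
      refine Set.Subset.antisymm (Set.sInter_subset_of_mem ⟨Set.union_subset hlr hmr, hsub⟩) ?_
      refine Set.subset_sInter ?_
      rintro S ⟨hS, hSs⟩ _ ⟨r, rfl⟩
      have hg : ∀ s ∈ [i0, i1, i2], φ s ∈ S := by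
        intro s hs
        simp only [List.mem_cons, List.not_mem_nil, or_false] at hs
        rcases hs with rfl | rfl | rfl
        exacts [hS h0, hS h1, hS h2]
      have step : ∀ s t, φ s ∈ S → φ t ∈ S → φ (T s t) ∈ S := by
        intro s t hs ht
        rw [← hom]
        by_cases h : Q.op (φ s) (φ t) = φ t
        · rw [h]; exact ht
        · exact hSs _ ⟨φ s, φ t, h, rfl⟩ _ hs _ ht (Q.nc_ne h) (by simp) (by simp) (by simp)
      rcases hgen r with hr | ⟨s, hs, t, ht, rfl⟩ | ⟨s, hs, t, ht, u, hu, rfl⟩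
      exacts [hg r hr, step _ _ (hg s hs) (hg t ht), step _ _ (hg s hs) (step _ _ (hg t ht) (hg u hu))]
    rw [hspan]
    let E : Set.range φ ≃ M := (Equiv.ofInjective φ hφ).symm.trans e
    have hE : ∀ q, E ⟨φ q, q, rfl⟩ = e q := fun q => by
      show e ((Equiv.ofInjective φ hφ).symm ⟨φ q, q, rfl⟩) = e q
      rw [Equiv.ofInjective_symm_apply hφ]
    refine ⟨E, fun k => ⟨?_, ?_⟩⟩
    · rintro ⟨k', hk', hsubk, rfl⟩
      obtain ⟨u, v, huv, rfl⟩ := hk'
      obtain ⟨p, rfl⟩ := hsubk (show u ∈ _ by simp)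
      obtain ⟨q, rfl⟩ := hsubk (show v ∈ _ by simp)
      rw [hom] at huv
      obtain ⟨g, hg, hgT⟩ := hN (e p)
      have hgq := hgT q
      rw [e.symm_apply_apply] at hgq
      have hne : ∃ r, Line3 N (e p) (e q) r := by
        by_contra hc; push Not at hc
        have e' := (hg (e q)).2 hc
        rw [hgq] at e'
        exact huv (congrArg φ (e.injective e'))
      obtain ⟨r, hr⟩ := hne
      have hr' := (hg (e q)).1 r hr
      rw [hgq] at hr'
      convert hr.2.2.2 using 1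
      rw [← hr']
      ext w
      simp only [Set.mem_image, Set.mem_ofPred_eq, Set.mem_insert_iff, Set.mem_singleton_iff, hom]
      constructor
      · rintro ⟨⟨_, t, rfl⟩, h, rfl⟩
        rcases h with h | h | h <;> have := hφ h <;> subst this <;> simp [hE]
      · rintro (rfl | rfl | rfl) <;> exact ⟨⟨_, _, rfl⟩, by simp, hE _⟩
    · intro hk
      obtain ⟨p, q, r, hr, hke⟩ := hN3 _ hk
      obtain ⟨g, hg, hgT⟩ := hN p
      have hr' := (hg q).1 r hr
      obtain ⟨p, rfl⟩ := e.surjective p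
      obtain ⟨q, rfl⟩ := e.surjective q
      rw [hgT, e.symm_apply_apply] at hr'
      have hnc : Q.op (φ p) (φ q) ≠ φ q := by
        rw [hom]; exact fun h => hr.2.1 (by rw [← hr', hφ h])
      refine ⟨_, ⟨φ p, φ q, hnc, rfl⟩, ?_, ?_⟩
      · rintro w (rfl | rfl | rfl)
        exacts [⟨_, rfl⟩, ⟨_, rfl⟩, ⟨_, (hom p q).symm⟩]
      · ext ⟨w, t, rfl⟩
        have := Set.ext_iff.1 hke (e t)
        rw [← hE t, E.injective.mem_set_image, hE t] at this
        rw [this, ← hr', hom]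
        simp [hφ.eq_iff]
  by_cases hac : Q.op a c = c ∨ Q.op a (Q.op b c) = Q.op b c
  · left
    have dual : ∀ c', c' ∈ m → c' ≠ b → Q.op a c' = c' →
        Isomorphic (restrict Q.lines (span Q.lines (l ∪ m))) Cfsg.dualAffinePlaneTwo := by
      intro c' hc' hc'b hac'
      obtain ⟨hbc', hme'⟩ := Q.line_eq hm hbm hc' hc'b.symm
      obtain ⟨φ, hφ, hom, f0, f1, f2⟩ := Q.dual_plane hab hbc' hac' (hnem c' hc' hc'b)
      let e : Fin 6 ≃ Cfsg.DualAffinePoint := Equiv.ofBijective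
        ![⟨{0, 1}, rfl⟩, ⟨{1, 2}, rfl⟩, ⟨{2, 3}, rfl⟩, ⟨{0, 2}, rfl⟩, ⟨{1, 3}, rfl⟩, ⟨{0, 3}, rfl⟩]
        (by decide +kernel)
      refine main _ dualT e (fun p => ⟨_, (dual_model p).1, ?_⟩) ?_ φ hφ hom 0 1 2 (by decide +kernel)
        ?_ ?_ (f0 ▸ Or.inl hal) (f1 ▸ Or.inl hbl) (f2 ▸ Or.inr hc')
      · intro q
        obtain ⟨p, rfl⟩ := e.surjective p
        rw [e.symm_apply_apply]
        exact (by decide +kernel : ∀ p q, dualMap
          ((![⟨{0, 1}, rfl⟩, ⟨{1, 2}, rfl⟩, ⟨{2, 3}, rfl⟩, ⟨{0, 2}, rfl⟩, ⟨{1, 3}, rfl⟩, ⟨{0, 3}, rfl⟩] :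
            Fin 6 → Cfsg.DualAffinePoint) p)
          ((![⟨{0, 1}, rfl⟩, ⟨{1, 2}, rfl⟩, ⟨{2, 3}, rfl⟩, ⟨{0, 2}, rfl⟩, ⟨{1, 3}, rfl⟩, ⟨{0, 3}, rfl⟩] :
            Fin 6 → Cfsg.DualAffinePoint) q) =
          (![⟨{0, 1}, rfl⟩, ⟨{1, 2}, rfl⟩, ⟨{2, 3}, rfl⟩, ⟨{0, 2}, rfl⟩, ⟨{1, 3}, rfl⟩, ⟨{0, 3}, rfl⟩] :
            Fin 6 → Cfsg.DualAffinePoint) (dualT p q)) p q
      · rintro _ ⟨i, rfl⟩
        obtain ⟨p, q, h1, a1, a2, a3, hcov⟩ := (by decide +kernel : ∀ i : Fin 4, ∃ p q : Cfsg.DualAffinePoint,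
          dualMap p q ≠ q ∧ i ∉ p.val ∧ i ∉ q.val ∧ i ∉ (dualMap p q).val ∧
            ∀ s : Cfsg.DualAffinePoint, i ∉ s.val → s = p ∨ s = q ∨ s = dualMap p q) i
        obtain ⟨r, hr⟩ : ∃ r, Line3 Cfsg.dualAffinePlaneTwo p q r := by
          by_contra hc; push Not at hc
          exact h1 (((dual_model p).1 q).2 hc)
        have hr' := ((dual_model p).1 q).1 r hr
        refine ⟨p, q, r, hr, ?_⟩
        rw [← hr']
        ext s
        simp only [Set.mem_insert_iff, Set.mem_singleton_iff, Set.mem_ofPred_eq]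
        exact ⟨hcov s, by rintro (rfl | rfl | rfl) <;> assumption⟩
      · rw [hle, ← f0, ← f1, hom]
        rintro w (rfl | rfl | rfl) <;> exact ⟨_, rfl⟩
      · rw [hme', ← f1, ← f2, hom]
        rintro w (rfl | rfl | rfl) <;> exact ⟨_, rfl⟩
    rcases hac with h | h
    · exact dual c hcm hcb' h
    · refine dual _ (hme ▸ (by simp)) (fun e => ?_) h
      have := Q.invol b c
      rw [e, Q.idem] at this
      exact hcb' this.symm
  · right
    push Not at hac
    obtain ⟨φ, hφ, hom, f0, f1, f2⟩ := Q.affine_plane hab hbc hac.1 hac.2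
    let e : Fin 9 ≃ (Fin 2 → ZMod 3) := Equiv.ofBijective
      ![![0, 0], ![1, 0], ![0, 1], ![2, 0], ![0, 2], ![2, 2], ![1, 1], ![2, 1], ![1, 2]] (by decide +kernel)
    refine main _ affT e (fun p => ⟨_, (affine_model p).1, ?_⟩) ?_ φ hφ hom 0 1 2 (by decide +kernel)
      ?_ ?_ (f0 ▸ Or.inl hal) (f1 ▸ Or.inl hbl) (f2 ▸ Or.inr hcm)
    · intro q
      obtain ⟨p, rfl⟩ := e.surjective p
      rw [e.symm_apply_apply]
      exact (by decide +kernel : ∀ p q,
        -((![![0, 0], ![1, 0], ![0, 1], ![2, 0], ![0, 2], ![2, 2], ![1, 1], ![2, 1], ![1, 2]] :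
            Fin 9 → Fin 2 → ZMod 3) p +
          (![![0, 0], ![1, 0], ![0, 1], ![2, 0], ![0, 2], ![2, 2], ![1, 1], ![2, 1], ![1, 2]] :
            Fin 9 → Fin 2 → ZMod 3) q) =
          (![![0, 0], ![1, 0], ![0, 1], ![2, 0], ![0, 2], ![2, 2], ![1, 1], ![2, 1], ![1, 2]] :
            Fin 9 → Fin 2 → ZMod 3) (affT p q)) p q
    · rintro _ ⟨v, w, hw, rfl⟩
      have h2 : -(v + (v + w)) = v + (2 : ZMod 3) • w := by
        funext i
        show -(v i + (v i + w i)) = v i + 2 * w i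
        generalize v i = x, w i = y; revert x y; decide
      obtain ⟨r, hr⟩ : ∃ r, Line3 Cfsg.affinePlaneThree v (v + w) r := by
        by_contra hc; push Not at hc
        have e' := (((affine_model v).1) (v + w)).2 hc
        simp only at e'
        rw [h2, add_right_inj] at e'
        have : (1 : ZMod 3) • w = 0 := by
          have h3 : (2 : ZMod 3) • w - w = 0 := sub_eq_zero.2 e'
          rw [← h3]; module
        exact hw (by rwa [one_smul] at this)
      have hr' := ((affine_model v).1 (v + w)).1 r hr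
      refine ⟨v, v + w, r, hr, ?_⟩
      rw [← hr']
      simp only
      rw [h2]
      ext u
      simp only [Set.mem_insert_iff, Set.mem_singleton_iff, Set.mem_ofPred_eq]
      constructor
      · rintro ⟨c, rfl⟩
        rcases (by decide : ∀ c : ZMod 3, c = 0 ∨ c = 1 ∨ c = 2) c with rfl | rfl | rfl <;> simp
      · rintro (rfl | rfl | rfl)
        exacts [⟨0, by simp⟩, ⟨1, by simp⟩, ⟨2, rfl⟩]
    · rw [hle, ← f0, ← f1, hom]
      rintro w (rfl | rfl | rfl) <;> exact ⟨_, rfl⟩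
    · rw [hme, ← f1, ← f2, hom]
      rintro w (rfl | rfl | rfl) <;> exact ⟨_, rfl⟩

end TQ

/-- Let D be a conjugation-invariant generating set of 3-transpositions of a finite group G. Then the line system on D whose lines are the triples {x, y, y x y⁻¹} for non-commuting members x, y of D is a Fischer space: two points lie on at most one line, lines have three points, and two different meeting lines generate a subspace isomorphic to the dual affine plane of order two or to the affine plane of order three. -/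
theorem result {G : Type*} [Group G] [Finite G] {D : Set G} (hD : Cfsg.IsThreeTranspositionGroup D) : Cfsg.IsFischerSpace (Cfsg.threeTranspositionLines D) := by
  obtain ⟨⟨h2, h3⟩, hconj, -⟩ := hD
  have sq : ∀ x ∈ D, x * x = 1 := fun x hx => by rw [← pow_two, ← h2 x hx, pow_orderOf_eq_one]
  have inv : ∀ x ∈ D, x⁻¹ = x := fun x hx => inv_eq_of_mul_eq_one_right (sq x hx)
  have cm : ∀ x y : D, (x : G) * y * (x : G)⁻¹ = y ↔ Commute (x : G) y := fun x y => mul_inv_eq_iff_eq_mul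
  have comm' : ∀ x y : D, ¬ Commute (x : G) y → (x : G) * y * (x : G)⁻¹ = (y : G) * x * (y : G)⁻¹ := by
    intro x y h
    rw [inv _ x.2, inv _ y.2]
    rcases h3 x x.2 y y.2 with e | e
    · refine absurd ?_ h
      have : (x : G) * y = ((x : G) * y)⁻¹ := eq_inv_of_mul_eq_one_left (by rw [← pow_two, e])
      rwa [mul_inv_rev, inv _ x.2, inv _ y.2] at this
    · have e' : ((x : G) * y * x) * ((y : G) * x * y) = 1 := by
        rw [← e, pow_three]; group
      have := eq_inv_of_mul_eq_one_left e'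
      rwa [mul_inv_rev, mul_inv_rev, inv _ x.2, inv _ y.2, ← mul_assoc] at this
  let Q : TQ ↥D :=
    { op := fun x y => ⟨(x : G) * y * (x : G)⁻¹, hconj x y y.2⟩
      idem := fun x => Subtype.ext (mul_inv_cancel_right _ _)
      invol := fun x y => Subtype.ext (by
        show (x : G) * ((x : G) * y * (x : G)⁻¹) * (x : G)⁻¹ = y
        rw [inv _ x.2, ← mul_assoc, ← mul_assoc, sq _ x.2, one_mul, mul_assoc, sq _ x.2, mul_one])
      dist := fun x y z => Subtype.ext (by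
        show (x : G) * ((y : G) * z * (y : G)⁻¹) * (x : G)⁻¹ = _
        group)
      fix_symm := fun x y h => Subtype.ext ((cm y x).2 ((cm x y).1 (congrArg Subtype.val h)).symm)
      comm := fun x y h => Subtype.ext (comm' x y fun hc => h (Subtype.ext ((cm x y).2 hc))) }
  have hlines : Cfsg.threeTranspositionLines D = Q.lines := by
    ext l
    constructor
    · rintro ⟨x, y, hxy, rfl⟩
      refine ⟨y, x, fun e => hxy ((cm y x).1 (congrArg Subtype.val e)).symm, ?_⟩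
      ext z
      simp only [Set.mem_ofPred_eq, Set.mem_insert_iff, Set.mem_singleton_iff, Subtype.ext_iff]
      exact ⟨by rintro (h | h | h) <;> simp [h, Q], by rintro (h | h | h) <;> simp [h, Q]⟩
    · rintro ⟨x, y, hxy, rfl⟩
      refine ⟨y, x, fun hc => hxy (Subtype.ext ((cm x y).2 hc.symm)), ?_⟩
      ext z
      simp only [Set.mem_ofPred_eq, Set.mem_insert_iff, Set.mem_singleton_iff, Subtype.ext_iff]
      exact ⟨by rintro (h | h | h) <;> simp [h, Q], by rintro (h | h | h) <;> simp [h, Q]⟩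
  rw [hlines]
  exact Q.isFischerSpace

end Cfsg.Agent.S5367
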