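import Cfsg.Statements.S5392
import Cfsg.Agent.Lib.SporLeechModTwo

set_option autoImplicit false
open Cfsg

namespace Cfsg.Agent.S5392

open CfsgLib.Spor

/-- The Leech lattice modulo twice itself is a faithful irreducible module for the first Conway group: an automorphism of the rank-24 lattice built from the length-24 code that moves every lattice vector only by twice a lattice vector lies in the centre of the automorphism group (the centre consists of ±1, which act trivially there, so the kernel is exactly the centre), and an additive subgroup lying between twice the lattice and the lattice that is invariant under all lattice automorphisms is one of the two. -/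
theorem result : (∀ g : ↥Cfsg.Co0, (∀ v : ↥Cfsg.leechLattice, ∃ w : ↥Cfsg.leechLattice, ((g • v : ↥Cfsg.leechLattice) : Cfsg.GolayPt → ℤ) - (v : Cfsg.GolayPt → ℤ) = 2 • (w : Cfsg.GolayPt → ℤ)) → g ∈ Subgroup.center ↥Cfsg.Co0) ∧ ∀ M : AddSubgroup (Cfsg.GolayPt → ℤ), (∀ v ∈ Cfsg.leechLattice, (2 : ℤ) • v ∈ M) → M ≤ Cfsg.leechLattice → (∀ g : ↥Cfsg.Co0, ∀ v : ↥Cfsg.leechLattice, (v : Cfsg.GolayPt → ℤ) ∈ M → ((g • v : ↥Cfsg.leechLattice) : Cfsg.GolayPt → ℤ) ∈ M) → (∀ x ∈ M, ∃ w ∈ Cfsg.leechLattice, x = (2 : ℤ) • w) ∨ M = Cfsg.leechLattice := by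
  refine ⟨fun g h => kernel_mod_two fun v => ?_, fun M h2 hle hinv => ?_⟩
  · obtain ⟨w, hw⟩ := h v
    exact sub_eq_two_nsmul_iff.1 ⟨w, w.2, hw⟩
  · have hd : ∀ w : Cfsg.leechLattice, w + w ∈ M.comap Cfsg.leechLattice.subtype := fun w => by
      have := h2 _ w.2
      rw [two_zsmul] at this
      exact this
    rcases irreducible_mod_two (M.comap Cfsg.leechLattice.subtype) hd (fun g v hv => hinv g v hv) with h | h
    · refine Or.inl fun x hx => ?_
      obtain ⟨w, e⟩ := kap_eq_zero_iff.1 (h ⟨x, hle hx⟩ hx)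
      exact ⟨w, w.2, by rw [two_zsmul]; exact congrArg Subtype.val e⟩
    · exact Or.inr (le_antisymm hle fun x hx => h ⟨x, hx⟩)

end Cfsg.Agent.S5392
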