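import Cfsg.Statements.S5394
import Cfsg.Agent.Lib.SporM24Fixed

set_option autoImplicit false
open Cfsg

namespace Cfsg.Agent.S5394

open CfsgLib.Spor
open scoped Pointwise

/-- The automorphism group of the length-24 code built from the squares modulo 23 has exactly two conjugacy classes of involutions: an involution either fixes exactly the eight points of an octad or has no fixed points, both kinds occur, and any two involutions of the same kind are conjugate in the group. -/
theorem result : (∀ g ∈ Cfsg.M24, orderOf g = 2 → (Finset.univ.filter fun p => g p = p) ∈ Cfsg.octads ∨ ∀ p, g p ≠ p) ∧ (∃ g ∈ Cfsg.M24, orderOf g = 2 ∧ (Finset.univ.filter fun p => g p = p) ∈ Cfsg.octads) ∧ (∃ g ∈ Cfsg.M24, orderOf g = 2 ∧ ∀ p, g p ≠ p) ∧ ∀ g ∈ Cfsg.M24, ∀ h ∈ Cfsg.M24, orderOf g = 2 → orderOf h = 2 → ((∀ p, g p ≠ p) ↔ (∀ p, h p ≠ p)) → ∃ k ∈ Cfsg.M24, k * g * k⁻¹ = h := by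
  have hv : validL (repsTwo.getD 0 []) = true ∧ validL (repsTwo.getD 1 []) = true ∧
      listInCodeGroup (repsTwo.getD 0 []) = true ∧ listInCodeGroup (repsTwo.getD 1 []) = true := by decide +kernel
  have hsq : ∀ i ∈ [0, 1], ordTwo (repsTwo.getD i []) = true ∧ repsTwo.getD i [] ≠ List.range 24 := by decide +kernel
  have hord : ∀ i ∈ [0, 1], validL (repsTwo.getD i []) = true → orderOf (permOf (repsTwo.getD i [])) = 2 := by
    intro i hi hvi
    obtain ⟨h1, h2⟩ := hsq i hi
    have hl : (repsTwo.getD i []).length = 24 := by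
      simp only [validL, Bool.and_eq_true, Nat.beq_eq] at hvi; exact hvi.1.1
    have hne : permOf (repsTwo.getD i []) ≠ 1 := fun e =>
      h2 (((rep_permOf hvi).listOf_eq hl).symm.trans (by rw [e]; exact rep_one.listOf_eq (by simp)))
    refine orderOf_eq_prime ?_ hne
    rw [ordTwo, beq_iff_eq] at h1
    have := Rep.mul hl (rep_permOf hvi) (rep_permOf hvi)
    rw [h1] at this
    rw [pow_two]; exact Rep.ext this rep_one
  have hoct : setOfMask (fixMask (repsTwo.getD 0 [])) ∈ Cfsg.octads := setOfMask_mem_octads (by decide +kernel)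
  have hz : setOfMask (fixMask (repsTwo.getD 1 [])) = ∅ := by decide +kernel
  have h0' := fix_filter hv.1 1
  have h1' := fix_filter hv.2.1 1
  simp only [one_mul, inv_one, mul_one, one_smul] at h0' h1'
  refine ⟨fun g hg h2 => ?_, ⟨_, (rep_permOf hv.1).mem_M24 hv.2.2.1, hord 0 (by simp) hv.1, by rw [h0']; exact hoct⟩,
    ⟨_, (rep_permOf hv.2.1).mem_M24 hv.2.2.2, hord 1 (by simp) hv.2.1, fun p hp => ?_⟩, ?_⟩
  · obtain ⟨k, hk, ⟨e, hc⟩ | ⟨e, hc⟩⟩ := two_of_fix hg h2
    · left
      rw [e, fix_filter hv.1]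
      exact smul_mem_octads' hk hoct
    · exact Or.inr (card_fix_zero.1 hc)
  · have : p ∈ (Finset.univ.filter fun p => permOf (repsTwo.getD 1 []) p = p) :=
      Finset.mem_filter.2 ⟨Finset.mem_univ _, hp⟩
    rw [h1', hz] at this
    exact absurd this (Finset.notMem_empty p)
  intro g hg h hh' og oh hiff
  obtain ⟨a, ha, hga⟩ := two_of_fix hg og
  obtain ⟨b, hb, hhb⟩ := two_of_fix hh' oh
  rw [← card_fix_zero, ← card_fix_zero] at hiff
  refine ⟨b * a⁻¹, mul_mem hb (inv_mem ha), ?_⟩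
  rcases hga with ⟨e, hc⟩ | ⟨e, hc⟩ <;> rcases hhb with ⟨e', hc'⟩ | ⟨e', hc'⟩
  · rw [e, e']; group
  · rw [hc, hc'] at hiff; simp at hiff
  · rw [hc, hc'] at hiff; simp at hiff
  · rw [e, e']; group

end Cfsg.Agent.S5394
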