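import Cfsg.Statements.S5395


set_option autoImplicit false
open Cfsg

namespace Cfsg.Agent.S5395

/-- For a finite extraspecial 2-group E, an automorphism of E that induces the identity on E modulo its centre is inner (so these automorphisms form exactly the inner automorphism group, an elementary abelian 2-group of order |E|/2). -/
theorem result {E : Type*} [Group E] [Finite E] (hE : Cfsg.IsExtraspecial 2 E) (φ : E ≃* E) (hφ : ∀ x : E, φ x * x⁻¹ ∈ Subgroup.center E) : ∃ g : E, ∀ x : E, φ x = g * x * g⁻¹ := by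
  obtain ⟨⟨hp, -, hcomm⟩, hZ⟩ := hE
  set Z := Subgroup.center E with hZdef
  have hcen : ∀ c ∈ Z, ∀ y : E, y * c = c * y := fun c hc y => Subgroup.mem_center_iff.1 hc y
  have key : ∀ (ψ : E → E), (∀ x y, ψ (x * y) = ψ x * ψ y) → ∀ h : ∀ x, ψ x * x⁻¹ ∈ Z,
      ∀ x y, (⟨ψ (x * y) * (x * y)⁻¹, h _⟩ : Z) = ⟨ψ x * x⁻¹, h x⟩ * ⟨ψ y * y⁻¹, h y⟩ := by
    intro ψ hm h x y
    apply Subtype.ext
    show ψ (x * y) * (x * y)⁻¹ = ψ x * x⁻¹ * (ψ y * y⁻¹)
    rw [hm, mul_inv_rev, mul_assoc, ← mul_assoc (ψ y), ← hcen _ (h y) x⁻¹, ← mul_assoc]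
  let X : (ψ : E → E) → (∀ x y, ψ (x * y) = ψ x * ψ y) → (∀ x, ψ x * x⁻¹ ∈ Z) → (E →* Z) :=
    fun ψ hm h => MonoidHom.mk' (fun x => ⟨ψ x * x⁻¹, h x⟩) (key ψ hm h)
  have hin : ∀ g x : E, g * x * g⁻¹ * x⁻¹ ∈ Z := fun g x => by
    rw [← hcomm]
    exact Subgroup.commutator_mem_commutator (Subgroup.mem_top g) (Subgroup.mem_top x)
  let inn : E → (E →* Z) := fun g => X (fun x => g * x * g⁻¹) (fun x y => by group) (hin g)
  have hsep : ∀ g g' : E, inn g = inn g' → (g : E ⧸ Z) = g' := by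
    intro g g' h
    rw [QuotientGroup.eq]
    refine Subgroup.mem_center_iff.2 fun x => ?_
    have e : g * x * g⁻¹ = g' * x * g'⁻¹ :=
      mul_right_cancel (congrArg (fun χ : E →* Z => (χ x : E)) h)
    calc x * (g⁻¹ * g') = g⁻¹ * (g * x * g⁻¹) * g' := by group
      _ = g⁻¹ * (g' * x * g'⁻¹) * g' := by rw [e]
      _ = g⁻¹ * g' * x := by group
  let sec : E ⧸ Z → (E →* Z) := fun q => inn q.out
  have hsec : Function.Injective sec := fun a b h => by
    have := hsep _ _ h
    rwa [QuotientGroup.out_eq', QuotientGroup.out_eq'] at this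
  haveI : Finite (E →* Z) := Finite.of_injective (fun χ => (χ : E → Z)) DFunLike.coe_injective
  have hcyc : IsCyclic Z := isCyclic_of_prime_card (p := 2) (hp := ⟨Nat.prime_two⟩) hZ
  obtain ⟨c, hcgen⟩ := hcyc.exists_generator
  have hle : Nat.card (E →* Z) ≤ Nat.card (E ⧸ Z) := by
    haveI : HasEnoughRootsOfUnity ℂ (Monoid.exponent (Abelianization E)) :=
      inferInstance
    have e1 : Nat.card (Abelianization E →* ℂˣ) = Nat.card (E ⧸ Z) := by
      rw [Nat.card_congr (CommGroup.monoidHom_mulEquiv_of_hasEnoughRootsOfUnity (Abelianization E) ℂ).some.toEquiv]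
      exact Nat.card_congr (QuotientGroup.quotientMulEquivOfEq hcomm).toEquiv
    rw [← e1]
    have hord : orderOf c = 2 := by rw [orderOf_eq_card_of_forall_mem_zpowers hcgen, hZ]
    let ι : Z →* ℂˣ := monoidHomOfForallMemZpowers hcgen (g' := (-1 : ℂˣ)) (by
      rw [hord]
      exact orderOf_dvd_of_pow_eq_one (by rw [neg_one_sq]))
    have hι : Function.Injective ι := by
      rw [injective_iff_map_eq_one]
      intro z hz
      obtain ⟨k, rfl⟩ := Subgroup.mem_zpowers_iff.1 (hcgen z)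
      rw [map_zpow, monoidHomOfForallMemZpowers_apply_gen] at hz
      rcases Int.even_or_odd k with ⟨j, rfl⟩ | hk
      · rw [← two_mul, zpow_mul, show c ^ (2 : ℤ) = 1 from ?_, one_zpow]
        rw [show (2 : ℤ) = ((2 : ℕ) : ℤ) from rfl, zpow_natCast, ← hord, pow_orderOf_eq_one]
      · rw [hk.neg_one_zpow] at hz
        exact absurd (Units.ext_iff.1 hz) (by norm_num)
    haveI : Finite (Abelianization E →* ℂˣ) :=
      Nat.finite_of_card_ne_zero (by rw [e1]; exact Nat.card_pos.ne')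
    refine Nat.card_le_card_of_injective (fun χ => Abelianization.lift (ι.comp χ)) fun a b h => ?_
    ext x
    exact congrArg Subtype.val (hι (by simpa using DFunLike.congr_fun h (Abelianization.of x)))
  obtain ⟨q, hq⟩ := (hsec.bijective_of_nat_card_le hle).2 (X φ (map_mul φ) hφ)
  exact ⟨q.out, fun x => (mul_right_cancel (congrArg (fun χ : E →* Z => (χ x : E)) hq)).symm⟩

end Cfsg.Agent.S5395
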