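import Cfsg.Statements.S5396
import Cfsg.Agent.Lib.CoreExtraspecialRank
import Cfsg.Agent.Lib.CorePGroup

set_option autoImplicit false
open Cfsg

namespace Cfsg.Agent.S5396
open scoped commutatorElement

abbrev V (n : ℕ) : Type := (Fin n → ZMod 2) × (Fin n → ZMod 2)

/-- The bilinear cocycle; `δ` switches between the two types. -/
def beta {n : ℕ} (δ : ZMod 2) (i : Fin n) (v w : V n) : ZMod 2 :=
  v.1 ⬝ᵥ w.2 + δ * (v.1 i * w.1 i + v.2 i * w.2 i)

@[ext]
structure EG {n : ℕ} (δ : ZMod 2) (i : Fin n) where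
  c : ZMod 2
  v : V n

namespace EG

variable {n : ℕ} {δ : ZMod 2} {i : Fin n}

theorem beta_add_left (u v w : V n) : beta δ i (u + v) w = beta δ i u w + beta δ i v w := by
  simp [beta, add_dotProduct]; ring

theorem beta_add_right (u v w : V n) : beta δ i u (v + w) = beta δ i u v + beta δ i u w := by
  simp [beta, dotProduct_add]; ring

theorem self_add (v : V n) : v + v = 0 := by
  ext k <;> simp [CharTwo.add_self_eq_zero]

instance : Group (EG δ i) where
  mul a b := ⟨a.c + b.c + beta δ i a.v b.v, a.v + b.v⟩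
  one := ⟨0, 0⟩
  inv a := ⟨a.c + beta δ i a.v a.v, a.v⟩
  mul_assoc a b c := by
    apply EG.ext
    · show a.c + b.c + beta δ i a.v b.v + c.c + beta δ i (a.v + b.v) c.v =
        a.c + (b.c + c.c + beta δ i b.v c.v) + beta δ i a.v (b.v + c.v)
      rw [beta_add_left, beta_add_right]; ring
    · exact add_assoc _ _ _
  one_mul a := by
    apply EG.ext
    · show 0 + a.c + beta δ i 0 a.v = a.c
      simp [beta]
    · exact zero_add _
  mul_one a := by
    apply EG.ext
    · show a.c + 0 + beta δ i a.v 0 = a.c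
      simp [beta]
    · exact add_zero _
  inv_mul_cancel a := by
    apply EG.ext
    · show a.c + beta δ i a.v a.v + a.c + beta δ i a.v a.v = 0
      linear_combination CharTwo.add_self_eq_zero (a.c + beta δ i a.v a.v)
    · exact self_add _

def toProd : EG δ i ≃ ZMod 2 × V n where
  toFun a := (a.c, a.v)
  invFun p := ⟨p.1, p.2⟩

instance : Finite (EG δ i) := Finite.of_equiv _ toProd.symm

theorem card_eg : Nat.card (EG δ i) = 2 ^ (2 * n + 1) := by
  rw [Nat.card_congr toProd, Nat.card_prod, Nat.card_prod, Nat.card_fun, Nat.card_fin, Nat.card_zmod]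
  ring

theorem mul_c (a b : EG δ i) : (a * b).c = a.c + b.c + beta δ i a.v b.v := rfl

theorem mul_v (a b : EG δ i) : (a * b).v = a.v + b.v := rfl

theorem inv_v (a : EG δ i) : a⁻¹.v = a.v := rfl

theorem inv_c (a : EG δ i) : a⁻¹.c = a.c + beta δ i a.v a.v := rfl

theorem z2_cases : ∀ c : ZMod 2, c = 0 ∨ c = 1 := by decide

theorem sq_eq (a : EG δ i) : a ^ 2 = ⟨beta δ i a.v a.v, 0⟩ := by
  rw [sq]
  apply EG.ext
  · show a.c + a.c + beta δ i a.v a.v = _
    rw [CharTwo.add_self_eq_zero, zero_add]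
  · exact self_add _

theorem mem_center {a : EG δ i} : a ∈ Subgroup.center (EG δ i) ↔ a.v = 0 := by
  rw [Subgroup.mem_center_iff]
  constructor
  · intro h
    have key : ∀ w : V n, beta δ i w a.v = beta δ i a.v w := fun w => by
      have := congrArg EG.c (h ⟨0, w⟩)
      rw [mul_c, mul_c] at this
      linear_combination this
    refine Prod.ext (funext fun k => ?_) (funext fun k => ?_)
    · have := key (0, Pi.single k 1)
      simp [beta, Pi.single_apply] at this
      exact this
    · have := key (Pi.single k 1, 0)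
      simp [beta, Pi.single_apply] at this
      exact this
  · intro h g
    apply EG.ext
    · rw [mul_c, mul_c, h]; simp [beta]; ring
    · exact add_comm _ _

theorem center_card : Nat.card (Subgroup.center (EG δ i)) = 2 := by
  let e : Subgroup.center (EG δ i) ≃ ZMod 2 :=
    { toFun := fun a => a.1.c
      invFun := fun c => ⟨⟨c, 0⟩, mem_center.2 rfl⟩
      left_inv := fun a => Subtype.ext (EG.ext rfl (mem_center.1 a.2).symm)
      right_inv := fun c => rfl }
  rw [Nat.card_congr e, Nat.card_zmod]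

theorem isExtraspecial : Cfsg.IsExtraspecial 2 (EG δ i) := by
  have hp : IsPGroup 2 (EG δ i) := IsPGroup.of_card card_eg
  have := Fact.mk Nat.prime_two
  have hle : commutator (EG δ i) ≤ Subgroup.center _ := by
    rw [commutator_def, Subgroup.commutator_le]
    intro x _ y _
    rw [mem_center, commutatorElement_def]
    show x.v + y.v + x.v + y.v = 0
    linear_combination (norm := abel) self_add x.v + self_add y.v
  have hge : Subgroup.center (EG δ i) ≤ commutator _ := by
    intro a ha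
    have hv := mem_center.1 ha
    rcases z2_cases a.c with hc | hc
    · rw [show a = 1 from EG.ext hc hv]; exact one_mem _
    · have : a = ⁅(⟨0, (Pi.single i 1, 0)⟩ : EG δ i), ⟨0, (0, Pi.single i 1)⟩⁆ := by
        rw [commutatorElement_def]
        apply EG.ext
        · rw [hc]
          simp only [mul_c, mul_v, inv_v, inv_c]
          simp [beta]
          ring_nf
          rcases z2_cases δ with h | h <;> rw [h] <;> rfl
        · rw [hv]
          show (0 : V n) = _ + _ + _ + _
          simp only [inv_v]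
          linear_combination (norm := abel) -(self_add ((Pi.single i 1, 0) : V n)) - self_add ((0, Pi.single i 1) : V n)
      rw [this, commutator_def]
      exact Subgroup.commutator_mem_commutator (Subgroup.mem_top _) (Subgroup.mem_top _)
  have hce : commutator (EG δ i) = Subgroup.center _ := le_antisymm hle hge
  have hfr : frattini (EG δ i) = commutator (EG δ i) :=
    le_antisymm (CfsgLib.Core.frattini_le_of_elementary le_rfl fun x => by
      rw [hce, mem_center, sq_eq])
      (CfsgLib.Core.pgroup_commutator_le_frattini hp)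
  exact ⟨⟨hp, hfr.trans hce, hce⟩, center_card⟩

theorem plus_witness : ∃ A : Subgroup (EG (0 : ZMod 2) i), Cfsg.IsElementaryAbelian 2 A ∧ Nat.card A = 2 ^ (n + 1) := by
  let A : Subgroup (EG (0 : ZMod 2) i) :=
    { carrier := {a | a.v.2 = 0}
      one_mem' := rfl
      mul_mem' := fun {a b} ha hb => by
        show a.v.2 + b.v.2 = 0
        rw [Set.mem_ofPred_eq] at ha hb
        rw [ha, hb, add_zero]
      inv_mem' := fun {a} ha => ha }
  refine ⟨A, ⟨⟨⟨fun a b => Subtype.ext (EG.ext ?_ (add_comm _ _))⟩⟩, fun a ha => ?_⟩, ?_⟩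
  · show (a.1 * b.1).c = (b.1 * a.1).c
    rw [mul_c, mul_c]
    simp [beta, show a.1.v.2 = 0 from a.2, show b.1.v.2 = 0 from b.2, add_comm]
  · rw [sq_eq]
    exact EG.ext (by simp [beta, show a.v.2 = 0 from ha]; rfl) rfl
  · let e : A ≃ ZMod 2 × (Fin n → ZMod 2) :=
      { toFun := fun a => (a.1.c, a.1.v.1)
        invFun := fun p => ⟨⟨p.1, (p.2, 0)⟩, rfl⟩
        left_inv := fun a => Subtype.ext (EG.ext rfl (Prod.ext rfl (show (0 : Fin n → ZMod 2) = a.1.v.2 from a.2.symm)))
        right_inv := fun p => rfl }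
    rw [Nat.card_congr e, Nat.card_prod, Nat.card_fun, Nat.card_fin, Nat.card_zmod]
    ring

theorem minus_le {A : Subgroup (EG (1 : ZMod 2) i)} (hA : Cfsg.IsElementaryAbelian 2 A) :
    Nat.card A ≤ 2 ^ n := by
  classical
  obtain ⟨m, rfl⟩ : ∃ m, n = m + 1 := ⟨n - 1, by have := i.2; omega⟩
  have hq : ∀ a ∈ A, beta 1 i a.v a.v = 0 := fun a ha => by
    have := congrArg EG.c (hA.2 a ha)
    rwa [sq_eq] at this
  let W : Submodule (ZMod 2) (V (m + 1)) :=
    { carrier := {w | ∃ a ∈ A, a.v = w}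
      add_mem' := by rintro _ _ ⟨a, ha, rfl⟩ ⟨b, hb, rfl⟩; exact ⟨a * b, A.mul_mem ha hb, rfl⟩
      zero_mem' := ⟨1, A.one_mem, rfl⟩
      smul_mem' := by
        intro c w ⟨a, ha, e⟩
        rcases (by decide : ∀ c : ZMod 2, c = 0 ∨ c = 1) c with rfl | rfl
        · exact ⟨1, A.one_mem, by rw [zero_smul]; rfl⟩
        · exact ⟨a, ha, by rw [one_smul]; exact e⟩ }
  have hW : ∀ w ∈ W, beta 1 i w w = 0 := fun w ⟨a, ha, e⟩ => e ▸ hq a ha
  let π : V (m + 1) →ₗ[ZMod 2] Fin m → ZMod 2 :=
    (LinearMap.funLeft (ZMod 2) (ZMod 2) i.succAbove).comp (LinearMap.snd _ _ _)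
  let πx : V (m + 1) →ₗ[ZMod 2] Fin m → ZMod 2 :=
    (LinearMap.funLeft (ZMod 2) (ZMod 2) i.succAbove).comp (LinearMap.fst _ _ _)
  let K := W ⊓ LinearMap.ker π
  have hform : ∀ w : V (m + 1), beta 1 i w w = w.1 i * w.2 i + πx w ⬝ᵥ π w + (w.1 i + w.2 i) := fun w => by
    have sq2 : ∀ x : ZMod 2, x * x = x := by decide
    simp only [beta, dotProduct, Fin.sum_univ_succAbove _ i, one_mul, sq2]
    rfl
  have hK : ∀ w ∈ K, w.1 i = 0 ∧ w.2 i = 0 ∧ π w = 0 := by
    intro w hw
    have h0 : π w = 0 := hw.2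
    have h := hW w hw.1
    rw [hform, h0, dotProduct_zero, add_zero] at h
    have key : ∀ x y : ZMod 2, x * y + (x + y) = 0 → x = 0 ∧ y = 0 := by decide
    exact ⟨(key _ _ h).1, (key _ _ h).2, h0⟩
  have horth : ∀ w ∈ W, ∀ k ∈ K, π w ⬝ᵥ πx k = 0 := by
    intro w hw k hk
    obtain ⟨k1, k2, k3⟩ := hK k hk
    have a1 := hW w hw
    have a2 := hW (w + k) (W.add_mem hw hk.1)
    rw [hform] at a1 a2
    simp only [map_add, k3, add_zero, Prod.fst_add, Prod.snd_add, Pi.add_apply, k1, k2, add_dotProduct] at a2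
    rw [dotProduct_comm]
    linear_combination a2 - a1
  have hinj : ∀ k ∈ K, πx k = 0 → k = 0 := by
    intro k hk h
    obtain ⟨k1, k2, k3⟩ := hK k hk
    refine Prod.ext (funext fun j => ?_) (funext fun j => ?_) <;> rcases Fin.eq_self_or_eq_succAbove i j with rfl | ⟨t, rfl⟩
    exacts [k1, congrFun h t, k2, congrFun k3 t]
  let d : LinearMap.BilinForm (ZMod 2) (Fin m → ZMod 2) := Matrix.toBilin' 1
  have hd : ∀ x y, d x y = x ⬝ᵥ y := fun x y => by
    simp [d, Matrix.toBilin'_apply', Matrix.one_mulVec]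
  have hnd : d.Nondegenerate := Matrix.Nondegenerate.toBilin' (Matrix.nondegenerate_of_det_ne_zero (by simp))
  let Y := W.map π
  have hle : K.map πx ≤ d.orthogonal Y := by
    rintro _ ⟨k, hk, rfl⟩
    rw [LinearMap.BilinForm.mem_orthogonal_iff]
    rintro _ ⟨w, hw, rfl⟩
    show d (π w) (πx k) = 0
    rw [hd]; exact horth w hw k hk
  have hfr : Module.finrank (ZMod 2) W ≤ m := by
    have h1 := (π.domRestrict W).finrank_range_add_finrank_ker
    have hr : LinearMap.range (π.domRestrict W) = Y := by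
      ext y; simp [Y]
    have hk : Module.finrank (ZMod 2) (LinearMap.ker (π.domRestrict W)) ≤ Module.finrank (ZMod 2) (K.map πx) := by
      refine le_of_eq_of_le ?_ (le_refl _)
      let f : LinearMap.ker (π.domRestrict W) →ₗ[ZMod 2] K.map πx :=
        { toFun := fun w => ⟨πx w.1.1, w.1.1, ⟨w.1.2, w.2⟩, rfl⟩
          map_add' := fun a b => Subtype.ext (map_add πx _ _)
          map_smul' := fun c a => Subtype.ext (map_smul πx c _) }
      exact (LinearEquiv.ofBijective f ⟨fun a b h => by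
        refine Subtype.ext (Subtype.ext (sub_eq_zero.1 (hinj _ ?_ ?_)))
        · exact K.sub_mem ⟨a.1.2, a.2⟩ ⟨b.1.2, b.2⟩
        · rw [map_sub, sub_eq_zero]; exact congrArg Subtype.val h,
        fun ⟨y, k, hk, e⟩ => ⟨⟨⟨k, hk.1⟩, hk.2⟩, Subtype.ext e⟩⟩).finrank_eq
    have h2 := LinearMap.BilinForm.finrank_orthogonal (B := d) hnd Y
    have h3 := Submodule.finrank_mono hle
    have h4 := Submodule.finrank_le Y
    rw [hr] at h1
    rw [Module.finrank_pi, Fintype.card_fin] at h2 h4
    omega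
  have hcardW : Nat.card W ≤ 2 ^ m := by
    rw [Module.natCard_eq_pow_finrank (K := ZMod 2), Nat.card_zmod]
    exact Nat.pow_le_pow_right (by norm_num) hfr
  calc Nat.card A ≤ Nat.card (ZMod 2 × W) := Nat.card_le_card_of_injective
          (fun a => (a.1.c, ⟨a.1.v, a.1, a.2, rfl⟩)) (fun a b h => by
            simp only [Prod.mk.injEq, Subtype.mk.injEq] at h
            exact Subtype.ext (EG.ext h.1 h.2))
    _ ≤ 2 * 2 ^ m := by rw [Nat.card_prod, Nat.card_zmod]; exact Nat.mul_le_mul_left _ hcardW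
    _ = 2 ^ (m + 1) := by ring

end EG

/-- For every n ≥ 1 there exist finite extraspecial 2-groups of order 2^(2n+1) whose 2-rank (the largest rank of an elementary abelian subgroup) is n, and ones whose 2-rank is n + 1 (so for each such order there are two non-isomorphic extraspecial 2-groups, told apart by their 2-rank). -/
theorem result (n : ℕ) (hn : 1 ≤ n) : ∀ r ∈ ({n, n + 1} : Set ℕ), ∃ (E : Type) (_ : Group E) (_ : Finite E), Cfsg.IsExtraspecial 2 E ∧ Nat.card E = 2 ^ (2 * n + 1) ∧ sSup {k : ℕ | ∃ A : Subgroup E, Cfsg.IsElementaryAbelian 2 A ∧ Nat.card A = 2 ^ k} = r := by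
  intro r hr
  have := Fact.mk Nat.prime_two
  have key : ∀ δ : ZMod 2, (∀ A : Subgroup (EG δ (⟨0, hn⟩ : Fin n)), Cfsg.IsElementaryAbelian 2 A → Nat.card A ≤ 2 ^ r) →
      (∃ A : Subgroup (EG δ (⟨0, hn⟩ : Fin n)), Cfsg.IsElementaryAbelian 2 A ∧ 2 ^ r ≤ Nat.card A) →
      ∃ (E : Type) (_ : Group E) (_ : Finite E), Cfsg.IsExtraspecial 2 E ∧ Nat.card E = 2 ^ (2 * n + 1) ∧
        sSup {k : ℕ | ∃ A : Subgroup E, Cfsg.IsElementaryAbelian 2 A ∧ Nat.card A = 2 ^ k} = r := by
    intro δ hup ⟨A, hA, hlow⟩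
    refine ⟨EG δ ⟨0, hn⟩, inferInstance, inferInstance, EG.isExtraspecial, EG.card_eg, ?_⟩
    refine IsGreatest.csSup_eq ⟨⟨A, hA, le_antisymm (hup A hA) hlow⟩, ?_⟩
    rintro k ⟨B, hB, e⟩
    have := hup B hB
    rw [e] at this
    exact (Nat.pow_le_pow_iff_right (by norm_num)).1 this
  rcases hr with rfl | rfl
  · refine key 1 (fun A hA => EG.minus_le hA) ?_
    obtain ⟨z, m, h⟩ := CfsgLib.Extraspecial.exists_ex (EG.isExtraspecial (δ := (1 : ZMod 2)) (i := ⟨0, hn⟩))
    obtain rfl : r = m := by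
      have := Nat.pow_right_injective le_rfl (EG.card_eg.symm.trans h.card)
      omega
    obtain ⟨A, hA, h1, -⟩ := CfsgLib.Core.ExRank.exists_card r h
    exact ⟨A, hA, h1⟩
  · refine key 0 (fun A hA => ?_) ?_
    · obtain ⟨z, m, h⟩ := CfsgLib.Extraspecial.exists_ex (EG.isExtraspecial (δ := (0 : ZMod 2)) (i := ⟨0, hn⟩))
      obtain rfl : n = m := by
        have := Nat.pow_right_injective le_rfl (EG.card_eg.symm.trans h.card)
        omega
      exact CfsgLib.Core.ExRank.card_le n h A hA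
    · obtain ⟨A, hA, e⟩ := EG.plus_witness (i := (⟨0, hn⟩ : Fin n))
      exact ⟨A, hA, e.ge⟩

end Cfsg.Agent.S5396
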