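import Cfsg.Statements.S5406
import Cfsg.Agent.Lib.SporMonsterQ

set_option autoImplicit false
open Cfsg

namespace Cfsg.Agent.S5406

/-- Let G be a finite group of Monster type at the involution z with Q the extraspecial normal subgroup of order 2^25 of C = C_G(z) (so C/Q is identified with the first Conway group with Q modulo its centre the Leech lattice modulo 2, and z is not weakly closed in Q). Then C acts transitively by conjugation on the conjugates of z that lie in Q and differ from z. -/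
theorem result {G : Type*} [Group G] [Finite G] (z : G) (Q : Subgroup (Subgroup.centralizer ({z} : Set G))) [Q.Normal] (hM : Cfsg.IsOfMonsterType z Q) (s t : G) (hsQ : ∃ hsc : s ∈ Subgroup.centralizer ({z} : Set G), (⟨s, hsc⟩ : Subgroup.centralizer ({z} : Set G)) ∈ Q) (htQ : ∃ htc : t ∈ Subgroup.centralizer ({z} : Set G), (⟨t, htc⟩ : Subgroup.centralizer ({z} : Set G)) ∈ Q) (hs : IsConj z s) (ht : IsConj z t) (hs1 : s ≠ z) (ht1 : t ≠ z) : ∃ h ∈ Subgroup.centralizer ({z} : Set G), h * s * h⁻¹ = t := by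
  obtain ⟨d⟩ := CfsgLib.Spor.MData.nonempty hM
  obtain ⟨v, hv⟩ := d.cls_exists (CfsgLib.Spor.mem_qG.2 hsQ)
  obtain ⟨w, hw⟩ := d.cls_exists (CfsgLib.Spor.mem_qG.2 htQ)
  obtain ⟨c, hc⟩ := d.four_of_conj hs hs1 hv
  obtain ⟨c', hc'⟩ := d.four_of_conj ht ht1 hw
  have hg : CfsgLib.Spor.kap ((c'⁻¹ * c) • v) = CfsgLib.Spor.kap w := by
    rw [mul_smul, CfsgLib.Spor.kap_smul_congr c'⁻¹ (hc.trans hc'.symm), inv_smul_smul]
  obtain ⟨h, hh, -⟩ := d.exists_conj hv hw
    (CfsgLib.Spor.MData.kap_smul_ne_zero CfsgLib.Spor.MData.kap_repFour_ne hc) hg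
  exact ⟨h, h.2, hh⟩

end Cfsg.Agent.S5406
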