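import Cfsg.Statements.S5407
import Cfsg.Agent.Lib.SporMonsterQ

set_option autoImplicit false
open Cfsg

namespace Cfsg.Agent.S5407

/-- Let G be a finite group of Monster type at the involution z with Q the extraspecial normal subgroup of order 2^25 of C = C_G(z) (so C/Q is identified with the first Conway group with Q modulo its centre the Leech lattice modulo 2, and z is not weakly closed in Q). Then under any such identification ψ of the Leech lattice modulo 2 with Q modulo its centre, an element x of Q is a conjugate of z other than z exactly when x modulo the centre is the image under ψ of a lattice vector of squared length 64 in the coordinates used here, that is, of norm 8 in the customary normalisation in which the minimal vectors have norm 4 (twice the minimal norm). -/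
theorem result {G : Type*} [Group G] [Finite G] (z : G) (Q : Subgroup (Subgroup.centralizer ({z} : Set G))) [Q.Normal] (hM : Cfsg.IsOfMonsterType z Q) (e : (Subgroup.centralizer ({z} : Set G)) ⧸ Q ≃* Cfsg.Spor.Co1) (ψ : Cfsg.leechLattice → Q ⧸ Subgroup.center Q) (hψ : Cfsg.IsLeechModTwoIso Q e ψ) (x : Q) : (IsConj z ((x : Subgroup.centralizer ({z} : Set G)) : G) ∧ ((x : Subgroup.centralizer ({z} : Set G)) : G) ≠ z) ↔ ∃ v : Cfsg.leechLattice, Cfsg.sqNorm (v : Cfsg.GolayPt → ℤ) = 64 ∧ ψ v = QuotientGroup.mk x := by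
  let d := CfsgLib.Spor.MData.ofType hM e ψ hψ
  have hxQ : ((x : Subgroup.centralizer ({z} : Set G)) : G) ∈ CfsgLib.Spor.qG Q := ⟨_, x.2, rfl⟩
  constructor
  · rintro ⟨h1, h2⟩
    obtain ⟨v, hv⟩ := d.cls_exists hxQ
    obtain ⟨c, hc⟩ := d.four_of_conj h1 h2 hv
    refine ⟨c⁻¹ • CfsgLib.Spor.repFour, by rw [CfsgLib.Spor.Co0_sqNorm, CfsgLib.Spor.sqNorm_repFour], ?_⟩
    obtain ⟨q, hq, hψq⟩ := d.cls_congr hv (w := c⁻¹ • CfsgLib.Spor.repFour)
      (by rw [← CfsgLib.Spor.kap_smul_congr c⁻¹ hc, inv_smul_smul])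
    have : q = x := Subtype.ext (Subtype.ext hq)
    rw [← this]
    exact hψq
  · rintro ⟨v, hv, hψv⟩
    obtain ⟨y, ⟨hyC, hyQ⟩, hyz⟩ := hM.1.2.2.2.2
    obtain ⟨c, hc⟩ := CfsgLib.Spor.exists_smul_four hv
    exact d.conj_of_four (CfsgLib.Spor.mem_qG.2 ⟨hyC, hyQ⟩) (isConj_iff.2 ⟨y, rfl⟩) hyz
      (⟨x, rfl, hψv⟩ : d.Cls ((x : Subgroup.centralizer ({z} : Set G)) : G) v) hc

end Cfsg.Agent.S5407
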