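import Cfsg.Statements.S5410
import Cfsg.Agent.Lib.SporMonsterQ

set_option autoImplicit false
open Cfsg

namespace Cfsg.Agent.S5410

/-- Let G be a finite group of Monster type at the involution z with Q the extraspecial normal subgroup of order 2^25 of C = C_G(z) (so C/Q is identified with the first Conway group with Q modulo its centre the Leech lattice modulo 2, and z is not weakly closed in Q). Let g in G with s = g z g⁻¹ a member of Q other than z, let X be the image in C/Q of the centralizer of s in C, and let E be the image in C/Q of the intersection of g Q g⁻¹ with C. Then E is a normal subgroup of X, elementary abelian of order 2^11, and it has a complement in X isomorphic to the Mathieu group of degree 24 (the automorphism group of the length-24 binary Golay code). -/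
theorem result {G : Type*} [Group G] [Finite G] (z : G) (Q : Subgroup (Subgroup.centralizer ({z} : Set G))) [Q.Normal] (hM : Cfsg.IsOfMonsterType z Q) (s : G) (hsQ : ∃ hsc : s ∈ Subgroup.centralizer ({z} : Set G), (⟨s, hsc⟩ : Subgroup.centralizer ({z} : Set G)) ∈ Q) (hs : IsConj z s) (hs1 : s ≠ z) (g : G) (hg : g * z * g⁻¹ = s) (X E : Subgroup ((Subgroup.centralizer ({z} : Set G)) ⧸ Q)) (hX : X = ((Subgroup.centralizer ({z} : Set G) ⊓ Subgroup.centralizer ({s} : Set G)).subgroupOf (Subgroup.centralizer ({z} : Set G))).map (QuotientGroup.mk' Q)) (hE : E = (((Q.map (Subgroup.centralizer ({z} : Set G)).subtype).map (MulAut.conj g).toMonoidHom ⊓ Subgroup.centralizer ({z} : Set G)).subgroupOf (Subgroup.centralizer ({z} : Set G))).map (QuotientGroup.mk' Q)) : E ≤ X ∧ (∀ x ∈ X, ∀ y ∈ E, x * y * x⁻¹ ∈ E) ∧ Cfsg.IsElementaryAbelian 2 E ∧ Nat.card E = 2 ^ 11 ∧ ∃ K : Subgroup ((Subgroup.centralizer ({z} : Set G)) ⧸ Q), K ≤ X ∧ E ⊓ K = ⊥ ∧ E ⊔ K = X ∧ Nonempty (K ≃* Cfsg.M24)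 := by
  obtain ⟨d0⟩ := CfsgLib.Spor.MData.nonempty hM
  obtain ⟨v, hv⟩ := d0.cls_exists (CfsgLib.Spor.mem_qG.2 hsQ)
  obtain ⟨c, hc⟩ := d0.four_of_conj hs hs1 hv
  obtain ⟨d, hd⟩ := d0.exists_twist hv hc
  have hφ : ∀ L : Subgroup (Subgroup.centralizer ({z} : Set G)),
      L.map (QuotientGroup.mk' Q) = (L.map d.toCo1).map d.e.symm.toMonoidHom := by
    intro L
    rw [Subgroup.map_map]
    congr 1
    ext a
    simp [CfsgLib.Spor.MData.toCo1]
  have hX' : X = CfsgLib.Spor.frameImg.map d.e.symm.toMonoidHom := by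
    rw [hX, hφ, d.map_centralizer hd]
  have hE' : E = CfsgLib.Spor.signImg.map d.e.symm.toMonoidHom := by
    rw [hE, hφ]
    exact congrArg _ (d.four_structure hg hs1 hd).2
  have hinj : Function.Injective d.e.symm.toMonoidHom := d.e.symm.injective
  subst hX' hE'
  refine ⟨Subgroup.map_mono CfsgLib.Spor.signImg_le_frameImg, ?_, ⟨⟨⟨fun a b => ?_⟩⟩, fun a ha => ?_⟩, ?_,
    CfsgLib.Spor.permImg.map d.e.symm.toMonoidHom, Subgroup.map_mono CfsgLib.Spor.permImg_le_frameImg, ?_, ?_, ?_⟩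
  · rintro _ ⟨a, ha, rfl⟩ _ ⟨b, hb, rfl⟩
    exact ⟨a * b * a⁻¹, CfsgLib.Spor.signImg_normalized a ha b hb, by rw [map_mul, map_mul, map_inv]⟩
  · apply Subtype.ext
    have h2 : ∀ y ∈ CfsgLib.Spor.signImg.map d.e.symm.toMonoidHom, y⁻¹ = y := by
      rintro _ ⟨y, hy, rfl⟩
      rw [← map_inv, inv_eq_of_mul_eq_one_right (CfsgLib.Spor.signImg_mul_self hy)]
    have := h2 _ (Subgroup.mul_mem _ a.2 b.2)
    rw [mul_inv_rev, h2 _ a.2, h2 _ b.2] at this
    exact this.symm
  · obtain ⟨y, hy, rfl⟩ := ha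
    rw [pow_two, ← map_mul, CfsgLib.Spor.signImg_mul_self hy, map_one]
  · rw [Subgroup.card_map_of_injective hinj, CfsgLib.Spor.card_signImg]
    norm_num
  · rw [← Subgroup.map_inf _ _ _ hinj, CfsgLib.Spor.signImg_inf_permImg, Subgroup.map_bot]
  · rw [← Subgroup.map_sup, CfsgLib.Spor.signImg_sup_permImg]
  · exact ⟨(Subgroup.equivMapOfInjective CfsgLib.Spor.permImg _ hinj).symm.trans
      (MonoidHom.ofInjective CfsgLib.Spor.permHom_mk_injective).symm⟩

end Cfsg.Agent.S5410
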