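import Cfsg.Statements.S5411
import Cfsg.Agent.Lib.SporMonsterQ

set_option autoImplicit false
open Cfsg

namespace Cfsg.Agent.S5411

/-- Let G be a finite group of Monster type at the involution z with Q the extraspecial normal subgroup of order 2^25 of C = C_G(z) (so C/Q is identified with the first Conway group with Q modulo its centre the Leech lattice modulo 2, and z is not weakly closed in Q). Then C acts transitively by conjugation on the involutions of Q that are not conjugate to z in G. -/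
theorem result {G : Type*} [Group G] [Finite G] (z : G) (Q : Subgroup (Subgroup.centralizer ({z} : Set G))) [Q.Normal] (hM : Cfsg.IsOfMonsterType z Q) (s t : G) (hsQ : ∃ hsc : s ∈ Subgroup.centralizer ({z} : Set G), (⟨s, hsc⟩ : Subgroup.centralizer ({z} : Set G)) ∈ Q) (htQ : ∃ htc : t ∈ Subgroup.centralizer ({z} : Set G), (⟨t, htc⟩ : Subgroup.centralizer ({z} : Set G)) ∈ Q) (hs2 : orderOf s = 2) (ht2 : orderOf t = 2) (hs : ¬ IsConj z s) (ht : ¬ IsConj z t) : ∃ h ∈ Subgroup.centralizer ({z} : Set G), h * s * h⁻¹ = t := by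
  obtain ⟨d⟩ := CfsgLib.Spor.MData.nonempty hM
  obtain ⟨y, ⟨hyC, hyQ⟩, hyz⟩ := hM.1.2.2.2.2
  obtain ⟨v, hv⟩ := d.cls_exists (CfsgLib.Spor.mem_qG.2 hsQ)
  obtain ⟨w, hw⟩ := d.cls_exists (CfsgLib.Spor.mem_qG.2 htQ)
  have key : ∀ {u : G} {r : Cfsg.leechLattice}, d.Cls u r → orderOf u = 2 → ¬ IsConj z u →
      CfsgLib.Spor.kap r ≠ 0 ∧ ∃ c : Cfsg.Co0, CfsgLib.Spor.kap (c • r) = CfsgLib.Spor.kap CfsgLib.Spor.repTwo := by
    intro u r hu h2 hn
    have hsq : u * u = 1 := by rw [← pow_two, ← h2, pow_orderOf_eq_one]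
    have h1 : u ≠ 1 := fun e => by rw [e, orderOf_one] at h2; exact absurd h2 (by norm_num)
    have hz : u ≠ z := fun e => hn (e ▸ IsConj.refl z)
    obtain ⟨h0, h | ⟨c, hc⟩⟩ := d.type_cases hu hsq h1 hz
    · exact ⟨h0, h⟩
    · exact absurd (d.conj_of_four (CfsgLib.Spor.mem_qG.2 ⟨hyC, hyQ⟩) (isConj_iff.2 ⟨y, rfl⟩) hyz hu hc).1 hn
  obtain ⟨hv0, c, hc⟩ := key hv hs2 hs
  obtain ⟨-, c', hc'⟩ := key hw ht2 ht
  have hg : CfsgLib.Spor.kap ((c'⁻¹ * c) • v) = CfsgLib.Spor.kap w := by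
    rw [mul_smul, CfsgLib.Spor.kap_smul_congr c'⁻¹ (hc.trans hc'.symm), inv_smul_smul]
  obtain ⟨h, hh, -⟩ := d.exists_conj hv hw hv0 hg
  exact ⟨h, h.2, hh⟩

end Cfsg.Agent.S5411
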