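import Cfsg.Statements.S5412
import Cfsg.Agent.Lib.SporBabyType

set_option autoImplicit false
open Cfsg

namespace Cfsg.Agent.S5412

/-- Let G be a finite group of Monster type at the involution z with Q the extraspecial normal subgroup of order 2^25 of C = C_G(z) (so C/Q is identified with the first Conway group with Q modulo its centre the Leech lattice modulo 2, and z is not weakly closed in Q). Let t be an involution of Q not conjugate to z in G. Then the centralizer of t modulo the subgroup generated by t is a group of Baby Monster type (an involution whose centralizer D has generalized Fitting subgroup R extraspecial of order 2^23 with D/R identified with the second Conway group acting on R modulo its centre as on the vectors of the Leech lattice modulo 2 orthogonal to a short vector, modulo that vector; the involution not weakly closed in R). -/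
theorem result {G : Type*} [Group G] [Finite G] (z : G) (Q : Subgroup (Subgroup.centralizer ({z} : Set G))) [Q.Normal] (hM : Cfsg.IsOfMonsterType z Q) (t : G) (htQ : ∃ htc : t ∈ Subgroup.centralizer ({z} : Set G), (⟨t, htc⟩ : Subgroup.centralizer ({z} : Set G)) ∈ Q) (ht2 : orderOf t = 2) (ht : ¬ IsConj z t) [hn : ((Subgroup.zpowers t).subgroupOf (Subgroup.centralizer ({t} : Set G))).Normal] : Cfsg.IsOfBabyMonsterType (↥(Subgroup.centralizer ({t} : Set G)) ⧸ (Subgroup.zpowers t).subgroupOf (Subgroup.centralizer ({t} : Set G))) := by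
  obtain ⟨d⟩ := CfsgLib.Spor.MData.nonempty hM
  obtain ⟨y, ⟨hyC, hyQ⟩, hyz⟩ := hM.1.2.2.2.2
  obtain ⟨v, hv⟩ := d.cls_exists (CfsgLib.Spor.mem_qG.2 htQ)
  obtain ⟨c, hc⟩ := d.two_of_not_conj (CfsgLib.Spor.mem_qG.2 ⟨hyC, hyQ⟩) (isConj_iff.2 ⟨y, rfl⟩) hyz hv ht2 ht
  obtain ⟨b, hb⟩ := CfsgLib.Spor.exists_smul_min CfsgLib.Spor.sqNorm_leechU
  obtain ⟨d', hd'⟩ := d.exists_twist hv (g := b⁻¹ * c) (r := Cfsg.Spor.leechU) (by
    rw [mul_smul, CfsgLib.Spor.kap_smul_congr b⁻¹ hc, ← hb, inv_smul_smul])
  exact d'.baby_type hd' (CfsgLib.Spor.mem_qG.2 ⟨hyC, hyQ⟩) (isConj_iff.2 ⟨y, rfl⟩) hyz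

end Cfsg.Agent.S5412
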