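import Cfsg.Statements.S5420
import Cfsg.Agent.Lib.LocalBase

set_option autoImplicit false
open Cfsg

namespace Cfsg.Agent.S5420

/-- Let Q be an extraspecial 2-subgroup of the finite group G whose centralizer in G is its centre Z and which is normal in the centralizer of Z. If Z lies in the largest normal 2-subgroup of G, then Q is a large extraspecial 2-subgroup of G: it normalizes no non-trivial subgroup of G of odd order. -/
theorem result {G : Type*} [Group G] [Finite G] (Q : Subgroup G) (hL1 : Cfsg.IsExtraspecial 2 ↥Q) (hL2 : Subgroup.centralizer (Q : Set G) = ((Subgroup.center ↥Q).map Q.subtype)) (hL3 : Subgroup.centralizer (((Subgroup.center ↥Q).map Q.subtype) : Set G) ≤ Subgroup.normalizer (Q : Set G)) (hZ : ((Subgroup.center ↥Q).map Q.subtype) ≤ Cfsg.pCore 2 G) : Cfsg.IsLargeExtraspecial Q := by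
  haveI := Fact.mk Nat.prime_two
  refine ⟨hL1, hL2, hL3, fun K hK hQK => ?_⟩
  set Z : Subgroup G := (Subgroup.center Q).map Q.subtype
  have hodd : ∀ x ∈ K, ∀ k : ℕ, orderOf x = 2 ^ k → x = 1 := by
    intro x hx k hk
    have h : orderOf x ∣ Nat.card K := Subgroup.orderOf_dvd_natCard K hx
    rw [hk] at h
    rcases Nat.eq_zero_or_pos k with rfl | h0
    · exact orderOf_eq_one_iff.1 (by simpa using hk)
    · exact absurd hK (Nat.not_odd_iff_even.2 (even_iff_two_dvd.2 ((dvd_pow_self 2 h0.ne').trans h)))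
  have hZQ : Z ≤ Q := Subgroup.map_subtype_le _
  have hcent : K ≤ Subgroup.centralizer (Z : Set G) := by
    intro x hx
    refine Subgroup.mem_centralizer_iff.2 fun y hy => ?_
    have h1 : y * x * y⁻¹ * x⁻¹ ∈ K :=
      mul_mem ((Subgroup.mem_normalizer_iff.1 (hQK (hZQ hy)) x).1 hx) (inv_mem hx)
    haveI := CfsgLib.Local.pCore_normal' (G := G) 2
    have h2 : y * x * y⁻¹ * x⁻¹ ∈ Cfsg.pCore 2 G := by
      rw [show y * x * y⁻¹ * x⁻¹ = y * (x * y⁻¹ * x⁻¹) by group]
      exact mul_mem (hZ hy) (Subgroup.Normal.conj_mem inferInstance _ (inv_mem (hZ hy)) x)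
    obtain ⟨k, hk⟩ := IsPGroup.iff_orderOf.1 (CfsgLib.Local.pCore_isPGroup' (G := G) 2) ⟨_, h2⟩
    rw [← Subgroup.orderOf_coe] at hk
    have := hodd _ h1 k hk
    rwa [mul_inv_eq_one, mul_inv_eq_iff_eq_mul] at this
  have hKN := hcent.trans hL3
  have hKC : K ≤ Subgroup.centralizer (Q : Set G) := by
    intro x hx
    refine Subgroup.mem_centralizer_iff.2 fun y hy => ?_
    have h1 : y * x * y⁻¹ * x⁻¹ ∈ K := mul_mem ((Subgroup.mem_normalizer_iff.1 (hQK hy) x).1 hx) (inv_mem hx)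
    have h2 : y * x * y⁻¹ * x⁻¹ ∈ Q := by
      rw [show y * x * y⁻¹ * x⁻¹ = y * (x * y⁻¹ * x⁻¹) by group]
      exact mul_mem hy ((Subgroup.mem_normalizer_iff.1 (hKN hx) y⁻¹).1 (inv_mem hy))
    obtain ⟨k, hk⟩ := IsPGroup.iff_orderOf.1 hL1.1.1 ⟨_, h2⟩
    rw [← Subgroup.orderOf_coe] at hk
    have := hodd _ h1 k hk
    rwa [mul_inv_eq_one, mul_inv_eq_iff_eq_mul] at this
  rw [hL2] at hKC
  refine (Subgroup.eq_bot_iff_forall _).2 fun x hx => ?_
  obtain ⟨k, hk⟩ := IsPGroup.iff_orderOf.1 hL1.1.1 ⟨x, hZQ (hKC hx)⟩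
  rw [← Subgroup.orderOf_coe] at hk
  exact hodd x hx k hk

end Cfsg.Agent.S5420
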