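import Cfsg.Statements.S5421
import Cfsg.Agent.Lib.LocalBase
import Cfsg.Agent.Lib.TransferExtraspecialIso

set_option autoImplicit false
open Cfsg

namespace Cfsg.Agent.S5421
theorem inverts {G : Type*} [Group G] [Finite G] {K : Subgroup G} {b : G} (hb : b * b = 1)
    (hK : ∀ x ∈ K, b * x * b ∈ K) (hfix : ∀ x ∈ K, b * x = x * b → x = 1) : ∀ x ∈ K, b * x * b = x⁻¹ := by
  let φ : K → K := fun k => ⟨(k : G)⁻¹ * (b * k * b), K.mul_mem (K.inv_mem k.2) (hK k k.2)⟩
  have hinj : Function.Injective φ := by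
    intro k l h
    have e : (k : G)⁻¹ * (b * k * b) = (l : G)⁻¹ * (b * l * b) := congrArg Subtype.val h
    have e2 : b * ((l : G) * (k : G)⁻¹) = ((l : G) * (k : G)⁻¹) * b := by
      have : (l : G) * (k : G)⁻¹ * b * k = b * l := by
        have := congrArg (fun t => (l : G) * t * b) e
        simp only [mul_assoc, hb, mul_one, mul_inv_cancel_left] at this ⊢
        exact this
      calc b * ((l : G) * (k : G)⁻¹) = (b * l) * (k : G)⁻¹ := (mul_assoc _ _ _).symm
        _ = (l : G) * (k : G)⁻¹ * b * k * (k : G)⁻¹ := by rw [this]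
        _ = _ := by rw [mul_inv_cancel_right]
    have := hfix _ (K.mul_mem l.2 (K.inv_mem k.2)) e2
    exact Subtype.ext (mul_inv_eq_one.1 this).symm
  intro x hx
  obtain ⟨k, hk⟩ := (Finite.injective_iff_surjective.1 hinj) ⟨x, hx⟩
  have e : (k : G)⁻¹ * (b * k * b) = x := congrArg Subtype.val hk
  have hbi : b⁻¹ = b := inv_eq_of_mul_eq_one_right hb
  rw [← e, mul_inv_rev, mul_inv_rev, mul_inv_rev, inv_inv, hbi]
  simp only [mul_assoc, hb, mul_one]

/-- Let Q be an extraspecial 2-subgroup of the finite group G whose centralizer in G is its centre Z and which is normal in the centralizer of Z. If some involution b of Q outside Z has Z inside the largest normal 2-subgroup of the centralizer of b, then Q is a large extraspecial 2-subgroup of G. -/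
theorem result {G : Type*} [Group G] [Finite G] (Q : Subgroup G) (hL1 : Cfsg.IsExtraspecial 2 ↥Q) (hL2 : Subgroup.centralizer (Q : Set G) = ((Subgroup.center ↥Q).map Q.subtype)) (hL3 : Subgroup.centralizer (((Subgroup.center ↥Q).map Q.subtype) : Set G) ≤ Subgroup.normalizer (Q : Set G)) (b : G) (hbQ : b ∈ Q) (hbZ : b ∉ ((Subgroup.center ↥Q).map Q.subtype)) (hb : orderOf b = 2) (hZ : ((Subgroup.center ↥Q).map Q.subtype) ≤ (Cfsg.pCore 2 ↥(Subgroup.centralizer ({b} : Set G))).map (Subgroup.centralizer ({b} : Set G)).subtype) : Cfsg.IsLargeExtraspecial Q := by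
  haveI := Fact.mk Nat.prime_two
  refine ⟨hL1, hL2, hL3, fun K hK hQK => ?_⟩
  obtain ⟨z, n, hz⟩ := CfsgLib.Extraspecial.exists_ex hL1
  set Z : Subgroup G := (Subgroup.center Q).map Q.subtype
  have hzZ : (z : G) ∈ Z := ⟨z, hz.center_eq ▸ Subgroup.mem_zpowers z, rfl⟩
  have hzcomm : ∀ q ∈ Q, q * (z : G) = z * q := fun q hq => (congrArg Subtype.val (hz.central ⟨q, hq⟩).eq).symm
  have hodd : ∀ x ∈ K, ∀ k : ℕ, orderOf x = 2 ^ k → x = 1 := by
    intro x hx k hk
    have h : orderOf x ∣ Nat.card K := Subgroup.orderOf_dvd_natCard K hx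
    rw [hk] at h
    rcases Nat.eq_zero_or_pos k with rfl | h0
    · exact orderOf_eq_one_iff.1 (by simpa using hk)
    · exact absurd hK (Nat.not_odd_iff_even.2 (even_iff_two_dvd.2 ((dvd_pow_self 2 h0.ne').trans h)))
  have hnK : ∀ q ∈ Q, ∀ x ∈ K, q * x * q⁻¹ ∈ K := fun q hq x hx =>
    (Subgroup.mem_normalizer_iff.1 (hQK hq) x).1 hx
  have hzfix : ∀ x ∈ K, x * (z : G) = z * x → x = 1 := by
    intro x hx hc
    have hxN : x ∈ Subgroup.normalizer (Q : Set G) := hL3 (Subgroup.mem_centralizer_iff.2 (by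
      rintro _ ⟨w, hw, rfl⟩
      rw [hz.center_eq] at hw
      obtain ⟨i, rfl⟩ := Subgroup.mem_zpowers_iff.1 hw
      rw [map_zpow]
      exact ((show Commute x (z : G) from hc).zpow_right i).eq.symm))
    have hxC : x ∈ Subgroup.centralizer (Q : Set G) := Subgroup.mem_centralizer_iff.2 fun q hq => by
      have h1 : q * x * q⁻¹ * x⁻¹ ∈ K := K.mul_mem (hnK q hq x hx) (K.inv_mem hx)
      have h2 : q * x * q⁻¹ * x⁻¹ ∈ Q := by
        rw [show q * x * q⁻¹ * x⁻¹ = q * (x * q⁻¹ * x⁻¹) by group]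
        exact Q.mul_mem hq ((Subgroup.mem_normalizer_iff.1 hxN q⁻¹).1 (Q.inv_mem hq))
      obtain ⟨k, hk⟩ := IsPGroup.iff_orderOf.1 hL1.1.1 ⟨_, h2⟩
      rw [← Subgroup.orderOf_coe] at hk
      have := hodd _ h1 k hk
      rwa [mul_inv_eq_one, mul_inv_eq_iff_eq_mul] at this
    rw [hL2] at hxC
    obtain ⟨k, hk⟩ := IsPGroup.iff_orderOf.1 hL1.1.1 ⟨x, Subgroup.map_subtype_le _ hxC⟩
    rw [← Subgroup.orderOf_coe] at hk
    exact hodd x hx k hk
  obtain ⟨hzCb, hzcore⟩ : ∃ h : (z : G) ∈ Subgroup.centralizer ({b} : Set G),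
      (⟨_, h⟩ : Subgroup.centralizer ({b} : Set G)) ∈ Cfsg.pCore 2 (Subgroup.centralizer ({b} : Set G)) := by
    obtain ⟨w, hw, e⟩ := hZ hzZ
    have hwz : (w : G) = z := e
    exact ⟨hwz ▸ w.2, by rw [show (⟨(z : G), hwz ▸ w.2⟩ : Subgroup.centralizer ({b} : Set G)) = w from Subtype.ext hwz.symm]; exact hw⟩
  have hfix : ∀ x ∈ K, b * x = x * b → x = 1 := by
    intro x hx hc
    refine hzfix x hx ?_
    have hxC : x ∈ Subgroup.centralizer ({b} : Set G) := Subgroup.mem_centralizer_singleton_iff.2 hc.symm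
    haveI := CfsgLib.Local.pCore_normal' (G := Subgroup.centralizer ({b} : Set G)) 2
    set C := Subgroup.centralizer ({b} : Set G)
    have h2 : (⟨(z : G), hzCb⟩ : C) * ⟨x, hxC⟩ * (⟨(z : G), hzCb⟩ : C)⁻¹ * (⟨x, hxC⟩ : C)⁻¹ ∈ Cfsg.pCore 2 C := by
      rw [show ∀ a c : C, a * c * a⁻¹ * c⁻¹ = a * (c * a⁻¹ * c⁻¹) from fun a c => by group]
      exact mul_mem hzcore (Subgroup.Normal.conj_mem inferInstance _ (inv_mem hzcore) _)
    obtain ⟨k, hk⟩ := IsPGroup.iff_orderOf.1 (CfsgLib.Local.pCore_isPGroup' (G := C) 2) ⟨_, h2⟩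
    rw [← Subgroup.orderOf_coe, ← Subgroup.orderOf_coe] at hk
    have := hodd _ (K.mul_mem (hnK z z.2 x hx) (K.inv_mem hx)) k hk
    have e : (z : G) * x * (z : G)⁻¹ * x⁻¹ = 1 := this
    rw [mul_inv_eq_one, mul_inv_eq_iff_eq_mul] at e
    exact e.symm
  have hbz : (⟨b, hbQ⟩ : Q) ∉ Subgroup.zpowers z := fun h =>
    hbZ ⟨⟨b, hbQ⟩, hz.center_eq ▸ h, rfl⟩
  obtain ⟨q, hq⟩ := hz.exists_partner hbz
  have hb2 : b * b = 1 := by rw [← sq, ← hb, pow_orderOf_eq_one]
  have hbi : b⁻¹ = b := inv_eq_of_mul_eq_one_right hb2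
  have hqb : (q : G) * b * (q : G)⁻¹ = b * z := by
    have e : b * q * b⁻¹ * (q : G)⁻¹ = z := congrArg Subtype.val hq
    rw [← e, hbi]
    simp only [← mul_assoc, hb2, one_mul]
  have hfix' : ∀ x ∈ K, b * z * x = x * (b * z) → x = 1 := by
    intro x hx hc
    rw [← hqb] at hc
    have := hfix ((q : G)⁻¹ * x * q) (by simpa using hnK _ (Q.inv_mem q.2) x hx) (by
      have := congrArg (fun t => (q : G)⁻¹ * t * q) hc
      simp only [mul_assoc, inv_mul_cancel_left, inv_mul_cancel, mul_one] at this ⊢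
      exact this)
    have := congrArg (fun t => (q : G) * t * (q : G)⁻¹) this
    simpa [mul_assoc] using this
  have h1 := inverts hb2 (fun x hx => by simpa [hbi] using hnK b hbQ x hx) hfix
  have hzz : (z : G) * z = 1 := by
    have := congrArg Subtype.val hz.zp
    rw [Subgroup.coe_pow, sq] at this
    exact this
  have hbz2 : b * z * (b * z) = 1 := by
    rw [show b * (z : G) * (b * z) = b * ((z : G) * b) * z by group, ← hzcomm b hbQ,
      show b * (b * (z : G)) * z = (b * b) * ((z : G) * z) by group, hb2, hzz, one_mul]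
  have h2 := inverts hbz2 (fun x hx => by
    simpa [inv_eq_of_mul_eq_one_right hbz2] using hnK _ (Q.mul_mem hbQ z.2) x hx) hfix'
  refine (Subgroup.eq_bot_iff_forall _).2 fun x hx => hzfix x hx ?_
  have e2 : b * ((z : G) * x * z) * b = x⁻¹ := by
    rw [← h2 x hx]; simp only [mul_assoc]; rw [← hzcomm b hbQ]
  have e3 : (z : G) * x * z = x := by
    have := (h1 x hx).trans e2.symm
    exact (mul_left_cancel (mul_right_cancel this)).symm
  calc x * (z : G) = ((z : G) * x * z) * z := by rw [e3]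
    _ = (z : G) * x := by rw [mul_assoc, hzz, mul_one]

end Cfsg.Agent.S5421
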