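import Cfsg.Statements.S5422
import Cfsg.Agent.Lib.SporOrth
import Cfsg.Agent.Lib.CorePGroup

set_option autoImplicit false
open Cfsg

namespace Cfsg.Agent.S5422

open CfsgLib.Spor.Orth in
/-- Transport of the core properties along conjugation. -/
theorem sing_conj {G : Type*} [Group G] [Finite G] {Q : G → Subgroup G} {z : G} (hE : Equivariant Q) (S : Sing Q z)
    (h : G) : Sing Q (h * z * h⁻¹) := by
  have down : ∀ x ∈ Q (h * z * h⁻¹), h⁻¹ * x * h ∈ Q z := fun x hx => by
    have := hE h⁻¹ _ x hx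
    rwa [inv_inv, show h⁻¹ * (h * z * h⁻¹) * h = z by group] at this
  have back : ∀ x : G, x = h * (h⁻¹ * x * h) * h⁻¹ := fun x => by group
  refine ⟨hE h z z S.mem, ?_, fun e => S.ne_one ?_, fun x hx => ?_, fun x hx y hy => ?_, fun v hv hc => ?_,
    fun x hx => ?_, fun x hx => ?_⟩
  · calc h * z * h⁻¹ * (h * z * h⁻¹) = h * (z * z) * h⁻¹ := by group
      _ = 1 := by rw [S.invol]; group
  · calc z = h⁻¹ * (h * z * h⁻¹) * h := by group
      _ = 1 := by rw [e]; group
  · calc x * (h * z * h⁻¹) = h * ((h⁻¹ * x * h) * z) * h⁻¹ := by group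
      _ = h * (z * (h⁻¹ * x * h)) * h⁻¹ := by rw [S.central _ (down x hx)]
      _ = h * z * h⁻¹ * x := by group
  · have e0 : x * y * x⁻¹ = h * ((h⁻¹ * x * h) * (h⁻¹ * y * h) * (h⁻¹ * x * h)⁻¹) * h⁻¹ := by group
    rcases S.comm _ (down x hx) _ (down y hy) with e | e <;> rw [e0, e]
    · left; group
    · right; group
  · rcases S.centre _ (down v hv) (fun x hx => by
      have := hc _ (hE h z x hx)
      calc x * (h⁻¹ * v * h) = h⁻¹ * (h * x * h⁻¹ * v) * h := by group
        _ = h⁻¹ * (v * (h * x * h⁻¹)) * h := by rw [this]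
        _ = h⁻¹ * v * h * x := by group) with e | e <;> rw [back v, e]
    · left; group
    · right; rfl
  · have e0 : x * x = h * ((h⁻¹ * x * h) * (h⁻¹ * x * h)) * h⁻¹ := by group
    rcases S.sq _ (down x hx) with e | e <;> rw [e0, e]
    · left; group
    · right; rfl
  · rw [back x]
    refine hE h z _ (S.cent _ fun y hy => ?_)
    calc h⁻¹ * x * h * y = h⁻¹ * (x * (h * y * h⁻¹)) * h := by group
      _ = h⁻¹ * (h * y * h⁻¹ * x) * h := by rw [hx _ (hE h z y hy)]
      _ = y * (h⁻¹ * x * h) := by group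

/-- Let Q be an extraspecial 2-subgroup of the finite group G whose centralizer in G is its centre Z and which is normal in the centralizer of Z; suppose Q has width at least 2 (order 2^(2w+1) with w ≥ 2) and g is an element of G not normalizing Z with g Z g⁻¹ inside Q. Then Z lies inside g Q g⁻¹; writing V for the subgroup generated by Z and g Z g⁻¹ (a four-group), the normalizer of V induces on V its full automorphism group, that is, the centralizer of V has index 6 in the normalizer of V; and Q is a large extraspecial 2-subgroup of G. -/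
theorem result {G : Type*} [Group G] [Finite G] (Q : Subgroup G) (hL1 : Cfsg.IsExtraspecial 2 ↥Q) (hL2 : Subgroup.centralizer (Q : Set G) = ((Subgroup.center ↥Q).map Q.subtype)) (hL3 : Subgroup.centralizer (((Subgroup.center ↥Q).map Q.subtype) : Set G) ≤ Subgroup.normalizer (Q : Set G)) (w : ℕ) (hw : 2 ≤ w) (hcard : Nat.card ↥Q = 2 ^ (2 * w + 1)) (g : G) (hg : g ∉ Subgroup.normalizer (((Subgroup.center ↥Q).map Q.subtype) : Set G)) (hZg : (((Subgroup.center ↥Q).map Q.subtype)).map (MulAut.conj g).toMonoidHom ≤ Q) : ((Subgroup.center ↥Q).map Q.subtype) ≤ (Q).map (MulAut.conj g).toMonoidHom ∧ (Subgroup.centralizer ((((Subgroup.center ↥Q).map Q.subtype) ⊔ (((Subgroup.center ↥Q).map Q.subtype)).map (MulAut.conj g).toMonoidHom : Subgroup G) : Set G)).relIndex (Subgroup.normalizer ((((Subgroup.center ↥Q).map Q.subtype) ⊔ (((Subgroup.center ↥Q).map Q.subtype)).map (MulAut.conj g).toMonoidHom : Subgroup G) : Set G)) = 6 ∧ Cfsg.IsLargeExtraspecial Q := by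
  classical
  haveI : Fact (Nat.Prime 2) := ⟨Nat.prime_two⟩
  set Z := (Subgroup.center ↥Q).map Q.subtype with hZ
  have hZ2 : Nat.card ↥Z = 2 := by
    rw [hZ, Subgroup.card_map_of_injective Q.subtype_injective, hL1.2]
  obtain ⟨⟨z, hzZ⟩, hz1', hzu⟩ := (Nat.card_eq_two_iff' (1 : ↥Z)).1 hZ2
  have hz1 : z ≠ 1 := fun e => hz1' (Subtype.ext e)
  have hZel : ∀ x ∈ Z, x = 1 ∨ x = z := fun x hx => by
    by_cases e : x = 1
    · exact Or.inl e
    · exact Or.inr (congrArg Subtype.val (hzu ⟨x, hx⟩ fun h => e (congrArg Subtype.val h)))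
  have hzz : z * z = 1 := (hZel _ (Z.mul_mem hzZ hzZ)).resolve_right fun e => hz1 (mul_eq_left.1 e)
  obtain ⟨zc, hzc, hzce⟩ := id hzZ
  have hzQ : z ∈ Q := hzce ▸ zc.2
  have hzcen : ∀ x ∈ Q, x * z = z * x := fun x hx => by
    rw [← hzce]; exact congrArg Subtype.val (Subgroup.mem_center_iff.1 hzc ⟨x, hx⟩)
  have hCz : ∀ h : G, h * z = z * h → h ∈ Subgroup.normalizer (Q : Set G) := fun h hh => hL3 fun y hy => by
    rcases hZel y hy with rfl | rfl
    · simp
    · exact hh.symm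
  -- the family of conjugate cores
  let P : G → Subgroup G := fun x =>
    if hx : ∃ h : G, h * z * h⁻¹ = x then Q.map (MulAut.conj hx.choose).toMonoidHom else ⊥
  have hPmem : ∀ h y : G, y ∈ P (h * z * h⁻¹) ↔ h⁻¹ * y * h ∈ Q := by
    intro h y
    have hex : ∃ k : G, k * z * k⁻¹ = h * z * h⁻¹ := ⟨h, rfl⟩
    simp only [P, dif_pos hex, Subgroup.mem_map_equiv, MulAut.conj_symm_apply]
    set k := hex.choose with hk
    have hks : k * z * k⁻¹ = h * z * h⁻¹ := hex.choose_spec
    have hn : h⁻¹ * k ∈ Subgroup.normalizer (Q : Set G) := hCz _ (by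
      calc h⁻¹ * k * z = h⁻¹ * (k * z * k⁻¹) * k := by group
        _ = z * (h⁻¹ * k) := by rw [hks]; group)
    rw [Subgroup.mem_normalizer_iff.1 hn (k⁻¹ * y * k)]
    rw [show h⁻¹ * k * (k⁻¹ * y * k) * (h⁻¹ * k)⁻¹ = h⁻¹ * y * h by group]
  have hPz : ∀ y, y ∈ P z ↔ y ∈ Q := fun y => by
    have := hPmem 1 y
    simpa using this
  have hEq : CfsgLib.Spor.Orth.Equivariant P := by
    intro a x y hy
    by_cases hx : ∃ h : G, h * z * h⁻¹ = x
    · obtain ⟨h, rfl⟩ := hx
      rw [show a * (h * z * h⁻¹) * a⁻¹ = (a * h) * z * (a * h)⁻¹ by group, hPmem,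
        show (a * h)⁻¹ * (a * y * a⁻¹) * (a * h) = h⁻¹ * y * h by group]
      exact (hPmem h y).1 hy
    · simp only [P, dif_neg hx, Subgroup.mem_bot] at hy
      rw [hy, mul_one, mul_inv_cancel]
      exact one_mem _
  have hcomm : ∀ x ∈ Q, ∀ y ∈ Q, x * y * x⁻¹ * y⁻¹ ∈ Z := fun x hx y hy => by
    refine ⟨(⟨x, hx⟩ : ↥Q) * ⟨y, hy⟩ * (⟨x, hx⟩ : ↥Q)⁻¹ * (⟨y, hy⟩ : ↥Q)⁻¹, ?_, by simp⟩
    rw [← hL1.1.2.2]
    have h := Subgroup.commutator_mem_commutator (Subgroup.mem_top (⟨x, hx⟩ : ↥Q)) (Subgroup.mem_top (⟨y, hy⟩ : ↥Q))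
    rwa [commutatorElement_def] at h
  have Sz : CfsgLib.Spor.Orth.Sing P z := by
    refine ⟨(hPz z).2 hzQ, hzz, hz1, fun x hx => hzcen x ((hPz x).1 hx), fun x hx y hy => ?_, fun v hv hc => ?_,
      fun x hx => ?_, fun x hx => ?_⟩
    · rcases hZel _ (hcomm x ((hPz x).1 hx) y ((hPz y).1 hy)) with e | e
      · exact Or.inl (mul_inv_eq_one.1 e)
      · exact Or.inr (mul_inv_eq_iff_eq_mul.1 e)
    · exact hZel v ⟨⟨v, (hPz v).1 hv⟩, Subgroup.mem_center_iff.2 fun y => Subtype.ext (hc y ((hPz _).2 y.2)), rfl⟩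
    · refine hZel _ ⟨⟨x, (hPz x).1 hx⟩ ^ 2, ?_, by simp [pow_two]⟩
      rw [← hL1.1.2.1]; exact CfsgLib.Core.pgroup_pow_mem_frattini hL1.1.1 _
    · have hxc : x ∈ Subgroup.centralizer (Q : Set G) := fun y hy => (hx y ((hPz y).2 hy)).symm
      rw [hL2] at hxc
      rcases hZel x hxc with rfl | rfl
      · exact one_mem _
      · exact (hPz _).2 hzQ
  have hsing := sing_conj hEq Sz
  have hcardP : ∀ h : G, Nat.card ↥(P (h * z * h⁻¹)) = Nat.card ↥(P z) := fun h => by
    have : P (h * z * h⁻¹) = (P z).map (MulAut.conj h).toMonoidHom := by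
      ext y; rw [Subgroup.mem_map_equiv, MulAut.conj_symm_apply, hPmem, hPz]
    rw [this]; exact Subgroup.card_map_of_injective (MulAut.conj h).injective
  have hsymm : ∀ h : G, h * z * h⁻¹ ∈ Q → h * z * h⁻¹ ≠ z → z ∈ P (h * z * h⁻¹) := fun h hm hne =>
    CfsgLib.Spor.Orth.symm hEq Sz (hsing h) (hcardP h) ((hPz _).2 hm) hne
  set v := g * z * g⁻¹ with hv
  have hvne : v ≠ z := fun e => hg (Subgroup.mem_normalizer_iff.2 fun h => by
    have e2 : g⁻¹ * z * g = z := by
      calc g⁻¹ * z * g = g⁻¹ * v * g := by rw [e]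
        _ = z := by rw [hv]; group
    constructor <;> intro hh
    · rcases hZel h hh with rfl | rfl
      · simp
      · rw [← hv, e]; exact hzZ
    · rcases hZel _ hh with e1 | e1
      · rw [show h = g⁻¹ * (g * h * g⁻¹) * g by group, e1, mul_one, inv_mul_cancel]; exact Z.one_mem
      · rw [show h = g⁻¹ * (g * h * g⁻¹) * g by group, e1, e2]; exact hzZ)
  have hvQ : v ∈ Q := hZg (Subgroup.mem_map_of_mem _ hzZ)
  have hzv : z * v = v * z := (hzcen v hvQ).symm
  have hvv : v * v = 1 := by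
    calc v * v = g * (z * z) * g⁻¹ := by rw [hv]; group
      _ = 1 := by rw [hzz]; group
  have hv1 : v ≠ 1 := fun e => hz1 (by
    calc z = g⁻¹ * v * g := by rw [hv]; group
      _ = 1 := by rw [e]; group)
  have hzPv : z ∈ P v := hsymm g hvQ hvne
  obtain ⟨q, hq, hqv⟩ : ∃ q ∈ Q, q * v * q⁻¹ = z * v := by
    by_contra h
    push Not at h
    rcases Sz.centre v ((hPz v).2 hvQ) (fun x hx => mul_inv_eq_iff_eq_mul.1
      ((Sz.comm x hx v ((hPz v).2 hvQ)).resolve_right (h x ((hPz x).1 hx)))) with e | e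
    exacts [hv1 e, hvne e]
  obtain ⟨p, hp, hpz⟩ : ∃ p ∈ P v, p * z * p⁻¹ = v * z := by
    by_contra h
    push Not at h
    rcases (hsing g).centre z hzPv (fun x hx => mul_inv_eq_iff_eq_mul.1
      (((hsing g).comm x hx z hzPv).resolve_right (h x hx))) with e | e
    exacts [hz1 e, hvne e.symm]
  refine ⟨?_, ?_, hL1, hL2, hL3, fun K hK hKn => ?_⟩
  · intro x hx
    rw [Subgroup.mem_map_equiv, MulAut.conj_symm_apply]
    rcases hZel x hx with rfl | rfl
    · simp
    · exact (hPmem g _).1 hzPv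
  · set V := Z ⊔ Z.map (MulAut.conj g).toMonoidHom with hV
    have hzV : z ∈ V := le_sup_left (α := Subgroup G) hzZ
    have hvV : v ∈ V := le_sup_right (α := Subgroup G) (Subgroup.mem_map_of_mem _ hzZ)
    have hVle : ∀ W : Subgroup G, z ∈ W → v ∈ W → V ≤ W := fun W h1 h2 => sup_le
      (fun x hx => by rcases hZel x hx with rfl | rfl; exacts [W.one_mem, h1])
      (by
        rintro _ ⟨x, hx, rfl⟩
        rcases hZel x hx with rfl | rfl
        · simp
        · exact h2)
    have hC : ∀ n : G, n ∈ Subgroup.centralizer (V : Set G) ↔ n * z * n⁻¹ = z ∧ n * v * n⁻¹ = v := fun n => by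
      constructor
      · exact fun hn => ⟨mul_inv_eq_iff_eq_mul.2 (hn z hzV).symm, mul_inv_eq_iff_eq_mul.2 (hn v hvV).symm⟩
      · rintro ⟨h1, h2⟩
        refine fun y hy => ?_
        have := hVle (Subgroup.centralizer {n}) (Subgroup.mem_centralizer_singleton_iff.2
          (mul_inv_eq_iff_eq_mul.1 h1).symm) (Subgroup.mem_centralizer_singleton_iff.2
          (mul_inv_eq_iff_eq_mul.1 h2).symm) hy
        exact Subgroup.mem_centralizer_singleton_iff.1 this
    have hN : ∀ n : G, n * z * n⁻¹ ∈ V → n * v * n⁻¹ ∈ V → n ∈ Subgroup.normalizer (V : Set G) := by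
      intro n h1 h2
      have hle : V.map (MulAut.conj n).toMonoidHom ≤ V := Subgroup.map_le_iff_le_comap.2 (hVle _ h1 h2)
      have heq : V.map (MulAut.conj n).toMonoidHom = V :=
        Subgroup.eq_of_le_of_card_ge hle (Subgroup.card_map_of_injective (MulAut.conj n).injective).ge
      refine Subgroup.mem_normalizer_iff.2 fun x => ?_
      conv_rhs => rw [← heq, Subgroup.mem_map_equiv, MulAut.conj_symm_apply,
        show n⁻¹ * (n * x * n⁻¹) * n = x by group]
    have hVel : ∀ x ∈ V, x = 1 ∨ x = z ∨ x = v ∨ x = z * v := by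
      let W : Subgroup G :=
        { carrier := {1, z, v, z * v}
          one_mem' := by simp
          inv_mem' := fun {a} ha => by
            have hi : ∀ b : G, b * b = 1 → b⁻¹ = b := fun b hb => inv_eq_of_mul_eq_one_right hb
            simp only [Set.mem_insert_iff, Set.mem_singleton_iff] at ha ⊢
            rcases ha with rfl | rfl | rfl | rfl
            · simp
            · right; left; exact hi _ hzz
            · right; right; left; exact hi _ hvv
            · right; right; right; rw [mul_inv_rev, hi _ hvv, hi _ hzz, hzv]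
          mul_mem' := fun {a b} ha hb => by
            have e1 : v * z = z * v := hzv.symm
            have e2 : ∀ t, z * (z * t) = t := fun t => by rw [← mul_assoc, hzz, one_mul]
            have e3 : ∀ t, v * (v * t) = t := fun t => by rw [← mul_assoc, hvv, one_mul]
            have e4 : ∀ t, v * (z * t) = z * (v * t) := fun t => by rw [← mul_assoc, e1, mul_assoc]
            simp only [Set.mem_insert_iff, Set.mem_singleton_iff] at ha hb ⊢
            rcases ha with rfl | rfl | rfl | rfl <;> rcases hb with rfl | rfl | rfl | rfl <;>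
              simp [mul_assoc, hzz, hvv, e1, e2, e3, e4] }
      intro x hx
      simpa [W] using hVle W (by simp [W]) (by simp [W]) hx
    set N := Subgroup.normalizer (V : Set G) with hNdef
    let f : ↥N ⧸ (Subgroup.centralizer (V : Set G)).subgroupOf N → G × G :=
      Quotient.lift (fun n : ↥N => ((n : G) * z * (n : G)⁻¹, (n : G) * v * (n : G)⁻¹)) (fun a b hab => by
        have h := QuotientGroup.leftRel_apply.1 hab
        rw [Subgroup.mem_subgroupOf, hC] at h
        simp only [Subgroup.coe_mul, Subgroup.coe_inv] at h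
        refine Prod.ext ?_ ?_ <;> dsimp only
        · conv_lhs => rw [← h.1]
          group
        · conv_lhs => rw [← h.2]
          group)
    have hf : Function.Injective f := by
      rintro ⟨a⟩ ⟨b⟩ hab
      obtain ⟨h1, h2⟩ := Prod.mk.inj hab
      refine Quotient.sound (QuotientGroup.leftRel_apply.2 ?_)
      rw [Subgroup.mem_subgroupOf, hC, Subgroup.coe_mul, Subgroup.coe_inv]
      refine ⟨?_, ?_⟩
      · calc (a : G)⁻¹ * b * z * ((a : G)⁻¹ * b)⁻¹ = (a : G)⁻¹ * ((b : G) * z * (b : G)⁻¹) * a := by group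
          _ = z := by rw [← h1]; group
      · calc (a : G)⁻¹ * b * v * ((a : G)⁻¹ * b)⁻¹ = (a : G)⁻¹ * ((b : G) * v * (b : G)⁻¹) * a := by group
          _ = v := by rw [← h2]; group
    let S : Finset (G × G) := {(z, v), (z, z * v), (z * v, v), (z * v, z), (v, z * v), (v, z)}
    have ne1 : z * v ≠ z := fun e => hv1 (mul_eq_left.1 e)
    have ne2 : z * v ≠ v := fun e => hz1 (mul_eq_right.1 e)
    have ne3 : z * v ≠ 1 := fun e => hvne ((inv_eq_of_mul_eq_one_right hzz).symm.trans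
      (inv_eq_of_mul_eq_one_right e)).symm
    have hS : S.card = 6 := by
      simp [S, ne1, ne2, ne1.symm, ne2.symm, hvne, hvne.symm]
    have hq' : q * z * q⁻¹ = z ∧ q * v * q⁻¹ = z * v := ⟨by rw [hzcen q hq, mul_inv_cancel_right], hqv⟩
    have hp' : p * z * p⁻¹ = z * v ∧ p * v * p⁻¹ = v :=
      ⟨hpz.trans hzv.symm, by rw [(hsing g).central p hp, mul_inv_cancel_right]⟩
    have hcm : ∀ n m : G, (n * m) * z * (n * m)⁻¹ = n * (m * z * m⁻¹) * n⁻¹ ∧
        (n * m) * v * (n * m)⁻¹ = n * (m * v * m⁻¹) * n⁻¹ := fun n m => ⟨by group, by group⟩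
    have hsplit : ∀ n : G, n * (z * v) * n⁻¹ = (n * z * n⁻¹) * (n * v * n⁻¹) := fun n => by group
    have hqN : q ∈ N := hN q (by rw [hq'.1]; exact hzV) (by rw [hq'.2]; exact V.mul_mem hzV hvV)
    have hpN : p ∈ N := hN p (by rw [hp'.1]; exact V.mul_mem hzV hvV) (by rw [hp'.2]; exact hvV)
    have hreal : ∀ s ∈ S, ∃ n ∈ N, (n * z * n⁻¹, n * v * n⁻¹) = s := by
      have c1 : ∀ t : G, z * (z * t) = t := fun t => by rw [← mul_assoc, hzz, one_mul]
      intro s hs
      simp only [S, Finset.mem_insert, Finset.mem_singleton] at hs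
      have h1 : q * (z * v) * q⁻¹ = v := by rw [hsplit, hq'.1, hq'.2, c1]
      have h2 : p * (z * v) * p⁻¹ = z := by rw [hsplit, hp'.1, hp'.2, mul_assoc, hvv, mul_one]
      rcases hs with rfl | rfl | rfl | rfl | rfl | rfl
      · exact ⟨1, N.one_mem, by simp⟩
      · exact ⟨q, hqN, Prod.ext hq'.1 hq'.2⟩
      · exact ⟨p, hpN, Prod.ext hp'.1 hp'.2⟩
      · exact ⟨p * q, N.mul_mem hpN hqN, Prod.ext (by rw [(hcm p q).1, hq'.1, hp'.1])
          (by rw [(hcm p q).2, hq'.2, h2])⟩
      · exact ⟨q * p, N.mul_mem hqN hpN, Prod.ext (by rw [(hcm q p).1, hp'.1, h1])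
          (by rw [(hcm q p).2, hp'.2, hq'.2])⟩
      · refine ⟨p * (q * p), N.mul_mem hpN (N.mul_mem hqN hpN), Prod.ext ?_ ?_⟩
        · rw [(hcm p (q * p)).1, (hcm q p).1, hp'.1, h1, hp'.2]
        · rw [(hcm p (q * p)).2, (hcm q p).2, hp'.2, hq'.2, h2]
    have hrange : Set.range f = (S : Set (G × G)) := by
      ext s
      constructor
      · rintro ⟨⟨a⟩, rfl⟩
        have ha := Subgroup.mem_normalizer_iff.1 a.2
        have hinj : Function.Injective (MulAut.conj (a : G)) := (MulAut.conj (a : G)).injective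
        have i1 : (a : G) * z * (a : G)⁻¹ ≠ 1 := fun e => hz1 (hinj (by simpa using e))
        have i2 : (a : G) * v * (a : G)⁻¹ ≠ 1 := fun e => hv1 (hinj (by simpa using e))
        have i3 : (a : G) * z * (a : G)⁻¹ ≠ (a : G) * v * (a : G)⁻¹ := fun e =>
          hvne (hinj (by simpa using e)).symm
        rcases hVel _ ((ha z).1 hzV) with e1 | e1 | e1 | e1 <;>
          rcases hVel _ ((ha v).1 hvV) with e2 | e2 | e2 | e2 <;>
          first
            | exact absurd e1 i1
            | exact absurd e2 i2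
            | exact absurd (e1.trans e2.symm) i3
            | (show ((a : G) * z * (a : G)⁻¹, (a : G) * v * (a : G)⁻¹) ∈ (S : Set (G × G))
               rw [e1, e2]; simp [S])
      · intro hs
        obtain ⟨n, hn, rfl⟩ := hreal s hs
        exact ⟨Quotient.mk _ ⟨n, hn⟩, rfl⟩
    rw [Subgroup.relIndex, Subgroup.index_eq_card]
    rw [← Nat.card_range_of_injective hf, hrange, Nat.card_coe_set_eq, Set.ncard_coe_finset, hS]
  · have hKn' : ∀ x ∈ Q, ∀ k ∈ K, x * k * x⁻¹ ∈ K := fun x hx k hk =>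
      (Subgroup.mem_normalizer_iff.1 (hKn hx) k).1 hk
    have hone : ∀ k ∈ K, ∀ n : ℕ, k ^ (2 ^ n) = 1 → k = 1 := fun k hk n hn => by
      have h1 : orderOf k ∣ 2 ^ n := orderOf_dvd_of_pow_eq_one hn
      have h2 : orderOf k ∣ Nat.card ↥K := Subgroup.orderOf_dvd_natCard K hk
      have h3 := Nat.dvd_gcd h1 h2
      rw [Nat.Coprime.gcd_eq_one ((Nat.coprime_two_left.2 hK).pow_left n), Nat.dvd_one, orderOf_eq_one_iff] at h3
      exact h3
    have hKQ : ∀ h k : G, k ∈ K → k ∈ P (h * z * h⁻¹) → k = 1 := fun h k hk hkP => by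
      obtain ⟨n, hn⟩ := hL1.1.1 ⟨_, (hPmem h k).1 hkP⟩
      have hn' : (h⁻¹ * k * h) ^ (2 ^ n) = 1 := by
        simpa using congrArg Subtype.val hn
      refine hone k hk n ?_
      rw [show h⁻¹ * k * h = h⁻¹ * k * (h⁻¹)⁻¹ by rw [inv_inv], conj_pow] at hn'
      have := congrArg (fun t => h * t * h⁻¹) hn'
      simpa [mul_assoc] using this
    have hfixz : ∀ k ∈ K, z * k * z⁻¹ = k → k = 1 := fun k hk hkz => by
      have hkz' : k * z = z * k := (mul_inv_eq_iff_eq_mul.1 hkz).symm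
      have hkc : k ∈ Subgroup.centralizer (Q : Set G) := fun x hx => by
        have hx1 : k * x * k⁻¹ ∈ Q := (Subgroup.mem_normalizer_iff.1 (hCz k hkz') x).1 hx
        have hc1 : x * k * x⁻¹ * k⁻¹ ∈ K := K.mul_mem (hKn' x hx k hk) (K.inv_mem hk)
        have hc2 : x * k * x⁻¹ * k⁻¹ ∈ Q := by
          rw [show x * k * x⁻¹ * k⁻¹ = x * (k * x * k⁻¹)⁻¹ by group]
          exact Q.mul_mem hx (Q.inv_mem hx1)
        exact mul_inv_eq_iff_eq_mul.1 (mul_inv_eq_one.1 (hKQ 1 _ hc1 (by simpa using (hPz _).2 hc2)))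
      rw [hL2] at hkc
      rcases hZel k hkc with e | e
      · exact e
      · exact absurd (hone z (e ▸ hk) 1 (by rw [pow_one, pow_two, hzz])) hz1
    have hfixv : ∀ h : G, h * z * h⁻¹ ∈ Q → h * z * h⁻¹ ≠ z → ∀ k ∈ K,
        (h * z * h⁻¹) * k * (h * z * h⁻¹)⁻¹ = k → k = 1 := fun h hm hne k hk hkv => by
      set u := h * z * h⁻¹ with hu
      have hku : k * u = u * k := (mul_inv_eq_iff_eq_mul.1 hkv).symm
      have hzu' : z ∈ P u := hsymm h hm hne
      refine hfixz k hk ?_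
      have hc1 : z * k * z⁻¹ * k⁻¹ ∈ K := K.mul_mem (hKn' z hzQ k hk) (K.inv_mem hk)
      have hc2 : z * k * z⁻¹ * k⁻¹ ∈ P u := by
        rw [show z * k * z⁻¹ * k⁻¹ = z * (k * z * k⁻¹)⁻¹ by group]
        exact (P u).mul_mem hzu' ((P u).inv_mem (CfsgLib.Spor.Orth.normalizes hEq hku hzu'))
      exact mul_inv_eq_one.1 (hKQ h _ hc1 hc2)
    have hinvert : ∀ t ∈ Q, t * t = 1 → (∀ k ∈ K, t * k * t⁻¹ = k → k = 1) → ∀ k ∈ K, t * k * t⁻¹ = k⁻¹ := by
      intro t htQ ht hfix k hk
      let φ : ↥K → ↥K := fun a => ⟨(a : G)⁻¹ * (t * (a : G) * t⁻¹), K.mul_mem (K.inv_mem a.2) (hKn' t htQ a a.2)⟩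
      have hφ : Function.Injective φ := fun a b e => by
        have e' : (a : G)⁻¹ * (t * a * t⁻¹) = (b : G)⁻¹ * (t * b * t⁻¹) := congrArg Subtype.val e
        have h1 : t * ((b : G) * (a : G)⁻¹) * t⁻¹ = (b : G) * (a : G)⁻¹ := by
          calc t * ((b : G) * (a : G)⁻¹) * t⁻¹ = (t * b * t⁻¹) * (t * a * t⁻¹)⁻¹ := by group
            _ = (b : G) * ((b : G)⁻¹ * (t * b * t⁻¹)) * (t * a * t⁻¹)⁻¹ := by group
            _ = (b : G) * (a : G)⁻¹ := by rw [← e']; group
        exact Subtype.ext (mul_inv_eq_one.1 (hfix _ (K.mul_mem b.2 (K.inv_mem a.2)) h1)).symm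
      obtain ⟨a, ha⟩ := Finite.surjective_of_injective hφ ⟨k, hk⟩
      have ha' : (a : G)⁻¹ * (t * a * t⁻¹) = k := congrArg Subtype.val ha
      have ht' : t⁻¹ = t := inv_eq_of_mul_eq_one_right ht
      rw [← ha', ht']
      calc t * ((a : G)⁻¹ * (t * a * t)) * t = t * (a : G)⁻¹ * t * a * (t * t) := by group
        _ = ((a : G)⁻¹ * (t * a * t⁻¹))⁻¹ := by simp only [ht, ht', mul_one, mul_inv_rev, inv_inv, mul_assoc]
        _ = ((a : G)⁻¹ * (t * a * t))⁻¹ := by rw [ht']
    have hzv' : (q * g) * z * (q * g)⁻¹ = z * v := by rw [← hqv, hv]; group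
    refine (Subgroup.eq_bot_iff_forall K).2 fun k hk => hfixv (q * g) ?_ ?_ k hk ?_
    · rw [hzv']; exact Q.mul_mem hzQ hvQ
    · rw [hzv']; exact fun e => hv1 (mul_eq_left.1 e)
    · rw [hzv']
      have e1 := hinvert z hzQ hzz hfixz k hk
      have e2 := hinvert v hvQ hvv (hfixv g hvQ hvne) k hk
      calc z * v * k * (z * v)⁻¹ = z * (v * k * v⁻¹) * z⁻¹ := by group
        _ = (z * k * z⁻¹)⁻¹ := by rw [e2]; group
        _ = k := by rw [e1, inv_inv]

end Cfsg.Agent.S5422
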