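import Cfsg.Statements.S5423
import Cfsg.Agent.Lib.SporSLTransvLarge

set_option autoImplicit false
open Cfsg

namespace Cfsg.Agent.S5423
set_option maxHeartbeats 400000
open CfsgLib.Spor CfsgLib.Spor.SLTransv

theorem mem_center_map {G : Type*} [Group G] (Q : Subgroup G) (x : G) :
    x ∈ (Subgroup.center ↥Q).map Q.subtype ↔ x ∈ Q ∧ ∀ y ∈ Q, y * x = x * y := by
  refine ⟨?_, fun ⟨hx, h⟩ => ⟨⟨x, hx⟩, Subgroup.mem_center_iff.2 fun y => Subtype.ext (h y y.2), rfl⟩⟩
  rintro ⟨y, hy, rfl⟩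
  exact ⟨y.2, fun w hw => congrArg Subtype.val (Subgroup.mem_center_iff.1 hy ⟨w, hw⟩)⟩

theorem large_pullback {G H : Type*} [Group G] [Finite G] [Group H] (f : G →* H) (hf : Function.Injective f)
    (Q : Subgroup G) (h : IsLargeExtraspecial (Q.map f)) : IsLargeExtraspecial Q := by
  have : Fact (Nat.Prime 2) := ⟨Nat.prime_two⟩
  have : Finite ↥(Q.map f) := Finite.of_equiv _ (Q.equivMapOfInjective f hf).toEquiv
  obtain ⟨h1, h2, h3, h4⟩ := h
  have hc : ∀ x, x ∈ (Subgroup.center ↥Q).map Q.subtype ↔ f x ∈ (Subgroup.center ↥(Q.map f)).map (Q.map f).subtype := by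
    intro x
    rw [mem_center_map, mem_center_map]
    constructor
    · rintro ⟨hx, hc⟩
      refine ⟨⟨x, hx, rfl⟩, ?_⟩
      rintro _ ⟨y, hy, rfl⟩
      rw [← map_mul, hc y hy, map_mul]
    · rintro ⟨⟨x', hx', he⟩, hc⟩
      obtain rfl := hf he
      exact ⟨hx', fun y hy => hf (by rw [map_mul, map_mul]; exact hc _ ⟨y, hy, rfl⟩)⟩
  refine ⟨LargeSimple.extraspecial_congr (Q.equivMapOfInjective f hf).symm h1, ?_, fun c hcc => ?_, fun K hK hn => ?_⟩
  · ext x
    rw [hc, ← h2]
    simp only [Subgroup.mem_centralizer_iff, SetLike.mem_coe]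
    constructor
    · rintro hx _ ⟨y, hy, rfl⟩
      rw [← map_mul, hx y hy, map_mul]
    · intro hx y hy
      exact hf (by rw [map_mul, map_mul]; exact hx _ ⟨y, hy, rfl⟩)
  · have hfc : f c ∈ Subgroup.normalizer ((Q.map f : Subgroup H) : Set H) := h3 (by
      intro w hw
      obtain ⟨x, hx, rfl⟩ : ∃ x, x ∈ (Subgroup.center ↥Q).map Q.subtype ∧ f x = w := by
        have hwQ : w ∈ Q.map f := ((mem_center_map _ w).1 hw).1
        obtain ⟨x, -, rfl⟩ := hwQ
        exact ⟨x, (hc x).2 hw, rfl⟩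
      rw [← map_mul, hcc x hx, map_mul])
    refine Subgroup.mem_normalizer_iff.2 fun y => ?_
    have := Subgroup.mem_normalizer_iff.1 hfc (f y)
    rw [← map_inv, ← map_mul, ← map_mul] at this
    rw [Subgroup.mem_map_iff_mem hf, Subgroup.mem_map_iff_mem hf] at this
    exact this
  · have hK' := h4 (K.map f) (by rwa [Subgroup.card_map_of_injective hf]) (by
      rintro _ ⟨y, hy, rfl⟩
      refine Subgroup.mem_normalizer_iff.2 fun w => ?_
      constructor
      · rintro ⟨k, hk, rfl⟩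
        exact ⟨_, (Subgroup.mem_normalizer_iff.1 (hn hy) k).1 hk, by rw [map_mul, map_mul, map_inv]⟩
      · rintro ⟨k, hk, he⟩
        refine ⟨y⁻¹ * k * y, (Subgroup.mem_normalizer_iff.1 (hn hy) _).2 (by simpa [mul_assoc] using hk), ?_⟩
        rw [map_mul, map_mul, map_inv, he]; group)
    exact (Subgroup.map_eq_bot_iff_of_injective K hf).1 hK'

/-- The affine matrix with linear part `A` and translation `t` in column `1`. -/
def aff {n : ℕ} (A : Matrix (Fin (n + 1)) (Fin (n + 1)) (ZMod 2)) (t : Fin (n + 1) → ZMod 2) :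
    Matrix (Fin (n + 2)) (Fin (n + 2)) (ZMod 2) :=
  (Matrix.fromBlocks A (Matrix.replicateCol Unit t) 0 1).submatrix
    ((finSuccEquiv' (1 : Fin (n + 2))).trans (Equiv.optionEquivSumPUnit _))
    ((finSuccEquiv' (1 : Fin (n + 2))).trans (Equiv.optionEquivSumPUnit _))

theorem aff_mul {n : ℕ} (A A' : Matrix (Fin (n + 1)) (Fin (n + 1)) (ZMod 2)) (t t' : Fin (n + 1) → ZMod 2) :
    aff A t * aff A' t' = aff (A * A') (Matrix.mulVec A t' + t) := by
  rw [aff, aff, aff, Matrix.submatrix_mul_equiv, Matrix.fromBlocks_multiply]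
  congr 1
  simp [Matrix.replicateCol_add, Matrix.replicateCol_mulVec]

theorem det_aff {n : ℕ} (A : Matrix (Fin (n + 1)) (Fin (n + 1)) (ZMod 2)) (t : Fin (n + 1) → ZMod 2) :
    (aff A t).det = A.det := by
  rw [aff, Matrix.det_submatrix_equiv_self, Matrix.det_fromBlocks_zero₂₁, Matrix.det_one, mul_one]

theorem aff_apply {n : ℕ} (A : Matrix (Fin (n + 1)) (Fin (n + 1)) (ZMod 2)) (t : Fin (n + 1) → ZMod 2)
    (i j : Fin (n + 1)) :
    aff A t ((1 : Fin (n + 2)).succAbove i) ((1 : Fin (n + 2)).succAbove j) = A i j ∧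
      aff A t ((1 : Fin (n + 2)).succAbove i) 1 = t i ∧ aff A t 1 ((1 : Fin (n + 2)).succAbove j) = 0 ∧
      aff A t 1 1 = 1 := by
  simp [aff, Matrix.submatrix_apply]


/-- Let G be a finite group that is the split extension of an elementary abelian normal subgroup U of order 2^(n+1), n ≥ 1, by its full automorphism group: U has a complement M in G whose conjugation action on U is faithful and realizes every automorphism of U. Let Z be a subgroup of U of order 2 and Q the largest normal 2-subgroup of the centralizer C of Z. Then Q is extraspecial of order 2^(2n+1) with an elementary abelian subgroup of order 2^(n+1) (plus type), Q is a large extraspecial 2-subgroup of G, and C is the split extension of Q by the general linear group of degree n over the field with two elements. -/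
theorem result {G : Type*} [Group G] [Finite G] (n : ℕ) (hn : 1 ≤ n) (U M : Subgroup G) [U.Normal] (hU : Cfsg.IsElementaryAbelian 2 U) (hUcard : Nat.card ↥U = 2 ^ (n + 1)) (hUM : U ⊓ M = ⊥) (hUM' : U ⊔ M = ⊤) (hfaith : ∀ m ∈ M, (∀ u ∈ U, m * u * m⁻¹ = u) → m = 1) (hfull : ∀ φ : ↥U ≃* ↥U, ∃ m ∈ M, ∀ u : ↥U, ((φ u : ↥U) : G) = m * u * m⁻¹) (Z : Subgroup G) (hZU : Z ≤ U) (hZ : Nat.card ↥Z = 2) (Q : Subgroup G) (hQ : Q = (Cfsg.pCore 2 ↥(Subgroup.centralizer (Z : Set G))).map (Subgroup.centralizer (Z : Set G)).subtype) : Cfsg.IsExtraspecial 2 ↥Q ∧ Nat.card ↥Q = 2 ^ (2 * n + 1) ∧ (∃ E : Subgroup G, E ≤ Q ∧ Cfsg.IsElementaryAbelian 2 E ∧ Nat.card ↥E = 2 ^ (n + 1)) ∧ Cfsg.IsLargeExtraspecial Q ∧ ∃ K : Subgroup G, K ≤ Subgroup.centralizer (Z : Set G) ∧ Q ⊓ K = ⊥ ∧ Q ⊔ K = Subgroup.centralizer (Z : Set G) ∧ Nonempty (↥K ≃* Matrix.GeneralLinearGroup (Fin n) (ZMod 2)) := by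
  classical
  have hF : Fact (Nat.Prime 2) := ⟨Nat.prime_two⟩
  subst hQ
  obtain ⟨zc, hzc, -⟩ := Nat.card_eq_two_iff' (1 : ↥Z) |>.1 hZ
  set z : G := (zc : G) with hzdef
  have hzU : z ∈ U := hZU zc.2
  have hz1 : z ≠ 1 := fun e => hzc (Subtype.ext e)
  have hCeq : Subgroup.centralizer (Z : Set G) = Subgroup.centralizer ({z} : Set G) := by
    refine le_antisymm (Subgroup.centralizer_le (by simp [hzdef])) fun x hx y hy => ?_
    have h2 : ∀ w : ↥Z, w = 1 ∨ w = zc := fun w => by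
      by_contra h
      push Not at h
      obtain ⟨a, -, huniq⟩ := Nat.card_eq_two_iff' (1 : ↥Z) |>.1 hZ
      exact h.2 ((huniq w h.1).trans (huniq zc hzc).symm)
    rcases h2 ⟨y, hy⟩ with e | e <;> have e' := congrArg Subtype.val e <;> simp only [OneMemClass.coe_one] at e'
    · simp [e']
    · rw [e']; exact hx z rfl
  rw [hCeq]
  -- coordinates on U
  letI : CommGroup ↥U := { (inferInstance : Group ↥U) with mul_comm := hU.1.is_comm.comm }
  letI : Module (ZMod 2) (Additive ↥U) := AddCommGroup.zmodModule (fun x => by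
    have h := hU.2 _ x.toMul.2
    rw [pow_two] at h
    rw [two_nsmul]
    exact congrArg Additive.ofMul (Subtype.ext h : x.toMul * x.toMul = 1))
  have hrank : Module.finrank (ZMod 2) (Additive ↥U) = n + 1 := by
    have h := Module.natCard_eq_pow_finrank (K := ZMod 2) (V := Additive ↥U)
    rw [Nat.card_congr (Additive.toMul (α := ↥U)), hUcard, Nat.card_zmod] at h
    exact (Nat.pow_right_injective le_rfl h).symm
  let e1 : Additive ↥U ≃ₗ[ZMod 2] (Fin (n + 1) → ZMod 2) := LinearEquiv.ofFinrankEq _ _ (by rw [hrank]; simp)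
  have hv0 : e1 (Additive.ofMul ⟨z, hzU⟩) ≠ 0 := fun h => hz1 (by
    have := e1.injective (h.trans e1.map_zero.symm)
    exact congrArg (fun x : Additive ↥U => ((x.toMul : ↥U) : G)) this)
  obtain ⟨g0, hg0⟩ := exists_sl_mulVec hv0 (show (Pi.single 0 1 : Fin (n + 1) → ZMod 2) ≠ 0 by simp)
  let φ : ↥U → (Fin (n + 1) → ZMod 2) := fun u => Matrix.mulVec g0.1 (e1 (Additive.ofMul u))
  have hφmul : ∀ u w, φ (u * w) = φ u + φ w := fun u w => by
    show Matrix.mulVec g0.1 (e1 (Additive.ofMul u + Additive.ofMul w)) = _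
    rw [map_add, Matrix.mulVec_add]
  have hg0i : ∀ v, Matrix.mulVec (g0⁻¹).1 (Matrix.mulVec g0.1 v) = v := fun v => by
    rw [Matrix.mulVec_mulVec]
    have : (g0⁻¹).1 * g0.1 = 1 := congrArg Subtype.val (inv_mul_cancel g0)
    rw [this, Matrix.one_mulVec]
  have hg0i' : ∀ v, Matrix.mulVec g0.1 (Matrix.mulVec (g0⁻¹).1 v) = v := fun v => by
    rw [Matrix.mulVec_mulVec]
    have : g0.1 * (g0⁻¹).1 = 1 := congrArg Subtype.val (mul_inv_cancel g0)
    rw [this, Matrix.one_mulVec]
  let φi : (Fin (n + 1) → ZMod 2) → ↥U := fun v => (e1.symm (Matrix.mulVec (g0⁻¹).1 v)).toMul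
  have hφi : ∀ v, φ (φi v) = v := fun v => by
    show Matrix.mulVec g0.1 (e1 (Additive.ofMul (e1.symm _).toMul)) = v
    rw [ofMul_toMul, LinearEquiv.apply_symm_apply, hg0i']
  have hiφ : ∀ u, φi (φ u) = u := fun u => by
    show (e1.symm (Matrix.mulVec (g0⁻¹).1 (Matrix.mulVec g0.1 (e1 (Additive.ofMul u))))).toMul = u
    rw [hg0i, LinearEquiv.symm_apply_apply, toMul_ofMul]
  have hφinj : Function.Injective φ := Function.LeftInverse.injective hiφ
  have hφ1 : φ 1 = 0 := by
    have := hφmul 1 1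
    rw [one_mul] at this
    exact left_eq_add.1 this
  have hconj : ∀ (m : G) (u : ↥U), m * u * m⁻¹ ∈ U := fun m u => Subgroup.Normal.conj_mem inferInstance _ u.2 m
  let L : G → ((Fin (n + 1) → ZMod 2) →ₗ[ZMod 2] (Fin (n + 1) → ZMod 2)) := fun m =>
    (AddMonoidHom.mk' (fun v => φ ⟨m * φi v * m⁻¹, hconj m (φi v)⟩) fun v w => by
      rw [← hφmul]
      congr 1
      refine Subtype.ext ?_
      have : φi (v + w) = φi v * φi w := hφinj (by rw [hφi, hφmul, hφi, hφi])
      simp [this, mul_assoc]).toZModLinearMap 2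
  let mat : G → Matrix (Fin (n + 1)) (Fin (n + 1)) (ZMod 2) := fun m => LinearMap.toMatrix' (L m)
  have hmat : ∀ m (u : ↥U), Matrix.mulVec (mat m) (φ u) = φ ⟨m * u * m⁻¹, hconj m u⟩ := fun m u => by
    rw [← Matrix.toLin'_apply, Matrix.toLin'_toMatrix']
    show φ _ = _
    simp only [hiφ]
  have hext : ∀ {A B : Matrix (Fin (n + 1)) (Fin (n + 1)) (ZMod 2)},
      (∀ u, Matrix.mulVec A (φ u) = Matrix.mulVec B (φ u)) → A = B := fun {A B} h =>
    Matrix.toLin'.injective (LinearMap.ext fun v => by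
      rw [Matrix.toLin'_apply, Matrix.toLin'_apply, ← hφi v]; exact h _)
  have hmm : ∀ m m', mat (m * m') = mat m * mat m' := fun m m' => hext fun u => by
    rw [← Matrix.mulVec_mulVec, hmat, hmat, hmat]
    congr 1
    exact Subtype.ext (by simp [mul_assoc])
  have hm1 : mat 1 = 1 := hext fun u => by rw [hmat, Matrix.one_mulVec]; simp
  have hmdet : ∀ m, (mat m).det = 1 := fun m => (zmod_two _).resolve_left fun h => by
    have := congrArg Matrix.det (hmm m m⁻¹)
    rw [mul_inv_cancel, hm1, Matrix.det_one, Matrix.det_mul, h, zero_mul] at this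
    exact one_ne_zero this
  have hdec : ∀ x : G, ∃ p : ↥U × ↥M, x = (p.1 : G) * p.2 := fun x => by
    obtain ⟨u, hu, m, hm, h⟩ := Subgroup.mem_sup_of_normal_left.1 (hUM' ▸ Subgroup.mem_top x : x ∈ U ⊔ M)
    exact ⟨(⟨u, hu⟩, ⟨m, hm⟩), h.symm⟩
  choose dec hdec using hdec
  let F : G → Matrix.SpecialLinearGroup (Fin (n + 2)) (ZMod 2) := fun x =>
    ⟨aff (mat (dec x).2) (φ (dec x).1), (det_aff _ _).trans (hmdet _)⟩
  have huniq : ∀ (x : G) (u : ↥U) (m : ↥M), x = u * m → dec x = (u, m) := by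
    intro x u m h
    have he : ((dec x).1 : G) * (dec x).2 = u * m := (hdec x).symm.trans h
    have hin : (u : G)⁻¹ * (dec x).1 ∈ U ⊓ M := by
      refine ⟨U.mul_mem (U.inv_mem u.2) (dec x).1.2, ?_⟩
      have : (u : G)⁻¹ * (dec x).1 = m * ((dec x).2 : G)⁻¹ := by
        calc (u : G)⁻¹ * (dec x).1 = (u : G)⁻¹ * (((dec x).1 : G) * (dec x).2) * ((dec x).2 : G)⁻¹ := by group
          _ = m * ((dec x).2 : G)⁻¹ := by rw [he]; group
      rw [this]; exact M.mul_mem m.2 (M.inv_mem (dec x).2.2)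
    rw [hUM, Subgroup.mem_bot, inv_mul_eq_one] at hin
    refine Prod.ext (Subtype.ext hin.symm) (Subtype.ext ?_)
    rw [← hin] at he
    exact mul_left_cancel he
  let f : G →* Matrix.SpecialLinearGroup (Fin (n + 2)) (ZMod 2) := MonoidHom.mk' F fun x y => by
    have h := huniq (x * y) ((dec x).1 * ⟨((dec x).2 : G) * (dec y).1 * ((dec x).2 : G)⁻¹, hconj _ _⟩)
      ((dec x).2 * (dec y).2) (by
        conv_lhs => rw [hdec x, hdec y]
        simp [mul_assoc])
    refine Subtype.ext ?_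
    show aff _ _ = aff _ _ * aff _ _
    rw [aff_mul, h, hmat, hφmul, add_comm (φ (dec x).1), Subgroup.coe_mul, hmm]
  have hfval : ∀ (u : ↥U) (m : ↥M), (f ((u : G) * m)).1 = aff (mat m) (φ u) := fun u m => by
    show aff _ _ = _
    rw [huniq _ u m rfl]
  have hinj : Function.Injective f := by
    refine (injective_iff_map_eq_one f).2 fun x hx => ?_
    have h : aff (mat (dec x).2) (φ (dec x).1) = 1 := congrArg Subtype.val hx
    have hA : mat (dec x).2 = 1 := by
      ext i j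
      rw [← (aff_apply (mat (dec x).2) (φ (dec x).1) i j).1, h, Matrix.one_apply, Matrix.one_apply]
      simp [Fin.succAbove_right_inj]
    have ht : φ (dec x).1 = 0 := funext fun i => by
      rw [← (aff_apply (mat (dec x).2) (φ (dec x).1) i i).2.1, h]
      exact Matrix.one_apply_ne (Fin.succAbove_ne _ _)
    have hm : ((dec x).2 : G) = 1 := hfaith _ (dec x).2.2 fun u hu => by
      have h' := hmat (dec x).2 ⟨u, hu⟩
      rw [hA, Matrix.one_mulVec] at h'
      exact (congrArg Subtype.val (hφinj h')).symm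
    rw [hdec x, hm, mul_one, hφinj (ht.trans hφ1.symm)]
    rfl
  have hfz : f z = el 1 1 0 0 := by
    have h := hfval ⟨z, hzU⟩ 1
    rw [OneMemClass.coe_one, mul_one, hm1] at h
    refine Subtype.ext (h.trans ?_)
    show _ = mk 1 1 0 0
    rw [← transvection_eq]
    have hφz : φ ⟨z, hzU⟩ = Pi.single 0 1 := hg0
    ext i j
    rcases Fin.eq_self_or_eq_succAbove (1 : Fin (n + 2)) i with rfl | ⟨a, rfl⟩ <;>
      rcases Fin.eq_self_or_eq_succAbove (1 : Fin (n + 2)) j with rfl | ⟨b, rfl⟩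
    · simp [(aff_apply 1 (φ ⟨z, hzU⟩) 0 0).2.2.2, Matrix.transvection]
    · have hne : (1 : Fin (n + 2)) ≠ (1 : Fin (n + 2)).succAbove b := (Fin.succAbove_ne _ _).symm
      simp [(aff_apply 1 (φ ⟨z, hzU⟩) 0 b).2.2.1, Matrix.transvection, hne]
    · have hne : (1 : Fin (n + 2)).succAbove a ≠ 1 := Fin.succAbove_ne _ _
      rw [(aff_apply 1 (φ ⟨z, hzU⟩) a a).2.1, hφz]
      by_cases ha : a = 0
      · subst ha; simp [Matrix.transvection]
      · have h0 : (0 : Fin (n + 2)) ≠ (1 : Fin (n + 2)).succAbove a := fun e => ha (by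
          rw [← Fin.succAbove_ne_zero_zero (show (1 : Fin (n + 2)) ≠ 0 by simp)] at e
          exact (Fin.succAbove_right_injective e).symm)
        simp [Matrix.transvection, hne, h0, ha]
    · have hne : (1 : Fin (n + 2)).succAbove b ≠ 1 := Fin.succAbove_ne _ _
      simp [(aff_apply 1 (φ ⟨z, hzU⟩) a b).1, Matrix.transvection, Matrix.one_apply, hne.symm]
  have hsub : ∀ y, y * el 1 1 0 0 = el 1 1 0 0 * y → y ∈ f.range := by
    intro y hy
    obtain ⟨A', a, b, c, hsh⟩ := shape y (by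
      rw [transvection_eq]
      exact congrArg Subtype.val hy)
    let s := (1 : Fin (n + 2)).succAbove
    let A : Matrix (Fin (n + 1)) (Fin (n + 1)) (ZMod 2) := Matrix.of fun i j => y.1 (s i) (s j)
    let t : Fin (n + 1) → ZMod 2 := fun i => y.1 (s i) 1
    have hyA : y.1 = aff A t := by
      ext i j
      rcases Fin.eq_self_or_eq_succAbove (1 : Fin (n + 2)) i with rfl | ⟨i, rfl⟩ <;>
        rcases Fin.eq_self_or_eq_succAbove (1 : Fin (n + 2)) j with rfl | ⟨j, rfl⟩
      · rw [(aff_apply A t 0 0).2.2.2, hsh]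
        show mk A'.1 a b c 1 1 = 1
        simp [mk]
      · rw [(aff_apply A t 0 j).2.2.1, hsh]
        show mk A'.1 a b c 1 _ = 0
        rcases Fin.eq_zero_or_eq_succ j with rfl | ⟨k, rfl⟩ <;> simp [mk]
      · exact (aff_apply A t i i).2.1.symm
      · exact (aff_apply A t i j).1.symm
    have hAdet : A.det = 1 := by rw [← det_aff A t, ← hyA]; exact y.2
    let As : Matrix.SpecialLinearGroup (Fin (n + 1)) (ZMod 2) := ⟨A, hAdet⟩
    have hinvA : (As⁻¹).1 * A = 1 := congrArg Subtype.val (inv_mul_cancel As)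
    have hAinv : A * (As⁻¹).1 = 1 := congrArg Subtype.val (mul_inv_cancel As)
    let ψ : ↥U ≃* ↥U :=
      { toFun := fun u => φi (Matrix.mulVec A (φ u))
        invFun := fun u => φi (Matrix.mulVec (As⁻¹).1 (φ u))
        left_inv := fun u => by
          show φi _ = u
          rw [hφi, Matrix.mulVec_mulVec, hinvA, Matrix.one_mulVec, hiφ]
        right_inv := fun u => by
          show φi _ = u
          rw [hφi, Matrix.mulVec_mulVec, hAinv, Matrix.one_mulVec, hiφ]
        map_mul' := fun u w => hφinj (by rw [hφi, hφmul, hφmul, hφi, hφi, Matrix.mulVec_add]) }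
    obtain ⟨m, hm, hmu⟩ := hfull ψ
    have hmA : mat m = A := hext fun u => by
      rw [hmat, ← hφi (Matrix.mulVec A (φ u))]
      congr 1
      exact Subtype.ext (hmu u).symm
    refine ⟨(φi t : G) * m, Subtype.ext ?_⟩
    rw [hfval (φi t) ⟨m, hm⟩, hφi, hyA, hmA]
  set C := Subgroup.centralizer ({z} : Set G) with hC
  set C' := Subgroup.centralizer ({el 1 1 0 0} : Set (Matrix.SpecialLinearGroup (Fin (n + 2)) (ZMod 2))) with hC'
  have hmap : C.map f = C' := by
    ext y
    rw [hC', Subgroup.mem_centralizer_singleton_iff]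
    constructor
    · rintro ⟨x, hx, rfl⟩
      rw [← hfz, ← map_mul, ← map_mul, Subgroup.mem_centralizer_singleton_iff.1 hx]
    · intro hy
      obtain ⟨x, rfl⟩ := hsub y hy
      refine ⟨x, Subgroup.mem_centralizer_singleton_iff.2 (hinj ?_), rfl⟩
      rw [map_mul, map_mul, hfz]; exact hy
  obtain ⟨hE1, hcard, ⟨E, hEQ, hEab, hEcard⟩, hlarge, K, hKC, hQK, hQK', ⟨eK⟩⟩ :=
    structure_thm n hn (el 1 1 0 0) (transvection_eq).symm _ rfl
  let eC : ↥C ≃* ↥C' := (C.equivMapOfInjective f hinj).trans (MulEquiv.subgroupCongr hmap)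
  set Q := (Cfsg.pCore 2 ↥C).map C.subtype with hQdef
  have hQmap : Q.map f = (Cfsg.pCore 2 ↥C').map C'.subtype := by
    rw [hQdef, ← CfsgLib.Core.map_pCore_of_mulEquiv 2 eC, Subgroup.map_map, Subgroup.map_map]
    rfl
  rw [← hC', ← hQmap] at hE1 hcard hEQ hlarge hQK hQK'
  have hL := large_pullback f hinj Q hlarge
  refine ⟨hL.1, (Subgroup.card_map_of_injective hinj).symm.trans hcard, ⟨E.comap f, ?_, ⟨⟨⟨?_⟩⟩, ?_⟩, ?_⟩, hL,
    K.comap f, ?_, ?_, ?_, ?_⟩
  · intro x hx
    exact (Subgroup.mem_map_iff_mem hinj).1 (hEQ hx)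
  · exact fun a b => Subtype.ext (hinj (by
      simp only [Subgroup.coe_mul, map_mul]
      exact congrArg Subtype.val (hEab.1.is_comm.comm ⟨f a, a.2⟩ ⟨f b, b.2⟩)))
  · intro a ha
    exact hinj (by rw [map_pow, map_one]; exact hEab.2 _ ha)
  · rw [← hEcard, ← Subgroup.card_map_of_injective (K := E.comap f) (f := f) hinj, Subgroup.map_comap_eq_self ?_]
    exact fun y hy => by
      obtain ⟨x, -, rfl⟩ := hEQ hy
      exact ⟨x, rfl⟩
  · intro x hx
    refine (Subgroup.mem_map_iff_mem hinj).1 ?_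
    rw [hmap]; exact hKC hx
  · rw [Subgroup.eq_bot_iff_forall]
    intro x hx
    refine hinj ?_
    rw [map_one]
    exact Subgroup.mem_bot.1 (hQK ▸ ⟨⟨x, hx.1, rfl⟩, hx.2⟩)
  · refine Subgroup.map_injective hinj ?_
    rw [Subgroup.map_sup, Subgroup.map_comap_eq_self ?_, hQK', hmap]
    intro y hy
    exact hsub y (Subgroup.mem_centralizer_singleton_iff.1 (hKC hy))
  · have hKr : (K.comap f).map f = K := Subgroup.map_comap_eq_self fun y hy =>
      hsub y (Subgroup.mem_centralizer_singleton_iff.1 (hKC hy))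
    exact ⟨((((K.comap f).equivMapOfInjective f hinj).trans (MulEquiv.subgroupCongr hKr)).trans eK).trans
      (MulEquiv.ofBijective Matrix.SpecialLinearGroup.toGL ⟨Matrix.SpecialLinearGroup.toGL_injective, fun u => by
        refine ⟨⟨(u : Matrix (Fin n) (Fin n) (ZMod 2)), ?_⟩, Units.ext rfl⟩
        exact (zmod_two _).resolve_left fun h => (u.isUnit.map Matrix.detMonoidHom).ne_zero h⟩)⟩

end Cfsg.Agent.S5423
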