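import Cfsg.Statements.S5424
import Cfsg.Agent.Lib.SporSLTransv

set_option autoImplicit false
open Cfsg

namespace Cfsg.Agent.S5424
open CfsgLib.Spor CfsgLib.Spor.SLTransv
set_option maxHeartbeats 100000

/-- Let G be the special linear group of degree n + 2 over the field with two elements, n ≥ 2, let z be a transvection, and let Q be the largest normal 2-subgroup of the centralizer C of z. Then Q is extraspecial of order 2^(2n+1) with an elementary abelian subgroup of order 2^(n+1) (plus type), Q is a large extraspecial 2-subgroup of G, and C is the split extension of Q by the special linear group of degree n over the field with two elements. -/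
theorem result (n : ℕ) (hn : 2 ≤ n) (z : Matrix.SpecialLinearGroup (Fin (n + 2)) (ZMod 2)) (hz : (z : Matrix (Fin (n + 2)) (Fin (n + 2)) (ZMod 2)) = Matrix.transvection 0 1 1) (Q : Subgroup (Matrix.SpecialLinearGroup (Fin (n + 2)) (ZMod 2))) (hQ : Q = (Cfsg.pCore 2 ↥(Subgroup.centralizer ({z} : Set (Matrix.SpecialLinearGroup (Fin (n + 2)) (ZMod 2))))).map (Subgroup.centralizer ({z} : Set (Matrix.SpecialLinearGroup (Fin (n + 2)) (ZMod 2)))).subtype) : Cfsg.IsExtraspecial 2 ↥Q ∧ Nat.card ↥Q = 2 ^ (2 * n + 1) ∧ (∃ E : Subgroup (Matrix.SpecialLinearGroup (Fin (n + 2)) (ZMod 2)), E ≤ Q ∧ Cfsg.IsElementaryAbelian 2 E ∧ Nat.card ↥E = 2 ^ (n + 1)) ∧ Cfsg.IsLargeExtraspecial Q ∧ ∃ K : Subgroup (Matrix.SpecialLinearGroup (Fin (n + 2)) (ZMod 2)), K ≤ Subgroup.centralizer ({z} : Set (Matrix.SpecialLinearGroup (Fin (n + 2)) (ZMod 2))) ∧ Q ⊓ K = ⊥ ∧ Q ⊔ K = Subgroup.centralizer ({z} : Set (Matrix.SpecialLinearGroup (Fin (n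 + 2)) (ZMod 2))) ∧ Nonempty (↥K ≃* Matrix.SpecialLinearGroup (Fin n) (ZMod 2)) := by
  classical
  have hf : Fact (Nat.Prime 2) := ⟨Nat.prime_two⟩
  subst hQ
  have hz' : z = el 1 1 0 0 := Subtype.ext (by rw [hz, transvection_eq]; rfl)
  set C := Subgroup.centralizer ({z} : Set (Matrix.SpecialLinearGroup (Fin (n + 2)) (ZMod 2))) with hC
  have hmem : ∀ {x}, x ∈ C ↔ ∃ A a b c, x = el A a b c := fun {x} => mem_centralizer hz'
  let inn : ↥C → Matrix.SpecialLinearGroup (Fin n) (ZMod 2) := fun x => (hmem.1 x.2).choose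
  have hinn : ∀ (x : ↥C) A a b c, (x : Matrix.SpecialLinearGroup (Fin (n + 2)) (ZMod 2)) = el A a b c → inn x = A := by
    intro x A a b c h
    obtain ⟨a', b', c', h'⟩ := (hmem.1 x.2).choose_spec
    exact (el_inj (h'.symm.trans h)).1
  let φ : ↥C →* Matrix.SpecialLinearGroup (Fin n) (ZMod 2) := MonoidHom.mk' inn fun x y => by
    obtain ⟨A, a, b, c, hx⟩ := hmem.1 x.2
    obtain ⟨A', a', b', c', hy⟩ := hmem.1 y.2
    rw [hinn x A a b c hx, hinn y A' a' b' c' hy]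
    exact hinn _ _ _ _ _ (by rw [Subgroup.coe_mul, hx, hy]; exact el_mul _ _ _ _ _ _ _ _)
  have hφ : ∀ x, φ x = inn x := fun _ => rfl
  set Qs := φ.ker.map C.subtype with hQs
  have hQmem : ∀ {x}, x ∈ Qs ↔ ∃ a b c, x = el 1 a b c := by
    intro x
    constructor
    · rintro ⟨y, hy, rfl⟩
      obtain ⟨A, a, b, c, h⟩ := hmem.1 y.2
      have hA : A = 1 := (hinn y A a b c h).symm.trans (MonoidHom.mem_ker.1 hy)
      exact ⟨a, b, c, hA ▸ h⟩
    · rintro ⟨a, b, c, rfl⟩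
      exact ⟨⟨_, hmem.2 ⟨1, a, b, c, rfl⟩⟩, MonoidHom.mem_ker.2 (hinn _ 1 a b c rfl), rfl⟩
  have hcardQ : Nat.card ↥Qs = 2 ^ (2 * n + 1) := by
    rw [← Nat.card_congr (Equiv.ofBijective
      (fun v : ZMod 2 × (Fin n → ZMod 2) × (Fin n → ZMod 2) => (⟨el 1 v.1 v.2.1 v.2.2, hQmem.2 ⟨_, _, _, rfl⟩⟩ : ↥Qs))
      ⟨fun v w h => by
        have h' := el_inj (congrArg Subtype.val h)
        exact Prod.ext h'.2.1 (Prod.ext h'.2.2.1 h'.2.2.2),
       fun x => by
        obtain ⟨a, b, c, h⟩ := hQmem.1 x.2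
        exact ⟨(a, b, c), Subtype.ext h.symm⟩⟩)]
    simp only [Nat.card_eq_fintype_card, Fintype.card_prod, Fintype.card_fun, ZMod.card, Fintype.card_fin]
    ring
  have hp : IsPGroup 2 ↥φ.ker := IsPGroup.of_card (n := 2 * n + 1) (by
    rw [← hcardQ, hQs, Subgroup.card_map_of_injective Subtype.val_injective])
  have hsurj : Function.Surjective φ := fun A => ⟨⟨el A 0 0 0, hmem.2 ⟨A, 0, 0, 0, rfl⟩⟩, hinn _ A 0 0 0 rfl⟩
  have hcore : Cfsg.pCore 2 ↥C = φ.ker := by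
    refine le_antisymm ?_ (CfsgLib.Core.le_pCore φ.normal_ker hp)
    have h := CfsgLib.Core.map_pCore_le_of_surjective 2 φ hsurj
    rw [pCore_sl hn, le_bot_iff, Subgroup.map_eq_bot_iff] at h
    exact h
  rw [hcore, ← hQs]
  have hzQ : z ∈ Qs := hQmem.2 ⟨1, 0, 0, hz'⟩
  have hzz : z * z = 1 := by
    rw [hz', el1_mul, ← el_one]; congr 1 <;> simp [CharTwo.add_self_eq_zero]
  have hadd : ∀ v : Fin n → ZMod 2, v + v = 0 := fun v => funext fun _ => CharTwo.add_self_eq_zero _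
  have hcommQ : ∀ x ∈ Qs, ∀ y ∈ Qs, x * y * x⁻¹ = y ∨ x * y * x⁻¹ = z * y := by
    intro x hx y hy
    obtain ⟨a, b, c, rfl⟩ := hQmem.1 hx
    obtain ⟨a', b', c', rfl⟩ := hQmem.1 hy
    simp only [mul_inv_eq_iff_eq_mul]
    rcases zmod_two (b ⬝ᵥ c' + b' ⬝ᵥ c) with e | e
    · left
      rw [el1_mul, el1_mul, add_comm b' b, add_comm c' c]
      congr 1
      rw [CharTwo.add_eq_zero.1 e, add_comm a' a]
    · right
      rw [hz', el1_mul, el1_mul, el1_mul]
      simp only [zero_dotProduct, add_zero, zero_add]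
      rw [add_comm b' b, add_comm c' c]
      congr 1
      rw [← e]
      linear_combination (-1 : ZMod 2) * CharTwo.add_self_eq_zero (b' ⬝ᵥ c)
  have hsqQ : ∀ x ∈ Qs, x * x = 1 ∨ x * x = z := by
    intro x hx
    obtain ⟨a, b, c, rfl⟩ := hQmem.1 hx
    rw [el1_mul, hadd, hadd, CharTwo.add_self_eq_zero, zero_add]
    rcases zmod_two (b ⬝ᵥ c) with e | e <;> rw [e]
    · exact Or.inl el_one
    · exact Or.inr hz'.symm
  have hcent : ∀ x, (∀ y ∈ Qs, x * y = y * x) → x = 1 ∨ x = z := by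
    intro x hx
    obtain ⟨A, a, b, c, rfl⟩ := hmem.1 (Subgroup.mem_centralizer_singleton_iff.2 (hx z hzQ) : x ∈ C)
    have h1 : ∀ e : Fin n → ZMod 2, e ⬝ᵥ c = 0 ∧ Matrix.vecMul e A.1 = e := by
      intro e
      have h := hx (el 1 0 e 0) (hQmem.2 ⟨_, _, _, rfl⟩)
      rw [el_mul, el_mul] at h
      obtain ⟨-, ha, hb, -⟩ := el_inj h
      simp only [Matrix.mulVec_zero, dotProduct_zero, add_zero, zero_add] at ha hb
      refine ⟨left_eq_add.1 ha, ?_⟩
      have hb' : e + Matrix.vecMul b (1 : Matrix (Fin n) (Fin n) (ZMod 2)) = b + Matrix.vecMul e A.1 := hb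
      rw [Matrix.vecMul_one, add_comm e b] at hb'
      exact (add_left_cancel hb').symm
    have hc : c = 0 := funext fun i => by simpa using (h1 (Pi.single i 1)).1
    have hA : A = 1 := Subtype.ext (Matrix.ext fun i j => by
      have := congrFun (h1 (Pi.single i 1)).2 j
      simpa [Matrix.one_apply, Pi.single_apply, eq_comm] using this)
    have hb : b = 0 := funext fun i => by
      have h := hx (el 1 0 0 (Pi.single i 1)) (hQmem.2 ⟨_, _, _, rfl⟩)
      rw [el_mul, el_mul] at h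
      obtain ⟨-, ha, -, -⟩ := el_inj h
      simpa using ha
    subst hA hb hc
    rcases zmod_two a with rfl | rfl
    exacts [Or.inl el_one, Or.inr hz'.symm]
  have hnorm : ∀ x, x * z = z * x → ∀ y ∈ Qs, x * y * x⁻¹ ∈ Qs := by
    intro x hx y hy
    obtain ⟨y', hy', rfl⟩ := hy
    have hxC : x ∈ C := Subgroup.mem_centralizer_singleton_iff.2 hx
    let xc : ↥C := ⟨x, hxC⟩
    have hk : xc * y' * xc⁻¹ ∈ φ.ker := (MonoidHom.normal_ker φ).conj_mem y' hy' xc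
    have h := Subgroup.mem_map_of_mem C.subtype hk
    simp only [map_mul, map_inv] at h
    exact h
  have hcenQ : ∀ x ∈ Qs, x * z = z * x := fun x hx =>
    Subgroup.mem_centralizer_singleton_iff.1 (Subgroup.map_subtype_le φ.ker hx : x ∈ C)
  have B : LargeSimple.Base z Qs := ⟨hzz, fun e => by
      have := (el_inj (hz'.symm.trans (e.trans el_one.symm))).2.1
      exact one_ne_zero this, hzQ, hcenQ, hcommQ, hsqQ, hnorm, hcent⟩
  obtain ⟨g, hgg, hgu⟩ := exists_swap (n := n) (by omega)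
  rw [← hz'] at hgu
  set e0 : Fin n → ZMod 2 := Pi.single ⟨0, by omega⟩ 1 with he0
  have hgQ : g * z * g⁻¹ ∈ Qs := hQmem.2 ⟨_, _, _, hgu⟩
  have hsym : g⁻¹ * z * g ∈ Qs := by
    have hgi : g⁻¹ = g := inv_eq_of_mul_eq_one_right hgg
    rw [hgi] at hgQ ⊢
    exact hgQ
  have hu1 : g * z * g⁻¹ ≠ 1 := fun e => B.z_ne (conj_eq_one_iff.1 e)
  have huz : g * z * g⁻¹ ≠ z := fun e => by
    have := (el_inj ((hgu.symm.trans e).trans hz')).2.1
    exact zero_ne_one this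
  have huu : g * z * g⁻¹ * (g * z * g⁻¹) = 1 := by
    rw [show g * z * g⁻¹ * (g * z * g⁻¹) = g * (z * z) * g⁻¹ by group, hzz]; group
  have hL : Cfsg.IsLargeExtraspecial Qs := by
    obtain ⟨q, hq, hqu⟩ := LargeSimple.exists_move B hgQ hu1 huz
    refine LargeSub.isLarge_of Qs hzQ hzz B.z_ne hcommQ hsqQ ⟨q, hq, _, hgQ, fun e => B.z_ne ?_⟩ hcenQ hcent hnorm
      fun L hL hn' => LargeSimple.no_odd B hgQ huu hu1 huz
        (fun K hK hKz k hk hkv => LargeSimple.fixed_of_conj B hgQ hsym K hK hKz k hk hkv) L hL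
        fun y hy k hk => (Subgroup.mem_normalizer_iff.1 (hn' hy) k).1 hk
    rw [e, mul_inv_cancel_right] at hqu
    exact right_eq_mul.1 hqu
  let E : Subgroup (Matrix.SpecialLinearGroup (Fin (n + 2)) (ZMod 2)) :=
    { carrier := {x | ∃ a b, x = el 1 a b 0}
      mul_mem' := by
        rintro _ _ ⟨a, b, rfl⟩ ⟨a', b', rfl⟩
        exact ⟨_, _, (el1_mul a a' b b' 0 0).trans (by rw [add_zero])⟩
      one_mem' := ⟨0, 0, el_one.symm⟩
      inv_mem' := by
        rintro _ ⟨a, b, rfl⟩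
        refine ⟨a, b, inv_eq_of_mul_eq_one_right ?_⟩
        rw [el1_mul, hadd, hadd, CharTwo.add_self_eq_zero, dotProduct_zero, add_zero, el_one] }
  have hE : ∀ {x}, x ∈ E ↔ ∃ a b, x = el 1 a b 0 := Iff.rfl
  let K : Subgroup (Matrix.SpecialLinearGroup (Fin (n + 2)) (ZMod 2)) :=
    (MonoidHom.mk' (fun A : Matrix.SpecialLinearGroup (Fin n) (ZMod 2) => el A 0 0 0) fun A A' => by
      rw [el_mul]; simp).range
  refine ⟨hL.1, hcardQ, ⟨E, ?_, ⟨⟨⟨?_⟩⟩, ?_⟩, ?_⟩, hL, K, ?_, ?_, ?_, ?_⟩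
  · intro x hx
    obtain ⟨a, b, rfl⟩ := hE.1 hx
    exact hQmem.2 ⟨a, b, 0, rfl⟩
  · rintro ⟨x, hx⟩ ⟨y, hy⟩
    obtain ⟨a, b, rfl⟩ := hE.1 hx
    obtain ⟨a', b', rfl⟩ := hE.1 hy
    refine Subtype.ext ?_
    show el 1 a b 0 * el 1 a' b' 0 = el 1 a' b' 0 * el 1 a b 0
    rw [el1_mul, el1_mul, dotProduct_zero, dotProduct_zero, add_comm a a', add_comm b b']
  · intro x hx
    obtain ⟨a, b, rfl⟩ := hE.1 hx
    rw [pow_two, el1_mul, hadd, hadd, CharTwo.add_self_eq_zero, dotProduct_zero, add_zero, el_one]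
  · rw [← Nat.card_congr (Equiv.ofBijective
      (fun v : ZMod 2 × (Fin n → ZMod 2) => (⟨el 1 v.1 v.2 0, hE.2 ⟨_, _, rfl⟩⟩ : ↥E))
      ⟨fun v w h => by
        have h' := el_inj (congrArg Subtype.val h)
        exact Prod.ext h'.2.1 h'.2.2.1,
       fun x => by
        obtain ⟨a, b, h⟩ := hE.1 x.2
        exact ⟨(a, b), Subtype.ext h.symm⟩⟩)]
    simp only [Nat.card_eq_fintype_card, Fintype.card_prod, Fintype.card_fun, ZMod.card, Fintype.card_fin]
    ring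
  · rintro _ ⟨A, rfl⟩
    exact hmem.2 ⟨A, 0, 0, 0, rfl⟩
  · rw [Subgroup.eq_bot_iff_forall]
    rintro x ⟨hxQ, A, rfl⟩
    obtain ⟨a, b, c, h⟩ := hQmem.1 hxQ
    obtain ⟨rfl, -⟩ := el_inj h
    exact el_one
  · refine le_antisymm (sup_le (Subgroup.map_subtype_le _) (by rintro _ ⟨A, rfl⟩; exact hmem.2 ⟨A, 0, 0, 0, rfl⟩)) ?_
    intro x hx
    obtain ⟨A, a, b, c, rfl⟩ := hmem.1 hx
    have hk : el A 0 0 0 ∈ K := ⟨A, rfl⟩
    have hq : el A a b c * (el A 0 0 0)⁻¹ ∈ Qs := by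
      refine Subgroup.mem_map.2 ⟨⟨el A a b c, hmem.2 ⟨A, a, b, c, rfl⟩⟩ * (⟨el A 0 0 0, hmem.2 ⟨A, 0, 0, 0, rfl⟩⟩ : ↥C)⁻¹,
        MonoidHom.mem_ker.2 ?_, by rw [map_mul, map_inv, Subgroup.coe_subtype]⟩
      rw [map_mul, map_inv, hφ, hφ, hinn _ A a b c rfl, hinn _ A 0 0 0 rfl, mul_inv_cancel]
    have := mul_mem (Subgroup.mem_sup_left (T := K) hq) (Subgroup.mem_sup_right (S := Qs) hk)
    rwa [inv_mul_cancel_right] at this
  · exact ⟨(MonoidHom.ofInjective (f := MonoidHom.mk' (fun A : Matrix.SpecialLinearGroup (Fin n) (ZMod 2) => el A 0 0 0)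
      fun A A' => by rw [el_mul]; simp) fun A A' h => (el_inj h).1).symm⟩

end Cfsg.Agent.S5424
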