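import Cfsg.Statements.S5425
import Cfsg.Agent.S1554
import Cfsg.Agent.S5394
import Cfsg.Agent.S5423
import Cfsg.Agent.Lib.SporOctStab

set_option autoImplicit false
open Cfsg

namespace Cfsg.Agent.S5425

set_option maxHeartbeats 400000
set_option maxRecDepth 20000
open CfsgLib.Spor
open scoped Pointwise

theorem fixL6_sq : (fixL6.all fun L => (List.range 24).all fun i => Nat.beq (L.getD (L.getD i 0) 0) i) = true := by
  decide +kernel

theorem fix_sq {o : Finset GolayPt} (ho : o ∈ octads) {g : P24} (hg : g ∈ M24) (hfix : ∀ q ∈ o, g q = q) :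
    g * g = 1 := by
  obtain ⟨E, hEo, hE⟩ := Finset.exists_subset_card_eq (s := o) (n := 6) (by rw [ho.2]; norm_num)
  obtain ⟨h, hh, -, -, hl⟩ := six_oct_align ho hE hEo
  have hL := List.all_eq_true.1 fixL6_sq _ (hl g hg fun q hq => hfix q (hEo hq))
  have hw : (h * g * h⁻¹) * (h * g * h⁻¹) = 1 := Equiv.ext fun q => by
    have := List.all_eq_true.1 hL _ (List.mem_range.2 (ix_lt q))
    rw [Nat.beq_eq, ← rep_listOf (h * g * h⁻¹) q, ← rep_listOf (h * g * h⁻¹)] at this
    exact ix_inj this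
  calc g * g = h⁻¹ * ((h * g * h⁻¹) * (h * g * h⁻¹)) * h := by group
    _ = 1 := by rw [hw]; group

theorem card_mulAut_le {U : Type*} [Group U] [Finite U] (h : ∀ x : U, x * x = 1) (hc : Nat.card U = 2 ^ 4) :
    Nat.card (MulAut U) ≤ 20160 := by
  classical
  letI : CommGroup U := { (inferInstance : Group U) with
    mul_comm := fun a b => by
      have hi : ∀ x : U, x⁻¹ = x := fun x => inv_eq_of_mul_eq_one_right (h x)
      calc a * b = (a * b)⁻¹ := (hi _).symm
        _ = b * a := by rw [mul_inv_rev, hi, hi] }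
  letI : Module (ZMod 2) (Additive U) := AddCommGroup.zmodModule (fun x => by
    rw [two_nsmul]
    exact congrArg Additive.ofMul (h x.toMul))
  have hrank : Module.finrank (ZMod 2) (Additive U) = 4 := by
    have h := Module.natCard_eq_pow_finrank (K := ZMod 2) (V := Additive U)
    rw [Nat.card_congr (Additive.toMul (α := U)), hc, Nat.card_zmod] at h
    exact (Nat.pow_right_injective le_rfl h).symm
  let e1 : Additive U ≃ₗ[ZMod 2] (Fin 4 → ZMod 2) := LinearEquiv.ofFinrankEq _ _ (by rw [hrank]; simp)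
  let F : MulAut U → Matrix.GeneralLinearGroup (Fin 4) (ZMod 2) := fun φ =>
    Matrix.GeneralLinearGroup.toLin.symm ((LinearMap.GeneralLinearGroup.generalLinearEquiv (ZMod 2) _).symm
      (e1.symm.trans (((MulEquiv.toAdditive φ : Additive U ≃+ Additive U).toLinearEquiv fun c x => ZMod.map_smul (MulEquiv.toAdditive φ) c x).trans e1)))
  have hF : Function.Injective F := fun φ ψ e => by
    have e' := (LinearMap.GeneralLinearGroup.generalLinearEquiv (ZMod 2) _).symm.injective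
      (Matrix.GeneralLinearGroup.toLin.symm.injective e)
    refine MulEquiv.ext fun x => ?_
    have := LinearEquiv.congr_fun e' (e1 (Additive.ofMul x))
    simpa using this
  refine (Nat.card_le_card_of_injective F hF).trans_eq ?_
  rw [Matrix.card_GL_field]
  simp [Fin.prod_univ_four]

theorem eq_bot_of_fpf {G : Type*} [Group G] [Finite G] (K : Subgroup G) (hK : Odd (Nat.card ↥K)) {u v : G}
    (hu : u * u = 1) (hv : v * v = 1) (huv : (u * v) * (u * v) = 1)
    (nu : ∀ k ∈ K, u * k * u ∈ K) (nv : ∀ k ∈ K, v * k * v ∈ K)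
    (fu : ∀ k ∈ K, k * u = u * k → k = 1) (fv : ∀ k ∈ K, k * v = v * k → k = 1)
    (fuv : ∀ k ∈ K, k * (u * v) = (u * v) * k → k = 1) : K = ⊥ := by
  have inv : ∀ t : G, t * t = 1 → (∀ k ∈ K, t * k * t ∈ K) → (∀ k ∈ K, k * t = t * k → k = 1) →
      ∀ k ∈ K, t * k * t = k⁻¹ := by
    intro t ht nt ft k hk
    have ti : t⁻¹ = t := inv_eq_of_mul_eq_one_right ht
    let f : ↥K → ↥K := fun x => ⟨(x : G)⁻¹ * (t * x * t), K.mul_mem (K.inv_mem x.2) (nt x x.2)⟩
    have hf : Function.Injective f := fun a b e => by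
      have e' : (a : G)⁻¹ * (t * a * t) = (b : G)⁻¹ * (t * b * t) := congrArg Subtype.val e
      have h1 : ((b : G) * (a : G)⁻¹) * t = t * ((b : G) * (a : G)⁻¹) := by
        calc ((b : G) * (a : G)⁻¹) * t = (b : G) * ((a : G)⁻¹ * (t * a * t)) * t⁻¹ * (a : G)⁻¹ := by group
          _ = t * ((b : G) * (a : G)⁻¹) := by rw [e']; group
      exact Subtype.ext (mul_inv_eq_one.1 (ft _ (K.mul_mem b.2 (K.inv_mem a.2)) h1)).symm
    obtain ⟨x, hx⟩ := Finite.injective_iff_surjective.1 hf ⟨k, hk⟩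
    have hx' : (x : G)⁻¹ * (t * x * t) = k := congrArg Subtype.val hx
    rw [← hx']
    calc t * ((x : G)⁻¹ * (t * x * t)) * t = (t⁻¹ * (x : G)⁻¹ * t⁻¹) * x * (t * t) * 1 := by rw [ti]; group
      _ = ((x : G)⁻¹ * (t * x * t))⁻¹ := by rw [ht]; group
  rw [Subgroup.eq_bot_iff_forall]
  intro k hk
  have nuv : ∀ k ∈ K, (u * v) * k * (u * v) ∈ K := fun k hk => by
    have e : v * u = u * v := by
      rw [← inv_eq_of_mul_eq_one_right huv, mul_inv_rev, inv_eq_of_mul_eq_one_right hu, inv_eq_of_mul_eq_one_right hv]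
    have := nu _ (nv k hk)
    nth_rewrite 2 [← e]
    simpa [mul_assoc] using this
  have h3 := inv _ huv nuv fuv k hk
  have e : v * u = u * v := by
    rw [← inv_eq_of_mul_eq_one_right huv, mul_inv_rev, inv_eq_of_mul_eq_one_right hu, inv_eq_of_mul_eq_one_right hv]
  have h4 : (u * v) * k * (u * v) = k := by
    nth_rewrite 2 [← e]
    calc u * v * k * (v * u) = u * (v * k * v) * u⁻¹ * (u * u) := by group
      _ = (u * k * u)⁻¹ := by
        rw [inv v hv nv fv k hk, hu, mul_inv_rev, mul_inv_rev, inv_eq_of_mul_eq_one_right hu, mul_one, mul_assoc]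
      _ = k := by rw [inv u hu nu fu k hk, inv_inv]
  refine LargeSub.mem_of_four hK hk ?_
  have h5 : k * k = 1 := mul_eq_one_iff_eq_inv.2 (h4.symm.trans h3)
  rw [show 4 = 2 * 2 from rfl, pow_mul, pow_two, pow_two, h5, one_mul]

/-- In the Mathieu group of degree 24 (the automorphism group of the length-24 binary Golay code, acting on the 24 coordinates), let z be an involution whose fixed points form an octad (the support of a code word of weight 8), and let Q be the largest normal 2-subgroup of the centralizer C of z. Then Q is extraspecial of order 2^7 with an elementary abelian subgroup of order 16 (plus type), Q is a large extraspecial 2-subgroup, and C is the split extension of Q by the special linear group of degree 3 over the field with two elements. -/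
theorem result (z : ↥Cfsg.M24) (hz : orderOf z = 2) (hfix : (Finset.univ.filter fun p : Cfsg.GolayPt => (z : Equiv.Perm Cfsg.GolayPt) p = p) ∈ Cfsg.octads) (Q : Subgroup ↥Cfsg.M24) (hQ : Q = (Cfsg.pCore 2 ↥(Subgroup.centralizer ({z} : Set ↥Cfsg.M24))).map (Subgroup.centralizer ({z} : Set ↥Cfsg.M24)).subtype) : Cfsg.IsExtraspecial 2 ↥Q ∧ Nat.card ↥Q = 2 ^ 7 ∧ (∃ E : Subgroup ↥Cfsg.M24, E ≤ Q ∧ Cfsg.IsElementaryAbelian 2 E ∧ Nat.card ↥E = 2 ^ 4) ∧ Cfsg.IsLargeExtraspecial Q ∧ ∃ K : Subgroup ↥Cfsg.M24, K ≤ Subgroup.centralizer ({z} : Set ↥Cfsg.M24) ∧ Q ⊓ K = ⊥ ∧ Q ⊔ K = Subgroup.centralizer ({z} : Set ↥Cfsg.M24) ∧ Nonempty (↥K ≃* Matrix.SpecialLinearGroup (Fin 3) (ZMod 2)) := by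
  classical
  have hF : Fact (Nat.Prime 2) := ⟨Nat.prime_two⟩
  subst hQ
  set o := Finset.univ.filter fun p : GolayPt => (z : P24) p = p with hodef
  have memo : ∀ q, q ∈ o ↔ (z : P24) q = q := fun q => by rw [hodef]; simp
  have fixo : ∀ g : P24, (∀ q ∈ o, g q = q) → g • o = o := fun g h => by
    rw [Finset.smul_finset_def]
    conv_rhs => rw [← Finset.image_id (s := o)]
    exact Finset.image_congr fun q hq => h q hq
  have hzfix : ∀ q ∈ o, (z : P24) q = q := fun q hq => (memo q).1 hq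
  let K := octK o
  let ι : ↥K →* ↥M24 := Subgroup.inclusion inf_le_left
  have hι : Function.Injective ι := Subgroup.inclusion_injective _
  let z0 : ↥K := ⟨z, z.2, MulAction.mem_stabilizer_iff.2 (fixo _ hzfix)⟩
  have hz0 : ι z0 = z := rfl
  have hoz : orderOf z0 = 2 := by rw [← orderOf_injective ι hι, hz0, hz]
  have hz1 : z0 ≠ 1 := fun e => by rw [e, orderOf_one] at hoz; omega
  let U : Subgroup ↥K := (octRestrict o).ker
  have memU : ∀ g : ↥K, g ∈ U ↔ ∀ q ∈ o, (g : P24) q = q := fun g => MonoidHom.mem_ker.trans restrictHom_eq_one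
  have hzU : z0 ∈ U := (memU _).2 hzfix
  have hUsq : ∀ g ∈ U, g * g = 1 := fun g hg => Subtype.ext (fix_sq hfix g.2.1 ((memU g).1 hg))
  have hUel : IsElementaryAbelian 2 U := ⟨⟨⟨fun a b => Subtype.ext (by
    have hi : ∀ g : ↥U, (g : ↥K)⁻¹ = g := fun g => inv_eq_of_mul_eq_one_right (hUsq g g.2)
    show (a : ↥K) * b = b * a
    rw [← Subgroup.coe_mul, ← hi (a * b), Subgroup.coe_mul, mul_inv_rev, hi, hi])⟩⟩,
    fun g hg => (pow_two g).trans (hUsq g hg)⟩
  have hUcard : Nat.card ↥U = 2 ^ (3 + 1) := by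
    rw [show 2 ^ (3 + 1) = 16 from rfl, ← card_fix_oct hfix]
    exact Nat.card_congr
      { toFun := fun g => ⟨((g : ↥K) : P24), (g : ↥K).2.1, (memU _).1 g.2⟩
        invFun := fun g => ⟨⟨g.1, g.2.1, MulAction.mem_stabilizer_iff.2 (fixo _ g.2.2)⟩, (memU _).2 g.2.2⟩
        left_inv := fun g => rfl
        right_inv := fun g => rfl }
  obtain ⟨p, hp⟩ : ∃ p, p ∉ o := by
    by_contra h
    push Not at h
    have h8 := hfix.2
    rw [Finset.eq_univ_iff_forall.2 h] at h8
    simp [GolayPt] at h8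
  have hexact : ∀ u ∈ U, u ≠ 1 → ∀ q, ((u : P24) q = q ↔ q ∈ o) := fun u hu hu1 q =>
    ⟨fun e => by
      by_contra hq
      exact hu1 (Subtype.ext (fix_outside_eq_one hfix hq u.2.1 ((memU u).1 hu) e)), (memU u).1 hu q⟩
  have hstab : ∀ u ∈ U, u ≠ 1 → ∀ g : P24, g * u = u * g → g • o = o := by
    intro u hu hu1 g hg
    ext q
    obtain ⟨r, rfl⟩ : ∃ r, g r = q := ⟨g⁻¹ q, by simp⟩
    rw [← Equiv.Perm.smul_def, Finset.smul_mem_smul_finset_iff, Equiv.Perm.smul_def, ← hexact u hu hu1,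
      ← hexact u hu hu1, ← Equiv.Perm.mul_apply, ← hg, Equiv.Perm.mul_apply, g.injective.eq_iff]
  obtain ⟨-, -, ⟨eA⟩⟩ := S1554.result o hfix p hp
  let B := M24 ⊓ MulAction.stabilizer P24 o ⊓ MulAction.stabilizer P24 p
  let M : Subgroup ↥K := B.subgroupOf K
  let eM : ↥M ≃* alternatingGroup (Fin 8) := (Subgroup.subgroupOfEquivOfLe (inf_le_left : B ≤ K)).trans eA
  have hMcard : Nat.card ↥M = 20160 := by
    rw [Nat.card_congr eM.toEquiv, nat_card_alternatingGroup]
    simp [Nat.factorial]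
  have hUM : U ⊓ M = ⊥ := by
    rw [Subgroup.eq_bot_iff_forall]
    rintro g ⟨hgU, hgM⟩
    exact Subtype.ext (fix_outside_eq_one hfix hp g.2.1 ((memU g).1 hgU) hgM.2)
  have hUM' : U ⊔ M = ⊤ := (Subgroup.isComplement'_of_card_mul_and_disjoint
    (by rw [hUcard, hMcard]; exact (card_octK hfix).symm) (disjoint_iff.2 hUM)).sup_eq_top
  have : IsSimpleGroup (alternatingGroup (Fin 8)) := alternatingGroup.isSimpleGroup (by simp)
  have : Nontrivial ↥M := eM.toEquiv.nontrivial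
  have : IsSimpleGroup ↥M := IsSimpleGroup.isSimpleGroup_of_surjective eM.symm.toMonoidHom eM.symm.surjective
  let ψ : ↥M →* MulAut ↥U := MulAut.conjNormal.comp M.subtype
  have hψ : ψ.ker = ⊥ := (IsSimpleGroup.eq_bot_or_eq_top_of_normal _ ψ.normal_ker).resolve_right fun h => by
    have hc : ∀ (u : ↥U) (g : ↥K), g * u * g⁻¹ = u := by
      intro u g
      obtain ⟨a, ha, m, hm, rfl⟩ := Subgroup.mem_sup_of_normal_left.1 (hUM' ▸ Subgroup.mem_top g : g ∈ U ⊔ M)
      have h1 : ψ ⟨m, hm⟩ = 1 := MonoidHom.mem_ker.1 (h ▸ Subgroup.mem_top _)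
      have h2 : m * u * m⁻¹ = u := congrArg (fun f : MulAut ↥U => ((f u : ↥U) : ↥K)) h1
      calc a * m * u * (a * m)⁻¹ = a * (m * u * m⁻¹) * a⁻¹ := by group
        _ = u := by
          rw [h2, show a * (u : ↥K) = u * a from congrArg Subtype.val (hUel.1.is_comm.comm ⟨a, ha⟩ u)]
          group
    have hall : ∀ u ∈ U, u ≠ 1 → u = z0 := by
      intro u hu hu1
      have hu2 : orderOf ((u : ↥K) : P24) = 2 := orderOf_eq_prime
        (by rw [pow_two]; exact congrArg Subtype.val (hUsq u hu)) (fun e => hu1 (Subtype.ext e))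
      have hz2 : orderOf ((z0 : ↥K) : P24) = 2 := orderOf_eq_prime
        (by rw [pow_two]; exact congrArg Subtype.val (hUsq z0 hzU)) (fun e => hz1 (Subtype.ext e))
      obtain ⟨o1, ho1⟩ : ∃ q, q ∈ o := Finset.card_pos.1 (by rw [hfix.2]; norm_num)
      obtain ⟨k, hk, e⟩ := S5394.result.2.2.2 _ z0.2.1 _ u.2.1 hz2 hu2 (iff_of_false
        (fun h => h o1 (hzfix o1 ho1)) (fun h => h o1 ((memU u).1 hu o1 ho1)))
      have hko : k • o = o := by
        ext q
        obtain ⟨r, rfl⟩ : ∃ r, k r = q := ⟨k⁻¹ q, by simp⟩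
        rw [← Equiv.Perm.smul_def, Finset.smul_mem_smul_finset_iff, Equiv.Perm.smul_def, ← hexact z0 hzU hz1 r,
          ← hexact u hu hu1 (k r), ← e]
        simp
      exact (Subtype.ext e.symm : u = ⟨k, hk, MulAction.mem_stabilizer_iff.2 hko⟩ * z0 *
        (⟨k, hk, MulAction.mem_stabilizer_iff.2 hko⟩ : ↥K)⁻¹).trans (hc ⟨z0, hzU⟩ _)
    have : Nat.card ↥U ≤ 2 := by
      rw [← hoz, ← Nat.card_zpowers]
      exact Subgroup.card_le_of_le fun u hu => by
        by_cases hu1 : u = 1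
        · rw [hu1]; exact one_mem _
        · rw [hall u hu hu1]; exact Subgroup.mem_zpowers z0
    rw [hUcard] at this; omega
  have hψi : Function.Injective ψ := (MonoidHom.ker_eq_bot_iff ψ).1 hψ
  have hfaith : ∀ m ∈ M, (∀ u ∈ U, m * u * m⁻¹ = u) → m = 1 := fun m hm h =>
    congrArg Subtype.val (hψi (a₁ := ⟨m, hm⟩) (a₂ := 1) (MulEquiv.ext fun u => Subtype.ext (by
      rw [map_one]; exact h u u.2)))
  have : Finite (MulAut ↥U) := Finite.of_injective (fun f : MulAut ↥U => ⇑f) DFunLike.coe_injective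
  have hψs : Function.Surjective ψ := ((Nat.bijective_iff_injective_and_card _).2 ⟨hψi,
    le_antisymm (Nat.card_le_card_of_injective _ hψi) (by
      rw [hMcard]; exact card_mulAut_le (fun u => Subtype.ext (hUsq u u.2)) hUcard)⟩).2
  have hfull : ∀ φ : ↥U ≃* ↥U, ∃ m ∈ M, ∀ u : ↥U, ((φ u : ↥U) : ↥K) = m * u * m⁻¹ := fun φ => by
    obtain ⟨m, hm⟩ := hψs φ
    exact ⟨m, m.2, fun u => by rw [← hm]; rfl⟩
  let Z := Subgroup.zpowers z0
  have hCZ : Subgroup.centralizer (Z : Set ↥K) = Subgroup.centralizer ({z0} : Set ↥K) := by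
    rw [show Z = Subgroup.closure {z0} from Subgroup.zpowers_eq_closure z0, Subgroup.centralizer_closure]
  obtain ⟨hEx, hcard, ⟨E, hEQ, hEab, hEcard⟩, hlarge, L, hLC, hQL, hQL', ⟨eL⟩⟩ :=
    S5423.result 3 (by norm_num) U M hUel hUcard hUM hUM' hfaith hfull Z (Subgroup.zpowers_le.2 hzU)
      (by rw [Nat.card_zpowers, hoz]) _ rfl
  rw [hCZ] at hEx hcard hEQ hlarge hLC hQL hQL'
  set C0 := Subgroup.centralizer ({z0} : Set ↥K) with hC0
  set C := Subgroup.centralizer ({z} : Set ↥M24) with hC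
  have hrange : ∀ x : ↥M24, (x : P24) • o = o → x ∈ ι.range := fun x hx =>
    ⟨⟨x, x.2, MulAction.mem_stabilizer_iff.2 hx⟩, rfl⟩
  have hmap : C0.map ι = C := by
    ext y
    rw [hC, Subgroup.mem_centralizer_singleton_iff]
    constructor
    · rintro ⟨x, hx, rfl⟩
      rw [← hz0, ← map_mul, ← map_mul, Subgroup.mem_centralizer_singleton_iff.1 hx]
    · intro hy
      obtain ⟨x, rfl⟩ := hrange y (hstab z0 hzU hz1 _ (congrArg Subtype.val hy))
      exact ⟨x, Subgroup.mem_centralizer_singleton_iff.2 (hι (by rw [map_mul, map_mul]; exact hy)), rfl⟩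
  let eC : ↥C0 ≃* ↥C := (C0.equivMapOfInjective ι hι).trans (MulEquiv.subgroupCongr hmap)
  set Q0 := (pCore 2 ↥C0).map C0.subtype with hQ0
  have hQmap : Q0.map ι = (pCore 2 ↥C).map C.subtype := by
    rw [hQ0, ← CfsgLib.Core.map_pCore_of_mulEquiv 2 eC, Subgroup.map_map, Subgroup.map_map]
    rfl
  have hQC : (pCore 2 ↥C).map C.subtype ≤ C := Subgroup.map_subtype_le _
  have hnormC : C ≤ Subgroup.normalizer (((pCore 2 ↥C).map C.subtype : Subgroup ↥M24) : Set ↥M24) := by
    intro x hx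
    refine Subgroup.mem_normalizer_iff.2 fun y => ⟨?_, ?_⟩
    · rintro ⟨w, hw, rfl⟩
      exact ⟨⟨x, hx⟩ * w * ⟨x, hx⟩⁻¹, Subgroup.Normal.conj_mem inferInstance w hw _, rfl⟩
    · rintro ⟨w, hw, e⟩
      refine ⟨⟨x, hx⟩⁻¹ * w * ⟨x, hx⟩, Subgroup.Normal.conj_mem' inferInstance w hw _, ?_⟩
      simp only [map_mul, map_inv]
      rw [e]; simp [mul_assoc]
  have hU0 : U ≤ Q0 := by
    have hUC : U ≤ C0 := fun u hu => Subgroup.mem_centralizer_singleton_iff.2
      (congrArg Subtype.val (hUel.1.is_comm.comm ⟨u, hu⟩ ⟨z0, hzU⟩))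
    intro u hu
    exact ⟨⟨u, hUC hu⟩, CfsgLib.Core.le_pCore (N := U.subgroupOf C0) inferInstance
      (IsPGroup.of_card (n := 4) (by rw [Nat.card_congr (Subgroup.subgroupOfEquivOfLe hUC).toEquiv, hUcard])) hu, rfl⟩
  have hzQ : z ∈ (pCore 2 ↥C).map C.subtype := by rw [← hQmap, ← hz0]; exact ⟨z0, hU0 hzU, rfl⟩
  rw [← hQmap] at hzQ hQC hnormC ⊢
  have hExt : IsExtraspecial 2 ↥(Q0.map ι) :=
    LargeSimple.extraspecial_congr (Q0.equivMapOfInjective ι hι) hEx
  refine ⟨hExt, (Subgroup.card_map_of_injective hι).trans hcard,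
    ⟨E.map ι, Subgroup.map_mono hEQ, ⟨⟨⟨?_⟩⟩, ?_⟩, (Subgroup.card_map_of_injective hι).trans hEcard⟩,
    ⟨hExt, ?_, ?_, ?_⟩, L.map ι, ?_, ?_, ?_, ?_⟩
  · rintro ⟨_, a, ha, rfl⟩ ⟨_, b, hb, rfl⟩
    refine Subtype.ext ?_
    simp only [Subgroup.coe_mul, ← map_mul]
    exact congrArg (fun x : ↥E => ι x) (hEab.1.is_comm.comm ⟨a, ha⟩ ⟨b, hb⟩)
  · rintro _ ⟨a, ha, rfl⟩
    rw [← map_pow, hEab.2 a ha, map_one]
  · refine le_antisymm (fun x hx => ?_) fun x hx => ?_
    · obtain ⟨x0, rfl⟩ : x ∈ ι.range := hrange x (hstab z0 hzU hz1 _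
        (congrArg Subtype.val (Subgroup.mem_centralizer_iff.1 hx z hzQ).symm))
      have h0 : x0 ∈ Subgroup.centralizer (Q0 : Set ↥K) := Subgroup.mem_centralizer_iff.2 fun q hq =>
        hι (by rw [map_mul, map_mul]; exact Subgroup.mem_centralizer_iff.1 hx _ ⟨q, hq, rfl⟩)
      rw [hlarge.2.1, S5423.mem_center_map] at h0
      rw [S5423.mem_center_map]
      refine ⟨⟨x0, h0.1, rfl⟩, ?_⟩
      rintro _ ⟨q, hq, rfl⟩
      rw [← map_mul, h0.2 q hq, map_mul]
    · exact Subgroup.mem_centralizer_iff.2 fun y hy => ((S5423.mem_center_map _ x).1 hx).2 y hy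
  · intro x hx
    refine hnormC (Subgroup.mem_centralizer_singleton_iff.2 ?_)
    exact (Subgroup.mem_centralizer_iff.1 hx z ((S5423.mem_center_map _ z).2 ⟨hzQ, fun y hy =>
      Subgroup.mem_centralizer_singleton_iff.1 (hQC hy)⟩)).symm
  · intro R hR hn
    have hR0 : R.comap ι = ⊥ := hlarge.2.2.2 _ (by
      refine hR.of_dvd_nat ?_
      rw [← Subgroup.card_map_of_injective (K := R.comap ι) hι]
      exact Subgroup.card_dvd_of_le (Subgroup.map_comap_le ι R)) fun q hq => by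
        refine Subgroup.mem_normalizer_iff.2 fun w => ?_
        simp only [Subgroup.mem_comap, map_mul, map_inv]
        exact Subgroup.mem_normalizer_iff.1 (hn ⟨q, hq, rfl⟩) _
    obtain ⟨v, hvU, hv1, hvz⟩ : ∃ v ∈ U, v ≠ 1 ∧ v ≠ z0 := by
      by_contra h
      push Not at h
      have : Nat.card ↥U ≤ 2 := by
        rw [← hoz, ← Nat.card_zpowers]
        exact Subgroup.card_le_of_le fun u hu => by
          by_cases hu1 : u = 1
          · rw [hu1]; exact one_mem _
          · rw [h u hu hu1]; exact Subgroup.mem_zpowers z0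
      rw [hUcard] at this; omega
    have hzv : z0 * v ≠ 1 := fun e => hvz (mul_left_cancel (e.trans (hUsq z0 hzU).symm))
    have hf : ∀ u ∈ U, u ≠ 1 → ∀ k ∈ R, k * ι u = ι u * k → k = 1 := by
      intro u hu hu1 k hk he
      obtain ⟨k0, rfl⟩ := hrange k (hstab u hu hu1 _ (congrArg Subtype.val he))
      rw [show k0 = 1 from Subgroup.mem_bot.1 (hR0 ▸ hk), map_one]
    have hs : ∀ u ∈ U, ι u * ι u = 1 := fun u hu => by rw [← map_mul, hUsq u hu, map_one]
    have hn' : ∀ u ∈ U, ∀ k ∈ R, ι u * k * ι u ∈ R := fun u hu k hk => by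
      have := (Subgroup.mem_normalizer_iff.1 (hn ⟨u, hU0 hu, rfl⟩) k).1 hk
      rwa [inv_eq_of_mul_eq_one_right (hs u hu)] at this
    exact eq_bot_of_fpf R hR (hs z0 hzU) (hs v hvU) (by rw [← map_mul]; exact hs _ (U.mul_mem hzU hvU))
      (hn' z0 hzU) (hn' v hvU) (hf z0 hzU hz1) (hf v hvU hv1)
      (fun k hk he => hf _ (U.mul_mem hzU hvU) hzv k hk (by rw [map_mul]; exact he))
  · rw [← hmap]; exact Subgroup.map_mono hLC
  · rw [← Subgroup.map_inf _ _ _ hι, hQL, Subgroup.map_bot]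
  · rw [← Subgroup.map_sup, hQL', hmap]
  · exact ⟨((L.equivMapOfInjective ι hι).symm.trans eL).trans (MulEquiv.ofBijective Matrix.SpecialLinearGroup.toGL
      ⟨Matrix.SpecialLinearGroup.toGL_injective, fun u => by
        refine ⟨⟨(u : Matrix (Fin 3) (Fin 3) (ZMod 2)), ?_⟩, Units.ext rfl⟩
        exact (CfsgLib.Spor.SLTransv.zmod_two _).resolve_left fun h => (u.isUnit.map Matrix.detMonoidHom).ne_zero h⟩).symm⟩

end Cfsg.Agent.S5425
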