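import Cfsg.Statements.S5427
import Cfsg.Agent.Lib.SporLargeSimple

set_option autoImplicit false
open Cfsg

namespace Cfsg.Agent.S5427
open CfsgLib.Spor

/-- Let z be an involution of the finite group G whose centralizer C has generalized Fitting subgroup Q, an extraspecial 2-group of width at least 2 (order 2^(2w+1), w ≥ 2). Let K be a subgroup of G such that the subgroup U generated by the K-conjugates of z is abelian and C is generated by the C-conjugates of U. Suppose that either some K-conjugate of z other than z lies in Q, or some element u of U ∩ Q outside the subgroup generated by z has z in the largest normal 2-subgroup of its centralizer. Then G is simple and Q is a large extraspecial 2-subgroup of G. -/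
theorem result {G : Type*} [Group G] [Finite G] (z : G) (hz : orderOf z = 2) (Q : Subgroup G) (hQC : Q ≤ Subgroup.centralizer ({z} : Set G)) (hF : (Cfsg.generalizedFittingSubgroup ↥(Subgroup.centralizer ({z} : Set G))).map (Subgroup.centralizer ({z} : Set G)).subtype = Q) (hQ : Cfsg.IsExtraspecial 2 ↥Q) (w : ℕ) (hw : 2 ≤ w) (hcard : Nat.card ↥Q = 2 ^ (2 * w + 1)) (K U : Subgroup G) (hU : U = Subgroup.closure {x : G | ∃ k ∈ K, x = k * z * k⁻¹}) (hUab : IsMulCommutative ↥U) (hgen : Subgroup.closure {x : G | ∃ c ∈ Subgroup.centralizer ({z} : Set G), ∃ u ∈ U, x = c * u * c⁻¹} = Subgroup.centralizer ({z} : Set G)) (h3 : (∃ k ∈ K, k * z * k⁻¹ ∈ Q ∧ k * z * k⁻¹ ≠ z) ∨ ∃ u ∈ U ⊓ Q, u ∉ Subgroup.zpowers z ∧ (∃ hz' : z ∈ Subgroup.centralizer ({u} : Set G), (⟨z, hz'⟩ : ↥(Subgroup.centralizer ({u} : Set G))) ∈ Cfsg.pCore 2 ↥(Subgroup.centralizer ({u} : Set G)))) : IsSimpleGroup G ∧ Cfsg.IsLargeExtraspecial Q := by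
  classical
  have hf : Fact (Nat.Prime 2) := ⟨Nat.prime_two⟩
  have B := LargeSimple.base hz Q hQC hF hQ
  have hzU : ∀ k ∈ K, k * z * k⁻¹ ∈ U := fun k hk => by
    rw [hU]; exact Subgroup.subset_closure ⟨k, hk, rfl⟩
  have hUcomm : ∀ x ∈ U, ∀ y ∈ U, x * y = y * x := fun x hx y hy =>
    congrArg Subtype.val (hUab.is_comm.comm ⟨x, hx⟩ ⟨y, hy⟩)
  have hUsq : ∀ x ∈ U, x * x = 1 := by
    intro x hx
    rw [hU] at hx hUcomm
    induction hx using Subgroup.closure_induction with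
    | mem x hx =>
      obtain ⟨k, -, rfl⟩ := hx
      calc k * z * k⁻¹ * (k * z * k⁻¹) = k * (z * z) * k⁻¹ := by group
        _ = 1 := by rw [B.zz]; group
    | one => simp
    | mul a b ha hb iha ihb =>
      calc a * b * (a * b) = a * (b * a) * b := by group
        _ = a * (a * b) * b := by rw [hUcomm b hb a ha]
        _ = 1 := by rw [← mul_assoc, iha, one_mul, ihb]
    | inv a ha iha => rw [← mul_inv_rev, iha, inv_one]
  obtain ⟨u, huQ, huu, hu1, huz, hu⟩ : ∃ u ∈ Q, u * u = 1 ∧ u ≠ 1 ∧ u ≠ z ∧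
      ∀ K : Subgroup G, Odd (Nat.card ↥K) → (∀ k ∈ K, z * k * z⁻¹ ∈ K) →
        ∀ k ∈ K, k * u = u * k → k * z = z * k := by
    rcases h3 with ⟨k, hk, hkQ, hne⟩ | ⟨u, ⟨huU, huQ⟩, hunz, hzu, hpc⟩
    · have hkZ : k * z * k⁻¹ ∉ (Subgroup.center ↥Q).map Q.subtype := by
        rintro ⟨x, hx, he⟩
        rcases B.centQ _ (fun y hy => (congrArg Subtype.val (Subgroup.mem_center_iff.1 hx ⟨y, hy⟩)).symm) with e | e
        · exact B.z_ne (conj_eq_one_iff.1 (he.symm.trans e))
        · exact hne (he.symm.trans e)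
      obtain ⟨-, q, p, H, -⟩ := LargeSub.setting hz Q hQC hF hQ k hkQ hkZ
      obtain ⟨w', hw', hwe⟩ := H.zP
      have hsym : k⁻¹ * z * k ∈ Q := by
        have he : k * w' * k⁻¹ = z := hwe
        rwa [show k⁻¹ * z * k = w' by rw [← he]; group]
      exact ⟨_, hkQ, H.vv, H.v_ne, hne, fun L hL hLz l hl hlv => LargeSimple.fixed_of_conj B hkQ hsym L hL hLz l hl hlv⟩
    · refine ⟨u, huQ, hUsq u huU, fun e => hunz (e ▸ one_mem _), fun e => hunz (e ▸ Subgroup.mem_zpowers z),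
        fun L hL hLz l hl hlu => ?_⟩
      have hlC : l ∈ Subgroup.centralizer ({u} : Set G) := Subgroup.mem_centralizer_singleton_iff.2 hlu
      have hm : l * z * l⁻¹ * z⁻¹ ∈ L := by
        rw [show l * z * l⁻¹ * z⁻¹ = l * (z * l⁻¹ * z⁻¹) by group]
        exact L.mul_mem hl (hLz _ (L.inv_mem hl))
      have hn := CfsgLib.Core.normal_pCore (G := ↥(Subgroup.centralizer ({u} : Set G))) 2
      have hp := Subgroup.mul_mem _ (hn.conj_mem _ hpc ⟨l, hlC⟩) (Subgroup.inv_mem _ hpc)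
      obtain ⟨j, hj⟩ := CfsgLib.Core.isPGroup_pCore 2 ⟨_, hp⟩
      have hj' : (l * z * l⁻¹ * z⁻¹) ^ 2 ^ j = 1 := by
        have := congrArg (fun x : ↥(Cfsg.pCore 2 ↥(Subgroup.centralizer ({u} : Set G))) => ((x : ↥(Subgroup.centralizer ({u} : Set G))) : G)) hj
        simpa using this
      have h1 : l * z * l⁻¹ * z⁻¹ = 1 := by
        have hc : Nat.gcd (Nat.card ↥L) (2 ^ j) = 1 := Nat.Coprime.pow_right j (Nat.coprime_two_right.2 hL)
        simpa [hc] using (pow_gcd_eq_one (a := l * z * l⁻¹ * z⁻¹) (m := Nat.card ↥L) (n := 2 ^ j)).2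
          ⟨LargeSub.pow_card_mem hm, hj'⟩
      exact mul_inv_eq_iff_eq_mul.1 (mul_inv_eq_one.1 h1)
  refine ⟨LargeSimple.simple B huQ huu hu1 huz hu fun N hN hzN => ?_, ?_⟩
  · have hUN : U ≤ N := by
      rw [hU, Subgroup.closure_le]
      rintro _ ⟨k, -, rfl⟩
      exact hN.conj_mem z hzN k
    rw [← hgen, Subgroup.closure_le]
    rintro _ ⟨c, -, x, hx, rfl⟩
    exact hN.conj_mem x (hUN hx) c
  · obtain ⟨q, hq, hqu⟩ := LargeSimple.exists_move B huQ hu1 huz
    refine LargeSub.isLarge_of Q B.zQ B.zz B.z_ne B.commQ B.sqQ ⟨q, hq, u, huQ, fun e => B.z_ne ?_⟩ B.cenQ B.centQ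
      B.normQ fun L hL hn => LargeSimple.no_odd B huQ huu hu1 huz hu L hL
        fun y hy k hk => (Subgroup.mem_normalizer_iff.1 (hn hy) k).1 hk
    rw [e, mul_inv_cancel_right] at hqu
    exact right_eq_mul.1 hqu

end Cfsg.Agent.S5427
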