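import Cfsg.Statements.S5428
import Cfsg.Agent.Lib.SporLargeSub

set_option autoImplicit false
open Cfsg

namespace Cfsg.Agent.S5428
open CfsgLib.Spor CfsgLib.Spor.LargeSub
open scoped Pointwise

/-- Let z be an involution of the finite group G whose centralizer C has generalized Fitting subgroup Q extraspecial (as a 2-group), let A be a subgroup of C of odd order, and let R be the centralizer of A in Q; suppose R has order at least 32, the largest normal subgroup of odd order of the centralizer of the subgroup generated by A and R lies in A, the order of that centralizer is not divisible by 4, and g is an element of G with g z g⁻¹ in R but outside the centre Z of Q. Let M be the subgroup generated by A and the centralizer of A (A is normal in it). Then: the centralizer in M of the subgroup generated by R and A, joined with A, equals the subgroup generated by A and Z; the image of R in M/A is a large extraspecial 2-subgroup of M/A; and g z g⁻¹ is conjugate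 to z inside the subgroup generated by R and the centralizer of A in g Q g⁻¹. -/
theorem result {G : Type*} [Group G] [Finite G] (z : G) (hz : orderOf z = 2) (Q : Subgroup G) (hQC : Q ≤ Subgroup.centralizer ({z} : Set G)) (hF : (Cfsg.generalizedFittingSubgroup ↥(Subgroup.centralizer ({z} : Set G))).map (Subgroup.centralizer ({z} : Set G)).subtype = Q) (hQ : Cfsg.IsExtraspecial 2 ↥Q) (A : Subgroup G) (hA : A ≤ Subgroup.centralizer ({z} : Set G)) (hAodd : Odd (Nat.card ↥A)) (R : Subgroup G) (hR : R = Q ⊓ Subgroup.centralizer (A : Set G)) (hR32 : 32 ≤ Nat.card ↥R) (hO : (Cfsg.oddCore ↥(Subgroup.centralizer ((A ⊔ R : Subgroup G) : Set G))).map (Subgroup.centralizer ((A ⊔ R : Subgroup G) : Set G)).subtype ≤ A) (h4 : ¬ 4 ∣ Nat.card ↥(Subgroup.centralizer ((A ⊔ R : Subgroup G) : Set G))) (g : G) (hgR : g * z * g⁻¹ ∈ R) (hgZ : g * z * g⁻¹ ∉ ((Subgroup.center ↥Q).map Q.subtype)) (M : Subgroup G) (hM : M = Subgroup.centralizer (A : Set G) ⊔ A) [hn : (A.subgroupOf M).Normal]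 : (M ⊓ Subgroup.centralizer ((R ⊔ A : Subgroup G) : Set G)) ⊔ A = A ⊔ ((Subgroup.center ↥Q).map Q.subtype) ∧ Cfsg.IsLargeExtraspecial ((R.subgroupOf M).map (QuotientGroup.mk' (A.subgroupOf M))) ∧ ∃ x ∈ R ⊔ ((Q).map (MulAut.conj g).toMonoidHom ⊓ Subgroup.centralizer (A : Set G)), x * (g * z * g⁻¹) * x⁻¹ = z := by
  classical
  have hAzz : ∀ a ∈ A, a * z = z * a := fun a ha => Subgroup.mem_centralizer_singleton_iff.1 (hA ha)
  have hgQ : g * z * g⁻¹ ∈ Q := by rw [hR] at hgR; exact hgR.1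
  obtain ⟨hZ, q, p, H, hcentP⟩ := setting hz Q hQC hF hQ g hgQ hgZ
  rw [hZ]
  set v := g * z * g⁻¹ with hv
  set P := Q.map (MulAut.conj g).toMonoidHom with hP
  have hRmem : ∀ x, x ∈ R ↔ x ∈ Q ∧ ∀ a ∈ A, a * x = x * a := fun x => by
    subst hR; exact ⟨fun h => ⟨h.1, h.2⟩, fun h => ⟨h.1, h.2⟩⟩
  have hzR : z ∈ R := (hRmem z).2 ⟨H.zQ, hAzz⟩
  have hAv : ∀ a ∈ A, a * v = v * a := ((hRmem v).1 hgR).2
  have hAQ : ∀ a ∈ A, ∀ y ∈ Q, a * y * a⁻¹ ∈ Q := fun a ha => H.normQ a (hAzz a ha)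
  -- averaging
  obtain ⟨r, hrQ, hrA, hrv⟩ := exists_centralized Q A hAodd H.zz H.z_ne H.cenQ H.commQ hAQ hAzz hAv H.qQ H.qv
  obtain ⟨s, hsP, hsA, hsz⟩ := exists_centralized P A hAodd H.vv H.v_ne H.cenP H.commP
    (fun a ha => H.normP a (hAv a ha)) hAv hAzz H.pP (H.pz.trans H.comm)
  have hrR : r ∈ R := (hRmem r).2 ⟨hrQ, hrA⟩
  have hRcent : ∀ x ∈ R, (∀ y ∈ R, x * y = y * x) → x = 1 ∨ x = z := by
    intro x hx hc
    refine H.centQ x fun y hy => ?_
    rcases H.commQ y hy x ((hRmem x).1 hx).1 with e | e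
    · exact (mul_inv_eq_iff_eq_mul.1 e).symm
    · exfalso
      obtain ⟨t, htQ, htA, htx⟩ := exists_centralized Q A hAodd H.zz H.z_ne H.cenQ H.commQ hAQ hAzz
        ((hRmem x).1 hx).2 hy e
      have h := hc t ((hRmem t).2 ⟨htQ, htA⟩)
      rw [← h, mul_inv_cancel_right] at htx
      exact H.z_ne (right_eq_mul.1 htx)
  have four : ∀ x ∈ Q, x ^ 4 = 1 := fun x hx => by
    rw [show (4 : ℕ) = 2 * 2 by norm_num, pow_mul, pow_two, pow_two]
    rcases H.sqQ x hx with e | e <;> rw [e] <;> simp [H.zz]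
  have fourP : ∀ x ∈ P, x ^ 4 = 1 := fun x hx => by
    rw [show (4 : ℕ) = 2 * 2 by norm_num, pow_mul, pow_two, pow_two]
    rcases H.sqP x hx with e | e <;> rw [e] <;> simp [H.vv]
  -- the group D = C(A R)
  have hDA : ∀ d : G, (∀ a ∈ A, a * d = d * a) → (∀ y ∈ R, y * d = d * y) → d ∈ A ∨ z * d ∈ A := by
    intro d hdA hdR
    set D := Subgroup.centralizer ((A ⊔ R : Subgroup G) : Set G) with hD
    have mk : ∀ x : G, (∀ a ∈ A, a * x = x * a) → (∀ y ∈ R, y * x = x * y) → x ∈ D := by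
      intro x h1 h2
      have hle : A ⊔ R ≤ Subgroup.centralizer ({x} : Set G) := sup_le
        (fun a ha => Subgroup.mem_centralizer_singleton_iff.2 (h1 a ha))
        (fun y hy => Subgroup.mem_centralizer_singleton_iff.2 (h2 y hy))
      exact fun y hy => Subgroup.mem_centralizer_singleton_iff.1 (hle hy)
    have hzD : z ∈ D := mk z hAzz fun y hy => H.cenQ y ((hRmem y).1 hy).1
    have hdD : d ∈ D := mk d hdA hdR
    set Z := Subgroup.zpowers (⟨z, hzD⟩ : ↥D) with hZdef
    haveI : Z.Normal := by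
      refine ⟨fun x hx y => ?_⟩
      obtain ⟨k, rfl⟩ := Subgroup.mem_zpowers_iff.1 hx
      have hy : (y : G) * z = z * y := (y.2 z (Subgroup.mem_sup_right hzR)).symm
      have hc : Commute y (⟨z, hzD⟩ : ↥D) := Subtype.ext hy
      rw [(hc.zpow_right k).eq, mul_inv_cancel_right]
      exact hx
    have hZ2 : Nat.card ↥Z = 2 := by
      rw [hZdef, Nat.card_zpowers, Subgroup.orderOf_mk, hz]
    have hidx : Z.index * 2 = Nat.card ↥D := by rw [← hZ2, mul_comm]; exact Z.card_mul_index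
    have hoddi : Odd Z.index := by
      by_contra hc
      obtain ⟨m, hm⟩ := (Nat.not_odd_iff_even.1 hc).two_dvd
      exact h4 ⟨m, by rw [← hidx, hm]; ring⟩
    obtain ⟨N, hN⟩ := Subgroup.exists_right_complement'_of_coprime (N := Z)
      (by rw [hZ2]; exact Nat.coprime_two_left.2 hoddi)
    have hNcard : Nat.card ↥N = Z.index := hN.symm.index_eq_card.symm
    haveI : N.Normal := Subgroup.normal_of_index_eq_two (hN.index_eq_card.trans hZ2)
    have hNA : ∀ n ∈ N, (n : G) ∈ A := fun n hn => hO ⟨n, CfsgLib.Core.le_pPrimeCore inferInstance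
      (by rw [hNcard]; exact Nat.coprime_two_right.2 hoddi) hn, rfl⟩
    have htop : (⟨d, hdD⟩ : ↥D) ∈ Z ⊔ N := by rw [hN.sup_eq_top]; exact Subgroup.mem_top _
    obtain ⟨w, hw, n, hn, hwn⟩ := Subgroup.mem_sup_of_normal_left.1 htop
    obtain ⟨k, rfl⟩ := Subgroup.mem_zpowers_iff.1 hw
    have he : z ^ k * (n : G) = d := by simpa using congrArg Subtype.val hwn
    rcases Int.even_or_odd' k with ⟨m, rfl | rfl⟩
    · left
      rw [zpow_mul, zpow_two, H.zz, one_zpow, one_mul] at he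
      exact he ▸ hNA n hn
    · right
      rw [zpow_add, zpow_mul, zpow_two, H.zz, one_zpow, one_mul, zpow_one] at he
      rw [← he, ← mul_assoc, H.zz, one_mul]; exact hNA n hn
  have hRA : ∀ y ∈ R, y ∈ A → y = 1 := fun y hy hyA => mem_of_four hAodd hyA (four y ((hRmem y).1 hy).1)
  refine ⟨?_, ?_, ?_⟩
  · rw [show M ⊓ Subgroup.centralizer ((R ⊔ A : Subgroup G) : Set G) =
      Subgroup.centralizer ((R ⊔ A : Subgroup G) : Set G) from inf_eq_right.2 (by
        rw [hM]
        exact (Subgroup.centralizer_le (show (A : Set G) ⊆ ↑(R ⊔ A) from fun x hx => Subgroup.mem_sup_right hx)).trans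
          le_sup_left)]
    refine le_antisymm (sup_le (fun d hd => ?_) le_sup_left) (sup_le le_sup_right ?_)
    · rcases hDA d (fun a ha => hd a (Subgroup.mem_sup_right ha)) (fun y hy => hd y (Subgroup.mem_sup_left hy)) with h | h
      · exact Subgroup.mem_sup_left h
      · rw [show d = z * (z * d) by rw [← mul_assoc, H.zz, one_mul]]
        exact mul_mem (Subgroup.mem_sup_right (Subgroup.mem_zpowers z)) (Subgroup.mem_sup_left h)
    · refine Subgroup.zpowers_le.2 (Subgroup.mem_sup_left ?_)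
      have hle : R ⊔ A ≤ Subgroup.centralizer ({z} : Set G) :=
        sup_le (fun y hy => hQC ((hRmem y).1 hy).1) hA
      exact fun y hy => Subgroup.mem_centralizer_singleton_iff.1 (hle hy)
  · -- the image of R is large
    set π := QuotientGroup.mk' (A.subgroupOf M) with hπ
    have hAM : A ≤ M := hM ▸ le_sup_right
    have hRM : R ≤ M := fun y hy => hM ▸ Subgroup.mem_sup_left (show y ∈ Subgroup.centralizer (A : Set G) from
      ((hRmem y).1 hy).2)
    have hdec : ∀ x : ↥M, ∃ c : G, ∃ hc : c ∈ M, (∀ a ∈ A, a * c = c * a) ∧ π x = π ⟨c, hc⟩ := by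
      intro x
      have hle : Subgroup.centralizer (A : Set G) ≤ Subgroup.normalizer (A : Set G) := fun c hc =>
        Subgroup.mem_normalizer_iff.2 fun y => ⟨fun hy => by rwa [← hc y hy, mul_inv_cancel_right],
          fun hy => by
            have h := hc _ hy
            have he : y = c * y * c⁻¹ := by
              calc y = c⁻¹ * ((c * y * c⁻¹) * c) := by group
                _ = c⁻¹ * (c * (c * y * c⁻¹)) := by rw [h]
                _ = c * y * c⁻¹ := by group
            exact he ▸ hy⟩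
      have hx : (x : G) ∈ ((Subgroup.centralizer (A : Set G) : Subgroup G) : Set G) * (A : Set G) := by
        rw [← Subgroup.coe_mul_of_left_le_normalizer_right _ _ hle, ← hM]; exact x.2
      obtain ⟨c, hc, a, ha, he⟩ := hx
      have hcM : c ∈ M := hM ▸ Subgroup.mem_sup_left hc
      refine ⟨c, hcM, hc, (QuotientGroup.eq.2 ?_).symm⟩
      rw [Subgroup.mem_subgroupOf]
      simpa [← he] using ha
    have hsame : ∀ (x y : G) (hx : x ∈ M) (hy : y ∈ M), (∀ a ∈ A, a * y = y * a) → x ^ 4 = 1 → y ^ 4 = 1 →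
        π ⟨x, hx⟩ = π ⟨y, hy⟩ → x = y := by
      intro x y hx hy hyA hx4 hy4 he
      have ha : y⁻¹ * x ∈ A := by simpa [Subgroup.mem_subgroupOf] using QuotientGroup.eq.1 he.symm
      refine (inv_mul_eq_one.1 (mem_of_four hAodd ha ?_)).symm
      calc (y⁻¹ * x) ^ 4 = y ^ 4 * (y⁻¹ * x) ^ 4 := by rw [hy4, one_mul]
        _ = (y * (y⁻¹ * x)) ^ 4 := ((show Commute (y⁻¹ * x) y from hyA _ ha).symm.mul_pow 4).symm
        _ = 1 := by rw [mul_inv_cancel_left, hx4]
    have hconjR : ∀ c : G, (∀ a ∈ A, a * c = c * a) → c * z = z * c → ∀ y ∈ R, c * y * c⁻¹ ∈ R := by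
      intro c hcA hcz y hy
      refine (hRmem _).2 ⟨H.normQ c hcz y ((hRmem y).1 hy).1, fun a ha => ?_⟩
      exact ((show Commute a c from hcA a ha).mul_right (show Commute a y from ((hRmem y).1 hy).2 a ha) |>.mul_right
        (show Commute a c from hcA a ha).inv_right).eq
    have c4 : ∀ c y : G, y ∈ R → (c * y * c⁻¹) ^ 4 = 1 := fun c y hy => by
      rw [conj_pow, four y ((hRmem y).1 hy).1, mul_one, mul_inv_cancel]
    have hRmap : ∀ x, x ∈ (R.subgroupOf M).map π ↔ ∃ y, ∃ hy : y ∈ R, π ⟨y, hRM hy⟩ = x := fun x =>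
      ⟨fun ⟨y, hy, he⟩ => ⟨y, hy, he⟩, fun ⟨y, hy, he⟩ => ⟨_, hy, he⟩⟩
    set zb := π ⟨z, hRM hzR⟩ with hzb
    have hmul : ∀ (x y : G) (hx : x ∈ M) (hy : y ∈ M), π ⟨x * y, M.mul_mem hx hy⟩ = π ⟨x, hx⟩ * π ⟨y, hy⟩ :=
      fun x y hx hy => map_mul π ⟨x, hx⟩ ⟨y, hy⟩
    refine isLarge_of (z := zb) _ ((hRmap _).2 ⟨z, hzR, rfl⟩) ?_ ?_ ?_ ?_ ?_ ?_ ?_ ?_ ?_
    · rw [hzb, ← hmul]; exact (congrArg π (Subtype.ext H.zz)).trans (map_one π)
    · intro e
      exact H.z_ne (hRA z hzR (by simpa [Subgroup.mem_subgroupOf] using (QuotientGroup.eq_one_iff _).1 e))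
    · intro x hx y hy
      obtain ⟨a, ha, rfl⟩ := (hRmap _).1 hx
      obtain ⟨b, hb, rfl⟩ := (hRmap _).1 hy
      rw [hzb, ← map_inv, ← map_mul, ← map_mul, ← map_mul]
      rcases H.commQ a ((hRmem a).1 ha).1 b ((hRmem b).1 hb).1 with e | e
      · exact Or.inl (congrArg π (Subtype.ext e))
      · exact Or.inr (congrArg π (Subtype.ext e))
    · intro x hx
      obtain ⟨a, ha, rfl⟩ := (hRmap _).1 hx
      rw [← map_mul, hzb]
      rcases H.sqQ a ((hRmem a).1 ha).1 with e | e
      · exact Or.inl ((congrArg π (Subtype.ext e)).trans (map_one π))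
      · exact Or.inr (congrArg π (Subtype.ext e))
    · refine ⟨_, (hRmap _).2 ⟨r, hrR, rfl⟩, _, (hRmap _).2 ⟨v, hgR, rfl⟩, fun e => ?_⟩
      rw [← hmul, ← hmul] at e
      have hne : r * v ≠ v * r := fun e' => H.z_ne (right_eq_mul.1 ((mul_inv_eq_iff_eq_mul.2 e').symm.trans hrv))
      refine hne (hsame _ _ _ _ (fun a ha => ?_) (four _ (Q.mul_mem hrQ hgQ)) (four _ (Q.mul_mem hgQ hrQ)) e)
      exact ((show Commute a v from hAv a ha).mul_right (hrA a ha)).eq
    · intro x hx
      obtain ⟨a, ha, rfl⟩ := (hRmap _).1 hx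
      rw [hzb, ← map_mul, ← map_mul]
      exact congrArg π (Subtype.ext (H.cenQ a ((hRmem a).1 ha).1))
    · intro x hx
      obtain ⟨x, rfl⟩ := QuotientGroup.mk'_surjective _ x
      obtain ⟨c, hc, hcA, he⟩ := hdec x
      rw [he]
      have hcR : ∀ y ∈ R, y * c = c * y := by
        intro y hy
        have h : π ⟨c * y * c⁻¹, M.mul_mem (M.mul_mem hc (hRM hy)) (M.inv_mem hc)⟩ = π ⟨y, hRM hy⟩ := by
          have := hx _ ((hRmap _).2 ⟨y, hy, rfl⟩)
          rw [he] at this
          calc _ = π ⟨c, hc⟩ * π ⟨y, hRM hy⟩ * (π ⟨c, hc⟩)⁻¹ := by rw [← map_inv, ← map_mul, ← map_mul]; rfl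
            _ = π ⟨y, hRM hy⟩ := by rw [this, mul_inv_cancel_right]
        exact (mul_inv_eq_iff_eq_mul.1 (hsame _ _ _ _ ((hRmem y).1 hy).2 (c4 c y hy) (four y ((hRmem y).1 hy).1) h)).symm
      rcases hDA c hcA hcR with h | h
      · exact Or.inl ((QuotientGroup.eq_one_iff _).2 (Subgroup.mem_subgroupOf.2 h))
      · refine Or.inr ?_
        rw [hzb, hπ]
        refine QuotientGroup.eq.2 (Subgroup.mem_subgroupOf.2 ?_)
        have hcz : c * z = z * c := (hcR z hzR).symm
        show c⁻¹ * z ∈ A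
        rw [show c⁻¹ * z = (z * c)⁻¹ by rw [mul_inv_rev, inv_eq_of_mul_eq_one_right H.zz]]
        exact A.inv_mem h
    · intro x hxz y hy
      obtain ⟨x, rfl⟩ := QuotientGroup.mk'_surjective _ x
      obtain ⟨c, hc, hcA, he⟩ := hdec x
      obtain ⟨b, hb, rfl⟩ := (hRmap _).1 hy
      rw [he] at hxz ⊢
      have hcz : c * z = z * c := by
        have h : π ⟨c * z * c⁻¹, M.mul_mem (M.mul_mem hc (hRM hzR)) (M.inv_mem hc)⟩ = π ⟨z, hRM hzR⟩ := by
          calc _ = π ⟨c, hc⟩ * zb * (π ⟨c, hc⟩)⁻¹ := by rw [hzb, ← map_inv, ← map_mul, ← map_mul]; rfl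
            _ = zb := by rw [hxz, mul_inv_cancel_right]
        exact mul_inv_eq_iff_eq_mul.1 (hsame _ _ _ _ hAzz (c4 c z hzR) (four z H.zQ) h)
      refine (hRmap _).2 ⟨_, hconjR c hcA hcz b hb, ?_⟩
      rw [← map_inv, ← map_mul, ← map_mul]; rfl
    · -- odd subgroups normalised by R
      intro K hK hKn
      set K' := (K.comap π).map M.subtype ⊓ Subgroup.centralizer (A : Set G) with hK'
      have hpow : ∀ k ∈ K', k ^ (Nat.card ↥K * Nat.card ↥A) = 1 := by
        rintro k ⟨⟨k, hk, rfl⟩, -⟩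
        have h1 : π (k ^ Nat.card ↥K) = 1 := by rw [map_pow]; exact pow_card_mem hk
        have h2 : ((k : G) ^ Nat.card ↥K) ∈ A := by
          simpa [Subgroup.mem_subgroupOf] using (QuotientGroup.eq_one_iff _).1 h1
        rw [M.coe_subtype, pow_mul]
        exact pow_card_mem h2
      have hodd : Odd (Nat.card ↥K') := odd_card_of_pow K' (hK.mul hAodd) hpow
      have hKR : ∀ y ∈ R, ∀ k ∈ K', y * k * y⁻¹ ∈ K' := by
        rintro y hy k ⟨⟨k, hk, rfl⟩, hkA⟩
        refine ⟨⟨⟨y, hRM hy⟩ * k * ⟨y, hRM hy⟩⁻¹, ?_, rfl⟩, fun a ha => ?_⟩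
        · show π (_ * _ * _) ∈ K
          rw [map_mul, map_mul, map_inv]
          exact (Subgroup.mem_normalizer_iff.1 (hKn ((hRmap _).2 ⟨y, hy, rfl⟩)) _).1 hk
        · have hc : Commute a y := ((hRmem y).1 hy).2 a ha
          exact ((hc.mul_right (hkA a ha)).mul_right hc.inv_right).eq
      have zi : z⁻¹ = z := inv_eq_of_mul_eq_one_right H.zz
      have vi : v⁻¹ = v := inv_eq_of_mul_eq_one_right H.vv
      have swap : ∀ {t k : G}, t * t = 1 → t * k * t = k → k * t = t * k := fun {t k} ht h => by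
        conv_lhs => rw [← h]
        rw [mul_assoc, ht, mul_one]
      have fz : ∀ k ∈ K', k * z = z * k → k ∈ A := by
        intro k hk hkz
        have hkA : ∀ a ∈ A, a * k = k * a := hk.2
        have hkR : ∀ y ∈ R, y * k = k * y := by
          intro y hy
          have hm : k * y * k⁻¹ * y⁻¹ ∈ R := R.mul_mem (hconjR k hkA hkz y hy) (R.inv_mem hy)
          have hm' : k * y * k⁻¹ * y⁻¹ ∈ K' := by
            rw [show k * y * k⁻¹ * y⁻¹ = k * (y * k⁻¹ * y⁻¹) by group]
            exact K'.mul_mem hk (hKR y hy _ (K'.inv_mem hk))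
          have := mem_of_four hodd hm' (four _ ((hRmem _).1 hm).1)
          exact (mul_inv_eq_iff_eq_mul.1 (mul_inv_eq_one.1 this)).symm
        refine (hDA k hkA hkR).resolve_right fun h => H.z_ne ?_
        have hp' := pow_card_mem h
        rw [(show Commute z k from hkz.symm).mul_pow] at hp'
        have hn : z ^ (Nat.card ↥A) = z := by
          obtain ⟨m, hm⟩ := hAodd
          rw [hm, pow_succ, pow_mul, pow_two, H.zz, one_pow, one_mul]
        rw [hn] at hp'
        have hzk : z = (k ^ Nat.card ↥A)⁻¹ := eq_inv_of_mul_eq_one_left hp'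
        have hzK : z ∈ K' := hzk ▸ K'.inv_mem (K'.pow_mem hk _)
        exact mem_of_four hodd hzK (four z H.zQ)
      have fv : ∀ k ∈ K', k * v = v * k → k ∈ A := by
        intro k hk hkv
        refine fz k hk (mul_inv_eq_iff_eq_mul.1 (mul_inv_eq_one.1 (mem_of_four hodd ?_ (fourP _ ?_))))
        · rw [show k * z * k⁻¹ * z⁻¹ = k * (z * k⁻¹ * z⁻¹) by group]
          exact K'.mul_mem hk (hKR z hzR _ (K'.inv_mem hk))
        · exact P.mul_mem (H.normP k hkv z H.zP) (P.inv_mem H.zP)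
      have hle : K' ≤ A := by
        refine le_of_fixed K' A hodd H.zz H.vv H.comm (fun k hk => ?_) (fun k hk => ?_)
          (fun k hk h => fz k hk (swap H.zz h)) (fun k hk h => fv k hk (swap H.vv h)) (fun k hk h => ?_)
          (fun b hb hbK => ⟨?_, ?_, fun k hk => hk.2 b hb⟩)
        · have := hKR z hzR k hk; rwa [zi] at this
        · have := hKR v hgR k hk; rwa [vi] at this
        · have hww : (z * v) * (z * v) = 1 := by
            rw [mul_assoc, ← mul_assoc v, ← H.comm, mul_assoc z v, H.vv, mul_one, H.zz]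
          have hc := swap hww h
          have hr2 : r⁻¹ * (z * v) * r = v := by rw [← hrv]; group
          have hk' : r⁻¹ * k * r ∈ K' := by simpa using hKR r⁻¹ (R.inv_mem hrR) k hk
          have hA' := fv _ hk' (by
            calc r⁻¹ * k * r * v = r⁻¹ * (k * (z * v)) * r := by
                  rw [show r⁻¹ * (k * (z * v)) * r = r⁻¹ * k * r * (r⁻¹ * (z * v) * r) by group, hr2]
              _ = r⁻¹ * ((z * v) * k) * r := by rw [hc]
              _ = v * (r⁻¹ * k * r) := by
                  rw [show r⁻¹ * ((z * v) * k) * r = (r⁻¹ * (z * v) * r) * (r⁻¹ * k * r) by group, hr2])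
          have hrk := hrA _ hA'
          have hkr : k = r⁻¹ * k * r := by
            calc k = r * (r⁻¹ * k * r) * r⁻¹ := by group
              _ = r⁻¹ * k * r := by rw [← hrk, mul_inv_cancel_right]
          rw [hkr]; exact hA'
        · rw [← hAzz b hb, mul_assoc, H.zz, mul_one]
        · rw [← hAv b hb, mul_assoc, H.vv, mul_one]
      rw [Subgroup.eq_bot_iff_forall]
      intro x hx
      obtain ⟨x, rfl⟩ := QuotientGroup.mk'_surjective _ x
      obtain ⟨c, hc, hcA, he⟩ := hdec x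
      rw [he] at hx ⊢
      exact (QuotientGroup.eq_one_iff _).2 (Subgroup.mem_subgroupOf.2
        (hle ⟨⟨⟨c, hc⟩, hx, rfl⟩, hcA⟩))
  · refine ⟨s⁻¹ * r, mul_mem (Subgroup.mem_sup_right ?_) (Subgroup.mem_sup_left hrR), ?_⟩
    · exact inv_mem (show s ∈ P ⊓ Subgroup.centralizer (A : Set G) from ⟨hsP, hsA⟩)
    · calc s⁻¹ * r * v * (s⁻¹ * r)⁻¹ = s⁻¹ * (r * v * r⁻¹) * s := by group
        _ = s⁻¹ * (s * z * s⁻¹) * s := by rw [hrv, hsz, H.comm]
        _ = z := by group

end Cfsg.Agent.S5428
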