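import Cfsg.Statements.S5429
import Cfsg.Agent.Lib.SporLargeSub

set_option autoImplicit false
open Cfsg

namespace Cfsg.Agent.S5429
open CfsgLib.Spor CfsgLib.Spor.LargeSub

theorem centre_of_cent {X : Type*} [Group X] (Q : Subgroup X) {c t u : X} (hcc : c * c = 1) (htt : t * t = 1)
    (cen : ∀ x ∈ Q, x * c = c * x) (comm : ∀ x ∈ Q, ∀ y ∈ Q, x * y * x⁻¹ = y ∨ x * y * x⁻¹ = c * y)
    (hcent : ∀ x : X, (∀ y ∈ Q, x * y = y * x) → x = 1 ∨ x = c) (htQ : t ∈ Q) (huQ : u ∈ Q)
    (hu : ∀ y ∈ Q, y * t = t * y → y * u = u * y) : u = 1 ∨ u = c ∨ u = t ∨ u = c * t := by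
  by_cases hall : ∀ y ∈ Q, u * y = y * u
  · exact (hcent u hall).elim Or.inl fun e => Or.inr (Or.inl e)
  push Not at hall
  obtain ⟨y, hy, hyu⟩ := hall
  have hyu' : y * u * y⁻¹ = c * u :=
    (comm y hy u huQ).resolve_left fun e => hyu (mul_inv_eq_iff_eq_mul.1 e).symm
  have hyt : y * t * y⁻¹ = c * t :=
    (comm y hy t htQ).resolve_left fun e => hyu (hu y hy (mul_inv_eq_iff_eq_mul.1 e)).symm
  have key : ∀ x ∈ Q, u * t * x = x * (u * t) := by
    intro x hx
    rcases comm x hx t htQ with e | e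
    · have h1 := hu x hx (mul_inv_eq_iff_eq_mul.1 e)
      rw [mul_assoc, ← mul_inv_eq_iff_eq_mul.1 e, ← mul_assoc, ← h1, mul_assoc]
    · have h3 : y⁻¹ * x * t = t * (y⁻¹ * x) := by
        calc y⁻¹ * x * t = y⁻¹ * (x * t * x⁻¹) * x := by group
          _ = y⁻¹ * (y * t * y⁻¹) * x := by rw [e, hyt]
          _ = t * (y⁻¹ * x) := by group
      have h2 := hu (y⁻¹ * x) (Q.mul_mem (Q.inv_mem hy) hx) h3
      have hxu : x * u * x⁻¹ = c * u := by
        calc x * u * x⁻¹ = y * (y⁻¹ * x * u) * x⁻¹ := by group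
          _ = y * (u * (y⁻¹ * x)) * x⁻¹ := by rw [h2]
          _ = y * u * y⁻¹ := by group
          _ = c * u := hyu'
      have h4 : x * (u * t) * x⁻¹ = u * t := by
        calc x * (u * t) * x⁻¹ = (x * u * x⁻¹) * (x * t * x⁻¹) := by group
          _ = c * (u * c) * t := by rw [hxu, e]; simp [mul_assoc]
          _ = u * t := by rw [cen u huQ, ← mul_assoc c c u, hcc, one_mul]
      exact (mul_inv_eq_iff_eq_mul.1 h4).symm
  rcases hcent _ key with e | e
  · refine Or.inr (Or.inr (Or.inl ?_))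
    rw [eq_inv_of_mul_eq_one_left e, inv_eq_of_mul_eq_one_right htt]
  · refine Or.inr (Or.inr (Or.inr ?_))
    calc u = u * t * t := by rw [mul_assoc, htt, mul_one]
      _ = c * t := by rw [e]

theorem exists_odd_part {X : Type*} [Group X] [Finite X] (H : Subgroup X) {t : X} (htH : t ∈ H)
    (htt : t * t = 1) (ht1 : t ≠ 1) (hcen : ∀ h ∈ H, h * t = t * h) {m : ℕ} (hm : Odd m)
    (hpow : ∀ h ∈ H, h ^ m = 1 ∨ h ^ m = t) : ∃ K : Subgroup X, ∀ h, h ∈ K ↔ h ∈ H ∧ h ^ m = 1 := by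
  set t' : ↥H := ⟨t, htH⟩ with ht'
  have ht2 : orderOf t' = 2 := orderOf_eq_prime (hp := ⟨Nat.prime_two⟩) (Subtype.ext (by simp [ht', pow_two, htt]))
    (fun e => ht1 (congrArg Subtype.val e))
  set Z := Subgroup.zpowers t' with hZ
  haveI : Z.Normal := by
    refine ⟨fun x hx y => ?_⟩
    obtain ⟨k, rfl⟩ := Subgroup.mem_zpowers_iff.1 hx
    have hc : Commute y t' := Subtype.ext (hcen y y.2)
    rw [(hc.zpow_right k).eq, mul_inv_cancel_right]
    exact hx
  have hZ2 : Nat.card ↥Z = 2 := by rw [hZ, Nat.card_zpowers, ht2]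
  have hq : Odd (Nat.card (↥H ⧸ Z)) := by
    have h := odd_card_of_pow (⊤ : Subgroup (↥H ⧸ Z)) hm fun x _ => by
      obtain ⟨y, rfl⟩ := QuotientGroup.mk'_surjective Z x
      rw [← map_pow]
      refine (QuotientGroup.eq_one_iff _).2 ?_
      rcases hpow y y.2 with e | e
      · rw [show y ^ m = 1 from Subtype.ext (by simpa using e)]; exact one_mem _
      · rw [show y ^ m = t' from Subtype.ext (by simpa using e)]; exact Subgroup.mem_zpowers _
    rwa [Subgroup.card_top] at h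
  obtain ⟨N, hN⟩ := Subgroup.exists_right_complement'_of_coprime (N := Z)
    (by rw [hZ2, Subgroup.index_eq_card]; exact Nat.coprime_two_left.2 hq)
  have hNcard : Nat.card ↥N = Nat.card (↥H ⧸ Z) := by rw [← Subgroup.index_eq_card]; exact hN.symm.index_eq_card.symm
  haveI : N.Normal := Subgroup.normal_of_index_eq_two (hN.index_eq_card.trans hZ2)
  refine ⟨N.map H.subtype, fun h => ⟨?_, fun ⟨hh, hp⟩ => ?_⟩⟩
  · rintro ⟨n, hn, rfl⟩
    refine ⟨n.2, (hpow n n.2).resolve_right fun e => ht1 ?_⟩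
    have h1 : (n : X) ^ Nat.card ↥N = 1 := by simpa using congrArg Subtype.val (pow_card_mem hn)
    have h2 : t ^ Nat.card ↥N = 1 := by rw [← e, ← pow_mul, mul_comm, pow_mul, h1, one_pow]
    obtain ⟨k, hk⟩ := hNcard.symm ▸ hq
    rwa [hk, pow_succ, pow_mul, pow_two, htt, one_pow, one_mul] at h2
  · have htop : (⟨h, hh⟩ : ↥H) ∈ Z ⊔ N := by rw [hN.sup_eq_top]; exact Subgroup.mem_top _
    obtain ⟨w, hw, n, hn, hwn⟩ := Subgroup.mem_sup_of_normal_left.1 htop
    obtain ⟨k, rfl⟩ := Subgroup.mem_zpowers_iff.1 hw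
    have he : t ^ k * (n : X) = h := by simpa [ht'] using congrArg Subtype.val hwn
    rcases Int.even_or_odd' k with ⟨j, rfl | rfl⟩
    · rw [zpow_mul, zpow_two, htt, one_zpow, one_mul] at he
      exact ⟨n, hn, he⟩
    · exfalso
      rw [zpow_add, zpow_mul, zpow_two, htt, one_zpow, one_mul, zpow_one] at he
      have h1 : (n : X) ^ Nat.card ↥N = 1 := by simpa using congrArg Subtype.val (pow_card_mem hn)
      have h2 : (t * (n : X)) ^ (m * Nat.card ↥N) = 1 := by rw [he, pow_mul, hp, one_pow]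
      rw [(show Commute t (n : X) from (hcen n n.2).symm).mul_pow, mul_comm m, pow_mul (n : X), h1, one_pow,
        mul_one] at h2
      obtain ⟨i, hi⟩ := (hNcard.symm ▸ hq).mul hm
      rw [hi, pow_succ, pow_mul, pow_two, htt, one_pow, one_mul] at h2
      exact ht1 h2


/-- Let z be an involution of the finite group G with centralizer C whose generalized Fitting subgroup Q is extraspecial of width at least 3 (order 2^(2w+1), w ≥ 3); let g be an element of G with g z g⁻¹ in Q but outside the centre Z of Q, and t an involution lying in both Q and g Q g⁻¹ that is not conjugate to z; write P for the centralizer of t in Q and suppose that the elements of C acting trivially by conjugation on P modulo the subgroup generated by t and z are exactly the elements of Q. Then the image of P in the centralizer of t modulo the subgroup generated by t is a large extraspecial 2-subgroup there, and g z g⁻¹ is conjugate to z inside the subgroup generated by P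 and the centralizer of t in g Q g⁻¹. -/
theorem result {G : Type*} [Group G] [Finite G] (z : G) (hz : orderOf z = 2) (Q : Subgroup G) (hQC : Q ≤ Subgroup.centralizer ({z} : Set G)) (hF : (Cfsg.generalizedFittingSubgroup ↥(Subgroup.centralizer ({z} : Set G))).map (Subgroup.centralizer ({z} : Set G)).subtype = Q) (hQ : Cfsg.IsExtraspecial 2 ↥Q) (w : ℕ) (hw : 3 ≤ w) (hcard : Nat.card ↥Q = 2 ^ (2 * w + 1)) (g : G) (hgQ : g * z * g⁻¹ ∈ Q) (hgZ : g * z * g⁻¹ ∉ ((Subgroup.center ↥Q).map Q.subtype)) (t : G) (ht : orderOf t = 2) (htQ : t ∈ Q ⊓ (Q).map (MulAut.conj g).toMonoidHom) (htz : ¬ IsConj z t) (P : Subgroup G) (hP : P = Q ⊓ Subgroup.centralizer ({t} : Set G)) (hCP : ∀ c ∈ Subgroup.centralizer ({z} : Set G), (∀ x ∈ P, ∃ y ∈ Subgroup.closure ({t, z} : Set G), c * x * c⁻¹ = x * y) ↔ c ∈ Q) [hn : ((Subgroup.zpowers t).subgroupOf (Subgroup.centralizer ({t} : Set G))).Normal] : Cfsg.IsLargeExtraspecial ((P.subgroupOf (Subgroup.centralizer ({t} : Set G))).map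 (QuotientGroup.mk' ((Subgroup.zpowers t).subgroupOf (Subgroup.centralizer ({t} : Set G))))) ∧ ∃ x ∈ P ⊔ ((Q).map (MulAut.conj g).toMonoidHom ⊓ Subgroup.centralizer ({t} : Set G)), x * (g * z * g⁻¹) * x⁻¹ = z := by
  classical
  obtain ⟨hZ, q, p, H, hcentP⟩ := setting hz Q hQC hF hQ g hgQ hgZ
  set v := g * z * g⁻¹ with hv
  set Pg := Q.map (MulAut.conj g).toMonoidHom with hPg
  set T := Subgroup.centralizer ({t} : Set G) with hT
  obtain ⟨htQ', htPg⟩ := htQ
  have htt : t * t = 1 := by rw [← pow_two, ← ht]; exact pow_orderOf_eq_one t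
  have ht1 : t ≠ 1 := fun e => by rw [e, orderOf_one] at ht; norm_num at ht
  have htzne : t ≠ z := fun e => htz (e ▸ IsConj.refl z)
  have htv : t ≠ v := fun e => htz (isConj_iff.2 ⟨g, e.symm⟩)
  obtain ⟨qt, hqtQ, hqt⟩ : ∃ x ∈ Q, x * t * x⁻¹ = z * t := by
    by_contra h
    push Not at h
    rcases H.centQ t (fun y hy => (mul_inv_eq_iff_eq_mul.1
      ((H.commQ y hy t htQ').resolve_right (h y hy))).symm) with e | e
    exacts [ht1 e, htzne e]
  obtain ⟨pt, hptP, hpt⟩ : ∃ x ∈ Pg, x * t * x⁻¹ = v * t := by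
    by_contra h
    push Not at h
    rcases hcentP t (fun y hy => (mul_inv_eq_iff_eq_mul.1
      ((H.commP y hy t htPg).resolve_right (h y hy))).symm) with e | e
    exacts [ht1 e, htv e]
  have hztc : ¬ IsConj z (z * t) := fun e => htz (e.trans (isConj_iff.2 ⟨qt, hqt⟩).symm)
  have hvtc : ¬ IsConj z (v * t) := fun e => htz (e.trans (isConj_iff.2 ⟨pt, hpt⟩).symm)
  have hPmem : ∀ x, x ∈ P ↔ x ∈ Q ∧ x * t = t * x := fun x => by
    subst hP
    exact ⟨fun h => ⟨h.1, Subgroup.mem_centralizer_singleton_iff.1 h.2⟩,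
      fun h => ⟨h.1, Subgroup.mem_centralizer_singleton_iff.2 h.2⟩⟩
  have hzP : z ∈ P := (hPmem z).2 ⟨H.zQ, (H.cenQ t htQ').symm⟩
  have hvP : v ∈ P := (hPmem v).2 ⟨H.vQ, (H.cenP t htPg).symm⟩
  obtain ⟨r, hrP, hrv⟩ : ∃ r ∈ P, r * v * r⁻¹ = z * v := by
    by_contra h
    push Not at h
    rcases centre_of_cent Q H.zz htt H.cenQ H.commQ H.centQ htQ' H.vQ (fun y hy hyt => mul_inv_eq_iff_eq_mul.1
      ((H.commQ y hy v H.vQ).resolve_right (h y ((hPmem y).2 ⟨hy, hyt⟩)))) with e | e | e | e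
    exacts [H.v_ne e, H.ne e, htv e.symm, hztc (isConj_iff.2 ⟨g, e⟩)]
  obtain ⟨s, hsP, hst, hsz⟩ : ∃ s ∈ Pg, s * t = t * s ∧ s * z * s⁻¹ = v * z := by
    by_contra h
    push Not at h
    rcases centre_of_cent Pg H.vv htt H.cenP H.commP hcentP htPg H.zP (fun y hy hyt => mul_inv_eq_iff_eq_mul.1
      ((H.commP y hy z H.zP).resolve_right (h y hy hyt))) with e | e | e | e
    exacts [H.z_ne e, H.ne e.symm, htzne e.symm, hvtc (e ▸ IsConj.refl z)]
  have hPT : P ≤ T := fun x hx => Subgroup.mem_centralizer_singleton_iff.2 ((hPmem x).1 hx).2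
  have four : ∀ x ∈ Q, x ^ 4 = 1 := fun x hx => by
    rw [show (4 : ℕ) = 2 * 2 by norm_num, pow_mul, pow_two, pow_two]
    rcases H.sqQ x hx with e | e <;> rw [e] <;> simp [H.zz]
  have fourP : ∀ x ∈ Pg, x ^ 4 = 1 := fun x hx => by
    rw [show (4 : ℕ) = 2 * 2 by norm_num, pow_mul, pow_two, pow_two]
    rcases H.sqP x hx with e | e <;> rw [e] <;> simp [H.vv]
  refine ⟨?_, ?_⟩
  · set π := QuotientGroup.mk' ((Subgroup.zpowers t).subgroupOf T) with hπ
    have hker : ∀ (a b : G) (ha : a ∈ T) (hb : b ∈ T), π ⟨a, ha⟩ = π ⟨b, hb⟩ → a = b ∨ a = b * t := by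
      intro a b ha hb e
      obtain ⟨k, hk⟩ := Subgroup.mem_zpowers_iff.1 (Subgroup.mem_subgroupOf.1 (QuotientGroup.eq.1 e.symm))
      change t ^ k = b⁻¹ * a at hk
      rcases Int.even_or_odd' k with ⟨j, rfl | rfl⟩
      · rw [zpow_mul, zpow_two, htt, one_zpow] at hk
        exact Or.inl (inv_mul_eq_one.1 hk.symm).symm
      · rw [zpow_add, zpow_mul, zpow_two, htt, one_zpow, one_mul, zpow_one] at hk
        exact Or.inr (by rw [hk, mul_inv_cancel_left])
    have hπt : ∀ h : t ∈ T, π ⟨t, h⟩ = 1 := fun h =>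
      (QuotientGroup.eq_one_iff _).2 (Subgroup.mem_subgroupOf.2 (Subgroup.mem_zpowers t))
    have htT : t ∈ T := Subgroup.mem_centralizer_singleton_iff.2 rfl
    have hTc : ∀ x ∈ T, x * t = t * x := fun x hx => Subgroup.mem_centralizer_singleton_iff.1 hx
    have hmap : ∀ x, x ∈ (P.subgroupOf T).map π ↔ ∃ y, ∃ hy : y ∈ P, π ⟨y, hPT hy⟩ = x := fun x =>
      ⟨fun ⟨y, hy, he⟩ => ⟨y, hy, he⟩, fun ⟨y, hy, he⟩ => ⟨_, hy, he⟩⟩
    set zb := π ⟨z, hPT hzP⟩ with hzb
    have hzb1 : zb ≠ 1 := fun e => by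
      rcases hker z 1 (hPT hzP) T.one_mem (e.trans (map_one π).symm) with h | h
      · exact H.z_ne h
      · exact htzne (by rw [h, one_mul])
    have hconj : ∀ (c : G) (hc : c ∈ T), π ⟨c, hc⟩ * zb = zb * π ⟨c, hc⟩ → c * z = z * c := by
      intro c hc e
      have h : π ⟨c * z * c⁻¹, T.mul_mem (T.mul_mem hc (hPT hzP)) (T.inv_mem hc)⟩ = zb := by
        calc _ = π ⟨c, hc⟩ * zb * (π ⟨c, hc⟩)⁻¹ := by rw [hzb, ← map_inv, ← map_mul, ← map_mul]; rfl
          _ = zb := by rw [e, mul_inv_cancel_right]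
      rcases hker _ _ _ _ h with e' | e'
      · exact mul_inv_eq_iff_eq_mul.1 e'
      · exact absurd (isConj_iff.2 ⟨c, e'⟩) hztc
    have hnormP : ∀ c ∈ T, c * z = z * c → ∀ y ∈ P, c * y * c⁻¹ ∈ P := fun c hc hcz y hy =>
      (hPmem _).2 ⟨H.normQ c hcz y ((hPmem y).1 hy).1, hTc _ (T.mul_mem (T.mul_mem hc (hPT hy)) (T.inv_mem hc))⟩
    refine isLarge_of (z := zb) _ ((hmap _).2 ⟨z, hzP, rfl⟩) ?_ hzb1 ?_ ?_ ?_ ?_ ?_ ?_ ?_
    · rw [hzb, ← map_mul]; exact (congrArg π (Subtype.ext H.zz)).trans (map_one π)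
    · intro x hx y hy
      obtain ⟨a, ha, rfl⟩ := (hmap _).1 hx
      obtain ⟨b, hb, rfl⟩ := (hmap _).1 hy
      rw [hzb, ← map_inv, ← map_mul, ← map_mul, ← map_mul]
      rcases H.commQ a ((hPmem a).1 ha).1 b ((hPmem b).1 hb).1 with e | e
      · exact Or.inl (congrArg π (Subtype.ext e))
      · exact Or.inr (congrArg π (Subtype.ext e))
    · intro x hx
      obtain ⟨a, ha, rfl⟩ := (hmap _).1 hx
      rw [← map_mul, hzb]
      rcases H.sqQ a ((hPmem a).1 ha).1 with e | e
      · exact Or.inl ((congrArg π (Subtype.ext e)).trans (map_one π))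
      · exact Or.inr (congrArg π (Subtype.ext e))
    · refine ⟨_, (hmap _).2 ⟨r, hrP, rfl⟩, _, (hmap _).2 ⟨v, hvP, rfl⟩, fun e => hzb1 ?_⟩
      have h : zb * π ⟨v, hPT hvP⟩ = π ⟨v, hPT hvP⟩ := by
        calc zb * π ⟨v, hPT hvP⟩ = π ⟨r, hPT hrP⟩ * π ⟨v, hPT hvP⟩ * (π ⟨r, hPT hrP⟩)⁻¹ := by
              rw [hzb, ← map_inv, ← map_mul, ← map_mul, ← map_mul]; exact congrArg π (Subtype.ext hrv.symm)
          _ = π ⟨v, hPT hvP⟩ := by rw [e, mul_inv_cancel_right]
      exact mul_eq_right.1 h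
    · intro x hx
      obtain ⟨a, ha, rfl⟩ := (hmap _).1 hx
      rw [hzb, ← map_mul, ← map_mul]
      exact congrArg π (Subtype.ext (H.cenQ a ((hPmem a).1 ha).1))
    · intro x hx
      obtain ⟨⟨c, hc⟩, rfl⟩ := QuotientGroup.mk'_surjective _ x
      have hcz : c * z = z * c := hconj c hc (hx _ ((hmap _).2 ⟨z, hzP, rfl⟩))
      have hy' : ∀ y ∈ P, c * y * c⁻¹ = y ∨ c * y * c⁻¹ = y * t := by
        intro y hy
        refine hker _ _ (T.mul_mem (T.mul_mem hc (hPT hy)) (T.inv_mem hc)) (hPT hy) ?_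
        calc _ = π ⟨c, hc⟩ * π ⟨y, hPT hy⟩ * (π ⟨c, hc⟩)⁻¹ := by rw [← map_inv, ← map_mul, ← map_mul]; rfl
          _ = π ⟨y, hPT hy⟩ := by rw [hx _ ((hmap _).2 ⟨y, hy, rfl⟩), mul_inv_cancel_right]
      have hcQ : c ∈ Q := (hCP c (Subgroup.mem_centralizer_singleton_iff.2 hcz)).1 fun y hy => by
        rcases hy' y hy with e | e
        · exact ⟨1, one_mem _, by rw [e, mul_one]⟩
        · exact ⟨t, Subgroup.subset_closure (Set.mem_insert _ _), e⟩
      have hcomm : ∀ y ∈ Q, y * t = t * y → y * c = c * y := by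
        intro y hy hyt
        rcases H.commQ c hcQ y hy with e | e
        · exact (mul_inv_eq_iff_eq_mul.1 e).symm
        · exfalso
          rcases hy' y ((hPmem y).2 ⟨hy, hyt⟩) with e' | e'
          · exact H.z_ne (mul_eq_right.1 (e.symm.trans e'))
          · have := e.symm.trans e'
            rw [← H.cenQ y hy] at this
            exact htzne (mul_left_cancel this).symm
      rcases centre_of_cent Q H.zz htt H.cenQ H.commQ H.centQ htQ' hcQ hcomm with e | e | e | e <;> subst e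
      · exact Or.inl (map_one π)
      · exact Or.inr rfl
      · exact Or.inl (hπt _)
      · refine Or.inr ?_
        calc _ = zb * π ⟨t, htT⟩ := by rw [hzb, ← map_mul]; rfl
          _ = zb := by rw [hπt, mul_one]
    · intro x hxz y hy
      obtain ⟨⟨c, hc⟩, rfl⟩ := QuotientGroup.mk'_surjective _ x
      obtain ⟨b, hb, rfl⟩ := (hmap _).1 hy
      refine (hmap _).2 ⟨_, hnormP c hc (hconj c hc hxz) b hb, ?_⟩
      rw [← map_inv, ← map_mul, ← map_mul]; rfl
    · intro K hK hKn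
      have hpow : ∀ h ∈ (K.comap π).map T.subtype, h ^ Nat.card ↥K = 1 ∨ h ^ Nat.card ↥K = t := by
        rintro h ⟨k, hk, rfl⟩
        have h1 : π (k ^ Nat.card ↥K) = π 1 := by rw [map_pow, map_one]; exact pow_card_mem hk
        rcases hker _ _ (k ^ Nat.card ↥K).2 T.one_mem h1 with e | e
        · exact Or.inl (by simpa using e)
        · exact Or.inr (by simpa using e)
      have htH : t ∈ (K.comap π).map T.subtype :=
        ⟨⟨t, htT⟩, by show π _ ∈ K; rw [hπt]; exact K.one_mem, rfl⟩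
      obtain ⟨K', hK'⟩ := exists_odd_part ((K.comap π).map T.subtype) htH htt ht1
        (fun h hh => hTc h (Subgroup.map_subtype_le _ hh)) hK hpow
      have hodd : Odd (Nat.card ↥K') := odd_card_of_pow K' hK fun k hk => ((hK' k).1 hk).2
      have hKP : ∀ y ∈ P, ∀ k ∈ K', y * k * y⁻¹ ∈ K' := by
        intro y hy k hk
        obtain ⟨⟨k', hk', rfl⟩, hp'⟩ := (hK' k).1 hk
        refine (hK' _).2 ⟨⟨⟨y, hPT hy⟩ * k' * ⟨y, hPT hy⟩⁻¹, ?_, rfl⟩, ?_⟩
        · show π (_ * _ * _) ∈ K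
          rw [map_mul, map_mul, map_inv]
          exact (Subgroup.mem_normalizer_iff.1 (hKn ((hmap _).2 ⟨y, hy, rfl⟩)) _).1 hk'
        · rw [conj_pow, hp', mul_one, mul_inv_cancel]
      have hKT : ∀ k ∈ K', k ∈ T := fun k hk => Subgroup.map_subtype_le _ ((hK' k).1 hk).1
      have zi : z⁻¹ = z := inv_eq_of_mul_eq_one_right H.zz
      have vi : v⁻¹ = v := inv_eq_of_mul_eq_one_right H.vv
      have swap : ∀ {w k : G}, w * w = 1 → w * k * w = k → k * w = w * k := fun {w k} hw h => by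
        conv_lhs => rw [← h]
        rw [mul_assoc, hw, mul_one]
      have fz : ∀ k ∈ K', k * z = z * k → k = 1 := by
        intro k hk hkz
        have hkP : ∀ y ∈ P, k * y * k⁻¹ = y := by
          intro y hy
          have hm : k * y * k⁻¹ * y⁻¹ ∈ P := P.mul_mem (hnormP k (hKT k hk) hkz y hy) (P.inv_mem hy)
          have hm' : k * y * k⁻¹ * y⁻¹ ∈ K' := by
            rw [show k * y * k⁻¹ * y⁻¹ = k * (y * k⁻¹ * y⁻¹) by group]
            exact K'.mul_mem hk (hKP y hy _ (K'.inv_mem hk))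
          exact mul_inv_eq_one.1 (mem_of_four hodd hm' (four _ ((hPmem _).1 hm).1))
        exact mem_of_four hodd hk (four k ((hCP k (Subgroup.mem_centralizer_singleton_iff.2 hkz)).1
          fun y hy => ⟨1, one_mem _, by rw [hkP y hy, mul_one]⟩))
      have fv : ∀ k ∈ K', k * v = v * k → k = 1 := by
        intro k hk hkv
        refine fz k hk (mul_inv_eq_iff_eq_mul.1 (mul_inv_eq_one.1 (mem_of_four hodd ?_ (fourP _ ?_))))
        · rw [show k * z * k⁻¹ * z⁻¹ = k * (z * k⁻¹ * z⁻¹) by group]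
          exact K'.mul_mem hk (hKP z hzP _ (K'.inv_mem hk))
        · exact Pg.mul_mem (H.normP k hkv z H.zP) (Pg.inv_mem H.zP)
      have hle : K' ≤ ⊥ := by
        refine le_of_fixed K' ⊥ hodd H.zz H.vv H.comm (fun k hk => ?_) (fun k hk => ?_)
          (fun k hk h => Subgroup.mem_bot.2 (fz k hk (swap H.zz h)))
          (fun k hk h => Subgroup.mem_bot.2 (fv k hk (swap H.vv h))) (fun k hk h => ?_)
          (fun b hb _ => by rw [Subgroup.mem_bot.1 hb]; simp [H.zz, H.vv])
        · have := hKP z hzP k hk; rwa [zi] at this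
        · have := hKP v hvP k hk; rwa [vi] at this
        · have hww : (z * v) * (z * v) = 1 := by
            rw [mul_assoc, ← mul_assoc v, ← H.comm, mul_assoc z v, H.vv, mul_one, H.zz]
          have hc := swap hww h
          have hr2 : r⁻¹ * (z * v) * r = v := by rw [← hrv]; group
          have hk' : r⁻¹ * k * r ∈ K' := by simpa using hKP r⁻¹ (P.inv_mem hrP) k hk
          have h1 := fv _ hk' (by
            calc r⁻¹ * k * r * v = r⁻¹ * (k * (z * v)) * r := by
                  rw [show r⁻¹ * (k * (z * v)) * r = r⁻¹ * k * r * (r⁻¹ * (z * v) * r) by group, hr2]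
              _ = r⁻¹ * ((z * v) * k) * r := by rw [hc]
              _ = v * (r⁻¹ * k * r) := by
                  rw [show r⁻¹ * ((z * v) * k) * r = (r⁻¹ * (z * v) * r) * (r⁻¹ * k * r) by group, hr2])
          refine Subgroup.mem_bot.2 ?_
          calc k = r * (r⁻¹ * k * r) * r⁻¹ := by group
            _ = 1 := by rw [h1, mul_one, mul_inv_cancel]
      rw [Subgroup.eq_bot_iff_forall]
      intro x hx
      obtain ⟨⟨c, hc⟩, rfl⟩ := QuotientGroup.mk'_surjective _ x
      have hcH : c ∈ (K.comap π).map T.subtype := ⟨⟨c, hc⟩, hx, rfl⟩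
      rcases hpow c hcH with e | e
      · have h0 := Subgroup.mem_bot.1 (hle ((hK' c).2 ⟨hcH, e⟩))
        subst h0
        exact map_one π
      · have htc : (t * c) ^ Nat.card ↥K = 1 := by
          obtain ⟨m, hm⟩ := hK
          rw [(show Commute t c from (hTc c hc).symm).mul_pow, e, hm, pow_succ, pow_mul, pow_two, htt, one_pow,
            one_mul, htt]
        have h0 := Subgroup.mem_bot.1 (hle ((hK' _).2 ⟨mul_mem htH hcH, htc⟩))
        have hct : c = t := by
          calc c = t * (t * c) := by rw [← mul_assoc, htt, one_mul]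
            _ = t := by rw [h0, mul_one]
        subst hct
        exact hπt _
  · refine ⟨s⁻¹ * r, mul_mem (Subgroup.mem_sup_right ?_) (Subgroup.mem_sup_left hrP), ?_⟩
    · exact inv_mem (show s ∈ Pg ⊓ T from ⟨hsP, Subgroup.mem_centralizer_singleton_iff.2 hst⟩)
    · calc s⁻¹ * r * v * (s⁻¹ * r)⁻¹ = s⁻¹ * (r * v * r⁻¹) * s := by group
        _ = s⁻¹ * (s * z * s⁻¹) * s := by rw [hrv, hsz, H.comm]
        _ = z := by group

end Cfsg.Agent.S5429
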