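import Cfsg.Statements.S5430
import Cfsg.Agent.Lib.SporLargeEx
import Cfsg.Agent.Lib.CoreBasic

set_option autoImplicit false
open Cfsg

namespace Cfsg.Agent.S5430

/-- Let Q be a large extraspecial 2-subgroup of the finite group G (extraspecial; centralizer equal to its centre; normal in the centralizer of its centre; normalizing no non-trivial subgroup of odd order) with centre generated by z, an involution, of width w ≥ 2 (order 2^(2w+1)); let g be an element outside the centralizer H of z with g z g⁻¹ in Q; write V for the subgroup generated by z and g z g⁻¹, X for the subgroup generated by Q and g Q g⁻¹, R for the subgroup generated by the centralizer of z in g Q g⁻¹ and the centralizer of g z g⁻¹ in Q, and E for the intersection of Q and g Q g⁻¹. Then R is the centralizer of V in X and is the largest normal 2-subgroup of X, and X/R is isomorphic to the symmetric group of degree 3; moreover the normalizer of V is the product of X and the centralizer of V in H, X is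 normal in it, and modulo R it is the direct product of X/R and of the centralizer of V in H modulo R. -/
theorem result {G : Type*} [Group G] [Finite G] (Q : Subgroup G) (hQ : Cfsg.IsLargeExtraspecial Q) (z : G) (hz : ((Subgroup.center ↥Q).map Q.subtype) = Subgroup.zpowers z) (hz2 : orderOf z = 2) (w : ℕ) (hw : 2 ≤ w) (hcard : Nat.card ↥Q = 2 ^ (2 * w + 1)) (g : G) (hgH : g ∉ Subgroup.centralizer ({z} : Set G)) (hgQ : g * z * g⁻¹ ∈ Q) (V X R E : Subgroup G) (hV : V = Subgroup.closure ({z, g * z * g⁻¹} : Set G)) (hX : X = Q ⊔ (Q).map (MulAut.conj g).toMonoidHom) (hR : R = ((Q).map (MulAut.conj g).toMonoidHom ⊓ Subgroup.centralizer ({z} : Set G)) ⊔ (Q ⊓ Subgroup.centralizer ({g * z * g⁻¹} : Set G))) (hE : E = Q ⊓ (Q).map (MulAut.conj g).toMonoidHom) : R = X ⊓ Subgroup.centralizer (V : Set G) ∧ R = (Cfsg.pCore 2 ↥X).map X.subtype ∧ (∃ h : (R.subgroupOf X).Normal, Nonempty (↥X ⧸ R.subgroupOf X ≃* Equiv.Perm (Fin 3))) ∧ Subgroup.normalizer (V : Set G) = X ⊔ (Subgroup.centralizer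 ({z} : Set G) ⊓ Subgroup.centralizer (V : Set G)) ∧ (∀ y ∈ Subgroup.normalizer (V : Set G), ∀ x ∈ X, y * x * y⁻¹ ∈ X) ∧ R ≤ Subgroup.centralizer ({z} : Set G) ⊓ Subgroup.centralizer (V : Set G) ∧ (∀ x ∈ X, ∀ c ∈ Subgroup.centralizer ({z} : Set G) ⊓ Subgroup.centralizer (V : Set G), x * c * x⁻¹ * c⁻¹ ∈ R) ∧ X ⊓ (Subgroup.centralizer ({z} : Set G) ⊓ Subgroup.centralizer (V : Set G)) = R := by
  classical
  haveI : Fact (Nat.Prime 2) := ⟨Nat.prime_two⟩
  obtain ⟨hL1, hL2, hL3, -⟩ := hQ
  have hne : g * z * g⁻¹ ≠ z := fun e =>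
    hgH (Subgroup.mem_centralizer_singleton_iff.2 (mul_inv_eq_iff_eq_mul.1 e))
  obtain ⟨q, p, H⟩ := CfsgLib.Spor.LargeEx.exists_pair Q hL1 hL2 hL3 hz hz2 g hgQ hne
  set v := g * z * g⁻¹ with hv
  set P := Q.map (MulAut.conj g).toMonoidHom with hP
  have hRc : R = CfsgLib.Spor.LargeEx.core Q P z v := hR
  have hzV : z ∈ V := hV ▸ Subgroup.subset_closure (Or.inl rfl)
  have hvV : v ∈ V := hV ▸ Subgroup.subset_closure (Or.inr rfl)
  have hCV : ∀ c : G, c ∈ Subgroup.centralizer (V : Set G) ↔ c * z = z * c ∧ c * v = v * c := fun c => by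
    constructor
    · exact fun hc => ⟨(hc z hzV).symm, (hc v hvV).symm⟩
    · rintro ⟨h1, h2⟩ y hy
      rw [SetLike.mem_coe, hV] at hy
      have hle : Subgroup.closure ({z, v} : Set G) ≤ Subgroup.centralizer {c} := by
        rw [Subgroup.closure_le]
        rintro y (rfl | rfl) <;> rw [SetLike.mem_coe, Subgroup.mem_centralizer_singleton_iff]
        exacts [h1.symm, h2.symm]
      exact Subgroup.mem_centralizer_singleton_iff.1 (hle hy)
  have hRX : R ≤ X := by
    rw [hR, hX]; exact sup_le (inf_le_left.trans le_sup_right) (inf_le_left.trans le_sup_left)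
  have hRmem : ∀ x, x ∈ R ↔ x ∈ X ∧ x * z = z * x ∧ x * v = v * x := fun x => by
    constructor
    · exact fun hx => ⟨hRX hx, CfsgLib.Spor.LargeEx.core_comm H (hRc ▸ hx)⟩
    · rintro ⟨hx, h1, h2⟩
      rw [hRc]; exact CfsgLib.Spor.LargeEx.mem_core H (hX ▸ hx) h1 h2
  have hVel : ∀ x ∈ V, x = 1 ∨ x = z ∨ x = v ∨ x = z * v := by
    let W : Subgroup G :=
      { carrier := {1, z, v, z * v}
        one_mem' := by simp
        inv_mem' := fun {a} ha => by
          have hi : ∀ b : G, b * b = 1 → b⁻¹ = b := fun b hb => inv_eq_of_mul_eq_one_right hb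
          simp only [Set.mem_insert_iff, Set.mem_singleton_iff] at ha ⊢
          rcases ha with rfl | rfl | rfl | rfl
          · simp
          · right; left; exact hi _ H.zz
          · right; right; left; exact hi _ H.vv
          · right; right; right; rw [mul_inv_rev, hi _ H.vv, hi _ H.zz, H.comm]
        mul_mem' := fun {a b} ha hb => by
          have e1 : v * z = z * v := H.comm.symm
          have e2 : ∀ t, z * (z * t) = t := fun t => by rw [← mul_assoc, H.zz, one_mul]
          have e4 : ∀ t, v * (z * t) = z * (v * t) := fun t => by rw [← mul_assoc, e1, mul_assoc]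
          simp only [Set.mem_insert_iff, Set.mem_singleton_iff] at ha hb ⊢
          rcases ha with rfl | rfl | rfl | rfl <;> rcases hb with rfl | rfl | rfl | rfl <;>
            simp [mul_assoc, H.zz, H.vv, e1, e2, e4] }
    intro x hx
    have hle : V ≤ W := by
      rw [hV, Subgroup.closure_le]
      rintro y (rfl | rfl) <;> simp [W]
    simpa [W] using hle hx
  set N := Subgroup.normalizer (V : Set G) with hNdef
  have hN : ∀ n : G, n * z * n⁻¹ ∈ V → n * v * n⁻¹ ∈ V → n ∈ N := by
    intro n h1 h2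
    have hle : V.map (MulAut.conj n).toMonoidHom ≤ V := by
      rw [Subgroup.map_le_iff_le_comap]; conv_lhs => rw [hV]
      rw [Subgroup.closure_le]
      rintro y (rfl | rfl) <;> simpa
    have heq : V.map (MulAut.conj n).toMonoidHom = V :=
      Subgroup.eq_of_le_of_card_ge hle (Subgroup.card_map_of_injective (MulAut.conj n).injective).ge
    refine Subgroup.mem_normalizer_iff.2 fun x => ?_
    conv_rhs => rw [← heq, Subgroup.mem_map_equiv, MulAut.conj_symm_apply,
      show n⁻¹ * (n * x * n⁻¹) * n = x by group]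
  have hXN : X ≤ N := by
    rw [hX]
    refine sup_le (fun x hx => hN x ?_ ?_) (fun x hx => hN x ?_ ?_)
    · rw [H.cenQ x hx, mul_inv_cancel_right]; exact hzV
    · rcases H.commQ x hx v H.vQ with e | e <;> rw [e]
      exacts [hvV, V.mul_mem hzV hvV]
    · rcases H.commP x hx z H.zP with e | e <;> rw [e]
      exacts [hzV, V.mul_mem hvV hzV]
    · rw [H.cenP x hx, mul_inv_cancel_right]; exact hvV
  set T : Set G := {z, v, z * v} with hT
  have hTV : ∀ t, t ∈ T ↔ t ∈ V ∧ t ≠ 1 := fun t => by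
    constructor
    · rintro (rfl | rfl | rfl)
      · exact ⟨hzV, H.z_ne⟩
      · exact ⟨hvV, H.v_ne⟩
      · exact ⟨V.mul_mem hzV hvV, fun e => H.ne ((inv_eq_of_mul_eq_one_right H.zz).symm.trans
          (inv_eq_of_mul_eq_one_right e)).symm⟩
    · rintro ⟨h1, h2⟩
      rcases hVel t h1 with e | e | e | e
      exacts [absurd e h2, Or.inl e, Or.inr (Or.inl e), Or.inr (Or.inr e)]
  have hTN : ∀ n ∈ N, ∀ t ∈ T, n * t * n⁻¹ ∈ T := fun n hn t ht => by
    rw [hTV] at ht ⊢
    exact ⟨(Subgroup.mem_normalizer_iff.1 hn t).1 ht.1, fun e => ht.2 (by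
      calc t = n⁻¹ * (n * t * n⁻¹) * n := by group
        _ = 1 := by rw [e]; group)⟩
  let perm : ↥N →* Equiv.Perm ↥T :=
    { toFun := fun n =>
        { toFun := fun t => ⟨(n : G) * t * (n : G)⁻¹, hTN n n.2 t t.2⟩
          invFun := fun t => ⟨(n : G)⁻¹ * t * (n : G), by
            simpa using hTN (n : G)⁻¹ (N.inv_mem n.2) t t.2⟩
          left_inv := fun t => Subtype.ext (by show (n : G)⁻¹ * ((n : G) * t * (n : G)⁻¹) * n = t; group)
          right_inv := fun t => Subtype.ext (by show (n : G) * ((n : G)⁻¹ * t * n) * (n : G)⁻¹ = t; group) }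
      map_one' := Equiv.ext fun t => Subtype.ext (by simp)
      map_mul' := fun a b => Equiv.ext fun t => Subtype.ext (by simp [mul_assoc]) }
  let ψ : ↥X →* Equiv.Perm ↥T := perm.comp (Subgroup.inclusion hXN)
  have hψ : ∀ (x : ↥X) (t : ↥T), ((ψ x t : ↥T) : G) = (x : G) * t * (x : G)⁻¹ := fun _ _ => rfl
  have hker : ψ.ker = R.subgroupOf X := by
    ext x
    rw [MonoidHom.mem_ker, Subgroup.mem_subgroupOf, hRmem]
    constructor
    · intro hx
      have h1 := congrArg Subtype.val (Equiv.ext_iff.1 hx ⟨z, Or.inl rfl⟩)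
      have h2 := congrArg Subtype.val (Equiv.ext_iff.1 hx ⟨v, Or.inr (Or.inl rfl)⟩)
      simp only [hψ, Equiv.Perm.one_apply] at h1 h2
      exact ⟨x.2, mul_inv_eq_iff_eq_mul.1 h1, mul_inv_eq_iff_eq_mul.1 h2⟩
    · rintro ⟨-, h1, h2⟩
      refine Equiv.ext fun t => Subtype.ext ?_
      rw [hψ, Equiv.Perm.one_apply, mul_inv_eq_iff_eq_mul]
      rcases t.2 with e | e | e <;> rw [e]
      · exact h1
      · exact h2
      · exact ((show Commute (x : G) z from h1).mul_right (show Commute (x : G) v from h2)).eq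
  have hT3 : Nat.card ↥T = 3 := by
    rw [Nat.card_coe_set_eq, hT, Set.ncard_eq_toFinset_card']
    simp [H.ne.symm, show z ≠ z * v from fun e => H.v_ne (mul_eq_left.1 e.symm),
      show v ≠ z * v from fun e => H.z_ne (mul_eq_right.1 e.symm)]
  have hqX : q ∈ X := hX ▸ Subgroup.mem_sup_left H.qQ
  have hpX : p ∈ X := hX ▸ Subgroup.mem_sup_right H.pP
  have hsurj : Function.Surjective ψ := by
    rw [← MonoidHom.range_eq_top]
    apply Subgroup.eq_top_of_card_eq
    have h6 : Nat.card (Equiv.Perm ↥T) = 6 := by rw [Nat.card_perm, hT3]; rfl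
    have hd := Subgroup.card_subgroup_dvd_card ψ.range
    rw [h6] at hd ⊢
    let F : Fin 4 → G × G := ![(z, v), (z, z * v), (z * v, v), (z * v, z)]
    have hn1 : z * v ≠ z := fun e => H.v_ne (mul_eq_left.1 e)
    have hn2 : z * v ≠ v := fun e => H.z_ne (mul_eq_right.1 e)
    have hF : Function.Injective F := by
      intro i j e
      fin_cases i <;> fin_cases j <;> simp [F, hn1, hn2, hn1.symm, hn2.symm, H.ne, H.ne.symm] at e ⊢
    have pzv : p * (z * v) * p⁻¹ = z := by
      rw [show p * (z * v) * p⁻¹ = (p * z * p⁻¹) * (p * v * p⁻¹) by group, H.pz, H.pv, mul_assoc, H.vv, mul_one]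
    have hreal : ∀ i, ∃ x : ↥X, ((ψ x ⟨z, Or.inl rfl⟩ : ↥T) : G) = (F i).1 ∧
        ((ψ x ⟨v, Or.inr (Or.inl rfl)⟩ : ↥T) : G) = (F i).2 := by
      intro i
      fin_cases i
      · exact ⟨1, by simp [F]⟩
      · exact ⟨⟨q, hqX⟩, by rw [hψ, hψ]; exact ⟨H.qz, H.qv⟩⟩
      · exact ⟨⟨p, hpX⟩, by rw [hψ, hψ]; exact ⟨H.pz, H.pv⟩⟩
      · refine ⟨⟨p * q, X.mul_mem hpX hqX⟩, ?_, ?_⟩ <;> rw [hψ]
        · show p * q * z * (p * q)⁻¹ = z * v
          rw [show p * q * z * (p * q)⁻¹ = p * (q * z * q⁻¹) * p⁻¹ by group, H.qz, H.pz]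
        · show p * q * v * (p * q)⁻¹ = z
          rw [show p * q * v * (p * q)⁻¹ = p * (q * v * q⁻¹) * p⁻¹ by group, H.qv, pzv]
    choose f hf using hreal
    have hinj : Function.Injective (fun i => (⟨ψ (f i), f i, rfl⟩ : ↥ψ.range)) := fun i j e => by
      apply hF
      have e' : ψ (f i) = ψ (f j) := congrArg Subtype.val e
      exact Prod.ext ((hf i).1.symm.trans (e' ▸ (hf j).1)) ((hf i).2.symm.trans (e' ▸ (hf j).2))
    have h4 := Nat.card_le_card_of_injective _ hinj
    rw [Nat.card_fin] at h4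
    obtain ⟨k, hk⟩ := hd
    rcases Nat.lt_or_ge k 2 with hk2 | hk2
    · interval_cases k <;> omega
    · have : 4 * 2 ≤ Nat.card ↥ψ.range * k := Nat.mul_le_mul h4 hk2
      omega
  have hC : Subgroup.centralizer ({z} : Set G) ⊓ Subgroup.centralizer (V : Set G) =
      Subgroup.centralizer (V : Set G) := inf_eq_right.2 fun c hc =>
    Subgroup.mem_centralizer_singleton_iff.2 ((hCV c).1 hc).1
  rw [hC]
  have hRC : R = X ⊓ Subgroup.centralizer (V : Set G) := by
    ext x; rw [hRmem, Subgroup.mem_inf, hCV]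
  have hCN : Subgroup.centralizer (V : Set G) ≤ N := fun c hc => hN c
    (by rw [((hCV c).1 hc).1, mul_inv_cancel_right]; exact hzV)
    (by rw [((hCV c).1 hc).2, mul_inv_cancel_right]; exact hvV)
  have hsplit : N = X ⊔ Subgroup.centralizer (V : Set G) := by
    refine le_antisymm (fun y hy => ?_) (sup_le hXN hCN)
    obtain ⟨x, hx⟩ := hsurj (perm ⟨y, hy⟩)
    have h1 := congrArg Subtype.val (Equiv.ext_iff.1 hx ⟨z, Or.inl rfl⟩)
    have h2 := congrArg Subtype.val (Equiv.ext_iff.1 hx ⟨v, Or.inr (Or.inl rfl)⟩)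
    change (x : G) * z * (x : G)⁻¹ = y * z * y⁻¹ at h1
    change (x : G) * v * (x : G)⁻¹ = y * v * y⁻¹ at h2
    rw [show y = (x : G) * ((x : G)⁻¹ * y) by group]
    refine Subgroup.mul_mem_sup x.2 ((hCV _).2 ⟨mul_inv_eq_iff_eq_mul.1 ?_, mul_inv_eq_iff_eq_mul.1 ?_⟩)
    · rw [show (x : G)⁻¹ * y * z * ((x : G)⁻¹ * y)⁻¹ = (x : G)⁻¹ * (y * z * y⁻¹) * x by group, ← h1]; group
    · rw [show (x : G)⁻¹ * y * v * ((x : G)⁻¹ * y)⁻¹ = (x : G)⁻¹ * (y * v * y⁻¹) * x by group, ← h2]; group
  have hCX : ∀ c, c ∈ Subgroup.centralizer (V : Set G) → ∀ x ∈ X, c * x * c⁻¹ ∈ X := by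
    intro c hc
    have hle : X ≤ X.comap (MulAut.conj c).toMonoidHom := by
      conv_lhs => rw [hX]
      refine sup_le (fun x hx => ?_) (fun x hx => ?_) <;>
        rw [Subgroup.mem_comap, MulEquiv.coe_toMonoidHom, MulAut.conj_apply, hX]
      · exact Subgroup.mem_sup_left (H.normQ c ((hCV c).1 hc).1 x hx)
      · exact Subgroup.mem_sup_right (H.normP c ((hCV c).1 hc).2 x hx)
    intro x hx; simpa using hle hx
  have hNX : ∀ y ∈ N, ∀ x ∈ X, y * x * y⁻¹ ∈ X := by
    have hle : N ≤ Subgroup.normalizer (X : Set G) := by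
      rw [hsplit]
      refine sup_le Subgroup.le_normalizer fun c hc => Subgroup.mem_normalizer_iff.2 fun x => ⟨hCX c hc x, fun h => ?_⟩
      have := hCX c⁻¹ (inv_mem hc) _ h
      convert this using 1; group
    exact fun y hy x hx => (Subgroup.mem_normalizer_iff.1 (hle hy) x).1 hx
  have hnormal : (R.subgroupOf X).Normal := hker ▸ inferInstance
  refine ⟨hRC, ?_, ⟨hnormal, ?_⟩, hsplit, hNX, fun x hx => (hCV x).2 ((hRmem x).1 hx).2, fun x hx c hc => ?_,
    hRC.symm⟩
  · -- the core is a 2-group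
    have hp2 : IsPGroup 2 ↥R := by
      have hpP : IsPGroup 2 ↥P := hL1.1.1.map _
      have hA : IsPGroup 2 ↥(P ⊓ Subgroup.centralizer {z}) := hpP.to_le inf_le_left
      have hB : IsPGroup 2 ↥(Q ⊓ Subgroup.centralizer {v}) := hL1.1.1.to_le inf_le_left
      rw [hR]
      refine IsPGroup.to_sup_of_normal_right' hA hB fun b hb => ?_
      have hbz := Subgroup.mem_centralizer_singleton_iff.1 hb.2
      have hbv := H.cenP b hb.1
      have key : ∀ c : G, c * z = z * c → c * v = v * c → ∀ y ∈ Q ⊓ Subgroup.centralizer {v},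
          c * y * c⁻¹ ∈ Q ⊓ Subgroup.centralizer {v} := fun c hcz hcv y hy =>
        ⟨H.normQ c hcz y hy.1, Subgroup.mem_centralizer_singleton_iff.2
          (((show Commute c v from hcv).mul_left (show Commute y v from
            Subgroup.mem_centralizer_singleton_iff.1 hy.2)).mul_left (show Commute c v from hcv).inv_left).eq⟩
      refine Subgroup.mem_normalizer_iff.2 fun y => ⟨key b hbz hbv y, fun h => ?_⟩
      have := key b⁻¹ (show Commute b z from hbz).inv_left.eq (show Commute b v from hbv).inv_left.eq _ h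
      convert this using 1; group
    apply le_antisymm
    · intro x hx
      exact ⟨⟨x, hRX hx⟩, CfsgLib.Core.le_pCore (N := R.subgroupOf X) hnormal
        (hp2.comap_of_injective _ X.subtype_injective) hx, rfl⟩
    · rintro _ ⟨x, hx, rfl⟩
      suffices hx' : x ∈ ψ.ker by rw [hker] at hx'; exact hx'
      have hWp : IsPGroup 2 ↥((Cfsg.pCore 2 ↥X).map ψ) := (CfsgLib.Core.isPGroup_pCore (G := ↥X) 2).map ψ
      haveI hWn : ((Cfsg.pCore 2 ↥X).map ψ).Normal := Subgroup.Normal.map inferInstance ψ hsurj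
      have e := ((Nat.card_eq_fintype_card (α := ↥T)).symm.trans hT3)
      let ε : Equiv.Perm ↥T ≃* Equiv.Perm (Fin 3) := (Fintype.equivFinOfCardEq e).permCongrHom
      have hsq : ∀ a ∈ (Cfsg.pCore 2 ↥X).map ψ, a * a = 1 := fun a ha => by
        obtain ⟨k, hk⟩ := hWp ⟨a, ha⟩
        have hk' : a ^ 2 ^ k = 1 := congrArg Subtype.val hk
        have key : ∀ b : Equiv.Perm (Fin 3), b ^ 3 = 1 ∨ b * b = 1 := by decide
        rcases key (ε a) with h | h
        · have h3 : a ^ 3 = 1 := ε.injective (by rw [map_pow, h, map_one])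
          have hd := Nat.dvd_gcd (orderOf_dvd_of_pow_eq_one hk') (orderOf_dvd_of_pow_eq_one h3)
          rw [Nat.Coprime.gcd_eq_one ((by norm_num : Nat.Coprime 2 3).pow_left k), Nat.dvd_one,
            orderOf_eq_one_iff] at hd
          rw [hd, one_mul]
        · exact ε.injective (by rw [map_mul, h, map_one])
      have hm : ψ x ∈ (Cfsg.pCore 2 ↥X).map ψ := ⟨x, hx, rfl⟩
      have key : ∀ a : Equiv.Perm (Fin 3), a * a = 1 →
          (∀ b, (a * (b * a * b⁻¹)) * (a * (b * a * b⁻¹)) = 1) → a = 1 := by decide +kernel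
      rw [MonoidHom.mem_ker]
      refine ε.injective (Eq.trans (key (ε (ψ x)) ?_ fun b => ?_) (map_one ε).symm)
      · rw [← map_mul, hsq _ hm, map_one]
      · have h := hsq _ (mul_mem hm (hWn.conj_mem _ hm (ε.symm b)))
        have h' := congrArg ε h
        simpa using h'
  · have e := ((Nat.card_eq_fintype_card (α := ↥T)).symm.trans hT3)
    exact ⟨((QuotientGroup.quotientMulEquivOfEq hker.symm).trans
      (QuotientGroup.quotientKerEquivOfSurjective ψ hsurj)).trans (Fintype.equivFinOfCardEq e).permCongrHom⟩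
  · rw [hRC]
    refine ⟨?_, ?_⟩
    · rw [show x * c * x⁻¹ * c⁻¹ = x * (c * x⁻¹ * c⁻¹) by group]
      exact X.mul_mem hx (hNX c (hCN hc) _ (X.inv_mem hx))
    · refine mul_mem ((hCV _).2 ?_) (Subgroup.inv_mem _ hc)
      have hxN := hXN hx
      have hV' : ∀ y ∈ V, x * c * x⁻¹ * y = y * (x * c * x⁻¹) := fun y hy => by
        have hy' : x⁻¹ * y * x ∈ V := by
          simpa using (Subgroup.mem_normalizer_iff.1 (N.inv_mem hxN) y).1 hy
        calc x * c * x⁻¹ * y = x * (c * (x⁻¹ * y * x)) * x⁻¹ := by group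
          _ = x * ((x⁻¹ * y * x) * c) * x⁻¹ := by rw [(hc _ hy').symm]
          _ = y * (x * c * x⁻¹) := by group
      exact ⟨hV' z hzV, hV' v hvV⟩

end Cfsg.Agent.S5430
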