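import Cfsg.Statements.S5431
import Cfsg.Agent.Lib.SporLargeEx

set_option autoImplicit false
open Cfsg

namespace Cfsg.Agent.S5431

/-- Let Q be a large extraspecial 2-subgroup of the finite group G (extraspecial; centralizer equal to its centre; normal in the centralizer of its centre; normalizing no non-trivial subgroup of odd order) with centre generated by z, an involution, of width w ≥ 2 (order 2^(2w+1)); let g be an element outside the centralizer H of z with g z g⁻¹ in Q; write V for the subgroup generated by z and g z g⁻¹, X for the subgroup generated by Q and g Q g⁻¹, R for the subgroup generated by the centralizer of z in g Q g⁻¹ and the centralizer of g z g⁻¹ in Q, and E for the intersection of Q and g Q g⁻¹. Then V is the centre of R, E lies in the second centre of R, R is nilpotent of class at most 3, E and R/E are elementary abelian, R/E is the direct product of the images of the centralizer of g z g⁻¹ in Q and of the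 centralizer of z in g Q g⁻¹ (R is their product and they meet in E), and the commutator subgroup of X and E lies in V. -/
theorem result {G : Type*} [Group G] [Finite G] (Q : Subgroup G) (hQ : Cfsg.IsLargeExtraspecial Q) (z : G) (hz : ((Subgroup.center ↥Q).map Q.subtype) = Subgroup.zpowers z) (hz2 : orderOf z = 2) (w : ℕ) (hw : 2 ≤ w) (hcard : Nat.card ↥Q = 2 ^ (2 * w + 1)) (g : G) (hgH : g ∉ Subgroup.centralizer ({z} : Set G)) (hgQ : g * z * g⁻¹ ∈ Q) (V X R E : Subgroup G) (hV : V = Subgroup.closure ({z, g * z * g⁻¹} : Set G)) (hX : X = Q ⊔ (Q).map (MulAut.conj g).toMonoidHom) (hR : R = ((Q).map (MulAut.conj g).toMonoidHom ⊓ Subgroup.centralizer ({z} : Set G)) ⊔ (Q ⊓ Subgroup.centralizer ({g * z * g⁻¹} : Set G))) (hE : E = Q ⊓ (Q).map (MulAut.conj g).toMonoidHom) : (Subgroup.center ↥R).map R.subtype = V ∧ E ≤ (Subgroup.upperCentralSeries ↥R 2).map R.subtype ∧ Subgroup.upperCentralSeries ↥R 3 = ⊤ ∧ Cfsg.IsElementaryAbelian 2 E ∧ (∀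 x ∈ R, ∀ y ∈ R, x * y * x⁻¹ * y⁻¹ ∈ E ∧ x ^ 2 ∈ E) ∧ ((Q).map (MulAut.conj g).toMonoidHom ⊓ Subgroup.centralizer ({z} : Set G)) ⊓ (Q ⊓ Subgroup.centralizer ({g * z * g⁻¹} : Set G)) = E ∧ ⁅X, E⁆ ≤ V := by
  classical
  obtain ⟨hL1, hL2, hL3, -⟩ := hQ
  have hne : g * z * g⁻¹ ≠ z := fun e =>
    hgH (Subgroup.mem_centralizer_singleton_iff.2 (mul_inv_eq_iff_eq_mul.1 e))
  obtain ⟨q, p, H⟩ := CfsgLib.Spor.LargeEx.exists_pair Q hL1 hL2 hL3 hz hz2 g hgQ hne
  set v := g * z * g⁻¹ with hv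
  set P := Q.map (MulAut.conj g).toMonoidHom with hP
  have hRc : R = CfsgLib.Spor.LargeEx.core Q P z v := hR
  have hzV : z ∈ V := hV ▸ Subgroup.subset_closure (Or.inl rfl)
  have hvV : v ∈ V := hV ▸ Subgroup.subset_closure (Or.inr rfl)
  have hCV : ∀ c : G, c ∈ Subgroup.centralizer (V : Set G) ↔ c * z = z * c ∧ c * v = v * c := fun c => by
    constructor
    · exact fun hc => ⟨(hc z hzV).symm, (hc v hvV).symm⟩
    · rintro ⟨h1, h2⟩ y hy
      rw [SetLike.mem_coe, hV] at hy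
      have hle : Subgroup.closure ({z, v} : Set G) ≤ Subgroup.centralizer {c} := by
        rw [Subgroup.closure_le]
        rintro y (rfl | rfl) <;> rw [SetLike.mem_coe, Subgroup.mem_centralizer_singleton_iff]
        exacts [h1.symm, h2.symm]
      exact Subgroup.mem_centralizer_singleton_iff.1 (hle hy)
  have hRX : R ≤ X := by
    rw [hR, hX]; exact sup_le (inf_le_left.trans le_sup_right) (inf_le_left.trans le_sup_left)
  have hRmem : ∀ x, x ∈ R ↔ x ∈ X ∧ x * z = z * x ∧ x * v = v * x := fun x => by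
    constructor
    · exact fun hx => ⟨hRX hx, CfsgLib.Spor.LargeEx.core_comm H (hRc ▸ hx)⟩
    · rintro ⟨hx, h1, h2⟩
      rw [hRc]; exact CfsgLib.Spor.LargeEx.mem_core H (hX ▸ hx) h1 h2
  have hRmem' : ∀ {x}, x ∈ R → ∃ b a : G, b ∈ P ∧ b * z = z * b ∧ a ∈ Q ∧ a * v = v * a ∧ x = b * a :=
    fun {x} hx => CfsgLib.Spor.LargeEx.core_decomp H (hRc ▸ hx)
  have hQa : ∀ a ∈ Q, a * v = v * a → a ∈ R := fun a ha h => hRc ▸ CfsgLib.Spor.LargeEx.right_mem ha h
  have hPb : ∀ b ∈ P, b * z = z * b → b ∈ R := fun b hb h => hRc ▸ CfsgLib.Spor.LargeEx.left_mem hb h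
  have hEm : ∀ e, e ∈ E ↔ e ∈ Q ∧ e ∈ P := fun e => by rw [hE]; exact Iff.rfl
  have hzE : z ∈ E := (hEm z).2 ⟨H.zQ, H.zP⟩
  have hvE : v ∈ E := (hEm v).2 ⟨H.vQ, H.vP⟩
  have hVE : V ≤ E := by
    rw [hV, Subgroup.closure_le]
    rintro y (rfl | rfl)
    exacts [hzE, hvE]
  have hER : E ≤ R := fun e he => hQa e ((hEm e).1 he).1 (H.cenP e ((hEm e).1 he).2)
  have hmeet : ∀ e, (e = 1 ∨ e = z) → (e = 1 ∨ e = v) → e = 1 := by
    rintro e (h | h) (h' | h')
    · exact h
    · exact h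
    · exact h'
    · exact absurd (h'.symm.trans h) H.ne
  have hEel : Cfsg.IsElementaryAbelian 2 E := by
    refine ⟨⟨⟨fun a b => Subtype.ext ?_⟩⟩, fun e he => ?_⟩
    · obtain ⟨a1, a2⟩ := (hEm a).1 a.2
      obtain ⟨b1, b2⟩ := (hEm b).1 b.2
      refine mul_inv_eq_iff_eq_mul.1 ?_
      rcases H.commQ _ a1 _ b1 with e | e
      · exact e
      rcases H.commP _ a2 _ b2 with e' | e'
      · exact e'
      · exact absurd (mul_right_cancel (e.symm.trans e')) H.ne.symm
    · rw [pow_two]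
      exact hmeet _ (H.sqQ e ((hEm e).1 he).1) (H.sqP e ((hEm e).1 he).2)
  -- the subgroup moving E inside V
  have hQE : ∀ x ∈ Q, ∀ e ∈ E, x * e * x⁻¹ * e⁻¹ ∈ V := fun x hx e he => by
    rcases H.commQ x hx e ((hEm e).1 he).1 with h | h <;> rw [h]
    · simp
    · rw [mul_inv_cancel_right]; exact hzV
  have hPE : ∀ x ∈ P, ∀ e ∈ E, x * e * x⁻¹ * e⁻¹ ∈ V := fun x hx e he => by
    rcases H.commP x hx e ((hEm e).1 he).2 with h | h <;> rw [h]
    · simp
    · rw [mul_inv_cancel_right]; exact hvV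
  have hEconj : ∀ {x e}, e ∈ E → x * e * x⁻¹ * e⁻¹ ∈ V → x * e * x⁻¹ ∈ E := fun {x e} he h => by
    rw [show x * e * x⁻¹ = (x * e * x⁻¹ * e⁻¹) * e by group]; exact E.mul_mem (hVE h) he
  let K : Subgroup G :=
    { carrier := {x | x ∈ X ∧ (∀ y ∈ V, x * y * x⁻¹ ∈ V) ∧ (∀ y ∈ V, x⁻¹ * y * x ∈ V) ∧
        (∀ e ∈ E, x * e * x⁻¹ * e⁻¹ ∈ V) ∧ (∀ e ∈ E, x⁻¹ * e * x * e⁻¹ ∈ V)}
      one_mem' := ⟨X.one_mem, fun y hy => by simpa using hy, fun y hy => by simpa using hy,
        fun e _ => by simp, fun e _ => by simp⟩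
      mul_mem' := by
        rintro a b ⟨ha, ha1, ha2, ha3, ha4⟩ ⟨hb, hb1, hb2, hb3, hb4⟩
        refine ⟨X.mul_mem ha hb, fun y hy => ?_, fun y hy => ?_, fun e he => ?_, fun e he => ?_⟩
        · convert ha1 _ (hb1 y hy) using 1; group
        · convert hb2 _ (ha2 y hy) using 1; group
        · convert V.mul_mem (ha1 _ (hb3 e he)) (ha3 e he) using 1; group
        · convert V.mul_mem (hb2 _ (ha4 e he)) (hb4 e he) using 1; group
      inv_mem' := by
        rintro a ⟨ha, ha1, ha2, ha3, ha4⟩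
        refine ⟨X.inv_mem ha, ?_, ?_, ?_, ?_⟩ <;> simp only [inv_inv]
        exacts [ha2, ha1, ha4, ha3] }
  have hXK : X ≤ K := by
    have hgen : ∀ x, x ∈ Q ∨ x ∈ P → ∀ y ∈ V, x * y * x⁻¹ ∈ V := fun x hx y hy => by
      have := (hx.elim (fun h => hQE x h y (hVE hy)) fun h => hPE x h y (hVE hy))
      rw [show x * y * x⁻¹ = (x * y * x⁻¹ * y⁻¹) * y by group]
      exact V.mul_mem this hy
    have hall : ∀ x, x ∈ Q ∨ x ∈ P → x ∈ K := fun x hx => by
      refine ⟨hX ▸ hx.elim Subgroup.mem_sup_left Subgroup.mem_sup_right, hgen x hx, fun y hy => ?_,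
        fun e he => hx.elim (fun h => hQE x h e he) fun h => hPE x h e he, fun e he => ?_⟩
      · simpa using hgen x⁻¹ (hx.imp Q.inv_mem P.inv_mem) y hy
      · simpa using (hx.elim (fun h => hQE x⁻¹ (Q.inv_mem h) e he) fun h => hPE x⁻¹ (P.inv_mem h) e he)
    rw [hX]
    exact sup_le (fun x hx => hall x (Or.inl hx)) fun x hx => hall x (Or.inr hx)
  have hXE : ∀ x ∈ X, ∀ e ∈ E, x * e * x⁻¹ * e⁻¹ ∈ V := fun x hx => (hXK hx).2.2.2.1
  -- commutators and squares
  have hgenE : ∀ x y, ((x ∈ Q ∧ x * v = v * x) ∨ (x ∈ P ∧ x * z = z * x)) →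
      ((y ∈ Q ∧ y * v = v * y) ∨ (y ∈ P ∧ y * z = z * y)) → x * y * x⁻¹ * y⁻¹ ∈ E := by
    intro x y hx hy
    rcases hx with ⟨hx, hx'⟩ | ⟨hx, hx'⟩ <;> rcases hy with ⟨hy, hy'⟩ | ⟨hy, hy'⟩
    · rcases H.commQ x hx y hy with h | h <;> rw [h]
      · simp
      · rw [mul_inv_cancel_right]; exact hzE
    · refine (hEm _).2 ⟨?_, P.mul_mem (H.normP x hx' y hy) (P.inv_mem hy)⟩
      rw [show x * y * x⁻¹ * y⁻¹ = x * (y * x⁻¹ * y⁻¹) by group]
      exact Q.mul_mem hx (H.normQ y hy' _ (Q.inv_mem hx))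
    · refine (hEm _).2 ⟨Q.mul_mem (H.normQ x hx' y hy) (Q.inv_mem hy), ?_⟩
      rw [show x * y * x⁻¹ * y⁻¹ = x * (y * x⁻¹ * y⁻¹) by group]
      exact P.mul_mem hx (H.normP y hy' _ (P.inv_mem hx))
    · rcases H.commP x hx y hy with h | h <;> rw [h]
      · simp
      · rw [mul_inv_cancel_right]; exact hvE
  have hcR : ∀ x ∈ R, ∀ y ∈ R, x * y * x⁻¹ * y⁻¹ ∈ E := by
    have hn : ∀ x ∈ R, ∀ e ∈ E, x * e * x⁻¹ ∈ E := fun x hx e he => hEconj he (hXE x (hRX hx) e he)
    have step : ∀ x, ((x ∈ Q ∧ x * v = v * x) ∨ (x ∈ P ∧ x * z = z * x)) → ∀ y ∈ R,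
        x * y * x⁻¹ * y⁻¹ ∈ E := fun x hx y hy => by
      obtain ⟨b, a, hb, hbz, ha, hav, rfl⟩ := hRmem' hy
      have h1 := hgenE x b hx (Or.inr ⟨hb, hbz⟩)
      have h2 := hn b (hPb b hb hbz) _ (hgenE x a hx (Or.inl ⟨ha, hav⟩))
      convert E.mul_mem h1 h2 using 1; group
    intro x hx y hy
    obtain ⟨b, a, hb, hbz, ha, hav, rfl⟩ := hRmem' hx
    have h1 := hn b (hPb b hb hbz) _ (step a (Or.inl ⟨ha, hav⟩) y hy)
    have h2 := step b (Or.inr ⟨hb, hbz⟩) y hy
    convert E.mul_mem h1 h2 using 1; group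
  have hsqR : ∀ x ∈ R, x ^ 2 ∈ E := fun x hx => by
    have hx' := hx
    obtain ⟨b, a, hb, hbz, ha, hav, rfl⟩ := hRmem' hx
    have h1 : a * b * a⁻¹ * b⁻¹ ∈ E := hgenE a b (Or.inl ⟨ha, hav⟩) (Or.inr ⟨hb, hbz⟩)
    have h2 : a * a ∈ E := by rcases H.sqQ a ha with h | h <;> rw [h]; exacts [E.one_mem, hzE]
    have h3 : b * b ∈ E := by rcases H.sqP b hb with h | h <;> rw [h]; exacts [E.one_mem, hvE]
    have hn : ∀ e ∈ E, b * e * b⁻¹ ∈ E := fun e he =>
      hEconj he (hXE b (hX ▸ Subgroup.mem_sup_right hb) e he)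
    convert E.mul_mem (E.mul_mem (hn _ h1) h3) h2 using 1
    rw [pow_two]; group
  have hcenR : ∀ x ∈ R, (∀ y ∈ R, x * y = y * x) → x ∈ V := by
    intro x hx hcom
    obtain ⟨-, hxz, hxv⟩ := (hRmem x).1 hx
    set d := x * q * x⁻¹ * q⁻¹ with hd
    have hdQ : d ∈ Q := Q.mul_mem (H.normQ x hxz q H.qQ) (Q.inv_mem H.qQ)
    have hfix : ∀ a ∈ Q, a * v = v * a → x * a * x⁻¹ = a := fun a ha hav => by
      rw [hcom a (hQa a ha hav), mul_inv_cancel_right]
    have hall : ∀ c, (∀ a ∈ Q, a * v = v * a → c * a = a * c) → c * q = q * c → ∀ y ∈ Q, c * y = y * c := by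
      intro c hc hcq y hy
      rcases CfsgLib.Spor.LargeEx.q_coset H hy with e | e
      · exact hc y hy e
      · rw [show y = q * (q⁻¹ * y) by group, ← mul_assoc, hcq, mul_assoc,
          hc _ (Q.mul_mem (Q.inv_mem H.qQ) hy) e, ← mul_assoc]
    have hqa : ∀ a ∈ Q, a * v = v * a → q * a * q⁻¹ * v = v * (q * a * q⁻¹) := fun a ha hav =>
      (CfsgLib.Spor.LargeEx.comm_conjQ H H.qQ (H.cenQ a ha) hav).2
    have hqa' : ∀ a ∈ Q, a * v = v * a → q⁻¹ * a * q * v = v * (q⁻¹ * a * q) := fun a ha hav => by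
      simpa using (CfsgLib.Spor.LargeEx.comm_conjQ H (Q.inv_mem H.qQ) (H.cenQ a ha) hav).2
    have hdc : ∀ a ∈ Q, a * v = v * a → d * a = a * d := fun a ha hav => by
      have ha' : q⁻¹ * a * q ∈ Q := Q.mul_mem (Q.mul_mem (Q.inv_mem H.qQ) ha) H.qQ
      refine mul_inv_eq_iff_eq_mul.1 ?_
      have i1 : x⁻¹ * (q⁻¹ * a * q) * x = q⁻¹ * a * q := by
        conv_lhs => rw [← hfix _ ha' (hqa' a ha hav)]
        group
      calc d * a * d⁻¹ = x * (q * (x⁻¹ * (q⁻¹ * a * q) * x) * q⁻¹) * x⁻¹ := by rw [hd]; group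
        _ = x * a * x⁻¹ := by rw [i1]; group
        _ = a := hfix a ha hav
    have hdv' : d = 1 ∨ d = z ∨ d = v ∨ d = z * v := by
      rcases H.commQ q H.qQ d hdQ with e | e
      · rcases H.centQ d (hall d hdc (mul_inv_eq_iff_eq_mul.1 e).symm) with h | h
        exacts [Or.inl h, Or.inr (Or.inl h)]
      · have hc' : ∀ a ∈ Q, a * v = v * a → d * v * a = a * (d * v) := fun a ha hav => by
          rw [mul_assoc, ← hav, ← mul_assoc, hdc a ha hav, mul_assoc]
        have hq' : q * (d * v) * q⁻¹ = d * v := by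
          calc q * (d * v) * q⁻¹ = (q * d * q⁻¹) * (q * v * q⁻¹) := by group
            _ = z * (d * z) * v := by rw [e, H.qv]; group
            _ = (z * z) * (d * v) := by rw [H.cenQ d hdQ]; group
            _ = d * v := by rw [H.zz, one_mul]
        rcases H.centQ _ (hall _ hc' (mul_inv_eq_iff_eq_mul.1 hq').symm) with h | h
        · right; right; left
          rw [eq_inv_of_mul_eq_one_left h, inv_eq_of_mul_eq_one_right H.vv]
        · right; right; right
          rw [← h, mul_assoc, H.vv, mul_one]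
    have hxq : x * q * x⁻¹ = d * q := by rw [hd]; group
    have hqq : x * (q * q) * x⁻¹ = q * q := by
      rcases H.sqQ q H.qQ with h | h <;> rw [h]
      · group
      · rw [hxz, mul_inv_cancel_right]
    have hkey : d * q * (d * q) = q * q := by
      rw [← hxq, show x * q * x⁻¹ * (x * q * x⁻¹) = x * (q * q) * x⁻¹ by group, hqq]
    have hdd : d * (q * d * q⁻¹) = 1 := by
      have h2 : d * (q * d * q⁻¹) * (q * q) = 1 * (q * q) := by
        rw [one_mul]
        calc d * (q * d * q⁻¹) * (q * q) = d * q * (d * q) := by group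
          _ = q * q := hkey
      exact mul_right_cancel h2
    have hz' : q * z * q⁻¹ = z := H.qz
    rcases hdv' with e | e | e | e
    · rcases H.centQ x (hall x (fun a ha hav => mul_inv_eq_iff_eq_mul.1 (hfix a ha hav))
        (by rw [← mul_inv_eq_iff_eq_mul, hxq, e, one_mul])) with h | h <;> rw [h]
      exacts [V.one_mem, hzV]
    · have hvq : v * q * v⁻¹ = z * q := by
        calc v * q * v⁻¹ = v * (q * v⁻¹ * q⁻¹) * q := by group
          _ = v * (z * v) * q := by rw [inv_eq_of_mul_eq_one_right H.vv, H.qv]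
          _ = z * (v * v) * q := by rw [← mul_assoc v, ← H.comm]; group
          _ = z * q := by rw [H.vv, mul_one]
      have hvz : x * v * q * (x * v)⁻¹ = q := by
        calc x * v * q * (x * v)⁻¹ = x * (v * q * v⁻¹) * x⁻¹ := by group
          _ = (x * z * x⁻¹) * (x * q * x⁻¹) := by rw [hvq]; group
          _ = z * z * q := by rw [hxz, mul_inv_cancel_right, hxq, e, mul_assoc]
          _ = q := by rw [H.zz, one_mul]
      have hc' : ∀ a ∈ Q, a * v = v * a → x * v * a = a * (x * v) := fun a ha hav => by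
        rw [mul_assoc, ← hav, ← mul_assoc, mul_inv_eq_iff_eq_mul.1 (hfix a ha hav), mul_assoc]
      rcases H.centQ _ (hall _ hc' (mul_inv_eq_iff_eq_mul.1 hvz)) with h | h
      · rw [eq_inv_of_mul_eq_one_left h]; exact V.inv_mem hvV
      · rw [eq_mul_inv_of_mul_eq h]; exact V.mul_mem hzV (V.inv_mem hvV)
    · exfalso
      rw [e, H.qv, ← mul_assoc, ← H.comm, mul_assoc, H.vv, mul_one] at hdd
      exact H.z_ne hdd
    · exfalso
      rw [e, show q * (z * v) * q⁻¹ = (q * z * q⁻¹) * (q * v * q⁻¹) by group, hz', H.qv, ← mul_assoc z z, H.zz,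
        one_mul, mul_assoc, H.vv, mul_one] at hdd
      exact H.z_ne hdd
  have hVcen : ∀ x ∈ V, ∀ r ∈ R, r * x = x * r := fun x hx r hr =>
    (((hCV r).2 ((hRmem r).1 hr).2) x hx).symm
  have hcentre : ∀ x : ↥R, x ∈ Subgroup.center ↥R ↔ (x : G) ∈ V := fun x => by
    rw [Subgroup.mem_center_iff]
    exact ⟨fun h => hcenR x x.2 fun y hy => (congrArg Subtype.val (h ⟨y, hy⟩)).symm,
      fun h y => Subtype.ext (hVcen x h y y.2)⟩
  have hVR : V ≤ R := hVE.trans hER
  have hZ1 : Subgroup.upperCentralSeries ↥R 1 = Subgroup.center ↥R := Subgroup.upperCentralSeries_one _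
  have hE2 : ∀ x : ↥R, (x : G) ∈ E → x ∈ Subgroup.upperCentralSeries ↥R 2 := fun x hx => by
    rw [Subgroup.mem_upperCentralSeries_succ_iff]
    intro y
    rw [hZ1, hcentre, commutatorElement_def]
    simp only [Subgroup.coe_mul, Subgroup.coe_inv]
    have := V.inv_mem (hXE y (hRX y.2) x hx)
    convert this using 1; group
  refine ⟨?_, fun e he => ⟨⟨e, hER he⟩, hE2 _ he, rfl⟩, ?_, hEel, fun x hx y hy => ⟨hcR x hx y hy, hsqR x hx⟩, ?_, ?_⟩
  · ext x
    constructor
    · rintro ⟨y, hy, rfl⟩; exact (hcentre y).1 hy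
    · exact fun hx => ⟨⟨x, hVR hx⟩, (hcentre _).2 hx, rfl⟩
  · refine eq_top_iff.2 fun x _ => ?_
    rw [Subgroup.mem_upperCentralSeries_succ_iff]
    exact fun y => hE2 _ (by
      rw [commutatorElement_def]; simp only [Subgroup.coe_mul, Subgroup.coe_inv]
      exact hcR _ x.2 _ y.2)
  · rw [hE]
    ext x
    simp only [Subgroup.mem_inf, Subgroup.mem_centralizer_singleton_iff]
    exact ⟨fun h => ⟨h.2.1, h.1.1⟩, fun h => ⟨⟨h.2, H.cenQ x h.1⟩, h.1, H.cenP x h.2⟩⟩
  · rw [Subgroup.commutator_le]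
    intro x hx e he
    rw [commutatorElement_def]; exact hXE x hx e he

end Cfsg.Agent.S5431
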