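import Cfsg.Statements.S5433


set_option autoImplicit false
open Cfsg

namespace Cfsg.Agent.S5433

/-- Let Q be a large extraspecial 2-subgroup of the finite group G (extraspecial; centralizer equal to its centre; normal in the centralizer of its centre; normalizing no non-trivial subgroup of odd order), and L a normal subgroup of G containing Q. Then G is the product of L and the normalizer of Q. -/
theorem result {G : Type*} [Group G] [Finite G] (Q : Subgroup G) (hQ : Cfsg.IsLargeExtraspecial Q) (L : Subgroup G) [L.Normal] (hQL : Q ≤ L) : L ⊔ Subgroup.normalizer (Q : Set G) = ⊤ := by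
  haveI := Fact.mk Nat.prime_two
  obtain ⟨⟨⟨hQ2, -, -⟩, hZ⟩, hC, hCN, -⟩ := hQ
  obtain ⟨S, hS⟩ := (hQ2.comap_of_injective L.subtype Subtype.val_injective).exists_le_sylow
  set Z : Subgroup G := (Subgroup.center Q).map Q.subtype with hZdef
  have hZcard : Nat.card Z = 2 := by
    rw [← hZ]
    exact (Nat.card_congr ((Subgroup.center Q).equivMapOfInjective Q.subtype Subtype.val_injective).toEquiv).symm
  set ZS : Subgroup G := ((Subgroup.center S).map (S : Subgroup L).subtype).map L.subtype with hZSdef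
  have hle : ZS ≤ Z := by
    rintro _ ⟨y, ⟨w, hw, rfl⟩, rfl⟩
    rw [← hC]
    refine Subgroup.mem_centralizer_iff.2 fun q hq => ?_
    exact congrArg (fun v : S => (v.1.1 : G)) (Subgroup.mem_center_iff.1 hw ⟨⟨q, hQL hq⟩, hS hq⟩)
  have hnt : Nontrivial S := by
    haveI : Nontrivial (Subgroup.center Q) := Finite.one_lt_card_iff_nontrivial.1 (by omega)
    obtain ⟨w, hw⟩ := exists_ne (1 : Subgroup.center Q)
    exact ⟨⟨⟨w.1.1, hQL w.1.2⟩, hS w.1.2⟩, 1, fun h =>
      hw (Subtype.ext (Subtype.ext (congrArg (fun v : S => (v.1.1 : G)) h)))⟩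
  haveI := S.isPGroup'.center_nontrivial
  have heq : ZS = Z := by
    refine Subgroup.eq_of_le_of_card_ge hle ?_
    rw [hZcard, hZSdef, Subgroup.card_map_of_injective Subtype.val_injective,
      Subgroup.card_map_of_injective Subtype.val_injective]
    exact Finite.one_lt_card_iff_nontrivial.2 inferInstance
  refine eq_top_iff.2 ((Sylow.normalizer_sup_eq_top S).ge.trans (sup_le ?_ le_sup_left))
  refine le_sup_of_le_right fun g hg => hCN ?_
  rw [Subgroup.mem_centralizer_iff]
  have hconj : ∀ y ∈ ZS, g * y * g⁻¹ ∈ ZS := by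
    rintro _ ⟨y, ⟨w, hw, rfl⟩, rfl⟩
    have hm : ∀ a : L, a ∈ S → g * a.1 * g⁻¹ ∈ (S : Subgroup L).map L.subtype := fun a ha =>
      (Subgroup.mem_normalizer_iff.1 hg a.1).1 ⟨a, ha, rfl⟩
    obtain ⟨y', hy', e'⟩ := hm w.1 w.2
    refine ⟨y', ⟨⟨y', hy'⟩, Subgroup.mem_center_iff.2 fun v => ?_, rfl⟩, e'⟩
    obtain ⟨v', hv', ev⟩ := (Subgroup.mem_normalizer_iff.1 hg (g⁻¹ * v.1.1 * g)).2
      ⟨v.1, v.2, by simp [mul_assoc]⟩
    have hcomm := congrArg (fun x : S => (x.1.1 : G)) (Subgroup.mem_center_iff.1 hw ⟨v', hv'⟩)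
    refine Subtype.ext (Subtype.ext ?_)
    show v.1.1 * y'.1 = y'.1 * v.1.1
    have e1 : (y'.1 : G) = g * w.1.1 * g⁻¹ := e'
    have e2 : (v.1.1 : G) = g * v'.1 * g⁻¹ := by rw [show (v'.1 : G) = _ from ev]; group
    have h3 : v'.1 * w.1.1 = w.1.1 * v'.1 := hcomm
    rw [e1, e2, show g * v'.1 * g⁻¹ * (g * w.1.1 * g⁻¹) = g * (v'.1 * w.1.1) * g⁻¹ by group, h3]
    group
  intro y hy
  rw [← heq] at hy
  obtain ⟨a, b, hab, hall⟩ := Nat.card_eq_two_iff.1 hZcard
  have m : ∀ v : Z, v = a ∨ v = b := fun v => by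
    have h := Set.mem_univ v
    rw [← hall] at h
    simpa using h
  have h1 : g * y * g⁻¹ = y := by
    by_cases hy1 : y = 1
    · subst hy1; group
    have hg1 : g * y * g⁻¹ ≠ 1 := fun h => hy1 (conj_eq_one_iff.1 h)
    let u : Z := ⟨y, hle hy⟩
    let v : Z := ⟨g * y * g⁻¹, hle (hconj y hy)⟩
    have n1 : u ≠ 1 := fun h => hy1 (congrArg Subtype.val h)
    have n2 : v ≠ 1 := fun h => hg1 (congrArg Subtype.val h)
    have : u = v := by
      rcases m u with h | h <;> rcases m v with h' | h' <;> rcases m 1 with h'' | h'' <;>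
        first | exact h.trans h'.symm | exact absurd (h.trans h''.symm) n1 | exact absurd (h'.trans h''.symm) n2
    exact (congrArg Subtype.val this).symm
  calc y * g = g * y * g⁻¹ * g := by rw [h1]
    _ = g * y := by group

end Cfsg.Agent.S5433
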