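import Cfsg.Statements.S5434
import Cfsg.Agent.Lib.CoreExtraspecialRank
import Cfsg.Agent.Lib.CorePGroup
import Cfsg.Agent.Lib.CoreCoprime

set_option autoImplicit false
open Cfsg

namespace Cfsg.Agent.S5434
open scoped commutatorElement

theorem isExtraspecial_sub {G : Type*} [Group G] [Finite G] {Q H : Subgroup G} (hQ : Cfsg.IsExtraspecial 2 Q)
    (hHQ : H ≤ Q) (hcen : ∀ h ∈ H, (∀ k ∈ H, k * h = h * k) → h ∈ (Subgroup.center Q).map Q.subtype)
    (hna : ∃ a ∈ H, ∃ b ∈ H, a * b ≠ b * a) : Cfsg.IsExtraspecial 2 H := by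
  have := Fact.mk Nat.prime_two
  obtain ⟨z, n, hz⟩ := CfsgLib.Extraspecial.exists_ex hQ
  have hz2 : orderOf (z : G) = 2 := by
    rw [Subgroup.orderOf_coe]; exact orderOf_eq_prime hz.zp hz.zne
  have hcz : ∀ x ∈ (Subgroup.center Q).map Q.subtype, x = 1 ∨ x = (z : G) := by
    rintro _ ⟨y, hy, rfl⟩
    rw [hz.center_eq] at hy
    obtain ⟨k, rfl⟩ := Subgroup.mem_zpowers_iff.1 hy
    rcases Int.even_or_odd' k with ⟨j, rfl | rfl⟩
    · left; rw [zpow_mul, show z ^ (2 : ℤ) = 1 from (zpow_natCast z 2).trans hz.zp, one_zpow, map_one]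
    · right; rw [zpow_add, zpow_mul, show z ^ (2 : ℤ) = 1 from (zpow_natCast z 2).trans hz.zp, one_zpow, one_mul, zpow_one]; rfl
  have hcomm : ∀ a ∈ H, ∀ b ∈ H, ⁅a, b⁆ = 1 ∨ ⁅a, b⁆ = (z : G) := fun a ha b hb =>
    hcz _ ⟨⁅⟨a, hHQ ha⟩, ⟨b, hHQ hb⟩⁆, hz.center_eq ▸ hz.comm _ _, rfl⟩
  obtain ⟨a, ha, b, hb, hab⟩ := hna
  have hab' : ⁅a, b⁆ = (z : G) := (hcomm a ha b hb).resolve_left
    fun e => hab (commutatorElement_eq_one_iff_mul_comm.1 e)
  have hzH : (z : G) ∈ H := by
    rw [← hab', commutatorElement_def]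
    exact H.mul_mem (H.mul_mem (H.mul_mem ha hb) (H.inv_mem ha)) (H.inv_mem hb)
  have hzc : ∀ g ∈ H, g * (z : G) = z * g := fun g hg =>
    (congrArg Subtype.val (hz.central ⟨g, hHQ hg⟩).eq).symm
  have hle : commutator H ≤ Subgroup.center H := by
    rw [commutator_def, Subgroup.commutator_le]
    intro x _ y _
    rw [Subgroup.mem_center_iff]
    intro g
    refine Subtype.ext ?_
    show (g : G) * ⁅(x : G), (y : G)⁆ = ⁅(x : G), (y : G)⁆ * g
    rcases hcomm x x.2 y y.2 with e | e <;> rw [e]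
    · simp
    · exact hzc g g.2
  have hcenz : ∀ x ∈ Subgroup.center H, x = 1 ∨ x = ⟨(z : G), hzH⟩ := fun x hx => by
    rcases hcz _ (hcen x x.2 fun k hk => congrArg Subtype.val (Subgroup.mem_center_iff.1 hx ⟨k, hk⟩)) with e | e
    · exact Or.inl (Subtype.ext e)
    · exact Or.inr (Subtype.ext e)
  have hzcen : (⟨(z : G), hzH⟩ : H) ∈ Subgroup.center H :=
    Subgroup.mem_center_iff.2 fun g => Subtype.ext (hzc g g.2)
  have hge : Subgroup.center H ≤ commutator H := by
    intro x hx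
    rcases hcenz x hx with rfl | rfl
    · exact one_mem _
    · rw [show (⟨(z : G), hzH⟩ : H) = ⁅(⟨a, ha⟩ : H), ⟨b, hb⟩⁆ from Subtype.ext hab'.symm, commutator_def]
      exact Subgroup.commutator_mem_commutator (Subgroup.mem_top _) (Subgroup.mem_top _)
  have hp : IsPGroup 2 H := hQ.1.1.of_injective (Subgroup.inclusion hHQ) (Subgroup.inclusion_injective _)
  have hfr : frattini H = commutator H :=
    le_antisymm (CfsgLib.Core.frattini_le_of_elementary le_rfl fun x => by
      rw [le_antisymm hle hge, Subgroup.mem_center_iff]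
      intro g
      have h2 : (⟨(x : G), hHQ x.2⟩ : Q) ^ 2 ∈ Subgroup.center Q := hz.center_eq ▸ hz.pow_mem _
      exact Subtype.ext (congrArg Subtype.val (Subgroup.mem_center_iff.1 h2 ⟨(g : G), hHQ g.2⟩) :
        (g : G) * ((x : G) ^ 2) = (x : G) ^ 2 * g))
      (CfsgLib.Core.pgroup_commutator_le_frattini hp)
  refine ⟨⟨hp, hfr.trans (le_antisymm hle hge), le_antisymm hle hge⟩, ?_⟩
  have hz1 : (⟨(z : G), hzH⟩ : H) ≠ 1 := fun e => by
    have e' : (z : G) = 1 := congrArg Subtype.val e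
    rw [e', orderOf_one] at hz2; exact absurd hz2 (by norm_num)
  rw [Nat.card_eq_two_iff' (⟨1, one_mem _⟩ : Subgroup.center H)]
  refine ⟨⟨_, hzcen⟩, fun e => hz1 (congrArg Subtype.val e), fun y hy => ?_⟩
  rcases hcenz y.1 y.2 with e | e
  · exact absurd (Subtype.ext e) hy
  · exact Subtype.ext e

/-- Let Q be a large extraspecial 2-subgroup of the finite group G (extraspecial; centralizer equal to its centre; normal in the centralizer of its centre; normalizing no non-trivial subgroup of odd order), and A a non-trivial subgroup of odd order of the normalizer of Q. Then Q is the central product of the centralizer of A in Q and the commutator subgroup [Q, A] (they generate Q and commute elementwise), [Q, A] is extraspecial, and the centralizer of A in Q is either the centre of Q or extraspecial. -/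
theorem result {G : Type*} [Group G] [Finite G] (Q : Subgroup G) (hQ : Cfsg.IsLargeExtraspecial Q) (A : Subgroup G) (hA : A ≤ Subgroup.normalizer (Q : Set G)) (hAodd : Odd (Nat.card ↥A)) (hA1 : A ≠ ⊥) : (Q ⊓ Subgroup.centralizer (A : Set G)) ⊔ ⁅Q, A⁆ = Q ∧ (∀ x ∈ Q ⊓ Subgroup.centralizer (A : Set G), ∀ y ∈ ⁅Q, A⁆, x * y = y * x) ∧ Cfsg.IsExtraspecial 2 ↥⁅Q, A⁆ ∧ (Q ⊓ Subgroup.centralizer (A : Set G) = ((Subgroup.center ↥Q).map Q.subtype) ∨ Cfsg.IsExtraspecial 2 ↥(Q ⊓ Subgroup.centralizer (A : Set G))) := by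
  obtain ⟨hE, hC, hCN, -⟩ := hQ
  set Z := (Subgroup.center Q).map Q.subtype
  set D := Q ⊓ Subgroup.centralizer (A : Set G)
  set E := ⁅Q, A⁆
  have hZQ : Z ≤ Q := Subgroup.map_subtype_le _
  have hcard2 : Nat.card Z = 2 := (Subgroup.card_map_of_injective Q.subtype_injective).trans hE.2
  have hcop : (Nat.card A).Coprime (Nat.card Q) := by
    have := Fact.mk Nat.prime_two
    obtain ⟨k, hk⟩ := IsPGroup.iff_card.1 hE.1.1
    rw [hk]
    exact Nat.Coprime.pow_right k (Nat.coprime_two_right.2 hAodd)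
  have hsol : Group.IsSolvable Q := by
    have := Fact.mk Nat.prime_two
    haveI := hE.1.1.isNilpotent
    infer_instance
  have hEQ : E ≤ Q := CfsgLib.Core.commutator_le_of_le_normalizer hA
  have hsup : E ⊔ D = Q := CfsgLib.Core.commutator_sup_centralizer hA hcop (Or.inr hsol)
  have hAZ : ∀ a ∈ A, ∀ y ∈ Z, a * y = y * a := by
    intro a ha y hy
    rcases eq_or_ne y 1 with rfl | hy1
    · simp
    have hconj : a * y * a⁻¹ ∈ Z := by
      obtain ⟨w, hw, rfl⟩ := hy
      refine ⟨⟨a * w * a⁻¹, ((Subgroup.mem_normalizer_iff.1 (hA ha) w).1 w.2)⟩,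
        Subgroup.mem_center_iff.2 fun q => Subtype.ext ?_, rfl⟩
      have hq : a⁻¹ * q * a ∈ Q := (Subgroup.mem_normalizer_iff''.1 (hA ha) q).1 q.2
      have := congrArg Subtype.val (Subgroup.mem_center_iff.1 hw ⟨_, hq⟩)
      show (q : G) * (a * w * a⁻¹) = a * w * a⁻¹ * q
      calc (q : G) * (a * w * a⁻¹) = a * ((a⁻¹ * q * a) * w) * a⁻¹ := by group
        _ = a * ((w : G) * (a⁻¹ * q * a)) * a⁻¹ := by rw [show (a⁻¹ * q * a) * (w : G) = w * (a⁻¹ * q * a) from this]
        _ = _ := by group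
    obtain ⟨u, -, hu⟩ := (Nat.card_eq_two_iff' (1 : Z)).1 hcard2
    have h1 : (⟨y, hy⟩ : Z) = u := hu _ fun e => hy1 (congrArg Subtype.val e)
    have h2 : (⟨_, hconj⟩ : Z) = u := hu _ fun e => hy1 (conj_eq_one_iff.1 (congrArg Subtype.val e))
    exact mul_inv_eq_iff_eq_mul.1 (congrArg Subtype.val (h2.trans h1.symm))
  have hqq : ∀ x ∈ Q, ∀ y ∈ Q, ⁅x, y⁆ ∈ Z := fun x hx y hy =>
    ⟨⁅(⟨x, hx⟩ : Q), ⟨y, hy⟩⁆, by rw [← hE.1.2.2, commutator_def]; exact Subgroup.commutator_mem_commutator (Subgroup.mem_top _) (Subgroup.mem_top _), rfl⟩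
  have hDE : ∀ x ∈ D, ∀ y ∈ E, x * y = y * x := by
    have h1 : ⁅⁅A, D⁆, Q⁆ = ⊥ := by
      rw [Subgroup.commutator_eq_bot_iff_le_centralizer.2 (fun a ha => Subgroup.mem_centralizer_iff.2 fun d (hd : d ∈ D) =>
        (Subgroup.mem_centralizer_iff.1 hd.2 a ha).symm), Subgroup.commutator_bot_left]
    have h2 : ⁅⁅D, Q⁆, A⁆ = ⊥ := by
      rw [Subgroup.commutator_eq_bot_iff_le_centralizer, Subgroup.commutator_le]
      intro d hd q hq
      exact Subgroup.mem_centralizer_iff.2 fun a ha => hAZ a ha _ (hqq d hd.1 q hq)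
    have h3 : ⁅⁅Q, A⁆, D⁆ = ⊥ := by
      first
        | exact Subgroup.commutator_commutator_eq_bot_of_rotate h1 h2
        | exact Subgroup.commutator_commutator_eq_bot_of_rotate h2 h1
    intro x hx y hy
    exact Subgroup.mem_centralizer_iff.1 (Subgroup.commutator_eq_bot_iff_le_centralizer.1 h3 hy) x hx
  have hcentral : ∀ x ∈ Q, (∀ d ∈ D, d * x = x * d) → (∀ e ∈ E, e * x = x * e) → x ∈ Z := by
    intro x hx h1 h2
    refine ⟨⟨x, hx⟩, Subgroup.mem_center_iff.2 fun q => Subtype.ext ?_, rfl⟩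
    have : E ⊔ D ≤ Subgroup.centralizer ({x} : Set G) :=
      sup_le (fun e he => Subgroup.mem_centralizer_singleton_iff.2 (h2 e he))
        (fun d hd => Subgroup.mem_centralizer_singleton_iff.2 (h1 d hd))
    rw [hsup] at this
    exact Subgroup.mem_centralizer_singleton_iff.1 (this q.2)
  have hE1 : E ≠ ⊥ := by
    intro h
    have hAC := CfsgLib.Core.centralizes_of_commutator_eq_bot h
    rw [hC] at hAC
    have hd := Subgroup.card_dvd_of_le hAC
    rw [hcard2] at hd
    rcases (Nat.dvd_prime Nat.prime_two).1 hd with e | e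
    · exact hA1 (Subgroup.card_eq_one.1 e)
    · rw [e] at hAodd; exact absurd hAodd (by decide)
  have hEne : ¬ E ≤ Z := fun h => hE1 (by
    have e := CfsgLib.Core.commutator_commutator_eq hA hcop (Or.inr hsol)
    rw [show E = ⁅⁅Q, A⁆, A⁆ from e.symm, Subgroup.commutator_eq_bot_iff_le_centralizer]
    exact fun y hy => Subgroup.mem_centralizer_iff.2 fun a ha => hAZ a ha y (h hy))
  refine ⟨sup_comm D E ▸ hsup, hDE, isExtraspecial_sub hE hEQ
    (fun x hx h => hcentral x (hEQ hx) (fun d hd => hDE d hd x hx) h) ?_, ?_⟩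
  · by_contra! h
    exact hEne fun x hx => hcentral x (hEQ hx) (fun d hd => hDE d hd x hx) (fun e he => h e he x hx)
  · rcases eq_or_ne D Z with h | h
    · exact Or.inl h
    refine Or.inr (isExtraspecial_sub hE inf_le_left
      (fun x hx hk => hcentral x hx.1 hk fun e he => (hDE x hx e he).symm) ?_)
    by_contra! hc
    refine h (le_antisymm (fun x hx => hcentral x hx.1 (fun d hd => hc d hd x hx) fun e he => (hDE x hx e he).symm) ?_)
    exact fun y hy => ⟨hZQ hy, Subgroup.mem_centralizer_iff.2 fun a ha => hAZ a ha y hy⟩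

end Cfsg.Agent.S5434
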