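import Cfsg.Statements.S5436
import Cfsg.Agent.Lib.SporLargeSimple

set_option autoImplicit false
open Cfsg

namespace Cfsg.Agent.S5436
open CfsgLib.Spor

/-- Let z be an involution of the finite group G with centralizer H whose generalized Fitting subgroup Q is extraspecial of width at least 2 (order 2^(2w+1), w ≥ 2); suppose some conjugate of z other than z lies in Q, H/Q is a non-abelian simple group, H acts irreducibly by conjugation on Q modulo the subgroup generated by z (the only H-invariant subgroups of Q containing z are that subgroup and Q), and Q is not the subgroup generated by the conjugates of z lying in H. Then G is simple. -/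
theorem result {G : Type*} [Group G] [Finite G] (z : G) (hz : orderOf z = 2) (Q : Subgroup (Subgroup.centralizer ({z} : Set G))) [Q.Normal] (hF : Cfsg.generalizedFittingSubgroup ↥(Subgroup.centralizer ({z} : Set G)) = Q) (hQ : Cfsg.IsExtraspecial 2 ↥Q) (w : ℕ) (hw : 2 ≤ w) (hcard : Nat.card ↥Q = 2 ^ (2 * w + 1)) (hnwc : ∃ g : G, (∃ hq : g * z * g⁻¹ ∈ Subgroup.centralizer ({z} : Set G), (⟨g * z * g⁻¹, hq⟩ : Subgroup.centralizer ({z} : Set G)) ∈ Q) ∧ g * z * g⁻¹ ≠ z) (hsimp : IsSimpleGroup (↥(Subgroup.centralizer ({z} : Set G)) ⧸ Q)) (hna : ¬ IsMulCommutative (↥(Subgroup.centralizer ({z} : Set G)) ⧸ Q)) (hirr : ∀ W : Subgroup (Subgroup.centralizer ({z} : Set G)), W.Normal → W ≤ Q → (W = Q ∨ ∀ x ∈ W, (x : G) ∈ Subgroup.zpowers z)) (hwcl : Subgroup.closure {x : Subgroup.centralizer ({z} : Set G) | IsConj z (x : G)} ≠ Q) : IsSimpleGroup G := by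
  classical
  have hf : Fact (Nat.Prime 2) := ⟨Nat.prime_two⟩
  set Q' := Q.map (Subgroup.centralizer ({z} : Set G)).subtype with hQ'
  have hQ'e : IsExtraspecial 2 ↥Q' :=
    LargeSimple.extraspecial_congr (Q.equivMapOfInjective (Subgroup.centralizer ({z} : Set G)).subtype Subtype.val_injective) hQ
  have hF' : (Cfsg.generalizedFittingSubgroup ↥(Subgroup.centralizer ({z} : Set G))).map (Subgroup.centralizer ({z} : Set G)).subtype = Q' := by rw [hF]
  have B := LargeSimple.base hz Q' (Subgroup.map_subtype_le Q) hF' hQ'e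
  obtain ⟨g, ⟨hqC, hgQ⟩, hne⟩ := hnwc
  have hgQ' : g * z * g⁻¹ ∈ Q' := ⟨⟨_, hqC⟩, hgQ, rfl⟩
  have hgZ : g * z * g⁻¹ ∉ (Subgroup.center ↥Q').map Q'.subtype := by
    rintro ⟨x, hx, he⟩
    rcases B.centQ _ (fun y hy => (congrArg Subtype.val (Subgroup.mem_center_iff.1 hx ⟨y, hy⟩)).symm) with e | e
    · exact B.z_ne (conj_eq_one_iff.1 (he.symm.trans e))
    · exact hne (he.symm.trans e)
  obtain ⟨-, q, p, H, -⟩ := LargeSub.setting hz Q' (Subgroup.map_subtype_le Q) hF' hQ'e g hgQ' hgZ
  obtain ⟨w', hw', hwe⟩ := H.zP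
  have hsym : g⁻¹ * z * g ∈ Q' := by
    have he : g * w' * g⁻¹ = z := hwe
    rwa [show g⁻¹ * z * g = w' by rw [← he]; group]
  refine LargeSimple.simple B hgQ' H.vv H.v_ne hne
    (fun K hK hKz k hk hkv => LargeSimple.fixed_of_conj B hgQ' hsym K hK hKz k hk hkv) fun N hN hzN => ?_
  have hW : (N.subgroupOf (Subgroup.centralizer ({z} : Set G))).Normal := hN.subgroupOf (Subgroup.centralizer ({z} : Set G))
  have hgN : g * z * g⁻¹ ∈ N := hN.conj_mem z hzN g
  have hQN : Q ≤ N.subgroupOf (Subgroup.centralizer ({z} : Set G)) := by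
    rcases hirr (N.subgroupOf (Subgroup.centralizer ({z} : Set G)) ⊓ Q) inferInstance inf_le_right with e | e
    · exact inf_eq_right.1 e
    · exfalso
      obtain ⟨k, hk⟩ := Subgroup.mem_zpowers_iff.1 (e ⟨_, hqC⟩ ⟨hgN, hgQ⟩)
      rcases Int.even_or_odd' k with ⟨m, rfl | rfl⟩
      · rw [zpow_mul, zpow_two, B.zz, one_zpow] at hk
        exact B.z_ne (conj_eq_one_iff.1 hk.symm)
      · rw [zpow_add, zpow_mul, zpow_two, B.zz, one_zpow, one_mul, zpow_one] at hk
        exact hne hk.symm
  have himg : ((N.subgroupOf (Subgroup.centralizer ({z} : Set G))).map (QuotientGroup.mk' Q)).Normal := hW.map _ (QuotientGroup.mk'_surjective Q)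
  rcases hsimp.eq_bot_or_eq_top_of_normal _ himg with e | e
  · exfalso
    rw [Subgroup.map_eq_bot_iff, QuotientGroup.ker_mk'] at e
    have hcl : Subgroup.closure {x : ↥(Subgroup.centralizer ({z} : Set G)) | IsConj z (x : G)} ≤ Q := by
      refine (Subgroup.closure_le _).2 fun x hx => e ?_
      obtain ⟨c, hc⟩ := isConj_iff.1 hx
      show (x : G) ∈ N
      rw [← hc]; exact hN.conj_mem z hzN c
    set W := Subgroup.closure {x : ↥(Subgroup.centralizer ({z} : Set G)) | IsConj z (x : G)} with hWdef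
    have hWn : W.Normal := by
      refine Subgroup.normalizer_eq_top_iff.1 (eq_top_iff.2 fun c _ => ?_)
      have hone : ∀ c : ↥(Subgroup.centralizer ({z} : Set G)), ∀ y ∈ W, c * y * c⁻¹ ∈ W := by
        intro c y hy
        induction hy using Subgroup.closure_induction with
        | mem y hy =>
          refine Subgroup.subset_closure (hy.trans (isConj_iff.2 ⟨(c : G), ?_⟩))
          simp
        | one => simp
        | mul a b _ _ iha ihb =>
          have := W.mul_mem iha ihb
          convert this using 1; group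
        | inv a _ iha =>
          have := W.inv_mem iha
          convert this using 1; group
      refine Subgroup.mem_normalizer_iff.2 fun y => ⟨hone c y, fun h => ?_⟩
      have := hone c⁻¹ _ h
      convert this using 1; group
    rcases hirr W hWn hcl with e' | e'
    · exact hwcl e'
    · obtain ⟨k, hk⟩ := Subgroup.mem_zpowers_iff.1 (e' ⟨_, hqC⟩ (Subgroup.subset_closure (isConj_iff.2 ⟨g, rfl⟩)))
      rcases Int.even_or_odd' k with ⟨m, rfl | rfl⟩
      · rw [zpow_mul, zpow_two, B.zz, one_zpow] at hk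
        exact B.z_ne (conj_eq_one_iff.1 hk.symm)
      · rw [zpow_add, zpow_mul, zpow_two, B.zz, one_zpow, one_mul, zpow_one] at hk
        exact hne hk.symm
  · intro c hc
    have hmem : QuotientGroup.mk' Q ⟨c, hc⟩ ∈ (N.subgroupOf (Subgroup.centralizer ({z} : Set G))).map (QuotientGroup.mk' Q) := by
      rw [e]; exact Subgroup.mem_top _
    obtain ⟨y, hy, hye⟩ := hmem
    have h1 : y⁻¹ * (⟨c, hc⟩ : ↥(Subgroup.centralizer ({z} : Set G))) ∈ N.subgroupOf (Subgroup.centralizer ({z} : Set G)) := hQN (QuotientGroup.eq.1 hye)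
    have h2 := (N.subgroupOf (Subgroup.centralizer ({z} : Set G))).mul_mem hy h1
    rwa [mul_inv_cancel_left] at h2

end Cfsg.Agent.S5436
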