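import Cfsg.Statements.S5437


set_option autoImplicit false
open Cfsg

namespace Cfsg.Agent.S5437

/-- Let I be a set of involutions of the finite group G closed under conjugation, and H a subgroup of G. The following are equivalent: (1) for every member x of I lying in H, the conjugates of x lying in H form a single H-class and the centralizer of x lies in H; (2) for every g outside H, no member of I lies in both H and g H g⁻¹; (3) every member of I lying in H fixes exactly one coset in the action of G on the cosets of H. -/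
theorem result {G : Type*} [Group G] [Finite G] (I : Set G) (hI : ∀ x ∈ I, orderOf x = 2) (hIc : ∀ g : G, ∀ x ∈ I, g * x * g⁻¹ ∈ I) (H : Subgroup G) : ((∀ x ∈ I, x ∈ H → (∀ g : G, g * x * g⁻¹ ∈ H → ∃ h ∈ H, h * x * h⁻¹ = g * x * g⁻¹) ∧ Subgroup.centralizer ({x} : Set G) ≤ H) ↔ (∀ g : G, g ∉ H → ∀ x ∈ I, ¬ (x ∈ H ∧ x ∈ (H : Subgroup G).map (MulAut.conj g).toMonoidHom))) ∧ ((∀ g : G, g ∉ H → ∀ x ∈ I, ¬ (x ∈ H ∧ x ∈ (H : Subgroup G).map (MulAut.conj g).toMonoidHom)) ↔ ∀ x ∈ I, x ∈ H → ∃! c : G ⧸ H, x • c = c) := by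
  have key : ∀ (g x : G), x ∈ (H : Subgroup G).map (MulAut.conj g).toMonoidHom ↔ g⁻¹ * x * g ∈ H := by
    intro g x
    rw [Subgroup.mem_map_equiv, MulAut.conj_symm_apply]
  simp only [key]
  refine ⟨⟨fun h g hg x hx ⟨hxH, hc⟩ => hg ?_, fun h x hx hxH => ⟨fun g hgx => ?_, fun c hc => ?_⟩⟩, ?_⟩
  · obtain ⟨hf, hcen⟩ := h x hx hxH
    obtain ⟨a, ha, e⟩ := hf g⁻¹ (by rwa [inv_inv])
    have : g * a ∈ H := hcen (Subgroup.mem_centralizer_singleton_iff.2 (by
      calc g * a * x = g * (a * x * a⁻¹) * a := by group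
        _ = g * (g⁻¹ * x * g⁻¹⁻¹) * a := by rw [e]
        _ = x * (g * a) := by group))
    simpa using mul_mem this (inv_mem ha)
  · by_contra hno
    refine h g⁻¹ (fun hg => hno ⟨g, by simpa using hg, rfl⟩) x hx ⟨hxH, by rwa [inv_inv]⟩
  · by_contra hcH
    refine h c hcH x hx ⟨hxH, ?_⟩
    rw [show c⁻¹ * x * c = c⁻¹ * (x * c) by group, ← Subgroup.mem_centralizer_singleton_iff.1 hc, inv_mul_cancel_left]
    exact hxH
  have fix : ∀ (g x : G), x • (g : G ⧸ H) = g ↔ g⁻¹ * x * g ∈ H := by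
    intro g x
    rw [MulAction.Quotient.smul_mk, QuotientGroup.eq, ← inv_mem_iff]
    simp [mul_assoc]
  constructor
  · intro h x hx hxH
    refine ⟨((1 : G) : G ⧸ H), (fix 1 x).2 (by simpa using hxH), fun c hc => ?_⟩
    induction c using QuotientGroup.induction_on with
    | _ g =>
      have := (fix g x).1 hc
      by_contra hne
      refine h g (fun hg => hne (QuotientGroup.eq.2 (by simpa using hg))) x hx ⟨hxH, this⟩
  · rintro h g hg x hx ⟨hxH, hc⟩
    obtain ⟨c, -, hu⟩ := h x hx hxH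
    have e1 := hu _ ((fix 1 x).2 (by simpa using hxH))
    have e2 := hu _ ((fix g x).2 hc)
    exact hg (by simpa using QuotientGroup.eq.1 (e1.trans e2.symm))

end Cfsg.Agent.S5437
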