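import Cfsg.Statements.S5438


set_option autoImplicit false
open Cfsg

namespace Cfsg.Agent.S5438

/-- Let z be a 2-central involution of the finite group G (an involution central in some Sylow 2-subgroup) and H a subgroup containing z such that the coset H is the only coset of H fixed by z (in the action of G on the cosets of H). Then H has odd index in G, and for every 2-element x of H the conjugates of x lying in H form a single H-class. -/
theorem result {G : Type*} [Group G] [Finite G] (z : G) (hz : Cfsg.IsTwoCentralInvolution z) (H : Subgroup G) (hzH : z ∈ H) (hfix : ∀ g : G, g⁻¹ * z * g ∈ H → g ∈ H) : Odd H.index ∧ ∀ x ∈ H, (∃ k : ℕ, orderOf x = 2 ^ k) → ∀ g : G, g * x * g⁻¹ ∈ H → ∃ h ∈ H, h * x * h⁻¹ = g * x * g⁻¹ := by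
  haveI := Fact.mk Nat.prime_two
  obtain ⟨hz2, P, hzP, hP⟩ := hz
  have hC : ∀ g : G, g * z = z * g → g ∈ H := fun g hg => hfix g (by rwa [mul_assoc, ← hg, inv_mul_cancel_left])
  have hPH : (P : Subgroup G) ≤ H := fun x hx => hC x (hP x hx)
  have uniq : ∀ a b : G, Commute (a * z * a⁻¹) (b * z * b⁻¹) → a⁻¹ * b ∈ H := by
    intro a b h
    have hd : (a⁻¹ * b)⁻¹⁻¹ * z * (a⁻¹ * b)⁻¹ ∈ H := hC _ (by
      have := h.eq
      calc (a⁻¹ * b)⁻¹⁻¹ * z * (a⁻¹ * b)⁻¹ * z = a⁻¹ * (b * z * b⁻¹ * (a * z * a⁻¹)) * a := by group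
        _ = a⁻¹ * (a * z * a⁻¹ * (b * z * b⁻¹)) * a := by rw [this]
        _ = z * ((a⁻¹ * b)⁻¹⁻¹ * z * (a⁻¹ * b)⁻¹) := by group)
    simpa using inv_mem (hfix _ hd)
  refine ⟨?_, fun x hx ⟨k, hk⟩ g hgx => ?_⟩
  · rw [← Nat.not_even_iff_odd, even_iff_two_dvd]
    exact fun h => P.not_dvd_index (h.trans (Subgroup.index_dvd_of_le hPH))
  have hcz : ∀ w : G, w ∈ H → (∃ j : ℕ, orderOf w = 2 ^ j) → ∃ a ∈ H, Commute w (a * z * a⁻¹) := by
    intro w hw ⟨j, hj⟩
    have hp : IsPGroup 2 (Subgroup.zpowers (⟨w, hw⟩ : H)) :=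
      IsPGroup.of_card (n := j) (by rw [Nat.card_zpowers, ← hj, ← Subgroup.orderOf_coe])
    obtain ⟨R, hR⟩ := hp.exists_le_sylow
    obtain ⟨a, ha⟩ := MulAction.exists_smul_eq H (P.subtype hPH) R
    have hm : (⟨w, hw⟩ : H) ∈ R := hR (Subgroup.mem_zpowers _)
    rw [← ha] at hm
    obtain ⟨v, hv, e⟩ := hm
    refine ⟨a.1, a.2, ?_⟩
    have hc : Commute v.1 z := hP _ hv
    have e' : a.1 * v.1 * a.1⁻¹ = w := congrArg Subtype.val e
    rw [← e']
    exact (Commute.conj_iff (h := a.1)).2 hc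
  obtain ⟨a, ha, hax⟩ := hcz x hx ⟨k, hk⟩
  obtain ⟨b, hb, hby⟩ := hcz (g * x * g⁻¹) hgx ⟨k, by rw [← hk]; exact (MulAut.conj g).orderOf_eq x⟩
  set y := g * x * g⁻¹ with hy
  set C : Subgroup G := Subgroup.centralizer {y} with hCdef
  obtain ⟨T⟩ := (inferInstance : Nonempty (Sylow 2 C))
  obtain ⟨S, hS⟩ := (T.isPGroup'.map C.subtype).exists_le_sylow
  obtain ⟨s, hs⟩ := MulAction.exists_smul_eq G P S
  have hu : ∀ t ∈ (S : Subgroup G), Commute t (s * z * s⁻¹) := by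
    intro t ht
    rw [← hs] at ht
    obtain ⟨v, hv, rfl⟩ := ht
    exact (Commute.conj_iff (h := s)).2 (hP v hv)
  have reach : ∀ d : G, Commute y (d * z * d⁻¹) → ∃ c : G, Commute y c ∧ s⁻¹ * (c * d) ∈ H := by
    intro d hd
    have hm : d * z * d⁻¹ ∈ C := Subgroup.mem_centralizer_singleton_iff.2 hd.symm.eq
    have hp : IsPGroup 2 (Subgroup.zpowers (⟨_, hm⟩ : C)) :=
      IsPGroup.of_card (n := 1) (by
        rw [Nat.card_zpowers, ← Subgroup.orderOf_coe, pow_one, ← hz2]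
        exact (MulAut.conj d).orderOf_eq z)
    obtain ⟨R, hR⟩ := hp.exists_le_sylow
    obtain ⟨c, hc⟩ := MulAction.exists_smul_eq C R T
    have hT : c * (⟨_, hm⟩ : C) * c⁻¹ ∈ (T : Subgroup C) := by
      rw [← hc]
      exact ⟨_, hR (Subgroup.mem_zpowers _), rfl⟩
    refine ⟨c.1, (Subgroup.mem_centralizer_singleton_iff.1 c.2).symm, uniq s _ ?_⟩
    have := (hu _ (hS ⟨_, hT, rfl⟩)).symm
    simpa [mul_assoc] using this
  obtain ⟨c, hc, hc'⟩ := reach b hby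
  obtain ⟨c', hc2, hc2'⟩ := reach (g * a) (by
    have := (Commute.conj_iff (h := g)).2 hax
    simpa [hy, mul_assoc] using this)
  refine ⟨c⁻¹ * c' * g, ?_, ?_⟩
  · have := mul_mem (inv_mem hc') hc2'
    have := mul_mem (mul_mem hb this) (inv_mem ha)
    simpa [mul_assoc] using this
  · have h1 : Commute y (c⁻¹ * c') := hc.inv_right.mul_right hc2
    calc c⁻¹ * c' * g * x * (c⁻¹ * c' * g)⁻¹ = c⁻¹ * c' * y * (c⁻¹ * c')⁻¹ := by rw [hy]; group
      _ = y := by rw [← h1.eq]; group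

end Cfsg.Agent.S5438
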