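import Cfsg.Statements.S5439


set_option autoImplicit false
open Cfsg

namespace Cfsg.Agent.S5439

/-- Let I and J be two different conjugacy classes of involutions of the finite group G and H a subgroup such that every member of I ∪ J fixes exactly one coset in the action on the cosets of H, and such that for every a in I ∩ H and every b in (I ∪ J) ∩ H different from a and commuting with it, the centralizer of a b lies in H. Then H = G. -/
theorem result {G : Type*} [Group G] [Finite G] (I J : Set G) (a₀ b₀ : G) (ha₀ : orderOf a₀ = 2) (hb₀ : orderOf b₀ = 2) (hI : I = {x | IsConj a₀ x}) (hJ : J = {x | IsConj b₀ x}) (hIJ : I ≠ J) (H : Subgroup G) (hfix : ∀ x ∈ I ∪ J, ∃! c : G ⧸ H, x • c = c) (hcent : ∀ a ∈ I, a ∈ H → ∀ b ∈ I ∪ J, b ∈ H → a ≠ b → a * b = b * a → Subgroup.centralizer ({a * b} : Set G) ≤ H) : H = ⊤ := by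
  have a2 : ∀ x ∈ I ∪ J, orderOf x = 2 ∧ ∀ g : G, g * x * g⁻¹ ∈ I ∪ J := by
    rintro x (hx | hx)
    · rw [hI] at hx
      obtain ⟨c, rfl⟩ := isConj_iff.1 (show IsConj a₀ x from hx)
      exact ⟨((MulAut.conj c).orderOf_eq a₀).trans ha₀, fun g => Or.inl (hI ▸ IsConj.trans hx (isConj_iff.2 ⟨g, rfl⟩))⟩
    · rw [hJ] at hx
      obtain ⟨c, rfl⟩ := isConj_iff.1 (show IsConj b₀ x from hx)
      exact ⟨((MulAut.conj c).orderOf_eq b₀).trans hb₀, fun g => Or.inr (hJ ▸ IsConj.trans hx (isConj_iff.2 ⟨g, rfl⟩))⟩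
  have fix : ∀ (g x : G), x • (g : G ⧸ H) = g ↔ g⁻¹ * x * g ∈ H := by
    intro g x
    rw [MulAction.Quotient.smul_mk, QuotientGroup.eq, ← inv_mem_iff]
    simp [mul_assoc]
  have fix1 : ∀ x : G, x • ((1 : G) : G ⧸ H) = (1 : G) ↔ x ∈ H := fun x => by simpa using fix 1 x
  have share : ∀ x ∈ I ∪ J, ∀ y ∈ I ∪ J, x ∈ H → Commute x y → y ∈ H := by
    intro x hx y hy hxH hc
    obtain ⟨c, -, hu⟩ := hfix x hx
    rw [← fix1] at hxH ⊢
    have h1 := hu _ hxH
    have h2 := hu (y • ((1 : G) : G ⧸ H)) (by show x • y • _ = y • _; rw [← mul_smul, hc.eq, mul_smul, hxH])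
    exact h2.trans h1.symm
  obtain ⟨a, haI, haH⟩ : ∃ a ∈ I, a ∈ H := by
    have ha : a₀ ∈ I := hI ▸ IsConj.refl a₀
    obtain ⟨c, hc, -⟩ := hfix a₀ (Or.inl ha)
    induction c using QuotientGroup.induction_on with
    | _ g => exact ⟨g⁻¹ * a₀ * g, hI ▸ isConj_iff.2 ⟨g⁻¹, by group⟩, (fix g a₀).1 hc⟩
  have hJH : ∀ b ∈ J, b ∈ H := by
    intro b hb
    obtain ⟨oa, -⟩ := a2 a (Or.inl haI)
    obtain ⟨ob, -⟩ := a2 b (Or.inr hb)
    have sa : a * a = 1 := by rw [← pow_two, ← oa]; exact pow_orderOf_eq_one a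
    have sb : b * b = 1 := by rw [← pow_two, ← ob]; exact pow_orderOf_eq_one b
    have ia : a⁻¹ = a := inv_eq_of_mul_eq_one_left sa
    have ib : b⁻¹ = b := inv_eq_of_mul_eq_one_left sb
    set r := a * b with hr
    have har : a * r * a⁻¹ = r⁻¹ := by
      rw [hr, mul_inv_rev, ia, ib, ← mul_assoc, sa, one_mul]
    have inv_a : ∀ i : ℕ, a * r ^ i = (r ^ i)⁻¹ * a := fun i => by
      have := conj_pow (a := a) (b := r) (i := i)
      rw [har, inv_pow] at this
      rw [this]; group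
    have hbr : b = a * r := by rw [hr, ← mul_assoc, sa, one_mul]
    have key : ∀ k : ℕ, a * r ^ k ∈ I ∪ J := by
      intro k
      rcases Nat.even_or_odd k with ⟨i, hi⟩ | ⟨i, hi⟩
      · have := (a2 a (Or.inl haI)).2 (r ^ i)⁻¹
        rwa [inv_inv, ← inv_a, mul_assoc, ← pow_add, ← hi] at this
      · have := (a2 b (Or.inr hb)).2 (r ^ i)⁻¹
        rwa [inv_inv, hbr, ← mul_assoc, ← inv_a, mul_assoc, mul_assoc, ← pow_succ', ← pow_add,
          show i + (i + 1) = k by omega] at this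
    obtain ⟨m, hm⟩ : Even (orderOf r) := by
      rw [← Nat.not_odd_iff_even]
      rintro ⟨m, hm⟩
      apply hIJ
      have hab : IsConj a b := by
        refine isConj_iff.2 ⟨(r ^ (m + 1))⁻¹, ?_⟩
        rw [inv_inv, ← inv_a, mul_assoc, ← pow_add, show m + 1 + (m + 1) = (2 * m + 1) + 1 by omega, pow_succ, ← hm,
          pow_orderOf_eq_one, one_mul, ← hbr]
      rw [hI] at haI; rw [hJ] at hb
      rw [hI, hJ]
      have h12 : IsConj a₀ b₀ := (IsConj.trans haI hab).trans hb.symm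
      ext x
      exact ⟨fun h => h12.symm.trans h, fun h => h12.trans h⟩
    have hm0 : 0 < m := by have := orderOf_pos r; omega
    set w := r ^ m with hw
    have hw2 : w * w = 1 := by rw [hw, ← pow_add, ← hm]; exact pow_orderOf_eq_one r
    have hwne : w ≠ 1 := fun e => by
      have := Nat.le_of_dvd hm0 (orderOf_dvd_of_pow_eq_one e)
      omega
    have hca : a * w = w * a := by rw [hw, inv_a m, ← hw, inv_eq_of_mul_eq_one_left hw2]
    have hcom : Commute a (a * w) := by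
      show a * (a * w) = a * w * a
      rw [mul_assoc, ← hca]
    have hawH : a * w ∈ H := share a (Or.inl haI) _ (key m) haH hcom
    have hne : a ≠ a * w := fun e => hwne (mul_left_cancel (e.symm.trans (mul_one a).symm))
    have hle := hcent a haI haH _ (key m) hawH hne hcom
    apply hle
    have e : a * (a * w) = w := by rw [← mul_assoc, sa, one_mul]
    rw [e, Subgroup.mem_centralizer_singleton_iff, hbr]
    calc a * r * w = a * (w * r) := by rw [mul_assoc, hw, (Commute.pow_self r m).eq]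
      _ = w * (a * r) := by rw [← mul_assoc, hca, mul_assoc]
  refine eq_top_iff.2 fun g _ => ?_
  have hb : b₀ ∈ J := hJ ▸ IsConj.refl b₀
  obtain ⟨c, -, hu⟩ := hfix b₀ (Or.inr hb)
  have h1 := hu _ ((fix1 b₀).2 (hJH b₀ hb))
  have h2 := hu (g : G ⧸ H) ((fix g b₀).2 (hJH _ (hJ ▸ isConj_iff.2 ⟨g⁻¹, by group⟩)))
  have := QuotientGroup.eq.1 (h1.trans h2.symm)
  simpa using this

end Cfsg.Agent.S5439
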