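import Cfsg.Statements.S5459


set_option autoImplicit false
open Cfsg

namespace Cfsg.Agent.S5459

/-- Let G be a finite group with a quasisimple normal subgroup L and an involution d such that G is generated by L and d, the centre of L has odd order, and d inverts every element of the centre of L. If the commuting graph on the conjugacy class of the image of d in G modulo the centre of L is connected, then the commuting graph on the conjugacy class of d is connected. -/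
theorem result {G : Type*} [Group G] [Finite G] (L : Subgroup G) [L.Normal] (hL : Cfsg.IsQuasisimple ↥L) (d : G) (hd : orderOf d = 2) (hgen : L ⊔ Subgroup.zpowers d = ⊤) (hodd : Odd (Nat.card ↥(Subgroup.center ↥L))) (hinv : ∀ c ∈ (Subgroup.center ↥L).map L.subtype, d * c * d⁻¹ = c⁻¹) [hn : ((Subgroup.center ↥L).map L.subtype).Normal] (hconn : (Cfsg.commutingGraph (conjugatesOf (QuotientGroup.mk d : G ⧸ (Subgroup.center ↥L).map L.subtype))).Connected) : (Cfsg.commutingGraph (conjugatesOf d)).Connected := by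
  set Z := (Subgroup.center ↥L).map L.subtype with hZdef
  have hZL : ∀ c ∈ Z, ∀ l ∈ L, l * c = c * l := by
    rintro _ ⟨c, hc, rfl⟩ l hl
    exact congrArg Subtype.val (Subgroup.mem_center_iff.1 hc ⟨l, hl⟩)
  have sd : d * d = 1 := by rw [← pow_two, ← hd]; exact pow_orderOf_eq_one d
  have sq : ∀ u ∈ conjugatesOf d, u * u = 1 := fun u hu => by
    obtain ⟨g, rfl⟩ := isConj_iff.1 (show IsConj d u from hu)
    rw [← pow_two, conj_pow, pow_two, sd]; group
  have hdinv : ∀ u ∈ conjugatesOf d, ∀ c ∈ Z, u * c * u⁻¹ = c⁻¹ := by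
    intro u hu c hc
    obtain ⟨g, rfl⟩ := isConj_iff.1 (show IsConj d u from hu)
    have h := hinv _ (hn.conj_mem c hc g⁻¹)
    calc g * d * g⁻¹ * c * (g * d * g⁻¹)⁻¹ = g * (d * (g⁻¹ * c * g⁻¹⁻¹) * d⁻¹) * g⁻¹ := by group
      _ = g * (g⁻¹ * c * g⁻¹⁻¹)⁻¹ * g⁻¹ := by rw [h]
      _ = c⁻¹ := by group
  have adj_iff : ∀ {M : Type _} [Group M] (D : Set M) (a b : D),
      (Cfsg.commutingGraph D).Adj a b ↔ a ≠ b ∧ Commute (a : M) (b : M) := by
    intro M _ D a b
    simp only [Cfsg.commutingGraph, SimpleGraph.fromRel_adj]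
    exact and_congr_right fun _ => ⟨fun h => h.elim id Commute.symm, Or.inl⟩
  set Γ := Cfsg.commutingGraph (conjugatesOf d) with hΓ
  have hmem : ∀ (g : G) (u : G), u ∈ conjugatesOf d → g * u * g⁻¹ ∈ conjugatesOf d := fun g u hu =>
    IsConj.trans (show IsConj d u from hu) (isConj_iff.2 ⟨g, rfl⟩)
  let d0 : conjugatesOf d := ⟨d, IsConj.refl d⟩
  let cj : G → conjugatesOf d → conjugatesOf d := fun g u => ⟨g * u.1 * g⁻¹, hmem g _ u.2⟩
  have cjR : ∀ g u v, Γ.Reachable u v → Γ.Reachable (cj g u) (cj g v) := by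
    intro g u v h
    refine SimpleGraph.Reachable.map ⟨cj g, fun {x y} hxy => ?_⟩ h
    rw [adj_iff] at hxy ⊢
    refine ⟨fun e => hxy.1 (Subtype.ext ?_), (Commute.conj_iff (h := g)).2 hxy.2⟩
    exact mul_left_cancel (mul_right_cancel (congrArg Subtype.val e))
  have cj_mul : ∀ g h u, cj (g * h) u = cj g (cj h u) := fun g h u => Subtype.ext (by
    show g * h * u.1 * (g * h)⁻¹ = g * (h * u.1 * h⁻¹) * g⁻¹
    group)
  have cj_one : ∀ u, cj 1 u = u := fun u => Subtype.ext (by show 1 * u.1 * 1⁻¹ = u.1; group)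
  let K : Subgroup G :=
    { carrier := {g | Γ.Reachable d0 (cj g d0)}
      one_mem' := by show Γ.Reachable _ _; rw [cj_one]
      mul_mem' := fun {g h} hg hh => by show Γ.Reachable _ _; rw [cj_mul]; exact hg.trans (cjR g _ _ hh)
      inv_mem' := fun {g} hg => by
        show Γ.Reachable _ _
        have := (cjR g⁻¹ _ _ hg).symm
        rwa [← cj_mul, inv_mul_cancel, cj_one] at this }
  let mkD : conjugatesOf d → conjugatesOf (QuotientGroup.mk d : G ⧸ Z) := fun u =>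
    ⟨(u.1 : G ⧸ Z), by
      obtain ⟨g, hg⟩ := isConj_iff.1 (show IsConj d u.1 from u.2)
      exact isConj_iff.2 ⟨(g : G ⧸ Z), by rw [← hg]; rfl⟩⟩
  have hsurj : Function.Surjective mkD := by
    rintro ⟨f, hf⟩
    obtain ⟨g, hg⟩ := isConj_iff.1 (show IsConj (QuotientGroup.mk d : G ⧸ Z) f from hf)
    induction g using QuotientGroup.induction_on with
    | _ g => exact ⟨⟨g * d * g⁻¹, hmem g d (IsConj.refl d)⟩, Subtype.ext hg⟩
  have lift : ∀ (u : conjugatesOf d) (f : conjugatesOf (QuotientGroup.mk d : G ⧸ Z)),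
      (Cfsg.commutingGraph _).Adj (mkD u) f → ∃ v, mkD v = f ∧ Γ.Adj u v := by
    intro u f h
    obtain ⟨v0, rfl⟩ := hsurj f
    rw [adj_iff] at h
    set s := u.1 * v0.1 with hs
    have hz : s * s ∈ Z := by
      rw [← QuotientGroup.eq_one_iff]
      have c : Commute (u.1 : G ⧸ Z) (v0.1 : G ⧸ Z) := h.2
      show ((u.1 * v0.1 * (u.1 * v0.1) : G) : G ⧸ Z) = 1
      simp only [QuotientGroup.mk_mul]
      have hv2 : (v0.1 : G ⧸ Z) * v0.1 = 1 := by rw [← QuotientGroup.mk_mul, sq _ v0.2, QuotientGroup.mk_one]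
      have hu2 : (u.1 : G ⧸ Z) * u.1 = 1 := by rw [← QuotientGroup.mk_mul, sq _ u.2, QuotientGroup.mk_one]
      rw [mul_assoc, ← mul_assoc (v0.1 : G ⧸ Z), ← c.eq, mul_assoc, hv2, mul_one, hu2]
    have hzodd : Odd (Nat.card Z) := by
      rw [hZdef, Subgroup.card_map_of_injective Subtype.val_injective]; exact hodd
    obtain ⟨k, hk⟩ := hzodd
    set z := s * s with hzdef
    have hz1 : z ^ (2 * k + 1) = 1 := by
      rw [← hk]
      exact congrArg Subtype.val (pow_card_eq_one' (x := (⟨z, hz⟩ : Z)))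
    set c := z ^ ((k + 1) * (k + 1)) with hc
    have hcZ : c ∈ Z := Subgroup.pow_mem _ hz _
    have hc4 : c * c * (c * c) = z := by
      rw [hc, ← pow_add, ← pow_add, show (k + 1) * (k + 1) + (k + 1) * (k + 1) + ((k + 1) * (k + 1) + (k + 1) * (k + 1)) =
        (2 * k + 1) * (2 * k + 3) + 1 by ring, pow_succ, pow_mul, hz1, one_pow, one_mul]
    set v := cj c v0 with hv
    have hv0 : v.1 = c * c * v0.1 := by
      show c * v0.1 * c⁻¹ = c * c * v0.1
      rw [mul_assoc, mul_assoc]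
      congr 1
      have := hdinv _ v0.2 c⁻¹ (inv_mem hcZ)
      rw [inv_inv] at this
      calc v0.1 * c⁻¹ = v0.1 * c⁻¹ * v0.1⁻¹ * v0.1 := by group
        _ = c * v0.1 := by rw [this]
    have hmk : mkD v = mkD v0 := by
      apply Subtype.ext
      show (v.1 : G ⧸ Z) = v0.1
      rw [hv0, QuotientGroup.mk_mul, (QuotientGroup.eq_one_iff _).2 (mul_mem hcZ hcZ), one_mul]
    have hcc : c * c ∈ Z := mul_mem hcZ hcZ
    have hus : u.1 * v.1 = (c * c)⁻¹ * s := by
      rw [hv0, hs]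
      calc u.1 * (c * c * v0.1) = u.1 * (c * c) * u.1⁻¹ * (u.1 * v0.1) := by group
        _ = _ := by rw [hdinv _ u.2 _ hcc]
    have hsc : s * (c * c)⁻¹ = (c * c)⁻¹ * s := by
      rw [hs]
      have e1 := hdinv _ v0.2 _ (inv_mem hcc)
      have e2 := hdinv _ u.2 _ hcc
      rw [inv_inv] at e1
      calc u.1 * v0.1 * (c * c)⁻¹ = u.1 * (v0.1 * (c * c)⁻¹ * v0.1⁻¹) * v0.1 := by group
        _ = u.1 * (c * c) * u.1⁻¹ * (u.1 * v0.1) := by rw [e1]; group
        _ = (c * c)⁻¹ * (u.1 * v0.1) := by rw [e2]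
    have huv : u.1 * v.1 * (u.1 * v.1) = 1 := by
      rw [hus]
      calc (c * c)⁻¹ * s * ((c * c)⁻¹ * s) = (c * c)⁻¹ * (s * (c * c)⁻¹) * s := by group
        _ = (c * c * (c * c))⁻¹ * z := by rw [hsc, hzdef]; group
        _ = 1 := by rw [hc4, inv_mul_cancel]
    refine ⟨v, hmk, (adj_iff _ _ _).2 ⟨fun e => h.1 (by rw [← hmk, ← e]), ?_⟩⟩
    have h3 := eq_inv_of_mul_eq_one_left huv
    rwa [mul_inv_rev, inv_eq_of_mul_eq_one_left (sq _ v.2), inv_eq_of_mul_eq_one_left (sq _ u.2)] at h3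
  have walk : ∀ {e f} (p : (Cfsg.commutingGraph (conjugatesOf (QuotientGroup.mk d : G ⧸ Z))).Walk e f) (u : conjugatesOf d),
      mkD u = e → ∃ v, mkD v = f ∧ Γ.Reachable u v := by
    intro e f p
    induction p with
    | nil => exact fun u hu => ⟨u, hu, .refl _⟩
    | cons h _ ih =>
      intro u hu
      obtain ⟨v, hv, huv⟩ := lift u _ (hu ▸ h)
      obtain ⟨w, hw, hvw⟩ := ih v hv
      exact ⟨w, hw, huv.reachable.trans hvw⟩
  have hall : ∀ u : conjugatesOf d, ∃ v, mkD v = mkD u ∧ Γ.Reachable d0 v := fun u => by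
    obtain ⟨p⟩ := hconn.preconnected (mkD d0) (mkD u)
    exact walk p d0 rfl
  have hKcent : ∀ g : G, g * d * g⁻¹ = d → g ∈ K := fun g hg => by
    show Γ.Reachable _ _
    rw [show cj g d0 = d0 from Subtype.ext hg]
  have hcov : ∀ g : G, ∃ z ∈ Z, ∃ k ∈ K, g = z * k := by
    intro g
    obtain ⟨v, hv, hr⟩ := hall (cj g d0)
    obtain ⟨h', hh'⟩ := isConj_iff.1 (show IsConj d v.1 from v.2)
    have hh'K : h' ∈ K := by
      show Γ.Reachable _ _
      rwa [show cj h' d0 = v from Subtype.ext hh']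
    have hzz : (g * d * g⁻¹) * v.1⁻¹ ∈ Z := by
      rw [← QuotientGroup.eq_one_iff, QuotientGroup.mk_mul, QuotientGroup.mk_inv, mul_inv_eq_one]
      exact (congrArg Subtype.val hv).symm
    obtain ⟨k, hk⟩ : Odd (Nat.card Z) := by
      rw [hZdef, Subgroup.card_map_of_injective Subtype.val_injective]; exact hodd
    set z := (g * d * g⁻¹) * v.1⁻¹ with hz
    have hz1 : z ^ (2 * k + 1) = 1 := by
      rw [← hk]; exact congrArg Subtype.val (pow_card_eq_one' (x := (⟨z, hzz⟩ : Z)))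
    set c := z ^ (k + 1) with hc
    have hcZ : c ∈ Z := Subgroup.pow_mem _ hzz _
    have hcc : c * c = z := by
      rw [hc, ← pow_add, show k + 1 + (k + 1) = 2 * k + 1 + 1 by omega, pow_succ, hz1, one_mul]
    have hcv : g * d * g⁻¹ = c * v.1 * c⁻¹ := by
      have h := hdinv _ v.2 c⁻¹ (inv_mem hcZ)
      rw [inv_inv] at h
      calc g * d * g⁻¹ = z * v.1 := by rw [hz]; group
        _ = c * (v.1 * c⁻¹ * v.1⁻¹) * v.1 := by rw [← hcc, h]
        _ = c * v.1 * c⁻¹ := by group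
    refine ⟨c, hcZ, c⁻¹ * g, ?_, by group⟩
    have e : h'⁻¹ * (c⁻¹ * g) ∈ K := hKcent _ (by
      calc h'⁻¹ * (c⁻¹ * g) * d * (h'⁻¹ * (c⁻¹ * g))⁻¹ = h'⁻¹ * (c⁻¹ * (g * d * g⁻¹) * c) * h' := by group
        _ = d := by rw [hcv, ← hh']; group)
    simpa using mul_mem hh'K e
  have hLK : L ≤ K := by
    intro x hx
    have hp : commutator L = ⊤ := hL.1.commutator_eq_top
    have : (⟨x, hx⟩ : L) ∈ commutator L := by rw [hp]; trivial
    rw [commutator_eq_closure] at this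
    refine Subgroup.closure_induction (p := fun (y : L) _ => (y : G) ∈ K) ?_ (one_mem K) (fun _ _ _ _ => mul_mem)
      (fun _ _ => inv_mem) this
    rintro _ ⟨a, b, rfl⟩
    obtain ⟨z1, hz1, k1, hk1, e1⟩ := hcov a.1
    obtain ⟨z2, hz2, k2, hk2, e2⟩ := hcov b.1
    have hLk : ∀ z ∈ Z, ∀ k, z * k ∈ L → ∀ w ∈ Z, Commute k w := by
      intro z hz k hk w hw
      have hzL : z ∈ L := Subgroup.map_subtype_le _ hz
      have : k ∈ L := by simpa using mul_mem (inv_mem hzL) hk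
      exact hZL w hw k this
    have c12 : Commute k1 z2 := hLk z1 hz1 k1 (e1 ▸ a.2) z2 hz2
    have c21 : Commute k2 z1 := hLk z2 hz2 k2 (e2 ▸ b.2) z1 hz1
    have c11 : Commute k1 z1 := hLk z1 hz1 k1 (e1 ▸ a.2) z1 hz1
    have c22 : Commute k2 z2 := hLk z2 hz2 k2 (e2 ▸ b.2) z2 hz2
    have czz : Commute z1 z2 := hZL z2 hz2 z1 (Subgroup.map_subtype_le _ hz1)
    show ((a * b * a⁻¹ * b⁻¹ : L) : G) ∈ K
    push_cast
    rw [e1, e2, show z1 * k1 * (z2 * k2) * (z1 * k1)⁻¹ * (z2 * k2)⁻¹ = z1 * (k1 * z2) * k2 * k1⁻¹ * z1⁻¹ * k2⁻¹ * z2⁻¹ by group,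
      c12.eq]
    have h3 : z1 * (z2 * k1) * k2 * k1⁻¹ * z1⁻¹ * k2⁻¹ * z2⁻¹ = k1 * k2 * k1⁻¹ * k2⁻¹ := by
      have e3 : z1⁻¹ * k2⁻¹ = k2⁻¹ * z1⁻¹ := (c21.inv_inv.symm).eq
      have hw : Commute (z1 * z2) (k1 * k2 * k1⁻¹ * k2⁻¹) := by
        have q1 : Commute (z1 * z2) k1 := (c11.mul_right c12).symm
        have q2 : Commute (z1 * z2) k2 := (c21.mul_right c22).symm
        exact ((q1.mul_right q2).mul_right q1.inv_right).mul_right q2.inv_right
      calc z1 * (z2 * k1) * k2 * k1⁻¹ * z1⁻¹ * k2⁻¹ * z2⁻¹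
          = z1 * z2 * (k1 * k2 * k1⁻¹) * (z1⁻¹ * k2⁻¹) * z2⁻¹ := by group
        _ = z1 * z2 * (k1 * k2 * k1⁻¹ * k2⁻¹) * (z1⁻¹ * z2⁻¹) := by rw [e3]; group
        _ = (k1 * k2 * k1⁻¹ * k2⁻¹) * (z1 * z2) * (z1⁻¹ * z2⁻¹) := by rw [hw.eq]
        _ = k1 * k2 * k1⁻¹ * k2⁻¹ := by rw [czz.eq]; group
    rw [h3]
    exact mul_mem (mul_mem (mul_mem hk1 hk2) (inv_mem hk1)) (inv_mem hk2)
  have htop : K = ⊤ := top_le_iff.1 (hgen ▸ sup_le hLK (Subgroup.zpowers_le.2 (hKcent d (by group))))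
  refine { preconnected := fun u v => ?_, nonempty := ⟨d0⟩ }
  have hreach : ∀ w, Γ.Reachable d0 w := fun w => by
    obtain ⟨g, hg⟩ := isConj_iff.1 (show IsConj d w.1 from w.2)
    have : g ∈ K := htop ▸ Subgroup.mem_top g
    rwa [show w = cj g d0 from Subtype.ext hg.symm]
  exact (hreach u).symm.trans (hreach v)

end Cfsg.Agent.S5459
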