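import Cfsg.Statements.S5541


set_option autoImplicit false
open Cfsg

namespace Cfsg.Agent.S5541

/-- Let ρ be a representation of a group H on a finite-dimensional real vector space U whose only ρ-invariant subspaces are the zero subspace and U, and suppose U carries a non-zero ρ-invariant symmetric bilinear form. Then the following are equivalent: (1) there is a non-zero ρ-equivariant commutative bilinear product on U of which every ρ-equivariant bilinear product is a scalar multiple; (2) there is a non-zero ρ-invariant trilinear form on U that is symmetric under all permutations of its arguments and of which every ρ-invariant trilinear form is a scalar multiple. -/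
theorem result {H : Type*} [Group H] {U : Type*} [AddCommGroup U] [Module ℝ U] [FiniteDimensional ℝ U] (ρ : Representation ℝ H U) (hirr : ∀ W : Submodule ℝ U, (∀ g : H, W.map (ρ g) ≤ W) → W = ⊥ ∨ W = ⊤) (B : LinearMap.BilinForm ℝ U) (hB0 : B ≠ 0) (hBs : ∀ u v, B u v = B v u) (hBi : ∀ (g : H) (u v : U), B (ρ g u) (ρ g v) = B u v) : (∃ m : U →ₗ[ℝ] U →ₗ[ℝ] U, m ≠ 0 ∧ (∀ u v, m u v = m v u) ∧ (∀ (g : H) (u v : U), m (ρ g u) (ρ g v) = ρ g (m u v)) ∧ ∀ m' : U →ₗ[ℝ] U →ₗ[ℝ] U, (∀ (g : H) (u v : U), m' (ρ g u) (ρ g v) = ρ g (m' u v)) → ∃ c : ℝ, m' = c • m) ↔ (∃ t : U →ₗ[ℝ] U →ₗ[ℝ] U →ₗ[ℝ] ℝ, t ≠ 0 ∧ (∀ u v w, t u v w = t v u w ∧ t u v w = t u w v) ∧ (∀ (g : H) (u v w : U), t (ρ g u) (ρ g v) (ρ g w) = t u v w) ∧ ∀ t' : U →ₗ[ℝ] U →ₗ[ℝ] U →ₗ[ℝ] ℝ, (∀ (g : H) (u v w : U), t' (ρ g u) (ρ g v) (ρ g w) = t' u v w) → ∃ c : ℝ, t' = c • t) := by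
  have hrad : LinearMap.ker B = ⊥ := by
    refine (hirr _ fun g x hx => ?_).resolve_right fun h => hB0 (LinearMap.ker_eq_top.1 h)
    obtain ⟨y, hy, rfl⟩ := hx
    refine LinearMap.mem_ker.2 (LinearMap.ext fun v => ?_)
    have e := hBi g y (ρ g⁻¹ v)
    rw [← Module.End.mul_apply (ρ g) (ρ g⁻¹), ← map_mul, mul_inv_cancel, map_one, Module.End.one_apply] at e
    rw [LinearMap.zero_apply, e, LinearMap.mem_ker.1 hy, LinearMap.zero_apply]
  have hnd : ∀ x y : U, (∀ w, B x w = B y w) → x = y := fun x y h =>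
    LinearMap.ker_eq_bot.1 hrad (LinearMap.ext h)
  let E : U ≃ₗ[ℝ] Module.Dual ℝ U := LinearEquiv.ofInjectiveOfFinrankEq B (LinearMap.ker_eq_bot.1 hrad)
    Subspace.dual_finrank_eq.symm
  have hE : ∀ (f : Module.Dual ℝ U) (w : U), B (E.symm f) w = f w := fun f w =>
    LinearMap.congr_fun (E.apply_symm_apply f) w
  have back : ∀ t : U →ₗ[ℝ] U →ₗ[ℝ] U →ₗ[ℝ] ℝ,
      (∀ (g : H) (u v w : U), t (ρ g u) (ρ g v) (ρ g w) = t u v w) →
      ∀ (g : H) (u v : U), (t.compr₂ E.symm.toLinearMap) (ρ g u) (ρ g v) =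
        ρ g ((t.compr₂ E.symm.toLinearMap) u v) := by
    intro t ht g u v
    refine hnd _ _ fun w => ?_
    have hw : w = ρ g (ρ g⁻¹ w) := by
      rw [← Module.End.mul_apply, ← map_mul, mul_inv_cancel, map_one, Module.End.one_apply]
    simp only [LinearMap.compr₂_apply, LinearEquiv.coe_coe]
    rw [hw, hE, ht, hBi, hE]
  constructor
  · rintro ⟨m, hm0, hms, hmi, hmu⟩
    let t : U →ₗ[ℝ] U →ₗ[ℝ] U →ₗ[ℝ] ℝ := m.compr₂ B
    have ht : ∀ (g : H) (u v w : U), t (ρ g u) (ρ g v) (ρ g w) = t u v w := fun g u v w => by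
      simp only [t, LinearMap.compr₂_apply, hmi, hBi]
    have htu : ∀ t' : U →ₗ[ℝ] U →ₗ[ℝ] U →ₗ[ℝ] ℝ,
        (∀ (g : H) (u v w : U), t' (ρ g u) (ρ g v) (ρ g w) = t' u v w) → ∃ c : ℝ, t' = c • t := by
      intro t' ht'
      obtain ⟨c, hc⟩ := hmu _ (back t' ht')
      refine ⟨c, LinearMap.ext fun u => LinearMap.ext fun v => LinearMap.ext fun w => ?_⟩
      have := congrArg (fun x => B (x u v) w) hc
      simpa [hE, t] using this
    have ht0 : t ≠ 0 := fun h => hm0 <| LinearMap.ext fun u => LinearMap.ext fun v => hnd _ _ fun w => by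
      have := LinearMap.congr_fun (LinearMap.congr_fun (LinearMap.congr_fun h u) v) w
      simpa [t] using this
    let t₂ : U →ₗ[ℝ] U →ₗ[ℝ] U →ₗ[ℝ] ℝ :=
      LinearMap.mk₂ ℝ (fun u v => (t u).flip v) (by intros; ext; simp) (by intros; ext; simp)
        (by intros; ext; simp) (by intros; ext; simp)
    obtain ⟨c, hc⟩ := htu t₂ fun g u v w => by simp [t₂, ht]
    have hc' : ∀ u v w, t u w v = c * t u v w := fun u v w => by
      have := LinearMap.congr_fun (LinearMap.congr_fun (LinearMap.congr_fun hc u) v) w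
      simpa [t₂] using this
    have h12 : ∀ u v w, t u v w = t v u w := fun u v w => by simp [t, hms u v]
    have hc1 : c = 1 := by
      by_contra hne
      refine ht0 (LinearMap.ext fun u => LinearMap.ext fun v => LinearMap.ext fun w => ?_)
      have a1 := hc' u v w
      have a2 := hc' u w v
      have a3 : t u v w = c ^ 3 * t u v w := by
        have b1 := hc' u w v
        have b2 := hc' w v u
        have b3 := hc' v u w
        rw [h12 u w v] at b1
        rw [h12 w v u] at b2
        rw [h12 v u w] at b3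
        calc t u v w = c * t w u v := b1
          _ = c * (c * t v w u) := by rw [← b2]
          _ = c * (c * (c * t u v w)) := by rw [← b3]
          _ = _ := by ring
      simp only [LinearMap.zero_apply]
      by_contra hz
      have h3 : c ^ 3 = 1 := mul_right_cancel₀ hz (by rw [one_mul]; exact a3.symm)
      have h4 : (c - 1) * (c ^ 2 + c + 1) = 0 := by ring_nf; linarith
      rcases mul_eq_zero.1 h4 with h | h
      · exact hne (by linarith)
      · nlinarith [sq_nonneg (c + 1/2)]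
    exact ⟨t, ht0, fun u v w => ⟨h12 u v w, by rw [hc' u v w, hc1, one_mul]⟩, ht, htu⟩
  · rintro ⟨t, ht0, hts, ht, htu⟩
    refine ⟨t.compr₂ E.symm.toLinearMap, fun h => ht0 ?_, fun u v => ?_, back t ht, fun m' hm' => ?_⟩
    · ext u v w
      rw [← hE (t u v) w]
      have := LinearMap.congr_fun (LinearMap.congr_fun h u) v
      simp only [LinearMap.compr₂_apply, LinearEquiv.coe_coe, LinearMap.zero_apply] at this
      simp [this]
    · refine hnd _ _ fun w => ?_
      simp [hE, (hts u v w).1]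
    · obtain ⟨c, hc⟩ := htu (m'.compr₂ B) fun g u v w => by
        simp only [LinearMap.compr₂_apply, hm', hBi]
      refine ⟨c, LinearMap.ext fun u => LinearMap.ext fun v => hnd _ _ fun w => ?_⟩
      have := LinearMap.congr_fun (LinearMap.congr_fun (LinearMap.congr_fun hc u) v) w
      simpa [hE] using this

end Cfsg.Agent.S5541
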