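import Cfsg.Statements.S5543


set_option autoImplicit false
open Cfsg

namespace Cfsg.Agent.S5543

/-- Let V be a finite-dimensional real vector space with a commutative bilinear product and a positive-definite symmetric bilinear form that associates with the product and satisfies the Norton inequality (the Majorana setting of the definitions). Let X be a group of linear automorphisms of V in which every element squares to the identity, and suppose every non-identity element x of X is a Majorana involution with an axial vector a(x) of squared length 1, such that for any two distinct non-identity x, y the product a(x) ∘ a(y) equals (1/8)(a(x) + a(y) − a(xy)) (the dihedral subalgebra of type 2A whose third axis belongs to the involution xy). Then X has order at most 4. -/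
theorem result {V : Type*} [AddCommGroup V] [Module ℝ V] [FiniteDimensional ℝ V] (mul : V →ₗ[ℝ] V →ₗ[ℝ] V) (B : LinearMap.BilinForm ℝ V) (hV : Cfsg.Axial.IsMajoranaAmbient mul B) (X : Subgroup (V ≃ₗ[ℝ] V)) (hX : ∀ x ∈ X, x * x = 1) (ax : (V ≃ₗ[ℝ] V) → V) (hax : ∀ x ∈ X, x ≠ 1 → Cfsg.Axial.IsMajoranaPair mul B x (ax x)) (h1 : ∀ x ∈ X, x ≠ 1 → B (ax x) (ax x) = 1) (h2A : ∀ x ∈ X, ∀ y ∈ X, x ≠ 1 → y ≠ 1 → x ≠ y → mul (ax x) (ax y) = (1 / 8 : ℝ) • (ax x + ax y - ax (x * y))) : Nat.card ↥X ≤ 4 := by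
  classical
  by_contra hc
  obtain ⟨hcomm, hsym, -, hassoc, -⟩ := hV
  have hinv : ∀ u ∈ X, u⁻¹ = u := fun u hu => inv_eq_of_mul_eq_one_right (hX u hu)
  have hab : ∀ u ∈ X, ∀ v ∈ X, u * v = v * u := fun u hu v hv => by
    rw [← hinv _ (X.mul_mem hu hv), mul_inv_rev, hinv _ hu, hinv _ hv]
  have hbig : ∀ S : Finset (V ≃ₗ[ℝ] V), S.card ≤ 4 → ∃ u ∈ X, u ∉ S := fun S hS => by
    by_contra! h
    have hfin : (X : Set (V ≃ₗ[ℝ] V)) ⊆ S := h
    have := Set.ncard_le_ncard hfin S.finite_toSet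
    rw [Set.ncard_coe_finset] at this
    exact hc ((Nat.card_coe_set_eq _).trans_le (this.trans hS))
  obtain ⟨x, hx, hx1⟩ := hbig {1} (by simp)
  obtain ⟨y, hy, hy1⟩ := hbig {1, x} (Finset.card_le_two.trans (by norm_num))
  obtain ⟨z, hz, hz1⟩ := hbig {1, x, y, x * y} Finset.card_le_four
  simp only [Finset.mem_insert, Finset.mem_singleton, not_or] at hx1 hy1 hz1
  obtain ⟨hy1, hyx⟩ := hy1
  obtain ⟨hz1, hzx, hzy, hzxy⟩ := hz1
  have hne : ∀ u ∈ X, ∀ v ∈ X, u * v = 1 → u = v := fun u hu v hv h => by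
    rw [← hinv v hv]; exact eq_inv_of_mul_eq_one_left h
  have hxy1 : x * y ≠ 1 := fun h => hyx (hne x hx y hy h).symm
  have hxz1 : x * z ≠ 1 := fun h => hzx (hne x hx z hz h).symm
  have hyz1 : y * z ≠ 1 := fun h => hzy (hne y hy z hz h).symm
  have hxyz1 : x * y * z ≠ 1 := fun h => hzxy (hne _ (X.mul_mem hx hy) z hz h).symm
  have hxx : ∀ w, x * (x * w) = w := fun w => by rw [← mul_assoc, hX x hx, one_mul]
  set a := ax x
  set b := ax y
  set c := ax (x * y)
  set d := ax z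
  set e := ax (x * z)
  set f := ax (y * z)
  set g := ax (x * y * z)
  have mXY := X.mul_mem hx hy
  have mXZ := X.mul_mem hx hz
  have p : ∀ u ∈ X, ∀ v ∈ X, ∀ w, u ≠ 1 → v ≠ 1 → u ≠ v → u * v = w →
      mul (ax u) (ax v) = (1 / 8 : ℝ) • (ax u + ax v - ax w) := fun u hu v hv w a1 a2 a3 a4 =>
    a4 ▸ h2A u hu v hv a1 a2 a3
  have hxy : x ≠ y := Ne.symm hyx
  have hxz : x ≠ z := Ne.symm hzx
  have hyz : y ≠ z := Ne.symm hzy
  have ab := p x hx y hy (x * y) hx1 hy1 hxy rfl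
  have ac := p x hx _ mXY y hx1 hxy1 (fun h => hy1 (mul_eq_left.1 h.symm)) (hxx y)
  have af := p x hx _ (X.mul_mem hy hz) (x * y * z) hx1 hyz1
    (fun h => hzxy (by rw [h, ← hab _ hz y hy, mul_assoc, hX y hy, mul_one])) (mul_assoc x y z).symm
  have ag := p x hx _ (X.mul_mem mXY hz) (y * z) hx1 hxyz1
    (fun h => hyz1 (mul_eq_left.1 (h.trans (mul_assoc x y z)).symm)) (by rw [mul_assoc x y z, hxx])
  have ad := p x hx z hz (x * z) hx1 hz1 hxz rfl
  have ae := p x hx _ mXZ z hx1 hxz1 (fun h => hz1 (mul_eq_left.1 h.symm)) (hxx z)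
  have bd := p y hy z hz (y * z) hy1 hz1 hyz rfl
  have be := p y hy _ mXZ (x * y * z) hy1 hxz1
    (fun h => hzxy (by rw [h, hxx])) (by rw [← mul_assoc, hab y hy x hx])
  have cd := p _ mXY z hz (x * y * z) hxy1 hz1 (fun h => hzxy h.symm) rfl
  have ce := p _ mXY _ mXZ (y * z) hxy1 hxz1 (fun h => hyz (mul_left_cancel h))
    (by rw [hab x hx y hy, mul_assoc, hxx])
  have hbc : b - c ∈ Cfsg.Axial.eigen mul a (1 / 4) := Module.End.mem_eigenspace_iff.2 (by
    rw [map_sub, ab, ac]; module)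
  have hde : d - e ∈ Cfsg.Axial.eigen mul a (1 / 4) := Module.End.mem_eigenspace_iff.2 (by
    rw [map_sub, ad, ae]; module)
  obtain ⟨⟨-, -, -, hfus⟩, -⟩ := (hax x hx hx1).2.2.1
  have hq : (1 / 4 : ℝ) ∈ Cfsg.Axial.majoranaSpectrum := by simp [Cfsg.Axial.majoranaSpectrum]
  have hlaw : Cfsg.Axial.monsterLaw (1 / 4 : ℝ) (1 / 32) (1 / 4) (1 / 4) = {1, 0} := by
    norm_num [Cfsg.Axial.monsterLaw]
  have hm := hfus _ hq _ hq _ hbc _ hde
  rw [hlaw, Cfsg.Axial.eigenSum, iSup_insert, iSup_singleton, Submodule.mem_sup] at hm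
  obtain ⟨p₁, hp₁, p₀, hp₀, hsum⟩ := hm
  rw [Cfsg.Axial.eigen, Module.End.mem_eigenspace_iff] at hp₁ hp₀
  have hprod : mul (b - c) (d - e) = (1 / 4 : ℝ) • (g - f) := by
    show mul (ax y - ax (x * y)) (ax z - ax (x * z)) = (1 / 4 : ℝ) • (ax (x * y * z) - ax (y * z))
    simp only [map_sub, LinearMap.sub_apply, bd, be, cd, ce]; module
  rw [hprod] at hsum
  have h6 : mul a ((1 / 4 : ℝ) • (g - f)) = (1 / 4 : ℝ) • ((1 / 4 : ℝ) • (g - f)) := by
    rw [map_smul, map_sub, af, ag]; module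
  have h2 : p₁ = (1 / 4 : ℝ) • ((1 / 4 : ℝ) • (g - f)) := by
    rw [← h6, ← hsum, map_add, hp₁, hp₀, one_smul, zero_smul, add_zero]
  have h3 : g - f = 0 := by
    have h4 := hp₁
    rw [h2, map_smul, h6, one_smul] at h4
    have : (3 / 64 : ℝ) • (g - f) = 0 := by
      have h5 := sub_eq_zero.2 h4.symm
      rw [← h5]; module
    exact (smul_eq_zero.1 this).resolve_left (by norm_num)
  have hgf : g = f := sub_eq_zero.1 h3
  have mYZ := X.mul_mem hy hz
  obtain ⟨⟨-, hff, -⟩, -⟩ := (hax _ mYZ hyz1).2.2.1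
  have hfg := p _ mYZ _ (X.mul_mem mXY hz) x hyz1 hxyz1
    (fun h => hx1 (mul_eq_right.1 (h.trans (mul_assoc x y z)).symm)) (by
      rw [mul_assoc x y z, hab x hx (y * z) mYZ, ← mul_assoc, hX _ mYZ, one_mul])
  change mul f g = (1 / 8 : ℝ) • (f + g - a) at hfg
  rw [hgf, hff] at hfg
  have haf : a = (-6 : ℝ) • f := by
    have h5 : (8 : ℝ) • f = f + f - a := by
      have := congrArg (fun v => (8 : ℝ) • v) hfg
      simp only [smul_smul] at this
      norm_num at this
      exact this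
    rw [show a = f + f - (8 : ℝ) • f by rw [h5]; abel]
    module
  have hBa : B a a = 1 := h1 x hx hx1
  have hBf : B f f = 1 := h1 _ mYZ hyz1
  rw [haf] at hBa
  simp only [map_smul, LinearMap.smul_apply, hBf, smul_eq_mul] at hBa
  norm_num at hBa

end Cfsg.Agent.S5543
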