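import Cfsg.Statements.S5545


set_option autoImplicit false
open Cfsg

namespace Cfsg.Agent.S5545

/-- Let V be a finite-dimensional real vector space with a commutative bilinear product and a positive-definite symmetric bilinear form that associates with the product and satisfies the Norton inequality (the Majorana setting of the definitions). Let μ₀, μ₁ be commuting Majorana involutions with distinct axial vectors a₀ ≠ a₁ of squared length 1, each involution having no other axial vector. Then either a₀ and a₁ are orthogonal with a₀ ∘ a₁ = 0 (type 2B), or their inner product is 1/8 and, with a₂ = a₀ + a₁ − 8 a₀ ∘ a₁, the vector a₂ is an idempotent and a₀ ∘ a₂ = (1/8)(a₀ + a₂ − a₁), a₁ ∘ a₂ = (1/8)(a₁ + a₂ − a₀) (type 2A: the three idempotents span a subalgebra with aᵢ ∘ aⱼ = (1/8)(aᵢ + aⱼ − aₖ)). -/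
theorem result {V : Type*} [AddCommGroup V] [Module ℝ V] [FiniteDimensional ℝ V] (mul : V →ₗ[ℝ] V →ₗ[ℝ] V) (B : LinearMap.BilinForm ℝ V) (hV : Cfsg.Axial.IsMajoranaAmbient mul B) (μ₀ μ₁ : V ≃ₗ[ℝ] V) (a₀ a₁ : V) (h₀ : Cfsg.Axial.IsMajoranaPair mul B μ₀ a₀) (h₁ : Cfsg.Axial.IsMajoranaPair mul B μ₁ a₁) (hu₀ : ∀ a : V, Cfsg.Axial.IsMajoranaPair mul B μ₀ a → a = a₀) (hu₁ : ∀ a : V, Cfsg.Axial.IsMajoranaPair mul B μ₁ a → a = a₁) (hn₀ : B a₀ a₀ = 1) (hn₁ : B a₁ a₁ = 1) (hc : μ₀ * μ₁ = μ₁ * μ₀) (hne : a₀ ≠ a₁) : (B a₀ a₁ = 0 ∧ mul a₀ a₁ = 0) ∨ (B a₀ a₁ = 1 / 8 ∧ mul (a₀ + a₁ - (8 : ℝ) • mul a₀ a₁) (a₀ + a₁ - (8 : ℝ) • mul a₀ a₁) = a₀ + a₁ - (8 : ℝ) • mul a₀ a₁ ∧ mul a₀ (a₀ + a₁ - (8 : ℝ) • mul a₀ a₁) = (1 / 8 : ℝ) • (a₀ + (a₀ + a₁ - (8 : ℝ) • mul a₀ a₁) - a₁) ∧ mul a₁ (a₀ + a₁ - (8 : ℝ) • mul a₀ a₁) = (1 / 8 : ℝ) • (a₁ + (a₀ + a₁ - (8 : ℝ) • mul a₀ a₁) - a₀)) := by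
  have hV' := hV
  obtain ⟨hcomm, hsym, -, -, -⟩ := hV'
  have key : ∀ (μ ν : V ≃ₗ[ℝ] V) (a b : V), Cfsg.Axial.IsMajoranaPair mul B μ a → Cfsg.Axial.IsMajoranaPair mul B ν b →
      (∀ c : V, Cfsg.Axial.IsMajoranaPair mul B ν c → c = b) → μ * ν = ν * μ →
      ∃ (p : ℝ) (u v : V), b = p • a + u + v ∧ mul a u = 0 ∧ mul a v = (1 / 4 : ℝ) • v := by
    intro μ ν a b ha hb hbu hμν
    have hinvol : ∀ w, ∃ s t, s ∈ Cfsg.Axial.eigenSum mul a ({1, 0, 1 / 4} : Set ℝ) ∧
        t ∈ Cfsg.Axial.eigen mul a (1 / 32) ∧ w = s + t := by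
      intro w
      have htop := ha.2.2.1.1.2.2.1
      have hw : w ∈ Cfsg.Axial.eigenSum mul a Cfsg.Axial.majoranaSpectrum := htop ▸ Submodule.mem_top
      have e : Cfsg.Axial.majoranaSpectrum = ({1, 0, 1 / 4} : Set ℝ) ∪ {1 / 32} := by
        ext r; simp [Cfsg.Axial.majoranaSpectrum, or_assoc, or_comm, or_left_comm]
      rw [e, Cfsg.Axial.eigenSum, iSup_union, iSup_singleton, Submodule.mem_sup] at hw
      obtain ⟨s, hs, t, ht, rfl⟩ := hw
      exact ⟨s, t, hs, ht, rfl⟩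
    have hfix : ∀ s ∈ Cfsg.Axial.eigenSum mul a ({1, 0, 1 / 4} : Set ℝ), μ s = s := ha.2.2.2.1
    have hneg : ∀ t ∈ Cfsg.Axial.eigen mul a (1 / 32), μ t = -t := ha.2.2.2.2
    have hsq : ∀ w, μ (μ w) = w := fun w => by
      obtain ⟨s, t, hs, ht, rfl⟩ := hinvol w
      rw [map_add, hfix s hs, hneg t ht, map_add, hfix s hs, map_neg, hneg t ht, neg_neg]
    have hνμ : ∀ w, ν (μ w) = μ (ν w) := fun w => (LinearEquiv.congr_fun hμν w).symm
    obtain ⟨hbm, hbB, ⟨⟨hb0, hbb, hbtop, hbfus⟩, hb1⟩, hbf, hbn⟩ := hb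
    have heig : ∀ c w, w ∈ Cfsg.Axial.eigen mul b c ↔ μ w ∈ Cfsg.Axial.eigen mul (μ b) c := fun c w => by
      rw [Cfsg.Axial.eigen, Cfsg.Axial.eigen, Module.End.mem_eigenspace_iff, Module.End.mem_eigenspace_iff,
        ← ha.1, ← map_smul, μ.injective.eq_iff]
    have heigmap : ∀ c, (Cfsg.Axial.eigen mul b c).map (μ : V →ₗ[ℝ] V) = Cfsg.Axial.eigen mul (μ b) c := fun c => by
      ext w
      constructor
      · rintro ⟨x, hx, rfl⟩; exact (heig c x).1 hx
      · intro hw; exact ⟨μ w, (heig c (μ w)).2 (by rwa [hsq]), hsq w⟩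
    have hsum : ∀ S : Set ℝ, (Cfsg.Axial.eigenSum mul b S).map (μ : V →ₗ[ℝ] V) = Cfsg.Axial.eigenSum mul (μ b) S :=
      fun S => by simp only [Cfsg.Axial.eigenSum, Submodule.map_iSup, heigmap]
    have hpair : Cfsg.Axial.IsMajoranaPair mul B ν (μ b) := by
      refine ⟨hbm, hbB, ⟨⟨fun h => hb0 (μ.map_eq_zero_iff.1 h), by rw [← ha.1, hbb], ?_, ?_⟩, ?_⟩, ?_, ?_⟩
      · rw [← hsum, hbtop, Submodule.map_top]; exact LinearMap.range_eq_top.2 μ.surjective
      · intro c hc d hd x hx y hy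
        rw [← heigmap] at hx hy
        obtain ⟨x', hx', rfl⟩ := hx
        obtain ⟨y', hy', rfl⟩ := hy
        rw [← hsum]
        exact ⟨mul x' y', hbfus c hc d hd x' hx' y' hy', ha.1 x' y'⟩
      · rw [← heigmap, hb1, Submodule.map_span, Set.image_singleton]; rfl
      · intro w hw
        rw [← hsum] at hw
        obtain ⟨x, hx, rfl⟩ := hw
        show ν (μ x) = μ x
        rw [hνμ, show ν x = x from hbf x hx]
      · intro w hw
        rw [← heigmap] at hw
        obtain ⟨x, hx, rfl⟩ := hw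
        show ν (μ x) = -(μ x)
        rw [hνμ, show ν x = -x from hbn x hx, map_neg]
    have hμb : μ b = b := hbu _ hpair
    obtain ⟨s, t, hs, ht, hb'⟩ := hinvol b
    have ht0 : t = 0 := by
      rw [hb', map_add, hfix s hs, hneg t ht] at hμb
      have h2 : (2 : ℝ) • t = 0 := by
        rw [two_smul]; exact add_eq_zero_iff_eq_neg.2 (add_left_cancel hμb).symm
      exact (smul_eq_zero.1 h2).resolve_left (by norm_num)
    rw [ht0, add_zero] at hb'
    rw [Cfsg.Axial.eigenSum, iSup_insert, iSup_insert, iSup_singleton, Submodule.mem_sup] at hs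
    obtain ⟨x, hx, r, hr, rfl⟩ := hs
    rw [Submodule.mem_sup] at hr
    obtain ⟨u, hu, v, hv, rfl⟩ := hr
    rw [ha.2.2.1.2, Submodule.mem_span_singleton] at hx
    obtain ⟨p, rfl⟩ := hx
    rw [Cfsg.Axial.eigen, Module.End.mem_eigenspace_iff] at hu hv
    exact ⟨p, u, v, by rw [hb', add_assoc], by rw [hu, zero_smul], hv⟩
  obtain ⟨p, u, v, ha1, hu, hv⟩ := key μ₀ μ₁ a₀ a₁ h₀ h₁ hu₁ hc
  obtain ⟨q, u', v', ha0, hu', hv'⟩ := key μ₁ μ₀ a₁ a₀ h₁ h₀ hu₀ hc.symm
  obtain ⟨⟨-, haa, -, hfus⟩, he1⟩ := h₀.2.2.1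
  have hbb : mul a₁ a₁ = a₁ := h₁.2.2.1.1.2.1
  have hB0 : ∀ (a w : V) (c : ℝ), mul a a = a → mul a w = c • w → c ≠ 1 → B a w = 0 := fun a w c e1 e2 e3 => by
    have h := (‹Cfsg.Axial.IsMajoranaAmbient mul B›).2.2.2.1 a a w
    rw [e1, e2, map_smul, smul_eq_mul] at h
    have h' : (c - 1) * B a w = 0 := by linarith
    exact (mul_eq_zero.1 h').resolve_left (sub_ne_zero.2 e3)
  have hp : B a₀ a₁ = p := by
    rw [ha1, map_add, map_add, map_smul, hn₀, hB0 a₀ u 0 haa (by rw [hu, zero_smul]) (by norm_num),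
      hB0 a₀ v _ haa hv (by norm_num), smul_eq_mul]
    ring
  have hq : q = p := by
    rw [← hp, hsym, ha0, map_add, map_add, map_smul, hn₁, hB0 a₁ u' 0 hbb (by rw [hu', zero_smul]) (by norm_num),
      hB0 a₁ v' _ hbb hv' (by norm_num), smul_eq_mul]
    ring
  set m := mul a₀ a₁ with hm
  have hm0 : m = p • a₀ + (1 / 4 : ℝ) • v := by rw [hm, ha1, map_add, map_add, map_smul, haa, hu, hv, add_zero]
  have hm1 : m = p • a₁ + (1 / 4 : ℝ) • v' := by
    rw [hm, hcomm a₀ a₁, ha0, map_add, map_add, map_smul, hbb, hu', hv', add_zero, hq]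
  have hbm : mul a₁ m = (1 / 4 : ℝ) • m + (3 / 4 * p) • a₁ := by
    conv_lhs => rw [hm1]
    rw [map_add, map_smul, map_smul, hbb, hv', hm1]
    module
  have hproj : ∀ (r : ℝ) (y w : V), mul a₀ y = 0 → mul a₀ w = (1 / 4 : ℝ) • w → r • a₀ + y + w = 0 → w = 0 := by
    intro r y w hy hw h
    have h1 := congrArg (mul a₀) h
    rw [map_add, map_add, map_smul, haa, hy, hw, map_zero, add_zero] at h1
    have h2 := congrArg (mul a₀) h1
    rw [map_add, map_smul, map_smul, haa, hw, map_zero] at h2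
    have h3 : (3 / 16 : ℝ) • w = 0 := by
      have h4 := sub_eq_zero.2 (h1.trans h2.symm)
      rw [← h4]; module
    exact (smul_eq_zero.1 h3).resolve_left (by norm_num)
  have hq4 : (1 / 4 : ℝ) ∈ Cfsg.Axial.majoranaSpectrum := by simp [Cfsg.Axial.majoranaSpectrum]
  have hq0 : (0 : ℝ) ∈ Cfsg.Axial.majoranaSpectrum := by simp [Cfsg.Axial.majoranaSpectrum]
  have hu0 : u ∈ Cfsg.Axial.eigen mul a₀ 0 := Module.End.mem_eigenspace_iff.2 (by rw [hu, zero_smul])
  have hv4 : v ∈ Cfsg.Axial.eigen mul a₀ (1 / 4) := Module.End.mem_eigenspace_iff.2 hv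
  have huu : mul a₀ (mul u u) = 0 := by
    have h := hfus _ hq0 _ hq0 _ hu0 _ hu0
    rw [show Cfsg.Axial.monsterLaw (1 / 4 : ℝ) (1 / 32) 0 0 = {0} by norm_num [Cfsg.Axial.monsterLaw],
      Cfsg.Axial.eigenSum, iSup_singleton, Cfsg.Axial.eigen, Module.End.mem_eigenspace_iff, zero_smul] at h
    exact h
  have huv : mul a₀ (mul u v) = (1 / 4 : ℝ) • mul u v := by
    have h := hfus _ hq0 _ hq4 _ hu0 _ hv4
    rw [show Cfsg.Axial.monsterLaw (1 / 4 : ℝ) (1 / 32) 0 (1 / 4) = {1 / 4} by norm_num [Cfsg.Axial.monsterLaw],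
      Cfsg.Axial.eigenSum, iSup_singleton, Cfsg.Axial.eigen, Module.End.mem_eigenspace_iff] at h
    exact h
  obtain ⟨r, z, hvv, hz⟩ : ∃ (r : ℝ) (z : V), mul v v = r • a₀ + z ∧ mul a₀ z = 0 := by
    have h := hfus _ hq4 _ hq4 _ hv4 _ hv4
    rw [show Cfsg.Axial.monsterLaw (1 / 4 : ℝ) (1 / 32) (1 / 4) (1 / 4) = {1, 0} by norm_num [Cfsg.Axial.monsterLaw],
      Cfsg.Axial.eigenSum, iSup_insert, iSup_singleton, Submodule.mem_sup] at h
    obtain ⟨x, hx, z, hz, e⟩ := h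
    rw [he1, Submodule.mem_span_singleton] at hx
    obtain ⟨r, rfl⟩ := hx
    rw [Cfsg.Axial.eigen, Module.End.mem_eigenspace_iff, zero_smul] at hz
    exact ⟨r, z, e.symm, hz⟩
  have hsqr : mul a₁ a₁ =
      (p * p) • a₀ + (p / 2) • v + mul u u + (2 : ℝ) • mul u v + (r • a₀ + z) := by
    rw [← hvv, ha1]
    simp only [map_add, map_smul, LinearMap.add_apply, LinearMap.smul_apply, haa, hu, hv, hcomm u a₀, hcomm v a₀,
      hcomm v u]
    module
  have e1 : (p / 2) • v + (2 : ℝ) • mul u v - v = 0 := by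
    refine hproj (p * p + r - p) (mul u u + z - u) _ (by rw [map_sub, map_add, huu, hz, hu]; simp) ?_ ?_
    · rw [map_sub, map_add, map_smul, map_smul, hv, huv]; module
    · have h := hsqr.symm.trans (hbb.trans ha1)
      have h' := sub_eq_zero.2 h
      rw [← h']; module
  have hbm2 : mul a₁ m = (p * p + r / 4) • a₀ + (1 / 4 : ℝ) • z + (p / 4 + p / 16) • v + (1 / 4 : ℝ) • mul u v := by
    rw [hm0, ha1]
    simp only [map_add, map_smul, LinearMap.add_apply, LinearMap.smul_apply, haa, hu, hv, hcomm u a₀, hcomm v a₀,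
      hvv]
    module
  have e2 : (1 / 16 - p / 2) • v = 0 := by
    refine hproj ((p * p + r / 4) - p / 4 - 3 / 4 * p * p) ((1 / 4 : ℝ) • z - (3 / 4 * p) • u) _
      (by rw [map_sub, map_smul, map_smul, hz, hu]; simp) (by rw [map_smul, hv]; module) ?_
    have h' := sub_eq_zero.2 (hbm2.symm.trans hbm)
    rw [hm0, ha1] at h'
    have h'' : (1 / 8 : ℝ) • ((p / 2) • v + (2 : ℝ) • mul u v - v) = 0 := by rw [e1, smul_zero]
    rw [← sub_zero (0 : V)]
    nth_rewrite 1 [← h']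
    nth_rewrite 1 [← h'']
    module
  by_cases hv0 : v = 0
  · left
    have hp01 : p = 0 ∨ p = 1 := by
      have hr : r • a₀ + z = 0 := by rw [← hvv, hv0, map_zero]
      have h1 := congrArg (mul a₀) hr
      rw [map_add, map_smul, haa, hz, add_zero, map_zero] at h1
      have h := congrArg (mul a₀) (hsqr.symm.trans (hbb.trans ha1))
      simp only [map_add, map_smul, haa, hu, hv0, huu, hz, smul_zero, map_zero, add_zero, h1] at h
      have h2 : (p * p - p) • a₀ = 0 := by rw [sub_smul, h, sub_self]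
      have h3 : p * (p - 1) = 0 := by
        have := (smul_eq_zero.1 h2).resolve_right h₀.2.2.1.1.1
        linarith
      rcases mul_eq_zero.1 h3 with e | e
      exacts [Or.inl e, Or.inr (by linarith)]
    rcases hp01 with e | e
    · exact ⟨hp.trans e, by rw [hm0, e, hv0]; simp⟩
    · exfalso
      apply hne
      have h : B u u = 0 := by
        have h11 := hn₁
        rw [ha1, hv0, e, add_zero, one_smul] at h11
        simp only [map_add, LinearMap.add_apply, hn₀, hsym u a₀,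
          hB0 a₀ u 0 haa (by rw [hu, zero_smul]) (by norm_num)] at h11
        linarith
      have hu00 : u = 0 := by
        by_contra hh
        exact absurd h ((‹Cfsg.Axial.IsMajoranaAmbient mul B›).2.2.1 u hh).ne'
      rw [ha1, hv0, hu00, e]; simp
  · right
    have hp8 : p = 1 / 8 := by
      have := (smul_eq_zero.1 e2).resolve_right hv0
      linarith
    refine ⟨hp.trans hp8, ?_, ?_, ?_⟩
    · have e : a₀ + a₁ - (8 : ℝ) • m = (p : ℝ) • a₀ + u - v := by rw [hm0, ha1, hp8]; module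
      rw [e]
      have h1 : mul (p • a₀ + u - v) (p • a₀ + u - v) = mul a₁ a₁ - (p • v + (4 : ℝ) • mul u v) := by
        rw [ha1]
        simp only [map_add, map_sub, map_smul, LinearMap.add_apply, LinearMap.sub_apply, LinearMap.smul_apply, haa, hu,
          hv, hcomm u a₀, hcomm v a₀, hcomm v u]
        module
      rw [h1, hbb, ha1]
      have h'' : (2 : ℝ) • ((p / 2) • v + (2 : ℝ) • mul u v - v) = 0 := by rw [e1, smul_zero]
      rw [← sub_eq_zero, ← neg_eq_zero, ← h'']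
      module
    · rw [map_sub, map_add, map_smul, haa, ← hm, hm0, map_add, map_smul, map_smul, haa, hv, hp8]
      module
    · rw [map_sub, map_add, map_smul, hbb, hcomm a₁ a₀, ← hm, hbm, hp8]
      module

end Cfsg.Agent.S5545
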