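import Cfsg.Statements.S5599
import Cfsg.Agent.Lib.SporM24Elems

set_option autoImplicit false
open scoped Pointwise
open Cfsg

namespace Cfsg.Agent.S5599

open CfsgLib.Spor
open scoped Pointwise

/-- In the automorphism group of the length-24 code, the two-point Mathieu group (permutations of the code's group fixing the extra point and the residue 0) has index 2 in the setwise stabiliser of that pair of points, and an element of the code's group interchanging the two points normalises the two-point group and induces on it, by conjugation, an automorphism that is not inner. -/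
theorem result (g : Equiv.Perm Cfsg.GolayPt) (hg : g ∈ Cfsg.M24) (h₁ : g none = some 0) (h₂ : g (some 0) = none) : Cfsg.Spor.M22.relIndex (Cfsg.M24 ⊓ MulAction.stabilizer (Equiv.Perm Cfsg.GolayPt) ({none, some 0} : Finset Cfsg.GolayPt)) = 2 ∧ (∀ x ∈ Cfsg.Spor.M22, g * x * g⁻¹ ∈ Cfsg.Spor.M22) ∧ ¬ ∃ h ∈ Cfsg.Spor.M22, ∀ x ∈ Cfsg.Spor.M22, g * x * g⁻¹ = h * x * h⁻¹ := by
  have swap_not : listInCodeGroup ((List.range 24).map fun i => if i = 23 then 0 else if i = 0 then 23 else i) = false := by
    decide +kernel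
  set P := MulAction.stabilizer (Equiv.Perm Cfsg.GolayPt) ({none, some 0} : Finset Cfsg.GolayPt) with hP
  have hmem : ∀ x : P24, x ∈ Cfsg.Spor.M22 ↔ x ∈ Cfsg.M24 ∧ x none = none ∧ x (some 0) = some 0 := fun x => by
    simp only [Cfsg.Spor.M22, Cfsg.Spor.M23, Subgroup.mem_inf]
    exact and_assoc
  have hPmem : ∀ x : P24, x ∈ P ↔ ({x none, x (some 0)} : Finset Cfsg.GolayPt) = {none, some 0} := fun x => by
    rw [hP, MulAction.mem_stabilizer_iff, Finset.smul_finset_insert, Finset.smul_finset_singleton]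
    rfl
  have hPcases : ∀ x : P24, x ∈ P → (x none = none ∧ x (some 0) = some 0) ∨ (x none = some 0 ∧ x (some 0) = none) := by
    intro x hx
    rw [hPmem] at hx
    have a : x none ∈ ({none, some 0} : Finset Cfsg.GolayPt) := by rw [← hx]; simp
    have b : x (some 0) ∈ ({none, some 0} : Finset Cfsg.GolayPt) := by rw [← hx]; simp
    simp only [Finset.mem_insert, Finset.mem_singleton] at a b
    rcases a with a | a <;> rcases b with b | b
    · exact absurd (x.injective (a.trans b.symm)) (by simp)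
    · exact Or.inl ⟨a, b⟩
    · exact Or.inr ⟨a, b⟩
    · exact absurd (x.injective (a.trans b.symm)) (by simp)
  have gi0 : g⁻¹ none = some 0 := by rw [Equiv.Perm.inv_eq_iff_eq, h₂]
  have gi1 : g⁻¹ (some 0) = none := by rw [Equiv.Perm.inv_eq_iff_eq, h₁]
  have hconj : ∀ x ∈ Cfsg.Spor.M22, g * x * g⁻¹ ∈ Cfsg.Spor.M22 := fun x hx => by
    obtain ⟨xM, x0, x1⟩ := (hmem x).1 hx
    refine (hmem _).2 ⟨mul_mem (mul_mem hg xM) (inv_mem hg), ?_, ?_⟩
    · rw [Equiv.Perm.mul_apply, Equiv.Perm.mul_apply, gi0, x1, h₂]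
    · rw [Equiv.Perm.mul_apply, Equiv.Perm.mul_apply, gi1, x0, h₁]
  refine ⟨?_, hconj, ?_⟩
  · have hgK : g ∈ Cfsg.M24 ⊓ P := ⟨hg, (hPmem g).2 (by rw [h₁, h₂, Finset.pair_comm])⟩
    rw [Subgroup.relIndex, Subgroup.index_eq_two_iff]
    refine ⟨⟨g, hgK⟩, fun b => ?_⟩
    rcases hPcases b b.2.2 with ⟨b0, b1⟩ | ⟨b0, b1⟩
    · refine Or.inr ⟨Subgroup.mem_subgroupOf.2 ((hmem _).2 ⟨b.2.1, b0, b1⟩), fun hh => ?_⟩
      have := ((hmem _).1 (Subgroup.mem_subgroupOf.1 hh)).2.1
      change (b : P24) (g none) = none at this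
      rw [h₁, b1] at this
      simp at this
    · refine Or.inl ⟨Subgroup.mem_subgroupOf.2 ((hmem _).2 ⟨mul_mem b.2.1 hg, ?_, ?_⟩), fun hh => ?_⟩
      · show (b : P24) (g none) = none
        rw [h₁, b1]
      · show (b : P24) (g (some 0)) = some 0
        rw [h₂, b0]
      · have := ((hmem _).1 (Subgroup.mem_subgroupOf.1 hh)).2.1
        rw [b0] at this
        simp at this
  rintro ⟨h, hh, e⟩
  obtain ⟨hM, h0, h1'⟩ := (hmem h).1 hh
  have hy : ∀ x ∈ Cfsg.Spor.M22, h⁻¹ * g * x = x * (h⁻¹ * g) := fun x hx => by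
    have := e x hx
    calc h⁻¹ * g * x = h⁻¹ * (g * x * g⁻¹) * g := by group
      _ = h⁻¹ * (h * x * h⁻¹) * g := by rw [this]
      _ = x * (h⁻¹ * g) := by group
  have y0 : (h⁻¹ * g) none = some 0 := by rw [Equiv.Perm.mul_apply, h₁, Equiv.Perm.inv_eq_iff_eq, h1']
  have y1 : (h⁻¹ * g) (some 0) = none := by rw [Equiv.Perm.mul_apply, h₂, Equiv.Perm.inv_eq_iff_eq, h0]
  have yM : h⁻¹ * g ∈ Cfsg.M24 := mul_mem (inv_mem hM) hg
  generalize h⁻¹ * g = y at hy y0 y1 yM
  have rest : ∀ a : Cfsg.GolayPt, a ≠ none → a ≠ some 0 → y a = a := by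
    intro a a0 a1
    by_contra hne
    have b0 : y a ≠ none := fun h => a1 (y.injective (h.trans y1.symm))
    have b1 : y a ≠ some 0 := fun h => a0 (y.injective (h.trans y0.symm))
    obtain ⟨z, z0, z1, za, zy⟩ : ∃ z : Cfsg.GolayPt, z ≠ none ∧ z ≠ some 0 ∧ z ≠ a ∧ z ≠ y a := by
      obtain ⟨z, hz⟩ : (Finset.univ \ {none, some 0, a, y a} : Finset Cfsg.GolayPt).Nonempty := by
        rw [← Finset.card_pos]
        have h1 := Finset.le_card_sdiff ({none, some 0, a, y a} : Finset Cfsg.GolayPt) Finset.univ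
        have h2 : ({none, some 0, a, y a} : Finset Cfsg.GolayPt).card ≤ 4 := Finset.card_le_four
        have h3 : (Finset.univ : Finset Cfsg.GolayPt).card = 24 := by simp
        omega
      simp only [Finset.mem_sdiff, Finset.mem_insert, Finset.mem_singleton, not_or] at hz
      exact ⟨z, hz.2.1, hz.2.2.1, hz.2.2.2.1, hz.2.2.2.2⟩
    obtain ⟨x, hxM, hx⟩ := exists_M24_map (n := 4) (by norm_num)
      ⟨![none, some 0, a, y a], fun i j e' => by
        have := a0.symm; have := a1.symm; have := b0.symm; have := b1.symm; have := hne; have := Ne.symm hne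
        have := z0.symm; have := z1.symm; have := za.symm; have := zy.symm
        fin_cases i <;> fin_cases j <;> simp_all⟩
      ⟨![none, some 0, a, z], fun i j e' => by
        have := a0.symm; have := a1.symm; have := b0.symm; have := b1.symm; have := hne; have := Ne.symm hne
        have := z0.symm; have := z1.symm; have := za.symm; have := zy.symm
        fin_cases i <;> fin_cases j <;> simp_all⟩
    have hx22 : x ∈ Cfsg.Spor.M22 := (hmem x).2 ⟨hxM, hx 0, hx 1⟩
    have hcomm : y (x a) = x (y a) := congrArg (fun s : P24 => s a) (hy x hx22)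
    have xa : x a = a := hx 2
    have xya : x (y a) = z := hx 3
    rw [xa, xya] at hcomm
    exact zy hcomm.symm
  have hl : listOf y = (List.range 24).map fun i => if i = 23 then 0 else if i = 0 then 23 else i := by
    refine List.map_congr_left fun i hi => ?_
    have hi' := List.mem_range.1 hi
    by_cases e1 : i = 23
    · subst e1
      rw [show pt 23 = none from rfl, y0]; rfl
    by_cases e2 : i = 0
    · subst e2
      rw [show pt 0 = some 0 by decide +kernel, y1]; rfl
    · rw [if_neg e1, if_neg e2, rest, ix_pt hi']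
      · exact fun h => e1 (by have := congrArg ix h; rwa [ix_pt hi'] at this)
      · exact fun h => e2 (by have := congrArg ix h; rw [ix_pt hi'] at this; rw [this]; decide +kernel)
  have := listInCodeGroup_listOf yM
  rw [hl, swap_not] at this
  exact absurd this (by decide)

end Cfsg.Agent.S5599
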