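import Cfsg.Statements.S5600
import Cfsg.Agent.Lib.SporM24Six

set_option autoImplicit false
open scoped Pointwise
open Cfsg

namespace Cfsg.Agent.S5600

/-- Although the group of the length-24 code is only 5-transitive on the 24 points, it induces the full symmetric group on every 6-element subset: every permutation of a 6-set E is the restriction of an element of the group mapping E to itself. The pointwise stabiliser of E has order 16 when E lies in an octad and order 3 otherwise; in the latter case the setwise stabiliser of E has order 2160. -/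
theorem result (E : Finset Cfsg.GolayPt) (hE : E.card = 6) : (∀ σ : Equiv.Perm ↥E, ∃ g ∈ Cfsg.M24, ∀ p : ↥E, g p = σ p) ∧ ((∃ o ∈ Cfsg.octads, E ⊆ o) → Nat.card {g : Equiv.Perm Cfsg.GolayPt // g ∈ Cfsg.M24 ∧ ∀ p ∈ E, g p = p} = 16) ∧ ((¬ ∃ o ∈ Cfsg.octads, E ⊆ o) → Nat.card {g : Equiv.Perm Cfsg.GolayPt // g ∈ Cfsg.M24 ∧ ∀ p ∈ E, g p = p} = 3 ∧ Nat.card ↥(MulAction.stabilizer Cfsg.M24 E) = 2160) := by
  obtain ⟨h16, h3⟩ := CfsgLib.Spor.card_fix_set hE
  refine ⟨CfsgLib.Spor.exists_induced hE, h16, fun hno => ⟨h3 hno, ?_⟩⟩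
  have hmem : ∀ g : ↥(MulAction.stabilizer Cfsg.M24 E), ∀ p : Cfsg.GolayPt,
      ((g : Cfsg.M24) : Equiv.Perm Cfsg.GolayPt) p ∈ E ↔ p ∈ E := fun g p => by
    have hg : ((g : Cfsg.M24) : Equiv.Perm Cfsg.GolayPt) • E = E := g.2
    have h := Finset.smul_mem_smul_finset_iff (s := E) (b := p) ((g : Cfsg.M24) : Equiv.Perm Cfsg.GolayPt)
    rw [hg] at h
    exact h
  let f : ↥(MulAction.stabilizer Cfsg.M24 E) →* Equiv.Perm ↥E :=
    { toFun := fun g => Equiv.Perm.subtypePerm ((g : Cfsg.M24) : Equiv.Perm Cfsg.GolayPt) (hmem g)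
      map_one' := by ext p; rfl
      map_mul' := fun a b => by ext p; rfl }
  have hsurj : Function.Surjective f := by
    intro σ
    obtain ⟨g, hg, e⟩ := CfsgLib.Spor.exists_induced hE σ
    have hgE : g • E = E := by
      refine Finset.eq_of_subset_of_card_le ?_ (by rw [Finset.card_smul_finset])
      intro q hq
      obtain ⟨p, hp, rfl⟩ := Finset.mem_smul_finset.1 hq
      rw [Equiv.Perm.smul_def, e ⟨p, hp⟩]
      exact (σ ⟨p, hp⟩).2
    exact ⟨⟨⟨g, hg⟩, hgE⟩, Equiv.ext fun p => Subtype.ext (e p)⟩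
  have hker : Nat.card f.ker = 3 := by
    rw [← h3 hno]
    exact Nat.card_congr
      { toFun := fun g => ⟨((g.1 : Cfsg.M24) : Equiv.Perm Cfsg.GolayPt), (g.1 : Cfsg.M24).2, fun p hp =>
          congrArg (fun s : Equiv.Perm ↥E => (s ⟨p, hp⟩ : Cfsg.GolayPt)) (MonoidHom.mem_ker.1 g.2)⟩
        invFun := fun g => ⟨⟨⟨g.1, g.2.1⟩, MulAction.mem_stabilizer_iff.2 (by
            show g.1 • E = E
            rw [Finset.smul_finset_def]
            conv_rhs => rw [← Finset.image_id (s := E)]
            exact Finset.image_congr fun p hp => g.2.2 p hp)⟩,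
          MonoidHom.mem_ker.2 (Equiv.ext fun p => Subtype.ext (g.2.2 p p.2))⟩
        left_inv := fun g => rfl
        right_inv := fun g => rfl }
  rw [← Subgroup.card_mul_index f.ker, Subgroup.index_ker, MonoidHom.range_eq_top.2 hsurj, Subgroup.card_top, hker,
    Nat.card_perm, Nat.card_eq_fintype_card, Fintype.card_coe, hE]
  rfl

end Cfsg.Agent.S5600
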