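import Cfsg.Statements.S5601
import Cfsg.Agent.Lib.SporM24Fixed

set_option autoImplicit false
open scoped Pointwise
open Cfsg

namespace Cfsg.Agent.S5601

open CfsgLib.Spor
open scoped Pointwise

/-- The group of the length-24 code has exactly two conjugacy classes of subgroups of order 3: a subgroup of order 3 fixes either exactly 6 of the 24 points or none of them, both cases occur, and two subgroups of order 3 with the same number of fixed points are conjugate. -/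
theorem result : (∀ X : Subgroup ↥Cfsg.M24, Nat.card X = 3 → {p : Cfsg.GolayPt | ∀ x ∈ X, ((x : ↥Cfsg.M24) : Equiv.Perm Cfsg.GolayPt) p = p}.ncard = 6 ∨ {p : Cfsg.GolayPt | ∀ x ∈ X, ((x : ↥Cfsg.M24) : Equiv.Perm Cfsg.GolayPt) p = p}.ncard = 0) ∧ (∃ X : Subgroup ↥Cfsg.M24, Nat.card X = 3 ∧ {p : Cfsg.GolayPt | ∀ x ∈ X, ((x : ↥Cfsg.M24) : Equiv.Perm Cfsg.GolayPt) p = p}.ncard = 6) ∧ (∃ X : Subgroup ↥Cfsg.M24, Nat.card X = 3 ∧ {p : Cfsg.GolayPt | ∀ x ∈ X, ((x : ↥Cfsg.M24) : Equiv.Perm Cfsg.GolayPt) p = p}.ncard = 0) ∧ ∀ X Y : Subgroup ↥Cfsg.M24, Nat.card X = 3 → Nat.card Y = 3 → {p : Cfsg.GolayPt | ∀ x ∈ X, ((x : ↥Cfsg.M24) : Equiv.Perm Cfsg.GolayPt) p = p}.ncard = {p : Cfsg.GolayPt | ∀ x ∈ Y, ((x : ↥Cfsg.M24) : Equiv.Perm Cfsg.GolayPt) p = p}.ncard → ∃ k : ↥Cfsg.M24, MulAut.conj k • X = Y := by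
  have gen : ∀ X : Subgroup ↥Cfsg.M24, Nat.card X = 3 → ∃ x : ↥Cfsg.M24, orderOf (x : P24) = 3 ∧ X = Subgroup.zpowers x ∧
      {p : Cfsg.GolayPt | ∀ y ∈ X, ((y : ↥Cfsg.M24) : P24) p = p}.ncard = (Finset.univ.filter fun p => (x : P24) p = p).card := by
    intro X hX
    haveI := Fact.mk Nat.prime_three
    obtain ⟨x, hx⟩ := (isCyclic_of_prime_card hX).exists_generator
    have hXz : X = Subgroup.zpowers (x : ↥Cfsg.M24) := by
      refine le_antisymm (fun y hy => ?_) (Subgroup.zpowers_le.2 x.2)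
      obtain ⟨n, hn⟩ := Subgroup.mem_zpowers_iff.1 (hx ⟨y, hy⟩)
      exact Subgroup.mem_zpowers_iff.2 ⟨n, congrArg Subtype.val hn⟩
    have ho : orderOf ((x : ↥Cfsg.M24) : P24) = 3 := by
      rw [Subgroup.orderOf_coe, ← Nat.card_zpowers, ← hXz, hX]
    refine ⟨x, ho, hXz, ?_⟩
    rw [← Set.ncard_coe_finset]
    congr 1
    ext p
    simp only [Finset.coe_filter, Finset.mem_univ, true_and, Set.mem_setOf_eq]
    refine ⟨fun h => h x x.2, fun h y hy => ?_⟩
    rw [hXz] at hy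
    obtain ⟨n, rfl⟩ := Subgroup.mem_zpowers_iff.1 hy
    rw [Subgroup.coe_zpow]
    have : ((x : ↥Cfsg.M24) : P24) ∈ MulAction.stabilizer P24 p := h
    exact zpow_mem this n
  have hv : validL (repsThree.getD 0 []) = true ∧ validL (repsThree.getD 1 []) = true ∧
      listInCodeGroup (repsThree.getD 0 []) = true ∧ listInCodeGroup (repsThree.getD 1 []) = true ∧
      ordThree (repsThree.getD 0 []) = true ∧ ordThree (repsThree.getD 1 []) = true ∧
      repsThree.getD 0 [] ≠ List.range 24 ∧ repsThree.getD 1 [] ≠ List.range 24 ∧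
      wt (fixMask (repsThree.getD 0 [])) = 6 ∧ wt (fixMask (repsThree.getD 1 [])) = 0 := by decide +kernel
  obtain ⟨v0, v1, c0, c1, o0, o1, n0, n1, w0, w1⟩ := hv
  have mk' : ∀ r : List ℕ, validL r = true → listInCodeGroup r = true → ordThree r = true → r ≠ List.range 24 →
      ∀ w, wt (fixMask r) = w →
      ∃ X : Subgroup ↥Cfsg.M24, Nat.card X = 3 ∧
        {p : Cfsg.GolayPt | ∀ x ∈ X, ((x : ↥Cfsg.M24) : P24) p = p}.ncard = w := by
    intro r hr hc ho hn w hw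
    have hl : r.length = 24 := by simp only [validL, Bool.and_eq_true, Nat.beq_eq] at hr; exact hr.1.1
    set x : ↥Cfsg.M24 := ⟨permOf r, (rep_permOf hr).mem_M24 hc⟩
    have hne : permOf r ≠ 1 := fun e =>
      hn (((rep_permOf hr).listOf_eq hl).symm.trans (by rw [e]; exact rep_one.listOf_eq (by simp)))
    haveI := Fact.mk Nat.prime_three
    have hord : orderOf (permOf r) = 3 := by
      refine orderOf_eq_prime ?_ hne
      rw [ordThree, beq_iff_eq] at ho
      have := Rep.mul (by rw [length_mulL, hl]) (rep_permOf hr) (Rep.mul hl (rep_permOf hr) (rep_permOf hr))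
      rw [ho] at this
      rw [pow_succ, pow_two, mul_assoc]; exact Rep.ext this rep_one
    refine ⟨Subgroup.zpowers x, by rw [Nat.card_zpowers, ← Subgroup.orderOf_coe]; exact hord, ?_⟩
    have h := fix_card hr 1
    simp only [one_mul, inv_one, mul_one] at h
    rw [← hw, ← h, ← Set.ncard_coe_finset]
    congr 1
    ext p
    simp only [Finset.coe_filter, Finset.mem_univ, true_and, Set.mem_setOf_eq]
    refine ⟨fun h => h x (Subgroup.mem_zpowers x), fun h y hy => ?_⟩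
    obtain ⟨n, rfl⟩ := Subgroup.mem_zpowers_iff.1 hy
    rw [Subgroup.coe_zpow]
    have : permOf r ∈ MulAction.stabilizer P24 p := h
    exact zpow_mem this n
  refine ⟨fun X hX => ?_, mk' _ v0 c0 o0 n0 6 w0, mk' _ v1 c1 o1 n1 0 w1, fun X Y hX hY hfix => ?_⟩
  · obtain ⟨x, ho, -, hf⟩ := gen X hX
    rw [hf]
    obtain ⟨k, hk, ⟨-, hc⟩ | ⟨-, hc⟩⟩ := three_of_fix x.2 ho
    · exact Or.inl hc
    · exact Or.inr hc
  obtain ⟨x, hox, eX, fx⟩ := gen X hX
  obtain ⟨y, hoy, eY, fy⟩ := gen Y hY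
  rw [fx, fy] at hfix
  obtain ⟨a, ha, hxa⟩ := three_of_fix x.2 hox
  obtain ⟨b, hb, hyb⟩ := three_of_fix y.2 hoy
  refine ⟨⟨b * a⁻¹, mul_mem hb (inv_mem ha)⟩, ?_⟩
  have e : (b * a⁻¹) * (x : P24) * (b * a⁻¹)⁻¹ = y := by
    rcases hxa with ⟨e, hc⟩ | ⟨e, hc⟩ <;> rcases hyb with ⟨e', hc'⟩ | ⟨e', hc'⟩
    · rw [e, e']; group
    · omega
    · omega
    · rw [e, e']; group
  rw [eX, eY, Subgroup.pointwise_smul_def]
  exact (MonoidHom.map_zpowers _ x).trans (congrArg Subgroup.zpowers (Subtype.ext e))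

end Cfsg.Agent.S5601
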