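import Cfsg.Statements.S5604
import Cfsg.Agent.Lib.SporM24Fixed
import Cfsg.Agent.Lib.SporOctStab

set_option autoImplicit false
open scoped Pointwise
open Cfsg

namespace Cfsg.Agent.S5604

set_option maxHeartbeats 400000
set_option maxRecDepth 20000
open CfsgLib.Spor
open scoped Pointwise

def rL : List ℕ := [19, 7, 4, 3, 22, 2, 6, 17, 13, 8, 20, 9, 10, 18, 16, 14, 12, 5, 0, 11, 21, 15, 1, 23]
def tL : List ℕ := [2, 10, 14, 6, 16, 15, 23, 20, 7, 1, 9, 22, 11, 17, 0, 18, 19, 21, 5, 4, 8, 13, 12, 3]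
def wL : List ℕ := [0, 10, 14, 3, 16, 15, 23, 20, 8, 9, 1, 11, 22, 13, 2, 5, 4, 21, 18, 19, 7, 17, 12, 6]
def iter (n : ℕ) (L : List ℕ) : List ℕ := (mulL L)^[n] (List.range 24)

theorem facts : isElem rL = true ∧ isElem tL = true ∧ isElem wL = true ∧ validL rL = true ∧
    iter 7 rL = List.range 24 ∧ rL ≠ List.range 24 ∧
    iter 3 tL = List.range 24 ∧ tL ≠ List.range 24 ∧
    iter 2 wL = List.range 24 ∧ wL ≠ List.range 24 ∧
    mulL rL tL = mulL tL rL ∧ mulL rL wL = mulL wL rL ∧ mulL tL wL ≠ mulL wL tL := by decide +kernel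

theorem oct_facts : (797449 : ℕ) ∈ weightMasks 8 ∧
    ([0, 19, 11, 9, 8, 13].map pt).toFinset.card = 6 ∧
    ([0, 19, 11, 9, 8, 13].map pt).toFinset ⊆ setOfMask 797449 ∧
    pt 6 ∉ setOfMask 797449 := by decide +kernel

theorem moved_facts :
    (Finset.univ.filter fun q : GolayPt => rL.getD (ix q) 0 ≠ ix q).card = 21 ∧
    (Finset.univ.filter fun q : GolayPt => rL.getD (ix q) 0 = ix q).card = 3 ∧
    rL.getD 0 0 ≠ 0 ∧ rL.getD 6 0 = 6 := by decide +kernel

theorem six_facts : rL.getD 0 0 = 19 ∧ rL.getD 19 0 = 11 ∧ rL.getD 11 0 = 9 ∧ rL.getD 9 0 = 8 ∧ rL.getD 8 0 = 13 := by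
  decide +kernel

theorem trio_facts : ∀ o ∈ [4325622, 797449, 11654144],
    o ∈ weightMasks 8 ∧ pull rL o = o ∧ o < 2 ^ 24 := by decide +kernel

theorem trio_disj0 : ([4325622, 797449, 11654144].map setOfMask).toFinset.card = 3 := by decide +kernel

theorem trio_disj1 : ∀ a ∈ [4325622, 797449, 11654144], ∀ b ∈ [4325622, 797449, 11654144],
    a ≠ b → Nat.land a b = 0 := by decide +kernel

theorem trio_disj : ([4325622, 797449, 11654144].map setOfMask).toFinset.card = 3 ∧
    ∀ a ∈ ([4325622, 797449, 11654144].map setOfMask).toFinset,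
      ∀ b ∈ ([4325622, 797449, 11654144].map setOfMask).toFinset, a ≠ b → a ∩ b = ∅ := by
  refine ⟨trio_disj0, fun a ha b hb hne => ?_⟩
  obtain ⟨m, hm, rfl⟩ := List.mem_map.1 (List.mem_toFinset.1 ha)
  obtain ⟨m', hm', rfl⟩ := List.mem_map.1 (List.mem_toFinset.1 hb)
  ext q
  simp only [Finset.mem_inter, mem_setOfMask, Finset.notMem_empty, iff_false]
  intro h
  have h0 : (m &&& m').testBit (ix q) = true := by rw [Nat.testBit_and, h.1, h.2]; rfl
  rw [show m &&& m' = Nat.land m m' from rfl, trio_disj1 m hm m' hm' fun e => hne (by rw [e]), Nat.zero_testBit] at h0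
  exact Bool.false_ne_true h0

theorem fixed_count : (octObjs.countP fun X => sameSet (X.map (pull rL)) X) = 3 := by decide +kernel

noncomputable def r0 : ↥M24 := ⟨permOf rL, (isElem_spec facts.1).1⟩

theorem iter_rep {L : List ℕ} (h : isElem L = true) : ∀ n, Rep ((permOf L) ^ n) (iter n L) ∧ (iter n L).length = 24
  | 0 => ⟨by rw [pow_zero]; exact rep_one, by simp [iter]⟩
  | n + 1 => by
    obtain ⟨h1, h2⟩ := iter_rep h n
    rw [iter, Function.iterate_succ_apply', pow_succ']
    exact ⟨Rep.mul h2 (isElem_spec h).2.2 h1, by rw [length_mulL]; exact h2⟩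

theorem order_eq {L : List ℕ} (h : isElem L = true) {n : ℕ} (hn : n.Prime) (hi : iter n L = List.range 24)
    (h1 : L ≠ List.range 24) : orderOf (⟨permOf L, (isElem_spec h).1⟩ : ↥M24) = n := by
  have : Fact n.Prime := ⟨hn⟩
  refine orderOf_eq_prime (Subtype.ext ?_) fun e => h1 ?_
  · show (permOf L) ^ n = 1
    exact Rep.ext (hi ▸ (iter_rep h n).1) rep_one
  · have e' : permOf L = 1 := congrArg Subtype.val e
    have hr := (isElem_spec h).2.2
    rw [e'] at hr
    exact (hr.listOf_eq (isElem_spec h).2.1).symm.trans (rep_one.listOf_eq (by simp))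

theorem comm_of {L L' : List ℕ} (h : isElem L = true) (h' : isElem L' = true) :
    mulL L L' = mulL L' L ↔ permOf L * permOf L' = permOf L' * permOf L := by
  have a := Rep.mul (isElem_spec h').2.1 (isElem_spec h).2.2 (isElem_spec h').2.2
  have b := Rep.mul (isElem_spec h).2.1 (isElem_spec h').2.2 (isElem_spec h).2.2
  refine ⟨fun e => Rep.ext a (e.symm ▸ b), fun e => ?_⟩
  rw [e] at a
  exact (a.listOf_eq (by rw [length_mulL]; exact (isElem_spec h').2.1)).symm.trans
    (b.listOf_eq (by rw [length_mulL]; exact (isElem_spec h).2.1))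

theorem r_apply {i : ℕ} (hi : i < 24) : permOf rL (pt i) = pt (rL.getD i 0) :=
  (isElem_spec facts.1).2.2.apply_pt hi

theorem r_fix (q : GolayPt) : permOf rL q = q ↔ rL.getD (ix q) 0 = ix q := by
  rw [← (isElem_spec facts.1).2.2 q]
  exact ⟨fun e => by rw [e], fun e => ix_inj e⟩

theorem cent_r0 : Nat.card ↥(Subgroup.centralizer ({r0} : Set ↥M24)) = 42 := by
  classical
  let C := Subgroup.centralizer ({r0} : Set ↥M24)
  have ho : setOfMask 797449 ∈ octads := setOfMask_mem_octads oct_facts.1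
  have hcomm : ∀ (g : ↥C) (q : GolayPt), permOf rL (((g : ↥M24) : P24) q) = ((g : ↥M24) : P24) (permOf rL q) :=
    fun g q => (Equiv.ext_iff.1 (congrArg Subtype.val (Subgroup.mem_centralizer_singleton_iff.1 g.2)) q).symm
  have hinv : ∀ (g : ↥C) q, permOf rL q = q ↔ permOf rL (((g : ↥M24) : P24) q) = ((g : ↥M24) : P24) q := fun g q => by
    rw [hcomm, (((g : ↥M24) : P24)).injective.eq_iff]
  let f : ↥C → ↥(Finset.univ.filter fun q : GolayPt => rL.getD (ix q) 0 ≠ ix q) ×
      ↥(Finset.univ.filter fun q : GolayPt => rL.getD (ix q) 0 = ix q) := fun g =>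
    (⟨((g : ↥M24) : P24) (pt 0), Finset.mem_filter.2 ⟨Finset.mem_univ _, fun e => moved_facts.2.2.1 (by
        have := (r_fix _).1 ((hinv g (pt 0)).2 ((r_fix _).2 e))
        rwa [ix_pt (by norm_num)] at this)⟩⟩,
      ⟨((g : ↥M24) : P24) (pt 6), Finset.mem_filter.2 ⟨Finset.mem_univ _, (r_fix _).1 ((hinv g (pt 6)).1
        ((r_fix _).2 (by rw [ix_pt (by norm_num)]; exact moved_facts.2.2.2)))⟩⟩)
  have hf : Function.Injective f := fun g h e => by
    have e0 : ((g : ↥M24) : P24) (pt 0) = ((h : ↥M24) : P24) (pt 0) := congrArg (fun x => (x.1 : GolayPt)) e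
    have e6 : ((g : ↥M24) : P24) (pt 6) = ((h : ↥M24) : P24) (pt 6) := congrArg (fun x => (x.2 : GolayPt)) e
    let d : ↥C := h⁻¹ * g
    have d0 : ((d : ↥M24) : P24) (pt 0) = pt 0 := by
      show ((h : ↥M24) : P24)⁻¹ (((g : ↥M24) : P24) (pt 0)) = pt 0
      rw [e0]; simp
    have d6 : ((d : ↥M24) : P24) (pt 6) = pt 6 := by
      show ((h : ↥M24) : P24)⁻¹ (((g : ↥M24) : P24) (pt 6)) = pt 6
      rw [e6]; simp
    have step : ∀ i j, i < 24 → rL.getD i 0 = j → ((d : ↥M24) : P24) (pt i) = pt i →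
        ((d : ↥M24) : P24) (pt j) = pt j := fun i j hi hij hd => by
      rw [← hij, ← r_apply hi, ← hcomm, hd]
    obtain ⟨s1, s2, s3, s4, s5⟩ := six_facts
    have d1 := step _ _ (by norm_num) s1 d0
    have d2 := step _ _ (by norm_num) s2 d1
    have d3 := step _ _ (by norm_num) s3 d2
    have d4 := step _ _ (by norm_num) s4 d3
    have d5 := step _ _ (by norm_num) s5 d4
    have hoct := fix_oct_of_six ho oct_facts.2.1 oct_facts.2.2.1 (d : ↥M24).2 (fun q hq => by
      simp only [List.map_cons, List.map_nil, List.mem_toFinset, List.mem_cons, List.not_mem_nil, or_false] at hq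
      rcases hq with rfl | rfl | rfl | rfl | rfl | rfl <;> assumption)
    have hd : d = 1 := Subtype.ext (Subtype.ext (fix_outside_eq_one ho oct_facts.2.2.2 (d : ↥M24).2 hoct d6))
    exact (inv_mul_eq_one.1 hd).symm
  have h63 : Nat.card ↥C ≤ 63 := by
    refine (Nat.card_le_card_of_injective f hf).trans_eq ?_
    rw [Nat.card_prod, Nat.card_eq_fintype_card, Nat.card_eq_fintype_card, Fintype.card_coe, Fintype.card_coe,
      moved_facts.1, moved_facts.2.1]
  obtain ⟨h1, h2, h3, -, r7, r7', t3, t3', w2, w2', hrt, hrw, -⟩ := facts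
  have hd : ∀ (L : List ℕ) (h : isElem L = true) (n : ℕ), n.Prime → iter n L = List.range 24 → L ≠ List.range 24 →
      mulL rL L = mulL L rL → n ∣ Nat.card ↥C := fun L h n hn hi hne hc => by
    rw [← order_eq h hn hi hne]
    exact Subgroup.orderOf_dvd_natCard C (Subgroup.mem_centralizer_singleton_iff.2
      (Subtype.ext ((comm_of h1 h).1 hc).symm))
  have a7 := hd rL h1 7 (by norm_num) r7 r7' rfl
  have a3 := hd tL h2 3 (by norm_num) t3 t3' hrt
  have a2 := hd wL h3 2 (by norm_num) w2 w2' hrw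
  have h42 : 42 ∣ Nat.card ↥C :=
    Nat.Coprime.mul_dvd_of_dvd_of_dvd (by norm_num : Nat.Coprime 6 7)
      (Nat.Coprime.mul_dvd_of_dvd_of_dvd (by norm_num : Nat.Coprime 2 3) a2 a3) a7
  have hpos : 0 < Nat.card ↥C := Nat.card_pos
  show Nat.card ↥C = 42
  obtain ⟨m, hm⟩ := h42
  omega

theorem cent_r0_nonabelian : ∃ x ∈ Subgroup.centralizer ({r0} : Set ↥M24),
    ∃ y ∈ Subgroup.centralizer ({r0} : Set ↥M24), x * y ≠ y * x := by
  obtain ⟨h1, h2, h3, -, -, -, -, -, -, -, hrt, hrw, htw⟩ := facts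
  exact ⟨⟨permOf tL, (isElem_spec h2).1⟩, Subgroup.mem_centralizer_singleton_iff.2 (Subtype.ext ((comm_of h1 h2).1 hrt).symm),
    ⟨permOf wL, (isElem_spec h3).1⟩, Subgroup.mem_centralizer_singleton_iff.2 (Subtype.ext ((comm_of h1 h3).1 hrw).symm),
    fun e => htw ((comm_of h2 h3).2 (congrArg Subtype.val e))⟩

theorem sylow_arith : ∀ k ∈ List.range 7, k ≠ 0 → 244823040 % (k * 42) = 0 →
    244823040 / (k * 42) % 7 = 1 → k = 3 := by decide +kernel


/-- For a subgroup S of order 7 of the group of the length-24 code (a Sylow 7-subgroup): the normaliser of S has order 126, the centraliser of S has order 42 and is non-abelian, and the whole normaliser leaves some trio invariant. (These are the orders of a Frobenius group of order 21 times a symmetric group of degree 3; the isomorphism type itself is not asserted here.) -/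
theorem result (S : Subgroup ↥Cfsg.M24) (hS : Nat.card S = 7) : Nat.card ↥(Subgroup.normalizer (S : Set ↥Cfsg.M24)) = 126 ∧ Nat.card ↥(Subgroup.centralizer (S : Set ↥Cfsg.M24)) = 42 ∧ (∃ x ∈ Subgroup.centralizer (S : Set ↥Cfsg.M24), ∃ y ∈ Subgroup.centralizer (S : Set ↥Cfsg.M24), x * y ≠ y * x) ∧ ∃ T ∈ Cfsg.trios, ∀ n ∈ Subgroup.normalizer (S : Set ↥Cfsg.M24), ((n : ↥Cfsg.M24) : Equiv.Perm Cfsg.GolayPt) • T = T := by
  classical
  have : Fact (Nat.Prime 7) := ⟨by norm_num⟩
  have hfac : (Nat.card ↥M24).factorization 7 = 1 := by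
    rw [card_M24, show (244823040 : ℕ) = 7 * 34974720 from rfl, Nat.factorization_mul (by norm_num) (by norm_num),
      Finsupp.add_apply, Nat.Prime.factorization_self (by norm_num), Nat.factorization_eq_zero_of_not_dvd (by norm_num)]
  let P : Sylow 7 ↥M24 := Sylow.ofCard S (by rw [hS, hfac, pow_one])
  have hr0 : orderOf r0 = 7 := order_eq facts.1 (by norm_num) facts.2.2.2.2.1 facts.2.2.2.2.2.1
  let P0 : Sylow 7 ↥M24 := Sylow.ofCard (Subgroup.zpowers r0) (by rw [Nat.card_zpowers, hr0, hfac, pow_one])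
  obtain ⟨k, hk⟩ := MulAction.exists_smul_eq ↥M24 P0 P
  have hSk : S = (Subgroup.zpowers r0).map (MulAut.conj k).toMonoidHom := by
    have := congrArg (fun Q : Sylow 7 ↥M24 => (Q : Subgroup ↥M24)) hk
    exact this.symm
  set g := MulAut.conj k r0 with hg
  have hSg : S = Subgroup.zpowers g := by rw [hSk, MonoidHom.map_zpowers]; rfl
  have hCeq : Subgroup.centralizer (S : Set ↥M24) = (Subgroup.centralizer ({r0} : Set ↥M24)).map (MulAut.conj k).toMonoidHom := by
    ext x
    rw [hSg, Subgroup.zpowers_eq_closure, Subgroup.centralizer_closure, Subgroup.mem_centralizer_singleton_iff]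
    refine ⟨fun h => ⟨k⁻¹ * x * k, Subgroup.mem_centralizer_singleton_iff.2 ?_, by simp [mul_assoc]⟩, ?_⟩
    · rw [hg, MulAut.conj_apply] at h
      calc k⁻¹ * x * k * r0 = k⁻¹ * (x * (k * r0 * k⁻¹)) * k := by group
        _ = r0 * (k⁻¹ * x * k) := by rw [h]; group
    · rintro ⟨y, hy, rfl⟩
      show MulAut.conj k y * g = g * MulAut.conj k y
      rw [hg, ← map_mul, ← map_mul, Subgroup.mem_centralizer_singleton_iff.1 hy]
  have hCcard : Nat.card ↥(Subgroup.centralizer (S : Set ↥M24)) = 42 := by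
    rw [hCeq, Subgroup.card_map_of_injective (MulAut.conj k).injective, cent_r0]
  set N := Subgroup.normalizer (S : Set ↥M24) with hN
  have hle : Subgroup.centralizer (S : Set ↥M24) ≤ N := Subgroup.centralizer_le_normalizer _
  let φ : ↥N →* MulAut ↥S := S.normalizerMonoidHom
  have hker : φ.ker = (Subgroup.centralizer (S : Set ↥M24)).subgroupOf N := S.normalizerMonoidHom_ker
  have hNcard : Nat.card ↥N = 126 := by
    have : IsCyclic ↥S := isCyclic_of_prime_card hS
    have h6 : Nat.card (MulAut ↥S) = 6 := by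
      rw [IsCyclic.card_mulAut, hS]; rfl
    have hrng : Nat.card ↥φ.range ∣ 6 := h6 ▸ Subgroup.card_subgroup_dvd_card _
    have hsplit := φ.ker.card_mul_index
    rw [Subgroup.index_ker, hker, Nat.card_congr (Subgroup.subgroupOfEquivOfLe hle).toEquiv, hCcard] at hsplit
    have hidx := Subgroup.card_mul_index N
    have hmod := card_sylow_modEq_one 7 ↥M24
    rw [Sylow.card_eq_index_normalizer P] at hmod
    change N.index ≡ 1 [MOD 7] at hmod
    set a := Nat.card ↥φ.range
    have ha0 : a ≠ 0 := Nat.card_pos.ne'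
    have ha7 : a < 7 := Nat.lt_succ_of_le (Nat.le_of_dvd (by norm_num) hrng)
    rw [card_M24, ← hsplit] at hidx
    have hpos : 0 < a * 42 := by omega
    have e3 : a = 3 := sylow_arith a (List.mem_range.2 ha7) ha0
      (by rw [← hidx, mul_comm a]; exact Nat.mul_mod_right _ _)
      (by rw [← hidx, mul_comm a, Nat.mul_div_cancel_left _ (by omega)]; exact hmod)
    omega
  refine ⟨hNcard, hCcard, ?_, ?_⟩
  · obtain ⟨x, hx, y, hy, hne⟩ := cent_r0_nonabelian
    refine ⟨MulAut.conj k x, hCeq ▸ ⟨x, hx, rfl⟩, MulAut.conj k y, hCeq ▸ ⟨y, hy, rfl⟩, fun e => hne ?_⟩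
    rw [← map_mul, ← map_mul] at e
    exact (MulAut.conj k).injective e
  · let T : Finset (Finset GolayPt) := ([4325622, 797449, 11654144].map setOfMask).toFinset
    have hT : T ∈ trios := ⟨trio_disj.1, fun o ho => by
      obtain ⟨m, hm, rfl⟩ := List.mem_map.1 (List.mem_toFinset.1 ho)
      exact setOfMask_mem_octads (trio_facts m hm).1,
      fun a ha b hb hne => Finset.disjoint_iff_inter_eq_empty.2 (trio_disj.2 a ha b hb hne)⟩
    have hTfix : ∀ o ∈ T, permOf rL • o = o := fun o ho => by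
      obtain ⟨m, hm, rfl⟩ := List.mem_map.1 (List.mem_toFinset.1 ho)
      have h := (isElem_spec facts.1).2.2.smul_setOfMask (isElem_spec facts.1).2.1 m
      rw [(trio_facts m hm).2.1, inv_smul_eq_iff] at h
      exact h.symm
    have hset : {o : Finset GolayPt | o ∈ octads ∧ permOf rL • o = o} = ↑T := by
      refine (Set.eq_of_subset_of_ncard_le (show (↑T : Set (Finset GolayPt)) ⊆ {o : Finset GolayPt | o ∈ octads ∧ permOf rL • o = o} from fun o ho => ⟨hT.2.1 o ho, hTfix o ho⟩) ?_ (Set.toFinite _)).symm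
      have h := octCoded.fixed_ncard (one_mem M24) (r := rL) facts.2.2.2.1
      rw [one_mul, inv_one, mul_one, fixed_count] at h
      rw [h, Set.ncard_coe_finset, trio_disj.1]
    refine Exists.intro ((k : P24) • T) ?_
    refine ⟨⟨?_, ?_, ?_⟩, ?_⟩
    · rw [Finset.card_smul_finset]; exact hT.1
    · intro o ho
      obtain ⟨w, hw, rfl⟩ := Finset.mem_smul_finset.1 ho
      exact smul_mem_octads' k.2 (hT.2.1 w hw)
    · intro o ho o' ho' hne
      obtain ⟨w, hw, rfl⟩ := Finset.mem_smul_finset.1 ho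
      obtain ⟨w', hw', rfl⟩ := Finset.mem_smul_finset.1 ho'
      rw [Finset.disjoint_left]
      intro q hq hq'
      rw [← Finset.inv_smul_mem_iff] at hq hq'
      exact Finset.disjoint_left.1 (hT.2.2 w hw w' hw' (fun e => hne (by rw [e]))) hq hq'
    · intro n hn
      refine Finset.eq_of_subset_of_card_le (fun o ho => ?_) (by simp [Finset.card_smul_finset])
      obtain ⟨v, hv, rfl⟩ := Finset.mem_smul_finset.1 ho
      obtain ⟨w, hw, rfl⟩ := Finset.mem_smul_finset.1 hv
      set m : ↥M24 := k⁻¹ * n * k with hm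
      have hgS : g ∈ S := by rw [hSg]; exact Subgroup.mem_zpowers g
      have hng : n⁻¹ * g * n ∈ S := by
        have := (Subgroup.mem_normalizer_iff.1 (N.inv_mem hn) g).1 hgS
        rwa [inv_inv] at this
      rw [hSg, Subgroup.mem_zpowers_iff] at hng
      obtain ⟨j, hj⟩ := hng
      have hconj : r0 * m = m * r0 ^ j := by
        have hj' : k * r0 ^ j * k⁻¹ = n⁻¹ * g * n := by rw [← conj_zpow]; exact hj
        calc r0 * m = k⁻¹ * n * (n⁻¹ * g * n) * k := by rw [hm, hg, MulAut.conj_apply]; group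
          _ = m * r0 ^ j := by rw [← hj', hm]; group
      have hstab : ((r0 ^ j : ↥M24) : P24) • w = w := by
        have : (r0 ^ j : ↥M24) ∈ MulAction.stabilizer ↥M24 w :=
          Subgroup.zpow_mem _ (MulAction.mem_stabilizer_iff.2 (hTfix w hw)) j
        exact this
      have hmw : (m : P24) • w ∈ T := by
        have : (m : P24) • w ∈ {o : Finset GolayPt | o ∈ octads ∧ permOf rL • o = o} := by
          refine ⟨smul_mem_octads' m.2 (hT.2.1 w hw), ?_⟩
          show (r0 : P24) • (m : P24) • w = _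
          rw [← mul_smul, show (r0 : P24) * (m : P24) = (m : P24) * ((r0 ^ j : ↥M24) : P24) from
            congrArg Subtype.val hconj, mul_smul, hstab]
        rw [hset] at this
        exact this
      refine Finset.mem_smul_finset.2 ⟨_, hmw, ?_⟩
      rw [smul_smul, smul_smul]
      congr 1
      show ((k * m : ↥M24) : P24) = ((n * k : ↥M24) : P24)
      rw [hm]; congr 1; group

end Cfsg.Agent.S5604
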