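import Cfsg.Statements.S5606
import Cfsg.Agent.Lib.SporM24Fixed

set_option autoImplicit false
open scoped Pointwise
open Cfsg

namespace Cfsg.Agent.S5606

open CfsgLib.Spor
open scoped Pointwise

/-- A fixed-point-free involution of the group of the length-24 code maps to themselves exactly 15 octads, exactly 75 trios and exactly 51 sextets. -/
theorem result (g : Equiv.Perm Cfsg.GolayPt) (hg : g ∈ Cfsg.M24) (h₂ : orderOf g = 2) (h₀ : ∀ p, g p ≠ p) : {o : Finset Cfsg.GolayPt | o ∈ Cfsg.octads ∧ g • o = o}.ncard = 15 ∧ {T : Finset (Finset Cfsg.GolayPt) | T ∈ Cfsg.trios ∧ g • T = T}.ncard = 75 ∧ {S : Finset (Finset Cfsg.GolayPt) | S ∈ Cfsg.sextets ∧ g • S = S}.ncard = 51 := by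
  obtain ⟨k, hk, hkk⟩ := two_of_fix hg h₂
  obtain rfl : g = k * permOf (repsTwo.getD 1 []) * k⁻¹ := by
    rcases hkk with ⟨e, hc⟩ | ⟨e, hc⟩
    · rw [card_fix_zero.2 h₀] at hc; omega
    · exact e
  have hv : validL (repsTwo.getD 1 []) = true := by decide +kernel
  refine ⟨?_, ?_, ?_⟩
  · rw [octCoded.fixed_ncard hk hv]; decide +kernel
  · rw [trioCoded.fixed_ncard hk hv]; decide +kernel
  · rw [sextCoded.fixed_ncard hk hv]; decide +kernel

end Cfsg.Agent.S5606
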