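import Cfsg.Statements.S5607
import Cfsg.Agent.Lib.SporM24Cent
import Cfsg.Agent.Lib.SporObjTrans

set_option autoImplicit false
open scoped Pointwise
open Cfsg

namespace Cfsg.Agent.S5607

open CfsgLib.Spor
open scoped Pointwise

/-- For a fixed-point-free involution t of the group of the length-24 code: its centraliser in that group has order 7680, is transitive on the 24 points, and is contained, together with t, in the stabiliser of some sextet. -/
theorem result (t : Equiv.Perm Cfsg.GolayPt) (ht : t ∈ Cfsg.M24) (h₂ : orderOf t = 2) (h₀ : ∀ p, t p ≠ p) : Nat.card {c : Equiv.Perm Cfsg.GolayPt // c ∈ Cfsg.M24 ∧ c * t = t * c} = 7680 ∧ (∀ p q : Cfsg.GolayPt, ∃ c ∈ Cfsg.M24, c * t = t * c ∧ c p = q) ∧ ∃ S ∈ Cfsg.sextets, t • S = S ∧ ∀ c ∈ Cfsg.M24, c * t = t * c → c • S = S := by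
  obtain ⟨U, hU⟩ := canonical_sextet ht h₂ h₀
  have hm : U ∈ {S | S ∈ Cfsg.sextets ∧ ∀ u ∈ S, t • u = u} := by rw [hU]; rfl
  obtain ⟨hUs, hUfix⟩ := hm
  refine ⟨?_, centralizer_transitive ht h₂ h₀, U, hUs, ?_, fun c hc e => centralizer_fix ht h₂ h₀ hUs hUfix hc e⟩
  · obtain ⟨b, hb, eU⟩ := sextCoded.exists_base trSext_stab trSext_trans bases_mem.2.1 hUs
    obtain rfl : U = b • setSet sextBase := eU
    have hfix : ∀ v ∈ setSet sextBase, (b⁻¹ * t * b) • v = v := fun v hv => by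
      rw [mul_smul, mul_smul, hUfix _ (Finset.smul_mem_smul_finset hv), inv_smul_smul]
    have htM : b⁻¹ * t * b ∈ Cfsg.M24 := mul_mem (mul_mem (inv_mem hb) ht) hb
    have hker : b⁻¹ * t * b ∈ sextKer := by
      refine mem_sextKer.2 ⟨mem_stabL.2 ⟨htM, fun B hB => ?_⟩, fun i => hfix _ (mem_sextBase_set.2 ⟨i, rfl⟩)⟩
      rw [List.mem_singleton.1 hB]
      refine Finset.eq_of_subset_of_card_le (fun u hu => ?_) (by rw [Finset.card_smul_finset])
      obtain ⟨v, hv, rfl⟩ := Finset.mem_smul_finset.1 hu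
      rw [hfix v hv]; exact hv
    have h2' : orderOf (b⁻¹ * t * b) = 2 := by
      have hc : b⁻¹ * t * b = MulAut.conj b⁻¹ t := by simp
      rw [hc, MulEquiv.orderOf_eq, h₂]
    have h0' : ∀ p, (b⁻¹ * t * b) p ≠ p := fun p hp => h₀ (b p) (by
      have := congrArg (fun q => b q) hp
      simpa using this)
    rw [← card_centralizer_base hker h2' h0']
    exact Nat.card_congr
      { toFun := fun c => ⟨b⁻¹ * c.1 * b, mul_mem (mul_mem (inv_mem hb) c.2.1) hb, by
          rw [show b⁻¹ * c.1 * b * (b⁻¹ * t * b) = b⁻¹ * (c.1 * t) * b by group, c.2.2]; group⟩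
        invFun := fun c => ⟨b * c.1 * b⁻¹, mul_mem (mul_mem hb c.2.1) (inv_mem hb), by
          rw [show b * c.1 * b⁻¹ * t = b * (c.1 * (b⁻¹ * t * b)) * b⁻¹ by group, c.2.2]; group⟩
        left_inv := fun c => Subtype.ext (by simp [mul_assoc])
        right_inv := fun c => Subtype.ext (by simp [mul_assoc]) }
  · refine Finset.eq_of_subset_of_card_le (fun u hu => ?_) (by rw [Finset.card_smul_finset])
    obtain ⟨v, hv, rfl⟩ := Finset.mem_smul_finset.1 hu
    rw [hUfix v hv]; exact hv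

end Cfsg.Agent.S5607
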