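import Cfsg.Statements.S5608
import Cfsg.Agent.Lib.SporM24Pairs

set_option autoImplicit false
open scoped Pointwise
open Cfsg

namespace Cfsg.Agent.S5608

open CfsgLib.Spor
open scoped Pointwise

/-- If an element of order 3 and an involution of the group of the length-24 code commute, then either the element of order 3 has exactly 6 fixed points and the involution exactly 8, or both are fixed-point-free. -/
theorem result (x s : Equiv.Perm Cfsg.GolayPt) (hx : x ∈ Cfsg.M24) (hs : s ∈ Cfsg.M24) (h₃ : orderOf x = 3) (h₂ : orderOf s = 2) (hc : Commute x s) : ((Finset.univ.filter fun p => x p = p).card = 6 ∧ (Finset.univ.filter fun p => s p = p).card = 8) ∨ ((Finset.univ.filter fun p => x p = p).card = 0 ∧ (Finset.univ.filter fun p => s p = p).card = 0) := by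
  have hsq : s * s = 1 := by rw [← pow_two, ← h₂]; exact pow_orderOf_eq_one s
  have hcube : x ^ 3 = 1 := by rw [← h₃]; exact pow_orderOf_eq_one x
  obtain ⟨k, hk, hxk⟩ := three_of_fix hx h₃
  obtain ⟨l, hl, hsl⟩ := two_of_fix hs h₂
  rcases hxk with ⟨ex, cx⟩ | ⟨ex, cx⟩ <;> rcases hsl with ⟨es, cs⟩ | ⟨es, cs⟩
  · exact Or.inl ⟨cx, cs⟩
  · exfalso
    refine no_fpf_commute (s := k⁻¹ * s * k) (mul_mem (mul_mem (inv_mem hk) hs) hk) ?_ (fun p hp => ?_) ?_
    · rw [show k⁻¹ * s * k * (k⁻¹ * s * k) = k⁻¹ * (s * s) * k by group, hsq]; group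
    · refine card_fix_zero.1 cs (k p) ?_
      have := congrArg (fun q => k q) hp
      simpa using this
    · calc k⁻¹ * s * k * permOf (repsThree.getD 0 []) = k⁻¹ * (s * x) * k := by rw [ex]; group
        _ = k⁻¹ * (x * s) * k := by rw [hc.eq]
        _ = permOf (repsThree.getD 0 []) * (k⁻¹ * s * k) := by rw [ex]; group
  · exfalso
    have hmem : ∀ p, s (x p) = x p ↔ s p = p := fun p => by
      have : s (x p) = x (s p) := congrArg (fun g : P24 => g p) hc.eq.symm
      rw [this]
      exact x.injective.eq_iff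
    set e : Equiv.Perm {p : Cfsg.GolayPt // s p = p} := x.subtypePerm hmem with he
    haveI := Fact.mk Nat.prime_three
    have h3 : e ^ 3 ^ 1 = 1 := by
      rw [pow_one, he, Equiv.Perm.subtypePerm_pow]
      ext p
      simp [hcube]
    have h := Equiv.Perm.card_compl_support_modEq h3
    have h0 : e.supportᶜ.card = 0 := by
      rw [Finset.card_eq_zero, Finset.eq_empty_iff_forall_notMem]
      intro p hp
      rw [Finset.mem_compl, Equiv.Perm.notMem_support] at hp
      exact card_fix_zero.1 cx (p : Cfsg.GolayPt) (congrArg Subtype.val hp)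
    rw [h0, Fintype.card_subtype, cs] at h
    exact absurd h (by decide)
  · exact Or.inr ⟨cx, cs⟩

end Cfsg.Agent.S5608
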