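import Cfsg.Statements.S5609
import Cfsg.Agent.Lib.SporObjUse
import Cfsg.Agent.Lib.SporObjTrans
import Cfsg.Agent.Lib.SporObjPoint
import Cfsg.Agent.Lib.SporObjCertOct

set_option autoImplicit false
open scoped Pointwise
open Cfsg

namespace Cfsg.Agent.S5609

open CfsgLib.Spor
open scoped Pointwise

/-- In the graph on the 759 octads of the length-24 code in which two octads are adjacent when they are disjoint, the graph is connected (of diameter 3) and two distinct octads are at distance 1, 2 or 3 exactly when they meet in 0, 4 or 2 points respectively. -/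
theorem result (o o' : Finset Cfsg.GolayPt) (ho : o ∈ Cfsg.octads) (ho' : o' ∈ Cfsg.octads) (hne : o ≠ o') : (Cfsg.blockGraph Cfsg.octads).Connected ∧ ((Cfsg.blockGraph Cfsg.octads).dist ⟨o, ho⟩ ⟨o', ho'⟩ = 1 ↔ (o ∩ o').card = 0) ∧ ((Cfsg.blockGraph Cfsg.octads).dist ⟨o, ho⟩ ⟨o', ho'⟩ = 2 ↔ (o ∩ o').card = 4) ∧ ((Cfsg.blockGraph Cfsg.octads).dist ⟨o, ho⟩ ⟨o', ho'⟩ = 3 ↔ (o ∩ o').card = 2) := by
  have chk : (octObjs.all fun X => forceNat (X.headD 0) fun n =>
      (!Nat.beq (wt (5279 &&& n)) 4 || octList.any fun z => Nat.beq (5279 &&& z) 0 && Nat.beq (n &&& z) 0) &&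
      (!Nat.beq (wt (5279 &&& n)) 2 || (octList.all fun z => !(Nat.beq (5279 &&& z) 0 && Nat.beq (n &&& z) 0)) &&
        octList.any fun z => Nat.beq (5279 &&& z) 0 && Nat.beq (wt (z &&& n)) 4)) = true := by decide +kernel
  simp only [List.all_eq_true, forceNat_eq, Bool.and_eq_true, Bool.or_eq_true, Bool.not_eq_true', List.any_eq_true,
    Nat.beq_eq] at chk
  have hadj : ∀ a b : ↥Cfsg.octads, (Cfsg.blockGraph Cfsg.octads).Adj a b ↔
      ((a : Finset Cfsg.GolayPt) ∩ b).card = 0 := by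
    intro a b
    simp only [Cfsg.blockGraph, SimpleGraph.fromRel_adj]
    rw [disjoint_comm (a := (b : Finset Cfsg.GolayPt)), or_self, Finset.disjoint_iff_inter_eq_empty,
      Finset.card_eq_zero, and_iff_right_iff_imp]
    intro h e
    rw [e, Finset.inter_self] at h
    have := b.2.2
    rw [h] at this
    simp at this
  have coord : ∀ a b : ↥Cfsg.octads, ∃ c ∈ Cfsg.M24, ∃ n, [n] ∈ octObjs ∧
      (a : Finset Cfsg.GolayPt) = c • setOfMask 5279 ∧ (b : Finset Cfsg.GolayPt) = c • setOfMask n := by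
    intro a b
    obtain ⟨c, hc, e⟩ := octCoded.exists_base trOct_stab trOct_trans bases_mem.1 a.2
    obtain ⟨n, hn, eb⟩ := octCoded.one_code hc b.2
    exact ⟨c, hc, n, hn, famOne_injective (e.trans (smul_setSet_one c _)), eb⟩
  have mk : ∀ (c : P24), c ∈ Cfsg.M24 → ∀ z ∈ octList, ∃ w : ↥Cfsg.octads, (w : Finset Cfsg.GolayPt) = c • setOfMask z :=
    fun c hc z hz => ⟨⟨_, octCoded.one_mem hc (m := z) (List.mem_map.2 ⟨z, hz, rfl⟩)⟩, rfl⟩
  have wt0 : ∀ {u : ℕ}, u = 0 → wt u = 0 := fun e => by subst e; decide +kernel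
  have and0 : ∀ {a u : ℕ}, a < 2 ^ 24 → wt (a &&& u) = 0 → a &&& u = 0 := fun {a u} ha h => by
    refine setOfMask_inj (lt_of_le_of_lt Nat.and_le_left ha) (by norm_num) ?_
    rw [← card_setOfMask, Finset.card_eq_zero] at h
    rw [h]; ext p; simp
  have four : ∀ a b : ↥Cfsg.octads, ((a : Finset Cfsg.GolayPt) ∩ b).card = 4 →
      ∃ w, (Cfsg.blockGraph Cfsg.octads).Adj a w ∧ (Cfsg.blockGraph Cfsg.octads).Adj w b := by
    intro a b h
    obtain ⟨c, hc, n, hn, ea, eb⟩ := coord a b
    rw [ea, eb, card_inter_mask] at h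
    rcases (chk [n] hn).1 with h' | ⟨z, hz, z1, z2⟩
    · simp only [List.headD_cons] at h'
      rw [Bool.eq_false_iff] at h'
      exact absurd (by rw [Nat.beq_eq]; exact h) h'
    simp only [List.headD_cons] at z1 z2
    obtain ⟨w, ew⟩ := mk c hc z hz
    refine ⟨w, (hadj _ _).2 ?_, (hadj _ _).2 ?_⟩
    · rw [ea, ew, card_inter_mask]; exact wt0 z1
    · rw [ew, eb, card_inter_mask, Nat.and_comm]; exact wt0 z2
  have two : ∀ a b : ↥Cfsg.octads, ((a : Finset Cfsg.GolayPt) ∩ b).card = 2 →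
      (¬ ∃ w, (Cfsg.blockGraph Cfsg.octads).Adj a w ∧ (Cfsg.blockGraph Cfsg.octads).Adj w b) ∧
      ∃ w, (Cfsg.blockGraph Cfsg.octads).Adj a w ∧ ((w : Finset Cfsg.GolayPt) ∩ b).card = 4 := by
    intro a b h
    obtain ⟨c, hc, n, hn, ea, eb⟩ := coord a b
    rw [ea, eb, card_inter_mask] at h
    rcases (chk [n] hn).2 with h' | ⟨none', z, hz, z1, z2⟩
    · simp only [List.headD_cons] at h'
      rw [Bool.eq_false_iff] at h'
      exact absurd (by rw [Nat.beq_eq]; exact h) h'
    simp only [List.headD_cons] at none' z1 z2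
    refine ⟨?_, ?_⟩
    · rintro ⟨w, w1, w2⟩
      obtain ⟨k, hk, ew⟩ := octCoded.one_code hc w.2
      rw [hadj, ea, ew, card_inter_mask] at w1
      rw [hadj, ew, eb, card_inter_mask, Nat.and_comm] at w2
      obtain ⟨k', hk', e⟩ := List.mem_map.1 hk
      obtain rfl : k' = k := by simpa using e
      have := none' k' hk'
      rw [and0 (by norm_num) w1, and0 (objs_small octCoded hn) w2] at this
      exact absurd this (by decide)
    · obtain ⟨w, ew⟩ := mk c hc z hz
      exact ⟨w, (hadj _ _).2 (by rw [ea, ew, card_inter_mask]; exact wt0 z1),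
        by rw [ew, eb, card_inter_mask]; exact z2⟩
  have vals : ∀ a b : ↥Cfsg.octads, a ≠ b → ((a : Finset Cfsg.GolayPt) ∩ b).card = 0 ∨
      ((a : Finset Cfsg.GolayPt) ∩ b).card = 4 ∨ ((a : Finset Cfsg.GolayPt) ∩ b).card = 2 := by
    intro a b hne
    obtain ⟨c, hc, n, hn, ea, eb⟩ := coord a b
    have hv : (octObjs.all fun X => [0, 2, 4, 8].contains (wt (5279 &&& X.headD 0))) = true := by decide +kernel
    have := List.all_eq_true.1 hv [n] hn
    simp only [List.headD_cons, List.contains_iff_mem, List.mem_cons, List.not_mem_nil, or_false] at this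
    rw [← card_inter_mask c, ← ea, ← eb] at this
    rcases this with h | h | h | h
    · exact Or.inl h
    · exact Or.inr (Or.inr h)
    · exact Or.inr (Or.inl h)
    · exfalso
      have h1 := Finset.eq_of_subset_of_card_le Finset.inter_subset_left (by rw [h, a.2.2] :
        (a : Finset Cfsg.GolayPt).card ≤ ((a : Finset Cfsg.GolayPt) ∩ b).card)
      have h2 := Finset.eq_of_subset_of_card_le Finset.inter_subset_right (by rw [h, b.2.2] :
        (b : Finset Cfsg.GolayPt).card ≤ ((a : Finset Cfsg.GolayPt) ∩ b).card)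
      exact hne (Subtype.ext (h1.symm.trans h2))
  have far : ∀ a b : ↥Cfsg.octads, a ≠ b → (Cfsg.blockGraph Cfsg.octads).Reachable a b ∧
      (((a : Finset Cfsg.GolayPt) ∩ b).card = 0 → (Cfsg.blockGraph Cfsg.octads).dist a b = 1) ∧
      (((a : Finset Cfsg.GolayPt) ∩ b).card = 4 → (Cfsg.blockGraph Cfsg.octads).dist a b = 2) ∧
      (((a : Finset Cfsg.GolayPt) ∩ b).card = 2 → (Cfsg.blockGraph Cfsg.octads).dist a b = 3) := by
    intro a b hne
    have hge : ∀ hr : (Cfsg.blockGraph Cfsg.octads).Reachable a b, ((a : Finset Cfsg.GolayPt) ∩ b).card ≠ 0 →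
        2 ≤ (Cfsg.blockGraph Cfsg.octads).dist a b := fun hr h => by
      have h1 : (Cfsg.blockGraph Cfsg.octads).dist a b ≠ 1 := fun e =>
        h ((hadj a b).1 (SimpleGraph.dist_eq_one_iff_adj.1 e))
      have h0 := (hr.pos_dist_of_ne hne)
      omega
    rcases vals a b hne with h | h | h
    · have hA := (hadj a b).2 h
      exact ⟨hA.reachable, fun _ => SimpleGraph.dist_eq_one_iff_adj.2 hA, fun e => by omega, fun e => by omega⟩
    · obtain ⟨w, w1, w2⟩ := four a b h
      let p : (Cfsg.blockGraph Cfsg.octads).Walk a b := .cons w1 (.cons w2 .nil)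
      refine ⟨p.reachable, fun e => by omega, fun _ => le_antisymm (SimpleGraph.dist_le p) (hge p.reachable (by omega)),
        fun e => by omega⟩
    · obtain ⟨hno, w, w1, h4⟩ := two a b h
      obtain ⟨v, v1, v2⟩ := four w b h4
      let p : (Cfsg.blockGraph Cfsg.octads).Walk a b := .cons w1 (.cons v1 (.cons v2 .nil))
      refine ⟨p.reachable, fun e => by omega, fun e => by omega, fun _ => le_antisymm (SimpleGraph.dist_le p) ?_⟩
      have h2 := hge p.reachable (by omega)
      by_contra hlt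
      have e2 : (Cfsg.blockGraph Cfsg.octads).dist a b = 2 := by omega
      obtain ⟨q, hq⟩ := p.reachable.exists_walk_length_eq_dist
      rw [e2] at hq
      match q with
      | .cons x1 (.cons x2 .nil) => exact hno ⟨_, x1, x2⟩
  refine ⟨?_, ?_⟩
  · haveI : Nonempty ↥Cfsg.octads := ⟨⟨o, ho⟩⟩
    refine ⟨fun a b => ?_⟩
    by_cases e : a = b
    · exact e ▸ SimpleGraph.Reachable.refl a
    · exact (far a b e).1
  have hne' : (⟨o, ho⟩ : ↥Cfsg.octads) ≠ ⟨o', ho'⟩ := fun e => hne (congrArg Subtype.val e)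
  obtain ⟨-, f1, f2, f3⟩ := far ⟨o, ho⟩ ⟨o', ho'⟩ hne'
  rcases vals ⟨o, ho⟩ ⟨o', ho'⟩ hne' with h | h | h
  · have := f1 h; simp only at h; omega
  · have := f2 h; simp only at h; omega
  · have := f3 h; simp only at h; omega

end Cfsg.Agent.S5609
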