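import Cfsg.Statements.S5610
import Cfsg.Agent.Lib.SporObjUse
import Cfsg.Agent.Lib.SporObjTrans
import Cfsg.Agent.Lib.SporObjCertOct

set_option autoImplicit false
open scoped Pointwise
open Cfsg

namespace Cfsg.Agent.S5610

open CfsgLib.Spor
open scoped Pointwise

/-- The stabiliser of an octad in the group of the length-24 code has exactly three orbits on the 3795 trios, of sizes 15, 420 and 3360, and exactly three orbits on the 1771 sextets, of sizes 35, 840 and 896. -/
theorem result (o : Finset Cfsg.GolayPt) (ho : o ∈ Cfsg.octads) : (∃ X₁ ∈ Cfsg.trios, ∃ X₂ ∈ Cfsg.trios, ∃ X₃ ∈ Cfsg.trios, (MulAction.orbit ↥(MulAction.stabilizer Cfsg.M24 o) X₁).ncard = 15 ∧ (MulAction.orbit ↥(MulAction.stabilizer Cfsg.M24 o) X₂).ncard = 420 ∧ (MulAction.orbit ↥(MulAction.stabilizer Cfsg.M24 o) X₃).ncard = 3360 ∧ Cfsg.trios = MulAction.orbit ↥(MulAction.stabilizer Cfsg.M24 o) X₁ ∪ MulAction.orbit ↥(MulAction.stabilizer Cfsg.M24 o) X₂ ∪ MulAction.orbit ↥(MulAction.stabilizer Cfsg.M24 o) X₃) ∧ (∃ Y₁ ∈ Cfsg.sextets, ∃ Y₂ ∈ Cfsg.sextets,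 ∃ Y₃ ∈ Cfsg.sextets, (MulAction.orbit ↥(MulAction.stabilizer Cfsg.M24 o) Y₁).ncard = 35 ∧ (MulAction.orbit ↥(MulAction.stabilizer Cfsg.M24 o) Y₂).ncard = 840 ∧ (MulAction.orbit ↥(MulAction.stabilizer Cfsg.M24 o) Y₃).ncard = 896 ∧ Cfsg.sextets = MulAction.orbit ↥(MulAction.stabilizer Cfsg.M24 o) Y₁ ∪ MulAction.orbit ↥(MulAction.stabilizer Cfsg.M24 o) Y₂ ∪ MulAction.orbit ↥(MulAction.stabilizer Cfsg.M24 o) Y₃) := by
  obtain ⟨b, hb, eo⟩ := octCoded.exists_base trOct_stab trOct_trans bases_mem.1 ho
  refine ⟨?_, ?_⟩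
  ·
    obtain ⟨X0, m0, c0, e0⟩ := trioCoded.orbit_exists octTrio_stab octTrio_classes bases_nice.1 hb
      famOne_injective famOne_smul eo (v := 10000000000000002) (n := 15) (by decide +kernel) (by norm_num)
    obtain ⟨X1, m1, c1, e1⟩ := trioCoded.orbit_exists octTrio_stab octTrio_classes bases_nice.1 hb
      famOne_injective famOne_smul eo (v := 200000001) (n := 420) (by decide +kernel) (by norm_num)
    obtain ⟨X2, m2, c2, e2⟩ := trioCoded.orbit_exists octTrio_stab octTrio_classes bases_nice.1 hb
      famOne_injective famOne_smul eo (v := 100020000) (n := 3360) (by decide +kernel) (by norm_num)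
    exact ⟨X0, m0, X1, m1, X2, m2, c0, c1, c2, by
      rw [e0, e1, e2]
      ext T
      constructor
      · intro hT
        have := trioCoded.sig_mem bases_nice.1 hb octTrio_classes hT
        rw [← eo, show octTrioCls.map Prod.fst = [200000001, 100020000, 10000000000000002] by decide +kernel] at this
        simp only [List.mem_cons, List.not_mem_nil, or_false] at this
        simp only [Set.mem_union, Set.mem_setOf_eq]
        tauto
      · intro hT
        simp only [Set.mem_union, Set.mem_setOf_eq] at hT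
        tauto⟩
  ·
    obtain ⟨Y0, m0, c0, e0⟩ := sextCoded.orbit_exists octSext_stab octSext_classes bases_nice.1 hb
      famOne_injective famOne_smul eo (v := 200000004) (n := 35) (by decide +kernel) (by norm_num)
    obtain ⟨Y1, m1, c1, e1⟩ := sextCoded.orbit_exists octSext_stab octSext_classes bases_nice.1 hb
      famOne_injective famOne_smul eo (v := 40002) (n := 840) (by decide +kernel) (by norm_num)
    obtain ⟨Y2, m2, c2, e2⟩ := sextCoded.orbit_exists octSext_stab octSext_classes bases_nice.1 hb
      famOne_injective famOne_smul eo (v := 1000500) (n := 896) (by decide +kernel) (by norm_num)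
    exact ⟨Y0, m0, Y1, m1, Y2, m2, c0, c1, c2, by
      rw [e0, e1, e2]
      ext T
      constructor
      · intro hT
        have := sextCoded.sig_mem bases_nice.1 hb octSext_classes hT
        rw [← eo, show octSextCls.map Prod.fst = [1000500, 40002, 200000004] by decide +kernel] at this
        simp only [List.mem_cons, List.not_mem_nil, or_false] at this
        simp only [Set.mem_union, Set.mem_setOf_eq]
        tauto
      · intro hT
        simp only [Set.mem_union, Set.mem_setOf_eq] at hT
        tauto⟩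

end Cfsg.Agent.S5610
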