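import Cfsg.Statements.S5611
import Cfsg.Agent.Lib.SporObjUse
import Cfsg.Agent.Lib.SporObjTrans
import Cfsg.Agent.Lib.SporObjCertSext

set_option autoImplicit false
open scoped Pointwise
open Cfsg

namespace Cfsg.Agent.S5611

open CfsgLib.Spor
open scoped Pointwise

/-- The stabiliser of a sextet in the group of the length-24 code has exactly three orbits on the 759 octads, of sizes 15, 360 and 384, and exactly four orbits on the 3795 trios, of sizes 15, 180, 720 and 2880. -/
theorem result (S : Finset (Finset Cfsg.GolayPt)) (hS : S ∈ Cfsg.sextets) : (∃ X₁ ∈ Cfsg.octads, ∃ X₂ ∈ Cfsg.octads, ∃ X₃ ∈ Cfsg.octads, (MulAction.orbit ↥(MulAction.stabilizer Cfsg.M24 S) X₁).ncard = 15 ∧ (MulAction.orbit ↥(MulAction.stabilizer Cfsg.M24 S) X₂).ncard = 360 ∧ (MulAction.orbit ↥(MulAction.stabilizer Cfsg.M24 S) X₃).ncard = 384 ∧ Cfsg.octads = MulAction.orbit ↥(MulAction.stabilizer Cfsg.M24 S) X₁ ∪ MulAction.orbit ↥(MulAction.stabilizer Cfsg.M24 S) X₂ ∪ MulAction.orbit ↥(MulAction.stabilizer Cfsg.M24 S) X₃)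 ∧ (∃ Y₁ ∈ Cfsg.trios, ∃ Y₂ ∈ Cfsg.trios, ∃ Y₃ ∈ Cfsg.trios, ∃ Y₄ ∈ Cfsg.trios, (MulAction.orbit ↥(MulAction.stabilizer Cfsg.M24 S) Y₁).ncard = 15 ∧ (MulAction.orbit ↥(MulAction.stabilizer Cfsg.M24 S) Y₂).ncard = 180 ∧ (MulAction.orbit ↥(MulAction.stabilizer Cfsg.M24 S) Y₃).ncard = 720 ∧ (MulAction.orbit ↥(MulAction.stabilizer Cfsg.M24 S) Y₄).ncard = 2880 ∧ Cfsg.trios = MulAction.orbit ↥(MulAction.stabilizer Cfsg.M24 S) Y₁ ∪ MulAction.orbit ↥(MulAction.stabilizer Cfsg.M24 S) Y₂ ∪ MulAction.orbit ↥(MulAction.stabilizer Cfsg.M24 S) Y₃ ∪ MulAction.orbit ↥(MulAction.stabilizer Cfsg.M24 S) Y₄) := by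
  obtain ⟨b, hb, eo⟩ := sextCoded.exists_base trSext_stab trSext_trans bases_mem.2.1 hS
  refine ⟨?_, ?_⟩
  ·
    obtain ⟨X0, m0, c0, e0⟩ := octCoded.orbit_exists sextOct_stab sextOct_classes bases_nice.2.1 hb
      Function.injective_id (fun _ _ => rfl) eo (v := 200000004) (n := 15) (by decide +kernel) (by norm_num)
    obtain ⟨X1, m1, c1, e1⟩ := octCoded.orbit_exists sextOct_stab sextOct_classes bases_nice.2.1 hb
      Function.injective_id (fun _ _ => rfl) eo (v := 40002) (n := 360) (by decide +kernel) (by norm_num)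
    obtain ⟨X2, m2, c2, e2⟩ := octCoded.orbit_exists sextOct_stab sextOct_classes bases_nice.2.1 hb
      Function.injective_id (fun _ _ => rfl) eo (v := 1000500) (n := 384) (by decide +kernel) (by norm_num)
    exact ⟨X0, m0, X1, m1, X2, m2, c0, c1, c2, by
      rw [e0, e1, e2]
      ext T
      constructor
      · intro hT
        have := octCoded.sig_mem bases_nice.2.1 hb sextOct_classes hT
        rw [← eo, show sextOctCls.map Prod.fst = [1000500, 40002, 200000004] by decide +kernel] at this
        simp only [List.mem_cons, List.not_mem_nil, or_false] at this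
        simp only [Set.mem_union, Set.mem_setOf_eq]
        tauto
      · intro hT
        simp only [Set.mem_union, Set.mem_setOf_eq] at hT
        tauto⟩
  ·
    obtain ⟨Y0, m0, c0, e0⟩ := trioCoded.orbit_exists sextTrio_stab sextTrio_classes bases_nice.2.1 hb
      Function.injective_id (fun _ _ => rfl) eo (v := 600000012) (n := 15) (by decide +kernel) (by norm_num)
    obtain ⟨Y1, m1, c1, e1⟩ := trioCoded.orbit_exists sextTrio_stab sextTrio_classes bases_nice.2.1 hb
      Function.injective_id (fun _ _ => rfl) eo (v := 200080008) (n := 180) (by decide +kernel) (by norm_num)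
    obtain ⟨Y2, m2, c2, e2⟩ := trioCoded.orbit_exists sextTrio_stab sextTrio_classes bases_nice.2.1 hb
      Function.injective_id (fun _ _ => rfl) eo (v := 120006) (n := 720) (by decide +kernel) (by norm_num)
    obtain ⟨Y3, m3, c3, e3⟩ := trioCoded.orbit_exists sextTrio_stab sextTrio_classes bases_nice.2.1 hb
      Function.injective_id (fun _ _ => rfl) eo (v := 2041002) (n := 2880) (by decide +kernel) (by norm_num)
    exact ⟨Y0, m0, Y1, m1, Y2, m2, Y3, m3, c0, c1, c2, c3, by
      rw [e0, e1, e2, e3]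
      ext T
      constructor
      · intro hT
        have := trioCoded.sig_mem bases_nice.2.1 hb sextTrio_classes hT
        rw [← eo, show sextTrioCls.map Prod.fst = [2041002, 120006, 200080008, 600000012] by decide +kernel] at this
        simp only [List.mem_cons, List.not_mem_nil, or_false] at this
        simp only [Set.mem_union, Set.mem_setOf_eq]
        tauto
      · intro hT
        simp only [Set.mem_union, Set.mem_setOf_eq] at hT
        tauto⟩

end Cfsg.Agent.S5611
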