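import Cfsg.Statements.S5612
import Cfsg.Agent.Lib.SporObjUse
import Cfsg.Agent.Lib.SporObjTrans
import Cfsg.Agent.Lib.SporObjCertTrio

set_option autoImplicit false
open scoped Pointwise
open Cfsg

namespace Cfsg.Agent.S5612

open CfsgLib.Spor
open scoped Pointwise

/-- The stabiliser of a trio in the group of the length-24 code has exactly three orbits on the 759 octads, of sizes 3, 84 and 672, and exactly four orbits on the 1771 sextets, of sizes 7, 84, 336 and 1344. -/
theorem result (T : Finset (Finset Cfsg.GolayPt)) (hT : T ∈ Cfsg.trios) : (∃ X₁ ∈ Cfsg.octads, ∃ X₂ ∈ Cfsg.octads, ∃ X₃ ∈ Cfsg.octads, (MulAction.orbit ↥(MulAction.stabilizer Cfsg.M24 T) X₁).ncard = 3 ∧ (MulAction.orbit ↥(MulAction.stabilizer Cfsg.M24 T) X₂).ncard = 84 ∧ (MulAction.orbit ↥(MulAction.stabilizer Cfsg.M24 T) X₃).ncard = 672 ∧ Cfsg.octads = MulAction.orbit ↥(MulAction.stabilizer Cfsg.M24 T) X₁ ∪ MulAction.orbit ↥(MulAction.stabilizer Cfsg.M24 T) X₂ ∪ MulAction.orbit ↥(MulAction.stabilizer Cfsg.M24 T) X₃) ∧ (∃ Y₁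 ∈ Cfsg.sextets, ∃ Y₂ ∈ Cfsg.sextets, ∃ Y₃ ∈ Cfsg.sextets, ∃ Y₄ ∈ Cfsg.sextets, (MulAction.orbit ↥(MulAction.stabilizer Cfsg.M24 T) Y₁).ncard = 7 ∧ (MulAction.orbit ↥(MulAction.stabilizer Cfsg.M24 T) Y₂).ncard = 84 ∧ (MulAction.orbit ↥(MulAction.stabilizer Cfsg.M24 T) Y₃).ncard = 336 ∧ (MulAction.orbit ↥(MulAction.stabilizer Cfsg.M24 T) Y₄).ncard = 1344 ∧ Cfsg.sextets = MulAction.orbit ↥(MulAction.stabilizer Cfsg.M24 T) Y₁ ∪ MulAction.orbit ↥(MulAction.stabilizer Cfsg.M24 T) Y₂ ∪ MulAction.orbit ↥(MulAction.stabilizer Cfsg.M24 T) Y₃ ∪ MulAction.orbit ↥(MulAction.stabilizer Cfsg.M24 T) Y₄) := by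
  obtain ⟨b, hb, eo⟩ := trioCoded.exists_base trTrio_stab trTrio_trans bases_mem.2.2.1 hT
  refine ⟨?_, ?_⟩
  ·
    obtain ⟨X0, m0, c0, e0⟩ := octCoded.orbit_exists trioOct_stab trioOct_classes bases_nice.2.2.1 hb
      Function.injective_id (fun _ _ => rfl) eo (v := 10000000000000002) (n := 3) (by decide +kernel) (by norm_num)
    obtain ⟨X1, m1, c1, e1⟩ := octCoded.orbit_exists trioOct_stab trioOct_classes bases_nice.2.2.1 hb
      Function.injective_id (fun _ _ => rfl) eo (v := 200000001) (n := 84) (by decide +kernel) (by norm_num)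
    obtain ⟨X2, m2, c2, e2⟩ := octCoded.orbit_exists trioOct_stab trioOct_classes bases_nice.2.2.1 hb
      Function.injective_id (fun _ _ => rfl) eo (v := 100020000) (n := 672) (by decide +kernel) (by norm_num)
    exact ⟨X0, m0, X1, m1, X2, m2, c0, c1, c2, by
      rw [e0, e1, e2]
      ext T
      constructor
      · intro hT
        have := octCoded.sig_mem bases_nice.2.2.1 hb trioOct_classes hT
        rw [← eo, show trioOctCls.map Prod.fst = [200000001, 100020000, 10000000000000002] by decide +kernel] at this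
        simp only [List.mem_cons, List.not_mem_nil, or_false] at this
        simp only [Set.mem_union, Set.mem_setOf_eq]
        tauto
      · intro hT
        simp only [Set.mem_union, Set.mem_setOf_eq] at hT
        tauto⟩
  ·
    obtain ⟨Y0, m0, c0, e0⟩ := sextCoded.orbit_exists trioSext_stab trioSext_classes bases_nice.2.2.1 hb
      Function.injective_id (fun _ _ => rfl) eo (v := 600000012) (n := 7) (by decide +kernel) (by norm_num)
    obtain ⟨Y1, m1, c1, e1⟩ := sextCoded.orbit_exists trioSext_stab trioSext_classes bases_nice.2.2.1 hb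
      Function.injective_id (fun _ _ => rfl) eo (v := 200080008) (n := 84) (by decide +kernel) (by norm_num)
    obtain ⟨Y2, m2, c2, e2⟩ := sextCoded.orbit_exists trioSext_stab trioSext_classes bases_nice.2.2.1 hb
      Function.injective_id (fun _ _ => rfl) eo (v := 120006) (n := 336) (by decide +kernel) (by norm_num)
    obtain ⟨Y3, m3, c3, e3⟩ := sextCoded.orbit_exists trioSext_stab trioSext_classes bases_nice.2.2.1 hb
      Function.injective_id (fun _ _ => rfl) eo (v := 2041002) (n := 1344) (by decide +kernel) (by norm_num)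
    exact ⟨Y0, m0, Y1, m1, Y2, m2, Y3, m3, c0, c1, c2, c3, by
      rw [e0, e1, e2, e3]
      ext T
      constructor
      · intro hT
        have := sextCoded.sig_mem bases_nice.2.2.1 hb trioSext_classes hT
        rw [← eo, show trioSextCls.map Prod.fst = [2041002, 120006, 200080008, 600000012] by decide +kernel] at this
        simp only [List.mem_cons, List.not_mem_nil, or_false] at this
        simp only [Set.mem_union, Set.mem_setOf_eq]
        tauto
      · intro hT
        simp only [Set.mem_union, Set.mem_setOf_eq] at hT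
        tauto⟩

end Cfsg.Agent.S5612
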