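import Cfsg.Statements.S5613
import Cfsg.Agent.Lib.SporObjUse
import Cfsg.Agent.Lib.SporObjTrans
import Cfsg.Agent.Lib.SporObjCertOct

set_option autoImplicit false
open scoped Pointwise
open Cfsg

namespace Cfsg.Agent.S5613

open CfsgLib.Spor
open scoped Pointwise

/-- In the group of the length-24 code, the joint stabiliser of two octads has order 10752, 1152 or 720 according as the octads meet in 0, 4 or 2 points. -/
theorem result (o o' : Finset Cfsg.GolayPt) (ho : o ∈ Cfsg.octads) (ho' : o' ∈ Cfsg.octads) : ((o ∩ o').card = 0 → Nat.card ↥(MulAction.stabilizer Cfsg.M24 o ⊓ MulAction.stabilizer Cfsg.M24 o') = 10752) ∧ ((o ∩ o').card = 4 → Nat.card ↥(MulAction.stabilizer Cfsg.M24 o ⊓ MulAction.stabilizer Cfsg.M24 o') = 1152) ∧ ((o ∩ o').card = 2 → Nat.card ↥(MulAction.stabilizer Cfsg.M24 o ⊓ MulAction.stabilizer Cfsg.M24 o') = 720) := by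
  obtain ⟨b, hb, eo⟩ := octCoded.exists_base trOct_stab trOct_trans bases_mem.1 ho
  have c0 := card_eq_ncard_mul (⊤ : Subgroup ↥Cfsg.M24) o Cfsg.octads
    (fun g _ => smul_mem_octads' g.2 ho) (fun y hy => by
      obtain ⟨c, hc, ec⟩ := octCoded.exists_base trOct_stab trOct_trans bases_mem.1 hy
      refine ⟨⟨c * b⁻¹, mul_mem hc (inv_mem hb)⟩, Subgroup.mem_top _, famOne_injective ?_⟩
      show famOne ((c * b⁻¹ : P24) • o) = famOne y
      rw [famOne_smul, eo, ec, mul_smul, inv_smul_smul])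
  have c1 := card_eq_ncard_mul (MulAction.stabilizer Cfsg.M24 o) o'
    {y | y ∈ Cfsg.octads ∧ (o ∩ y).card = (o ∩ o').card}
    (fun g hg => ⟨smul_mem_octads' g.2 ho', by
      conv_lhs => rw [show o = (g : P24) • o from hg.symm]
      show ((g : P24) • o ∩ (g : P24) • o').card = _
      rw [← Finset.smul_finset_inter, Finset.card_smul_finset]⟩)
    (fun y hy => by
      obtain ⟨g, hg, gB, ge⟩ := octCoded.sig_conj octOct_stab octOct_classes bases_nice.1 hb ho' hy.1
        (by rw [← eo, sigF_one_one, sigF_one_one, hy.2])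
      exact ⟨⟨g, hg⟩, famOne_smul_setSet eo gB, ge⟩)
  have cnt : {y | y ∈ Cfsg.octads ∧ (o ∩ y).card = (o ∩ o').card}.ncard =
      octObjs.countP (sigQ octBase (100 ^ (o ∩ o').card)) := by
    refine Eq.trans (congrArg Set.ncard (Set.ext fun y => ?_)) (octCoded.sig_ncard hb bases_nice.1 _)
    rw [Set.mem_setOf_eq, Set.mem_setOf_eq, ← eo, sigF_famOne_iff]
  rw [top_inf_eq, Subgroup.card_top, card_M24, octCoded.ncard_univ, show octObjs.length = 759 by decide +kernel] at c0
  rw [cnt] at c1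
  refine ⟨fun h => ?_, fun h => ?_, fun h => ?_⟩ <;> rw [h] at c1
  · rw [show octObjs.countP (sigQ octBase (100 ^ 0)) = 30 by decide +kernel] at c1; omega
  · rw [show octObjs.countP (sigQ octBase (100 ^ 4)) = 280 by decide +kernel] at c1; omega
  · rw [show octObjs.countP (sigQ octBase (100 ^ 2)) = 448 by decide +kernel] at c1; omega

end Cfsg.Agent.S5613
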