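import Cfsg.Statements.S5614
import Cfsg.Agent.S5613
import Cfsg.Agent.Lib.SporM24Elems
import Cfsg.Agent.Lib.SporObjSets

set_option autoImplicit false
open scoped Pointwise
open Cfsg

namespace Cfsg.Agent.S5614

open CfsgLib.Spor
open scoped Pointwise

/-- In the group of the length-24 code, the joint stabiliser of two octads meeting in exactly two points is isomorphic to the symmetric group of degree 6. -/
theorem result (o o' : Finset Cfsg.GolayPt) (ho : o ∈ Cfsg.octads) (ho' : o' ∈ Cfsg.octads) (h₂ : (o ∩ o').card = 2) : Nonempty (↥(MulAction.stabilizer Cfsg.M24 o ⊓ MulAction.stabilizer Cfsg.M24 o') ≃* Equiv.Perm (Fin 6)) := by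
  have hcard := (Cfsg.Agent.S5613.result o o' ho ho').2.2 h₂
  set K := MulAction.stabilizer Cfsg.M24 o ⊓ MulAction.stabilizer Cfsg.M24 o' with hK
  have hE : (o \ o').card = 6 := by
    have := Finset.card_sdiff_add_card_inter o o'
    have := ho.2
    omega
  let φ : ↥K →* P24 := Cfsg.M24.subtype.comp K.subtype
  have hinv : ∀ g : ↥K, φ g • (o \ o') = o \ o' := fun g => by
    have h1 : φ g • o = o := g.2.1
    have h2 : φ g • o' = o' := g.2.2
    rw [Finset.smul_finset_sdiff, h1, h2]
  let f := restrictHom φ (o \ o') hinv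
  have hinj : Function.Injective f := by
    rw [← MonoidHom.ker_eq_bot_iff, Subgroup.eq_bot_iff_forall]
    intro g hg
    have hfix := restrictHom_eq_one.1 (MonoidHom.mem_ker.1 hg)
    have hone : φ g = 1 := by
      refine eq_one_of_six ho hE Finset.sdiff_subset (g : Cfsg.M24).2 hfix g.2.2 octList
        (fun n => Nat.beq (Nat.land n sixMask) 0 && Nat.beq (wt (Nat.land m24Oct n)) 2)
        (fun n hn => codeMasks_lt n (mem_weightMasks.1 (octList_eq ▸ hn)).1) (fun h hh eo eE => ?_) (by decide +kernel)
      refine ⟨mem_octList.1 (smul_mem_octads' hh ho'), ?_⟩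
      simp only [Bool.and_eq_true, Nat.beq_eq]
      constructor
      · refine setOfMask_inj (lt_of_le_of_lt Nat.and_le_left (maskOf_lt _)) (by norm_num) ?_
        rw [show Nat.land (maskOf (h • o')) sixMask = maskOf (h • o') &&& sixMask from rfl, setOfMask_and,
          setOfMask_maskOf, ← eE, ← Finset.smul_finset_inter, Finset.inter_sdiff_self, Finset.smul_finset_empty]
        ext p; simp
      · rw [← card_setOfMask, show Nat.land m24Oct (maskOf (h • o')) = m24Oct &&& maskOf (h • o') from rfl,
          setOfMask_and, setOfMask_maskOf, show setOfMask m24Oct = baseOct from rfl, ← eo, ← Finset.smul_finset_inter,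
          Finset.card_smul_finset, h₂]
    exact Subtype.ext (Subtype.ext hone)
  have hb : Function.Bijective f := by
    refine (Nat.bijective_iff_injective_and_card _).2 ⟨hinj, ?_⟩
    rw [hcard, Nat.card_perm, Nat.card_eq_fintype_card, Fintype.card_coe, hE]
    rfl
  exact ⟨(MulEquiv.ofBijective f hb).trans ((Finset.equivFinOfCardEq hE).permCongrHom)⟩

end Cfsg.Agent.S5614
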