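import Cfsg.Statements.S5615
import Cfsg.Agent.Lib.SporObjUse
import Cfsg.Agent.Lib.SporObjTrans
import Cfsg.Agent.Lib.SporObjPoint

set_option autoImplicit false
open scoped Pointwise
open Cfsg

namespace Cfsg.Agent.S5615

open CfsgLib.Spor
open scoped Pointwise


/-- The trios through the base octad. -/
noncomputable def baseTrios : List (List ℕ) := trioObjs.filter fun X => memL 5279 X

/-- The sextets refining the base octad. -/
noncomputable def baseSextets : List (List ℕ) := sextetObjs.filter (sigQ octBase 200000004)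

/-- Trios are told apart by the sextets, sextets by the trios, and four-subsets by sextets. -/
noncomputable def finOK : Bool :=
  (baseTrios.all fun A => baseTrios.all fun B => sameSet A B ||
    !(baseSextets.all fun X => Nat.beq (sigL A X) (sigL B X))) &&
  (baseSextets.all fun A => baseSextets.all fun B => sameSet A B ||
    !(baseTrios.all fun X => Nat.beq (sigL X A) (sigL X B))) &&
  (baseSextets.all fun X => X.any fun t => Nat.beq (Nat.land t 5279) t &&
    Nat.beq (sextetObjs.countP fun Y => memL t Y) 1) &&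
  ((List.range 5280).all fun m => !(Nat.beq (Nat.land m 5279) m && Nat.beq (wt m) 4) ||
    baseSextets.any fun X => memL m X && sameSet (X.filter fun t => Nat.beq (Nat.land t 5279) t) [m, 5279 ^^^ m])

theorem fin_ok : finOK = true := by decide +kernel

theorem four_spec {m : ℕ} (h1 : m &&& 5279 = m) (h2 : wt m = 4) : ∃ X ∈ baseSextets,
    m ∈ X ∧ ∀ t ∈ X, t &&& 5279 = t → t = m ∨ t = 5279 ^^^ m := by
  have h := fin_ok
  simp only [finOK, Bool.and_eq_true, List.all_eq_true] at h
  have hle : m ∈ List.range 5280 := List.mem_range.2 (by have : m &&& 5279 ≤ 5279 := Nat.and_le_right; omega)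
  have h' := h.2 m hle
  rw [show Nat.land m 5279 = m &&& 5279 from rfl, h1, h2] at h'
  simp only [Bool.or_eq_true, Bool.not_eq_true', List.any_eq_true, Bool.and_eq_true, memL_iff, sameSet,
    List.all_eq_true] at h'
  rcases h' with h' | ⟨X, hX, hm, hs, -⟩
  · exact absurd h' (by simp)
  refine ⟨X, hX, hm, fun t ht e => ?_⟩
  have := hs t (List.mem_filter.2 ⟨ht, by rw [Nat.beq_eq]; exact e⟩)
  simpa using this

theorem mem_code {c : P24} {m : ℕ} (hm : m < 2 ^ 24) {X : List ℕ} (hX : niceL X = true) :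
    c • setOfMask m ∈ c • setSet X ↔ m ∈ X := by
  rw [Finset.smul_mem_smul_finset_iff, mem_setSet]
  exact ⟨fun ⟨n, hn, e⟩ => setOfMask_inj (smallL_iff.1 (niceL_iff.1 hX).1 n hn) hm e ▸ hn, fun h => ⟨m, h, rfl⟩⟩

theorem kernel_trios {c : P24} (hc : c ∈ Cfsg.M24) {g : P24} (hg : g ∈ Cfsg.M24)
    (hfix : ∀ p ∈ c • setOfMask 5279, g p = p) :
    ∀ T ∈ Cfsg.trios, c • setOfMask 5279 ∈ T → g • T = T := by
  intro T hT hoT
  have hgo : g • (c • setOfMask 5279) = c • setOfMask 5279 := by
    rw [Finset.smul_finset_def]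
    conv_rhs => rw [← Finset.image_id (s := c • setOfMask 5279)]
    exact Finset.image_congr fun p hp => hfix p hp
  have h := fin_ok
  simp only [finOK, Bool.and_eq_true, List.all_eq_true, List.any_eq_true, Nat.beq_eq] at h
  have hsext : ∀ X ∈ baseSextets, g • (c • setSet X) = c • setSet X := by
    intro X hX
    obtain ⟨t, ht, e, e1⟩ := h.1.2 X hX
    have hX' := (List.mem_filter.1 hX).1
    have htl : t < 2 ^ 24 := smallL_iff.1 (niceL_iff.1 (sextCoded.nice X hX')).1 t ht
    have hone : {S | S ∈ Cfsg.sextets ∧ c • setOfMask t ∈ S}.ncard = 1 := by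
      refine (sextCoded.ncard_eq hc _ (fun Y => memL t Y) fun Y hY S _ eS => ?_).trans e1
      rw [memL_iff, show S = c • setSet Y from eS, mem_code htl (sextCoded.nice Y hY)]
    obtain ⟨U, hU⟩ := Set.ncard_eq_one.1 hone
    obtain ⟨S, hS, eS⟩ := sextCoded.exists_obj hc hX'
    have eS' : S = c • setSet X := eS
    have m1 : S ∈ {S | S ∈ Cfsg.sextets ∧ c • setOfMask t ∈ S} :=
      ⟨hS, by rw [eS']; exact (mem_code htl (sextCoded.nice X hX')).2 ht⟩
    have ht' : g • (c • setOfMask t) = c • setOfMask t := by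
      rw [Finset.smul_finset_def (a := g)]
      conv_rhs => rw [← Finset.image_id (s := c • setOfMask t)]
      refine Finset.image_congr fun p hp => hfix p ?_
      exact (subset_smul_mask htl).2 (by rw [Nat.and_comm]; exact e) hp
    have m2 : g • S ∈ {S | S ∈ Cfsg.sextets ∧ c • setOfMask t ∈ S} :=
      ⟨smul_mem_sextets hg hS, by rw [← ht']; exact Finset.smul_mem_smul_finset m1.2⟩
    rw [hU] at m1 m2
    rw [← eS', Set.mem_singleton_iff.1 m2, Set.mem_singleton_iff.1 m1]
  obtain ⟨A, hA, eA⟩ := trioCoded.exists_code hc hT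
  obtain ⟨B, hB, eB⟩ := trioCoded.exists_code hc (smul_mem_trios hg hT)
  have eA' : T = c • setSet A := eA
  have eB' : g • T = c • setSet B := eB
  have mA : A ∈ baseTrios := List.mem_filter.2 ⟨hA, memL_iff.2
    ((mem_code (by norm_num) (trioCoded.nice A hA)).1 (eA' ▸ hoT))⟩
  have mB : B ∈ baseTrios := List.mem_filter.2 ⟨hB, memL_iff.2 ((mem_code (by norm_num) (trioCoded.nice B hB)).1 (by
    rw [← eB', ← hgo]; exact Finset.smul_mem_smul_finset hoT))⟩
  rcases Bool.or_eq_true _ _ ▸ h.1.1.1 A mA B mB with hs | hs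
  · rw [eB', eA', setSet_eq_of_sameSet hs]
  · exfalso
    rw [Bool.not_eq_true', Bool.eq_false_iff] at hs
    refine hs (List.all_eq_true.2 fun X hX => ?_)
    have hX' := (List.mem_filter.1 hX).1
    rw [Nat.beq_eq, ← sigF_setSet (trioCoded.nice A hA) (sextCoded.nice X hX'),
      ← sigF_setSet (trioCoded.nice B hB) (sextCoded.nice X hX'), ← sigF_smul c, ← sigF_smul c (setSet B),
      ← eA', ← eB']
    conv_rhs => rw [← hsext X hX, sigF_smul]

theorem kernel_points {c : P24} (hc : c ∈ Cfsg.M24) {g : P24} (hg : g ∈ Cfsg.M24)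
    (hgo : g • (c • setOfMask 5279) = c • setOfMask 5279)
    (hfix : ∀ T ∈ Cfsg.trios, c • setOfMask 5279 ∈ T → g • T = T) :
    ∀ p ∈ c • setOfMask 5279, g p = p := by
  have h := fin_ok
  simp only [finOK, Bool.and_eq_true, List.all_eq_true, List.any_eq_true, Nat.beq_eq] at h
  have hsext : ∀ X ∈ baseSextets, g • (c • setSet X) = c • setSet X := by
    intro X hX
    obtain ⟨hX', hXv⟩ := List.mem_filter.1 hX
    obtain ⟨S, hS, eS⟩ := sextCoded.exists_obj hc hX'
    have eS' : S = c • setSet X := eS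
    obtain ⟨B, hB, eB⟩ := sextCoded.exists_code hc (smul_mem_sextets hg hS)
    have eB' : g • S = c • setSet B := eB
    have hBv : B ∈ baseSextets := by
      refine List.mem_filter.2 ⟨hB, ?_⟩
      rw [sigQ, Nat.beq_eq] at hXv ⊢
      rw [← hXv, ← sigF_setSet bases_nice.1 (sextCoded.nice B hB), ← sigF_setSet bases_nice.1 (sextCoded.nice X hX'),
        ← sigF_smul c, ← eB', ← sigF_smul c (setSet octBase) (setSet X), ← eS']
      have e0 : c • setSet octBase = famOne (c • setOfMask 5279) := smul_setSet_one c _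
      rw [e0]
      conv_lhs => rw [← hgo, famOne_smul, sigF_smul]
    rcases Bool.or_eq_true _ _ ▸ h.1.1.2 B hBv X hX with hs | hs
    · rw [← eS', eB', setSet_eq_of_sameSet hs, eS']
    · exfalso
      rw [Bool.not_eq_true', Bool.eq_false_iff] at hs
      refine hs (List.all_eq_true.2 fun Y hY => ?_)
      obtain ⟨hY', hYo⟩ := List.mem_filter.1 hY
      obtain ⟨T, hT, eT⟩ := trioCoded.exists_obj hc hY'
      have eT' : T = c • setSet Y := eT
      have := hfix T hT (by rw [eT']; exact (mem_code (by norm_num) (trioCoded.nice Y hY')).2 (memL_iff.1 hYo))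
      rw [Nat.beq_eq, ← sigF_setSet (trioCoded.nice Y hY') (sextCoded.nice X hX'),
        ← sigF_setSet (trioCoded.nice Y hY') (sextCoded.nice B hB), ← sigF_smul c, ← eB',
        ← sigF_smul c (setSet Y) (setSet X), ← eS', ← eT']
      conv_lhs => rw [← this, sigF_smul]
  have hblock : ∀ t, t ⊆ c • setOfMask 5279 → t.card = 4 → g • t = t ∨ g • t = c • setOfMask 5279 \ t := by
    intro t hts h4
    obtain ⟨m, hm, rfl⟩ : ∃ m, m < 2 ^ 24 ∧ t = c • setOfMask m :=
      ⟨maskOf (c⁻¹ • t), maskOf_lt _, by rw [setOfMask_maskOf, smul_inv_smul]⟩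
    have hsub := (subset_smul_mask hm).1 hts
    rw [Finset.card_smul_finset, card_setOfMask] at h4
    obtain ⟨X, hX, hmX, hall⟩ := four_spec (by rw [Nat.and_comm]; exact hsub) h4
    have hX' := (List.mem_filter.1 hX).1
    have mem1 : g • (c • setOfMask m) ∈ c • setSet X := by
      rw [← hsext X hX]
      exact Finset.smul_mem_smul_finset ((mem_code hm (sextCoded.nice X hX')).2 hmX)
    obtain ⟨u, hu, eu⟩ := Finset.mem_smul_finset.1 mem1
    obtain ⟨n, hn, rfl⟩ := mem_setSet.1 hu
    have hnl : n < 2 ^ 24 := smallL_iff.1 (niceL_iff.1 (sextCoded.nice X hX')).1 n hn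
    have hns : c • setOfMask n ⊆ c • setOfMask 5279 := by
      rw [eu, ← hgo]; exact Finset.smul_finset_subset_smul_finset hts
    rcases hall n hn (by rw [Nat.and_comm]; exact (subset_smul_mask hnl).1 hns) with e | e
    · left; rw [← eu, e]
    · right
      rw [← eu, e, ← Finset.smul_finset_sdiff]
      refine congrArg (c • ·) ?_
      ext x
      have hmx : m.testBit (ix x) = true → (5279 : ℕ).testBit (ix x) = true := fun hx => by
        rw [← hsub, Nat.testBit_and, Bool.and_eq_true] at hx; exact hx.1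
      simp only [mem_setOfMask, Nat.testBit_xor, Finset.mem_sdiff]
      cases h1 : (5279 : ℕ).testBit (ix x) <;> cases h2 : m.testBit (ix x) <;> simp_all
  intro p hp
  by_contra hne
  set o := c • setOfMask 5279 with ho
  have card_o : o.card = 8 := by rw [ho, Finset.card_smul_finset, card_setOfMask]; decide +kernel
  have himg : ∀ a ∈ o, g a ∈ o := fun a ha => by rw [← hgo]; exact Finset.smul_mem_smul_finset ha
  obtain ⟨a, ha⟩ : ((o.erase p).erase (g p)).Nonempty := by
    rw [← Finset.card_pos, Finset.card_erase_of_mem (Finset.mem_erase.2 ⟨hne, himg p hp⟩),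
      Finset.card_erase_of_mem hp, card_o]
    norm_num
  simp only [Finset.mem_erase] at ha
  obtain ⟨haq, hap, hao⟩ := ha
  have hbq : g a ≠ g p := fun e => hap (g.injective e)
  -- a block through p and a, avoiding g p
  obtain ⟨t, hpt, hat, hqt, hts, h4, hcase⟩ : ∃ t : Finset Cfsg.GolayPt, p ∈ t ∧ a ∈ t ∧ g p ∉ t ∧ t ⊆ o ∧
      t.card = 4 ∧ g a ∈ t := by
    have hs : ({p, a, g a} : Finset Cfsg.GolayPt) ⊆ o.erase (g p) := by
      intro x hx
      simp only [Finset.mem_insert, Finset.mem_singleton] at hx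
      rcases hx with rfl | rfl | rfl
      · exact Finset.mem_erase.2 ⟨fun e => hne e.symm, hp⟩
      · exact Finset.mem_erase.2 ⟨haq, hao⟩
      · exact Finset.mem_erase.2 ⟨hbq, himg a hao⟩
    have h3 : ({p, a, g a} : Finset Cfsg.GolayPt).card ≤ 4 :=
      (Finset.card_insert_le _ _).trans (Nat.succ_le_succ ((Finset.card_insert_le _ _).trans (by simp)))
    obtain ⟨t, h1, h2, h3⟩ := Finset.exists_subsuperset_card_eq hs h3 (by
      rw [Finset.card_erase_of_mem (himg p hp), card_o]; norm_num)
    exact ⟨t, h1 (by simp), h1 (by simp), fun e => (Finset.mem_erase.1 (h2 e)).1 rfl,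
      h2.trans (Finset.erase_subset _ _), h3, h1 (by simp)⟩
  rcases hblock t hts h4 with e | e
  · exact hqt (by rw [← e]; exact Finset.smul_mem_smul_finset hpt)
  · have : g a ∈ g • t := Finset.smul_mem_smul_finset hat
    rw [e, Finset.mem_sdiff] at this
    exact this.2 hcase

/-- An octad of the length-24 code lies in exactly 15 trios; the stabiliser of the octad in the code's group acts doubly transitively on these 15 trios, and the kernel of this action is the pointwise stabiliser of the octad. -/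
theorem result (o : Finset Cfsg.GolayPt) (ho : o ∈ Cfsg.octads) : {T : Finset (Finset Cfsg.GolayPt) | T ∈ Cfsg.trios ∧ o ∈ T}.ncard = 15 ∧ (∀ T₁ T₂ T₁' T₂' : Finset (Finset Cfsg.GolayPt), T₁ ∈ Cfsg.trios → T₂ ∈ Cfsg.trios → T₁' ∈ Cfsg.trios → T₂' ∈ Cfsg.trios → o ∈ T₁ → o ∈ T₂ → o ∈ T₁' → o ∈ T₂' → T₁ ≠ T₂ → T₁' ≠ T₂' → ∃ g ∈ Cfsg.M24, g • o = o ∧ g • T₁ = T₁' ∧ g • T₂ = T₂') ∧ ∀ g ∈ Cfsg.M24, g • o = o → ((∀ T ∈ Cfsg.trios, o ∈ T → g • T = T) ↔ ∀ p ∈ o, g p = p) := by
  obtain ⟨c, hc, eo⟩ := octCoded.exists_base trOct_stab trOct_trans bases_mem.1 ho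
  have eo' : o = c • setOfMask 5279 := famOne_injective (eo.trans (smul_setSet_one c _))
  refine ⟨?_, ?_, ?_⟩
  · rw [eo']
    refine (trioCoded.ncard_eq hc _ (fun X => memL 5279 X) fun X hX T _ e => ?_).trans (by decide +kernel)
    rw [memL_iff, show T = c • setSet X from e, mem_code (by norm_num) (trioCoded.nice X hX)]
  · intro T₁ T₂ T₁' T₂' h1 h2 h1' h2' o1 o2 o1' o2' ne ne'
    obtain ⟨b, hb, eb⟩ := octCoded.exists_base trOct_stab trOct_trans (X := [8391797]) (by decide +kernel) ho
    have eb' : o = b • setOfMask 8391797 := famOne_injective (eb.trans (smul_setSet_one b _))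
    have align : ∀ T ∈ Cfsg.trios, o ∈ T → ∃ k ∈ Cfsg.M24, o = k • setOfMask 8391797 ∧ T = k • setSet trioBase := by
      intro T hT hoT
      obtain ⟨X, hX, e⟩ := trioCoded.exists_code hb hT
      have e' : T = b • setSet X := e
      rw [eb', e', mem_code (by norm_num) (trioCoded.nice X hX)] at hoT
      obtain ⟨f, hf, ffix, ef⟩ := trioCoded.conj_class trioOn_stab trioOn_classes hb bases_mem.2.2.1
        (by decide +kernel) hX (memL_iff.2 hoT) rfl (a := b • setSet trioBase) (b := T) rfl e
      exact ⟨f * b, mul_mem hf hb, by rw [mul_smul, set_fixed (ffix [8391797] (by simp))]; exact eb',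
        by rw [mul_smul, ef]⟩
    obtain ⟨k, hk, ek, eT⟩ := align T₁ h1 o1
    obtain ⟨k', hk', ek', eT'⟩ := align T₁' h1' o1'
    have hg0 : k' * k⁻¹ ∈ Cfsg.M24 := mul_mem hk' (inv_mem hk)
    have g0o : (k' * k⁻¹) • o = o := by
      conv_lhs => rw [ek]
      rw [mul_smul, inv_smul_smul, ← ek']
    have g0T : (k' * k⁻¹) • T₁ = T₁' := by rw [eT, mul_smul, inv_smul_smul, ← eT']
    obtain ⟨X, hX, eX⟩ := trioCoded.exists_code hk' (smul_mem_trios hg0 h2)
    obtain ⟨Y, hY, eY⟩ := trioCoded.exists_code hk' h2'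
    have eX' : (k' * k⁻¹) • T₂ = k' • setSet X := eX
    have eY' : T₂' = k' • setSet Y := eY
    have test : ∀ Z ∈ trioObjs, o ∈ k' • setSet Z → k' • setSet Z ≠ T₁' →
        (memL 8391797 Z && !sameSet Z trioBase) = true := by
      intro Z hZ hoZ hne
      rw [ek', mem_code (by norm_num) (trioCoded.nice Z hZ)] at hoZ
      rw [Bool.and_eq_true, Bool.not_eq_true', Bool.eq_false_iff]
      exact ⟨memL_iff.2 hoZ, fun hs => hne (by rw [setSet_eq_of_sameSet hs, eT'])⟩
    obtain ⟨f, hf, ffix, ef⟩ := trioCoded.conj_class trioPair_stab trioPair_classes hk' hX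
      (test X hX (by rw [← eX', ← g0o]; exact Finset.smul_mem_smul_finset o2)
        (by rw [← eX', ← g0T]; exact fun e => ne ((MulAction.injective _ e).symm))) hY
      (test Y hY (eY' ▸ o2') (by rw [← eY']; exact ne'.symm)) rfl eX eY
    have fo : f • o = o := by rw [ek']; exact set_fixed (ffix [8391797] (by simp))
    have fT : f • T₁' = T₁' := by rw [eT']; exact ffix trioBase (by simp)
    exact ⟨f * (k' * k⁻¹), mul_mem hf hg0, by rw [mul_smul, g0o, fo], by rw [mul_smul, g0T, fT],
      by rw [mul_smul]; exact ef⟩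
  · intro g hg hgo
    constructor
    · intro h
      rw [eo'] at h hgo ⊢
      exact kernel_points hc hg hgo h
    · intro h
      rw [eo'] at h ⊢
      exact kernel_trios hc hg h

end Cfsg.Agent.S5615
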