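import Cfsg.Statements.S5616
import Cfsg.Agent.Lib.SporObjUse
import Cfsg.Agent.Lib.SporObjTrans
import Cfsg.Agent.Lib.SporObjPoint
import Cfsg.Agent.Lib.SporObjCertSmall

set_option autoImplicit false
open scoped Pointwise
open Cfsg

namespace Cfsg.Agent.S5616

open CfsgLib.Spor
open scoped Pointwise

/-- Let Y be a set of 3 of the 24 points. The sextets of the length-24 code whose tetrads meeting Y number 1, 2 or 3 are respectively 21, 630 and 1120 in number, and two sextets with the same number of tetrads meeting Y are conjugate under the setwise stabiliser of Y in the code's group. -/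
theorem result (Y : Finset Cfsg.GolayPt) (hY : Y.card = 3) : {S : Finset (Finset Cfsg.GolayPt) | S ∈ Cfsg.sextets ∧ (S.filter fun t => (t ∩ Y).Nonempty).card = 1}.ncard = 21 ∧ {S : Finset (Finset Cfsg.GolayPt) | S ∈ Cfsg.sextets ∧ (S.filter fun t => (t ∩ Y).Nonempty).card = 2}.ncard = 630 ∧ {S : Finset (Finset Cfsg.GolayPt) | S ∈ Cfsg.sextets ∧ (S.filter fun t => (t ∩ Y).Nonempty).card = 3}.ncard = 1120 ∧ ∀ S S' : Finset (Finset Cfsg.GolayPt), S ∈ Cfsg.sextets → S' ∈ Cfsg.sextets → (S.filter fun t => (t ∩ Y).Nonempty).card = (S'.filter fun t => (t ∩ Y).Nonempty).card → ∃ g ∈ Cfsg.M24, g • Y = Y ∧ g • S = S' := by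
  obtain ⟨c, hc, eY⟩ := triadCoded.exists_base trTriad_stab trTriad_trans bases_mem.2.2.2.2.2.1 hY
  obtain rfl : Y = c • setOfMask 7 := famOne_injective (eY.trans (smul_setSet_one c _))
  have cn : ∀ X ∈ sextetObjs, ((c • setSet X).filter fun t => (t ∩ c • setOfMask 7).Nonempty).card =
      (X.map fun m => cond (Nat.beq (wt (m &&& 7)) 0) 0 1).sum := by
    intro X hX
    have hn := niceL_iff.1 (sextCoded.nice X hX)
    rw [Finset.card_filter, Finset.smul_finset_def, Finset.sum_image fun a _ b _ e => MulAction.injective c e,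
      sum_setSet hn.1 hn.2]
    refine congrArg List.sum (List.map_congr_left fun m _ => ?_)
    simp only [← Finset.card_pos, card_inter_mask]
    rcases Nat.eq_zero_or_pos (wt (m &&& 7)) with h | h
    · simp [h]
    · rw [if_pos h, show Nat.beq (wt (m &&& 7)) 0 = false by rw [Bool.eq_false_iff]; simp; omega]; rfl
  have cnt : ∀ k, {S : Finset (Finset Cfsg.GolayPt) | S ∈ Cfsg.sextets ∧
      (S.filter fun t => (t ∩ c • setOfMask 7).Nonempty).card = k}.ncard =
      sextetObjs.countP fun X => Nat.beq (X.map fun m => cond (Nat.beq (wt (m &&& 7)) 0) 0 1).sum k := by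
    intro k
    refine sextCoded.ncard_eq hc _ _ fun X hX S _ e => ?_
    rw [Nat.beq_eq, ← cn X hX, ← show S = c • setSet X from e]
  refine ⟨?_, ?_, ?_, ?_⟩
  · rw [cnt]; decide +kernel
  · rw [cnt]; decide +kernel
  · rw [cnt]; decide +kernel
  intro S S' hS hS' h
  obtain ⟨X, hX, rfl⟩ := sextCoded.exists_code hc hS
  obtain ⟨X', hX', rfl⟩ := sextCoded.exists_code hc hS'
  rw [cn X hX, cn X' hX'] at h
  have hsig : (sextetObjs.all fun X => Nat.beq (sigL triadBase X)
      ([0, 1000005, 10104, 303].getD (X.map fun m => cond (Nat.beq (wt (m &&& 7)) 0) 0 1).sum 0)) = true := by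
    decide +kernel
  simp only [List.all_eq_true, Nat.beq_eq] at hsig
  obtain ⟨g, hg, gfix, eg⟩ := sextCoded.conj_class (R := fun _ => true) triadSext_stab
    (by rw [List.filter_true]; exact triadSext_classes) hc hX rfl hX' rfl (by rw [hsig X hX, hsig X' hX', h])
    (a := c • setSet X) (b := c • setSet X') rfl rfl
  exact ⟨g, hg, set_fixed (gfix triadBase (by simp)), eg⟩

end Cfsg.Agent.S5616
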