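import Cfsg.Statements.S5617
import Cfsg.Agent.Lib.SporObjUse
import Cfsg.Agent.Lib.SporObjTrans
import Cfsg.Agent.Lib.SporObjCertDod

set_option autoImplicit false
open scoped Pointwise
open Cfsg

namespace Cfsg.Agent.S5617

open CfsgLib.Spor
open scoped Pointwise

/-- The setwise stabiliser, in the group of the length-24 code, of a complementary pair of dodecads has exactly three orbits on the 1771 sextets, of sizes 396, 495 and 880. -/
theorem result (d : Finset Cfsg.GolayPt) (hd : d ∈ Cfsg.dodecads) : ∃ X₁ ∈ Cfsg.sextets, ∃ X₂ ∈ Cfsg.sextets, ∃ X₃ ∈ Cfsg.sextets, (MulAction.orbit ↥(MulAction.stabilizer Cfsg.M24 ({d, Finset.univ \ d} : Finset (Finset Cfsg.GolayPt))) X₁).ncard = 396 ∧ (MulAction.orbit ↥(MulAction.stabilizer Cfsg.M24 ({d, Finset.univ \ d} : Finset (Finset Cfsg.GolayPt))) X₂).ncard = 495 ∧ (MulAction.orbit ↥(MulAction.stabilizer Cfsg.M24 ({d, Finset.univ \ d} : Finset (Finset Cfsg.GolayPt))) X₃).ncard = 880 ∧ Cfsg.sextets = MulAction.orbit ↥(MulAction.stabilizer Cfsg.M24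 ({d, Finset.univ \ d} : Finset (Finset Cfsg.GolayPt))) X₁ ∪ MulAction.orbit ↥(MulAction.stabilizer Cfsg.M24 ({d, Finset.univ \ d} : Finset (Finset Cfsg.GolayPt))) X₂ ∪ MulAction.orbit ↥(MulAction.stabilizer Cfsg.M24 ({d, Finset.univ \ d} : Finset (Finset Cfsg.GolayPt))) X₃ := by
  rw [show ({d, Finset.univ \ d} : Finset (Finset Cfsg.GolayPt)) = dpairOf d by
    rw [dpairOf, Finset.compl_eq_univ_sdiff]]
  obtain ⟨b, hb, eo⟩ := dpairCoded.exists_base trDpair_stab trDpair_trans bases_mem.2.2.2.2.1 ⟨d, hd, rfl⟩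
  obtain ⟨X0, m0, c0, e0⟩ := sextCoded.orbit_exists dpairSext_stab dpairSext_classes bases_nice.2.2.2.2.1 hb
    Function.injective_id (fun _ _ => rfl) eo (v := 120000) (n := 396) (by decide +kernel) (by norm_num)
  obtain ⟨X1, m1, c1, e1⟩ := sextCoded.orbit_exists dpairSext_stab dpairSext_classes bases_nice.2.2.2.2.1 hb
    Function.injective_id (fun _ _ => rfl) eo (v := 200080002) (n := 495) (by decide +kernel) (by norm_num)
  obtain ⟨X2, m2, c2, e2⟩ := sextCoded.orbit_exists dpairSext_stab dpairSext_classes bases_nice.2.2.2.2.1 hb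
    Function.injective_id (fun _ _ => rfl) eo (v := 6000600) (n := 880) (by decide +kernel) (by norm_num)
  exact ⟨X0, m0, X1, m1, X2, m2, c0, c1, c2, by
    rw [e0, e1, e2]
    ext T
    constructor
    · intro hT
      have := sextCoded.sig_mem bases_nice.2.2.2.2.1 hb dpairSext_classes hT
      rw [← eo, show dpairSextCls.map Prod.fst = [200080002, 6000600, 120000] by decide +kernel] at this
      simp only [List.mem_cons, List.not_mem_nil, or_false] at this
      simp only [Set.mem_union, Set.mem_setOf_eq]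
      tauto
    · intro hT
      simp only [Set.mem_union, Set.mem_setOf_eq] at hT
      tauto⟩

end Cfsg.Agent.S5617
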