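import Cfsg.Statements.S5618
import Cfsg.Agent.Lib.SporM24Elems
import Cfsg.Agent.Lib.SporObjUse
import Cfsg.Agent.Lib.SporObjTrans
import Cfsg.Agent.Lib.SporObjCertDodOct
import Cfsg.Agent.Lib.SporObjPoint

set_option autoImplicit false
open scoped Pointwise
open Cfsg

namespace Cfsg.Agent.S5618

open CfsgLib.Spor
open scoped Pointwise

/-- For a dodecad d of the length-24 code and a hexad C on it (a 6-point intersection of d with an octad): the joint stabiliser of d and C in the code's group is isomorphic to the symmetric group of degree 6, and it acts faithfully both on the six points of C and on the six points of d outside C. -/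
theorem result (d : Finset Cfsg.GolayPt) (hd : d ∈ Cfsg.dodecads) (C : Finset Cfsg.GolayPt) (hC : C ∈ Cfsg.hexadsOn d) : Nonempty (↥(MulAction.stabilizer Cfsg.M24 d ⊓ MulAction.stabilizer Cfsg.M24 C) ≃* Equiv.Perm (Fin 6)) ∧ (∀ g ∈ MulAction.stabilizer Cfsg.M24 d ⊓ MulAction.stabilizer Cfsg.M24 C, (∀ p ∈ C, ((g : ↥Cfsg.M24) : Equiv.Perm Cfsg.GolayPt) p = p) → g = 1) ∧ ∀ g ∈ MulAction.stabilizer Cfsg.M24 d ⊓ MulAction.stabilizer Cfsg.M24 C, (∀ p ∈ d \ C, ((g : ↥Cfsg.M24) : Equiv.Perm Cfsg.GolayPt) p = p) → g = 1 := by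
  obtain ⟨hC6, o, ho, hoC⟩ := hC
  have hCo : C ⊆ o := by rw [← hoC]; exact Finset.inter_subset_left
  have hCd : C ⊆ d := by rw [← hoC]; exact Finset.inter_subset_right
  have key : ∀ E o₁ : Finset Cfsg.GolayPt, o₁ ∈ Cfsg.octads → o₁ ∩ d = E → E.card = 6 → ∀ g ∈ Cfsg.M24, g • d = d →
      (∀ p ∈ E, g p = p) → g = 1 := by
    intro E o₁ ho₁ he hE g hg hd' hfix
    refine eq_one_of_six ho₁ hE (by rw [← he]; exact Finset.inter_subset_left) hg hfix hd' dodList
      (fun n => Nat.beq (Nat.land n m24Oct) sixMask)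
      (fun n hn => codeMasks_lt n (mem_weightMasks.1 (dodList_eq ▸ hn)).1) (fun h hh eo eE => ?_) (by decide +kernel)
    refine ⟨mem_dodList.1 (smul_mem_dodecads hh hd), ?_⟩
    rw [Nat.beq_eq]
    refine setOfMask_inj (lt_of_le_of_lt Nat.and_le_left (maskOf_lt _)) (by decide +kernel) ?_
    rw [show Nat.land (maskOf (h • d)) m24Oct = maskOf (h • d) &&& m24Oct from rfl, setOfMask_and, setOfMask_maskOf,
      show setOfMask m24Oct = baseOct from rfl, ← eo, ← Finset.smul_finset_inter, Finset.inter_comm, he, eE]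
  have hgo : ∀ g : P24, g ∈ Cfsg.M24 → g • C = C → g • o = o := fun g hg e => by
    refine octad_unique (smul_mem_octads' hg ho) ho (s := C) (by omega) ?_ hCo
    rw [← e]; exact Finset.smul_finset_subset_smul_finset hCo
  -- the second octad
  have hsd : symmDiff o d ∈ Cfsg.octads := by
    refine ⟨codeSets_symmDiff ho.1 hd.1, ?_⟩
    have := Finset.card_sdiff_add_card_inter o d
    have := Finset.card_sdiff_add_card_inter d o
    rw [Finset.inter_comm d o, hoC] at this
    rw [hoC] at *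
    have h1 := ho.2
    have h2 := hd.2
    rw [symmDiff_def, Finset.sup_eq_union, Finset.card_union_of_disjoint disjoint_sdiff_sdiff]
    omega
  have hsdd : symmDiff o d ∩ d = d \ C := by
    ext x
    simp only [← hoC, Finset.mem_inter, Finset.mem_symmDiff, Finset.mem_sdiff]
    tauto
  have h6' : (d \ C).card = 6 := by
    rw [Finset.card_sdiff_of_subset hCd, hd.2, hC6]
  set K := MulAction.stabilizer Cfsg.M24 d ⊓ MulAction.stabilizer Cfsg.M24 C with hK
  have faith : ∀ g ∈ K, (∀ p ∈ C, ((g : ↥Cfsg.M24) : P24) p = p) → g = 1 := fun g hg hfix =>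
    Subtype.ext (key C o ho hoC hC6 g g.2 hg.1 hfix)
  refine ⟨?_, faith, fun g hg hfix => Subtype.ext (key (d \ C) _ hsd hsdd h6' g g.2 hg.1 hfix)⟩
  obtain ⟨b, hb, eb⟩ := dodCoded.exists_base trDod_stab trDod_trans bases_mem.2.2.2.1 hd
  have c0 := card_eq_ncard_mul (⊤ : Subgroup ↥Cfsg.M24) d Cfsg.dodecads
    (fun g _ => smul_mem_dodecads g.2 hd) (fun y hy => by
      obtain ⟨c, hc, ec⟩ := dodCoded.exists_base trDod_stab trDod_trans bases_mem.2.2.2.1 hy
      refine ⟨⟨c * b⁻¹, mul_mem hc (inv_mem hb)⟩, Subgroup.mem_top _, famOne_injective ?_⟩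
      show famOne ((c * b⁻¹ : P24) • d) = famOne y
      rw [famOne_smul, eb, ec, mul_smul, inv_smul_smul])
  have c1 := card_eq_ncard_mul (MulAction.stabilizer Cfsg.M24 d) o {y | y ∈ Cfsg.octads ∧ (d ∩ y).card = 6}
    (fun g hg => ⟨smul_mem_octads' g.2 ho, by
      conv_lhs => rw [show d = (g : P24) • d from hg.symm]
      show ((g : P24) • d ∩ (g : P24) • o).card = _
      rw [← Finset.smul_finset_inter, Finset.card_smul_finset, Finset.inter_comm, hoC, hC6]⟩)
    (fun y hy => by
      obtain ⟨g, hg, gB, ge⟩ := octCoded.sig_conj dodOct_stab dodOct_classes bases_nice.2.2.2.1 hb ho hy.1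
        (by rw [← eb, sigF_one_one, sigF_one_one, Finset.inter_comm, hoC, hC6, hy.2])
      exact ⟨⟨g, hg⟩, famOne_smul_setSet eb gB, ge⟩)
  have cnt : {y | y ∈ Cfsg.octads ∧ (d ∩ y).card = 6}.ncard = octObjs.countP (sigQ dodBase (100 ^ 6)) := by
    refine Eq.trans (congrArg Set.ncard (Set.ext fun y => ?_)) (octCoded.sig_ncard hb bases_nice.2.2.2.1 _)
    rw [Set.mem_setOf_eq, Set.mem_setOf_eq, ← eb, sigF_famOne_iff]
  rw [top_inf_eq, Subgroup.card_top, card_M24, dodCoded.ncard_univ, show dodObjs.length = 2576 by decide +kernel] at c0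
  rw [cnt, show octObjs.countP (sigQ dodBase (100 ^ 6)) = 132 by decide +kernel] at c1
  have eK : MulAction.stabilizer Cfsg.M24 d ⊓ MulAction.stabilizer Cfsg.M24 o = K := by
    ext g
    constructor
    · rintro ⟨g1, g2⟩
      refine ⟨g1, ?_⟩
      show (g : P24) • C = C
      rw [← hoC, Finset.smul_finset_inter, show (g : P24) • o = o from g2, show (g : P24) • d = d from g1]
    · rintro ⟨g1, g2⟩
      exact ⟨g1, hgo g g.2 g2⟩
  rw [eK] at c1
  let φ : ↥K →* P24 := Cfsg.M24.subtype.comp K.subtype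
  have hinv : ∀ g : ↥K, φ g • C = C := fun g => g.2.2
  let f := restrictHom φ C hinv
  have hinj : Function.Injective f := by
    rw [← MonoidHom.ker_eq_bot_iff, Subgroup.eq_bot_iff_forall]
    intro g hg
    exact Subtype.ext (faith g g.2 (restrictHom_eq_one.1 (MonoidHom.mem_ker.1 hg)))
  have hb' : Function.Bijective f := by
    refine (Nat.bijective_iff_injective_and_card _).2 ⟨hinj, ?_⟩
    rw [Nat.card_perm, Nat.card_eq_fintype_card (α := ↥C), Fintype.card_coe, hC6, show Nat.factorial 6 = 720 from rfl]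
    omega
  exact ⟨(MulEquiv.ofBijective f hb').trans ((Finset.equivFinOfCardEq hC6).permCongrHom)⟩

end Cfsg.Agent.S5618
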