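import Cfsg.Statements.S5620
import Cfsg.Agent.Lib.SporMathieu2

set_option autoImplicit false
open scoped Pointwise
open Cfsg

namespace Cfsg.Agent.S5620
open CfsgLib.Spor
open scoped Pointwise

theorem moves_out (p : GolayPt) (hp : p ∉ Cfsg.Spor.squareDodecad) :
    ∃ g ∈ Cfsg.Spor.M11, g p ≠ p := by
  have hk : ∀ p : GolayPt, p ∉ setOfMask 340831 →
      ((m12Trans.getD 1 []).any fun L => !(Nat.beq (L.getD (ix p) 0) (ix p))) = true := by decide +kernel
  have h := hk p (squareDodecad_eq ▸ hp)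
  simp only [List.any_eq_true, Bool.not_eq_true'] at h
  obtain ⟨L, hL, hne⟩ := h
  have hl := List.all_eq_true.1 levels12_ok 1 (by decide)
  simp only [level12OK, Bool.and_eq_true, List.all_eq_true, Nat.beq_eq] at hl
  obtain ⟨hM, hlen, hr, hm⟩ := inStab_spec (hl.1 L hL).1
  refine ⟨permOf L, ?_, fun e => ?_⟩
  · rw [M11_eq, mem_fix12]
    refine ⟨mem_M12_iff.2 ⟨hM, hm _ (by simp)⟩, fun j hj => ?_⟩
    obtain rfl : j = 0 := by omega
    rw [dpt, hr.apply_pt (dpt_facts 0 (by decide)).1,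
      (hl.1 L hL).2 _ ((dpt_facts 1 (by decide)).2.2.2 0 (by decide))]
  · have := hr p
    rw [e] at this
    exact Nat.ne_of_beq_eq_false hne this.symm

theorem mem_M11' {x : Equiv.Perm GolayPt} : x ∈ Cfsg.Spor.M11 ↔
    (x ∈ M24 ∧ x • Cfsg.Spor.squareDodecad = Cfsg.Spor.squareDodecad) ∧ x (some 0) = some 0 := Iff.rfl

/-- Inside the stabiliser of the dodecad of squares (a Mathieu group of degree 12), the stabiliser of the residue 0 (a point of the dodecad) and the stabiliser of the extra point (a point outside the dodecad) are isomorphic but not conjugate; conjugation by a suitable element of the code's group that maps the dodecad of squares onto its complement carries the first onto the second. -/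
theorem result : Nonempty (↥(Cfsg.Spor.M12 ⊓ MulAction.stabilizer (Equiv.Perm Cfsg.GolayPt) (none : Cfsg.GolayPt)) ≃* ↥Cfsg.Spor.M11) ∧ (¬ ∃ k ∈ Cfsg.Spor.M12, MulAut.conj k • Cfsg.Spor.M11 = Cfsg.Spor.M12 ⊓ MulAction.stabilizer (Equiv.Perm Cfsg.GolayPt) (none : Cfsg.GolayPt)) ∧ ∃ g ∈ Cfsg.M24, g • Cfsg.Spor.squareDodecad = Finset.univ \ Cfsg.Spor.squareDodecad ∧ MulAut.conj g • Cfsg.Spor.M11 = Cfsg.Spor.M12 ⊓ MulAction.stabilizer (Equiv.Perm Cfsg.GolayPt) (none : Cfsg.GolayPt) := by
  classical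
  set d := Cfsg.Spor.squareDodecad with hd
  have hc : Finset.univ \ d ∈ Cfsg.dodecads := by
    rw [hd, squareDodecad_eq, show Finset.univ \ setOfMask 340831 = setOfMask 16436384 by decide +kernel,
      Cfsg.dodecads, mem_wordsOfWeight_iff, maskOf_setOfMask (by norm_num)]
    decide +kernel
  have hnone : (none : Cfsg.GolayPt) ∈ Finset.univ \ d := by
    rw [hd, squareDodecad_eq]; decide +kernel
  obtain ⟨g, hg, hgd, hg0⟩ := exists_M24_dodecad_point hc hnone
  have hinv : ∀ x : Equiv.Perm Cfsg.GolayPt, x • (Finset.univ \ d) = Finset.univ \ d ↔ x • d = d := by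
    intro x
    constructor <;> intro h
    · have := congrArg (fun s => Finset.univ \ s) h
      rwa [Finset.smul_finset_sdiff, Finset.smul_finset_univ, sdiff_sdiff_right_self, Finset.inf_eq_inter,
        Finset.univ_inter, sdiff_sdiff_right_self, Finset.inf_eq_inter, Finset.univ_inter] at this
    · rw [Finset.smul_finset_sdiff, Finset.smul_finset_univ, h]
  have hconj : MulAut.conj g • Cfsg.Spor.M11 =
      Cfsg.Spor.M12 ⊓ MulAction.stabilizer (Equiv.Perm Cfsg.GolayPt) (none : Cfsg.GolayPt) := by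
    ext x
    rw [Subgroup.mem_pointwise_smul_iff_inv_smul_mem, MulAut.smul_def, ← map_inv, MulAut.conj_apply, inv_inv,
      mem_M11', conj_mem_M24 hg, conj_smul_eq_iff, hgd, hinv, Subgroup.mem_inf, mem_M12_iff']
    refine and_congr Iff.rfl ?_
    show g⁻¹ (x (g (some 0))) = some 0 ↔ x none = none
    rw [hg0, Equiv.Perm.inv_eq_iff_eq, hg0]
  refine ⟨⟨?_⟩, ?_, g, hg, hgd, hconj⟩
  · exact ((Subgroup.equivSMul (MulAut.conj g) Cfsg.Spor.M11).trans (MulEquiv.subgroupCongr hconj)).symm
  rintro ⟨k, hk, e⟩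
  have hp : k⁻¹ none ∉ d := fun h => by
    have h2 : k (k⁻¹ none) ∈ k • d := Finset.smul_mem_smul_finset h
    rw [(mem_M12_iff'.1 hk).2, Equiv.Perm.coe_inv, Equiv.apply_symm_apply] at h2
    rw [Finset.mem_sdiff] at hnone
    exact hnone.2 h2
  obtain ⟨u, hu, hne⟩ := moves_out _ hp
  have hm : k * u * k⁻¹ ∈ MulAut.conj k • Cfsg.Spor.M11 := Subgroup.smul_mem_pointwise_smul u (MulAut.conj k) _ hu
  rw [e] at hm
  have h2 : k (u (k⁻¹ none)) = none := hm.2
  exact hne (k.injective (h2.trans (Equiv.apply_symm_apply k none).symm))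

end Cfsg.Agent.S5620
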