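import Cfsg.Statements.S5623
import Cfsg.Agent.Lib.SporAbstractGolay

set_option autoImplicit false
open Cfsg

namespace Cfsg.Agent.S5623
open CfsgLib.Spor.AbsGolay

/-- Let C be a self-dual binary code of length 24 with minimum weight at least 8 (a 12-dimensional subspace of the 24-dimensional space over the field with two elements, any two of whose words have dot product zero, with no non-zero word of weight below 8 — an abstract extended binary Golay code). Then every coset w + C of C in the ambient space contains either exactly one word of weight at most 4, which then has weight at most 3, or exactly six words of weight at most 4, all of weight exactly 4 and with pairwise disjoint supports (a sextet). -/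
theorem result (C : Submodule (ZMod 2) (Fin 24 → ZMod 2)) (hdim : Module.finrank (ZMod 2) C = 12) (horth : ∀ v ∈ C, ∀ w ∈ C, ∑ i, v i * w i = 0) (hmin : ∀ w ∈ C, w ≠ 0 → 8 ≤ hammingNorm w) (w : Fin 24 → ZMod 2) : (∃ u : Fin 24 → ZMod 2, {u : Fin 24 → ZMod 2 | u - w ∈ C ∧ hammingNorm u ≤ 4} = {u} ∧ hammingNorm u ≤ 3) ∨ ({u : Fin 24 → ZMod 2 | u - w ∈ C ∧ hammingNorm u ≤ 4}.ncard = 6 ∧ ∀ u ∈ {u : Fin 24 → ZMod 2 | u - w ∈ C ∧ hammingNorm u ≤ 4}, hammingNorm u = 4 ∧ ∀ u' ∈ {u : Fin 24 → ZMod 2 | u - w ∈ C ∧ hammingNorm u ≤ 4}, u ≠ u' → Disjoint (Finset.univ.filter fun i => u i ≠ 0) (Finset.univ.filter fun i => u' i ≠ 0)) := by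
  classical
  have hC : GCode C := ⟨hdim, horth, hmin⟩
  have hq : ∀ u : Fin 24 → ZMod 2, u - w ∈ C ↔ qc C (supp u) = Submodule.Quotient.mk w := fun u => by
    rw [qc, ind_supp, Submodule.Quotient.eq]
  rcases coset_cases hC (Submodule.Quotient.mk w) with ⟨s, hs, e, hu⟩ | ⟨h6, hno⟩
  · refine Or.inl ⟨ind s, ?_, by rw [norm_ind]; exact hs⟩
    ext u
    simp only [Set.mem_ofPred_eq, Set.mem_singleton_iff]
    constructor
    · rintro ⟨h1, h2⟩
      rw [← ind_supp u, hu _ (norm_eq u ▸ h2) ((hq u).1 h1)]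
    · rintro rfl
      exact ⟨(hq _).2 (by rw [supp_ind]; exact e), by rw [norm_ind]; omega⟩
  · have hset : {u : Fin 24 → ZMod 2 | u - w ∈ C ∧ hammingNorm u ≤ 4} =
        ↑((tetrads C (Submodule.Quotient.mk w)).image ind) := by
      ext u
      simp only [Set.mem_ofPred_eq, Finset.coe_image, Set.mem_image, Finset.mem_coe, mem_tetrads]
      constructor
      · rintro ⟨h1, h2⟩
        refine ⟨supp u, ⟨?_, (hq u).1 h1⟩, ind_supp u⟩
        by_contra h4
        exact hno (supp u) (by rw [norm_eq] at h2; omega) ((hq u).1 h1)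
      · rintro ⟨s, ⟨h4, e⟩, rfl⟩
        exact ⟨(hq _).2 (by rw [supp_ind]; exact e), by rw [norm_ind, h4]⟩
    refine Or.inr ⟨by rw [hset, Set.ncard_coe_finset, Finset.card_image_of_injective _ ind_injective, h6], ?_⟩
    intro u hu
    rw [hset, Finset.coe_image] at hu
    obtain ⟨s, hs, rfl⟩ := hu
    refine ⟨(norm_ind s).trans (mem_tetrads.1 hs).1, fun u' hu' hne => ?_⟩
    rw [hset, Finset.coe_image] at hu'
    obtain ⟨t, ht, rfl⟩ := hu'
    show Disjoint (supp (ind s)) (supp (ind t))
    rw [supp_ind, supp_ind]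
    exact tetrads_disjoint hC hs ht fun e => hne (e ▸ rfl)

end Cfsg.Agent.S5623
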