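import Cfsg.Statements.S5625
import Cfsg.Agent.Lib.SporSteiner

set_option autoImplicit false
open Cfsg

namespace Cfsg.Agent.S5625

open CfsgLib.Spor.Steiner Finset

/-- In any Steiner system S(5, 8, 24) and for any set Y of three points, the blocks meeting Y in exactly 3, 2, 1 and 0 points number 21, 168, 360 and 210 respectively (so there are 759 blocks in all). -/
theorem result (α : Type*) [Fintype α] [DecidableEq α] (hα : Fintype.card α = 24) (B : Set (Finset α)) (hB : Cfsg.IsSteinerSystem 5 8 B) (Y : Finset α) (hY : Y.card = 3) : {b : Finset α | b ∈ B ∧ (b ∩ Y).card = 3}.ncard = 21 ∧ {b : Finset α | b ∈ B ∧ (b ∩ Y).card = 2}.ncard = 168 ∧ {b : Finset α | b ∈ B ∧ (b ∩ Y).card = 1}.ncard = 360 ∧ {b : Finset α | b ∈ B ∧ (b ∩ Y).card = 0}.ncard = 210 := by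
  have hm : ∀ j L, j ≤ 5 → L * (8 - j).choose (5 - j) = (24 - j).choose (5 - j) →
      ∑ i ∈ range 4, ((bl B).filter fun c => (c ∩ Y).card = i).card * i.choose j = (3).choose j * L := by
    intro j L hj hL
    have h := moment_bl hB Y j L hj (by omega) (by rw [hα]; exact hL)
    rw [hY] at h
    rw [← h, sum_by_size (bl B) (fun c => (c ∩ Y).card) (·.choose j) 4 fun c _ =>
      Nat.lt_succ_of_le ((card_le_card inter_subset_right).trans hY.le)]
  have h0 := hm 0 759 (by omega) (by decide)
  have h1 := hm 1 253 (by omega) (by decide)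
  have h2 := hm 2 77 (by omega) (by decide)
  have h3 := hm 3 21 (by omega) (by decide)
  simp [sum_range_succ, Nat.choose, -Finset.card_eq_zero] at h0 h1 h2 h3
  simp only [ncard_eq]
  omega

end Cfsg.Agent.S5625
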