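import Cfsg.Statements.S5626
import Cfsg.Agent.Lib.SporPlaneFour

set_option autoImplicit false
open Cfsg

namespace Cfsg.Agent.S5626
open scoped Pointwise
/-- Uniqueness of the projective plane of order 4: any two Steiner systems S(2, 5, 21) (21 points, lines of 5 points, two points on exactly one line) are isomorphic. -/
theorem result {α β : Type*} [Fintype α] [DecidableEq α] [Fintype β] [DecidableEq β] (hα : Fintype.card α = 21) (hβ : Fintype.card β = 21) {L : Set (Finset α)} {L' : Set (Finset β)} (hL : Cfsg.IsSteinerSystem 2 5 L) (hL' : Cfsg.IsSteinerSystem 2 5 L') : Cfsg.SetSystemIso L L' := by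
  classical
  obtain ⟨H, hH⟩ : (CfsgLib.Spor.PlaneFour.indepSets L 6).Nonempty :=
    Finset.card_pos.1 (by rw [CfsgLib.Spor.PlaneFour.card_hyperovals hα hL]; norm_num)
  obtain ⟨H', hH'⟩ : (CfsgLib.Spor.PlaneFour.indepSets L' 6).Nonempty :=
    Finset.card_pos.1 (by rw [CfsgLib.Spor.PlaneFour.card_hyperovals hβ hL']; norm_num)
  rw [CfsgLib.Spor.PlaneFour.mem_indepSets] at hH hH'
  obtain ⟨g, hg, -⟩ := CfsgLib.Spor.PlaneFour.exists_extension hα hL hβ hL' hH hH'
    (Fintype.equivOfCardEq (by rw [Fintype.card_coe, Fintype.card_coe, hH.1, hH'.1]))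
  exact ⟨g, hg⟩

end Cfsg.Agent.S5626
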