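import Cfsg.Statements.S5628
import Cfsg.Agent.Lib.SporPlaneFour

set_option autoImplicit false
open Cfsg

namespace Cfsg.Agent.S5628
open scoped Pointwise
/-- In a projective plane of order 4 (a Steiner system S(2, 5, 21)), every permutation of the six points of a hyperoval (a 6-set met by no line in more than two points) is the restriction of exactly one automorphism of the plane. In particular the stabiliser of a hyperoval in the automorphism group is isomorphic to the symmetric group of degree 6 acting faithfully on the hyperoval. -/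
theorem result {α : Type*} [Fintype α] [DecidableEq α] (hα : Fintype.card α = 21) (L : Set (Finset α)) (hL : Cfsg.IsSteinerSystem 2 5 L) (H : Finset α) (hH : (H.card = 6 ∧ ∀ l ∈ L, (l ∩ H).card ≤ 2)) (σ : Equiv.Perm ↥H) : ∃! g : Equiv.Perm α, g ∈ Cfsg.setSystemAut L ∧ ∀ p : ↥H, g p = σ p := by
  classical
  obtain ⟨g, hg, hgp⟩ := CfsgLib.Spor.PlaneFour.exists_extension hα hL hα hL hH hH σ
  have hact : ∀ (f : Equiv.Perm α) (l : Finset α), f • l = l.image f := fun f l => rfl
  have hmem : ∀ f : Equiv.Perm α, f ∈ Cfsg.setSystemAut L ↔ (fun b => b.image f) '' L = L := fun f => by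
    rw [MulAction.mem_stabilizer_iff]
    exact Iff.rfl
  refine ⟨g, ⟨(hmem g).2 hg, hgp⟩, ?_⟩
  rintro f ⟨hf, hfp⟩
  rw [hmem] at hf
  refine (CfsgLib.Spor.PlaneFour.extension_unique hα hL hH (g := g) (g' := f) (fun l hl => ?_) (fun l hl => ?_)
    (fun p => (hgp p).trans (hfp p).symm) fun p => ?_).symm
  · exact hg.subset ⟨l, hl, rfl⟩
  · exact hf.subset ⟨l, hl, rfl⟩
  · rw [hgp]; exact (σ p).2

end Cfsg.Agent.S5628
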