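import Cfsg.Statements.S5632
import Cfsg.Agent.Lib.ClassicalMaxParabolic

set_option autoImplicit false
open Cfsg

namespace Cfsg.Agent.S5632

open CfsgLib.Classical Matrix

/-- For a finite field F and subspaces 0 < W < U of F^n with dim W + dim U = n, the elements of SL_n(F) stabilising both W and U form a subgroup that is not maximal in SL_n(F): some subgroup lies strictly between it and SL_n(F). -/
theorem result {F : Type*} [Field F] [Fintype F] (n : ℕ) (W U : Submodule F (Fin n → F)) (hW0 : W ≠ ⊥) (hWU : W < U) (hdim : Module.finrank F W + Module.finrank F U = n) : ∃ K : Subgroup (Matrix.GeneralLinearGroup (Fin n) F), Cfsg.Geo.subspaceStabilizer W ⊓ Cfsg.Geo.subspaceStabilizer U ⊓ Cfsg.Geo.specialLinear (Fin n) F < K ∧ K < Cfsg.Geo.specialLinear (Fin n) F := by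
  have hW1 : W ≠ ⊤ := fun h => not_top_lt (h ▸ hWU)
  have hU1 : U ≠ ⊤ := by
    intro h
    rw [h, finrank_top, Module.finrank_fin_fun] at hdim
    exact hW0 (Submodule.finrank_eq_zero.1 (by omega))
  obtain ⟨a, -, haU⟩ := SetLike.exists_of_lt (lt_top_iff_ne_top.2 hU1)
  obtain ⟨u, huU, huW⟩ := SetLike.exists_of_lt hWU
  have hu : u ∉ W ⊔ Submodule.span F {a} := by
    intro h
    obtain ⟨w, hw, z, hz, hwz⟩ := Submodule.mem_sup.1 h
    obtain ⟨c, rfl⟩ := Submodule.mem_span_singleton.1 hz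
    by_cases hc : c = 0
    · exact huW (by rw [← hwz, hc, zero_smul, add_zero]; exact hw)
    · have : c • a ∈ U := by
        rw [show c • a = u - w from eq_sub_of_add_eq' hwz]
        exact U.sub_mem huU (hWU.le hw)
      exact haU (by simpa [smul_smul, hc] using U.smul_mem c⁻¹ this)
  obtain ⟨φ, hφu, hφ⟩ := exists_annihilator (W ⊔ Submodule.span F {a}) (z := u) hu
  have hok : φ ⬝ᵥ a = 0 := hφ a (Submodule.mem_sup_right (Submodule.mem_span_singleton_self a))
  refine ⟨Cfsg.Geo.subspaceStabilizer W ⊓ Cfsg.Geo.specialLinear (Fin n) F, ?_, (isMaximalIn_subspaceStabilizer W hW0 hW1).1⟩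
  refine lt_of_le_of_ne (le_inf (inf_le_left.trans inf_le_left) inf_le_right) fun hEq => ?_
  have ht : tv a φ ∈ Cfsg.Geo.subspaceStabilizer W ⊓ Cfsg.Geo.specialLinear (Fin n) F :=
    ⟨mem_stab_of_maps W _ (fun x hx => by
      rw [tv_mulVec hok, hφ x (Submodule.mem_sup_left hx), zero_smul, add_zero]; exact hx),
      tv_mem_specialLinear _ _⟩
  rw [← hEq] at ht
  have h2 : u + (φ ⬝ᵥ u) • a ∈ U := by
    rw [← tv_mulVec hok]; exact (ht.1.2 u).1 huU
  have h3 : (φ ⬝ᵥ u) • a ∈ U := by simpa using U.sub_mem h2 huU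
  exact haU (by simpa [smul_smul, hφu] using U.smul_mem (φ ⬝ᵥ u)⁻¹ h3)

end Cfsg.Agent.S5632
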