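import Cfsg.Statements.S5633
import Cfsg.Agent.Lib.ClassicalMaxParabolic

set_option autoImplicit false
open Cfsg

namespace Cfsg.Agent.S5633

open CfsgLib.Classical Matrix

/-- For a finite field F and complementary non-zero subspaces W ⊕ U = F^n with dim W < dim U, the elements of SL_n(F) stabilising both W and U form a subgroup that is not maximal in SL_n(F): some subgroup lies strictly between it and SL_n(F). -/
theorem result {F : Type*} [Field F] [Fintype F] (n : ℕ) (W U : Submodule F (Fin n → F)) (hW0 : W ≠ ⊥) (hWU : W ⊓ U = ⊥) (hWU' : W ⊔ U = ⊤) (hdim : Module.finrank F W < Module.finrank F U) : ∃ K : Subgroup (Matrix.GeneralLinearGroup (Fin n) F), Cfsg.Geo.subspaceStabilizer W ⊓ Cfsg.Geo.subspaceStabilizer U ⊓ Cfsg.Geo.specialLinear (Fin n) F < K ∧ K < Cfsg.Geo.specialLinear (Fin n) F := by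
  obtain ⟨a, haW, ha0⟩ := Submodule.exists_mem_ne_zero_of_ne_bot hW0
  have hU0 : U ≠ ⊥ := by
    intro h
    rw [h, finrank_bot] at hdim
    omega
  have hW1 : W ≠ ⊤ := fun h => hU0 (by rw [h, top_inf_eq] at hWU; exact hWU)
  have haU : a ∉ U := fun h => ha0 ((Submodule.mem_bot F).1 (hWU ▸ ⟨haW, h⟩))
  obtain ⟨u, huU, hu0⟩ := Submodule.exists_mem_ne_zero_of_ne_bot hU0
  have hu : u ∉ Submodule.span F {a} := by
    intro h
    have : u ∈ W := (Submodule.span_le.2 (by simpa using haW) : Submodule.span F {a} ≤ W) h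
    exact hu0 ((Submodule.mem_bot F).1 (hWU ▸ ⟨this, huU⟩))
  obtain ⟨φ, hφu, hφ⟩ := exists_annihilator (Submodule.span F {a}) (z := u) hu
  have hok : φ ⬝ᵥ a = 0 := hφ a (Submodule.mem_span_singleton_self a)
  refine ⟨Cfsg.Geo.subspaceStabilizer W ⊓ Cfsg.Geo.specialLinear (Fin n) F, ?_, (isMaximalIn_subspaceStabilizer W hW0 hW1).1⟩
  refine lt_of_le_of_ne (le_inf (inf_le_left.trans inf_le_left) inf_le_right) fun hEq => ?_
  have ht : tv a φ ∈ Cfsg.Geo.subspaceStabilizer W ⊓ Cfsg.Geo.specialLinear (Fin n) F :=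
    ⟨mem_stab_of_maps W _ (fun x hx => by
      rw [tv_mulVec hok]; exact W.add_mem hx (W.smul_mem _ haW)), tv_mem_specialLinear _ _⟩
  rw [← hEq] at ht
  have h2 : u + (φ ⬝ᵥ u) • a ∈ U := by
    rw [← tv_mulVec hok]; exact (ht.1.2 u).1 huU
  have h3 : (φ ⬝ᵥ u) • a ∈ U := by simpa using U.sub_mem h2 huU
  exact haU (by simpa [smul_smul, hφu] using U.smul_mem (φ ⬝ᵥ u)⁻¹ h3)

end Cfsg.Agent.S5633
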