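import Cfsg.Statements.S5644
import Cfsg.Agent.Lib.ClassicalMaxOrthLinear

set_option autoImplicit false
open Cfsg

namespace Cfsg.Agent.S5644

/-- For a finite field F of odd order and n ≥ 13, let Q be a non-degenerate quadratic form on F^n (its polar form is non-degenerate). Then the elements of SL_n(F) that are similarities of Q (Q(gv) = c Q(v) for a non-zero scalar c depending on g) form a maximal subgroup of SL_n(F). -/
theorem result {F : Type*} [Field F] [Fintype F] (n : ℕ) (hn : 13 ≤ n) (hodd : Odd (Fintype.card F)) (Q : (Fin n → F) → F) (hQ : Cfsg.Geo.IsNondegenerateQuadraticForm Q) : Cfsg.Geo.IsMaximalIn (Cfsg.Geo.specialLinear (Fin n) F) (Cfsg.Geo.quadSimilarityGroup Q ⊓ Cfsg.Geo.specialLinear (Fin n) F) := by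
  classical
  have h2 : (2 : F) ≠ 0 := Ring.two_ne_zero (fun h => by
    obtain ⟨k, hk⟩ := hodd
    have := FiniteField.even_card_iff_char_two.mp h
    omega)
  let B : LinearMap.BilinForm F (Fin n → F) := CfsgLib.Classical.toBil hQ.polar_bilinear
  have hBapp : ∀ x y, B x y = QuadraticMap.polar Q x y := fun x y => rfl
  have hdiag : ∀ v, QuadraticMap.polar Q v v = 2 * Q v := fun v => by
    rw [QuadraticMap.polar, ← two_smul F v, hQ.smul]; ring
  have hB : ∀ x y, B x y = B y x := fun x y => by rw [hBapp, hBapp, QuadraticMap.polar_comm]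
  have hnd : CfsgLib.Classical.SNondeg B ⊤ := fun w _ hw => by
    obtain ⟨x, hx⟩ := (hQ.nondegenerate w hw).2
    exact ⟨x, trivial, by
      first
        | exact hx
        | (rw [hB]; exact hx)⟩
  refine CfsgLib.Classical.isMaximalIn_orthSimilarity hB hnd h2 (by simp; omega) _ fun g => ?_
  constructor
  · rintro ⟨c, hc⟩
    refine ⟨c, c.ne_zero, fun x y => ?_⟩
    simp only [hBapp, QuadraticMap.polar, ← Matrix.mulVec_add, hc]
    ring
  · rintro ⟨c, hc0, hc⟩
    refine ⟨Units.mk0 c hc0, fun v => mul_left_cancel₀ h2 ?_⟩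
    rw [← hdiag, ← hBapp, hc, hBapp, hdiag, Units.val_mk0]
    ring

end Cfsg.Agent.S5644
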