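import Cfsg.Statements.S5660
import Cfsg.Agent.Lib.ClassicalMaxUnitarySp

set_option autoImplicit false
open Cfsg

namespace Cfsg.Agent.S5660

/-- Let F be the field with q² elements, n ≥ 13 even, and F₀ the subfield with q elements. Let ζ be a non-zero element with ζ + ζ^q = 0 and P an invertible matrix such that ζ times the standard unitary form takes values in F₀ on the F₀-span of the columns of P and the form vanishes on every pair (u, u) of that span (so ζ times the form restricts to a non-degenerate alternating form there). Then the elements of SU_n(q) lying in the subfield group of P form a maximal subgroup of SU_n(q). -/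
theorem result {F : Type*} [Field F] [Fintype F] (n q : ℕ) (hF : Fintype.card F = q ^ 2) (hn : 13 ≤ n) (heven : Even n) (F₀ : Subfield F) (hcard : Fintype.card F = Nat.card F₀ ^ 2) (ζ : F) (hζ0 : ζ ≠ 0) (hζ : ζ + ζ ^ q = 0) (P : Matrix.GeneralLinearGroup (Fin n) F) (hP : Cfsg.Geo.IsFormRationalStructure (Cfsg.hermForm n F q) F₀ ζ P) (halt : ∀ u : Fin n → F, (∀ i, u i ∈ F₀) → Cfsg.hermForm n F q (Matrix.mulVec (P : Matrix (Fin n) (Fin n) F) u) (Matrix.mulVec (P : Matrix (Fin n) (Fin n) F) u) = 0) : Cfsg.Geo.IsMaximalIn (Cfsg.GU n F q ⊓ Cfsg.Geo.specialLinear (Fin n) F) (Cfsg.Geo.subfieldSubgroup F₀ P ⊓ (Cfsg.GU n F q ⊓ Cfsg.Geo.specialLinear (Fin n) F)) := by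
  classical
  obtain ⟨σ, hσ, hf⟩ := CfsgLib.Classical.exists_isUnitaryForm_hermForm n q hF
  have hq : Nat.card F₀ = q := Nat.pow_left_injective two_ne_zero (hcard.symm.trans hF)
  have hq2 : 1 < q := by
    rcases Nat.lt_or_ge 1 q with h | h
    · exact h
    · have := Fintype.one_lt_card (α := F)
      rw [hF] at this
      nlinarith
  have hsub : ∀ x ∈ F₀, σ x = x := fun x hx => by
    rw [hσ, ← hq, Nat.card_eq_fintype_card]
    exact congrArg Subtype.val (FiniteField.pow_card (⟨x, hx⟩ : F₀))
  have hfix : ∀ x : F, σ x = x ↔ x ∈ F₀ := by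
    have hdeg := FiniteField.X_pow_card_sub_X_natDegree_eq F hq2
    intro x
    refine ⟨fun hx => ?_, hsub x⟩
    by_contra hxF
    have hs : (insert x (Finset.univ.image (Subtype.val : F₀ → F))).val ⊆
        (Polynomial.X ^ q - Polynomial.X : Polynomial F).roots := by
      intro y hy
      have hy' : σ y = y := by
        rcases Finset.mem_insert.mp hy with rfl | hy
        · exact hx
        · obtain ⟨z, -, rfl⟩ := Finset.mem_image.mp hy
          exact hsub _ z.2
      rw [Polynomial.mem_roots (fun h0 => by rw [h0, Polynomial.natDegree_zero] at hdeg; omega)]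
      simp [← hσ, hy']
    have h3 := Polynomial.card_le_degree_of_subset_roots hs
    rw [hdeg, Finset.card_insert_of_notMem (fun h => by
      obtain ⟨z, -, rfl⟩ := Finset.mem_image.mp h
      exact hxF z.2), Finset.card_image_of_injective _ Subtype.val_injective, Finset.card_univ,
      ← Nat.card_eq_fintype_card, hq] at h3
    omega
  refine CfsgLib.Classical.isMaximalIn_unitarySymplectic hf (by simp; omega) hfix hζ0 ?_ P hP halt
  rw [hσ]
  exact eq_neg_of_add_eq_zero_right hζ

end Cfsg.Agent.S5660
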