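import Cfsg.Statements.S5671
import Cfsg.Agent.Lib.ClassicalNonMaxTensor

set_option autoImplicit false
open Cfsg

namespace Cfsg.Agent.S5671

/-- Let F be the field with 4 elements (q = 2) and n = 2 n₂ ≥ 13. Suppose the standard unitary form Σ u_i v_i² on F^n is similar, through P and e, to the tensor product of non-degenerate unitary forms f₁ on F^2 and f₂ on F^(n₂). Then the elements of SU_n(2) in the stabiliser of this tensor decomposition form a subgroup that is not maximal: some subgroup lies strictly between it and SU_n(2). -/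
theorem result {F : Type*} [Field F] [Fintype F] (n : ℕ) (hF : Fintype.card F = 4) (hn : 13 ≤ n) (n₂ : ℕ) (e : Fin n ≃ Fin 2 × Fin n₂) (P : Matrix.GeneralLinearGroup (Fin n) F) (f₁ : (Fin 2 → F) → (Fin 2 → F) → F) (f₂ : (Fin n₂ → F) → (Fin n₂ → F) → F) (hf₁ : Cfsg.Geo.IsUnitaryFormPow 2 f₁) (hf₂ : Cfsg.Geo.IsUnitaryFormPow 2 f₂) (hT : Cfsg.Geo.IsTensorFormStructure (fun x : F => x ^ 2) (Cfsg.hermForm n F 2) f₁ f₂ e P) : ∃ K : Subgroup (Matrix.GeneralLinearGroup (Fin n) F), Cfsg.Geo.tensorProductSubgroup 2 n₂ e P ⊓ (Cfsg.GU n F 2 ⊓ Cfsg.Geo.specialLinear (Fin n) F) < K ∧ K < (Cfsg.GU n F 2 ⊓ Cfsg.Geo.specialLinear (Fin n) F) := by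
  obtain ⟨σ, hσ, hf⟩ := CfsgLib.Classical.exists_isUnitaryForm_hermForm n 2 (by rw [hF]; norm_num)
  have key : ∀ {m : ℕ} {g : (Fin m → F) → (Fin m → F) → F}, Cfsg.Geo.IsUnitaryFormPow 2 g →
      Cfsg.Geo.IsUnitaryForm σ g := fun hg =>
    ⟨hf.ne_refl, hf.involutive, hg.add_left, hg.smul_left, fun v w => by rw [hσ, ← hg.herm], hg.nondegenerate⟩
  have h₁ := key hf₁
  have h₂ := key hf₂
  obtain ⟨c, hc, hE⟩ := CfsgLib.NonMaxTensor.pur_form (σ := fun x : F => x ^ 2) (fun a b => mul_pow a b 2)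
    (CfsgLib.NonMaxTensor.gram_eq h₁.add_left h₁.smul_left (CfsgLib.Classical.herm_add_right h₁)
      (fun r v x => by rw [CfsgLib.Classical.herm_smul_right h₁, hσ]))
    (CfsgLib.NonMaxTensor.gram_eq h₂.add_left h₂.smul_left (CfsgLib.Classical.herm_add_right h₂)
      (fun r v x => by rw [CfsgLib.Classical.herm_smul_right h₂, hσ])) hT
  have hd : 2 * n₂ = n := by simpa using (Fintype.card_congr e).symm
  exact CfsgLib.NonMaxTensor.exists_between_unitary hF (fun x hx => by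
    rw [hσ, ← pow_succ', show 2 + 1 = Fintype.card F - 1 by omega]
    exact FiniteField.pow_card_sub_one_eq_one x hx) (by omega) (by simpa using hd)
    (Cfsg.Geo.tensorProductSubgroup 2 n₂ e P) hf h₁ h₂ (CfsgLib.NonMaxTensor.pur e P) hc hE
    (fun g hg => CfsgLib.NonMaxTensor.exists_pur_map hg.1)

end Cfsg.Agent.S5671
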