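import Cfsg.Statements.S5675
import Cfsg.Agent.Lib.ClassicalOrthPlus
import Cfsg.Agent.Lib.ClassicalQuadStd

set_option autoImplicit false
open Cfsg

namespace Cfsg.Agent.S5675

/-- Let F be a finite field of odd order q, m ≥ 6, Q the standard quadratic form on F^(2m+1) and Ω the commutator subgroup of its isometry group. Let W be a non-zero subspace of even dimension on which the polar form of Q is non-degenerate; exclude the case q = 3, dim W = 2 with Q vanishing on some line of W (a plus-type plane). Then the elements of Ω stabilising W (equivalently, stabilising its orthogonal complement, of odd dimension) form a maximal subgroup of Ω. -/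
theorem result {F : Type*} [Field F] [Fintype F] (hodd : Odd (Fintype.card F)) (m : ℕ) (hm : 6 ≤ m) (W : Submodule F (Unit ⊕ (Fin m ⊕ Fin m) → F)) (hW0 : W ≠ ⊥) (hev : Even (Module.finrank F W)) (hW : Cfsg.Geo.IsNondegenerateOn (QuadraticMap.polar (Cfsg.quadFormOdd m F)) W) (hex : ¬ (Fintype.card F = 3 ∧ Module.finrank F W = 2 ∧ Cfsg.Geo.IsPlusTypeOn (Cfsg.quadFormOdd m F) W)) : Cfsg.Geo.IsMaximalIn (Cfsg.Geo.omegaGL (Cfsg.quadFormOdd m F)) (Cfsg.Geo.subspaceStabilizer W ⊓ Cfsg.Geo.omegaGL (Cfsg.quadFormOdd m F)) := by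
  have h2 := CfsgLib.Classical.two_ne_zero_of_odd_card hodd
  have hQ := CfsgLib.Classical.isNondegenerate_quadFormOdd h2 m
  have hd := CfsgLib.Classical.finrank_qorth hQ W
  simp only [Fintype.card_sum, Fintype.card_unit, Fintype.card_fin] at hd
  obtain ⟨j, hj⟩ := hev
  refine CfsgLib.Classical.isMaximalIn_qNondeg' hQ (by simp; omega) hW hW0
    (fun h => by rw [h, finrank_top, Module.finrank_pi] at hj; simp at hj; omega)
    (fun h => by simp at h; omega) fun U hU hq h2' x hx hx0 hQx => ?_
  rcases hU with rfl | rfl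
  · have h1 : 1 < Fintype.card F := Fintype.one_lt_card
    obtain ⟨a, ha⟩ := hodd
    exact hex ⟨by omega, h2', CfsgLib.Classical.plane_of_sing hQ h2' hx hx0 hQx⟩
  · omega

end Cfsg.Agent.S5675
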