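import Cfsg.Statements.S5677
import Cfsg.Agent.Lib.ClassicalMaxOrthWreath
import Cfsg.Agent.Lib.ClassicalMaxOrthWreath3
import Cfsg.Agent.Lib.ClassicalQuadStd

set_option autoImplicit false
open Cfsg

namespace Cfsg.Agent.S5677

/-- Let F be a finite field of odd order q, m ≥ 6, Q the standard quadratic form on F^(2m+1) and Ω the commutator subgroup of its isometry group. Let D be a decomposition of F^(2m+1) into t ≥ 2 pairwise orthogonal, pairwise Q-isometric subspaces of equal dimension k > 1 on which the polar form is non-degenerate. Unless q = 3 and k = 3, the elements of Ω permuting the members of D form a maximal subgroup of Ω. -/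
theorem result {F : Type*} [Field F] [Fintype F] (hodd : Odd (Fintype.card F)) (m : ℕ) (hm : 6 ≤ m) {t : ℕ} (k : ℕ) (hk : 1 < k) (D : Fin t → Submodule F (Unit ⊕ (Fin m ⊕ Fin m) → F)) (hD : Cfsg.Geo.IsOrthogonalMDecomposition (Cfsg.quadFormOdd m F) k D) (hex : ¬ (Fintype.card F = 3 ∧ k = 3)) : Cfsg.Geo.IsMaximalIn (Cfsg.Geo.omegaGL (Cfsg.quadFormOdd m F)) (Cfsg.Geo.decompositionStabilizer D ⊓ Cfsg.Geo.omegaGL (Cfsg.quadFormOdd m F)) := by
  have h2 := CfsgLib.Classical.two_ne_zero_of_odd_card hodd
  have hQ := CfsgLib.Classical.isNondegenerate_quadFormOdd (F := F) h2 m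
  have hc : Fintype.card (Unit ⊕ (Fin m ⊕ Fin m)) = 2 * m + 1 := by simp; omega
  have hsum : t * k = 2 * m + 1 := by
    have h1 := hD.decomp.decomp
    have hi := DirectSum.isInternal_submodule_of_iSupIndep_of_iSup_eq_top h1.indep h1.iSup_eq_top
    let e := LinearEquiv.ofBijective (DirectSum.coeLinearMap D) hi
    have := e.finrank_eq
    rw [Module.finrank_directSum, Module.finrank_pi, hc] at this
    rw [← this]
    simp [h1.finrank_eq]
  have hkodd : Odd k := (Nat.odd_mul.mp (hsum ▸ odd_two_mul_add_one m)).2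
  by_cases h5 : 5 ≤ k
  · exact CfsgLib.Classical.isMaximalIn_qWreath hQ (by omega) hD.decomp h5 (Or.inr hD.isometric)
  · have hk3 : k = 3 := by obtain ⟨j, hj⟩ := hkodd; omega
    subst hk3
    obtain ⟨j, hj⟩ := hodd
    have hq5 : 5 ≤ Fintype.card F := by
      have := Fintype.one_lt_card (α := F)
      have : Fintype.card F ≠ 3 := fun h => hex ⟨h, rfl⟩
      omega
    exact CfsgLib.Classical.isMaximalIn_qWreath3 hQ hD.decomp (by omega) hD.isometric h2 hq5

end Cfsg.Agent.S5677
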