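import Cfsg.Statements.S5682
import Cfsg.Agent.Lib.ClassicalNonMaxTensor
import Cfsg.Agent.Lib.ClassicalQuadStd

set_option autoImplicit false
open Cfsg

namespace Cfsg.Agent.S5682

/-- Let F be the field with 3 elements, m ≥ 6, Q the standard quadratic form on F^(2m+1) and Ω the commutator subgroup of its isometry group. Suppose the polar form of Q is similar, through P and e, to the tensor product of non-degenerate symmetric bilinear forms f₁ on F^3 and f₂ on F^(n₂) with 3 < n₂. Then the elements of Ω in the stabiliser of this tensor decomposition form a subgroup that is not maximal: some subgroup lies strictly between it and Ω. -/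
theorem result {F : Type*} [Field F] [Fintype F] (hq : Fintype.card F = 3) (m : ℕ) (hm : 6 ≤ m) (n₂ : ℕ) (h2 : 3 < n₂) (e : (Unit ⊕ (Fin m ⊕ Fin m)) ≃ Fin 3 × Fin n₂) (P : Matrix.GeneralLinearGroup (Unit ⊕ (Fin m ⊕ Fin m)) F) (f₁ : (Fin 3 → F) → (Fin 3 → F) → F) (f₂ : (Fin n₂ → F) → (Fin n₂ → F) → F) (hf₁ : Cfsg.Geo.IsSymmetricForm f₁) (hf₂ : Cfsg.Geo.IsSymmetricForm f₂) (hT : Cfsg.Geo.IsTensorFormStructure id (QuadraticMap.polar (Cfsg.quadFormOdd m F)) f₁ f₂ e P) : ∃ K : Subgroup (Matrix.GeneralLinearGroup (Unit ⊕ (Fin m ⊕ Fin m)) F), Cfsg.Geo.tensorProductSubgroup 3 n₂ e P ⊓ Cfsg.Geo.omegaGL (Cfsg.quadFormOdd m F) < K ∧ K < Cfsg.Geo.omegaGL (Cfsg.quadFormOdd m F) := by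
  have h2q : (2 : F) ≠ 0 := fun h => by
    haveI : CharP F 2 := CharTwo.of_one_ne_zero_of_two_eq_zero one_ne_zero h
    have := FiniteField.even_card_iff_char_two.mp (ringChar.eq F 2)
    omega
  have hQ := CfsgLib.Classical.isNondegenerate_quadFormOdd h2q m
  obtain ⟨c, hc, hE⟩ := CfsgLib.NonMaxTensor.pur_form (σ := id) (fun _ _ => rfl)
    (CfsgLib.NonMaxTensor.gram_eq hf₁.bilinear.add_left hf₁.bilinear.smul_left hf₁.bilinear.add_right
      hf₁.bilinear.smul_right)
    (CfsgLib.NonMaxTensor.gram_eq hf₂.bilinear.add_left hf₂.bilinear.smul_left hf₂.bilinear.add_right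
      hf₂.bilinear.smul_right) hT
  exact CfsgLib.NonMaxTensor.exists_between_orthogonal hq (by simpa using (Fintype.card_congr e).symm) (by omega)
    (Cfsg.Geo.tensorProductSubgroup 3 n₂ e P) hQ hf₁ hf₂ (CfsgLib.NonMaxTensor.pur e P) hc hE
    (fun g hg => CfsgLib.NonMaxTensor.exists_pur_map hg.1)

end Cfsg.Agent.S5682
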