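import Cfsg.Statements.S5876
import Cfsg.Agent.Lib.ClassicalPrimLinear

set_option autoImplicit false
open Cfsg

namespace Cfsg.Agent.S5876

/-- Fixed-point spaces in primitive soluble linear groups. Let F be a finite field and G a soluble subgroup of GL_n(F) that acts irreducibly on F^n and primitively (G preserves no decomposition of F^n into two or more independent subspaces of equal dimension). Then every non-identity element g of G has fixed-point space {v : g v = v} of dimension at most 3n/4. -/
theorem result {F : Type*} [Field F] [Fintype F] {n : ℕ} (G : Subgroup (Matrix.GeneralLinearGroup (Fin n) F)) (hsol : IsSolvable G) (hirr : Cfsg.Geo.ActsIrreducibly (Cfsg.Geo.matrixSet G)) (hprim : ∀ (m t : ℕ) (D : Fin t → Submodule F (Fin n → F)), 2 ≤ t → Cfsg.Geo.IsMDecomposition m D → ¬ G ≤ Cfsg.Geo.decompositionStabilizer D) (g : Matrix.GeneralLinearGroup (Fin n) F) (hg : g ∈ G) (hg1 : g ≠ 1) :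
    4 * Module.finrank F (Module.End.eigenspace (Matrix.toLin' (g : Matrix (Fin n) (Fin n) F)) 1) ≤ 3 * n := by
  classical
  let ρ : G →* Module.End F (Fin n → F) :=
    { toFun := fun s => Matrix.toLin' ((s : Matrix.GeneralLinearGroup (Fin n) F) : Matrix (Fin n) (Fin n) F)
      map_one' := by simp [Module.End.one_eq_id]
      map_mul' := fun a b => by simp [Matrix.toLin'_mul, Module.End.mul_eq_comp] }
  have hinj : Function.Injective ρ := fun a b h => Subtype.ext (Units.ext (Matrix.toLin'.injective h))
  have h := CfsgLib.PrimLinear.finrank_fix_le hsol ρ hinj (fun W hW => hirr W (by rintro s ⟨x, hx, rfl⟩; exact hW ⟨x, hx⟩))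
    (fun t m D ht hm hd hind hsup hs => hprim m t D ht ⟨ht, hm, hd, hind, hsup⟩ fun x hx => hs ⟨x, hx⟩)
    (g := ⟨g, hg⟩) (fun e => hg1 (congrArg Subtype.val e))
  have he : CfsgLib.PrimLinear.fix ρ ⟨g, hg⟩ =
      Module.End.eigenspace (Matrix.toLin' (g : Matrix (Fin n) (Fin n) F)) 1 := by
    ext v
    rw [CfsgLib.PrimLinear.mem_fix, Module.End.mem_eigenspace_iff, one_smul]; rfl
  rw [he, Module.finrank_fin_fun] at h
  exact h

end Cfsg.Agent.S5876
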