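import Cfsg.Statements.S5938
import Cfsg.Agent.Lib.DicksonPolyMax

set_option autoImplicit false
open Cfsg

namespace Cfsg.Agent.S5938

/-- Let p be a prime with p ≡ ±1 (mod 8) and F a field with p elements. Then PSL_2(F) has a maximal subgroup isomorphic to the symmetric group S_4. -/
theorem result {F : Type*} [Field F] [Fintype F] (p : ℕ) [Fact p.Prime] (hF : Fintype.card F = p) (hp : p % 8 = 1 ∨ p % 8 = 7) : ∃ H : Subgroup (Matrix.ProjectiveSpecialLinearGroup (Fin 2) F), IsCoatom H ∧ Nonempty (H ≃* Equiv.Perm (Fin 4)) := by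
  haveI : CharP F p := charP_of_card_eq_prime_pow (f := 1) (by rw [hF, pow_one])
  have hp2 : p ≠ 2 := by omega
  have h16 : p ^ 2 % 16 = 1 := by
    have h16 := Nat.mod_lt p (show 16 > 0 by norm_num)
    rw [Nat.pow_mod]
    have h8 : p % 8 = p % 16 % 8 := by omega
    rw [h8] at hp
    generalize p % 16 = r at hp h16 ⊢
    interval_cases r <;> first | omega | norm_num
  obtain ⟨H, ⟨e⟩⟩ := (Cfsg.Agent.S0803.result hF).mpr h16
  have hH : Nat.card H = 24 := by
    rw [Nat.card_congr e.toEquiv, Nat.card_perm, Nat.card_fin]; rfl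
  have hpair : CfsgLib.Dickson.HasPair H :=
    CfsgLib.Dickson.hasPair_map e.symm.toMonoidHom e.symm.injective CfsgLib.Dickson.hasPair_perm_four
  refine ⟨H, ⟨fun h => ?_, fun M hM => ?_⟩, ⟨e⟩⟩
  · have hG := CfsgLib.Dickson.card_psl hF (p := p)
    have h7 : 7 ≤ p := by
      have := (Fact.out : p.Prime).two_le
      rcases hp with h | h
      · by_contra hlt; interval_cases p <;> simp at h
      · omega
    rw [show Nat.card (CfsgLib.Dickson.PSL F) = 24 by rw [← hH, h, Subgroup.card_top]] at hG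
    have hd : Nat.gcd 2 (p - 1) ≤ 2 := Nat.le_of_dvd two_pos (Nat.gcd_dvd_left 2 (p - 1))
    have : 7 * 6 * 8 ≤ p * (p - 1) * (p + 1) := Nat.mul_le_mul (Nat.mul_le_mul h7 (by omega)) (by omega)
    omega
  · by_contra hMtop
    have hlt : Nat.card H < Nat.card M := lt_of_le_of_ne (Subgroup.card_le_of_le hM.le)
      fun h => hM.ne (Subgroup.eq_of_le_of_card_ge hM.le h.ge)
    have hdvd := Subgroup.card_dvd_of_le hM.le
    rw [hH] at hlt hdvd
    rcases CfsgLib.Dickson.overgroup_cases (p := p) hF hp2 hpair hM.le with ⟨⟨f⟩⟩ | ⟨⟨f⟩⟩ | ⟨⟨f⟩⟩ | ⟨K, hK, hKf, m, hm, hiso⟩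
    · rw [Nat.card_congr f.toEquiv, nat_card_alternatingGroup, Nat.card_fin, show (4 : ℕ).factorial / 2 = 12 from rfl] at hlt
      omega
    · rw [Nat.card_congr f.toEquiv, Nat.card_perm, Nat.card_fin, show (4 : ℕ).factorial = 24 from rfl] at hlt
      omega
    · rw [Nat.card_congr f.toEquiv, nat_card_alternatingGroup, Nat.card_fin, show (5 : ℕ).factorial / 2 = 60 from rfl] at hdvd
      norm_num at hdvd
    · refine hMtop (CfsgLib.Dickson.eq_top_of_subfield (p := p) hF ?_ hiso)
      rcases m with _ | _ | m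
      · rw [pow_zero] at hm
        exact absurd hm.symm (Fact.out : p.Prime).ne_one
      · simpa using hm
      · exact absurd (hm.symm ▸ (Fact.out : p.Prime)) (Nat.Prime.not_prime_pow (by omega))

end Cfsg.Agent.S5938
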