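import Cfsg.Statements.S5941
import Cfsg.Agent.Lib.DicksonSubfieldMax

set_option autoImplicit false
open Cfsg

namespace Cfsg.Agent.S5941

/-- Let K and F be finite fields of odd characteristic with #F = (#K)². Then PSL_2(F) has a maximal subgroup isomorphic to PGL_2(K). -/
theorem result {F K : Type*} [Field F] [Fintype F] [Field K] [Fintype K] (q : ℕ) (hK : Fintype.card K = q) (hF : Fintype.card F = q ^ 2) (hq : Odd q) : ∃ H : Subgroup (Matrix.ProjectiveSpecialLinearGroup (Fin 2) F), IsCoatom H ∧ Nonempty (H ≃* Matrix.ProjGenLinGroup (Fin 2) K) := by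
  classical
  obtain ⟨p, hchar⟩ := CharP.exists F
  obtain ⟨b, hp, -⟩ := FiniteField.card F p
  haveI := Fact.mk hp
  obtain ⟨φ⟩ := CfsgLib.Dickson.exists_field_hom hK hF two_ne_zero
  obtain ⟨f, hf, hfS⟩ := CfsgLib.Dickson.exists_pgl_hom_sq φ
    (fun a => CfsgLib.Dickson.isSquare_of_even hK hF even_two hq φ a)
  have hH : Nat.card f.range = q * (q - 1) * (q + 1) := by
    rw [← hK, ← CfsgLib.Dickson.card_pgl_two]
    exact (Nat.card_congr (MonoidHom.ofInjective hf).toEquiv).symm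
  have hq1 : 1 < q := hK ▸ Fintype.one_lt_card
  have hq2 : q ≠ 2 := fun h => by rw [h] at hq; exact absurd hq (by decide)
  refine ⟨f.range, CfsgLib.Dickson.subfield_isCoatom (p := p) hF hK rfl Nat.prime_two hq2 φ
    (fun S => ⟨_, hfS S⟩) (by rw [hH]; exact dvd_mul_left _ _) hH.le ?_ ?_, ⟨(MonoidHom.ofInjective hf).symm⟩⟩
  · intro M hM hle
    refine (Subgroup.eq_of_le_of_card_ge hle ?_).symm
    have hd := Subgroup.card_dvd_of_le hle
    rw [hH] at hd ⊢
    rcases (show q = 3 ∨ 5 ≤ q by have := Nat.odd_iff.mp hq; omega) with h | h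
    · subst h
      rcases CfsgLib.Dickson.small_card hM with ⟨e, -⟩ | ⟨e, -⟩ | ⟨e, -⟩ <;> rw [e] at hd ⊢ <;> first | omega | norm_num at hd
    · have h60 : 5 * 4 * 6 ≤ q * (q - 1) * (q + 1) := Nat.mul_le_mul (Nat.mul_le_mul h (by omega)) (by omega)
      rcases CfsgLib.Dickson.small_card hM with ⟨e, -⟩ | ⟨e, -⟩ | ⟨e, -⟩ <;> omega
  · intro M K' hK'f hK't hk' hiso
    rw [hH]
    obtain ⟨p', hchar'⟩ := CharP.exists K'
    obtain ⟨i, hp', -⟩ := FiniteField.card K' p'
    haveI := Fact.mk hp'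
    rcases hiso with ⟨⟨g⟩⟩ | ⟨⟨g⟩⟩
    · rw [Nat.card_congr g.toEquiv, ← CfsgLib.Dickson.card_psl hk' (p := p')]
      exact Nat.le_mul_of_pos_right _ (Nat.gcd_pos_of_pos_left _ two_pos)
    · rw [Nat.card_congr g.toEquiv, CfsgLib.Dickson.card_pgl_two, hk']

end Cfsg.Agent.S5941
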