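import Cfsg.Statements.S5942
import Cfsg.Agent.Lib.DicksonSubfieldMax

set_option autoImplicit false
open Cfsg

namespace Cfsg.Agent.S5942

/-- Let K and F be finite fields of odd characteristic with #F = (#K)^r for an odd prime r. Then PSL_2(F) has a maximal subgroup isomorphic to PSL_2(K). -/
theorem result {F K : Type*} [Field F] [Fintype F] [Field K] [Fintype K] (q r : ℕ) (hK : Fintype.card K = q) (hF : Fintype.card F = q ^ r) (hq : Odd q) (hr : r.Prime) (hr2 : r ≠ 2) : ∃ H : Subgroup (Matrix.ProjectiveSpecialLinearGroup (Fin 2) F), IsCoatom H ∧ Nonempty (H ≃* Matrix.ProjectiveSpecialLinearGroup (Fin 2) K) := by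
  classical
  obtain ⟨p, hchar⟩ := CharP.exists F
  obtain ⟨b, hp, -⟩ := FiniteField.card F p
  haveI := Fact.mk hp
  obtain ⟨φ⟩ := CfsgLib.Dickson.exists_field_hom hK hF hr.ne_zero
  obtain ⟨f, hf, hfS⟩ := CfsgLib.Dickson.exists_psl_hom_map φ
  haveI := CfsgLib.Dickson.char_eq_of_pow hK hF hr.ne_zero p
  have hq1 : 1 < q := hK ▸ Fintype.one_lt_card
  have hq2 : q ≠ 2 := fun h => by rw [h] at hq; exact absurd hq (by decide)
  have hqm := Nat.odd_iff.mp hq
  have hg : Nat.gcd 2 (q - 1) = 2 := Nat.gcd_eq_left (by omega)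
  have hH : Nat.card f.range * 2 = q * (q - 1) * (q + 1) := by
    have h := CfsgLib.Dickson.card_psl hK (p := p)
    rw [hg, Nat.card_congr (MonoidHom.ofInjective hf).toEquiv] at h
    exact h
  have hrodd : Odd r := hr.odd_of_ne_two hr2
  refine ⟨f.range, CfsgLib.Dickson.subfield_isCoatom (p := p) hF hK rfl hr hq2 φ
    (fun S => ⟨_, hfS S⟩) (by rw [hg, mul_comm 2, hH]) (by omega) ?_ ?_, ⟨(MonoidHom.ofInjective hf).symm⟩⟩
  · intro M hM hle
    refine (Subgroup.eq_of_le_of_card_ge hle ?_).symm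
    rcases (show q = 3 ∨ 5 ≤ q by omega) with h | h
    · obtain ⟨i, hi⟩ := hrodd
      rcases CfsgLib.Dickson.small_card hM with ⟨e, -⟩ | ⟨e, hiso⟩ | ⟨e, hiso⟩
      · rw [h] at hH; omega
      · exfalso
        refine CfsgLib.Dickson.sq_mod_sixteen (q ^ r) (Or.inl ?_) ((Cfsg.Agent.S0803.result hF).mp ⟨M, hiso⟩)
        rw [h, hi, pow_succ, pow_mul, Nat.mul_mod, Nat.pow_mod]
        norm_num
      · exfalso
        have h5 := (Cfsg.Agent.S0804.result hF).mp ⟨M, hiso⟩
        rw [h, hi, Nat.dvd_iff_mod_eq_zero, Nat.mul_mod] at h5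
        have hQ : 3 ^ (2 * i + 1) % 5 = 3 ∨ 3 ^ (2 * i + 1) % 5 = 2 := by
          clear h5 hi hH hM hle e hiso
          induction i with
          | zero => simp
          | succ i ih =>
            rw [show 2 * (i + 1) + 1 = 2 * i + 1 + 2 by ring, pow_add, Nat.mul_mod]
            rcases ih with h | h <;> rw [h] <;> norm_num
        have h1 : 1 ≤ (3 ^ (2 * i + 1)) ^ 2 := Nat.one_le_pow _ _ (by positivity)
        have hsq : (3 ^ (2 * i + 1)) ^ 2 % 5 = 4 := by
          rw [Nat.pow_mod]; rcases hQ with h | h <;> rw [h] <;> norm_num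
        rw [show ((3 ^ (2 * i + 1)) ^ 2 - 1) % 5 = 3 by omega] at h5
        rcases hQ with h | h <;> rw [h] at h5 <;> norm_num at h5
    · have h60 : 5 * 4 * 6 ≤ q * (q - 1) * (q + 1) := Nat.mul_le_mul (Nat.mul_le_mul h (by omega)) (by omega)
      rcases CfsgLib.Dickson.small_card hM with ⟨e, -⟩ | ⟨e, -⟩ | ⟨e, -⟩ <;> omega
  · intro M K' hK'f hK't hk' hiso
    haveI := CfsgLib.Dickson.char_eq_of_pow hk' hF hr.ne_zero p
    rcases hiso with ⟨⟨g⟩⟩ | ⟨⟨g⟩⟩
    · have h := CfsgLib.Dickson.card_psl hk' (p := p)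
      rw [hg, ← Nat.card_congr g.toEquiv] at h
      omega
    · exact (CfsgLib.Dickson.no_pgl_of_odd hk' hF hrodd hq M g).elim

end Cfsg.Agent.S5942
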