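import Cfsg.Statements.S5943
import Cfsg.Agent.Lib.DicksonSubfieldMax

set_option autoImplicit false
open Cfsg

namespace Cfsg.Agent.S5943

/-- Let K and F be finite fields of characteristic 2 with #K = q > 2 and #F = q^r for a prime r. Then PSL_2(F) has a maximal subgroup isomorphic to PSL_2(K) (which equals PGL_2(K) in characteristic 2). -/
theorem result {F K : Type*} [Field F] [Fintype F] [Field K] [Fintype K] (q r : ℕ) (hK : Fintype.card K = q) (hF : Fintype.card F = q ^ r) (hq : Even q) (hq2 : q ≠ 2) (hr : r.Prime) : ∃ H : Subgroup (Matrix.ProjectiveSpecialLinearGroup (Fin 2) F), IsCoatom H ∧ Nonempty (H ≃* Matrix.ProjectiveSpecialLinearGroup (Fin 2) K) := by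
  classical
  obtain ⟨p, hchar⟩ := CharP.exists F
  obtain ⟨b, hp, -⟩ := FiniteField.card F p
  haveI := Fact.mk hp
  obtain ⟨φ⟩ := CfsgLib.Dickson.exists_field_hom hK hF hr.ne_zero
  obtain ⟨f, hf, hfS⟩ := CfsgLib.Dickson.exists_psl_hom_map φ
  haveI := CfsgLib.Dickson.char_eq_of_pow hK hF hr.ne_zero p
  have hq1 : 1 < q := hK ▸ Fintype.one_lt_card
  have hqm := Nat.even_iff.mp hq
  have hg : Nat.gcd 2 (q - 1) = 1 := Nat.coprime_two_left.mpr (Nat.odd_iff.mpr (by omega))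
  have hH : Nat.card f.range = q * (q - 1) * (q + 1) := by
    rw [← CfsgLib.Dickson.card_psl hK (p := p), hg, mul_one]
    exact (Nat.card_congr (MonoidHom.ofInjective hf).toEquiv).symm
  refine ⟨f.range, CfsgLib.Dickson.subfield_isCoatom (p := p) hF hK rfl hr hq2 φ
    (fun S => ⟨_, hfS S⟩) (by rw [hg, hH, one_mul]) hH.le ?_ ?_, ⟨(MonoidHom.ofInjective hf).symm⟩⟩
  · intro M hM hle
    refine (Subgroup.eq_of_le_of_card_ge hle ?_).symm
    have h60 : 4 * 3 * 5 ≤ q * (q - 1) * (q + 1) := Nat.mul_le_mul (Nat.mul_le_mul (by omega) (by omega)) (by omega)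
    rcases CfsgLib.Dickson.small_card hM with ⟨e, -⟩ | ⟨e, -⟩ | ⟨e, -⟩ <;> omega
  · intro M K' hK'f hK't hk' hiso
    haveI := CfsgLib.Dickson.char_eq_of_pow hk' hF hr.ne_zero p
    rw [hH]
    rcases hiso with ⟨⟨g⟩⟩ | ⟨⟨g⟩⟩
    · rw [Nat.card_congr g.toEquiv, ← CfsgLib.Dickson.card_psl hk' (p := p), hg, mul_one]
    · rw [Nat.card_congr g.toEquiv, CfsgLib.Dickson.card_pgl_two, hk']

end Cfsg.Agent.S5943
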