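import Cfsg.Statements.S5945
import Cfsg.Agent.Lib.ClassicalSymSix

set_option autoImplicit false
open Cfsg

namespace Cfsg.Agent.S5945

/-- The symmetric group S_6 has exactly 12 subgroups of index 6; each of them is isomorphic to S_5, and at least one of them is not the stabilizer of any point. -/
theorem result : Nat.card {H : Subgroup (Equiv.Perm (Fin 6)) // H.index = 6} = 12 ∧ (∀ H : Subgroup (Equiv.Perm (Fin 6)), H.index = 6 → Nonempty (H ≃* Equiv.Perm (Fin 5))) ∧ ∃ H : Subgroup (Equiv.Perm (Fin 6)), H.index = 6 ∧ ∀ a : Fin 6, H ≠ MulAction.stabilizer (Equiv.Perm (Fin 6)) a := by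
  classical
  have h6 : Fintype.card (Fin 6) = 6 := Fintype.card_fin 6
  obtain ⟨φ, hne, hall⟩ := CfsgLib.Classical.index_six_dichotomy h6
  have hidx : ∀ x : Fin 6, (MulAction.stabilizer (Equiv.Perm (Fin 6)) x).index = 6 := fun x => by
    rw [MulAction.index_stabilizer_of_transitive, Nat.card_fin]
  have hidx2 : ∀ y : Fin 6, ((MulAction.stabilizer (Equiv.Perm (Fin 6)) y).comap φ.toMonoidHom).index = 6 := fun y => by
    rw [Subgroup.index_comap_of_surjective _ φ.surjective, hidx]
  have hinj : Function.Injective (fun x : Fin 6 => MulAction.stabilizer (Equiv.Perm (Fin 6)) x) := fun x y h => by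
    by_contra hxy
    obtain ⟨z, hz⟩ : ∃ z, z ∉ ({x, y} : Finset (Fin 6)) := by
      by_contra! hz
      have h1 := Finset.card_le_card (show (Finset.univ : Finset (Fin 6)) ⊆ {x, y} from fun z _ => hz z)
      have h2 : ({x, y} : Finset (Fin 6)).card ≤ 2 := Finset.card_le_two
      rw [Finset.card_univ, h6] at h1
      omega
    simp only [Finset.mem_insert, Finset.mem_singleton, not_or] at hz
    have hm : Equiv.swap y z ∈ MulAction.stabilizer (Equiv.Perm (Fin 6)) x :=
      Equiv.swap_apply_of_ne_of_ne hxy (Ne.symm hz.1)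
    simp only at h
    rw [h] at hm
    exact hz.2 ((Equiv.swap_apply_left y z).symm.trans hm)
  refine ⟨?_, fun H hH => ?_, ⟨_, hidx2 0, fun a h => hne a 0 h.symm⟩⟩
  · let F : Fin 6 ⊕ Fin 6 → {H : Subgroup (Equiv.Perm (Fin 6)) // H.index = 6} :=
      Sum.elim (fun x => ⟨_, hidx x⟩) (fun y => ⟨_, hidx2 y⟩)
    have hF : Function.Bijective F := by
      refine ⟨?_, fun H => ?_⟩
      · rintro (x | x) (y | y) h <;> simp only [F, Sum.elim_inl, Sum.elim_inr, Subtype.mk.injEq] at h
        · exact congrArg Sum.inl (hinj h)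
        · exact absurd h (hne x y)
        · exact absurd h.symm (hne y x)
        · exact congrArg Sum.inr (hinj (Subgroup.comap_injective φ.surjective h))
      · rcases hall H.1 H.2 with ⟨x, hx⟩ | ⟨y, hy⟩
        · exact ⟨Sum.inl x, Subtype.ext hx.symm⟩
        · exact ⟨Sum.inr y, Subtype.ext hy.symm⟩
    rw [← Nat.card_eq_of_bijective F hF, Nat.card_sum, Nat.card_fin]
  · obtain ⟨ψ, a, hψ⟩ := CfsgLib.Classical.exists_aut_of_index_eq (by rw [h6]; norm_num) H (by rw [h6, hH])
    let e1 : H ≃* MulAction.stabilizer (Equiv.Perm (Fin 6)) a :=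
      { toFun := fun g => ⟨ψ g, (hψ g.1).mp g.2⟩
        invFun := fun g => ⟨ψ.symm g, (hψ _).mpr (by rw [MulEquiv.apply_symm_apply]; exact g.2)⟩
        left_inv := fun g => Subtype.ext (ψ.symm_apply_apply _)
        right_inv := fun g => Subtype.ext (ψ.apply_symm_apply _)
        map_mul' := fun g g' => Subtype.ext (map_mul ψ _ _) }
    let i : Equiv.Perm {x : Fin 6 // x ≠ a} →* MulAction.stabilizer (Equiv.Perm (Fin 6)) a :=
      Equiv.Perm.ofSubtype.codRestrict _ fun σ => Equiv.Perm.ofSubtype_apply_of_not_mem σ (by simp)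
    have hi : Function.Bijective i := by
      refine (Nat.bijective_iff_injective_and_card i).mpr ⟨fun s t h => Equiv.Perm.ofSubtype_injective (congrArg Subtype.val h), ?_⟩
      have h1 := (MulAction.stabilizer (Equiv.Perm (Fin 6)) a).index_mul_card
      rw [hidx a, Nat.card_perm, Nat.card_fin] at h1
      rw [Nat.card_perm, Nat.card_eq_fintype_card, Fintype.card_subtype_compl, Fintype.card_subtype_eq, h6]
      rw [show Nat.factorial 6 = 720 from rfl] at h1
      rw [show Nat.factorial (6 - 1) = 120 from rfl]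
      omega
    obtain ⟨e⟩ : Nonempty ({x : Fin 6 // x ≠ a} ≃ Fin 5) :=
      Fintype.card_eq.mp (by rw [Fintype.card_subtype_compl, Fintype.card_subtype_eq, h6, Fintype.card_fin])
    exact ⟨(e1.trans (MulEquiv.ofBijective i hi).symm).trans e.permCongrHom⟩

end Cfsg.Agent.S5945
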