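import Cfsg.Statements.S5952
import Mathlib

set_option autoImplicit false
open Cfsg

namespace Cfsg.Agent.S5952

open Module

/-- Which dimensions of invariant subspaces a semisimple linear map has. Let `V` be a finite-dimensional vector space over a field `F` and `f` an invertible semisimple linear map of `V`. Suppose `V` is the internal direct sum of the fixed space `C_V(f)` (the eigenspace for 1) and subspaces `U_1, …, U_s`, each `f`-invariant of dimension `a ≥ 1` on which `f` acts irreducibly (no `f`-invariant subspaces other than 0 and `U_j`). Let `0 < m < dim V` and `ℓ = m mod a`. Then `f` leaves some `m`-dimensional subspace invariant if and only if `dim C_V(f) ≥ m`, or `a ≤ m` and `dim C_V(f) ≥ ℓ`. -/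
theorem result {F V : Type*} [Field F] [AddCommGroup V] [Module F V]
    [FiniteDimensional F V] (f : V →ₗ[F] V) (hf : Function.Bijective f) (hss : Module.End.IsSemisimple f)
    {s a : ℕ} (ha : 1 ≤ a) (U : Fin s → Submodule F V)
    (hUinv : ∀ j, (U j).map f ≤ U j) (hUdim : ∀ j, Module.finrank F ↥(U j) = a)
    (hUirr : ∀ j, ∀ W : Submodule F V, W ≤ U j → W.map f ≤ W → W = ⊥ ∨ W = U j)
    (hdec : DirectSum.IsInternal (fun o : Option (Fin s) => o.elim (Module.End.eigenspace f 1) U))
    (m : ℕ) (hm : 0 < m) (hmV : m < Module.finrank F V) :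
    (∃ W : Submodule F V, Module.finrank F ↥W = m ∧ W.map f ≤ W) ↔
    (m ≤ Module.finrank F ↥(Module.End.eigenspace f 1) ∨
      (a ≤ m ∧ m % a ≤ Module.finrank F ↥(Module.End.eigenspace f 1))) := by
  classical
  set C := Module.End.eigenspace f 1 with hC
  have hCf : ∀ x ∈ C, f x = x := fun x hx => by
    have := Module.End.mem_eigenspace_iff.1 hx; simpa using this
  have hind := hdec.submodule_iSupIndep
  have hdis : ∀ (B : Submodule F V), B ≤ C → ∀ (S : Finset (Fin s)) (j : Fin s), j ∉ S → Disjoint (U j) (B ⊔ S.sup U) := by
    intro B hB S j hj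
    refine (hind (some j)).mono le_rfl (sup_le (hB.trans ?_) (Finset.sup_le fun i hi => ?_))
    · exact le_iSup₂_of_le (none : Option (Fin s)) (by simp) le_rfl
    · exact le_iSup₂_of_le (some i) (by simp only [ne_eq, Option.some.injEq]; exact fun h => hj (h ▸ hi)) le_rfl
  have hdimN : ∀ (B : Submodule F V), B ≤ C → ∀ S : Finset (Fin s), finrank F ↥(B ⊔ S.sup U) = finrank F B + S.card * a := by
    intro B hB S
    induction S using Finset.induction_on with
    | empty => rw [Finset.sup_empty, sup_bot_eq]; simp
    | insert j S hj ih =>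
      have h := Submodule.finrank_sup_add_finrank_inf_eq (U j) (B ⊔ S.sup U)
      rw [(hdis B hB S j hj).eq_bot, finrank_bot, add_zero, hUdim, ih] at h
      rw [Finset.sup_insert, sup_left_comm, h, Finset.card_insert_of_notMem hj]
      ring
  have htop : C ⊔ Finset.univ.sup U = ⊤ := by
    rw [eq_top_iff, ← hdec.submodule_iSup_eq_top, iSup_le_iff]
    rintro (_ | i)
    · exact le_sup_left
    · exact (Finset.le_sup (f := U) (Finset.mem_univ i)).trans le_sup_right
  constructor
  · rintro ⟨W, hWm, hWf⟩
    have hmapU : ∀ S : Finset (Fin s), (C ⊔ S.sup U).map f ≤ C ⊔ S.sup U := by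
      intro S
      induction S using Finset.induction_on with
      | empty =>
        rw [Finset.sup_empty, sup_bot_eq]
        rintro _ ⟨x, hx, rfl⟩
        rw [hCf x hx]; exact hx
      | insert j S hj ih =>
        rw [Finset.sup_insert, sup_left_comm, Submodule.map_sup]
        exact sup_le_sup (hUinv j) ih
    have key : ∀ S : Finset (Fin s), ∃ c i, c ≤ finrank F C ∧ finrank F ↥(W ⊓ (C ⊔ S.sup U)) = c + i * a := by
      intro S
      induction S using Finset.induction_on with
      | empty => exact ⟨finrank F ↥(W ⊓ (C ⊔ (∅ : Finset (Fin s)).sup U)), 0, Submodule.finrank_mono (t := C) (by rw [Finset.sup_empty, sup_bot_eq]; exact inf_le_right), by rw [zero_mul, add_zero]⟩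
      | insert j S hj ih =>
        obtain ⟨c, i, hc, hci⟩ := ih
        set N := C ⊔ S.sup U with hN
        have hN' : C ⊔ (insert j S).sup U = U j ⊔ N := by rw [Finset.sup_insert, sup_left_comm]
        set W' := W ⊓ (C ⊔ (insert j S).sup U) with hW'
        set X := (W' ⊔ N) ⊓ U j with hX
        have hle : W' ⊔ N ≤ U j ⊔ N := sup_le (inf_le_right.trans hN'.le) le_sup_right
        have hXN : X ⊔ N = W' ⊔ N := by
          rw [hX, inf_sup_assoc_of_le (U j) (le_sup_right : N ≤ W' ⊔ N), inf_eq_left.2 hle]
        have hXinv : X.map f ≤ X := by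
          refine le_inf ((Submodule.map_mono inf_le_left).trans ?_) ((Submodule.map_mono inf_le_right).trans (hUinv j))
          rw [Submodule.map_sup]
          refine sup_le_sup (le_inf ((Submodule.map_mono inf_le_left).trans hWf) ((Submodule.map_mono inf_le_right).trans ?_)) (hmapU S)
          exact hmapU _
        have hd : Disjoint X N := ((hdis C le_rfl S j hj).mono_left inf_le_right)
        have h1 := Submodule.finrank_sup_add_finrank_inf_eq X N
        rw [hd.eq_bot, finrank_bot, add_zero, hXN] at h1
        have h2 := Submodule.finrank_sup_add_finrank_inf_eq W' N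
        have hWN : W' ⊓ N = W ⊓ N := by
          rw [hW', inf_assoc, inf_eq_right.2 (hN'.symm ▸ le_sup_right : N ≤ C ⊔ (insert j S).sup U)]
        rw [hWN, hci] at h2
        rcases hUirr j X inf_le_right hXinv with hb | hb
        · rw [hb, finrank_bot, zero_add] at h1
          exact ⟨c, i, hc, by omega⟩
        · rw [hb, hUdim] at h1
          exact ⟨c, i + 1, hc, by rw [add_mul, one_mul]; omega⟩
    obtain ⟨c, i, hc, hci⟩ := key Finset.univ
    rw [htop, inf_top_eq, hWm] at hci
    rcases Nat.eq_zero_or_pos i with rfl | hi
    · left; omega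
    · right
      refine ⟨?_, ?_⟩
      · have : 1 * a ≤ i * a := Nat.mul_le_mul_right a hi
        omega
      · rw [hci, Nat.add_mul_mod_self_right]
        exact (Nat.mod_le _ _).trans hc
  · intro h
    have hV : finrank F V = finrank F C + s * a := by
      rw [← finrank_top, ← htop, hdimN C le_rfl, Finset.card_univ, Fintype.card_fin]
    have hk : ∃ k, k ≤ s ∧ k * a ≤ m ∧ m - k * a ≤ finrank F C := by
      rcases h with h | ⟨h1, h2⟩
      · exact ⟨0, Nat.zero_le _, by simp, by simpa using h⟩
      · rcases le_total (m / a) s with h3 | h3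
        · refine ⟨m / a, h3, Nat.div_mul_le_self m a, ?_⟩
          have := Nat.mod_add_div' m a
          omega
        · have : s * a ≤ m := (Nat.mul_le_mul_right a h3).trans (Nat.div_mul_le_self m a)
          exact ⟨s, le_rfl, this, by omega⟩
    obtain ⟨k, hks, hkm, hkC⟩ := hk
    obtain ⟨B, hBdim, hBC⟩ : ∃ B : Submodule F V, finrank F B = m - k * a ∧ B ≤ C := by
      let b := Module.finBasis F C
      refine ⟨(Submodule.span F (Set.range fun i : Fin (m - k * a) => b (Fin.castLE hkC i))).map C.subtype, ?_, Submodule.map_subtype_le _ _⟩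
      rw [Submodule.finrank_map_subtype_eq, finrank_span_eq_card, Fintype.card_fin]
      exact b.linearIndependent.comp _ (Fin.castLE_injective _)
    obtain ⟨S, -, hS⟩ := Finset.exists_subset_card_eq (s := (Finset.univ : Finset (Fin s))) (n := k) (by simpa using hks)
    refine ⟨B ⊔ S.sup U, by rw [hdimN B hBC, hBdim, hS, Nat.sub_add_cancel hkm], ?_⟩
    rw [Submodule.map_sup]
    refine sup_le_sup ?_ ?_
    · rintro _ ⟨x, hx, rfl⟩
      rw [hCf x (hBC hx)]; exact hx
    · clear hS
      induction S using Finset.induction_on with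
      | empty => simp
      | insert j S hj ih =>
        rw [Finset.sup_insert, Submodule.map_sup]
        exact sup_le_sup (hUinv j) ih

end Cfsg.Agent.S5952
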