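import Cfsg.Statements.S5957
import Cfsg.Agent.Lib.ClassicalInvolUnits

set_option autoImplicit false
open scoped MatrixGroups
open Cfsg

namespace Cfsg.Agent.S5957

open CfsgLib.InvolUnits

/-- Involutions of PSL_n(q) and imprimitive subgroups. Here `T = PSL_n(F)` for a field `F` with `q = p^f` elements (`n ≥ 2`, `(n, q) ≠ (2, 2), (2, 3)`), `n = a·t` with `t ≥ 2`, and Ω is the set of direct-sum decompositions of `F^n` into `t` subspaces of dimension `a` (unordered; their number is the number of ordered ones divided by `t!`), whose stabilizers are the imprimitive subgroups of type GL_a(q) ≀ S_t (maximal except in some small cases; maximality is not assumed); an element of `T` of prime order `r` (a matrix `x` of determinant 1 with `x^r` scalar, `x` not scalar) fixes a point of Ω when it permutes the summands of some such decomposition. If the number of such decompositions is even, then every involution of `T` stabilizes one of them (the action is 2-elusive). -/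
theorem result {F : Type*} [Field F] [Fintype F] {p : ℕ} [Fact p.Prime] [CharP F p] {q : ℕ} (hq : Fintype.card F = q)
    (n a t : ℕ) (hn : 2 ≤ n) (hT : (n, q) ≠ (2, 2) ∧ (n, q) ≠ (2, 3)) (hat : n = a * t) (ha : 1 ≤ a) (ht : 2 ≤ t)
    (hΩ : 2 ∣ Nat.card {D : Fin t → Submodule F (Fin n → F) // Cfsg.Geo.IsMDecomposition a D} / Nat.factorial t)
    (x : Matrix.SpecialLinearGroup (Fin n) F)
    (hx1 : ∃ z : F, ((x ^ 2 : Matrix.SpecialLinearGroup (Fin n) F) : Matrix (Fin n) (Fin n) F) = z • (1 : Matrix (Fin n) (Fin n) F))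
    (hx2 : ∀ z : F, (x : Matrix (Fin n) (Fin n) F) ≠ z • (1 : Matrix (Fin n) (Fin n) F)) :
    ∃ D : Fin t → Submodule F (Fin n → F), Cfsg.Geo.IsMDecomposition a D ∧
        ∃ σ : Equiv.Perm (Fin t), ∀ j, (D j).map (Matrix.toLin' (x : Matrix (Fin n) (Fin n) F)) = D (σ j) := by
  classical
  obtain ⟨z, hxz⟩ := hx1
  let X : (Fin n → F) →ₗ[F] (Fin n → F) := Matrix.toLin' (x : Matrix (Fin n) (Fin n) F)
  have hXX : ∀ u, X (X u) = z • u := fun u => by
    have h : (x : Matrix (Fin n) (Fin n) F) * x = z • 1 := by rw [← hxz, pow_two]; rfl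
    show Matrix.toLin' (x : Matrix (Fin n) (Fin n) F) (Matrix.toLin' (x : Matrix (Fin n) (Fin n) F) u) = _
    rw [← Matrix.toLin'_mul_apply, h]
    simp
  have hz : z ≠ 0 := fun h => by
    have hn' : Nonempty (Fin n) := ⟨⟨0, by omega⟩⟩
    have h1 : ((x ^ 2 : Matrix.SpecialLinearGroup (Fin n) F) : Matrix (Fin n) (Fin n) F).det = 1 := (x ^ 2).2
    rw [hxz, h, zero_smul, Matrix.det_zero] at h1
    exact zero_ne_one h1
  obtain ⟨Q, hQ1, hQ2, hQ3⟩ := exists_line_units X hz hXX n ⊤ (by simp) le_top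
  choose τ hτ using hQ3
  obtain ⟨L, σ, h1, h2, h3, -, h5⟩ := exists_grouping X (c := 1) ha one_pos hat (by simp) Q hQ1 hQ2 τ hτ (map_map_eq X hz hXX)
  exact ⟨fun j => ⨆ i ∈ L j, Q i, ⟨ht, by omega, fun j => by rw [h1, mul_one], h2, h3⟩, σ, h5⟩

end Cfsg.Agent.S5957
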