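import Cfsg.Statements.S5959


set_option autoImplicit false
open scoped MatrixGroups
open Cfsg

namespace Cfsg.Agent.S5959

open Module

variable {F : Type*} [Field F] {V : Type*} [AddCommGroup V] [Module F V]

/-- the dimension of the image of a subspace under a power -/
noncomputable def rk (f : End F V) (U : Submodule F V) (k : ℕ) : ℕ := finrank F (U.map (f ^ k))

theorem finrank_map_add_ker [FiniteDimensional F V] (f : End F V) (W : Submodule F V) :
    finrank F (W.map f) + finrank F ↥(LinearMap.ker f ⊓ W) = finrank F W := by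
  have h := LinearMap.finrank_range_add_finrank_ker (f.domRestrict W)
  rw [LinearMap.range_domRestrict, LinearMap.ker_domRestrict] at h
  rw [← h]
  congr 1
  rw [inf_comm, ← Submodule.map_comap_subtype, Submodule.finrank_map_subtype_eq]

theorem map_pow_le (f : End F V) {U : Submodule F V} (hU : U.map f ≤ U) (k : ℕ) : U.map (f ^ (k + 1)) ≤ U.map (f ^ k) := by
  rw [pow_succ, Module.End.mul_eq_comp, Submodule.map_comp]
  exact Submodule.map_mono hU

theorem rk_convex [FiniteDimensional F V] (f : End F V) {U : Submodule F V} (hU : U.map f ≤ U) (k : ℕ) :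
    2 * rk f U (k + 1) ≤ rk f U k + rk f U (k + 2) := by
  have h1 := finrank_map_add_ker f (U.map (f ^ k))
  have h2 := finrank_map_add_ker f (U.map (f ^ (k + 1)))
  have h3 : finrank F ↥(LinearMap.ker f ⊓ U.map (f ^ (k + 1))) ≤ finrank F ↥(LinearMap.ker f ⊓ U.map (f ^ k)) :=
    Submodule.finrank_mono (inf_le_inf_left _ (map_pow_le f hU k))
  rw [← Submodule.map_comp, ← Module.End.mul_eq_comp, ← pow_succ'] at h1 h2
  simp only [rk]
  show 2 * _ ≤ _ + finrank F (U.map (f ^ (k + 1 + 1)))
  omega

theorem rk_add [FiniteDimensional F V] (f : End F V) {U U' : Submodule F V} (hU : U.map f ≤ U) (hU' : U'.map f ≤ U')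
    (hd : Disjoint U U') (k : ℕ) : rk f (U ⊔ U') k = rk f U k + rk f U' k := by
  have hle : ∀ (W : Submodule F V), W.map f ≤ W → ∀ k, W.map (f ^ k) ≤ W := by
    intro W hW k
    induction k with
    | zero => rw [pow_zero, Module.End.one_eq_id, Submodule.map_id]
    | succ k ih => exact (map_pow_le f hW k).trans ih
  have h := Submodule.finrank_sup_add_finrank_inf_eq (U.map (f ^ k)) (U'.map (f ^ k))
  rw [(hd.mono (hle U hU k) (hle U' hU' k)).eq_bot, finrank_bot, ← Submodule.map_sup] at h
  simp only [rk]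
  omega

theorem telescope (r : ℕ → ℕ) (P : ℕ) :
    (∑ k ∈ Finset.range P, (k + 1) * (r k + r (k + 2))) + (P + 1) * r P =
      r 0 + P * r (P + 1) + ∑ k ∈ Finset.range P, (k + 1) * (2 * r (k + 1)) := by
  induction P with
  | zero => simp
  | succ P ih =>
    rw [Finset.sum_range_succ, Finset.sum_range_succ]
    simp only [show P + 1 + 1 = P + 2 from rfl]
    nlinarith

theorem geom_eq {R : Type*} [Field R] (p : ℕ) [hp : Fact p.Prime] [CharP R p] :
    ((Polynomial.X : Polynomial R) - 1) ^ (p - 1) = ∑ i ∈ Finset.range p, (Polynomial.X : Polynomial R) ^ i := by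
  have hne : (Polynomial.X : Polynomial R) - 1 ≠ 0 := by
    rw [← Polynomial.C_1]; exact Polynomial.X_sub_C_ne_zero 1
  refine mul_right_cancel₀ hne ?_
  rw [geom_sum_mul, ← pow_succ, Nat.sub_add_cancel hp.out.one_lt.le, sub_pow_char, one_pow]

/-- the block shift -/
def shift {κ : Type*} (m : κ → ℕ) : End F ((Σ i, Fin (m i)) → F) where
  toFun f z := if h : (z.2 : ℕ) + 1 < m z.1 then f ⟨z.1, ⟨(z.2 : ℕ) + 1, h⟩⟩ else 0
  map_add' f g := by funext y; dsimp only [Pi.add_apply]; split <;> simp
  map_smul' c f := by funext y; dsimp only [Pi.smul_apply, RingHom.id_apply]; split <;> simp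

theorem shift_pow {κ : Type*} (m : κ → ℕ) :
    ∀ (k : ℕ) (f : (Σ i, Fin (m i)) → F) (i : κ) (j : Fin (m i)), (shift m ^ k) f ⟨i, j⟩ =
      if h : (j : ℕ) + k < m i then f ⟨i, ⟨(j : ℕ) + k, h⟩⟩ else 0 := by
  intro k
  induction k with
  | zero =>
    intro f i j
    rw [dif_pos (by simp), pow_zero, Module.End.one_apply]
    rfl
  | succ k ih =>
    intro f i j
    rw [pow_succ, Module.End.mul_apply, ih]
    by_cases h : (j : ℕ) + (k + 1) < m i
    · rw [dif_pos (by omega), dif_pos h]
      show (if h' : (j : ℕ) + k + 1 < m i then _ else _) = _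
      rw [dif_pos (by omega)]
      rfl
    · rw [dif_neg h]
      by_cases h' : (j : ℕ) + k < m i
      · rw [dif_pos h']
        show (if h'' : (j : ℕ) + k + 1 < m i then _ else _) = _
        rw [dif_neg (by omega)]
      · rw [dif_neg h']

theorem rk_shift {κ : Type*} [Fintype κ] (m : κ → ℕ) (k : ℕ) :
    rk (F := F) (shift m) ⊤ k = ∑ i, (m i - k) := by
  classical
  let P : (Σ i, Fin (m i)) → Prop := fun z => (z.2 : ℕ) + k < m z.1
  have hrange : LinearMap.range (shift (F := F) m ^ k) = ⨅ y ∈ {y | ¬ P y}, LinearMap.ker (LinearMap.proj y) := by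
    ext g
    simp only [Submodule.mem_iInf, LinearMap.mem_ker, LinearMap.proj_apply, Set.mem_setOf_eq, LinearMap.mem_range]
    constructor
    · rintro ⟨f, rfl⟩ ⟨i, j⟩ hy
      rw [shift_pow, dif_neg hy]
    · intro hg
      refine ⟨fun z => if h : k ≤ (z.2 : ℕ) then g ⟨z.1, ⟨(z.2 : ℕ) - k, by omega⟩⟩ else 0, funext ?_⟩
      rintro ⟨i, j⟩
      rw [shift_pow]
      by_cases hy : P ⟨i, j⟩
      · rw [dif_pos hy, dif_pos (show k ≤ (j : ℕ) + k by omega)]
        simp
      · rw [dif_neg hy, hg _ hy]
  rw [rk, Submodule.map_top, hrange]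
  have eqv := LinearMap.iInfKerProjEquiv F (fun _ : (Σ i, Fin (m i)) => F) (I := {y | P y}) (J := {y | ¬ P y})
    (Set.disjoint_left.2 fun y h h' => h' h) (fun y _ => by by_cases h : P y <;> simp [h])
  rw [eqv.finrank_eq, Module.finrank_fintype_fun_eq_card, ← Nat.card_eq_fintype_card]
  have eq1 : {y // P y} ≃ Σ i, Fin (m i - k) :=
    { toFun := fun y => ⟨y.1.1, ⟨(y.1.2 : ℕ), Nat.lt_sub_of_add_lt y.2⟩⟩
      invFun := fun z => ⟨⟨z.1, ⟨(z.2 : ℕ), lt_of_lt_of_le z.2.2 (Nat.sub_le _ _)⟩⟩, Nat.add_lt_of_lt_sub z.2.2⟩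
      left_inv := fun y => rfl
      right_inv := fun z => rfl }
  rw [show Nat.card ↥{y | P y} = Nat.card {y // P y} from rfl, Nat.card_congr eq1, Nat.card_sigma]
  simp

/-- Elements of order `p` of PSL_n(q) and imprimitive subgroups: a necessary condition. Here `T = PSL_n(F)` for a field `F` with `q = p^f` elements (`n ≥ 2`, `(n, q) ≠ (2, 2), (2, 3)`), `n = a·t` with `t ≥ 2`, and Ω is the set of direct-sum decompositions of `F^n` into `t` subspaces of dimension `a` (unordered; their number is the number of ordered ones divided by `t!`), whose stabilizers are the imprimitive subgroups of type GL_a(q) ≀ S_t (maximal except in some small cases; maximality is not assumed); an element of `T` of prime order `r` (a matrix `x` of determinant 1 with `x^r` scalar, `x` not scalar) fixes a point of Ω when it permutes the summands of some such decomposition. Suppose `p > 2` divides the number of such decompositions. If every element of `T` of order `p` stabilizes such a decomposition, then every partition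 of `n` into parts of size at most `p` in which the part `p` occurs fewer than `a` times contains (as a sub-multiset) a partition of `a`. -/
theorem result {F : Type*} [Field F] [Fintype F] {p : ℕ} [Fact p.Prime] [CharP F p] {q : ℕ} (hq : Fintype.card F = q)
    (n a t : ℕ) (hn : 2 ≤ n) (hT : (n, q) ≠ (2, 2) ∧ (n, q) ≠ (2, 3)) (hat : n = a * t) (ha : 1 ≤ a) (ht : 2 ≤ t)
    (hp : 2 < p) (hΩ : p ∣ Nat.card {D : Fin t → Submodule F (Fin n → F) // Cfsg.Geo.IsMDecomposition a D} / Nat.factorial t)
    (h : ∀ x : Matrix.SpecialLinearGroup (Fin n) F,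
      (∃ z : F, ((x ^ p : Matrix.SpecialLinearGroup (Fin n) F) : Matrix (Fin n) (Fin n) F) = z • (1 : Matrix (Fin n) (Fin n) F)) →
      (∀ z : F, (x : Matrix (Fin n) (Fin n) F) ≠ z • (1 : Matrix (Fin n) (Fin n) F)) →
      ∃ D : Fin t → Submodule F (Fin n → F), Cfsg.Geo.IsMDecomposition a D ∧
        ∃ σ : Equiv.Perm (Fin t), ∀ j, (D j).map (Matrix.toLin' (x : Matrix (Fin n) (Fin n) F)) = D (σ j)) :
    (∀ μ : Multiset ℕ, (∀ b ∈ μ, 0 < b ∧ b ≤ p) → μ.sum = n → μ.count p < a → ∃ ν : Multiset ℕ, ν ≤ μ ∧ ν.sum = a) := by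
  classical
  intro μ hμ hsum hcount
  by_cases hones : ∀ b ∈ μ, b = 1
  · have hμr : μ = Multiset.replicate (Multiset.card μ) 1 := Multiset.eq_replicate_card.2 hones
    have hcn : Multiset.card μ = n := by
      conv_rhs => rw [← hsum, hμr]
      simp
    refine ⟨Multiset.replicate a 1, ?_, by simp⟩
    rw [hμr, hcn]
    exact (Multiset.replicate_le_replicate 1).2 (hat ▸ Nat.le_mul_of_pos_right _ (by omega))
  push_neg at hones
  obtain ⟨b0, hb0, hb0'⟩ := hones
  -- the parts
  obtain ⟨L, m, hμm⟩ : ∃ (L : ℕ) (m : Fin L → ℕ), μ = Finset.univ.val.map m := ⟨μ.toList.length, μ.toList.get, by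
    rw [Fin.univ_val_map, List.ofFn_get, Multiset.coe_toList]⟩
  have hmem : ∀ i, 0 < m i ∧ m i ≤ p := fun i => hμ _ (hμm ▸ Multiset.mem_map_of_mem m (Finset.mem_univ i))
  have hmn : ∑ i, m i = n := by rw [← hsum, hμm]; rfl
  obtain ⟨i0, hi0⟩ : ∃ i, m i = b0 := by
    rw [hμm, Multiset.mem_map] at hb0; obtain ⟨i, -, hi⟩ := hb0; exact ⟨i, hi⟩
  have hcountm : ∀ k, μ.count k = ∑ i, if m i = k then 1 else 0 := by
    intro k
    rw [hμm, Multiset.count_map, Finset.sum_boole, Nat.cast_id, Finset.card_def, Finset.filter_val]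
    congr 1
    exact Multiset.filter_congr fun i _ => eq_comm
  have e : Fin n ≃ Σ i, Fin (m i) := (finCongr hmn.symm).trans finSigmaFinEquiv.symm
  let E : ((Σ i, Fin (m i)) → F) ≃ₗ[F] (Fin n → F) := LinearEquiv.funCongrLeft F F e
  obtain ⟨N, hN⟩ : ∃ N : Module.End F (Fin n → F), N = E.conj (shift m) := ⟨_, rfl⟩
  have hNk : ∀ k, N ^ k = E.conj (shift m ^ k) := by
    intro k
    induction k with
    | zero => rw [pow_zero, pow_zero, Module.End.one_eq_id, Module.End.one_eq_id, LinearEquiv.conj_id]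
    | succ k ih => rw [pow_succ, pow_succ, ih, hN, Module.End.mul_eq_comp, Module.End.mul_eq_comp, LinearEquiv.conj_comp]
  have hr : ∀ k, rk N ⊤ k = ∑ i, (m i - k) := fun k => by
    rw [← rk_shift (F := F) m k, rk, rk, hNk, LinearEquiv.conj_apply, Submodule.map_comp, Submodule.map_comp,
      Submodule.map_top, LinearEquiv.range, LinearEquiv.finrank_map_eq]
  have hNp : N ^ p = 0 := by
    have h := hr p
    rw [Finset.sum_eq_zero (fun i _ => Nat.sub_eq_zero_of_le (hmem i).2)] at h
    rw [rk, Submodule.map_top] at h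
    exact LinearMap.range_eq_bot.1 (Submodule.finrank_eq_zero.1 h)
  have hN0 : N ≠ 0 := fun h0 => by
    have h := hr 1
    rw [rk, h0, pow_one, Submodule.map_zero, finrank_bot] at h
    have := (Finset.sum_eq_zero_iff.1 h.symm) i0 (Finset.mem_univ _)
    have := (hmem i0).1
    omega
  have hinj : Function.Injective (algebraMap F (Module.End F (Fin n → F))) := by
    have : Nonempty (Fin n) := ⟨⟨0, by omega⟩⟩
    exact (algebraMap F (Module.End F (Fin n → F))).injective
  have : CharP (Module.End F (Fin n → F)) p := charP_of_injective_algebraMap hinj p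
  have hXp : (1 + N) ^ p = 1 := by rw [add_pow_char_of_commute _ (Commute.one_left N), one_pow, hNp, add_zero]
  obtain ⟨A, hA⟩ : ∃ A : Matrix (Fin n) (Fin n) F, A = LinearMap.toMatrix' (1 + N) := ⟨_, rfl⟩
  have hAX : Matrix.toLin' A = 1 + N := by rw [hA, Matrix.toLin'_toMatrix']
  have hAp : A ^ p = 1 := by
    apply Matrix.toLin'.injective
    rw [Matrix.toLin'_pow, hAX, hXp, Matrix.toLin'_one]
    rfl
  have hdet : A.det = 1 := by
    have h := congrArg Matrix.det hAp
    rw [Matrix.det_pow, Matrix.det_one] at h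
    exact frobenius_inj F p (by rw [frobenius_def, frobenius_def, h, one_pow])
  obtain ⟨D, hD, σ, hσ⟩ := h ⟨A, hdet⟩ ⟨1, (Matrix.SpecialLinearGroup.coe_pow (⟨A, hdet⟩ : Matrix.SpecialLinearGroup (Fin n) F) p).trans (hAp.trans (one_smul F _).symm)⟩ (fun z hz => hN0 (by
    have hz' : (1 : Module.End F (Fin n → F)) + N = algebraMap F _ z := by
      rw [← hAX, show A = z • (1 : Matrix (Fin n) (Fin n) F) from hz, map_smul, Matrix.toLin'_one, Algebra.algebraMap_eq_smul_one]
      rfl
    have h1 : (1 + N) ^ p = algebraMap F _ (z ^ p) := by rw [hz', map_pow]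
    rw [hXp, ← map_one (algebraMap F (Module.End F (Fin n → F)))] at h1
    have hz1 : z = 1 := frobenius_inj F p (by rw [frobenius_def, frobenius_def, one_pow]; exact (hinj h1).symm)
    rw [hz1, map_one, add_eq_left] at hz'
    exact hz'))
  have hσ' : ∀ j, (D j).map (1 + N : Module.End F (Fin n → F)) = D (σ j) := fun j => by rw [← hAX]; exact hσ j
  have hiter : ∀ (i : ℕ) j, (D j).map ((1 + N) ^ i : Module.End F (Fin n → F)) = D ((σ : Fin t → Fin t)^[i] j) := by
    intro i
    induction i with
    | zero => intro j; rw [pow_zero, Module.End.one_eq_id, Submodule.map_id]; rfl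
    | succ i ih => intro j; rw [pow_succ', Module.End.mul_eq_comp, Submodule.map_comp, ih, hσ', Function.iterate_succ_apply']
  have hDinj : Function.Injective D := hD.indep.injective fun j h0 => by
    have := hD.finrank_eq j; rw [h0, finrank_bot] at this; omega
  have hper : ∀ j, Function.IsPeriodicPt (σ : Fin t → Fin t) p j := fun j => hDinj (by
    rw [← hiter, hXp, Module.End.one_eq_id, Submodule.map_id])
  have hfix : ∀ j, σ j = j := by
    intro j
    by_contra hj
    have hmin : Function.minimalPeriod (σ : Fin t → Fin t) j = p := by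
      rcases (Nat.dvd_prime (Fact.out : p.Prime)).1 (hper j).minimalPeriod_dvd with h1 | h1
      · exact absurd (Function.minimalPeriod_eq_one_iff_isFixedPt.1 h1) hj
      · exact h1
    have hinjON := Function.iterate_injOn_Iio_minimalPeriod (f := (σ : Fin t → Fin t)) (x := j)
    rw [hmin] at hinjON
    have hS : ∀ u ∈ D j, (N ^ (p - 1)) u = 0 → u = 0 := by
      intro u hu hu0
      have hgeom : N ^ (p - 1) = ∑ i ∈ Finset.range p, (1 + N) ^ i := by
        have := congrArg (Polynomial.aeval (1 + N)) (geom_eq (R := F) p)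
        simpa using this
      rw [hgeom, LinearMap.sum_apply, Finset.range_eq_Ico, Finset.sum_eq_sum_Ico_succ_bot (Fact.out : p.Prime).pos,
        pow_zero, Module.End.one_apply] at hu0
      have hmem' : u ∈ ⨆ (k) (_ : k ≠ j), D k := by
        rw [eq_neg_of_add_eq_zero_left hu0]
        refine neg_mem (Submodule.sum_mem _ fun i hi => ?_)
        rw [Finset.mem_Ico] at hi
        have hne : (σ : Fin t → Fin t)^[i] j ≠ j := fun e' => by
          have := hinjON (Set.mem_Iio.2 hi.2) (Set.mem_Iio.2 (Fact.out : p.Prime).pos) e'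
          omega
        exact Submodule.mem_iSup_of_mem _ (Submodule.mem_iSup_of_mem hne (hiter i j ▸ ⟨u, hu, rfl⟩))
      exact Submodule.disjoint_def.1 (hD.indep j) u hu hmem'
    have h1 : finrank F (D j) ≤ rk N ⊤ (p - 1) := by
      have h := finrank_map_add_ker (N ^ (p - 1)) (D j)
      rw [show LinearMap.ker (N ^ (p - 1)) ⊓ D j = ⊥ by
        rw [eq_bot_iff]; rintro u ⟨h1, h2⟩; exact hS u h2 h1, finrank_bot, add_zero] at h
      rw [← h]
      exact Submodule.finrank_mono (Submodule.map_mono le_top)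
    rw [hD.finrank_eq, hr] at h1
    have h2 : ∑ i, (m i - (p - 1)) = μ.count p := by
      rw [hcountm]
      refine Finset.sum_congr rfl fun i _ => ?_
      have := hmem i
      split <;> omega
    omega
  have hinv : ∀ j, (D j).map N ≤ D j := by
    intro j
    rintro _ ⟨u, hu, rfl⟩
    rw [show N u = (1 + N) u - u by simp]
    exact sub_mem (by have := hfix j ▸ hσ' j; exact this ▸ ⟨u, hu, rfl⟩) hu
  obtain ⟨U', hU'⟩ : ∃ U' : Submodule F (Fin n → F), U' = ⨆ (k) (_ : k ≠ (⟨0, by omega⟩ : Fin t)), D k := ⟨_, rfl⟩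
  obtain ⟨U, hU⟩ : ∃ U : Submodule F (Fin n → F), U = D ⟨0, by omega⟩ := ⟨_, rfl⟩
  have hUinv : U.map N ≤ U := hU ▸ hinv _
  have hU'inv : U'.map N ≤ U' := by
    rw [hU', Submodule.map_iSup]
    refine iSup_mono fun k => ?_
    rw [Submodule.map_iSup]
    exact iSup_mono fun _ => hinv k
  have htop : U ⊔ U' = ⊤ := by
    rw [eq_top_iff, ← hD.iSup_eq_top]
    refine iSup_le fun k => ?_
    by_cases hk : k = ⟨0, by omega⟩
    · rw [hk, hU]; exact le_sup_left
    · exact le_sup_of_le_right (hU' ▸ le_iSup₂_of_le k hk le_rfl)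
  have hadd : ∀ k, rk N ⊤ k = rk N U k + rk N U' k := fun k => by
    rw [← htop]; exact rk_add N hUinv hU'inv (hU ▸ hU' ▸ hD.indep _) k
  obtain ⟨c, hc⟩ : ∃ c : ℕ → ℕ, ∀ k, c k = rk N U k + rk N U (k + 2) - 2 * rk N U (k + 1) := ⟨_, fun k => rfl⟩
  have hcle : ∀ k, c k ≤ μ.count (k + 1) := by
    intro k
    have hid : (∑ i, (m i - k)) + (∑ i, (m i - (k + 2))) = 2 * (∑ i, (m i - (k + 1))) + μ.count (k + 1) := by
      rw [hcountm, Finset.mul_sum, ← Finset.sum_add_distrib, ← Finset.sum_add_distrib]
      refine Finset.sum_congr rfl fun i _ => ?_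
      split <;> omega
    rw [← hr, ← hr, ← hr, hadd, hadd, hadd] at hid
    have h1 := rk_convex N hU'inv k
    have h2 := rk_convex N hUinv k
    rw [hc]; omega
  refine ⟨∑ k ∈ Finset.range p, Multiset.replicate (c k) (k + 1), ?_, ?_⟩
  · rw [Multiset.le_iff_count]
    intro b
    rw [Multiset.count_sum']
    simp only [Multiset.count_replicate]
    by_cases hb : b = 0 ∨ p < b
    · rw [Finset.sum_eq_zero]
      · exact Nat.zero_le _
      · intro k hk
        rw [Finset.mem_range] at hk
        rw [if_neg (by omega)]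
    · rw [Finset.sum_eq_single (b - 1)]
      · rw [if_pos (by omega)]
        have := hcle (b - 1)
        rwa [show b - 1 + 1 = b by omega] at this
      · intro k _ hne; rw [if_neg (by omega)]
      · intro hb'; rw [Finset.mem_range] at hb'; omega
  · have hsum' : (∑ k ∈ Finset.range p, Multiset.replicate (c k) (k + 1)).sum = ∑ k ∈ Finset.range p, (k + 1) * c k := by
      rw [← Multiset.coe_sumAddMonoidHom, map_sum]
      refine Finset.sum_congr rfl fun k _ => ?_
      simp [Multiset.sum_replicate, mul_comm]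
    have hp0 : rk N U p = 0 ∧ rk N U (p + 1) = 0 := by
      simp [rk, hNp, pow_succ]
    have htel := telescope (rk N U) p
    rw [hp0.1, hp0.2, mul_zero, mul_zero, add_zero, add_zero,
      show rk N U 0 = a by rw [rk, pow_zero, Module.End.one_eq_id, Submodule.map_id, hU, hD.finrank_eq]] at htel
    have hck : ∀ k ∈ Finset.range p, (k + 1) * (rk N U k + rk N U (k + 2)) =
        (k + 1) * c k + (k + 1) * (2 * rk N U (k + 1)) := fun k _ => by
      rw [← mul_add, hc, Nat.sub_add_cancel (rk_convex N hUinv k)]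
    rw [Finset.sum_congr rfl hck, Finset.sum_add_distrib] at htel
    rw [hsum']
    omega

end Cfsg.Agent.S5959
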