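import Cfsg.Statements.S5960
import Cfsg.Agent.Lib.ClassicalInvolUnits
import Cfsg.Agent.Lib.ClassicalSpStd

set_option autoImplicit false
open scoped MatrixGroups
open Cfsg

namespace Cfsg.Agent.S5960

open CfsgLib.InvolUnits CfsgLib.Classical

/-- Involutions of PSp_n(q) and imprimitive subgroups. Here `T = PSp_n(q)`, `n = 2d ≥ 4`, `(n, q) ≠ (4, 2)`, realised through the symplectic matrices over the field `F` with `q` elements and the standard alternating form; `n = a·t` with `a` even and `t ≥ 2`, and Ω is the (nonempty) set of orthogonal decompositions of `F^n` into `t` nondegenerate subspaces of dimension `a` (unordered; counted as ordered ones divided by `t!`), whose stabilizers are the imprimitive subgroups of type Sp_a(q) ≀ S_t (maximality is not assumed); an element of `T` of prime order `r` (a symplectic matrix `x` with `x^r` scalar, `x` not scalar) fixes a point of Ω when it permutes the summands of some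 such decomposition. If the number of such decompositions is even, then every involution of `T` stabilizes one of them (the action is 2-elusive). -/
theorem result {F : Type*} [Field F] [Fintype F] {p : ℕ} [Fact p.Prime] [CharP F p] {q : ℕ} (hq : Fintype.card F = q)
    (d : ℕ) (hd : 2 ≤ d) (hT : (d, q) ≠ (2, 2))
    (a t : ℕ) (hat : 2 * d = a * t) (ha : 2 ≤ a) (hae : Even a) (ht : 2 ≤ t) (hΩ : 2 ∣ Nat.card {D : Fin t → Submodule F (Fin d ⊕ Fin d → F) // (Cfsg.Geo.IsMDecomposition a D ∧ (∀ j, ∀ u ∈ D j, u ≠ 0 → ∃ v ∈ D j, Cfsg.sympForm d F u v ≠ 0) ∧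
          (∀ j j', j ≠ j' → ∀ u ∈ D j, ∀ v ∈ D j', Cfsg.sympForm d F u v = 0))} / Nat.factorial t)
    (x : ↥(Matrix.symplecticGroup (Fin d) F))
    (hx1 : ∃ z : F, ((x ^ 2 : ↥(Matrix.symplecticGroup (Fin d) F)) : Matrix (Fin d ⊕ Fin d) (Fin d ⊕ Fin d) F) = z • (1 : Matrix (Fin d ⊕ Fin d) (Fin d ⊕ Fin d) F))
    (hx2 : ∀ z : F, (x : Matrix (Fin d ⊕ Fin d) (Fin d ⊕ Fin d) F) ≠ z • (1 : Matrix (Fin d ⊕ Fin d) (Fin d ⊕ Fin d) F)) :
    ∃ D : Fin t → Submodule F (Fin d ⊕ Fin d → F), (Cfsg.Geo.IsMDecomposition a D ∧ (∀ j, ∀ u ∈ D j, u ≠ 0 → ∃ v ∈ D j, Cfsg.sympForm d F u v ≠ 0) ∧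
          (∀ j j', j ≠ j' → ∀ u ∈ D j, ∀ v ∈ D j', Cfsg.sympForm d F u v = 0)) ∧
        ∃ σ : Equiv.Perm (Fin t), ∀ j, (D j).map (Matrix.toLin' (x : Matrix (Fin d ⊕ Fin d) (Fin d ⊕ Fin d) F)) = D (σ j) := by
  classical
  obtain ⟨z, hxz⟩ := hx1
  have hsf := isSymplecticForm_sympForm (F := F) (m := d)
  let B : (Fin d ⊕ Fin d → F) →ₗ[F] (Fin d ⊕ Fin d → F) →ₗ[F] F := LinearMap.mk₂ F (Cfsg.sympForm d F)
    hsf.bilinear.add_left hsf.bilinear.smul_left (fun u v w => hsf.bilinear.add_right u v w) (fun c u v => hsf.bilinear.smul_right c u v)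
  have hB : ∀ u, B u u = 0 := hsf.alternating
  let X : (Fin d ⊕ Fin d → F) →ₗ[F] (Fin d ⊕ Fin d → F) := Matrix.toLin' (x : Matrix (Fin d ⊕ Fin d) (Fin d ⊕ Fin d) F)
  have hXB : ∀ u w, B (X u) (X w) = B u w := mem_symplecticGroup_iff.1 x.2
  have hXX : ∀ u, X (X u) = z • u := fun u => by
    have h : (x : Matrix (Fin d ⊕ Fin d) (Fin d ⊕ Fin d) F) * x = z • 1 := by rw [← hxz, pow_two]; rfl
    show Matrix.toLin' (x : Matrix (Fin d ⊕ Fin d) (Fin d ⊕ Fin d) F) (Matrix.toLin' (x : Matrix (Fin d ⊕ Fin d) (Fin d ⊕ Fin d) F) u) = _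
    rw [← Matrix.toLin'_mul_apply, h]
    simp
  have hz : z ≠ 0 := fun h => by
    have h1 : Pi.single (Sum.inl ⟨0, by omega⟩) (1 : F) ≠ (0 : Fin d ⊕ Fin d → F) := by simp
    obtain ⟨y, hy⟩ := (hsf.nondegenerate _ h1).2
    refine hy ?_
    show B _ _ = 0
    rw [← hXB, ← hXB, hXX, h, zero_smul, map_zero, LinearMap.zero_apply]
  have hnd : ∀ u ∈ (⊤ : Submodule F (Fin d ⊕ Fin d → F)), u ≠ 0 → ∃ y ∈ (⊤ : Submodule F (Fin d ⊕ Fin d → F)), B u y ≠ 0 :=
    fun u _ hu => ⟨_, Submodule.mem_top, (hsf.nondegenerate u hu).2.choose_spec⟩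
  obtain ⟨Q, hQ1, hQ2, hQ3, hQ4⟩ := exists_plane_units hB X hXB hz hXX d ⊤ (by simp; ring) (fun _ _ => Submodule.mem_top) hnd
  choose τ hτ using hQ4
  obtain ⟨a', rfl⟩ := hae
  have hd' : d = a' * t := by
    have : 2 * d = 2 * (a' * t) := by rw [hat]; ring
    omega
  obtain ⟨L, σ, h1, h2, h3, h4, h5⟩ := exists_grouping X (c := 2) (show 1 ≤ a' by omega) two_pos hd'
    (by simp; ring) Q hQ1 hQ2 τ hτ (map_map_eq X hz hXX)
  have horth : ∀ j j', j ≠ j' → ∀ u ∈ (⨆ i ∈ L j, Q i), ∀ v ∈ (⨆ i ∈ L j', Q i), B u v = 0 := by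
    intro j j' hne u hu v hv
    have hk : ∀ i ∈ L j, ∀ p ∈ Q i, B p v = 0 := fun i hi p hp => by
      have : (⨆ k ∈ L j', Q k) ≤ LinearMap.ker (B p) := iSup₂_le fun k hk q hq =>
        hQ3 i k (fun e => Finset.disjoint_left.1 (h4 j j' hne) hi (e ▸ hk)) p hp q hq
      exact this hv
    have : (⨆ i ∈ L j, Q i) ≤ LinearMap.ker (B.flip v) := iSup₂_le fun i hi p hp => by simpa using hk i hi p hp
    simpa using this hu
  refine ⟨fun j => ⨆ i ∈ L j, Q i, ⟨⟨ht, by omega, fun j => by rw [h1]; ring, h2, h3⟩, ?_, horth⟩, σ, h5⟩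
  intro j u hu hu0
  by_contra hcon
  push_neg at hcon
  obtain ⟨y, -, hy⟩ := hnd u Submodule.mem_top hu0
  have : (⨆ k, ⨆ i ∈ L k, Q i) ≤ LinearMap.ker (B u) := iSup_le fun k p hp => by
    rcases eq_or_ne j k with rfl | hne
    · exact hcon p hp
    · exact horth j k hne u hu p hp
  rw [h3] at this
  exact hy (this Submodule.mem_top)

end Cfsg.Agent.S5960
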