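import Cfsg.Statements.S5962
import Cfsg.Agent.Lib.ClassicalInvolUnits
import Cfsg.Agent.Lib.ClassicalSpStd
import Cfsg.Agent.Lib.ClassicalPOmegaOrders

set_option autoImplicit false
open scoped MatrixGroups
open Cfsg

namespace Cfsg.Agent.S5962

open CfsgLib.InvolUnits CfsgLib.Classical

/-- Involutions of PSp_n(q), q odd, and the subgroups GL_{n/2}(q).2. Here `T = PSp_n(q)`, `n = 2d ≥ 4`, `q` odd, realised through the symplectic matrices over the field `F` with `q` elements; Ω is the set of unordered pairs `{U, W}` of complementary totally isotropic `d`-spaces (`F^n = U ⊕ W`), whose stabilizers are the subgroups of type GL_d(q).2 (maximal except in some small cases; maximality is not assumed); an element of `T` of prime order `r` (a symplectic matrix `x` with `x^r` scalar, `x` not scalar) fixes such a pair when it fixes or interchanges `U` and `W`. If the number of such pairs is even, every involution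 of `T` fixes one of them (the action is 2-elusive). -/
theorem result {F : Type*} [Field F] [Fintype F] {p : ℕ} [Fact p.Prime] [CharP F p] {q : ℕ} (hq : Fintype.card F = q)
    (d : ℕ) (hd : 2 ≤ d) (hT : (d, q) ≠ (2, 2)) (hodd : Odd q)
    (hΩ : 2 ∣ Nat.card {P : Submodule F (Fin d ⊕ Fin d → F) × Submodule F (Fin d ⊕ Fin d → F) // IsCompl P.1 P.2 ∧ (∀ u ∈ P.1, ∀ v ∈ P.1, Cfsg.sympForm d F u v = 0) ∧ (∀ u ∈ P.2, ∀ v ∈ P.2, Cfsg.sympForm d F u v = 0)} / 2)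
    (x : ↥(Matrix.symplecticGroup (Fin d) F))
    (hx1 : ∃ z : F, ((x ^ 2 : ↥(Matrix.symplecticGroup (Fin d) F)) : Matrix (Fin d ⊕ Fin d) (Fin d ⊕ Fin d) F) = z • (1 : Matrix (Fin d ⊕ Fin d) (Fin d ⊕ Fin d) F))
    (hx2 : ∀ z : F, (x : Matrix (Fin d ⊕ Fin d) (Fin d ⊕ Fin d) F) ≠ z • (1 : Matrix (Fin d ⊕ Fin d) (Fin d ⊕ Fin d) F)) :
    ∃ U W : Submodule F (Fin d ⊕ Fin d → F), IsCompl U W ∧ (∀ u ∈ U, ∀ v ∈ U, Cfsg.sympForm d F u v = 0) ∧ (∀ u ∈ W, ∀ v ∈ W, Cfsg.sympForm d F u v = 0) ∧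
        ((U.map (Matrix.toLin' (x : Matrix (Fin d ⊕ Fin d) (Fin d ⊕ Fin d) F)) = U ∧ W.map (Matrix.toLin' (x : Matrix (Fin d ⊕ Fin d) (Fin d ⊕ Fin d) F)) = W) ∨
         (U.map (Matrix.toLin' (x : Matrix (Fin d ⊕ Fin d) (Fin d ⊕ Fin d) F)) = W ∧ W.map (Matrix.toLin' (x : Matrix (Fin d ⊕ Fin d) (Fin d ⊕ Fin d) F)) = U)) := by
  classical
  obtain ⟨z, hxz⟩ := hx1
  have hsf := isSymplecticForm_sympForm (F := F) (m := d)
  let B : (Fin d ⊕ Fin d → F) →ₗ[F] (Fin d ⊕ Fin d → F) →ₗ[F] F := LinearMap.mk₂ F (Cfsg.sympForm d F)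
    hsf.bilinear.add_left hsf.bilinear.smul_left (fun u v w => hsf.bilinear.add_right u v w) (fun c u v => hsf.bilinear.smul_right c u v)
  have hB : ∀ u, B u u = 0 := hsf.alternating
  let X : (Fin d ⊕ Fin d → F) →ₗ[F] (Fin d ⊕ Fin d → F) := Matrix.toLin' (x : Matrix (Fin d ⊕ Fin d) (Fin d ⊕ Fin d) F)
  have hXB : ∀ u w, B (X u) (X w) = B u w := mem_symplecticGroup_iff.1 x.2
  have hXX : ∀ u, X (X u) = z • u := fun u => by
    have h : (x : Matrix (Fin d ⊕ Fin d) (Fin d ⊕ Fin d) F) * x = z • 1 := by rw [← hxz, pow_two]; rfl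
    show Matrix.toLin' (x : Matrix (Fin d ⊕ Fin d) (Fin d ⊕ Fin d) F) (Matrix.toLin' (x : Matrix (Fin d ⊕ Fin d) (Fin d ⊕ Fin d) F) u) = _
    rw [← Matrix.toLin'_mul_apply, h]
    simp
  have hz : z = 1 ∨ z = -1 := by
    have h1 : Pi.single (Sum.inl ⟨0, by omega⟩) (1 : F) ≠ (0 : Fin d ⊕ Fin d → F) := by simp
    obtain ⟨y, hy⟩ := (hsf.nondegenerate _ h1).2
    set v : Fin d ⊕ Fin d → F := Pi.single (Sum.inl ⟨0, by omega⟩) (1 : F)
    have h2 : B (X (X v)) (X (X y)) = B v y := by rw [hXB, hXB]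
    rw [hXX, hXX] at h2
    simp only [map_smul, LinearMap.smul_apply, smul_eq_mul] at h2
    refine mul_self_eq_one_iff.1 (mul_right_cancel₀ (b := B v y) hy ?_)
    rw [one_mul]; linear_combination h2
  have hnd : ∀ u ∈ (⊤ : Submodule F (Fin d ⊕ Fin d → F)), u ≠ 0 → ∃ y ∈ (⊤ : Submodule F (Fin d ⊕ Fin d → F)), B u y ≠ 0 :=
    fun u _ hu => ⟨_, Submodule.mem_top, (hsf.nondegenerate u hu).2.choose_spec⟩
  obtain ⟨U, W, h1, h2, h3, h4, h5⟩ := exists_lagrangian_pair hB X hXB (two_ne_zero_of_odd_card (hq.symm ▸ hodd)) hz hXX _ ⊤ rfl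
    (fun _ _ => Submodule.mem_top) hnd
  refine ⟨U, W, ⟨?_, codisjoint_iff.2 h1⟩, h2, h3, ?_⟩
  · rw [Submodule.disjoint_def]
    intro u hu hu'
    by_contra hu0
    obtain ⟨y, -, hy⟩ := hnd u Submodule.mem_top hu0
    obtain ⟨a, ha, b, hb, rfl⟩ := Submodule.mem_sup.1 (h1 ▸ Submodule.mem_top : y ∈ U ⊔ W)
    exact hy (by rw [map_add, h2 u hu a ha, h3 u hu' b hb, add_zero])
  · rcases hz with h | h
    · exact Or.inl (h4 h)
    · exact Or.inr (h5 h)

end Cfsg.Agent.S5962
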