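import Cfsg.Statements.S5968
import Cfsg.Agent.Lib.ClassicalSympSim

set_option autoImplicit false
open scoped MatrixGroups
open Cfsg

namespace Cfsg.Agent.S5968

/-- Derangements of odd prime order of PSL_n(q) on the cosets of a symplectic-type subgroup. Here `T = PSL_n(F)` for a field `F` with `q` elements, `n ≥ 4` even, `f` is a nondegenerate alternating form on `F^n`, and `H` is the subgroup of matrices of determinant 1 preserving `f` up to a scalar — a maximal subgroup of type Sp_n(q); Ω is the set of `T`-conjugates of `H` (cosets of `H`), so an element of `T` of prime order `r` (a matrix `x` of determinant 1 with `x^r` scalar, `x` not scalar) fixes a point of Ω when some conjugate of `x` by a matrix of determinant 1 preserves `f` up to a scalar. For every odd prime `r` dividing the index of `H`, with `(n, r) ≠ (6, 3)`, there is an element of `T` of order `r` with no conjugate in `H`. (For `n = 6`, `r = 3` this can fail: when `(q − 1)_3 = 3` every element of order 3 is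 conjugate into `H`.) -/
theorem result {F : Type*} [Field F] [Fintype F] {p : ℕ} [Fact p.Prime] [CharP F p] {q : ℕ} (hq : Fintype.card F = q)
    (n : ℕ) (hn : 4 ≤ n) (he : Even n) (f : (Fin n → F) → (Fin n → F) → F) (hf : Cfsg.Geo.IsSymplecticForm f)
    (r : ℕ) [Fact r.Prime] (hr2 : r ≠ 2) (hgap : ¬ (n = 6 ∧ r = 3)) (hΩ : r ∣ ((Cfsg.Geo.similarityGroup f).comap (Matrix.SpecialLinearGroup.toGL : Matrix.SpecialLinearGroup (Fin n) F →* GL (Fin n) F)).index) :
    ∃ x : Matrix.SpecialLinearGroup (Fin n) F,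
      (∃ z : F, ((x ^ r : Matrix.SpecialLinearGroup (Fin n) F) : Matrix (Fin n) (Fin n) F) = z • (1 : Matrix (Fin n) (Fin n) F)) ∧
      (∀ z : F, (x : Matrix (Fin n) (Fin n) F) ≠ z • (1 : Matrix (Fin n) (Fin n) F)) ∧
      ∀ P : Matrix.SpecialLinearGroup (Fin n) F, P⁻¹ * x * P ∉ ((Cfsg.Geo.similarityGroup f).comap (Matrix.SpecialLinearGroup.toGL : Matrix.SpecialLinearGroup (Fin n) F →* GL (Fin n) F)) := by
  obtain ⟨X, hdet, hXr, hns, hno⟩ := CfsgLib.SympSim.exists_noForm hn f hf p r hr2 hgap hΩ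
  refine ⟨⟨X, hdet⟩, ⟨1, ?_⟩, hns, fun P hP => ?_⟩
  · rw [one_smul]; exact hXr
  obtain ⟨μ, hμ⟩ := hP
  let Q : Matrix (Fin n) (Fin n) F := ((P⁻¹ : Matrix.SpecialLinearGroup (Fin n) F) : Matrix (Fin n) (Fin n) F)
  have hQP : (P : Matrix (Fin n) (Fin n) F) * Q = 1 := congrArg Subtype.val (mul_inv_cancel P)
  have hPQ : Q * (P : Matrix (Fin n) (Fin n) F) = 1 := congrArg Subtype.val (inv_mul_cancel P)
  let B := (CfsgLib.Classical.toBil hf.bilinear).compl₁₂ (Matrix.mulVecLin Q) (Matrix.mulVecLin Q)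
  have hB : ∀ u v, B u v = f (Q.mulVec u) (Q.mulVec v) := fun u v => rfl
  refine hno B (fun u => hf.alternating _) (fun w hw => ?_) μ (fun u v => ?_)
  · by_contra h0
    have hQw : Q.mulVec w ≠ 0 := fun h => h0 (by
      rw [← Matrix.one_mulVec w, ← hQP, ← Matrix.mulVec_mulVec, h, Matrix.mulVec_zero])
    obtain ⟨-, y, hy⟩ := hf.nondegenerate _ hQw
    apply hy
    have := hw ((P : Matrix (Fin n) (Fin n) F).mulVec y)
    rwa [hB, Matrix.mulVec_mulVec, hPQ, Matrix.one_mulVec] at this
  · have h := hμ (Q.mulVec u) (Q.mulVec v)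
    have e : ∀ w, ((Matrix.SpecialLinearGroup.toGL (P⁻¹ * ⟨X, hdet⟩ * P) : GL (Fin n) F) :
        Matrix (Fin n) (Fin n) F).mulVec (Q.mulVec w) = Q.mulVec (X.mulVec w) := fun w => by
      show (Q * X * (P : Matrix (Fin n) (Fin n) F)).mulVec (Q.mulVec w) = _
      rw [Matrix.mulVec_mulVec, mul_assoc, hQP, mul_one, Matrix.mulVec_mulVec]
    rw [e, e] at h
    rw [hB, hB, Matrix.toLin'_apply, Matrix.toLin'_apply]
    exact h

end Cfsg.Agent.S5968
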