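import Cfsg.Statements.S5985
import Cfsg.Agent.Lib.ClassicalLeviOmega
import Cfsg.Agent.Lib.ClassicalCounts
import Cfsg.Agent.Lib.ClassicalAlt
import Cfsg.Agent.Lib.ClassicalQuadStd2

set_option autoImplicit false
open scoped MatrixGroups
open Cfsg
open scoped commutatorElement

namespace Cfsg.Agent.S5985

open Matrix CfsgLib.Classical CfsgLib.LeviOmega CfsgLib.Classical.Count

variable {F : Type*} [Field F] {d : ℕ}

local notation "QP" => Cfsg.quadFormPlus d F

/-- alternating matrices -/
def AltM (S : Matrix (Fin d) (Fin d) F) : Prop := ∀ w : Fin d → F, w ⬝ᵥ (S *ᵥ w) = 0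

/-- Siegel unipotent elements -/
def sieg (S : Matrix (Fin d) (Fin d) F) (hS : AltM S) : ↥(Cfsg.isometryGroup F QP) :=
  ⟨⟨fromBlocks 1 S 0 1, fromBlocks 1 (-S) 0 1, by rw [fromBlocks_multiply]; simp [fromBlocks_one],
    by rw [fromBlocks_multiply]; simp [fromBlocks_one]⟩, fun u v => by
    have hQ : ∀ w : Fin d ⊕ Fin d → F, QP w = (w ∘ Sum.inl) ⬝ᵥ (w ∘ Sum.inr) := fun w => rfl
    show QP (fromBlocks 1 S 0 1 *ᵥ u) = QP u
    rw [hQ, hQ, fromBlocks_mulVec, Sum.elim_comp_inl, Sum.elim_comp_inr]
    simp only [one_mulVec, zero_mulVec, zero_add]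
    rw [add_dotProduct, dotProduct_comm (S *ᵥ _), hS, add_zero]⟩

theorem sieg_val (S : Matrix (Fin d) (Fin d) F) (hS : AltM S) :
    ((sieg S hS).1 : Matrix (Fin d ⊕ Fin d) (Fin d ⊕ Fin d) F) = fromBlocks 1 S 0 1 := rfl

theorem levi_val (A : GL (Fin d) F) : ((levi A).1 : Matrix (Fin d ⊕ Fin d) (Fin d ⊕ Fin d) F) =
    fromBlocks (A : Matrix (Fin d) (Fin d) F) 0 0 ((A⁻¹ : GL (Fin d) F) : Matrix (Fin d) (Fin d) F)ᵀ := rfl

/-- the set of alternating matrices whose Siegel element is in Omega -/
def Good (S : Matrix (Fin d) (Fin d) F) : Prop := ∃ hS : AltM S, sieg S hS ∈ Cfsg.Omega F QP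

theorem good_zero : Good (0 : Matrix (Fin d) (Fin d) F) := by
  refine ⟨fun w => by simp, ?_⟩
  have h : sieg (0 : Matrix (Fin d) (Fin d) F) (fun w => by simp) = 1 :=
    Subtype.ext (Units.ext (by show fromBlocks 1 (0 : Matrix (Fin d) (Fin d) F) 0 1 = 1; rw [fromBlocks_one]))
  rw [h]; exact one_mem _

theorem good_add {S T : Matrix (Fin d) (Fin d) F} (hS : Good S) (hT : Good T) : Good (S + T) := by
  obtain ⟨hS, hS'⟩ := hS
  obtain ⟨hT, hT'⟩ := hT
  refine ⟨fun w => by rw [add_mulVec, dotProduct_add, hS, hT, add_zero], ?_⟩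
  have h : sieg (S + T) (fun w => by rw [add_mulVec, dotProduct_add, hS, hT, add_zero]) = sieg S hS * sieg T hT :=
    Subtype.ext (Units.ext (by
      show fromBlocks 1 (S + T) 0 1 = fromBlocks 1 S 0 1 * fromBlocks 1 T 0 1
      rw [fromBlocks_multiply]
      simp [add_comm]))
  rw [h]; exact mul_mem hS' hT'

theorem alt_basic (i j : Fin d) (c : F) : AltM (Matrix.single i j c - Matrix.single j i c) := fun w => by
  rw [sub_mulVec, dotProduct_sub, Matrix.single_mulVec, Matrix.single_mulVec]
  simp [dotProduct, Function.update_apply]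
  ring

theorem good_basic (i j k : Fin d) (hij : i ≠ j) (hik : i ≠ k) (hjk : j ≠ k) (c : F) :
    Good (Matrix.single i j c - Matrix.single j i c) := by
  refine ⟨alt_basic i j c, ?_⟩
  have h : sieg (Matrix.single i j c - Matrix.single j i c) (alt_basic i j c) =
      ⁅levi (tu i k hik (1 : F)), sieg (Matrix.single k j c - Matrix.single j k c) (alt_basic k j c)⁆ := by
    rw [commutatorElement_def, eq_mul_inv_iff_mul_eq, eq_mul_inv_iff_mul_eq]
    refine Subtype.ext (Units.ext ?_)
    rw [Subgroup.coe_mul, Subgroup.coe_mul, Subgroup.coe_mul, Units.val_mul, Units.val_mul, Units.val_mul, sieg_val, sieg_val, levi_val,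
      fromBlocks_multiply, fromBlocks_multiply, fromBlocks_multiply]
    refine Matrix.fromBlocks_inj.2 ⟨by simp, ?_, by simp, by simp⟩
    simp only [tu, Units.inv_mk, Matrix.transvection, Matrix.transpose_add, Matrix.transpose_one, Matrix.transpose_single, Matrix.zero_mul,
      Matrix.mul_zero, add_zero, zero_add, Matrix.one_mul, Matrix.mul_one, Matrix.add_mul, Matrix.mul_add, Matrix.sub_mul, Matrix.mul_sub,
      Matrix.single_mul_single_same, Matrix.single_mul_single_of_ne _ _ _ _ hij, Matrix.single_mul_single_of_ne _ _ _ _ hik,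
      Matrix.single_mul_single_of_ne _ _ _ _ hjk, Matrix.single_mul_single_of_ne _ _ _ _ hij.symm,
      Matrix.single_mul_single_of_ne _ _ _ _ hik.symm, Matrix.single_mul_single_of_ne _ _ _ _ hjk.symm]
    ext u v
    simp [Matrix.single_apply]
    split_ifs <;> ring
  rw [h]
  exact Subgroup.commutator_mem_commutator (Subgroup.mem_top _) (Subgroup.mem_top _)

theorem exists_good_invertible (hd : 4 ≤ d) (he : Even d) :
    ∃ S : Matrix (Fin d) (Fin d) F, Good S ∧ ∀ w, S *ᵥ w = 0 → w = 0 := by
  obtain ⟨e, rfl⟩ := he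
  let a : Fin e → Fin (e + e) := fun i => ⟨i, by omega⟩
  let b : Fin e → Fin (e + e) := fun i => ⟨e + i, by omega⟩
  refine ⟨∑ i, (Matrix.single (a i) (b i) (1 : F) - Matrix.single (b i) (a i) 1), ?_, ?_⟩
  · refine Finset.sum_induction _ Good (fun _ _ => good_add) good_zero fun i _ => ?_
    obtain ⟨k, hk⟩ : ∃ k : Fin (e + e), k ∉ ({a i, b i} : Finset (Fin (e + e))) := by
      refine Finset.exists_mem_notMem_of_card_lt_card (t := Finset.univ) ?_ |>.imp fun k h => h.2
      rw [Finset.card_univ, Fintype.card_fin]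
      exact lt_of_le_of_lt (Finset.card_insert_le _ _) (by rw [Finset.card_singleton]; omega)
    simp only [Finset.mem_insert, Finset.mem_singleton, not_or] at hk
    exact good_basic (a i) (b i) k (fun h => by have := congrArg Fin.val h; simp [a, b] at this; omega) (Ne.symm hk.1) (Ne.symm hk.2) 1
  · intro w hw
    have key : ∀ (i : Fin e), w (b i) = 0 ∧ w (a i) = 0 := by
      intro i
      constructor
      · have := congrFun hw (a i)
        rw [sum_mulVec, Finset.sum_apply, Finset.sum_eq_single i] at this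
        · simpa [sub_mulVec, Matrix.single_mulVec, Function.update_apply, a, b, Fin.ext_iff, show ¬ ((i : ℕ) = e + i) by omega, show e ≠ 0 by omega] using this
        · intro j _ hj
          have : (i : ℕ) ≠ j := fun h => hj (Fin.ext h.symm)
          simp [sub_mulVec, Matrix.single_mulVec, Function.update_apply, a, b, Fin.ext_iff, this, show ¬ ((i : ℕ) = e + j) by omega]
        · exact fun h => absurd (Finset.mem_univ i) h
      · have := congrFun hw (b i)
        rw [sum_mulVec, Finset.sum_apply, Finset.sum_eq_single i] at this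
        · simpa [sub_mulVec, Matrix.single_mulVec, Function.update_apply, a, b, Fin.ext_iff, show ¬ (e + (i : ℕ) = i) by omega, show e ≠ 0 by omega] using this
        · intro j _ hj
          have : (i : ℕ) ≠ j := fun h => hj (Fin.ext h.symm)
          simp [sub_mulVec, Matrix.single_mulVec, Function.update_apply, a, b, Fin.ext_iff, this, show ¬ (e + (i : ℕ) = j) by omega]
        · exact fun h => absurd (Finset.mem_univ i) h
    funext j
    by_cases hj : (j : ℕ) < e
    · have := (key ⟨j, hj⟩).2; simpa [a] using this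
    · have := (key ⟨(j : ℕ) - e, by omega⟩).1
      simpa [b, show e + ((j : ℕ) - e) = j by omega] using this

theorem eigen_fixed [CharP F 2] {Q : (Fin d ⊕ Fin d → F) → F} (hsm : ∀ (c : F) v, Q (c • v) = c ^ 2 * Q v)
    (X : (Fin d ⊕ Fin d → F) →ₗ[F] (Fin d ⊕ Fin d → F)) (hX : ∀ v, Q (X v) = Q v)
    {W : Submodule F (Fin d ⊕ Fin d → F)} (h1 : Module.finrank F W = 1) (hW : W.map X ≤ W)
    {v : Fin d ⊕ Fin d → F} (hv : v ∈ W) (hQv : Q v ≠ 0) : X v = v := by
  have hv0 : v ≠ 0 := fun h => hQv (by rw [h, show (0 : Fin d ⊕ Fin d → F) = (0 : F) • (0 : Fin d ⊕ Fin d → F) by simp, hsm]; ring)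
  obtain ⟨c, hc⟩ := (finrank_eq_one_iff_of_nonzero' (⟨v, hv⟩ : W) (fun h => hv0 (congrArg Subtype.val h))).1 h1
    ⟨X v, hW ⟨v, hv, rfl⟩⟩
  have hc' : c • v = X v := congrArg Subtype.val hc
  have h := hX v
  rw [← hc', hsm] at h
  have hc1 : c = 1 := by
    rcases sq_eq_one_iff.1 (mul_right_cancel₀ hQv (h.trans (one_mul (Q v)).symm)) with e | e
    · exact e
    · rw [e, CharTwo.neg_eq]
  rw [← hc', hc1, one_smul]

/-- Elements of prime order of Ω⁺_n(q), q even, with no fixed nonsingular 1-space. Here `T = PΩ⁺_n(F)`, `n = 2d ≥ 8`, realised through `Ω⁺_n(q)`, the commutator subgroup of the isometry group of `Q = Σ xᵢyᵢ` over the field `F` with `q` elements; an element of `T` of prime order `r` is an element `x` of `Ω⁺_n(q)` with `x^r` scalar and `x` not scalar; `q` is even (so the centre is trivial). Let Ω be the set of 1-dimensional subspaces spanned by a vector `v` with `Q(v) ≠ 0`, and let `r` be a prime dividing their number. Then every element of `T` of order `r` fixes some nonsingular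 1-space if and only if `r = 2` and `n ≡ 2 (mod 4)` (that is, `d` is odd). -/
theorem result {F : Type*} [Field F] [Fintype F] {p : ℕ} [Fact p.Prime] [CharP F p] {q : ℕ} (hq : Fintype.card F = q)
    (hp : p = 2) (d : ℕ) (hd : 4 ≤ d) (r : ℕ) [Fact r.Prime]
    (hrΩ : r ∣ Nat.card {W : Submodule F (Fin d ⊕ Fin d → F) // Module.finrank F ↥W = 1 ∧ ∃ v ∈ W, Cfsg.quadFormPlus d F v ≠ 0}) :
    (∀ x : GL (Fin d ⊕ Fin d) F, x ∈ Cfsg.Geo.omegaGL (Cfsg.quadFormPlus d F) →
      (∃ z : F, ((x ^ r : GL (Fin d ⊕ Fin d) F) : Matrix (Fin d ⊕ Fin d) (Fin d ⊕ Fin d) F) = z • (1 : Matrix (Fin d ⊕ Fin d) (Fin d ⊕ Fin d) F)) →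
      (∀ z : F, (x : Matrix (Fin d ⊕ Fin d) (Fin d ⊕ Fin d) F) ≠ z • (1 : Matrix (Fin d ⊕ Fin d) (Fin d ⊕ Fin d) F)) →
      ∃ W : Submodule F (Fin d ⊕ Fin d → F), (Module.finrank F ↥W = 1 ∧ ∃ v ∈ W, Cfsg.quadFormPlus d F v ≠ 0) ∧ W.map (Matrix.toLin' (x : Matrix (Fin d ⊕ Fin d) (Fin d ⊕ Fin d) F)) ≤ W) ↔ (r = 2 ∧ Odd d) := by
  classical
  subst hp
  have hsm : ∀ (c : F) v, Cfsg.quadFormPlus d F (c • v) = c ^ 2 * Cfsg.quadFormPlus d F v := fun c v => by
    simp only [Cfsg.quadFormPlus, Pi.smul_apply, smul_eq_mul, Finset.mul_sum]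
    exact Finset.sum_congr rfl fun i _ => by ring
  have hiso : ∀ x : GL (Fin d ⊕ Fin d) F, x ∈ Cfsg.Geo.omegaGL (Cfsg.quadFormPlus d F) →
      ∀ v, Cfsg.quadFormPlus d F (Matrix.toLin' (x : Matrix (Fin d ⊕ Fin d) (Fin d ⊕ Fin d) F) v) = Cfsg.quadFormPlus d F v := by
    rintro x ⟨y, -, rfl⟩ v
    exact y.2 v v
  -- a point count
  have hcount : r ∣ q ^ (d - 1) * (q ^ d - 1) := by
    have e : Nat.card {W : Submodule F (Fin d ⊕ Fin d → F) // Module.finrank F ↥W = 1 ∧ ∃ v ∈ W, Cfsg.quadFormPlus d F v ≠ 0} =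
        Nat.card {v : Fin d ⊕ Fin d → F // Cfsg.quadFormPlus d F v = 1} := by
      have hne : ∀ {v : Fin d ⊕ Fin d → F}, Cfsg.quadFormPlus d F v = 1 → v ≠ 0 := fun h e => by
        rw [e] at h; simp [Cfsg.quadFormPlus] at h
      refine (Nat.card_congr (Equiv.ofBijective (fun v : {v : Fin d ⊕ Fin d → F // Cfsg.quadFormPlus d F v = 1} =>
        (⟨Submodule.span F {v.1}, finrank_span_singleton (hne v.2), v.1, Submodule.mem_span_singleton_self _,
          by rw [v.2]; exact one_ne_zero⟩ :
          {W : Submodule F (Fin d ⊕ Fin d → F) // Module.finrank F ↥W = 1 ∧ ∃ v ∈ W, Cfsg.quadFormPlus d F v ≠ 0})) ⟨?_, ?_⟩)).symm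
      · rintro ⟨u, hu⟩ ⟨v, hv⟩ h
        have h' : u ∈ Submodule.span F {v} := by
          rw [← show Submodule.span F {u} = Submodule.span F {v} from congrArg Subtype.val h]; exact Submodule.mem_span_singleton_self u
        obtain ⟨c, rfl⟩ := Submodule.mem_span_singleton.1 h'
        rw [hsm, hv, mul_one] at hu
        rcases sq_eq_one_iff.1 hu with e | e
        · exact Subtype.ext (by simp [e])
        · exact Subtype.ext (by simp [e, CharTwo.neg_eq])
      · rintro ⟨W, hW, v, hv, hQv⟩
        obtain ⟨s, hs⟩ := (FiniteField.isSquare_of_char_two (ringChar.eq F 2) ((Cfsg.quadFormPlus d F v)⁻¹) : IsSquare _)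
        have hQ1 : Cfsg.quadFormPlus d F (s • v) = 1 := by rw [hsm, pow_two, ← hs, inv_mul_cancel₀ hQv]
        refine ⟨⟨s • v, hQ1⟩, Subtype.ext (Submodule.eq_of_le_of_finrank_eq ?_ ?_)⟩
        · exact (Submodule.span_singleton_le_iff_mem _ _).2 (W.smul_mem _ hv)
        · show Module.finrank F (Submodule.span F {s • v}) = Module.finrank F W
          rw [finrank_span_singleton (hne hQ1), hW]
    rw [e] at hrΩ
    have h := card_plus (F := F) d (1 : F)
    rw [if_neg one_ne_zero, hq] at h
    have hN : q * Nat.card {v : Fin d ⊕ Fin d → F // Cfsg.quadFormPlus d F v = 1} = q * (q ^ (d - 1) * (q ^ d - 1)) := by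
      have hd' : (q : ℤ) ^ d = q * q ^ (d - 1) := by rw [← pow_succ']; congr 1; omega
      have : ((q * (q ^ (d - 1) * (q ^ d - 1)) : ℕ) : ℤ) = (q : ℤ) ^ (2 * d) + (q : ℤ) ^ d * (0 - 1) := by
        rw [Nat.cast_mul, Nat.cast_mul, Nat.cast_sub (Nat.one_le_pow _ _ (by rw [← hq]; exact Fintype.card_pos)), two_mul, pow_add]
        push_cast
        rw [hd']; ring
      zify
      rw [h, ← this]
      push_cast; ring
    rw [Nat.eq_of_mul_eq_mul_left (by rw [← hq]; exact Fintype.card_pos) hN] at hrΩ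
    exact hrΩ
  constructor
  · intro h
    by_cases hr : r = 2
    · refine ⟨hr, ?_⟩
      by_contra hodd
      subst hr
      obtain ⟨S, ⟨hS, hSΩ⟩, hinv⟩ := exists_good_invertible (F := F) hd (Nat.not_odd_iff_even.1 hodd)
      obtain ⟨W, ⟨hW1, v, hv, hQv⟩, hWx⟩ := h (sieg S hS).1 ⟨_, hSΩ, rfl⟩ ⟨1, by
        rw [one_smul, pow_two, Units.val_mul, sieg_val, fromBlocks_multiply]
        simp only [Matrix.one_mul, Matrix.mul_one, Matrix.zero_mul, Matrix.mul_zero, add_zero, zero_add]
        rw [show S + S = 0 by ext i j; exact CharTwo.add_self_eq_zero _, fromBlocks_one]⟩ (fun z hz => by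
        obtain ⟨k⟩ : Nonempty (Fin d) := ⟨⟨0, by omega⟩⟩
        rw [sieg_val] at hz
        have h0 : S = 0 := by
          ext i j
          have := congrFun (congrFun hz (Sum.inl i)) (Sum.inr j)
          simpa using this
        have := hinv (Pi.single k 1) (by rw [h0, zero_mulVec])
        simpa using congrFun this k)
      have hfix := eigen_fixed hsm _ (hiso _ ⟨_, hSΩ, rfl⟩) hW1 hWx hv hQv
      rw [Matrix.toLin'_apply, show (((Cfsg.isometryGroup F (Cfsg.quadFormPlus d F)).subtype (sieg S hS) : GL (Fin d ⊕ Fin d) F) : Matrix (Fin d ⊕ Fin d) (Fin d ⊕ Fin d) F) = fromBlocks 1 S 0 1 from rfl, fromBlocks_mulVec] at hfix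
      refine hQv ?_
      have hw : v ∘ Sum.inr = 0 := hinv _ (by
        funext i
        have := congrFun hfix (Sum.inl i)
        simpa using this)
      simp only [Cfsg.quadFormPlus]
      exact Finset.sum_eq_zero fun i _ => by rw [show v (Sum.inr i) = 0 from congrFun hw i, mul_zero]
    · exfalso
      have hrp : r.Prime := Fact.out
      have hrq : r ∣ q ^ d - 1 := by
        rcases hrp.dvd_mul.1 hcount with h' | h'
        · exfalso
          have h2 := hrp.dvd_of_dvd_pow h'
          obtain ⟨n, -, hn⟩ := FiniteField.card F 2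
          rw [hq] at hn
          rw [hn] at h2
          exact hr ((Nat.prime_dvd_prime_iff_eq hrp Nat.prime_two).1 (hrp.dvd_of_dvd_pow h2))
        · exact h'
      -- a fixed point free linear map of order r
      obtain ⟨A, hA, hAfix⟩ : ∃ A : GL (Fin d) F, A ^ r = 1 ∧ ((A : Matrix (Fin d) (Fin d) F) - 1).det ≠ 0 := by
        have : NeZero d := ⟨by omega⟩
        let E := FiniteField.Extension F 2 d
        have : Fintype E := Fintype.ofFinite E
        have hE : Fintype.card E = q ^ d := by
          rw [← hq, ← Nat.card_eq_fintype_card, ← Nat.card_eq_fintype_card, FiniteField.natCard_extension]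
        obtain ⟨ζ, hζ⟩ := exists_prime_orderOf_dvd_card (G := Eˣ) r (by rw [Fintype.card_units, hE]; exact hrq)
        have hfd : Module.finrank F E = d := by
          have h := Module.card_eq_pow_finrank (K := F) (V := E)
          rw [hE, hq] at h
          exact (Nat.pow_right_injective (by rw [← hq]; exact Fintype.one_lt_card) h).symm
        let bs := Module.finBasisOfFinrankEq F E hfd
        let φ : Eˣ →* GL (Fin d) F := Units.map (Algebra.leftMulMatrix bs : E →ₐ[F] Matrix (Fin d) (Fin d) F).toMonoidHom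
        refine ⟨φ ζ, by rw [← map_pow, ← hζ, pow_orderOf_eq_one, map_one], ?_⟩
        show ((Algebra.leftMulMatrix bs (ζ : E)) - 1).det ≠ 0
        rw [← map_one (Algebra.leftMulMatrix bs), ← map_sub]
        refine IsUnit.ne_zero ((Matrix.isUnit_iff_isUnit_det _).1 ((IsUnit.map _ (Ne.isUnit ?_))))
        intro h0
        have : ζ = 1 := Units.ext (sub_eq_zero.1 h0)
        rw [this, orderOf_one] at hζ
        exact hrp.one_lt.ne hζ
      have hmem : levi A ∈ Cfsg.Omega F (Cfsg.quadFormPlus d F) := (levi_omega_iff (by omega) (Or.inr (by omega)) A).2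
        (FiniteField.isSquare_of_char_two (ringChar.eq F 2) _)
      have hnofix : ∀ v : Fin d ⊕ Fin d → F, ((levi A).1 : Matrix (Fin d ⊕ Fin d) (Fin d ⊕ Fin d) F) *ᵥ v = v → v = 0 := by
        intro v hv
        rw [levi_val, fromBlocks_mulVec] at hv
        simp only [zero_mulVec, add_zero, zero_add] at hv
        have h1 : v ∘ Sum.inl = 0 := Matrix.eq_zero_of_mulVec_eq_zero hAfix (by
          rw [sub_mulVec, one_mulVec, sub_eq_zero]; funext i; simpa using congrFun hv (Sum.inl i))
        have h2 : v ∘ Sum.inr = 0 := Matrix.eq_zero_of_mulVec_eq_zero (M := ((A : Matrix (Fin d) (Fin d) F) - 1)ᵀ)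
          (by rw [Matrix.det_transpose]; exact hAfix) (by
            have h3 : ((A⁻¹ : GL (Fin d) F) : Matrix (Fin d) (Fin d) F)ᵀ *ᵥ (v ∘ Sum.inr) = v ∘ Sum.inr := by
              funext i; simpa using congrFun hv (Sum.inr i)
            have h4 := congrArg ((A : Matrix (Fin d) (Fin d) F)ᵀ *ᵥ ·) h3
            simp only [mulVec_mulVec, ← Matrix.transpose_mul, Units.inv_mul, Matrix.transpose_one, one_mulVec] at h4
            rw [Matrix.transpose_sub, Matrix.transpose_one, sub_mulVec, one_mulVec, sub_eq_zero]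
            exact h4.symm)
        funext i
        rcases i with i | i
        · exact congrFun h1 i
        · exact congrFun h2 i
      have hxr : (levi A).1 ^ r = 1 := by rw [← Subgroup.coe_pow, ← map_pow, hA, map_one]; rfl
      obtain ⟨W, ⟨hW1, v, hv, hQv⟩, hWx⟩ := h (levi A).1 ⟨_, hmem, rfl⟩ ⟨1, by rw [one_smul, hxr]; rfl⟩ (fun z hz => by
        obtain ⟨k⟩ : Nonempty (Fin d) := ⟨⟨0, by omega⟩⟩
        obtain ⟨v, hv⟩ : ∃ v : Fin d ⊕ Fin d → F, Cfsg.quadFormPlus d F v ≠ 0 :=
          ⟨Pi.single (Sum.inl k) 1 + Pi.single (Sum.inr k) 1, by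
            simp [Cfsg.quadFormPlus, Pi.single_apply]⟩
        have hs := hiso _ ⟨_, hmem, rfl⟩ v
        rw [Subgroup.coe_subtype, hz, map_smul, Matrix.toLin'_one, LinearMap.smul_apply, LinearMap.id_apply, hsm] at hs
        have hz1 : z = 1 := by
          rcases sq_eq_one_iff.1 (mul_right_cancel₀ hv (hs.trans (one_mul _).symm)) with e | e
          · exact e
          · rw [e, CharTwo.neg_eq]
        have := hnofix (Pi.single (Sum.inl k) 1) (by rw [hz, hz1, one_smul, one_mulVec])
        simpa using congrFun this (Sum.inl k))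
      have hfix := eigen_fixed hsm _ (hiso _ ⟨_, hmem, rfl⟩) hW1 hWx hv hQv
      rw [Matrix.toLin'_apply] at hfix
      rw [hnofix v hfix] at hQv
      exact hQv (by simp [Cfsg.quadFormPlus])
  · rintro ⟨rfl, hodd⟩ x hx ⟨z, hz⟩ -
    obtain ⟨X, hX⟩ : ∃ X : (Fin d ⊕ Fin d → F) →ₗ[F] (Fin d ⊕ Fin d → F),
      X = Matrix.toLin' (x : Matrix (Fin d ⊕ Fin d) (Fin d ⊕ Fin d) F) := ⟨_, rfl⟩
    have hQX : ∀ v, Cfsg.quadFormPlus d F (X v) = Cfsg.quadFormPlus d F v := fun v => by rw [hX]; exact hiso x hx v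
    have hXX : ∀ v, X (X v) = z • v := fun v => by
      rw [hX, ← Matrix.toLin'_mul_apply, show (x : Matrix (Fin d ⊕ Fin d) (Fin d ⊕ Fin d) F) * x = z • 1 by
        rw [← hz, pow_two, Units.val_mul]]
      simp
    obtain ⟨k⟩ : Nonempty (Fin d) := ⟨⟨0, by omega⟩⟩
    have hz1 : z = 1 := by
      obtain ⟨v, hv⟩ : ∃ v : Fin d ⊕ Fin d → F, Cfsg.quadFormPlus d F v ≠ 0 :=
        ⟨Pi.single (Sum.inl k) 1 + Pi.single (Sum.inr k) 1, by simp [Cfsg.quadFormPlus, Pi.single_apply]⟩
      have hs : Cfsg.quadFormPlus d F (X (X v)) = Cfsg.quadFormPlus d F v := by rw [hQX, hQX]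
      rw [hXX, hsm] at hs
      rcases sq_eq_one_iff.1 (mul_right_cancel₀ hv (hs.trans (one_mul _).symm)) with e | e
      · exact e
      · rw [e, CharTwo.neg_eq]
    obtain ⟨N, hN⟩ : ∃ N : (Fin d ⊕ Fin d → F) →ₗ[F] (Fin d ⊕ Fin d → F), N = X - LinearMap.id := ⟨_, rfl⟩
    by_contra hcon
    simp only [not_exists, not_and] at hcon
    -- the fixed space is totally singular
    have hts : ∀ v, N v = 0 → Cfsg.quadFormPlus d F v = 0 := by
      intro v hv
      by_contra hQv
      have hv0 : v ≠ 0 := fun e => hQv (by rw [e]; simp [Cfsg.quadFormPlus])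
      refine hcon (Submodule.span F {v}) ⟨finrank_span_singleton hv0, v, Submodule.mem_span_singleton_self v, hQv⟩ ?_
      rw [Submodule.map_span, Set.image_singleton, ← hX, show X v = v from sub_eq_zero.1 (by simpa [hN] using hv)]
    have hNN : ∀ v, N (N v) = 0 := fun v => by
      simp only [hN, LinearMap.sub_apply, LinearMap.id_apply, map_sub, hXX, hz1, one_smul]
      have h0 : (2 : F) • (v - X v) = 0 := by rw [CharTwo.two_eq_zero, zero_smul]
      calc v - X v - (X v - v) = (2 : F) • (v - X v) := by module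
        _ = 0 := h0
    have hpol : ∀ v, QuadraticMap.polar (Cfsg.quadFormPlus d F) v (N v) = 0 := fun v => by
      have h1 : v + N v = X v := by simp [hN]
      rw [QuadraticMap.polar, h1, hQX, hts _ (hNN v), sub_self, sub_zero]
    have hnd := isNondegenerate_quadFormPlus (F := F) d
    let Bp : LinearMap.BilinForm F (Fin d ⊕ Fin d → F) := LinearMap.mk₂ F
      (fun u v => QuadraticMap.polar (Cfsg.quadFormPlus d F) u v)
      (fun a b c => by simp only [polar_quadFormPlus, Pi.add_apply, ← Finset.sum_add_distrib]; exact Finset.sum_congr rfl fun i _ => by ring)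
      (fun a b c => by simp only [polar_quadFormPlus, Pi.smul_apply, smul_eq_mul, Finset.mul_sum]; exact Finset.sum_congr rfl fun i _ => by ring)
      (fun a b c => by simp only [polar_quadFormPlus, Pi.add_apply, ← Finset.sum_add_distrib]; exact Finset.sum_congr rfl fun i _ => by ring)
      (fun a b c => by simp only [polar_quadFormPlus, Pi.smul_apply, smul_eq_mul, Finset.mul_sum]; exact Finset.sum_congr rfl fun i _ => by ring)
    have hcomm : ∀ u v, Bp u v = Bp v u := fun u v => QuadraticMap.polar_comm _ u v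
    have hBnd : ∀ v, (∀ u, Bp u v = 0) → v = 0 := by
      intro v hv
      funext i
      rcases i with i | i
      · have := hv (Pi.single (Sum.inr i) 1)
        simpa [Bp, polar_quadFormPlus, Pi.single_apply] using this
      · have := hv (Pi.single (Sum.inl i) 1)
        simpa [Bp, polar_quadFormPlus, Pi.single_apply] using this
    let B' : LinearMap.BilinForm F (Fin d ⊕ Fin d → F) := Bp.compl₂ N
    have hB' : B'.IsAlt := fun v => hpol v
    obtain ⟨C, hC⟩ := Submodule.exists_isCompl (LinearMap.ker N)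
    have hCnd : NondegOn B' C := by
      intro w hw hw0
      by_contra hall
      push_neg at hall
      have hNw : N w ≠ 0 := fun e => hw0 (Submodule.disjoint_def.1 hC.disjoint w e hw)
      refine hNw (hBnd _ fun u => ?_)
      obtain ⟨a, ha, b, hb, rfl⟩ := Submodule.mem_sup.1 (show u ∈ LinearMap.ker N ⊔ C by rw [hC.sup_eq_top]; exact Submodule.mem_top)
      rw [map_add, LinearMap.add_apply, show Bp b (N w) = 0 from hall b hb, add_zero]
      show QuadraticMap.polar (Cfsg.quadFormPlus d F) a (N w) = 0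
      rw [QuadraticMap.polar, hts a ha, hts _ (hNN w), hts _ (by rw [map_add, LinearMap.mem_ker.1 ha, hNN, add_zero])]
      ring
    obtain ⟨m, e, h', -, -, -, hm⟩ := exists_hypFamily hB' C hCnd
    have h1 := Submodule.finrank_add_eq_of_isCompl hC
    rw [Module.finrank_fintype_fun_eq_card, Fintype.card_sum, Fintype.card_fin] at h1
    -- rank of N equals the rank of the complement
    have h2 := LinearMap.finrank_range_add_finrank_ker N
    rw [Module.finrank_fintype_fun_eq_card, Fintype.card_sum, Fintype.card_fin] at h2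
    have h3 : Module.finrank F (LinearMap.range N) ≤ Module.finrank F (LinearMap.ker N) :=
      Submodule.finrank_mono (fun v ⟨u, hu⟩ => hu ▸ hNN u)
    have h4 : Module.finrank F (LinearMap.ker N) ≤ d := by
      have hK : ∀ a ∈ LinearMap.ker N, ∀ b ∈ LinearMap.ker N, Bp a b = 0 := fun a ha b hb => by
        show QuadraticMap.polar (Cfsg.quadFormPlus d F) a b = 0
        rw [QuadraticMap.polar, hts a ha, hts b hb, hts _ (Submodule.add_mem _ ha hb)]; ring
      have hinj : Function.Injective Bp := by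
        rw [← LinearMap.ker_eq_bot, LinearMap.ker_eq_bot']
        intro v hv
        exact hBnd v fun u => by rw [hcomm, hv]; rfl
      have h5 : (LinearMap.ker N).map Bp ≤ (LinearMap.ker N).dualAnnihilator := by
        rintro _ ⟨a, ha, rfl⟩
        exact (Submodule.mem_dualAnnihilator _).2 fun b hb => hK a ha b hb
      have h6 := Submodule.finrank_mono h5
      rw [(Submodule.equivMapOfInjective _ hinj (LinearMap.ker N)).symm.finrank_eq] at h6
      have h8 : Module.finrank F (Fin d ⊕ Fin d → F) = d + d := by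
        rw [Module.finrank_fintype_fun_eq_card, Fintype.card_sum, Fintype.card_fin]
      have h7 : Module.finrank F (LinearMap.ker N) + Module.finrank F (LinearMap.ker N).dualAnnihilator = d + d :=
        h8 ▸ Subspace.finrank_add_finrank_dualAnnihilator_eq (LinearMap.ker N)
      have h9 : Module.finrank F (LinearMap.ker N) + Module.finrank F (LinearMap.ker N) ≤ d + d :=
        (Nat.add_le_add_left h6 _).trans_eq h7
      omega
    obtain ⟨j, hj⟩ := hodd
    omega

end Cfsg.Agent.S5985
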