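import Cfsg.Statements.S5997


set_option autoImplicit false
open scoped MatrixGroups
open Cfsg

namespace Cfsg.Agent.S5997

open Matrix

variable {F : Type*} [Field F]

local notation "M₂" => Matrix (Fin 2) (Fin 2) F

theorem cayley (A : M₂) : A * A = A.trace • A - A.det • (1 : M₂) := by
  ext i j
  fin_cases i <;> fin_cases j <;> simp [Matrix.mul_apply, Fin.sum_univ_two, Matrix.trace_fin_two, Matrix.det_fin_two] <;> ring

theorem commute_of_sq {A B : M₂} (hC : Commute (A * A) B) (ht : A.trace ≠ 0) : Commute A B := by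
  have hA : A = (A.trace)⁻¹ • (A * A + A.det • (1 : M₂)) := by
    rw [cayley A, sub_add_cancel, smul_smul, inv_mul_cancel₀ ht, one_smul]
  rw [hA]
  exact ((hC.add_left ((Commute.one_left B).smul_left _)).smul_left _)

/-- the companion matrix of x is attained by a matrix of determinant one -/
theorem exists_sl_companion [Fintype F] (hodd : Fintype.card F % 2 = 1) (h2 : (2 : F) ≠ 0) (g : GL (Fin 2) F)
    (hdet : (g : M₂).det = 1) (hD : (g : M₂).trace ^ 2 ≠ 4) :
    ∃ P ∈ Cfsg.Geo.specialLinear (Fin 2) F, (g : M₂) * (P : M₂) = (P : M₂) * !![0, -1; 1, (g : M₂).trace] := by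
  rw [Matrix.trace_fin_two] at hD ⊢
  rw [Matrix.det_fin_two] at hdet
  obtain ⟨a, ha⟩ : ∃ a, (g : M₂) 0 0 = a := ⟨_, rfl⟩
  obtain ⟨b, hb⟩ : ∃ b, (g : M₂) 0 1 = b := ⟨_, rfl⟩
  obtain ⟨c, hc⟩ : ∃ c, (g : M₂) 1 0 = c := ⟨_, rfl⟩
  obtain ⟨d, hd⟩ : ∃ d, (g : M₂) 1 1 = d := ⟨_, rfl⟩
  rw [ha, hb, hc, hd] at hdet
  rw [ha, hd] at hD ⊢
  have hDne : (d - a) ^ 2 + 4 * b * c ≠ 0 := fun h => hD (by linear_combination h + 4 * hdet)
  obtain ⟨x, y, hxy⟩ : ∃ x y : F, c * x ^ 2 + (d - a) * x * y - b * y ^ 2 = 1 := by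
    by_cases hc0 : c = 0
    · have hda : d - a ≠ 0 := fun h => hDne (by rw [h, hc0]; ring)
      exact ⟨(1 + b) / (d - a), 1, by rw [hc0]; field_simp; ring⟩
    · obtain ⟨u, y, huy⟩ := FiniteField.exists_root_sum_quadratic
        (f := Polynomial.C (4 * c ^ 2) * Polynomial.X ^ 2)
        (g := Polynomial.C (-((d - a) ^ 2 + 4 * b * c)) * Polynomial.X ^ 2 + Polynomial.C (-(4 * c)))
        (Polynomial.degree_C_mul_X_pow 2 (mul_ne_zero (by
          rw [show (4 : F) = 2 * 2 by norm_num]; exact mul_ne_zero h2 h2) (pow_ne_zero 2 hc0)))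
        (by rw [Polynomial.degree_add_C (by rw [Polynomial.degree_C_mul_X_pow 2 (neg_ne_zero.2 hDne)]; norm_num),
              Polynomial.degree_C_mul_X_pow 2 (neg_ne_zero.2 hDne)]; rfl) hodd
      simp at huy
      refine ⟨u - (d - a) * y / (2 * c), y, ?_⟩
      field_simp
      linear_combination huy
  have hP : (!![x, a * x + b * y; y, c * x + d * y] : M₂).det ≠ 0 := by
    rw [Matrix.det_fin_two_of, show x * (c * x + d * y) - (a * x + b * y) * y = 1 by linear_combination hxy]
    exact one_ne_zero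
  refine ⟨GeneralLinearGroup.mkOfDetNeZero _ hP, ?_, ?_⟩
  · rw [Cfsg.Geo.specialLinear, MonoidHom.mem_ker]
    refine Units.ext ?_
    show (!![x, a * x + b * y; y, c * x + d * y] : M₂).det = 1
    rw [Matrix.det_fin_two_of]; linear_combination hxy
  · show (g : M₂) * !![x, a * x + b * y; y, c * x + d * y] = !![x, a * x + b * y; y, c * x + d * y] * !![0, -1; 1, a + d]
    ext i j
    fin_cases i <;> fin_cases j <;> simp [Matrix.mul_apply, Fin.sum_univ_two, ha, hb, hc, hd] <;>
      first
      | ring1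
      | linear_combination -x * hdet
      | linear_combination -y * hdet

theorem conj_of_trace [Fintype F] (hodd : Fintype.card F % 2 = 1) (h2 : (2 : F) ≠ 0) {x y : GL (Fin 2) F}
    (hx : (x : M₂).det = 1) (hy : (y : M₂).det = 1) (ht : (x : M₂).trace = (y : M₂).trace) (hD : (x : M₂).trace ^ 2 ≠ 4) :
    ∃ g ∈ Cfsg.Geo.specialLinear (Fin 2) F, g⁻¹ * x * g = y := by
  obtain ⟨P, hP, eP⟩ := exists_sl_companion hodd h2 x hx hD
  obtain ⟨Q, hQ, eQ⟩ := exists_sl_companion hodd h2 y hy (ht ▸ hD)
  refine ⟨P * Q⁻¹, mul_mem hP (inv_mem hQ), ?_⟩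
  have hxy : P⁻¹ * x * P = Q⁻¹ * y * Q := Units.ext (by
    rw [Units.val_mul, Units.val_mul, Units.val_mul, Units.val_mul, mul_assoc, mul_assoc, eP, eQ, ht, ← mul_assoc, ← mul_assoc,
      Units.inv_mul, Units.inv_mul])
  calc (P * Q⁻¹)⁻¹ * x * (P * Q⁻¹) = Q * (P⁻¹ * x * P) * Q⁻¹ := by group
    _ = y := by rw [hxy]; group

theorem sl_det {g : GL (Fin 2) F} (h : g ∈ Cfsg.Geo.specialLinear (Fin 2) F) : (g : M₂).det = 1 :=
  congrArg Units.val h

theorem trace_of_sq {A : M₂} (hA : ∀ z : F, A ≠ z • (1 : M₂)) (hd : A.det = 1) {z : F} (h : A * A = z • (1 : M₂)) :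
    A.trace = 0 := by
  by_contra ht
  refine hA ((A.trace)⁻¹ * (z + 1)) ?_
  have e := cayley A
  rw [h, hd] at e
  rw [mul_smul, show (z + 1) • (1 : M₂) = A.trace • A by rw [add_smul, e]; module, smul_smul, inv_mul_cancel₀ ht, one_smul]

theorem trace_of_cube {A : M₂} (hA : ∀ z : F, A ≠ z • (1 : M₂)) (hd : A.det = 1) {z : F} (h : A * A * A = z • (1 : M₂)) :
    A.trace = 1 ∨ A.trace = -1 := by
  refine mul_self_eq_one_iff.1 ?_
  by_contra ht
  have hne : A.trace * A.trace - 1 ≠ 0 := sub_ne_zero.2 ht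
  refine hA ((A.trace * A.trace - 1)⁻¹ * (z + A.trace)) ?_
  have e := cayley A
  rw [hd] at e
  have e3 : A * A * A = (A.trace * A.trace - 1) • A - A.trace • (1 : M₂) := by
    rw [e, sub_mul, smul_mul_assoc, e, smul_mul_assoc, one_mul]; module
  rw [h] at e3
  rw [mul_smul, show (z + A.trace) • (1 : M₂) = (A.trace * A.trace - 1) • A by rw [add_smul, e3]; module, smul_smul,
    inv_mul_cancel₀ hne, one_smul]

theorem traceless_anticommutator {A B : M₂} (hA : A.trace = 0) (hB : B.trace = 0) :
    A * B + B * A = (A * B).trace • (1 : M₂) := by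
  rw [Matrix.trace_fin_two] at hA hB
  have hA' : A 1 1 = - A 0 0 := by linear_combination hA
  have hB' : B 1 1 = - B 0 0 := by linear_combination hB
  ext i j
  fin_cases i <;> fin_cases j <;> simp [Matrix.mul_apply, Fin.sum_univ_two, Matrix.trace_fin_two, hA', hB'] <;> ring

/-- a matrix commuting with two anticommuting square roots of -1 is scalar -/
theorem scalar_of_commute (h2 : (2 : F) ≠ 0) {I J B : M₂} (hI : I * I = -1) (hJ : J * J = -1) (hJI : J * I = -(I * J))
    (htI : I.trace = 0) (h1 : Commute B I) (hBJ : Commute B J) : ∃ z : F, B = z • (1 : M₂) := by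
  obtain ⟨B0, hB0t, hB0⟩ : ∃ B0 : M₂, B0.trace = 0 ∧ B = (B.trace / 2) • (1 : M₂) + B0 :=
    ⟨B - (B.trace / 2) • (1 : M₂), by rw [Matrix.trace_sub, Matrix.trace_smul, Matrix.trace_one]; simp; field_simp; ring, by abel⟩
  have hc1 : Commute B0 I := by
    have : B0 = B - (B.trace / 2) • (1 : M₂) := eq_sub_of_add_eq' hB0.symm
    rw [this]; exact h1.sub_left ((Commute.one_left I).smul_left _)
  have hc2 : Commute B0 J := by
    have : B0 = B - (B.trace / 2) • (1 : M₂) := eq_sub_of_add_eq' hB0.symm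
    rw [this]; exact hBJ.sub_left ((Commute.one_left J).smul_left _)
  have h := traceless_anticommutator hB0t htI
  rw [hc1.eq, ← two_smul F (I * B0)] at h
  have h' : B0 = (-(I * B0).trace / 2) • I := by
    have := congrArg (fun X => I * X) h
    simp only [mul_smul_comm, mul_one, ← mul_assoc, hI, neg_mul, one_mul] at this
    calc B0 = (-(2 : F)⁻¹) • ((2 : F) • -B0) := by rw [smul_smul, neg_mul, inv_mul_cancel₀ h2]; module
      _ = _ := by rw [this, smul_smul]; congr 1; ring
  set β := -(I * B0).trace / 2 with hβ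
  have hb : β = 0 := by
    by_contra hb
    rw [h'] at hc2
    have e : β • (I * J) = β • (-(I * J)) := by rw [← hJI, ← smul_mul_assoc, hc2.eq, mul_smul_comm]
    have e' : (2 : F) • (I * J) = 0 := by rw [two_smul]; exact add_eq_zero_iff_eq_neg.2 (smul_right_injective M₂ hb e)
    have e2 : I * J = 0 := (smul_eq_zero.1 e').resolve_left h2
    have e3 : J = 0 := by
      have := congrArg (fun X => I * X) e2
      simpa [← mul_assoc, hI] using this
    rw [e3, mul_zero] at hJ
    exact one_ne_zero (neg_eq_zero.1 hJ.symm)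
  exact ⟨B.trace / 2, by conv_lhs => rw [hB0, h', hb, zero_smul, add_zero]⟩

/-- Elements of prime order of PSL_2(p) and the normalizer of a quaternion subgroup. Here `T = PSL_2(F)` for the field `F` with `p` elements, `p ≥ 5` prime; `R` is a subgroup of GL_2(F) isomorphic to the quaternion group of order 8 (an absolutely irreducible 2-group of symplectic type), and `H` is the subgroup of matrices of determinant 1 normalizing `R` — a subgroup of type 2^{1+2}.O₂⁻(2), isomorphic modulo scalars to A₄ or S₄ (maximality is not assumed). Ω is the set of cosets of `H` in `T`, so an element of `T` of prime order `r` (a matrix `x` of determinant 1 with `x^r` scalar, `x` not scalar) fixes a point of Ω exactly when some conjugate of `x` by a matrix of determinant 1 normalizes `R`. Let `r` be a prime dividing the index of `H`. Then every element of `T` of order `r` fixes a point of Ω if and only if `r = 2` or `r = 3`. -/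
theorem result {F : Type*} [Field F] [Fintype F] {p : ℕ} [Fact p.Prime] [CharP F p] (hF : Fintype.card F = p) (hp : 5 ≤ p)
    (R : Subgroup (GL (Fin 2) F)) (hR : Nonempty (↥R ≃* QuaternionGroup 2))
    (r : ℕ) [Fact r.Prime]
    (hΩ : r ∣ (Cfsg.Geo.subgroupNormalizer R).relIndex (Cfsg.Geo.specialLinear (Fin 2) F)) :
    (∀ x ∈ Cfsg.Geo.specialLinear (Fin 2) F, (∃ z : F, ((x ^ r : GL (Fin 2) F) : Matrix (Fin 2) (Fin 2) F) = z • (1 : Matrix (Fin 2) (Fin 2) F)) →
      (∀ z : F, (x : Matrix (Fin 2) (Fin 2) F) ≠ z • (1 : Matrix (Fin 2) (Fin 2) F)) →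
      ∃ g ∈ Cfsg.Geo.specialLinear (Fin 2) F, g⁻¹ * x * g ∈ Cfsg.Geo.subgroupNormalizer R) ↔ (r = 2 ∨ r = 3) := by
  classical
  obtain ⟨φ⟩ := hR
  have hpF : p = ringChar F := (ringChar.eq F p).symm
  have hodd : Fintype.card F % 2 = 1 := by
    rw [hF]; exact (Nat.Prime.mod_two_eq_one_iff_ne_two Fact.out).2 (by omega)
  have h2 : (2 : F) ≠ 0 := fun h => by
    have := (CharP.cast_eq_zero_iff F p 2).1 (by simpa using h)
    have := Nat.le_of_dvd (by norm_num) this
    omega
  -- the two generators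
  obtain ⟨I, hIR, J, hJR, hC1, hIJne, hsqJ, hJI, hgen⟩ : ∃ I ∈ R, ∃ J ∈ R, (I * I) * (I * I) = 1 ∧ I * J ≠ J * I ∧
      J * J = I * I ∧ J * I = (I * I) * (I * J) ∧ R = Subgroup.closure {I, J} := by
    obtain ⟨a, ha⟩ : ∃ a, φ.symm (QuaternionGroup.a 1) = a := ⟨_, rfl⟩
    obtain ⟨b, hb⟩ : ∃ b, φ.symm (QuaternionGroup.xa 0) = b := ⟨_, rfl⟩
    refine ⟨a.1, a.2, b.1, b.2, ?_, ?_, ?_, ?_, ?_⟩
    · exact congrArg Subtype.val (show a * a * (a * a) = 1 by rw [← ha, ← map_mul, ← map_mul, ← map_one φ.symm]; congr 1)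
    · intro h
      have h' : a * b = b * a := Subtype.ext h
      rw [← ha, ← hb, ← map_mul, ← map_mul] at h'
      exact absurd (φ.symm.injective h') (by decide)
    · exact congrArg Subtype.val (show b * b = a * a by rw [← ha, ← hb, ← map_mul, ← map_mul]; congr 1)
    · exact congrArg Subtype.val (show b * a = a * a * (a * b) by
        rw [← ha, ← hb, ← map_mul, ← map_mul, ← map_mul, ← map_mul]; congr 1)
    · refine le_antisymm (fun r hr => ?_) ((Subgroup.closure_le R).2 (by rintro _ (rfl | rfl); exacts [a.2, b.2]))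
      have hall : ∀ g : QuaternionGroup 2, ∃ k : Fin 4,
          g = (QuaternionGroup.a 1) ^ (k : ℕ) ∨ g = QuaternionGroup.xa 0 * (QuaternionGroup.a 1) ^ (k : ℕ) := by decide
      have ha' : (a : GL (Fin 2) F) ∈ Subgroup.closure {(a : GL (Fin 2) F), (b : GL (Fin 2) F)} := Subgroup.subset_closure (Or.inl rfl)
      have hb' : (b : GL (Fin 2) F) ∈ Subgroup.closure {(a : GL (Fin 2) F), (b : GL (Fin 2) F)} := Subgroup.subset_closure (Or.inr rfl)
      obtain ⟨k, hk⟩ := hall (φ ⟨r, hr⟩)
      rcases hk with hk | hk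
      · have e : (⟨r, hr⟩ : R) = a ^ (k : ℕ) := by
          apply φ.injective; rw [hk, map_pow, ← ha, MulEquiv.apply_symm_apply]
        rw [show r = (a : GL (Fin 2) F) ^ (k : ℕ) from congrArg Subtype.val e]
        exact pow_mem ha' _
      · have e : (⟨r, hr⟩ : R) = b * a ^ (k : ℕ) := by
          apply φ.injective; rw [hk, map_mul, map_pow, ← ha, ← hb, MulEquiv.apply_symm_apply, MulEquiv.apply_symm_apply]
        rw [show r = (b : GL (Fin 2) F) * (a : GL (Fin 2) F) ^ (k : ℕ) from congrArg Subtype.val e]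
        exact mul_mem hb' (pow_mem ha' _)
  -- matrices
  obtain ⟨iM, hiM⟩ : ∃ M : Matrix (Fin 2) (Fin 2) F, (I : Matrix (Fin 2) (Fin 2) F) = M := ⟨_, rfl⟩
  obtain ⟨jM, hjM⟩ : ∃ M : Matrix (Fin 2) (Fin 2) F, (J : Matrix (Fin 2) (Fin 2) F) = M := ⟨_, rfl⟩
  have mIJ : iM * jM ≠ jM * iM := fun h => hIJne (Units.ext (by rw [Units.val_mul, Units.val_mul, hiM, hjM]; exact h))
  have m1 : (iM * iM) * (iM * iM) = 1 := by
    have := congrArg (fun g : GL (Fin 2) F => (g : Matrix (Fin 2) (Fin 2) F)) hC1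
    simpa [hiM] using this
  have m2 : jM * jM = iM * iM := by
    have := congrArg (fun g : GL (Fin 2) F => (g : Matrix (Fin 2) (Fin 2) F)) hsqJ
    simpa [hiM, hjM] using this
  have m3 : jM * iM = (iM * iM) * (iM * jM) := by
    have := congrArg (fun g : GL (Fin 2) F => (g : Matrix (Fin 2) (Fin 2) F)) hJI
    simpa [hiM, hjM] using this
  have htI : iM.trace = 0 := by
    by_contra ht
    exact mIJ (commute_of_sq (by rw [← m2]; exact (Commute.refl jM).mul_left (Commute.refl jM)) ht).eq
  have htJ : jM.trace = 0 := by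
    by_contra ht
    exact mIJ (commute_of_sq (by rw [m2]; exact (Commute.refl iM).mul_left (Commute.refl iM)) ht).eq.symm
  have eI : iM * iM = (-iM.det) • (1 : Matrix (Fin 2) (Fin 2) F) := by rw [cayley, htI, zero_smul, zero_sub, neg_smul]
  have hdI : iM.det = 1 := by
    have h := m1
    rw [eI, smul_mul_smul_comm, one_mul] at h
    have h' : iM.det * iM.det = 1 := by
      have := congrFun (congrFun h 0) 0
      simpa using this
    refine (mul_self_eq_one_iff.1 h').resolve_right fun e => mIJ ?_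
    rw [m3, eI, e, neg_neg, one_smul, one_mul]
  have hI2 : iM * iM = -1 := by rw [eI, hdI, neg_smul, one_smul]
  have hJ2 : jM * jM = -1 := m2.trans hI2
  have hJI' : jM * iM = -(iM * jM) := by rw [m3, hI2, neg_one_mul]
  have hdJ : jM.det = 1 := by
    have := cayley jM
    rw [hJ2, htJ, zero_smul, zero_sub, neg_inj] at this
    have := congrFun (congrFun this.symm 0) 0
    simpa using this
  -- the element of order three
  obtain ⟨S, hS⟩ : ∃ S : Matrix (Fin 2) (Fin 2) F, S = (-(2 : F)⁻¹) • (1 + iM + jM + iM * jM) := ⟨_, rfl⟩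
  have hSI : S * iM = jM * S := by
    rw [hS, smul_mul_assoc, mul_smul_comm]
    congr 1
    have e1 : iM * jM * iM = jM := by rw [mul_assoc, hJI', mul_neg, ← mul_assoc, hI2, neg_one_mul, neg_neg]
    have e2 : jM * (iM * jM) = iM := by rw [← mul_assoc, hJI', neg_mul, mul_assoc, hJ2, mul_neg_one, neg_neg]
    simp only [add_mul, mul_add, one_mul, mul_one, hI2, hJ2, hJI', e1, e2]
    abel
  have hSJ : S * jM = iM * jM * S := by
    rw [hS, smul_mul_assoc, mul_smul_comm]
    congr 1
    have e1 : iM * jM * jM = -iM := by rw [mul_assoc, hJ2, mul_neg_one]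
    have e2 : iM * jM * iM = jM := by rw [mul_assoc, hJI', mul_neg, ← mul_assoc, hI2, neg_one_mul, neg_neg]
    have e3 : iM * jM * (iM * jM) = -1 := by rw [← mul_assoc, e2, hJ2]
    simp only [add_mul, mul_add, one_mul, mul_one, hJ2, e1, e2, e3]
    abel
  have htS : S.trace = -1 := by
    have hk : (iM * jM).trace = 0 := by
      have h := Matrix.trace_mul_comm iM jM
      rw [hJI', Matrix.trace_neg] at h
      exact (mul_eq_zero.1 (show (2 : F) * (iM * jM).trace = 0 by linear_combination h)).resolve_left h2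
    rw [hS, Matrix.trace_smul, Matrix.trace_add, Matrix.trace_add, Matrix.trace_add, Matrix.trace_one, htI, htJ, hk]
    simp
    field_simp
  have hdS : S.det = 1 := by
    have e1 : iM * jM * iM = jM := by rw [mul_assoc, hJI', mul_neg, ← mul_assoc, hI2, neg_one_mul, neg_neg]
    have e2 : jM * (iM * jM) = iM := by rw [← mul_assoc, hJI', neg_mul, mul_assoc, hJ2, mul_neg_one, neg_neg]
    have e3 : iM * (iM * jM) = -jM := by rw [← mul_assoc, hI2, neg_one_mul]
    have e4 : iM * jM * jM = -iM := by rw [mul_assoc, hJ2, mul_neg_one]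
    have e5 : iM * jM * (iM * jM) = -1 := by rw [← mul_assoc, e1, hJ2]
    have hsq : (1 + iM + jM + iM * jM) * (1 + iM + jM + iM * jM) = (2 : F) • (iM + jM + iM * jM) - (2 : F) • 1 := by
      simp only [add_mul, mul_add, one_mul, mul_one, hI2, hJ2, hJI', e1, e2, e3, e4, e5]
      module
    have hS2 : S * S = -S - 1 := by
      rw [hS, smul_mul_smul_comm, hsq]
      match_scalars <;> field_simp <;> ring
    have := cayley S
    rw [htS, hS2] at this
    have h' : S.det • (1 : Matrix (Fin 2) (Fin 2) F) = (1 : F) • 1 := by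
      rw [one_smul]
      calc S.det • (1 : Matrix (Fin 2) (Fin 2) F) = (-1 : F) • S - ((-1 : F) • S - S.det • 1) := by abel
        _ = _ := by rw [← this]; module
    simpa using congrFun (congrFun h' 0) 0
  have hSu : S.det ≠ 0 := by rw [hdS]; exact one_ne_zero
  let s : GL (Fin 2) F := GeneralLinearGroup.mkOfDetNeZero S hSu
  have hsN : s ∈ Cfsg.Geo.subgroupNormalizer R := by
    have hsI : s * I * s⁻¹ = J := by
      rw [mul_inv_eq_iff_eq_mul]; exact Units.ext (by rw [Units.val_mul, Units.val_mul, hiM, hjM]; exact hSI)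
    have hsJ : s * J * s⁻¹ = I * J := by
      rw [mul_inv_eq_iff_eq_mul]
      exact Units.ext (by rw [Units.val_mul, Units.val_mul, Units.val_mul, hiM, hjM]; exact hSJ)
    have hle : R.map (MulAut.conj s).toMonoidHom ≤ R := by
      conv_lhs => rw [hgen, MonoidHom.map_closure]
      rw [Subgroup.closure_le]
      rintro _ ⟨z, hz, rfl⟩
      rcases hz with rfl | rfl
      · show s * _ * s⁻¹ ∈ R
        rw [hsI]; exact hJR
      · show s * _ * s⁻¹ ∈ R
        rw [hsJ]; exact mul_mem hIR hJR
    have heq := Subgroup.eq_of_le_of_card_ge hle (by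
      rw [Subgroup.card_map_of_injective (MulEquiv.injective _)])
    rw [Cfsg.Geo.subgroupNormalizer, Subgroup.mem_normalizer_iff]
    intro h
    constructor
    · intro hh; rw [← heq]; exact ⟨h, hh, rfl⟩
    · intro hh
      rw [← heq] at hh
      obtain ⟨h', hh', e⟩ := hh
      have : h' = h := (MulAut.conj s).injective e
      exact this ▸ hh'
  have hnorm : ∀ g ∈ R, g ∈ Cfsg.Geo.subgroupNormalizer R := fun g hg => Subgroup.le_normalizer hg
  constructor
  · intro h
    by_contra hcon
    push_neg at hcon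
    have hr := (Fact.out : r.Prime)
    have hr5 : 5 ≤ r := by
      have := hr.two_le
      by_contra h5
      interval_cases r <;> simp_all (config := {decide := true})
    obtain ⟨⟨x, hxS⟩, hxo⟩ := exists_prime_orderOf_dvd_card' r (hΩ.trans (Subgroup.relIndex_dvd_card _ _))
    have hxo' : orderOf x = r := by rw [← hxo, Subgroup.orderOf_mk]
    have hns : ∀ z : F, (x : Matrix (Fin 2) (Fin 2) F) ≠ z • 1 := by
      intro z hz
      have hd := sl_det hxS
      rw [hz, Matrix.det_smul, Fintype.card_fin, Matrix.det_one, mul_one] at hd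
      have : x ^ 2 = 1 := Units.ext (by
        rw [Units.val_pow_eq_pow_val, hz, smul_pow, one_pow, hd, one_smul, Units.val_one])
      have := Nat.le_of_dvd (by norm_num) (orderOf_dvd_of_pow_eq_one this)
      omega
    obtain ⟨g, hg, hgN⟩ := h x hxS ⟨1, by rw [one_smul, ← hxo', pow_orderOf_eq_one, Units.val_one]⟩ hns
    obtain ⟨y, hy⟩ : ∃ y, g⁻¹ * x * g = y := ⟨_, rfl⟩
    rw [hy] at hgN
    have hyo : orderOf y = r := by
      rw [← hy, show g⁻¹ * x * g = MulAut.conj g⁻¹ x by rw [MulAut.conj_apply, inv_inv],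
        MulEquiv.orderOf_eq]
      exact hxo'
    rw [Cfsg.Geo.subgroupNormalizer, Subgroup.mem_normalizer_iff] at hgN
    let c : Equiv.Perm R :=
      { toFun := fun z => ⟨y * z * y⁻¹, (hgN z).1 z.2⟩
        invFun := fun z => ⟨y⁻¹ * z * y, (hgN _).2 (by simp [mul_assoc])⟩
        left_inv := fun z => Subtype.ext (by group)
        right_inv := fun z => Subtype.ext (by group) }
    have hcpow : ∀ n : ℕ, ∀ z : R, ((c ^ n) z : GL (Fin 2) F) = y ^ n * z * (y ^ n)⁻¹ := by
      intro n
      induction n with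
      | zero => simp
      | succ n ih =>
        intro z
        rw [pow_succ', Equiv.Perm.mul_apply, pow_succ']
        show y * _ * y⁻¹ = _
        rw [ih]; group
    have hcr : c ^ r = 1 := Equiv.ext fun z => Subtype.ext (by rw [hcpow, ← hyo, pow_orderOf_eq_one]; simp)
    have hR8 : Nat.card R = 8 := by rw [Nat.card_congr φ.toEquiv, Nat.card_eq_fintype_card, QuaternionGroup.card]
    -- the fixed points of c form a subgroup containing the centre
    let T : Subgroup R := (Subgroup.centralizer ({y} : Set (GL (Fin 2) F))).subgroupOf R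
    have hT : ∀ z : R, z ∈ T ↔ c z = z := fun z => by
      rw [Subgroup.mem_subgroupOf, Subgroup.mem_centralizer_singleton_iff, Subtype.ext_iff]
      show _ ↔ y * z * y⁻¹ = z
      rw [mul_inv_eq_iff_eq_mul, eq_comm]
    have hCne : (⟨I * I, mul_mem hIR hIR⟩ : R) ≠ 1 := fun e => by
      have := congrArg (fun g : R => ((g : GL (Fin 2) F) : Matrix (Fin 2) (Fin 2) F) 0 0) e
      simp [hiM, hI2] at this
      exact h2 (by linear_combination -this)
    have hCT : (⟨I * I, mul_mem hIR hIR⟩ : R) ∈ T := by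
      rw [Subgroup.mem_subgroupOf, Subgroup.mem_centralizer_singleton_iff]
      exact Units.ext (by simp [hiM, hI2])
    have hT8 : Nat.card T ∣ 8 := hR8 ▸ Subgroup.card_subgroup_dvd_card T
    have hT2 : 2 ≤ Nat.card T := by
      rw [Nat.succ_le_iff, Finite.one_lt_card_iff_nontrivial]
      exact ⟨⟨_, hCT⟩, 1, fun e => hCne (congrArg Subtype.val e)⟩
    have hmod : Nat.card R ≡ Nat.card T [MOD r] := by
      have hcard : Nat.card (Subgroup.zpowers c) ∣ r := by
        rw [Nat.card_zpowers]; exact orderOf_dvd_of_pow_eq_one hcr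
      have hP : IsPGroup r (Subgroup.zpowers c) := by
        rcases (Nat.dvd_prime hr).1 hcard with h1 | h1
        · exact IsPGroup.of_card (n := 0) (by rw [h1, pow_zero])
        · exact IsPGroup.of_card (n := 1) (by rw [h1, pow_one])
      have e : Nat.card (MulAction.fixedPoints (Subgroup.zpowers c) R) = Nat.card T := by
        refine Nat.card_congr (Equiv.subtypeEquivRight fun z => ?_)
        rw [hT, MulAction.mem_fixedPoints]
        constructor
        · exact fun h => h ⟨c, Subgroup.mem_zpowers c⟩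
        · rintro h ⟨m, k, rfl⟩
          exact Function.IsFixedPt.perm_zpow h k
      exact e ▸ hP.card_modEq_card_fixedPoints R
    rw [hR8] at hmod
    have hTall : ∀ z : R, z ∈ T := by
      have h8 : Nat.card T = 8 := by
        have hle := Nat.le_of_dvd (by norm_num) hT8
        rcases lt_or_eq_of_le hle with hlt | he
        · exfalso
          have hd : r ∣ 8 - Nat.card T := (Nat.modEq_iff_dvd' hle).1 hmod.symm
          have := Nat.le_of_dvd (by omega) hd
          interval_cases hk : Nat.card T <;> norm_num at hT8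
          all_goals (interval_cases r <;> first | omega | (exact absurd hr (by decide)))
        · exact he
      have := Subgroup.eq_top_of_card_eq T (by rw [h8, hR8])
      exact fun z => this ▸ Subgroup.mem_top z
    have hcomm : ∀ z ∈ R, Commute (y : Matrix (Fin 2) (Fin 2) F) (z : Matrix (Fin 2) (Fin 2) F) := fun z hz => by
      have := Subgroup.mem_centralizer_singleton_iff.1 (Subgroup.mem_subgroupOf.1 (hTall ⟨z, hz⟩))
      exact (congrArg (fun g : GL (Fin 2) F => (g : Matrix (Fin 2) (Fin 2) F)) this).symm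
    obtain ⟨z, hz⟩ := scalar_of_commute h2 hI2 hJ2 hJI' htI (hiM ▸ hcomm I hIR) (hjM ▸ hcomm J hJR)
    refine hns z ?_
    have hx : x = g * y * g⁻¹ := by rw [← hy]; group
    rw [hx, Units.val_mul, Units.val_mul, hz, mul_smul_comm, mul_one, smul_mul_assoc, Units.mul_inv]
  · rintro (rfl | rfl) x hx ⟨z, hz⟩ hns
    · rw [pow_two, Units.val_mul] at hz
      have ht := trace_of_sq hns (sl_det hx) hz
      obtain ⟨g, hg, hgx⟩ := conj_of_trace hodd h2 (y := I) (sl_det hx) (by rw [hiM]; exact hdI) (by rw [ht, hiM, htI])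
        (by rw [ht]; intro e; exact h2 (by
          have : (2 : F) * 2 = 0 := by linear_combination -e
          exact (mul_self_eq_zero).1 this))
      exact ⟨g, hg, hgx ▸ hnorm I hIR⟩
    · rw [pow_succ, pow_two, Units.val_mul, Units.val_mul] at hz
      have h3 : (3 : F) ≠ 0 := fun h => by
        have := (CharP.cast_eq_zero_iff F p 3).1 (by simpa using h)
        have := Nat.le_of_dvd (by norm_num) this
        omega
      have hD : ∀ t : F, (t = 1 ∨ t = -1) → t ^ 2 ≠ 4 := by
        rintro t (rfl | rfl) e <;> exact h3 (by linear_combination -e)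
      rcases trace_of_cube hns (sl_det hx) hz with ht | ht
      · have hC : I * I * s ∈ Cfsg.Geo.subgroupNormalizer R := mul_mem (hnorm _ (mul_mem hIR hIR)) hsN
        obtain ⟨g, hg, hgx⟩ := conj_of_trace hodd h2 (y := I * I * s) (sl_det hx)
          (by simp [s, hiM, hI2, Matrix.det_neg, hdS]) (by simp [s, hiM, hI2, htS, ht]) (hD _ (Or.inl ht))
        exact ⟨g, hg, hgx ▸ hC⟩
      · obtain ⟨g, hg, hgx⟩ := conj_of_trace hodd h2 (y := s) (sl_det hx) hdS (ht.trans htS.symm) (hD _ (Or.inr ht))
        exact ⟨g, hg, hgx ▸ hsN⟩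

end Cfsg.Agent.S5997
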